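import Cfsg.Statements.S0406
import Cfsg.Agent.Lib.LU.C
import Cfsg.Agent.S1587
import Cfsg.Agent.S1588

set_option autoImplicit false
open Matrix
open Cfsg

namespace Cfsg.Agent.S0406

open Cfsg.Lib.Leech Cfsg.Lib.LU Finset
open scoped Pointwise

theorem half_set {V : Type} [AddCommGroup V] {S : Set V} (hS : S.ncard = 48)
    (hneg : ∀ x ∈ S, -x ∈ S) (hne : ∀ x ∈ S, -x ≠ x) :
    ∃ X : Fin 24 → V, (∀ i, X i ∈ S) ∧ ∀ i j, i ≠ j → X j ≠ X i ∧ X j ≠ -X i := by
  classical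
  letI : LinearOrder V := linearOrderOfSTO WellOrderingRel
  have hfin : S.Finite := Set.finite_of_ncard_ne_zero (by omega)
  have h1 : {x | x ∈ S ∧ x < -x}.ncard = {x | x ∈ S ∧ -x < x}.ncard := by
    refine Set.ncard_congr (fun x _ => -x) ?_ ?_ ?_
    · rintro x ⟨hx, h⟩; exact ⟨hneg x hx, by rwa [neg_neg]⟩
    · intro x y _ _ e; exact neg_injective e
    · rintro x ⟨hx, h⟩; exact ⟨-x, ⟨hneg x hx, by rwa [neg_neg]⟩, neg_neg x⟩
  have h2 : S = {x | x ∈ S ∧ x < -x} ∪ {x | x ∈ S ∧ -x < x} := by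
    ext x
    constructor
    · intro hx
      rcases lt_or_gt_of_ne (hne x hx) with h | h
      · exact Or.inr ⟨hx, h⟩
      · exact Or.inl ⟨hx, h⟩
    · rintro (h | h) <;> exact h.1
  have h3 := Set.ncard_union_eq (s := {x | x ∈ S ∧ x < -x}) (t := {x | x ∈ S ∧ -x < x})
    (Set.disjoint_left.2 fun x a b => lt_asymm a.2 b.2) (hfin.subset fun x hx => hx.1)
    (hfin.subset fun x hx => hx.1)
  rw [← h2, ← h1, hS] at h3
  have hf : Finite {x | x ∈ S ∧ x < -x} := (hfin.subset fun x hx => hx.1).to_subtype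
  have e := Finite.equivFinOfCardEq (α := {x | x ∈ S ∧ x < -x}) (n := 24) (by
    rw [Nat.card_coe_set_eq]; omega)
  refine ⟨fun i => e.symm i, fun i => (e.symm i).2.1, fun i j hij => ⟨fun h => hij ?_, fun h => ?_⟩⟩
  · exact (e.symm.injective (Subtype.ext h)).symm
  · have a := (e.symm i).2.2
    have b := (e.symm j).2.2
    simp only at h
    rw [h, neg_neg] at b
    exact lt_asymm a b

/-- A rank-24 even lattice with no roots and the stated numbers of vectors of norms 4, 6, 8 is isomorphic to the Leech lattice. -/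
theorem result (B : Matrix (Fin 24) (Fin 24) ℤ) (hsymm : B.IsSymm) (hpos : ∀ x : Fin 24 → ℤ, x ≠ 0 → 0 < x ⬝ᵥ (B *ᵥ x)) (heven : ∀ x : Fin 24 → ℤ, (2 : ℤ) ∣ x ⬝ᵥ (B *ᵥ x)) (h2 : ∀ x : Fin 24 → ℤ, x ⬝ᵥ (B *ᵥ x) ≠ 2) (h4 : {x : Fin 24 → ℤ | x ⬝ᵥ (B *ᵥ x) = 4}.ncard = 196560) (h6 : {x : Fin 24 → ℤ | x ⬝ᵥ (B *ᵥ x) = 6}.ncard = 16773120) (h8 : {x : Fin 24 → ℤ | x ⬝ᵥ (B *ᵥ x) = 8}.ncard = 398034000) : ∃ f : (Fin 24 → ℤ) ≃+ Cfsg.leechLattice, ∀ x : Fin 24 → ℤ, Cfsg.sqNorm ((f x : Cfsg.leechLattice) : Cfsg.GolayPt → ℤ) = 8 * (x ⬝ᵥ (B *ᵥ x)) := by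
  obtain ⟨x, hx⟩ : {x : Fin 24 → ℤ | x ⬝ᵥ (B *ᵥ x) = 8}.Nonempty :=
    Set.nonempty_of_ncard_ne_zero (by omega)
  have hsy : ∀ y z : Fin 24 → ℤ, y ⬝ᵥ (B *ᵥ z) = z ⬝ᵥ (B *ᵥ y) := gramHom_symm hsymm
  obtain ⟨X, hX, hXij⟩ := half_set (S1588.result B hsymm hpos heven h2 h4 h6 h8 x hx)
    (by
      rintro y ⟨hy, hc⟩
      refine ⟨by simpa [mulVec_neg] using hy, fun i => ?_⟩
      have := hc i
      simp only [Pi.sub_apply, Pi.neg_apply] at this ⊢
      omega)
    (by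
      rintro y ⟨hy, -⟩ e
      have : y = 0 := funext fun i => by
        have := congrFun e i
        simp only [Pi.neg_apply] at this
        simp only [Pi.zero_apply]; omega
      rw [this] at hy; simp at hy)
  have hcong : ∀ i j k, (2 : ℤ) ∣ (X i - X j) k := fun i j k => by
    have a := (hX i).2 k
    have b := (hX j).2 k
    simp only [Pi.sub_apply] at a b ⊢
    omega
  have horth : ∀ i j, X i ⬝ᵥ (B *ᵥ X j) = if i = j then 8 else 0 := fun i j => by
    split_ifs with hij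
    · rw [← hij]; exact (hX i).1
    · rcases S1587.result B hsymm hpos heven h2 _ _ (hX i).1 (hX j).1 (hcong i j) with e | e | e
      · exact absurd e (hXij i j hij).1
      · exact absurd e (hXij i j hij).2
      · exact e
  let M : Matrix (Fin 24) (Fin 24) ℤ := Matrix.of X
  have hM : (M * B) * Mᵀ = (8 : ℤ) • (1 : Matrix (Fin 24) (Fin 24) ℤ) := by
    ext i j
    rw [Matrix.mul_assoc, Matrix.smul_apply, Matrix.one_apply, smul_ite, smul_zero, smul_eq_mul,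
      mul_one, ← horth i j]
    rfl
  have hM' : Mᵀ * (M * B) = (8 : ℤ) • (1 : Matrix (Fin 24) (Fin 24) ℤ) := by
    have hd : (M * B).det ≠ 0 := fun e => by
      have := congrArg Matrix.det hM
      rw [det_mul, e, zero_mul, det_smul, det_one] at this
      norm_num at this
    have h1 : (M * B) * (Mᵀ * (M * B) - (8 : ℤ) • (1 : Matrix (Fin 24) (Fin 24) ℤ)) = 0 := by
      rw [Matrix.mul_sub, ← Matrix.mul_assoc, hM, Matrix.smul_mul, Matrix.mul_smul,
        Matrix.one_mul, Matrix.mul_one, sub_self]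
    have h2 := congrArg ((M * B).adjugate * ·) h1
    simp only [Matrix.mul_zero] at h2
    rw [← Matrix.mul_assoc, adjugate_mul, Matrix.smul_mul, Matrix.one_mul] at h2
    exact sub_eq_zero.1 ((smul_eq_zero.1 h2).resolve_left hd)
  let ι : GolayPt ≃ Fin 24 := Fintype.equivFinOfCardEq card_golayPt
  let f : (Fin 24 → ℤ) →+ (GolayPt → ℤ) :=
    AddMonoidHom.mk' (fun y p => ((M * B) *ᵥ y) (ι p)) fun y z => by
      funext p; simp [mulVec_add]
  have hf : ∀ y p, f y p = X (ι p) ⬝ᵥ (B *ᵥ y) := fun y p => by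
    show ((M * B) *ᵥ y) (ι p) = _
    rw [← mulVec_mulVec]; rfl
  have hdot : ∀ y z, dotInt (f y) (f z) = 8 * (y ⬝ᵥ (B *ᵥ z)) := fun y z => by
    have : dotInt (f y) (f z) = ((M * B) *ᵥ y) ⬝ᵥ ((M * B) *ᵥ z) :=
      Equiv.sum_comp ι fun k => ((M * B) *ᵥ y) k * ((M * B) *ᵥ z) k
    rw [this, ← mulVec_mulVec y, dotProduct_comm, dotProduct_mulVec, ← mulVec_transpose,
      mulVec_mulVec, hM', smul_mulVec, one_mulVec, smul_dotProduct, hsy, smul_eq_mul]
  have hnorm : ∀ y, sqNorm (f y) = 8 * (y ⬝ᵥ (B *ᵥ y)) := fun y => by rw [sqNorm_eq_dot, hdot]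
  have hinj : Function.Injective f := (injective_iff_map_eq_zero f).2 fun y hy => by
    by_contra h0
    have a := hpos y h0
    have b := hnorm y
    rw [hy] at b
    simp [sqNorm] at b
    omega
  have hpre : Pre f.range := by
    refine ⟨?_, ?_, ?_, ?_, ?_⟩
    · rintro _ ⟨y, rfl⟩ _ ⟨z, rfl⟩; rw [hdot]; exact dvd_mul_right _ _
    · rintro _ ⟨y, rfl⟩; have := heven y; rw [hnorm]; omega
    · rintro _ ⟨y, rfl⟩; have := h2 y; rw [hnorm]; omega
    · intro i j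
      refine ⟨fun k => (X (ι i) k + X (ι j) k) / 2, funext fun p => ?_⟩
      have e : (2 : ℤ) • (fun k => (X (ι i) k + X (ι j) k) / 2) = X (ι i) + X (ι j) := by
        funext k
        have := hcong (ι i) (ι j) k
        simp only [Pi.sub_apply] at this
        simp only [Pi.smul_apply, smul_eq_mul, Pi.add_apply]; omega
      have e2 := congrArg (fun y => f y p) e
      simp only [map_zsmul, map_add, Pi.smul_apply, smul_eq_mul, Pi.add_apply] at e2
      rw [hf (X (ι i)), hf (X (ι j)), horth, horth] at e2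
      simp only [Pi.add_apply, Pi.single_apply, EmbeddingLike.apply_eq_iff_eq] at e2 ⊢
      split_ifs at e2 ⊢ <;> omega
    · rw [← h4]
      refine (Set.ncard_congr (fun y _ => f y) ?_ (fun y z _ _ e => hinj e) ?_).symm
      · intro y hy
        exact ⟨⟨y, rfl⟩, by rw [hnorm, hy]; rfl⟩
      · rintro _ ⟨⟨y, rfl⟩, hy⟩
        refine ⟨y, ?_, rfl⟩
        rw [hnorm] at hy
        show y ⬝ᵥ (B *ᵥ y) = 4
        omega
  obtain ⟨σ, c, hσ⟩ := hpre.ident
  let g : (Fin 24 → ℤ) →+ leechLattice :=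
    AddMonoidHom.mk' (fun y => ⟨signedPerm σ c (f y), (hσ _).1 ⟨y, rfl⟩⟩) fun y z =>
      Subtype.ext (by simp only [map_add, signedPerm_add]; rfl)
  have hg : ∀ y, (g y : GolayPt → ℤ) = signedPerm σ c (f y) := fun _ => rfl
  have hl : ∀ x, signedPerm σ⁻¹ (σ⁻¹ • c) (signedPerm σ c x) = x := fun x => by
    simp only [signedPerm_comp, inv_mul_cancel, symmDiff_self, bot_eq_empty, signedPerm_one]
  have hr : ∀ x, signedPerm σ c (signedPerm σ⁻¹ (σ⁻¹ • c) x) = x := fun x => by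
    simp only [signedPerm_comp, mul_inv_cancel, smul_inv_smul, symmDiff_self, bot_eq_empty,
      signedPerm_one]
  refine ⟨AddEquiv.ofBijective g ⟨fun y z e => hinj ?_, fun v => ?_⟩, fun y => ?_⟩
  · rw [← hl (f y), ← hg, e, hg, hl]
  · obtain ⟨y, hy⟩ := (hσ (signedPerm σ⁻¹ (σ⁻¹ • c) v)).2 (by rw [hr]; exact v.2)
    exact ⟨y, Subtype.ext (by rw [hg, hy, hr])⟩
  · show sqNorm (g y : GolayPt → ℤ) = _
    rw [hg, sqNorm_signedPerm, hnorm]

end Cfsg.Agent.S0406
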