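import Cfsg.Statements.S2113
import Cfsg.Agent.Lib.Sz.Mult
import Cfsg.Agent.Lib.Ree.Orders
import Cfsg.Agent.Lib.Ree.Aut
import Cfsg.Agent.Lib.Ree.Inst

set_option autoImplicit false
open Cfsg

namespace Cfsg.Agent.S2113

section

open Lib.Sz Subgroup Lib.Inv Lib.Transfer
open scoped commutatorElement MatrixGroups

variable {K : Type*} [Field K] [Finite K] {G : Type*} [Group G] (M : Lib.Ree.Model K G)
  (hq : 3 < Nat.card K) {Γ : Type*} [Group Γ] {σ : Γ →* G}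

include M hq

theorem two (hs : Function.Surjective σ) (hc : σ.ker ≤ center Γ) (P : Sylow 2 G) :
    ⁅(P : Subgroup G).comap σ, (P : Subgroup G).comap σ⁆ = ⊥ := by
  have := M.finite
  obtain ⟨c, hc'⟩ := exists_pairing hs hc
  have h0 : ∀ x y, x * y = y * x → c x y ∈ center Γ := fun x y h => by
    obtain ⟨x, rfl⟩ := hs x
    obtain ⟨y, rfl⟩ := hs y
    rw [hc']
    exact hc (by rw [MonoidHom.mem_ker, map_commutatorElement, commutatorElement_eq_one_iff_mul_comm, h])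
  have h1 : ∀ x y y', x * y' = y' * x → c x (y * y') = c x y * c x y' := fun x y y' h => by
    have h := h0 _ _ h
    obtain ⟨x, rfl⟩ := hs x
    obtain ⟨y, rfl⟩ := hs y
    obtain ⟨y', rfl⟩ := hs y'
    rw [hc'] at h
    rw [← map_mul, hc', hc', hc', commutatorElement_mul_right_eq_mul_conj, mul_assoc ⁅x, y⁆,
      mem_center_iff.1 h, ← mul_assoc, mul_inv_cancel_right]
  have h2 : ∀ g x y, x * y = y * x → c (g * x * g⁻¹) (g * y * g⁻¹) = c x y := fun g x y h => by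
    have h := h0 _ _ h
    obtain ⟨x, rfl⟩ := hs x
    obtain ⟨y, rfl⟩ := hs y
    obtain ⟨g, rfl⟩ := hs g
    rw [hc'] at h
    simp only [← map_mul, ← map_inv, hc']
    rw [← conjugate_commutatorElement, mem_center_iff.1 h, mul_inv_cancel_right]
  have h3 : ∀ x, c x x = 1 := fun x => by
    obtain ⟨x, rfl⟩ := hs x
    rw [hc', commutatorElement_self]
  obtain ⟨-, t, ht, -⟩ := M.exists_torQ hq
  have hV := M.isKleinFour_ext ht
  obtain ⟨v, hv, hv1, hva⟩ := k4_exists_ne hV M.a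
  have ha := M.a_mem_ext (zpowers t)
  have ho : ∀ x ∈ (P : Subgroup G), x ≠ 1 → orderOf x = 2 := fun x hx h =>
    orderOf_eq_prime (by rw [sq, M.mul_self_of_mem_sylow P hx]) h
  have h4 : ∀ x ∈ (P : Subgroup G), ∀ y ∈ (P : Subgroup G), x ≠ 1 → y ≠ 1 → x ≠ y →
      c x y = c M.a v := fun x hx y hy hx1 hy1 hxy => by
    have h5 := M.comm_of_isPGroup P.2 hx hy
    obtain ⟨g, hg, hg'⟩ := M.exists_conj_four hq ht (k4_sup (ho x hx hx1) (ho y hy hy1) hxy h5)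
      (mem_sup_left (mem_zpowers x)) hx1
    have h6 : g * y * g⁻¹ ∈ M.ext (zpowers t) := hg' ▸ conj_mem_conj.2 (mem_sup_right (mem_zpowers y))
    rw [← h2 g x y h5, hg]
    rcases (k4_mem_iff hV ha hv M.a_ne_one hv1 hva.symm).1 h6 with h | h | h | h
    · exact absurd h (conj_ne_one hy1)
    · exact absurd (by simpa using hg.trans h.symm) hxy
    · rw [h]
    · rw [h, h1 _ _ _ (k4_comm hV ha hv), h3, one_mul]
  refine eq_bot_iff.2 (commutator_le.2 fun x hx y hy => mem_bot.2 ?_)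
  by_contra hn
  rw [← hc'] at hn
  rw [mem_comap] at hx hy
  have hx1 : σ x ≠ 1 := fun e => hn (by rw [e, ← map_one σ, hc', commutatorElement_one_left])
  have hy1 : σ y ≠ 1 := fun e => hn (by rw [e, ← map_one σ, hc', commutatorElement_one_right])
  have hxy : σ x ≠ σ y := fun e => hn (by rw [e, h3])
  have h5 := k4_sup (ho _ hx hx1) (ho _ hy hy1) hxy (M.comm_of_isPGroup P.2 hx hy)
  obtain ⟨w, hw, h6⟩ : ∃ w ∈ (P : Subgroup G), w ∉ zpowers (σ x) ⊔ zpowers (σ y) :=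
    SetLike.not_le_iff_exists.1 fun h => by
      have := card_le_of_le h
      rw [h5.card_four, M.card_sylow_two] at this
      omega
  have h7 := mem_sup_left (T := zpowers (σ y)) (mem_zpowers (σ x))
  have h8 := mem_sup_right (S := zpowers (σ x)) (mem_zpowers (σ y))
  have h9 := h1 _ (σ y) w (M.comm_of_isPGroup P.2 hx hw)
  rw [h4 _ hx _ (mul_mem hy hw) hx1 (fun e => h6 ((mul_mem_cancel_left h8).1 (e ▸ one_mem _)))
    (fun e => h6 ((mul_mem_cancel_left h8).1 (e ▸ h7))),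
    h4 _ hx w hw hx1 (fun e => h6 (e ▸ one_mem _)) (fun e => h6 (e ▸ h7)), right_eq_mul] at h9
  exact hn h9

theorem hom (φ : G → ℂˣ) (h : ∀ x ∈ M.U, ∀ y ∈ M.U, φ (x * y) = φ x * φ y) (a b c : K) :
    φ (M.u a b c) = φ (M.u a 0 0) := by
  have h1 : ∀ a b c b' c', φ (M.u a (b + b') (c + c')) = φ (M.u a b c) * φ (M.u 0 b' c') :=
    fun a b c b' c' => by rw [← h _ (M.u_mem_U ..) _ (M.u_mem_U ..), M.u_mul]; simp
  have h2 : ∀ x ∈ M.U, ∀ y ∈ M.U, φ (x * y * x⁻¹) = φ y := fun x hx y hy => by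
    have := h _ (mul_mem (mul_mem hx hy) (inv_mem hx)) x hx
    rw [inv_mul_cancel_right, h x hx y hy, mul_comm] at this
    exact (mul_right_cancel this).symm
  have h3 : ∀ c, φ (M.u 0 0 c) = 1 := fun c => by
    have := h2 _ (M.u_mem_U c 0 0) _ (M.u_mem_U 0 1 0)
    rw [M.u_conj] at this
    rw [← mul_eq_left (a := φ (M.u 0 1 0)), ← h1, ← this]
    simp
  have h4 : ∀ x a c, φ (M.u 0 (a * M.ψ x - x * M.ψ a) c) = 1 := fun x a c => by
    have := h2 _ (M.u_mem_U x 0 0) _ (M.u_mem_U a 0 0)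
    rw [M.u_conj, add_sub_assoc, mul_zero, mul_zero, add_zero, sub_zero, add_assoc, add_assoc, h1,
      mul_eq_left] at this
    rw [← this, ← mul_one (φ _), ← h3, ← h1, add_zero, add_sub_cancel]
  have h5 : φ (M.u 0 b c) = 1 := by
    obtain ⟨x, -, hx⟩ := M.exists_ψ_ne hq
    rcases eq_or_ne b 0 with rfl | hb
    · exact h3 c
    have h6 := sub_ne_zero.2 hx
    obtain ⟨l, hl | hl, -⟩ := M.exists_stW (div_ne_zero hb h6) <;> rw [div_eq_iff h6] at hl
    · rw [← h4 (l * x) l c, hl, map_mul]; congr 2; ring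
    · rw [← h4 l (l * x) c, hl, map_mul]; congr 2; ring
  rw [← mul_one (φ (M.u a 0 0)), ← h5, ← h1, zero_add, zero_add]

theorem three [Finite Γ] (hs : Function.Surjective σ) (hc : σ.ker ≤ center Γ) {z : Γ}
    (hz : z ∈ σ.ker) (ho : orderOf z = 3) (h : z ∈ ⁅M.U.comap σ, M.U.comap σ⁆) :
    z ∈ (⊥ : Subgroup Γ) := by
  have h0 := M.three
  obtain ⟨s, hs0, hs1⟩ : ∃ s : K, s ≠ 0 ∧ s ^ 2 ≠ 1 := by
    have := M.card_mod
    obtain ⟨a, ha⟩ := exists_pow_ne_one_of_isCyclic (G := Kˣ) two_ne_zero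
      (by rw [Nat.card_units]; omega)
    exact ⟨a, a.ne_zero, fun e => ha (Units.ext e)⟩
  have hs2 : s + 1 ≠ 0 := fun e => hs1 (by linear_combination (s - 1) * e)
  have hs3 : s - 1 ≠ 0 := fun e => hs1 (by linear_combination (s + 1) * e)
  have ho' : (orderOf z).Coprime (Nat.card Kˣ) := by
    have := M.card_mod
    rw [ho, Nat.card_units, Nat.prime_three.coprime_iff_not_dvd]
    omega
  let Y : Subgroup G :=
    { carrier := {g | ∃ b c, g = M.u 0 b c}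
      mul_mem' := by rintro _ _ ⟨b, c, rfl⟩ ⟨b', c', rfl⟩; exact ⟨_, _, M.u_mul_zero ..⟩
      one_mem' := ⟨0, 0, M.u_zero.symm⟩
      inv_mem' := by rintro _ ⟨b, c, rfl⟩; exact ⟨_, _, by rw [M.u_inv, neg_zero]⟩ }
  let Z : Subgroup G :=
    { carrier := {g | ∃ c, g = M.u 0 0 c}
      mul_mem' := by rintro _ _ ⟨c, rfl⟩ ⟨c', rfl⟩; exact ⟨_, by rw [M.u_mul_zero, add_zero]⟩
      one_mem' := ⟨0, M.u_zero.symm⟩
      inv_mem' := by rintro _ ⟨c, rfl⟩; exact ⟨-c, by rw [M.u_inv]; simp⟩ }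
  have hY : ∀ {a b c}, a = 0 → M.u a b c ∈ Y := by rintro _ b c rfl; exact ⟨b, c, rfl⟩
  have hZ : ∀ {a b c}, a = 0 → b = 0 → M.u a b c ∈ Z := by rintro _ _ c rfl rfl; exact ⟨c, rfl⟩
  have hYU : Y ≤ M.U := fun _ ⟨_, _, e⟩ => ⟨_, _, _, e⟩
  have hZY : Z ≤ Y := fun _ ⟨_, e⟩ => ⟨_, _, e⟩
  have hU : ∀ l, ∀ x ∈ M.U, M.h l * x * (M.h l)⁻¹ ∈ M.U := fun l _ => M.h_conj_mem_U l
  have hu := M.u_mem_U
  have add : ∀ φ : G → ℂˣ, (∀ x ∈ M.U, ∀ y ∈ M.U, φ (x * y) = φ x * φ y) → ∀ a a',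
      φ (M.u (a + a') 0 0) = φ (M.u a 0 0) * φ (M.u a' 0 0) := fun φ h a a' => by
    rw [← h _ (hu ..) _ (hu ..), M.u_mul, eq_comm, hom M hq φ h]
  rw [← commutator_comap_bot hc (M.U.comap σ)]
  refine mem_commutator_step hs hc M.h (hZY.trans hYU) bot_le ?_ hU (by simp) ?_ hz ho'
    (mem_commutator_step hs hc M.h hYU hZY ?_ hU ?_ ?_ hz ho'
      (mem_commutator_step hs hc M.h le_rfl hYU ?_ hU ?_ ?_ hz ho' h))
  · rintro _ ⟨c, rfl⟩ _ ⟨x, y, z, rfl⟩
    rw [commutatorElement_def, M.u_conj]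
    simp
  · rintro c h1 h2 - h3 _ ⟨x, rfl⟩ _ ⟨y, b, d, rfl⟩
    rw [hom M hq _ (h2 _ (hZ rfl rfl))]
    by_contra hn
    have h4 := add_of_pairing (c := fun x y => c (M.u 0 0 x) (M.u y 0 0))
      (g := fun s => M.ψ s / s ^ 2)
      (fun x x' y => by rw [← h1 _ (hZ rfl rfl) _ (hZ rfl rfl) _ (hu ..), M.u_mul_zero, add_zero])
      (fun x => add _ (h2 _ (hZ rfl rfl))) (by simp) (fun s hs x y => by
        have h5 := M.ψ_ne_zero hs
        rw [← h3 (Units.mk0 _ (div_ne_zero (pow_ne_zero 2 hs) h5)) _ (hZ (c := x) rfl rfl) _ (hu ..),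
          M.h_u, M.h_u, Units.val_mk0, map_div₀, map_pow, M.ψψ]
        simp only [mul_zero]
        congr 2 <;> field_simp) hn s 1
    simp only [map_add, map_one] at h4
    field_simp at h4
    have h5 : M.ψ s = s ^ 3 := mul_left_cancel₀ hs3 (by
      linear_combination h4 + (s * M.ψ s + s ^ 3) * h0)
    have h6 := M.ψψ s
    rw [h5, map_pow, h5] at h6
    refine hs1 (sub_eq_zero.1 (pow_eq_zero_iff three_ne_zero |>.1 (mul_left_cancel₀
      (pow_ne_zero 3 hs0) ?_)))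
    linear_combination h6 + (s ^ 5 - s ^ 7) * h0
  · rintro _ ⟨b, c, rfl⟩ _ ⟨x, y, z, rfl⟩
    rw [commutatorElement_def, M.u_conj, M.u_inv, M.u_mul]
    exact hZ (by ring) (by simp only [map_neg, map_zero]; ring)
  · rintro l _ ⟨c, rfl⟩
    exact M.h_u .. ▸ hZ (mul_zero _) (mul_zero _)
  · rintro c h1 h2 h3 h4 _ ⟨b, d, rfl⟩ _ ⟨x, y, z, rfl⟩
    have h5 := h4 (-1) _ (hY (b := b) (c := 0) rfl) _ (hu x 0 0)
    have h6 := add _ (h2 _ (hY (b := b) (c := 0) rfl)) (-x) (-x)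
    simp only [M.h_u, Units.val_neg, Units.val_one, map_neg, map_one, mul_zero, neg_mul, mul_neg,
      neg_neg, one_mul] at h5
    rw [h5, show -x + -x = x by linear_combination -x * h0, left_eq_mul] at h6
    rw [hom M hq _ (h2 _ (hY rfl)), ← add_zero b, ← zero_add d, ← M.u_mul_zero,
      h1 _ (hY rfl) _ (hY rfl) _ (hu ..), h6, h3 _ (hZ rfl rfl) _ (hu ..), mul_one]
  · rintro _ ⟨a, b, c, rfl⟩ _ ⟨x, y, z, rfl⟩
    rw [commutatorElement_def, M.u_conj, M.u_inv, M.u_mul]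
    exact hY (by ring)
  · rintro l _ ⟨b, c, rfl⟩
    exact M.h_u .. ▸ hY (mul_zero _)
  · rintro c h1 h2 - h3 _ ⟨x, b, d, rfl⟩ _ ⟨y, b', d', rfl⟩
    rw [hom M hq _ (h2 _ (hu ..)), hom M hq (c · _) fun x hx y hy => h1 x hx y hy _ (hu ..)]
    by_contra hn
    have h4 := add_of_pairing (c := fun x y => c (M.u x 0 0) (M.u y 0 0)) (g := fun s => s⁻¹)
      (fun x x' y => add (c · _) (fun x hx y hy => h1 x hx y hy _ (hu ..)) x x')
      (fun x => add _ (h2 _ (hu ..))) inv_zero (fun s hs x y => by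
        rw [← h3 (Units.mk0 _ hs) _ (hu x 0 0) _ (hu ..), M.h_u, M.h_u, Units.val_mk0,
          mul_inv_cancel_left₀ hs, mul_zero, mul_zero]) hn s 1
    simp only [inv_one] at h4
    field_simp at h4
    exact pow_ne_zero 2 hs3 (by linear_combination -h4 - s * h0)

end

/-- Schur multipliers of the small Ree groups: for q = 3^(2m+1) with m ≥ 1 the Schur multiplier of ²G₂(q) is trivial (here the Schur multiplier is described through stem extensions, as in the definitions). -/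
theorem result {K : Type*} [Field K] [Fintype K] {m : ℕ} (hm : 1 ≤ m) (hK : Fintype.card K = 3 ^ (2 * m + 1)) : Cfsg.HasCyclicSchurMultiplier ↥(Cfsg.Lie.twistedG2 K (3 ^ m)) 1 := by
  obtain ⟨M, -⟩ := Lib.Ree.exists_model hK
  have hq := Lib.Ree.three_lt_card hm hK
  have := M.finite
  refine Lib.Sz.trivial_of_forall fun p hp => ?_
  rcases eq_or_ne p 3 with rfl | h3
  · exact ⟨M.U, M.not_dvd_index_U, fun Γ _ _ σ hs hc z => three M hq hs hc⟩
  obtain ⟨P⟩ : Nonempty (Sylow p (Cfsg.Lie.twistedG2 K (3 ^ m))) := inferInstance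
  refine ⟨P, P.not_dvd_index, fun Γ _ _ σ hs hc z _ _ h => ?_⟩
  rcases eq_or_ne p 2 with rfl | h2
  · exact two M hq hs hc P ▸ h
  refine Lib.Sz.commutator_comap_of_isCyclic hc ?_ ▸ h
  rcases eq_or_ne (P : Subgroup (Cfsg.Lie.twistedG2 K (3 ^ m))) ⊥ with e | e
  · rw [e]; infer_instance
  obtain ⟨t, ht, -⟩ := M.exists_le_tor hq (Lib.Ree.sq_eq_three_mul hK) hp.out h2 h3 P.2 e
  have := t.cyc
  exact Subgroup.isCyclic_of_le ht

end Cfsg.Agent.S2113
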