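import Cfsg.Statements.S0231
import Cfsg.Agent.Lib.Inv.StronglyEmbedded

set_option autoImplicit false
open scoped Pointwise
open Cfsg

namespace Cfsg.Agent.S0231
open Cfsg.Lib.Inv


/-- Let T be a Sylow 2-subgroup of the finite group G which is not normal and which intersects every other Sylow 2-subgroup trivially. Then G has a single conjugacy class of involutions. -/
theorem result {G : Type*} [Group G] [Finite G] (T : Sylow 2 G) (hnn : ¬ (T : Subgroup G).Normal) (hTI : ∀ g : G, MulAut.conj g • (T : Subgroup G) ≠ T → MulAut.conj g • (T : Subgroup G) ⊓ T = ⊥) (s t : G) (hs : orderOf s = 2) (ht : orderOf t = 2) : IsConj s t := by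
  have hT : (T : Subgroup G) ≠ ⊥ := fun h => hnn (h ▸ inferInstance)
  obtain ⟨a, haT, ha⟩ := exists_involution_mem_of_isPGroup T.2 hT
  have hin : ∀ x ∈ Subgroup.normalizer ((T : Subgroup G) : Set G), orderOf x = 2 →
      x ∈ (T : Subgroup G) := by
    intro x hx h2
    have := (isPGroup_zpowers_of_mul_self (mul_self_of_orderOf h2)).inf_normalizer_sylow T
    have h3 : x ∈ Subgroup.zpowers x ⊓ (T : Subgroup G) := by
      rw [← this]; exact ⟨Subgroup.mem_zpowers x, hx⟩
    exact h3.2
  refine se_isConj (H := Subgroup.normalizer ((T : Subgroup G) : Set G)) (se_iff.2 ⟨fun h => hnn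
    (Subgroup.normalizer_eq_top_iff.1 h),
    even_card_of_involution_mem ha (Subgroup.le_normalizer haT), fun x g hx h1 h2 => ?_⟩) hs ht
  have h3 := hin x h1 hx
  have h4 := hin _ h2 (by rw [orderOf_conj', hx])
  by_contra hc
  have h5 := hTI g fun h => hc (Lib.Transfer.conj_eq_self_iff.1 h)
  have h6 : g * x * g⁻¹ ∈ MulAut.conj g • (T : Subgroup G) ⊓ T :=
    ⟨Subgroup.smul_mem_pointwise_smul x (MulAut.conj g) T h3, h4⟩
  rw [h5, Subgroup.mem_bot] at h6
  exact ne_one_of_orderOf hx (by simpa using h6)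

end Cfsg.Agent.S0231
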