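import Cfsg.Statements.S1008
import Cfsg.Agent.Lib.Small.O168

set_option autoImplicit false
open Cfsg

namespace Cfsg.Agent.S1008

open Lib.Small Lib.Small.O168 Lib.Transfer Subgroup

/-- In a simple group of order 168 every maximal subgroup is either isomorphic to the symmetric group of degree 4 or non-abelian of order 21; the maximal subgroups of order 21 form one conjugacy class and those isomorphic to the symmetric group of degree 4 form exactly two conjugacy classes. -/
theorem result {G : Type*} [Group G] [Finite G] [IsSimpleGroup G] (h : Nat.card G = 168) : (∀ M : Subgroup G, IsCoatom M → Nonempty (↥M ≃* Equiv.Perm (Fin 4)) ∨ (Nat.card ↥M = 21 ∧ ¬ IsMulCommutative ↥M)) ∧ (∀ M M' : Subgroup G, IsCoatom M → IsCoatom M' → Nat.card ↥M = 21 → Nat.card ↥M' = 21 → ∃ g : G, M' = M.map (MulAut.conj g).toMonoidHom) ∧ ∃ M₁ M₂ : Subgroup G, IsCoatom M₁ ∧ IsCoatom M₂ ∧ Nonempty (↥M₁ ≃* Equiv.Perm (Fin 4)) ∧ Nonempty (↥M₂ ≃* Equiv.Perm (Fin 4)) ∧ (∀ g : G, M₂ ≠ M₁.map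 (MulAut.conj g).toMonoidHom) ∧ ∀ M : Subgroup G, IsCoatom M → Nonempty (↥M ≃* Equiv.Perm (Fin 4)) → ∃ g : G, M = M₁.map (MulAut.conj g).toMonoidHom ∨ M = M₂.map (MulAut.conj g).toMonoidHom := by
  haveI : Fact (Nat.Prime 7) := ⟨by norm_num⟩
  refine ⟨fun M hM => ?_, fun M M' hM hM' h1 h2 => ?_, ?_⟩
  · rcases of_isCoatom h hM with h1 | ⟨x, hx, rfl⟩
    · exact Or.inl (equiv_perm_four h h1)
    · refine Or.inr ⟨card_normalizer_seven h hx, fun hc => relIndex_ne_one h (Or.inr rfl) hx ?_⟩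
      rw [relIndex_eq_one]
      intro g hg
      exact (selfCent h (Or.inr rfl) hx).mem_of_commute
        (congrArg Subtype.val (mul_comm' (⟨g, hg⟩ : normalizer (zpowers x : Set G))
          ⟨x, le_normalizer (mem_zpowers x)⟩))
  · obtain ⟨x, hx, rfl⟩ := (of_isCoatom h hM).resolve_left (by omega)
    obtain ⟨y, hy, rfl⟩ := (of_isCoatom h hM').resolve_left (by omega)
    obtain ⟨g, hg⟩ := (selfCent h (Or.inr rfl) hy).exists_conj_mem hx
    refine ⟨g, ?_⟩
    rw [conj_normalizer, conj_zpowers, (selfCent h (Or.inr rfl) hy).zpowers_eq hg fun e => ?_]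
    have := orderOf_eq_of_isConj (isConj_iff.mpr ⟨g, e⟩)
    rw [hx, orderOf_one] at this
    omega
  · obtain ⟨T⟩ : Nonempty (Sylow 2 G) := inferInstance
    obtain ⟨U, W, h1, h2⟩ := exists_two_four h T
    obtain ⟨hU, hU'⟩ := (h2 U).mpr (Or.inl rfl)
    obtain ⟨hW, hW'⟩ := (h2 W).mpr (Or.inr rfl)
    have h3 := card_normalizer_four h hU'
    have h4 := card_normalizer_four h hW'
    refine ⟨_, _, isCoatom_of_card h (Or.inl h3), isCoatom_of_card h (Or.inl h4),
      equiv_perm_four h h3, equiv_perm_four h h4, fun g e => h1 ?_, fun M _ ⟨e⟩ => ?_⟩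
    · rw [conj_normalizer] at e
      have := eq_of_normalizer_eq h hW' (isKleinFour_map (MulAut.conj g).injective hU') e
      rw [this, conj_four_eq h T hU' hU (this ▸ hW)]
    · obtain ⟨V, hV, rfl⟩ := exists_four_of_card h
        ((Nat.card_congr e.toEquiv).trans Lib.PSL2.card_perm_four)
      obtain ⟨g, hg⟩ := exists_conj_le_sylow T (isPGroup_four hV.card_four)
      refine ⟨g⁻¹, ?_⟩
      rcases (h2 _).mp ⟨hg, isKleinFour_map (MulAut.conj g).injective hV⟩ with e' | e'
      · left; rw [← e', ← conj_normalizer, inv_conj_conj]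
      · right; rw [← e', ← conj_normalizer, inv_conj_conj]

end Cfsg.Agent.S1008
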