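import Cfsg.Statements.S2362
import Cfsg.Agent.Lib.Orth.SpecBC
import Cfsg.Agent.Lib.GLC.Zsig
import Cfsg.Agent.Lib.GLC.Singer

set_option autoImplicit false
open Cfsg

namespace Cfsg.Agent.S2362

open Cfsg.Lib Cfsg.Lib.Orth

/-- Let F be a finite field of odd order and n ≥ 3. The simple orthogonal group PΩ(2n+1, F) (type B_n) and the projective symplectic group PSp(2n, F) (type C_n), which have the same order, do not have the same set of element orders. -/
theorem result {F : Type*} [Field F] [Fintype F] (hodd : Odd (Fintype.card F)) (n : ℕ) (hn : 3 ≤ n) :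
    Set.range (orderOf : Cfsg.POmega F (Cfsg.quadFormOdd n F) → ℕ) ≠ Set.range (orderOf : Cfsg.PSp n F → ℕ) := by
  have h2 : (2 : F) ≠ 0 := odd_card_iff.1 hodd
  rw [← Nat.card_eq_fintype_card] at hodd
  have hq : 1 < Nat.card F := Finite.one_lt_card
  have hq2 : Nat.card F ≠ 2 := fun e => by rw [e] at hodd; exact absurd hodd (by decide)
  obtain ⟨m, rfl⟩ : ∃ m, n = m + 1 := ⟨n - 1, by omega⟩
  obtain ⟨p, hp⟩ := CharP.exists F
  have hpp := CharP.char_is_prime F p
  haveI := Fact.mk hpp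
  have hpo : Odd p := hpp.odd_of_ne_two fun e => h2 (by
    have := CharP.cast_eq_zero F p; rwa [e] at this)
  obtain ⟨l, hl, h3, hB, h4, hC⟩ : ∃ l : ℕ, l.Prime ∧ 3 ≤ orderOf (Nat.card F : ZMod l) ∧
      (∀ i, orderOf (Nat.card F : ZMod l) ∣ 2 * i → m ∣ i) ∧ orderOf (Nat.card F : ZMod l) ∣ 2 * m ∧
      ¬ (2 * (2 * l) ∣ Nat.card F ^ m - 1 ∨ 2 * (2 * l) ∣ Nat.card F ^ m + 1) := by
    have h5 : ∀ {l c : ℕ}, 2 * (2 * l) ∣ c → 4 ∣ c ∧ l ∣ c := fun h =>
      ⟨Dvd.dvd.trans ⟨_, by ring⟩ h, Dvd.dvd.trans ⟨4, by ring⟩ h⟩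
    have h6 := Nat.one_le_pow m _ (by omega : 0 < Nat.card F)
    rcases Nat.odd_mod_four_iff.1 (Nat.odd_iff.1 (hodd.pow (n := m))) with h | h
    · obtain ⟨l, hl, h1⟩ := GLC.zsigmondy hq (by omega : 1 < 2 * m) (by omega) (by omega)
      refine ⟨l, hl, by omega, fun i hi => Nat.dvd_of_mul_dvd_mul_left two_pos (h1 ▸ hi), h1.dvd, ?_⟩
      rintro (e | e)
      · have := (dvd_pow_sub_one_iff (by omega)).1 (h5 e).2
        exact absurd (Nat.le_of_dvd (by omega) this) (by omega)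
      · have := (h5 e).1; omega
    · have hm : Odd m := by
        by_contra h0
        obtain ⟨k, rfl⟩ := Nat.not_odd_iff_even.1 h0
        rcases Nat.odd_mod_four_iff.1 (Nat.odd_iff.1 (hodd.pow (n := k))) with e | e <;>
          rw [pow_add, Nat.mul_mod, e] at h <;> omega
      have hm' := Nat.odd_iff.1 hm
      obtain ⟨l, hl, h1⟩ := GLC.zsigmondy hq (by omega : 1 < m) (by omega) (by omega)
      refine ⟨l, hl, by omega, fun i hi => hm.coprime_two_right.dvd_of_dvd_mul_left (h1 ▸ hi),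
        h1 ▸ dvd_mul_left _ _, ?_⟩
      rintro (e | e)
      · have := (h5 e).1; omega
      · have h7 := (dvd_pow_sub_one_iff (by omega : 0 < Nat.card F)).2 h1.dvd
        have h8 := Nat.dvd_sub (h5 e).2 h7
        rw [show Nat.card F ^ m + 1 - (Nat.card F ^ m - 1) = 2 by omega] at h8
        haveI := Fact.mk hl
        have := orderOf_le_card_univ (x := (Nat.card F : ZMod l))
        rw [ZMod.card] at this
        have := Nat.le_of_dvd two_pos h8
        omega
  haveI := Fact.mk hl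
  have hlo : Odd l := hl.odd_of_ne_two fun e => by
    have := orderOf_le_card_univ (x := (Nat.card F : ZMod l))
    rw [ZMod.card] at this
    omega
  have hl0 := GLC.cast_ne_zero_of_orderOf (F := F) hl (by omega)
  have hlp : l ≠ p := fun e => hl0 (e ▸ CharP.cast_eq_zero F p)
  obtain ⟨a, ha⟩ := exists_sp_orderOf hl (dvd_cS_of_orderOf (F := F) (by omega) le_rfl h4)
  obtain ⟨b, hb⟩ := exists_sp_orderOf hpp
    (dvd_cS_of_char (F := F) hpp one_ne_zero (CharP.cast_eq_zero F p))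
  have h7 := sc_neg_prod h2 (by omega) le_rfl a b (ha ▸ hlo) (hb ▸ hpo)
  rw [ha, hb, ((Nat.coprime_primes hl hpp).2 hlp).lcm_eq_mul, mul_comm l, ← mul_assoc,
    ← mem_range_psp_iff] at h7
  intro h
  rw [← h, mem_range_pomega_iff h2 (by omega)] at h7
  obtain ⟨g, hg, hg'⟩ := h7
  exact hC (four_mul_dvd_of_orderOf hlo (fun i h0 h1 e => absurd (Nat.le_of_dvd h0 (hB i e)) (by omega))
    (nd_qOdd h2 _) (finrank_qOdd _) h2 hl0 (by omega) p hB hg hg')

end Cfsg.Agent.S2362
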