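import Cfsg.Statements.S1780
import Cfsg.Agent.Lib.TI.Basic
import Cfsg.Agent.Lib.PGroup.Holomorph

set_option autoImplicit false
open Cfsg

namespace Cfsg.Agent.S1780

open Cfsg.Lib Cfsg.Lib.PGroup Subgroup

/-- Let A be a finite abelian 2-group and t an automorphism of A whose order is a power of 2. If every element of A fixed by t² is fixed by t, then t fixes every element of A. -/
theorem result {A : Type*} [CommGroup A] [Finite A]
    (hA : IsPGroup 2 A) (t : MulAut A) (ht : ∃ k : ℕ, orderOf t = 2 ^ k) (hC : ∀ a : A, t (t a) = a → t a = a) :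
    ∀ a : A, t a = a := by
  obtain ⟨k, hk⟩ := ht
  have h := TI.le_centralizer_of_sq (B := (⊤ : Subgroup A).map (holL A)) (t := holR A t)
    ((hA.to_subgroup _).map _) (map_isMulCommutative _ _)
    (Comp.isPGroup_zpowers_of_orderOf (k := k) (by rwa [orderOf_injective _ holR_injective]))
    (holR_mem_normalizer fun _ _ => mem_top _) (by
      rintro _ ⟨⟨a, -, rfl⟩, h⟩
      replace h := mem_centralizer_singleton_iff.1 h
      rw [← map_pow, eq_comm, hol_comm_iff] at h
      exact mem_centralizer_singleton_iff.2 (hol_comm_iff.2 (hC a h)).symm)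
  exact fun a => hol_comm_iff.1 (mem_centralizer_singleton_iff.1 (h (mem_map_of_mem _ (mem_top a)))).symm

end Cfsg.Agent.S1780
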