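import Cfsg.Statements.S1783
import Cfsg.Agent.Lib.TI.Basic
import Cfsg.Agent.Lib.BG.Basic
import Cfsg.Agent.Lib.Comp.GenFitting

set_option autoImplicit false
open Cfsg

namespace Cfsg.Agent.S1783

open Subgroup Cfsg.Lib Cfsg.Lib.Transfer Cfsg.Lib.BG in
theorem comm_of_family {X : Type*} [Group X] [Finite X] {B S : Subgroup X} (hS : IsPGroup 2 S)
    (hB : IsMulCommutative B) (hti : ∀ h : X, h ⋆ B = B ∨ h ⋆ B ⊓ B = ⊥) (h2 : ∃ r ∈ B, r ^ 2 ≠ 1)
    (hBS : B ≤ S) {g : X} (hg : g ⋆ B ≤ S) : g ⋆ B ≤ 𝐂(B) := by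
  by_cases e : g ⋆ B = B
  · rw [e]; exact abelian_cent hB
  refine comm_eq_bot_iff.1 (TI.commutator_eq_bot_of_family hS (Δ := {R | ∃ x, R = x ⋆ B}) ?_ ?_ ?_ ?_
    ⟨g, rfl⟩ ⟨1, (conj_one B).symm⟩ hg hBS e)
  · rintro s - _ ⟨x, rfl⟩
    exact ⟨_, conj_conj s x B⟩
  · rintro _ ⟨x, rfl⟩
    obtain ⟨r, hr, h⟩ := h2
    exact ⟨_, conj_mem_conj.2 hr, fun e => h (by simpa [conj_pow] using e)⟩
  · rintro _ ⟨x, rfl⟩ _ ⟨y, rfl⟩
    rw [card_conj, card_conj]
  · rintro _ ⟨x, rfl⟩ _ ⟨y, rfl⟩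
    refine (hti (y⁻¹ * x)).imp (fun e => ?_) fun e => ?_
    · rw [← conj_inj (g := y⁻¹), conj_conj, inv_conj_conj, e]
    · rw [← conj_eq_bot_iff (g := y⁻¹), conj_inf, conj_conj, inv_conj_conj, e]

open Subgroup Cfsg.Lib Cfsg.Lib.Transfer Cfsg.Lib.BG in

/-- Let X be a finite group whose generalized Fitting subgroup equals its largest normal 2-subgroup Q, and let A be an abelian 2-subgroup of X such that every conjugate of A equals A or meets A trivially. Let B be the subgroup generated by the squares of the elements of A. Then B lies in Q, and if B is not an elementary abelian 2-group then the normal closure of B in X is commutative. -/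
theorem result {X : Type*} [Group X] [Finite X]
    (hX : Cfsg.generalizedFittingSubgroup X = Cfsg.pCore 2 X) (A : Subgroup X) (hA2 : IsPGroup 2 ↥A) (hAa : IsMulCommutative ↥A)
    (hti : ∀ h : X, A.map (MulAut.conj h).toMonoidHom = A ∨ A.map (MulAut.conj h).toMonoidHom ⊓ A = ⊥) :
    Subgroup.closure ((fun a : X => a ^ 2) '' (A : Set X)) ≤ Cfsg.pCore 2 X ∧
      (¬ Cfsg.IsElementaryAbelian 2 (Subgroup.closure ((fun a : X => a ^ 2) '' (A : Set X))) →
        IsMulCommutative ↥(Subgroup.normalClosure ((fun a : X => a ^ 2) '' (A : Set X)))) := by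
  haveI : Fact (Nat.Prime 2) := ⟨Nat.prime_two⟩
  have hC := Comp.genFitting_eq_pCore_iff_centralizer_le.1 hX
  have hQ := Core.pCore_isPGroup 2 X
  set s : Set X := (fun a : X => a ^ 2) '' (A : Set X) with hs
  have hBA : closure s ≤ A := (closure_le _).2 (by rintro _ ⟨a, ha, rfl⟩; exact pow_mem ha 2)
  have h1 : closure s ≤ pCore 2 X := (closure_le _).2 (by
    rintro _ ⟨a, ha, rfl⟩
    by_cases a2 : a ^ 2 = 1
    · change a ^ 2 ∈ pCore 2 X
      rw [a2]; exact one_mem _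
    refine TI.mem_pCore_of_commutator_le_frattini hC fun x hx => ?_
    have h3 := comm_of_family (pgroup_sup hQ hA2 le_normalizer_of_normal) hAa hti ⟨a, ha, a2⟩
      le_sup_right (conj_le_of_mem le_sup_right (mem_sup_left hx))
    have h4 := mem_cent.1 (h3 (conj_mem_conj.2 ha)) _ (inv_mem ha)
    have h5 : x * a * x⁻¹ * a⁻¹ ∈ pCore 2 X := by
      have := mul_mem hx ((inferInstance : (pCore 2 X).Normal).conj_mem _ (inv_mem hx) a)
      simpa only [mul_assoc] using this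
    have h6 := ((PGroup.map_subtype_frattini_le_iff hQ).1 le_rfl).2 _ h5
    convert h6 using 1
    rw [commutatorElement_def]
    calc x * a ^ 2 * x⁻¹ * (a ^ 2)⁻¹ = x * a * x⁻¹ * (x * a * x⁻¹ * a⁻¹) * a⁻¹ := by
          rw [pow_two]; group
      _ = x * a * x⁻¹ * (a⁻¹ * (x * a * x⁻¹)) * a⁻¹ := by rw [h4]
      _ = _ := by rw [pow_two]; group)
  refine ⟨h1, fun hne => ?_⟩
  have hBa := abelian_of_le hAa hBA
  have h2 : ∃ r ∈ closure s, r ^ 2 ≠ 1 := by
    by_contra! hc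
    exact hne ⟨hBa, hc⟩
  have hti' : ∀ h : X, h ⋆ closure s = closure s ∨ h ⋆ closure s ⊓ closure s = ⊥ := fun g =>
    (hti g).imp (fun e => conj_eq_of_norm (mem_normalizer_of_conj_le (by
      rw [MonoidHom.map_closure, closure_le]
      rintro _ ⟨_, ⟨a, ha, rfl⟩, rfl⟩
      exact subset_closure ⟨_, conj_mem_of_norm (norm_of_conj_eq e) ha, by simp [conj_pow]⟩)))
      fun e => eq_bot_mono e (inf_le_inf (conj_mono g hBA) hBA)
  refine isMulCommutative_closure fun x hx y hy => ?_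
  obtain ⟨a, ha, hx⟩ := Group.mem_conjugatesOfSet_iff.1 hx
  obtain ⟨b, hb, hy⟩ := Group.mem_conjugatesOfSet_iff.1 hy
  obtain ⟨c, rfl⟩ := isConj_iff.1 hx
  obtain ⟨d, rfl⟩ := isConj_iff.1 hy
  have := mem_cent.1 (comm_of_family hQ hBa hti' h2 h1 (g := d⁻¹ * c)
    (conj_le_of_norm h1 (le_normalizer_of_normal (mem_top _))) (conj_mem_conj.2 (subset_closure ha)))
    b (subset_closure hb)
  calc c * a * c⁻¹ * (d * b * d⁻¹) = d * (d⁻¹ * c * a * (d⁻¹ * c)⁻¹ * b) * d⁻¹ := by group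
    _ = _ := by rw [← this]; group

end Cfsg.Agent.S1783
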