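import Cfsg.Statements.S0001
import Cfsg.Agent.Lib.Coprime.Action

set_option autoImplicit false
open Pointwise
open Cfsg

namespace Cfsg.Agent.S0001

/-- Conjugacy half of the Schur–Zassenhaus Theorem, under a solvability assumption on the normal Hall subgroup or on its quotient. -/
theorem result {G : Type*} [Group G] [Finite G] (N : Subgroup G) [N.Normal]
    (hN : (Nat.card N).Coprime N.index) (hsolv : Group.IsSolvable N ∨ Group.IsSolvable (G ⧸ N))
    (H K : Subgroup G) (hH : Subgroup.IsComplement' N H) (hK : Subgroup.IsComplement' N K) :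
    ∃ g : G, MulAut.conj g • H = K := by
  have hs : Group.IsSolvable H ∨ Group.IsSolvable N := by
    refine hsolv.symm.imp ?_ id
    intro h
    exact Group.isSolvable_of_surjective (f := hH.symm.QuotientMulEquiv.toMonoidHom)
      hH.symm.QuotientMulEquiv.surjective
  obtain ⟨n, -, h⟩ := Lib.Coprime.exists_map_conj_eq_of_sup_eq (N := N) (A := K) (B := H)
    Subgroup.le_normalizer_of_normal (hH.sup_eq_top.trans hK.sup_eq_top.symm)
    (disjoint_iff.mp hK.disjoint) (by rw [← hH.symm.index_eq_card]; exact hN.symm) hs
  exact ⟨n, h⟩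

end Cfsg.Agent.S0001
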