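import Cfsg.Statements.S0003
import Cfsg.Agent.Lib.Hall.Solvable

set_option autoImplicit false
open Cfsg

namespace Cfsg.Agent.S0003

/-- Hall's Theorem, existence: a finite solvable group of order m * n with m and n coprime has a subgroup of order m. -/
theorem result {G : Type*} [Group G] [Finite G] [Group.IsSolvable G] (m n : ℕ)
    (hG : Nat.card G = m * n) (hmn : m.Coprime n) : ∃ H : Subgroup G, Nat.card H = m := by
  obtain ⟨H, h1, h2⟩ := Lib.Hall.exists_isPiHall {p | p ∣ m} (G := G)
  refine ⟨H, Nat.dvd_antisymm ?_ ?_⟩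
  · have h3 : (Nat.card H).Coprime n := Nat.coprime_of_dvd fun p hp hd hn =>
      hp.ne_one (Nat.eq_one_of_dvd_coprimes hmn (h1 p hp hd) hn)
    exact h3.dvd_of_dvd_mul_right (hG ▸ H.card_subgroup_dvd_card)
  · have h3 : m.Coprime H.index := Nat.coprime_of_dvd fun p hp hd => h2 p hp hd
    apply h3.dvd_of_dvd_mul_right
    rw [H.card_mul_index, hG]
    exact dvd_mul_right m n

end Cfsg.Agent.S0003
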