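import Cfsg.Statements.S0005
import Cfsg.Agent.Lib.Hall.Solvable
import Cfsg.Agent.S0003

set_option autoImplicit false
open Cfsg

namespace Cfsg.Agent.S0005

/-- Hall's Theorem, containment: in a finite solvable group of order m * n with m and n coprime, every subgroup of order coprime to n is contained in a subgroup of order m. -/
theorem result {G : Type*} [Group G] [Finite G] [Group.IsSolvable G] (m n : ℕ)
    (hG : Nat.card G = m * n) (hmn : m.Coprime n) (K : Subgroup G) (hK : (Nat.card K).Coprime n) :
    ∃ H : Subgroup G, Nat.card H = m ∧ K ≤ H := by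
  obtain ⟨H, hH⟩ := Cfsg.Agent.S0003.result m n hG hmn
  have h1 : H.index = n := by
    have := H.card_mul_index
    rw [hG, hH] at this
    exact Nat.eq_of_mul_eq_mul_left (hH ▸ Nat.card_pos) this
  obtain ⟨g, hg⟩ := Lib.Hall.exists_conj_le_of_coprime (H := H) (U := K) (by rwa [h1])
  refine ⟨H.map (MulAut.conj g⁻¹).toMonoidHom, by rw [Lib.Coprime.card_map_conj, hH], ?_⟩
  have := Subgroup.map_mono (f := (MulAut.conj g⁻¹).toMonoidHom) hg
  rwa [Lib.Coprime.map_conj_map_conj, inv_mul_cancel, Lib.Coprime.map_conj_one] at this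

end Cfsg.Agent.S0005
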