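import Cfsg.Statements.S0020
import Cfsg.Agent.Lib.Hall.Solvable
import Cfsg.Agent.Lib.Coprime.Nilpotent
import Cfsg.Agent.Lib.Transfer.SylowIn

set_option autoImplicit false
open Pointwise
open Cfsg

namespace Cfsg.Agent.S0020

open Cfsg.Lib in
theorem index_iInf {G : Type*} [Group G] [Finite G] (H : ℕ → Subgroup G) (s : Finset ℕ)
    (hs : ∀ q ∈ s, q.Prime) (hH : ∀ q ∈ s, ∃ k, (H q).index = q ^ k) :
    ∀ r : ℕ, r.Prime → r ∣ (⨅ q ∈ s, H q).index → r ∈ s := by
  classical
  induction s using Finset.induction_on with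
  | empty => intro r hr h; simp at h; exact absurd h hr.ne_one
  | insert a s ha ih =>
    intro r hr h
    rw [Finset.iInf_insert] at h
    have ih' := ih (fun q hq => hs q (Finset.mem_insert_of_mem hq))
      (fun q hq => hH q (Finset.mem_insert_of_mem hq))
    obtain ⟨k, hk⟩ := hH a (Finset.mem_insert_self a s)
    have hap := hs a (Finset.mem_insert_self a s)
    rw [Coprime.index_inf_of_coprime (by
      rw [hk]
      exact ((Nat.Prime.coprime_iff_not_dvd hap).mpr fun h' => ha (ih' a hap h')).pow_left k),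
      hk] at h
    rcases (Nat.Prime.dvd_mul hr).mp h with h | h
    · rw [(Nat.prime_dvd_prime_iff_eq hr hap).mp (hr.dvd_of_dvd_pow h)]
      exact Finset.mem_insert_self a s
    · exact Finset.mem_insert_of_mem (ih' r hr h)


/-- A finite solvable group admits a Sylow system: Sylow subgroups, one for each prime, that pairwise permute as sets. -/
theorem result {G : Type*} [Group G] [Finite G] [Group.IsSolvable G] :
    ∃ S : (p : Nat.Primes) → Sylow (p : ℕ) G,
      ∀ p q : Nat.Primes, (S p : Set G) * (S q : Set G) = (S q : Set G) * (S p : Set G) := by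
  classical
  choose H hH using fun q : ℕ => Lib.Hall.exists_isPiHall (G := G) (π := {q}ᶜ)
  let D : Finset ℕ → Subgroup G := fun t => ⨅ q ∈ (Nat.card G).primeFactors \ t, H q
  have hD : ∀ t : Finset ℕ, IsPiHall (t : Set ℕ) (D t) := fun t => by
    constructor
    · intro r hr h
      by_contra hrt
      have h1 : r ∈ (Nat.card G).primeFactors \ t := Finset.mem_sdiff.mpr
        ⟨Nat.mem_primeFactors.mpr ⟨hr, h.trans (Subgroup.card_subgroup_dvd_card _),
          Nat.card_pos.ne'⟩, hrt⟩
      exact (hH r).1 r hr (h.trans (Subgroup.card_dvd_of_le (iInf₂_le r h1))) rfl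
    · intro r hr hrt h
      have := index_iInf H _
        (fun q hq => Nat.prime_of_mem_primeFactors (Finset.mem_sdiff.mp hq).1)
        (fun q hq => ((Lib.Hall.isPiHall_compl_singleton_iff
          (Nat.prime_of_mem_primeFactors (Finset.mem_sdiff.mp hq).1)).mp (hH q)).2) r hr h
      exact (Finset.mem_sdiff.mp this).2 hrt
  have hmono : ∀ s t, s ⊆ t → D s ≤ D t := fun s t h =>
    le_iInf₂ fun q hq => iInf₂_le q (Finset.sdiff_subset_sdiff subset_rfl h hq)
  have hS : ∀ p : Nat.Primes, ∃ S : Sylow (p : ℕ) G, (S : Subgroup G) = D {p.1} := fun p => by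
    have := Fact.mk p.2
    have h := Lib.Hall.isPiHallOf_top.mpr (hD {p.1})
    rw [Finset.coe_singleton, Lib.Hall.isPiHallOf_singleton_iff p.2, Subgroup.relIndex_top_right]
      at h
    exact Lib.Transfer.exists_sylow_eq_iff.mpr h.2
  choose S hS using hS
  have key : ∀ p q : Nat.Primes, p ≠ q →
      (S p : Set G) * (S q : Set G) = (D {p.1, q.1} : Set G) := fun p q hpq => by
    have h1 : D {p.1} ≤ D {p.1, q.1} := hmono _ _ (by simp)
    have h2 : D {q.1} ≤ D {p.1, q.1} := hmono _ _ (by simp)
    rw [← Sylow.coe_coe, ← Sylow.coe_coe, hS, hS]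
    refine Set.Subset.antisymm ?_ fun d hd => ?_
    · rintro _ ⟨x, hx, y, hy, rfl⟩
      exact mul_mem (h1 hx) (h2 hy)
    · obtain ⟨x, hx, y, hy, rfl⟩ := Lib.Coprime.exists_mul_of_coprime_relIndex h1 (K := D {q.1})
        (Nat.coprime_of_dvd fun r hr h3 h4 => by
          have h5 := (hD {p.1, q.1}).1 r hr (h3.trans (Subgroup.relIndex_dvd_card _ _))
          rw [Finset.coe_pair] at h5
          rcases h5 with h5 | h5
          · exact (Lib.Hall.isPiHallOf_of_isPiHall (hD _) h1).2.2 r hr (by simpa using h5) h3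
          · exact (Lib.Hall.isPiHallOf_of_isPiHall (hD _) h2).2.2 r hr (by simpa using h5) h4) hd
      exact ⟨x, hx, y, hy, rfl⟩
  refine ⟨S, fun p q => ?_⟩
  rcases eq_or_ne p q with rfl | h
  · rfl
  · rw [key p q h, key q p h.symm, Finset.pair_comm]

end Cfsg.Agent.S0020
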