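import Cfsg.Statements.S0021
import Cfsg.Agent.Lib.Hall.Converse

set_option autoImplicit false
open Pointwise
open Cfsg

namespace Cfsg.Agent.S0021

open Cfsg.Lib

/-- A finite group with a family of pairwise permuting Sylow subgroups, one for each prime, is solvable (this direction rests on Burnside's two-prime Theorem). -/
theorem result {G : Type*} [Group G] [Finite G]
    (S : (p : Nat.Primes) → Sylow (p : ℕ) G)
    (hS : ∀ p q : Nat.Primes, (S p : Set G) * (S q : Set G) = (S q : Set G) * (S p : Set G)) :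
    Group.IsSolvable G := by
  classical
  refine Hall.isSolvable_of_complements_aux _ G rfl fun p hp => ?_
  haveI := Fact.mk hp
  let T : Finset Nat.Primes := (((Nat.card G).primeFactors.erase p).subtype Nat.Prime :)
  let H : Subgroup G := T.sup fun q => (S q : Subgroup G)
  have h1 := (Hall.card_sup_dvd_of_comm (fun q : Nat.Primes => (S q : Subgroup G)) hS T).2
  have h2 : ¬ p ∣ Nat.card H := fun hd => by
    obtain ⟨q, hq, hd⟩ := (hp.prime.dvd_finset_prod_iff _).1 (hd.trans h1)
    haveI := Fact.mk q.2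
    obtain ⟨k, hk⟩ := IsPGroup.iff_card.1 (S q).isPGroup'
    have := (Nat.prime_dvd_prime_iff_eq hp q.2).1 (hp.dvd_of_dvd_pow (hk ▸ hd))
    exact (Finset.mem_erase.1 (Finset.mem_subtype.1 hq)).1 this.symm
  obtain ⟨k, hk⟩ : ∃ k, H.index = p ^ k := by
    refine ⟨_, Nat.eq_prime_pow_of_unique_prime_dvd H.index_ne_zero_of_finite fun {q} hq hd => ?_⟩
    by_contra hne
    haveI := Fact.mk hq
    have hT : (⟨q, hq⟩ : Nat.Primes) ∈ T := Finset.mem_subtype.2 (Finset.mem_erase.2 ⟨hne,
      Nat.mem_primeFactors.2 ⟨hq, hd.trans H.index_dvd_card, Nat.card_pos.ne'⟩⟩)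
    exact (S ⟨q, hq⟩).not_dvd_index (hd.trans (Subgroup.index_dvd_of_le
      (Finset.le_sup (f := fun q : Nat.Primes => (S q : Subgroup G)) hT)))
  refine ⟨H, ?_⟩
  rw [← H.card_mul_index, Nat.factorization_mul Nat.card_pos.ne' H.index_ne_zero_of_finite,
    Finsupp.add_apply, Nat.factorization_eq_zero_of_not_dvd h2, hk, hp.factorization_pow]
  simp

end Cfsg.Agent.S0021
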