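import Cfsg.Statements.S0031
import Cfsg.Agent.Lib.Coprime.Action

set_option autoImplicit false
open Cfsg

namespace Cfsg.Agent.S0031

/-- A fixed-point-free automorphism of a finite group maps some Sylow p-subgroup to itself. -/
theorem result {G : Type*} [Group G] [Finite G] (φ : G ≃* G)
    (hφ : MonoidHom.FixedPointFree (φ : G →* G)) (p : ℕ) [Fact p.Prime] :
    ∃ P : Sylow p G, (P : Subgroup G).map (φ : G →* G) = P := by
  obtain ⟨P⟩ : Nonempty (Sylow p G) := inferInstance
  obtain ⟨g, hg⟩ := MulAction.exists_smul_eq G P (P.mapSurjective (f := (φ : G →* G)) φ.surjective)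
  obtain ⟨x, hx⟩ := hφ.commutatorMap_surjective g⁻¹
  have h1 : (P : Subgroup G).map (φ : G →* G) = (P : Subgroup G).map (MulAut.conj g).toMonoidHom :=
    (congrArg (fun Q : Sylow p G => (Q : Subgroup G)) hg).symm
  have h2 : (φ x)⁻¹ * g = x⁻¹ := by
    rw [MonoidHom.commutatorMap_apply, div_eq_mul_inv, eq_inv_iff_mul_eq_one] at hx
    rw [eq_inv_iff_mul_eq_one, ← mul_eq_one_comm, ← mul_assoc]
    exact hx
  refine ⟨x⁻¹ • P, ?_⟩
  change ((P : Subgroup G).map (MulAut.conj x⁻¹).toMonoidHom).map _ =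
    (P : Subgroup G).map (MulAut.conj x⁻¹).toMonoidHom
  conv_rhs => rw [← h2, ← Lib.Coprime.map_conj_map_conj, ← h1]
  rw [Subgroup.map_map, Subgroup.map_map]
  congr 1
  ext y
  simp

end Cfsg.Agent.S0031
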