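import Cfsg.Statements.S0032
import Cfsg.Agent.Lib.Coprime.Action

set_option autoImplicit false
open Cfsg

namespace Cfsg.Agent.S0032

/-- If an automorphism of a finite group fixes only the identity and maps a normal subgroup N into itself, then the only cosets of N it fixes are those in N: a fixed coset xN forces x ∈ N. -/
theorem result {G : Type*} [Group G] [Finite G] (φ : G ≃* G)
    (hφ : MonoidHom.FixedPointFree (φ : G →* G)) (N : Subgroup G) [N.Normal] (hN : ∀ n ∈ N, φ n ∈ N)
    (x : G) (hx : (φ x)⁻¹ * x ∈ N) : x ∈ N := by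
  let ψ : N →* N := ((φ : G →* G).comp N.subtype).codRestrict N (fun n => hN n n.2)
  have hψ : MonoidHom.FixedPointFree ψ := fun n hn =>
    Subtype.ext (hφ n (congrArg Subtype.val hn))
  obtain ⟨m, hm⟩ := hψ.commutatorMap_surjective ⟨_, N.inv_mem hx⟩
  have h1 : (m : G) * (φ m)⁻¹ = ((φ x)⁻¹ * x)⁻¹ := by
    rw [MonoidHom.commutatorMap_apply, div_eq_mul_inv] at hm
    exact congrArg Subtype.val hm
  have h2 : x * m = 1 := hφ _ (by
    change φ (x * m) = x * m
    rw [map_mul, ← mul_inv_cancel_left x (φ x), ← inv_inv (φ x), ← mul_inv_rev, ← h1]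
    group)
  rw [eq_inv_of_mul_eq_one_left h2]
  exact N.inv_mem m.2

end Cfsg.Agent.S0032
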