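import Cfsg.Statements.S0036
import Cfsg.Agent.Lib.Frobenius.Basic

set_option autoImplicit false
open Cfsg

namespace Cfsg.Agent.S0036

/-- When a Frobenius complement contains an involution, an elementary argument shows the Frobenius kernel is closed under multiplication (hence a subgroup). -/
theorem result {G : Type*} [Group G] [Finite G] (H : Subgroup G) (hH : Cfsg.IsFrobeniusComplement H)
    (t : G) (ht : t ∈ H) (ht1 : t ≠ 1) (ht2 : t * t = 1) :
    ∀ x ∈ Cfsg.frobeniusKernel H, ∀ y ∈ Cfsg.frobeniusKernel H, x * y ∈ Cfsg.frobeniusKernel H := by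
  open Cfsg.Lib.Frobenius in
  have hA : ∀ g g' : G, g⁻¹ * g' ∉ H → g * t * g⁻¹ * (g' * t * g'⁻¹) ≠ 1 ∧
      g * t * g⁻¹ * (g' * t * g'⁻¹) ∈ frobeniusKernel H := by
    intro g g' hgg'
    have ht' : t⁻¹ = t := inv_eq_of_mul_eq_one_right ht2
    have h1 : g * t * g⁻¹ * (g' * t * g'⁻¹) ≠ 1 := by
      intro e
      refine hgg' (mem_of_conj_mem hH ht ht1 ?_)
      have : g⁻¹ * g' * t * (g⁻¹ * g')⁻¹ = t⁻¹ * (g⁻¹ * (g * t * g⁻¹ * (g' * t * g'⁻¹)) * g) := by
        group
      rw [this, e]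
      simpa using ht
    refine ⟨h1, ?_⟩
    by_contra hc
    obtain ⟨-, y, hy⟩ := (not_mem_frobeniusKernel_iff H _).1 hc
    have ha : y * (g * t * g⁻¹) * y⁻¹ ∈ H := by
      refine mem_of_conj_mem hH hy (by simpa using h1) ?_
      have : y * (g * t * g⁻¹) * y⁻¹ * (y * (g * t * g⁻¹ * (g' * t * g'⁻¹)) * y⁻¹) *
          (y * (g * t * g⁻¹) * y⁻¹)⁻¹ = (y * (g * t * g⁻¹ * (g' * t * g'⁻¹)) * y⁻¹)⁻¹ := by
        calc _ = y * (g * (t * t) * g⁻¹ * g' * t * g'⁻¹ * g * t⁻¹ * g⁻¹) * y⁻¹ := by group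
          _ = y * (g' * t⁻¹ * g'⁻¹ * g * t⁻¹ * g⁻¹) * y⁻¹ := by rw [ht2, ht']; group
          _ = _ := by group
      rw [this]
      exact H.inv_mem hy
    have hb : y * (g' * t * g'⁻¹) * y⁻¹ ∈ H := by
      have := H.mul_mem (H.inv_mem ha) hy
      simpa [mul_assoc] using this
    have h2 : y * g ∈ H := mem_of_conj_mem hH ht ht1 (by simpa [mul_assoc] using ha)
    have h3 : y * g' ∈ H := mem_of_conj_mem hH ht ht1 (by simpa [mul_assoc] using hb)
    exact hgg' (by simpa [mul_assoc] using H.mul_mem (H.inv_mem h2) h3)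
  let T : G ⧸ H → G := fun q => q.out * t * q.out⁻¹
  have hT2 : ∀ q, T q * T q = 1 := fun q => by
    calc T q * T q = q.out * (t * t) * q.out⁻¹ := by simp only [T]; group
      _ = 1 := by rw [ht2]; group
  have hne : ∀ q q' : G ⧸ H, q ≠ q' → q.out⁻¹ * q'.out ∉ H := fun q q' h h' =>
    h (by rw [← q.out_eq', ← q'.out_eq']; exact QuotientGroup.eq.2 h')
  have hmem : ∀ q q', T q * T q' ∈ frobeniusKernel H := fun q q' => by
    by_cases h : q = q'
    · rw [h, hT2]
      exact Cfsg.Lib.Frobenius.one_mem_frobeniusKernel H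
    · exact (hA _ _ (hne q q' h)).2
  have hinj : Function.Injective T := fun q q' e => by
    by_contra h
    exact (hA _ _ (hne q q' h)).1 (by change T q * T q' = 1; rw [e, hT2])
  have hcard : Nat.card (G ⧸ H) = Nat.card (frobeniusKernel H) :=
    (Cfsg.Lib.Frobenius.card_frobeniusKernel hH).symm
  let q₀ : G ⧸ H := ((1 : G) : G ⧸ H)
  have hs1 : Function.Bijective (fun q => (⟨T q * T q₀, hmem q q₀⟩ : frobeniusKernel H)) :=
    (Nat.bijective_iff_injective_and_card _).2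
      ⟨fun q q' e => hinj (mul_right_cancel (congrArg Subtype.val e)), hcard⟩
  have hs2 : Function.Bijective (fun q => (⟨T q₀ * T q, hmem q₀ q⟩ : frobeniusKernel H)) :=
    (Nat.bijective_iff_injective_and_card _).2
      ⟨fun q q' e => hinj (mul_left_cancel (congrArg Subtype.val e)), hcard⟩
  intro x hx y hy
  obtain ⟨q, hq⟩ := hs1.2 ⟨x, hx⟩
  obtain ⟨q', hq'⟩ := hs2.2 ⟨y, hy⟩
  have e1 : T q * T q₀ = x := congrArg Subtype.val hq
  have e2 : T q₀ * T q' = y := congrArg Subtype.val hq'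
  have : x * y = T q * T q' := by
    rw [← e1, ← e2, mul_assoc, ← mul_assoc (T q₀), hT2, one_mul]
  rw [this]
  exact hmem q q'

end Cfsg.Agent.S0036
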