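import Cfsg.Statements.S0037
import Cfsg.Agent.Lib.Frobenius.Basic

set_option autoImplicit false
open Pointwise
open Cfsg

namespace Cfsg.Agent.S0037

open Cfsg.Lib.Frobenius

/-- Two Frobenius complements have a common non-identity element up to conjugacy. -/
theorem overlap {G : Type*} [Group G] [Finite G] {D D' : Subgroup G}
    (hD : IsFrobeniusComplement D) (hD' : IsFrobeniusComplement D') :
    ∃ z : G, z ≠ 1 ∧ (∃ u, u * z * u⁻¹ ∈ D) ∧ ∃ v, v * z * v⁻¹ ∈ D' := by
  classical
  have h2 : ∀ {E : Subgroup G}, IsFrobeniusComplement E →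
      2 * (frobeniusKernel E).ncard ≤ Nat.card G := fun {E} hE => by
    have h1 : 1 < Nat.card E := (Subgroup.one_lt_card_iff_ne_bot E).2 hE.1
    rw [← E.card_mul_index, ← Nat.card_coe_set_eq, card_frobeniusKernel hE]
    exact Nat.mul_le_mul_right _ h1
  have h3 := Set.ncard_union_add_ncard_inter (frobeniusKernel D) (frobeniusKernel D')
  have h4 : 0 < (frobeniusKernel D ∩ frobeniusKernel D').ncard :=
    (Set.ncard_pos).2 ⟨1, one_mem_frobeniusKernel D, one_mem_frobeniusKernel D'⟩
  have h5 : frobeniusKernel D ∪ frobeniusKernel D' ≠ Set.univ := by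
    intro e
    rw [e, Set.ncard_univ] at h3
    have := h2 hD
    have := h2 hD'
    omega
  obtain ⟨z, hz⟩ := (Set.ne_univ_iff_exists_notMem _).1 h5
  rw [Set.mem_union, not_or, not_mem_frobeniusKernel_iff, not_mem_frobeniusKernel_iff] at hz
  exact ⟨z, hz.1.1, hz.1.2, hz.2.2⟩

/-- Of two Frobenius complements in one finite group, the one of smaller (or equal) order is conjugate to a subgroup of the other. -/
theorem result {G : Type*} [Group G] [Finite G] (H H₀ : Subgroup G)
    (hH : Cfsg.IsFrobeniusComplement H) (hH₀ : Cfsg.IsFrobeniusComplement H₀) (hle : Nat.card H₀ ≤ Nat.card H) :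
    ∃ g : G, MulAut.conj g • H₀ ≤ H := by
  -- no non-identity element of `H₀` lies in the kernel of `H`
  have hA : ∀ x ∈ H₀, x ≠ 1 → ∃ g : G, g * x * g⁻¹ ∈ H := by
    intro x hx hx1
    by_contra hc
    have hxK : x ∈ frobeniusKernel H :=
      (mem_frobeniusKernel_iff H x).2 (Or.inr fun g hg => hc ⟨g, hg⟩)
    have hinj : Function.Injective (fun q : Option (G ⧸ H₀) => (match q with
        | none => ⟨1, one_mem_frobeniusKernel H⟩
        | some q => ⟨q.out * x * q.out⁻¹, conj_mem_frobeniusKernel hxK _⟩ : frobeniusKernel H)) := by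
      rintro (_ | q) (_ | q') e
      · rfl
      · exact absurd (by simpa using (congrArg Subtype.val e).symm) hx1
      · exact absurd (by simpa using congrArg Subtype.val e) hx1
      · have e' : q.out * x * q.out⁻¹ = q'.out * x * q'.out⁻¹ := congrArg Subtype.val e
        congr 1
        rw [← q.out_eq', ← q'.out_eq', QuotientGroup.eq]
        refine mem_of_conj_mem hH₀ hx hx1 ?_
        have : q.out⁻¹ * q'.out * x * (q.out⁻¹ * q'.out)⁻¹ = x := by
          calc _ = q.out⁻¹ * (q'.out * x * q'.out⁻¹) * q.out := by group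
            _ = _ := by rw [← e']; group
        rwa [this]
    have h1 := Nat.card_le_card_of_injective _ hinj
    rw [Finite.card_option, card_frobeniusKernel hH, ← Subgroup.index] at h1
    have h2 := H.card_mul_index
    have h3 := H₀.card_mul_index
    have h4 : 0 < Nat.card H₀ := Nat.card_pos
    have h5 : Nat.card H₀ * H.index ≤ Nat.card H * H.index := Nat.mul_le_mul_right _ hle
    have h6 : Nat.card H₀ * (H₀.index + 1) ≤ Nat.card H₀ * H.index := Nat.mul_le_mul_left _ h1
    rw [mul_add] at h6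
    omega
  by_contra hc
  -- `D g` is the intersection of `H₀` with a conjugate of `H`
  let D : G → Subgroup H₀ := fun g => (MulAut.conj g⁻¹ • H).subgroupOf H₀
  have hD : ∀ (g : G) (x : H₀), x ∈ D g ↔ g * x * g⁻¹ ∈ H := fun g x => by
    simp only [D, Subgroup.mem_subgroupOf, mem_conj_smul_iff, inv_inv]
  have hDF : ∀ (g : G) (x : H₀), x ≠ 1 → x ∈ D g → IsFrobeniusComplement (D g) := by
    intro g x hx1 hx
    refine isFrobeniusComplement_subgroupOf (isFrobeniusComplement_conj_smul hH _) _ ?_ ?_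
    · intro e
      change D g = ⊥ at e
      rw [e] at hx
      exact hx1 hx
    · intro e
      change D g = ⊤ at e
      refine hc ⟨g, fun y hy => ?_⟩
      rw [mem_conj_smul_iff] at hy
      have := (hD g ⟨_, hy⟩).1 (e ▸ Subgroup.mem_top _)
      simpa [mul_assoc] using this
  obtain ⟨a, ha, ha1⟩ := (H₀.bot_or_exists_ne_one).resolve_left hH₀.1
  obtain ⟨g, hg⟩ := hA a ha ha1
  have hF := hDF g ⟨a, ha⟩ (fun e => ha1 (congrArg Subtype.val e)) ((hD _ _).2 hg)
  have h1 : 1 < (frobeniusKernel (D g)).ncard := by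
    rw [← Nat.card_coe_set_eq, card_frobeniusKernel hF]
    exact Subgroup.one_lt_index_of_ne_top hF.2.1
  obtain ⟨x, hx, hx1⟩ := Set.exists_ne_of_one_lt_ncard h1 1
  obtain ⟨y, hy⟩ := hA x x.2 (fun e => hx1 (Subtype.ext e))
  have hF' := hDF y x hx1 ((hD _ _).2 hy)
  obtain ⟨z, hz1, ⟨u, hu⟩, ⟨v, hv⟩⟩ := overlap hF hF'
  rw [hD] at hu hv
  have hm : g * u * (v : G)⁻¹ * y⁻¹ ∈ H := by
    refine mem_of_conj_mem hH hv (by simpa using hz1) ?_
    simpa [mul_assoc] using hu
  refine ((mem_frobeniusKernel_iff _ _).1 hx).elim hx1 fun h => h (u * v⁻¹) ((hD _ _).2 ?_)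
  have := H.mul_mem (H.mul_mem hm hy) (H.inv_mem hm)
  simpa [mul_assoc] using this

end Cfsg.Agent.S0037
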