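import Cfsg.Statements.S0038
import Cfsg.Agent.Lib.Frobenius.Theorem
import Cfsg.Agent.Lib.PLocal.FPF
import Cfsg.Agent.Lib.PGroup.Basic
import Cfsg.Agent.S0001

set_option autoImplicit false
open Pointwise
open Cfsg

namespace Cfsg.Agent.S0038

theorem eq_of_le {G : Type*} [Group G] [Finite G] {K H K₀ : Subgroup G} [K.Normal]
    [Group.IsNilpotent K₀] (hK0 : K ≠ ⊥) (htop : K ⊔ H = ⊤)
    (hf : ∀ h ∈ H, h ≠ 1 → K ⊓ Subgroup.centralizer {h} = ⊥) (hle : K ≤ K₀) : K = K₀ := by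
  refine le_antisymm hle fun g hg => ?_
  have h := Cfsg.Lib.PGroup.inf_centralizer_ne_bot_of_nilpotent hle
    Subgroup.le_normalizer_of_normal hK0
  obtain ⟨⟨z, hz⟩, hz1⟩ := (Subgroup.ne_bot_iff_exists_ne_one).1 h
  have hz1' : z ≠ 1 := fun e => hz1 (Subtype.ext e)
  refine Cfsg.Lib.Frobenius.mem_of_commute_of_mem_kernel Subgroup.le_normalizer_of_normal hf
    hz.1 hz1' (htop ▸ Subgroup.mem_top g) ?_
  exact (Subgroup.mem_centralizer_iff.1 hz.2) g hg

/-- All Frobenius complements of a finite group are conjugate to one another. -/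
theorem result {G : Type*} [Group G] [Finite G] (H H₀ : Subgroup G)
    (hH : Cfsg.IsFrobeniusComplement H) (hH₀ : Cfsg.IsFrobeniusComplement H₀) :
    ∃ g : G, MulAut.conj g • H₀ = H := by
  obtain ⟨K, hKn, hK, hK0, htop, hf⟩ := Cfsg.Lib.Frobenius.exists_kernel hH
  obtain ⟨K₀, hKn₀, hK₀, hK0₀, htop₀, hf₀⟩ := Cfsg.Lib.Frobenius.exists_kernel hH₀
  haveI := Cfsg.Lib.PLocal.isNilpotent_of_fpf Subgroup.le_normalizer_of_normal hH.1 hf
  haveI := Cfsg.Lib.PLocal.isNilpotent_of_fpf Subgroup.le_normalizer_of_normal hH₀.1 hf₀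
  have hKK : K = K₀ := by
    rcases Cfsg.Lib.Frobenius.le_or_le_of_normal htop hf K₀ with h | h
    · exact eq_of_le hK0 htop hf h
    · exact (eq_of_le hK0₀ htop₀ hf₀ h).symm
  subst hKK
  have hc := Cfsg.Lib.Frobenius.isComplement'_of_coe_eq_frobeniusKernel hH hK
  have hc₀ := Cfsg.Lib.Frobenius.isComplement'_of_coe_eq_frobeniusKernel hH₀ hK₀
  refine Cfsg.Agent.S0001.result K ?_ (Or.inl inferInstance) H₀ H hc₀ hc
  rw [hc.symm.index_eq_card]
  exact (Cfsg.Lib.Frobenius.coprime_card_of_fpf Subgroup.le_normalizer_of_normal hf).symm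

end Cfsg.Agent.S0038
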