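import Cfsg.Statements.S0040
import Cfsg.Agent.Lib.BG.T03_9
import Cfsg.Agent.Lib.BG.Basic
import Cfsg.Agent.Lib.PGroup.RankOne

set_option autoImplicit false
open Cfsg

namespace Cfsg.Agent.S0040

/-- Sylow subgroups of Frobenius complements: if H complements a nontrivial normal subgroup K and every nonidentity element of H has trivial centraliser in K, then each Sylow subgroup of H is cyclic or isomorphic to a generalized quaternion group. -/
theorem result {G : Type*} [Group G] [Finite G] (K H : Subgroup G) [K.Normal]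
    (hc : Subgroup.IsComplement' K H) (hK : K ≠ ⊥) (hfpf : ∀ h ∈ H, h ≠ 1 → K ⊓ Subgroup.centralizer {h} = ⊥)
    (p : ℕ) [Fact p.Prime] (P : Sylow p H) :
    IsCyclic P ∨ ∃ n : ℕ, Nonempty (P ≃* QuaternionGroup (2 ^ n)) := by
  have hP : IsPGroup p P := P.isPGroup'
  have hrk : PRankLE p 1 P := by
    rw [Cfsg.Lib.PGroup.pRankLE_iff]
    intro A hA
    let f : P →* G := H.subtype.comp (P : Subgroup H).subtype
    have hf : Function.Injective f := H.subtype_injective.comp (P : Subgroup H).subtype_injective
    have hAH : A.map f ≤ H := by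
      rintro _ ⟨a, -, rfl⟩
      exact (a : H).2
    have hcyc : IsCyclic (A.map f) :=
      Cfsg.Lib.BG.regular_abelian_cyclic (H := K) (Cfsg.Lib.BG.abelian_map f hA.1) hK
        Subgroup.le_normalizer_of_normal (fun x hx => hfpf x (hAH hx))
    have hcyc' : IsCyclic A :=
      isCyclic_of_surjective (A.equivMapOfInjective f hf).symm (MulEquiv.surjective _)
    obtain ⟨g, hg⟩ := IsCyclic.exists_ofOrder_eq_natCard (α := A)
    rw [← hg, pow_one]
    refine Nat.le_of_dvd (Fact.out : p.Prime).pos (orderOf_dvd_of_pow_eq_one ?_)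
    exact Subtype.ext (hA.2 g g.2)
  rcases Cfsg.Lib.PGroup.isCyclic_or_quaternion_of_pRankLE_one hP hrk with h | ⟨-, n, h⟩
  · exact Or.inl h
  · exact Or.inr ⟨n + 1, h⟩

end Cfsg.Agent.S0040
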