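import Cfsg.Statements.S0052
import Cfsg.Agent.Lib.Coprime.Gaschutz

set_option autoImplicit false
open Pointwise
open Cfsg

namespace Cfsg.Agent.S0052

/-- Gaschütz's Theorem, conjugacy: for an abelian normal subgroup K ≤ U with the order of K coprime to the index of U, two complements of K in G having the same intersection with U are conjugate. -/
theorem result {G : Type*} [Group G] [Finite G] (K U : Subgroup G) [K.Normal] [IsMulCommutative K]
    (hKU : K ≤ U) (hcop : (Nat.card K).Coprime U.index)
    (H₀ H₁ : Subgroup G) (h₀ : Subgroup.IsComplement' K H₀) (h₁ : Subgroup.IsComplement' K H₁) (hU : H₀ ⊓ U = H₁ ⊓ U) :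
    ∃ g : G, MulAut.conj g • H₀ = H₁ := by
  obtain ⟨k, -, h⟩ := Lib.Coprime.gaschutz_conj_of (K := K) (U := U) (H₀ := H₀) (H₁ := H₁)
    inferInstance Subgroup.le_normalizer_of_normal (disjoint_iff.mp h₀.disjoint)
    (disjoint_iff.mp h₁.disjoint) (h₀.sup_eq_top.trans h₁.sup_eq_top.symm)
    (hU.le.trans inf_le_left) (by
      have h1 := Lib.Core.card_inf_mul_relIndex U H₀
      have h2 := Lib.Coprime.card_sup_of_disjoint (N := K) (A := U ⊓ H₀)
        Subgroup.le_normalizer_of_normal
        (by rw [inf_left_comm, disjoint_iff.mp h₀.disjoint, inf_bot_eq])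
      rw [inf_comm, ← Lib.Core.sup_inf_of_le_normalizer' hKU Subgroup.le_normalizer_of_normal,
        h₀.sup_eq_top, top_inf_eq, inf_comm] at h2
      have h3 := U.card_mul_index
      rw [← h₀.card_mul_card, ← h1, h2, mul_assoc] at h3
      rw [← Nat.eq_of_mul_eq_mul_left Nat.card_pos (Nat.eq_of_mul_eq_mul_left Nat.card_pos h3)]
      exact hcop)
  exact ⟨k, h⟩

end Cfsg.Agent.S0052
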