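import Cfsg.Statements.S0053
import Cfsg.Agent.Lib.Coprime.Gaschutz

set_option autoImplicit false
open Cfsg

namespace Cfsg.Agent.S0053

/-- An abelian minimal normal subgroup N of a finite group is complemented exactly when N is not inside the Frattini subgroup. -/
theorem result {G : Type*} [Group G] [Finite G]
    (N : Subgroup G) [N.Normal] [IsMulCommutative N] (hN : N ≠ ⊥)
    (hmin : ∀ M : Subgroup G, M.Normal → M ≤ N → M = ⊥ ∨ M = N) :
    (∃ H : Subgroup G, Subgroup.IsComplement' N H) ↔ ¬ N ≤ frattini G := by
  constructor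
  · rintro ⟨H, hH⟩ hle
    have h1 : H = ⊤ := frattini_nongenerating (top_le_iff.mp (by
      rw [← hH.sup_eq_top, sup_comm]; exact sup_le_sup_left hle H))
    rw [h1, Subgroup.isComplement'_top_right] at hH
    exact hN hH
  · intro h
    obtain ⟨M, hM, hNM⟩ : ∃ M : Subgroup G, IsCoatom M ∧ ¬ N ≤ M := by
      by_contra hc
      push Not at hc
      exact h (le_iInf₂ fun M hM => hc M hM)
    have h1 : N ⊔ M = ⊤ := hM.2 _ (lt_of_le_of_ne le_sup_right fun e => hNM (e ▸ le_sup_left))
    have h2 : (N ⊓ M).Normal := Lib.Core.normal_of_top_le_normalizer (by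
      rw [← h1]
      exact sup_le (((Subgroup.le_centralizer_iff_isMulCommutative.mpr inferInstance).trans
        (Subgroup.centralizer_le inf_le_left)).trans (Subgroup.centralizer_le_normalizer _))
        (Lib.Coprime.le_normalizer_inf Subgroup.le_normalizer_of_normal Subgroup.le_normalizer))
    refine ⟨M, Subgroup.isComplement'_of_disjoint_and_mul_eq_univ (disjoint_iff.mpr ?_) ?_⟩
    · exact (hmin _ h2 inf_le_left).resolve_right fun e => hNM (e ▸ inf_le_right)
    · rw [← Subgroup.normal_mul, h1, Subgroup.coe_top]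

end Cfsg.Agent.S0053
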