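import Cfsg.Statements.S0060
import Cfsg.Agent.Lib.Core.Subnormal

set_option autoImplicit false
open Pointwise
open Cfsg

namespace Cfsg.Agent.S0060

open Cfsg.Lib Cfsg.Lib.Core Cfsg.Lib.Transfer Subgroup

/-- Brodkey's Theorem: in a finite group with abelian Sylow p-subgroups and no nontrivial normal p-subgroup, some conjugate of a Sylow p-subgroup meets it trivially. -/
theorem result {G : Type*} [Group G] [Finite G] (p : ℕ) [Fact p.Prime]
    (S : Sylow p G) (hS : IsMulCommutative S) (hOp : Cfsg.pCore p G = ⊥) :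
    ∃ g : G, (S : Subgroup G) ⊓ MulAut.conj g • (S : Subgroup G) = ⊥ := by
  obtain ⟨_, -, ⟨g, rfl⟩, hmin⟩ := exists_minimal_le
    (P := fun D : Subgroup G => ∃ g : G, D = (S : Subgroup G) ⊓ g ⋆ (S : Subgroup G)) ⟨1, rfl⟩
  refine ⟨g, ?_⟩
  rw [Core.conj_smul_eq_map, eq_bot_iff, ← hOp, pCore_eq_normalCore S]
  have h1 : ∀ {T D : Subgroup G}, IsMulCommutative T → D ≤ T → T ≤ normalizer (D : Set G) :=
    fun hT hD => (le_centralizer_iff_isMulCommutative.2 hT).trans
      ((centralizer_le hD).trans (centralizer_le_normalizer _))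
  have h2 := h1 hS (inf_le_left : (S : Subgroup G) ⊓ g ⋆ (S : Subgroup G) ≤ S)
  have h3 := h1 (map_isMulCommutative _ _) (inf_le_right : (S : Subgroup G) ⊓ g ⋆ (S : Subgroup G) ≤ _)
  intro d hd x
  obtain ⟨n, hn, h4⟩ := exists_conj_le_of_not_dvd_relIndex' (sylow_not_dvd_relIndex (g • S) h3)
    ((isPGroup_conj S.isPGroup' x⁻¹).to_inf_left) inf_le_right
  have h5 := hmin _ ⟨n * x⁻¹, rfl⟩ (le_inf inf_le_left (le_trans (by
    rw [conj_inf, conj_conj, conj_eq_self_of_mem hn]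
    exact le_inf inf_le_right (inf_le_left.trans h2)) h4))
  have h6 := mem_conj.1 (h5.ge ((mem_normalizer_iff.1 hn d).1 hd)).2
  rwa [show (n * x⁻¹)⁻¹ * (n * d * n⁻¹) * (n * x⁻¹) = x * d * x⁻¹ by group] at h6

end Cfsg.Agent.S0060
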