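import Cfsg.Statements.S0061
import Cfsg.Agent.Lib.Char.Burnside

set_option autoImplicit false
open Cfsg

namespace Cfsg.Agent.S0061

open Cfsg.Lib.Char

/-- A finite group whose order is a prime power times a prime is solvable. -/
theorem result {G : Type*} [Group G] [Finite G] (p q m : ℕ) (hp : p.Prime) (hq : q.Prime)
    (hG : Nat.card G = p ^ m * q) : Group.IsSolvable G := by
  exact isSolvable_of_card_dvd_pow_mul_pow G hp hq (a := m) (b := 1) (by rw [hG, pow_one])

end Cfsg.Agent.S0061
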