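import Cfsg.Statements.S0068
import Cfsg.Agent.Lib.Frobenius.Basic

set_option autoImplicit false
open Cfsg

namespace Cfsg.Agent.S0068

/-- Frobenius complements of even order: if H complements a nontrivial normal subgroup K, each nonidentity element of H has trivial centraliser in K, and H has even order, then H contains a unique involution s, K is abelian, and s inverts every element of K. -/
theorem result {G : Type*} [Group G] [Finite G] (K H : Subgroup G) [K.Normal]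
    (hc : Subgroup.IsComplement' K H) (hK : K ≠ ⊥) (hfpf : ∀ h ∈ H, h ≠ 1 → K ⊓ Subgroup.centralizer {h} = ⊥)
    (heven : 2 ∣ Nat.card H) :
    (∃ s ∈ H, orderOf s = 2 ∧ (∀ t ∈ H, orderOf t = 2 → t = s) ∧ ∀ k ∈ K, s * k * s⁻¹ = k⁻¹) ∧ IsMulCommutative K := by
  open Cfsg.Lib.Frobenius in
  have hinv : ∀ s ∈ H, orderOf s = 2 → ∀ k ∈ K, s * k * s⁻¹ = k⁻¹ := by
    intro s hs ho k hk
    have hs1 : s ≠ 1 := by
      rintro rfl
      simp at ho
    have hs2 : s * s = 1 := by rw [← sq, ← ho, pow_orderOf_eq_one]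
    obtain ⟨x, -, e⟩ := exists_conj_eq_mul (K := K) (by simp [Subgroup.normalizer_eq_top])
      (hfpf s hs hs1) hk
    have h1 : k * s * (k * s) = 1 := by
      rw [← e]
      calc x * s * x⁻¹ * (x * s * x⁻¹) = x * (s * s) * x⁻¹ := by group
        _ = 1 := by rw [hs2]; group
    rw [inv_eq_of_mul_eq_one_right hs2, eq_inv_iff_mul_eq_one]
    calc s * k * s * k = k⁻¹ * (k * s * (k * s)) * s⁻¹ * s * k := by group
      _ = 1 := by rw [h1]; group
  have : Fact (Nat.Prime 2) := ⟨Nat.prime_two⟩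
  obtain ⟨s, hs⟩ := exists_prime_orderOf_dvd_card' 2 heven
  have hs' : orderOf (s : G) = 2 := by rw [Subgroup.orderOf_coe, hs]
  refine ⟨⟨s, s.2, hs', fun t ht ht' => ?_, hinv s s.2 hs'⟩, ⟨⟨fun a b => Subtype.ext ?_⟩⟩⟩
  · by_contra hne
    obtain ⟨k, hk, hk1⟩ := (K.bot_or_exists_ne_one).resolve_left hK
    refine hk1 ((Cfsg.Lib.Frobenius.inf_centralizer_eq_bot_iff' K ((s : G)⁻¹ * t)).1
      (hfpf _ (H.mul_mem (H.inv_mem s.2) ht) (fun e => hne (inv_mul_eq_one.1 e).symm)) k hk ?_)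
    calc (s : G)⁻¹ * t * k * ((s : G)⁻¹ * t)⁻¹ = (s : G)⁻¹ * (t * k * t⁻¹) * s := by group
      _ = (s : G)⁻¹ * (s * k * (s : G)⁻¹) * s := by rw [hinv t ht ht' k hk, hinv s s.2 hs' k hk]
      _ = k := by group
  · have h1 := hinv s s.2 hs' _ (K.mul_mem a.2 b.2)
    have h2 : (s : G) * (a * b) * (s : G)⁻¹ = (s * a * (s : G)⁻¹) * (s * b * (s : G)⁻¹) := by group
    rw [h2, hinv s s.2 hs' _ a.2, hinv s s.2 hs' _ b.2, ← mul_inv_rev, inv_inj] at h1
    exact h1.symm

end Cfsg.Agent.S0068
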