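import Cfsg.Statements.S0069
import Cfsg.Agent.Lib.BG.T03_9
import Cfsg.Agent.Lib.BG.Basic
import Cfsg.Agent.S0068

set_option autoImplicit false
open Cfsg

namespace Cfsg.Agent.S0069

theorem le_center_of_card_minFac {H : Type*} [Group H] [Finite H] (X : Subgroup H) [X.Normal]
    (hp : (Nat.card X).Prime) (hX : Nat.card X = (Nat.card H).minFac) :
    X ≤ Subgroup.center H := by
  haveI := Fact.mk hp
  haveI : IsCyclic X := isCyclic_of_prime_card rfl
  have hc : (Nat.card H).Coprime (Nat.card (MulAut X)) := by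
    rw [IsCyclic.card_mulAut, Nat.totient_prime hp]
    refine Nat.Coprime.symm ((Nat.coprime_of_lt_minFac ?_ ?_).symm)
    · have := hp.two_le; omega
    · rw [← hX]; have := hp.two_le; omega
  have hr : (MulAut.conjNormal : H →* MulAut X).range = ⊥ := by
    rw [← Subgroup.card_eq_one]
    exact Nat.eq_one_of_dvd_coprimes hc (Subgroup.card_range_dvd _) (Subgroup.card_subgroup_dvd_card _)
  intro x hx
  rw [Subgroup.mem_center_iff]
  intro g
  have h1 : (MulAut.conjNormal : H →* MulAut X) g = 1 := by
    have : (MulAut.conjNormal : H →* MulAut X) g ∈ (MulAut.conjNormal : H →* MulAut X).range :=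
      ⟨g, rfl⟩
    rwa [hr, Subgroup.mem_bot] at this
  have h2 := congrArg (fun e : MulAut X => ((e ⟨x, hx⟩ : X) : H)) h1
  simp only [MulAut.conjNormal_apply, MulAut.one_apply] at h2
  exact mul_inv_eq_iff_eq_mul.1 h2

/-- A Frobenius complement has nontrivial centre: if H ≠ 1 complements a nontrivial normal subgroup K and every nonidentity element of H has trivial centraliser in K, then the centre of H is nontrivial. -/
theorem result {G : Type*} [Group G] [Finite G] (K H : Subgroup G) [K.Normal]
    (hc : Subgroup.IsComplement' K H) (hK : K ≠ ⊥) (hH : H ≠ ⊥) (hfpf : ∀ h ∈ H, h ≠ 1 → K ⊓ Subgroup.centralizer {h} = ⊥) :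
    Subgroup.center H ≠ ⊥ := by
  by_cases heven : 2 ∣ Nat.card H
  · obtain ⟨⟨s, hs, hs2, huniq, -⟩, -⟩ := Cfsg.Agent.S0068.result K H hc hK hfpf heven
    rw [Subgroup.ne_bot_iff_exists_ne_one]
    refine ⟨⟨⟨s, hs⟩, Subgroup.mem_center_iff.2 fun g => Subtype.ext ?_⟩, ?_⟩
    · have h := huniq (g * s * (g : G)⁻¹) (H.mul_mem (H.mul_mem g.2 hs) (H.inv_mem g.2)) (by
        rw [← hs2]; exact (MulAut.conj (g : G)).orderOf_eq s)
      simp only [Subgroup.coe_mul]
      exact mul_inv_eq_iff_eq_mul.1 h
    · intro e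
      have : s = 1 := congrArg (fun x : Subgroup.center H => ((x : H) : G)) e
      rw [this, orderOf_one] at hs2
      exact absurd hs2 (by norm_num)
  · have hodd : Odd (Nat.card H) := Nat.odd_iff.2 (by omega)
    have h1 : Nat.card H ≠ 1 := fun e => hH (Subgroup.card_eq_one.1 e)
    have hp : (Nat.card H).minFac.Prime := Nat.minFac_prime h1
    haveI := Fact.mk hp
    obtain ⟨x, hx⟩ := exists_prime_orderOf_dvd_card' (G := H) _ (Nat.minFac_dvd (Nat.card H))
    have hXc : Nat.card (Subgroup.zpowers x) = (Nat.card H).minFac := by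
      rw [Nat.card_zpowers, hx]
    have hXc' : Nat.card ((Subgroup.zpowers x).map H.subtype) = (Nat.card H).minFac := by
      rw [Subgroup.card_map_of_injective H.subtype_injective, hXc]
    have hn := Cfsg.Lib.BG.odd_regular_prime_normal (H := K) (X := (Subgroup.zpowers x).map H.subtype)
      hodd hK Subgroup.le_normalizer_of_normal hfpf (Subgroup.map_subtype_le _) (hXc' ▸ hp)
    haveI : (Subgroup.zpowers x).Normal := by
      have := (Subgroup.normal_subgroupOf_iff_le_normalizer hn.le).2 hn.norm
      rwa [Subgroup.subgroupOf, Subgroup.comap_map_eq_self_of_injective H.subtype_injective] at this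
    have hle := le_center_of_card_minFac (Subgroup.zpowers x) (hXc ▸ hp) hXc
    intro e
    rw [e, le_bot_iff] at hle
    rw [hle, Subgroup.card_bot] at hXc
    exact hp.one_lt.ne hXc

end Cfsg.Agent.S0069
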