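import Cfsg.Statements.S0073
import Cfsg.Agent.Lib.Transfer.Criteria

set_option autoImplicit false
open Cfsg

namespace Cfsg.Agent.S0073

/-- For a finite non-abelian simple group, either the cube of the least prime divisor of the order divides the order, or 12 does. -/
theorem result {G : Type*} [Group G] [Finite G] [IsSimpleGroup G] (hG : ∃ x y : G, x * y ≠ y * x) : (Nat.card G).minFac ^ 3 ∣ Nat.card G ∨ 12 ∣ Nat.card G := by
  have hna : ¬ IsMulCommutative G := fun h => by
    obtain ⟨x, y, hxy⟩ := hG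
    exact hxy (h.is_comm.comm x y)
  have h1 : Nat.card G ≠ 1 := (Finite.one_lt_card (α := G)).ne'
  have hp := Nat.minFac_prime h1
  have hmin : ∀ q : ℕ, q.Prime → q ∣ Nat.card G → (Nat.card G).minFac ≤ q := fun q hq hd =>
    Nat.minFac_le_of_dvd hq.two_le hd
  have hd := Nat.minFac_dvd (Nat.card G)
  generalize (Nat.card G).minFac = p at hp hmin hd
  have : Fact p.Prime := ⟨hp⟩
  obtain ⟨a, ha⟩ := (default : Sylow p G).2.exists_card_eq
  have hda : p ^ a ∣ Nat.card G := ha ▸ Subgroup.card_subgroup_dvd_card _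
  obtain ⟨q, i, hq, hqp, hqd, hi1, hia, hqi⟩ := Lib.Transfer.exists_prime_dvd_pow_sub_one default ha
    (Lib.Transfer.not_hasNormalPComplement_of_simple hna hd)
  by_cases h3 : 3 ≤ a
  · exact Or.inl ((pow_dvd_pow p h3).trans hda)
  right
  have hlt : p < q := lt_of_le_of_ne (hmin q hq hqd) hqp.symm
  have h2 := hp.two_le
  have hnd : ¬ q ∣ p - 1 := fun h => by
    have := Nat.le_of_dvd (by omega) h
    omega
  obtain rfl | rfl : i = 1 ∨ i = 2 := by omega
  · exact absurd (by simpa using hqi) hnd
  have e : p ^ 2 - 1 = (p + 1) * (p - 1) := by simpa using Nat.sq_sub_sq p 1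
  rw [e] at hqi
  have h4 : q = p + 1 := by
    have := Nat.le_of_dvd (by omega) (((Nat.Prime.dvd_mul hq).1 hqi).resolve_right hnd)
    omega
  have hp2 : p = 2 := by
    rcases hp.eq_two_or_odd' with h | h
    · exact h
    · rcases hq.eq_two_or_odd' with h' | h'
      · omega
      · rw [h4] at h'
        exact absurd h' (by simpa [parity_simps] using h)
  subst hp2
  subst h4
  exact Nat.Coprime.mul_dvd_of_dvd_of_dvd (m := 4) (n := 3) (by norm_num)
    ((pow_dvd_pow 2 hia).trans hda) hqd

end Cfsg.Agent.S0073
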