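import Cfsg.Statements.S0076
import Cfsg.Agent.Lib.Transfer.Fusion

set_option autoImplicit false
open Cfsg

namespace Cfsg.Agent.S0076

/-- Two P-invariant subsets of a Sylow p-subgroup P that are conjugate in G are conjugate under the normalizer of P. -/
theorem result {G : Type*} [Group G] [Finite G] {p : ℕ} [Fact p.Prime] (P : Sylow p G) (X Y : Set G) (hXP : X ⊆ P) (hYP : Y ⊆ P) (hX : ∀ x ∈ P, (fun y => x * y * x⁻¹) '' X = X) (hY : ∀ x ∈ P, (fun y => x * y * x⁻¹) '' Y = Y) (g : G) (hg : (fun y => g * y * g⁻¹) '' X = Y) : ∃ n ∈ Subgroup.normalizer (P : Set G), (fun y => n * y * n⁻¹) '' X = Y := by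
  have key : ∀ Z : Set G, (∀ x ∈ P, (fun y => x * y * x⁻¹) '' Z = Z) →
      (P : Subgroup G) ≤ Subgroup.normalizer Z := fun Z hZ x hx =>
    Subgroup.mem_normalizer_iff_conj_image_eq.2 (hZ x hx)
  obtain ⟨c, hc, h⟩ := Lib.Transfer.exists_mul_mem_normalizer_sylow P (key Y hY) (g := g)
    (by rw [← hg, ← Lib.Transfer.conj_set_normalizer]; exact Subgroup.map_mono (key X hX))
  refine ⟨c * g, h, ?_⟩
  have h1 : (fun y => c * y * c⁻¹) '' Y = Y := Subgroup.mem_normalizer_iff_conj_image_eq.1 hc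
  rw [← h1, ← hg, Set.image_image]
  congr 1
  ext y
  group

end Cfsg.Agent.S0076
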