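import Cfsg.Statements.S0078
import Cfsg.Agent.Lib.Transfer.Fusion

set_option autoImplicit false
open Cfsg

namespace Cfsg.Agent.S0078

/-- In a p-normal group, a Sylow p-subgroup P meets O^p(G) exactly where it meets O^p(V), for any subgroup V containing the normalizer of the centre of P. -/
theorem result {G : Type*} [Group G] [Finite G] {p : ℕ} [Fact p.Prime] (P : Sylow p G) (hn : ∀ Q : Sylow p G, (P : Subgroup G) ⊓ Subgroup.centralizer (P : Set G) ≤ (Q : Subgroup G) → (Q : Subgroup G) ⊓ Subgroup.centralizer (Q : Set G) = (P : Subgroup G) ⊓ Subgroup.centralizer (P : Set G)) (V : Subgroup G) (hV : Subgroup.normalizer (((P : Subgroup G) ⊓ Subgroup.centralizer (P : Set G) : Subgroup G) : Set G) ≤ V) : (P : Subgroup G) ⊓ Cfsg.pResidual p G = (P : Subgroup G) ⊓ (Cfsg.pResidual p V).map V.subtype := by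
  have hW : Cfsg.IsWeaklyClosed ((P : Subgroup G) ⊓ Subgroup.centralizer (P : Set G)) (P : Subgroup G) := by
    refine ⟨inf_le_left, fun g hg => ?_⟩
    have h1 := hn (g⁻¹ • P) (Lib.Transfer.conj_le_iff_le_inv_conj.1 hg)
    rw [Lib.Transfer.conj_eq_iff_eq_inv_conj, Lib.Transfer.conj_inf]
    exact h1.symm.trans (congrArg _ (Lib.Transfer.conj_centralizer g⁻¹ (P : Subgroup G)).symm)
  have hPV : (P : Subgroup G) ≤ V := (Subgroup.le_normalizer.trans
    (Lib.Transfer.normalizer_le_normalizer_of_isWeaklyClosed hW)).trans hV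
  rw [← Lib.Transfer.gruen_pResidual_inf P inf_le_right hW hV, inf_comm _ V, ← inf_assoc,
    inf_eq_left.2 hPV]

end Cfsg.Agent.S0078
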