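import Cfsg.Statements.S0079
import Cfsg.Agent.Lib.Transfer.Fusion

set_option autoImplicit false
open Cfsg

namespace Cfsg.Agent.S0079

/-- A nilpotent Hall subgroup has a normal complement exactly when elements of it that are conjugate in the whole group are already conjugate inside it. -/
theorem result {G : Type*} [Group G] [Finite G] (H : Subgroup G) (hH : Group.IsNilpotent H) (hHall : Nat.Coprime (Nat.card H) H.index) : (∃ N : Subgroup G, N.Normal ∧ N.IsComplement' H) ↔ ∀ x ∈ H, ∀ y ∈ H, (∃ g : G, g * x * g⁻¹ = y) → ∃ h ∈ H, h * x * h⁻¹ = y := by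
  constructor
  · rintro ⟨N, hN, h⟩ x hx y hy ⟨g, rfl⟩
    obtain ⟨n, hn, h1⟩ := Lib.Transfer.exists_conj_eq_of_normal_complement h g
    exact ⟨n, hn, h1 x hx hy⟩
  · intro h
    exact Lib.Transfer.exists_normal_complement_of_nilpotent_hall H hH hHall
      fun x hx g hg => h x hx _ hg ⟨g, rfl⟩

end Cfsg.Agent.S0079
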