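import Cfsg.Statements.S0083
import Cfsg.Agent.Lib.Transfer.Criteria

set_option autoImplicit false
open Cfsg

namespace Cfsg.Agent.S0083

/-- For an abelian Sylow p-subgroup P, a normal p-complement exists exactly when the normalizer of P is an internal direct product of P with some subgroup. -/
theorem result {G : Type*} [Group G] [Finite G] {p : ℕ} [Fact p.Prime] (P : Sylow p G) (hP : IsMulCommutative P) : Cfsg.HasNormalPComplement p G ↔ ∃ Q : Subgroup G, Q ≤ Subgroup.centralizer (P : Set G) ∧ Q ⊓ (P : Subgroup G) = ⊥ ∧ Q ⊔ (P : Subgroup G) = Subgroup.normalizer (P : Set G) := by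
  have hP' : IsMulCommutative (P : Subgroup G) := hP
  constructor
  · intro h
    have hN := Lib.Transfer.hasNormalPComplement_subgroup h (Subgroup.normalizer (P : Set G))
    refine ⟨(Cfsg.pResidual p (Subgroup.normalizer (P : Set G))).map (Subgroup.subtype _), ?_, ?_, ?_⟩
    · exact Lib.Transfer.map_subtype_pResidual_le_iff.2 fun g hg hc =>
        Lib.Transfer.mem_centralizer_of_hasNormalPComplement h P.2 hg hc
    · rw [eq_bot_iff, ← (Lib.Transfer.hasNormalPComplement_iff_pResidual_inf_sylow P).1 h]
      exact inf_le_inf_right _ (Lib.Transfer.map_pResidual_le _)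
    · exact Lib.Transfer.map_pResidual_sup_eq (T := (P : Subgroup G)) Subgroup.le_normalizer
        (Lib.Transfer.sylow_not_dvd_relIndex P Subgroup.le_normalizer)
  · rintro ⟨Q, h1, -, h3⟩
    refine Lib.Transfer.hasNormalPComplement_of_normalizer_le_centralizer P ?_
    rw [← h3]
    exact sup_le h1 (Subgroup.le_centralizer (P : Subgroup G))

end Cfsg.Agent.S0083
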