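import Cfsg.Statements.S0092
import Cfsg.Agent.Lib.Transfer.Criteria
import Cfsg.Agent.Lib.Coprime.SZ

set_option autoImplicit false
open Cfsg

namespace Cfsg.Agent.S0092

open Subgroup Cfsg.Lib.Transfer
open scoped IsMulCommutative

/-- If the Sylow p-subgroups of O^p(G) are abelian then G splits over O^p(G). -/
theorem result {G : Type*} [Group G] [Finite G] {p : ℕ} [Fact p.Prime] (h : ∀ Q : Sylow p (Cfsg.pResidual p G), IsMulCommutative Q) : ∃ K : Subgroup G, K.IsComplement' (Cfsg.pResidual p G) := by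
  set R := Cfsg.pResidual p G with hR
  obtain ⟨Q0⟩ : Nonempty (Sylow p R) := inferInstance
  have := h Q0
  set Q : Subgroup G := (Q0 : Subgroup R).map R.subtype with hQ
  obtain ⟨hQR, hQp, hQi⟩ := exists_sylow_map_eq_iff.1 ⟨Q0, hQ.symm⟩
  set M : Subgroup G := R ⊓ normalizer (Q : Set G) with hM
  have hQM : Q ≤ M := le_inf hQR le_normalizer
  have hQMi : ¬ p ∣ Q.relIndex M := fun hd => hQi (hd.trans
    (Dvd.intro _ (relIndex_mul_relIndex Q M R hQM inf_le_left)))
  have hcomm : ⁅Q, M⁆ = Q := by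
    have h1 := congrArg (Subgroup.map R.subtype) (pResidual_inf_eq_of_abelian Q0)
    rw [pResidual_pResidual, top_inf_eq, map_commutator] at h1
    refine le_antisymm (le_normalizer_iff_commutator_le_left.1 inf_le_right) (h1.le.trans (commutator_mono le_rfl ?_))
    exact le_inf (map_subtype_le _) (le_normalizer_map _)
  have hbot : Q ⊓ centralizer (M : Set G) = ⊥ := by
    have := (abelian_sylowIn_decomposition hQp hQM inf_le_right hQMi).2
    rwa [hcomm] at this
  obtain ⟨k, hk⟩ := hQp.exists_card_eq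
  have hcop : (Nat.card Q).Coprime (Q.relIndex M) := by
    rw [hk]; exact ((Nat.Prime.coprime_iff_not_dvd Fact.out).2 hQMi).pow_left k
  obtain ⟨L, hLM, hQL, hsup, hLc⟩ := Lib.Coprime.exists_complement hQM inf_le_right hcop
  set H : Subgroup G := normalizer (Q : Set G) ⊓ normalizer (L : Set G) with hH
  have hLQ : L ≤ normalizer (Q : Set G) := hLM.trans inf_le_right
  have hLH : L ≤ H := le_inf hLQ le_normalizer
  have hRH : R ⊔ H = ⊤ := by
    refine eq_top_iff.2 fun g _ => ?_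
    obtain ⟨r, hr, hn⟩ := frattini_argument (K := ⊤) hQR hQp hQi le_normalizer_of_normal (mem_top g)
    have e1 : (r * g) ⋆ Q = Q := conj_eq_self_iff.2 hn
    obtain ⟨q, hq, e⟩ := Lib.Coprime.exists_map_conj_eq_of_sup_eq (N := Q) (A := L) (B := (r * g) ⋆ L) hLQ
      (by rw [← e1, ← conj_sup, e1, hsup, hM, conj_inf, conj_normalizer, e1, conj_eq_self_of_normal])
      hQL (by rw [card_conj, hLc]; exact hcop.symm) (Or.inr inferInstance)
    rw [conj_conj, conj_eq_self_iff] at e
    have h1 : q * (r * g) ∈ H := ⟨mul_mem (le_normalizer hq) hn, e⟩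
    have h2 := mul_mem_sup (R.inv_mem (R.mul_mem (hQR hq) hr)) h1
    simpa [mul_assoc] using h2
  have hHR : R ⊓ H ≤ L := by
    rintro x ⟨hxR, hxQ, hxL⟩
    have hx : x ∈ Q ⊔ L := hsup ▸ (⟨hxR, hxQ⟩ : x ∈ M)
    obtain ⟨q, hq, l, hl, rfl⟩ := exists_mul_of_mem_sup hLQ hx
    have h1 : q ∈ Q ⊓ normalizer (L : Set G) :=
      ⟨hq, by simpa using (normalizer (L : Set G)).mul_mem hxL (inv_mem (le_normalizer hl))⟩
    rw [Lib.Coprime.inf_normalizer_eq_inf_centralizer hLQ (by rw [inf_comm, hQL])] at h1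
    have h2 : q ∈ Q ⊓ centralizer (M : Set G) := by
      refine ⟨hq, ?_⟩
      have : M ≤ centralizer (zpowers q : Set G) := by
        rw [← hsup]
        exact sup_le (le_centralizer_iff.1 ((zpowers_le.2 hq).trans (le_centralizer Q)))
          (le_centralizer_iff.1 (zpowers_le.2 h1.2))
      exact le_centralizer_iff.1 this (mem_zpowers q)
    rw [hbot, mem_bot] at h2
    simpa [h2] using hl
  obtain ⟨K, -, hKH, hKp, hKi⟩ := exists_sylowIn_ge (p := p) (Q := ⊥) (H := H) IsPGroup.of_bot bot_le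
  have hKR : K ⊓ R = ⊥ := by
    refine eq_bot_iff.2 fun x hx => ?_
    obtain ⟨j, hj⟩ := hKp ⟨x, hx.1⟩
    refine eq_one_of_pow_pow_eq_one_of_coprime (congrArg Subtype.val hj) ?_
    have h1 : orderOf x ∣ Nat.card L := orderOf_dvd_natCard L (hHR ⟨hx.2, hKH hx.1⟩)
    rw [hLc] at h1
    exact Nat.Coprime.coprime_dvd_left h1 ((Nat.Prime.coprime_iff_not_dvd Fact.out).2 hQMi).symm
  refine ⟨K, isComplement'_of_disjoint_and_mul_eq_univ (disjoint_iff.2 hKR) ?_⟩
  suffices hs : K ⊔ R = ⊤ by rw [← mul_normal, hs, coe_top]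
  rw [eq_top_iff, ← hRH, ← map_pResidual_sup_eq hKH hKi]
  exact sup_le le_sup_right (sup_le ((map_pResidual_le _).trans le_sup_right) le_sup_left)

end Cfsg.Agent.S0092
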