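import Cfsg.Statements.S0094
import Cfsg.Agent.Lib.PGroup.Commutator
import Cfsg.Agent.Lib.PGroup.Frattini

set_option autoImplicit false
open Cfsg
open scoped commutatorElement

namespace Cfsg.Agent.S0094

/-- In a special p-group every central element has order dividing p. -/
theorem result {P : Type*} [Group P] [Finite P] {p : ℕ} [Fact p.Prime] (h : Cfsg.IsSpecial p P) (z : P) (hz : z ∈ Subgroup.center P) : z ^ p = 1 := by
  have hc : ∀ x y : P, ⁅x, y⁆ ∈ Subgroup.center P := fun x y =>
    h.2.2 ▸ Subgroup.commutator_mem_commutator (Subgroup.mem_top _) (Subgroup.mem_top _)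
  rw [← h.2.2] at hz
  induction hz using Subgroup.closure_induction with
  | mem x hx =>
    obtain ⟨x, -, y, -, rfl⟩ := hx
    rw [← Cfsg.Lib.PGroup.commutator_pow_left_of_commute (Subgroup.mem_center_iff.1 (hc x y) x),
      commutatorElement_eq_one_iff_mul_comm]
    exact (Subgroup.mem_center_iff.1 (h.2.1 ▸ Cfsg.Lib.PGroup.pow_mem_frattini h.1 x) y).symm
  | one => exact one_pow _
  | mul x y hx hy h1 h2 =>
    have : Commute x y := Subgroup.mem_center_iff.1 (h.2.2.le hy) x
    rw [this.mul_pow, h1, h2, one_mul]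
  | inv x hx h1 => rw [inv_pow, h1, inv_one]

end Cfsg.Agent.S0094
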