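import Cfsg.Statements.S0097
import Cfsg.Agent.Lib.Extraspecial.Basic

set_option autoImplicit false
open Cfsg

namespace Cfsg.Agent.S0097

/-- For odd p and E extraspecial, the subgroup generated by the elements of order dividing p has exponent dividing p and index at most p. -/
theorem result {E : Type*} [Group E] [Finite E] {p : ℕ} [Fact p.Prime] (hp : p ≠ 2) (h : Cfsg.IsExtraspecial p E) : (Subgroup.closure {x : E | x ^ p = 1}).index ≤ p ∧ ∀ g ∈ Subgroup.closure {x : E | x ^ p = 1}, g ^ p = 1 := by
  obtain ⟨n, D, -, -, -⟩ := Cfsg.Lib.ES.exists_ext_of_isExtraspecial h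
  have h1 : {x : E | x ^ p = 1} = D.pre (LinearMap.ker (D.Plin hp)) := by
    ext x
    exact D.pow_eq_one_iff
  refine ⟨?_, fun g hg => ?_⟩
  · rw [h1, Subgroup.closure_eq, D.index_pre]
    have h2 : (LinearMap.ker (D.Plin hp)).toAddSubgroup = (D.Plin hp).toAddMonoidHom.ker := rfl
    rw [h2, AddSubgroup.index_ker]
    exact (Nat.card_le_card_of_injective _ Subtype.val_injective).trans (Nat.card_zmod p).le
  · rw [h1, Subgroup.closure_eq] at hg
    exact D.pow_eq_one_iff.2 hg

end Cfsg.Agent.S0097
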