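import Cfsg.Statements.S0099
import Cfsg.Agent.Lib.Extraspecial.Two

set_option autoImplicit false
open Cfsg

namespace Cfsg.Agent.S0099

/-- Among three extraspecial 2-groups of equal order, some two are isomorphic. -/
theorem result {E₁ : Type*} {E₂ : Type*} {E₃ : Type*} [Group E₁] [Group E₂] [Group E₃] [Finite E₁] [Finite E₂] [Finite E₃] (h₁ : Cfsg.IsExtraspecial 2 E₁) (h₂ : Cfsg.IsExtraspecial 2 E₂) (h₃ : Cfsg.IsExtraspecial 2 E₃) (h12 : Nat.card E₁ = Nat.card E₂) (h23 : Nat.card E₂ = Nat.card E₃) : Nonempty (E₁ ≃* E₂) ∨ Nonempty (E₂ ≃* E₃) ∨ Nonempty (E₁ ≃* E₃) := by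
  obtain ⟨n, -, hn⟩ := Cfsg.Lib.ES.exists_card_eq_of_isExtraspecial h₁
  have hn₂ := h12.symm.trans hn
  have hn₃ := h23.symm.trans hn₂
  have k12 := Cfsg.Lib.ES.nonempty_mulEquiv_of_plus_iff h₁ h₂ hn hn₂
  have k23 := Cfsg.Lib.ES.nonempty_mulEquiv_of_plus_iff h₂ h₃ hn₂ hn₃
  have k13 := Cfsg.Lib.ES.nonempty_mulEquiv_of_plus_iff h₁ h₃ hn hn₃
  have key : ∀ a b c : Prop, (a ↔ b) ∨ (b ↔ c) ∨ (a ↔ c) := fun a b c => by tauto
  exact (key _ _ _).imp k12 (Or.imp k23 k13)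

end Cfsg.Agent.S0099
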