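import Cfsg.Statements.S0105
import Cfsg.Agent.Lib.Transfer.Criteria

set_option autoImplicit false
open Cfsg

namespace Cfsg.Agent.S0105

/-- With an abelian Sylow p-subgroup P, some quotient of G is isomorphic to the part of P central in N_G(P). -/
theorem result {G : Type*} [Group G] [Finite G] {p : ℕ} [Fact p.Prime] (P : Sylow p G) (hP : IsMulCommutative P) : ∃ (N : Subgroup G) (hN : N.Normal), Nonempty (G ⧸ N ≃* ((P : Subgroup G) ⊓ Subgroup.centralizer (Subgroup.normalizer (P : Set G) : Set G) : Subgroup G)) := by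
  have hP' : IsMulCommutative (P : Subgroup G) := hP
  obtain ⟨h1, h2⟩ := Lib.Transfer.abelian_sylowIn_decomposition (P := (P : Subgroup G))
    (N := Subgroup.normalizer ((P : Subgroup G) : Set G)) P.2 Subgroup.le_normalizer le_rfl
    (Lib.Transfer.sylow_not_dvd_relIndex P Subgroup.le_normalizer)
  rw [← Lib.Transfer.pResidual_inf_eq_of_abelian] at h1 h2
  refine ⟨Cfsg.pResidual p G, inferInstance, ⟨Subgroup.IsComplement'.QuotientMulEquiv ?_⟩⟩
  refine Subgroup.isComplement'_of_disjoint_and_mul_eq_univ ?_ ?_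
  · rw [disjoint_iff, inf_comm, ← inf_assoc]
    exact h2
  · rw [← Subgroup.mul_normal, ← Subgroup.coe_top, SetLike.coe_set_eq, eq_top_iff,
      ← Lib.Transfer.pResidual_sup_sylow P]
    refine sup_le le_sup_right (h1.ge.trans (sup_le (inf_le_left.trans le_sup_right) le_sup_left))

end Cfsg.Agent.S0105
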