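import Cfsg.Statements.S0107
import Cfsg.Agent.Lib.Inv.DihedralSylow

set_option autoImplicit false
open Cfsg

namespace Cfsg.Agent.S0107
open Cfsg.Lib.Inv


/-- A finite group with no nontrivial 2-group quotient and dihedral Sylow 2-subgroups of order at least 8 has a single class of involutions. -/
theorem result {G : Type*} [Group G] [Finite G] (T : Sylow 2 G) (n : ℕ) (hn : 2 ≤ n) (hT : Nonempty ((T : Subgroup G) ≃* DihedralGroup (2 ^ n))) (hO : Cfsg.pResidual 2 G = ⊤) (x y : G) (hx : orderOf x = 2) (hy : orderOf y = 2) : ∃ g : G, g * x * g⁻¹ = y := by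
  obtain ⟨a, b, m, -, h⟩ := exists_mc_of_dihedral T.isPGroup'
    ((Nat.le_self_pow (by omega) 2 : 2 ≤ 2 ^ n)) hT.some
  exact isConj_iff.1 (h.isConj_of_pResidual hO hx hy)

end Cfsg.Agent.S0107
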