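import Cfsg.Statements.S0109
import Cfsg.Agent.Lib.PLocal.Factor

set_option autoImplicit false
open Cfsg

set_option linter.unusedVariables false
open Cfsg.Lib

namespace Cfsg.Agent.S0109

/-- The Thompson factorization Theorem for solvable groups states that, with p odd (and abelian Sylow 2-subgroups when p = 3) and no nontrivial normal subgroup of order prime to p, every element of G is a product of an element normalizing J(P) and an element centralizing the elements of order dividing p in the centre of P. -/
theorem result {G : Type*} [Group G] [Finite G] {p : ℕ} [Fact p.Prime] (hp : p ≠ 2) (hs : Group.IsSolvable G) (h3 : p = 3 → ∀ T : Sylow 2 G, IsMulCommutative T) (hF : ∀ N : Subgroup G, N.Normal → Nat.Coprime (Nat.card N) p → N = ⊥) (P : Sylow p G) (g : G) : ∃ a ∈ Subgroup.normalizer (Cfsg.thompsonSubgroupOf p (P : Subgroup G) : Set G), ∃ c ∈ Subgroup.centralizer {x : G | x ∈ (P : Subgroup G) ∧ (∀ y ∈ (P : Subgroup G), x * y = y * x) ∧ x ^ p = 1}, g = a * c := by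
  have hps : Cfsg.IsPSolvable p G := Core.isPSolvable_of_isSolvable hs
  have hst : PLocal.SecStable p G := by
    by_cases h : p = 3
    · exact PLocal.secStable_of_abelian_sylow_two hp (h3 h)
    · exact PLocal.secStable_of_isPSolvable hp hps (fun h' => absurd h' h)
  have hc := Core.centralizer_pCore_le_of_isPSolvable hps (Core.pPrimeCore_eq_bot_iff.mpr hF)
  have hJ := PLocal.thompsonSubgroupOf_le_centralizer_omegaCenterSup hp (Or.inr rfl) hst.normalStable hc P
  obtain ⟨c, hc', n, hn, hg⟩ := PLocal.exists_mul_normalizer_thompsonSubgroupOf P hJ g⁻¹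
  refine ⟨n⁻¹, Subgroup.inv_mem _ hn, c⁻¹, Subgroup.inv_mem _ ?_, ?_⟩
  · refine Subgroup.centralizer_le ?_ hc'
    rintro x ⟨hx1, hx2, -⟩
    apply PLocal.le_omegaCenterSup P
    rw [PLocal.omegaCenter_zero]
    exact ⟨hx1, fun y hy => (hx2 y hy).symm⟩
  · rw [← mul_inv_rev, ← hg, inv_inv]

end Cfsg.Agent.S0109
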