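import Cfsg.Statements.S0111
import Cfsg.Agent.Lib.Transfer.Criteria

set_option autoImplicit false
open Cfsg

namespace Cfsg.Agent.S0111

/-- The Thompson transfer lemma states that an involution of a Sylow 2-subgroup P lying outside a subgroup Q of index 2 in P either lies outside some normal subgroup of index 2 in G or is conjugate to an element of Q. -/
theorem result {G : Type*} [Group G] [Finite G] (P : Sylow 2 G) (Q : Subgroup G) (hQP : Q ≤ (P : Subgroup G)) (hQi : Q.relIndex (P : Subgroup G) = 2) (u : G) (hu : orderOf u = 2) (huP : u ∈ (P : Subgroup G)) (huQ : u ∉ Q) : (∃ M : Subgroup G, M.Normal ∧ M.index = 2 ∧ u ∉ M) ∨ ∃ g : G, g * u * g⁻¹ ∈ Q := by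
  by_cases hc : ∃ g : G, g * u * g⁻¹ ∈ Q
  · exact Or.inr hc
  push Not at hc
  left
  have hn : (Q.subgroupOf (P : Subgroup G)).Normal := Subgroup.normal_of_index_eq_two hQi
  have hcard : Nat.card ((P : Subgroup G) ⧸ Q.subgroupOf (P : Subgroup G)) = 2 := hQi
  have hcy : IsCyclic ((P : Subgroup G) ⧸ Q.subgroupOf (P : Subgroup G)) := isCyclic_of_prime_card hcard
  have hcomm : IsMulCommutative ((P : Subgroup G) ⧸ Q.subgroupOf (P : Subgroup G)) := inferInstance
  have key : ∀ a ∈ (P : Subgroup G), ∀ b ∈ (P : Subgroup G), a * b ∈ Q ↔ (a ∈ Q ↔ b ∈ Q) :=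
    fun a ha b hb => Subgroup.mul_mem_iff_of_index_two hQi (a := ⟨a, ha⟩) (b := ⟨b, hb⟩)
  have hu2 : u ^ 2 = 1 := hu ▸ pow_orderOf_eq_one u
  obtain ⟨V, hV⟩ := Lib.Transfer.exists_hom_ne_one_of_controlled (p := 2) (K := Q) P.not_dvd_index huP huQ
    ⟨1, by simpa using hu2⟩ fun m a ha => by
      rcases Nat.even_or_odd' m with ⟨c, rfl | rfl⟩
      · simp [pow_mul, hu2]
      · rw [pow_succ, pow_mul, hu2, one_pow, one_mul] at ha ⊢
        rw [key _ ha _ (inv_mem huP), inv_mem_iff]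
        exact iff_of_false (hc a) huQ
  refine ⟨V.ker, inferInstance, ?_, hV⟩
  rw [Subgroup.index_ker]
  have h1 : Nat.card V.range ∣ 2 := (Subgroup.card_subgroup_dvd_card _).trans hcard.dvd
  rcases (Nat.dvd_prime Nat.prime_two).1 h1 with h2 | h2
  · have h3 : V u ∈ V.range := ⟨u, rfl⟩
    rw [Subgroup.card_eq_one.1 h2] at h3
    exact absurd h3 hV
  · exact h2

end Cfsg.Agent.S0111
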