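import Cfsg.Statements.S0112
import Cfsg.Agent.Lib.PGroup.MaxClass

set_option autoImplicit false
open Cfsg

namespace Cfsg.Agent.S0112

/-- A p-group with a self-centralizing subgroup of order p^2 is of maximal class. -/
theorem result {X : Type*} [Group X] [Finite X] {p : ℕ} [Fact p.Prime] (n : ℕ) (hX : Nat.card X = p ^ n) (A : Subgroup X) (hA : Nat.card A = p ^ 2) (hC : Subgroup.centralizer (A : Set X) = A) : Group.nilpotencyClass X = n - 1 := by
  have h1 : 2 ≤ n := (Nat.pow_le_pow_iff_right (Fact.out : p.Prime).one_lt).mp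
    (hA ▸ hX ▸ Nat.le_of_dvd Nat.card_pos A.card_subgroup_dvd_card)
  obtain ⟨m, rfl⟩ := Nat.exists_eq_add_of_le' h1
  exact (Cfsg.Lib.PGroup.maxClass_iff hX).mpr
    (Cfsg.Lib.PGroup.maxClass_of_self_centralizing hX hA hC)

end Cfsg.Agent.S0112
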