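import Cfsg.Statements.S0113
import Cfsg.Agent.Lib.BG.Hall
import Cfsg.Agent.Lib.FGS.Taussky

set_option autoImplicit false
open Cfsg

namespace Cfsg.Agent.S0113

/-- A 2-group of maximal class contains a cyclic subgroup of index 2. -/
theorem result {X : Type*} [Group X] [Finite X] (n : ℕ) (hn : 3 ≤ n) (hX : Nat.card X = 2 ^ n) (hc : Group.nilpotencyClass X = n - 1) : ∃ C : Subgroup X, IsCyclic C ∧ C.index = 2 := by
  open Subgroup Cfsg.Lib Cfsg.Lib.BG Cfsg.Lib.Transfer in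
  open Cfsg.Lib.PGroup Cfsg.Lib.FGS Cfsg.Lib.Inv in
  obtain ⟨n, rfl⟩ : ∃ m, n = m + 3 := ⟨n - 3, by omega⟩
  obtain ⟨a, b, h⟩ := exists_mc_of_maxClass hX ((maxClass_iff (n := n + 1) hX).1 hc)
  refine ⟨zpowers a, inferInstance, ?_⟩
  rw [← relIndex_top_right]
  rcases h with h | h | ⟨-, h⟩ <;> exact h.relIndex_eq

end Cfsg.Agent.S0113
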