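import Cfsg.Statements.S0114
import Cfsg.Agent.Lib.BG.Hall
import Cfsg.Agent.Lib.FGS.Taussky

set_option autoImplicit false
open Cfsg

namespace Cfsg.Agent.S0114

/-- The central quotient of a 2-group of maximal class is dihedral. -/
theorem result {X : Type*} [Group X] [Finite X] (n : ℕ) (hn : 3 ≤ n) (hX : Nat.card X = 2 ^ n) (hc : Group.nilpotencyClass X = n - 1) : Nonempty (X ⧸ Subgroup.center X ≃* DihedralGroup (2 ^ (n - 2))) := by
  open Subgroup Cfsg.Lib Cfsg.Lib.BG Cfsg.Lib.Transfer in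
  open Cfsg.Lib.PGroup Cfsg.Lib.FGS Cfsg.Lib.Inv in
  obtain ⟨n, rfl⟩ : ∃ m, n = m + 3 := ⟨n - 3, by omega⟩
  have h0 := (maxClass_iff (n := n + 1) hX).1 hc
  obtain ⟨a, b, ε, δ, h⟩ : ∃ (a b : X) (ε δ : ℤ), MC ⊤ a b (n + 1) ε δ := by
    obtain ⟨a, b, h | h | ⟨-, h⟩⟩ := exists_mc_of_maxClass hX h0 <;> exact ⟨a, b, _, _, h⟩
  have hz : a ^ ((2 : ℤ) ^ (n + 1)) ∈ center X := mem_center_iff.2 fun x => h.z_comm (mem_top x)
  have hZ : zpowers (a ^ ((2 : ℤ) ^ (n + 1))) = center X := eq_of_le_of_card_ge (zpowers_le.2 hz)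
    (by rw [maxClass_card_center hX h0, Nat.card_zpowers, h.z_ord])
  let π := QuotientGroup.mk' (center X)
  have hk : ∀ x, π x = 1 ↔ x ∈ center X := fun x => QuotientGroup.eq_one_iff x
  have h1 : ∀ i : ℤ, π a ^ (i * 2 ^ (n + 1)) = 1 := fun i => by
    rw [mul_comm, zpow_mul, ← map_zpow, (hk _).2 hz, one_zpow]
  have hb : π b ∉ zpowers (π a) := by
    rw [← MonoidHom.map_zpowers, ← mem_comap, comap_map_eq, QuotientGroup.ker_mk', ← hZ,
      sup_eq_left.2 (zpowers_le.2 (zpow_mem (mem_zpowers a) _))]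
    exact h.nmem
  refine nonempty_mulEquiv_dihedral (a := π a) (b := π b) ?_ ?_ ?_ hb ?_
  · have h2 : (zpowers (π a)).index = 2 := by
      rw [← MonoidHom.map_zpowers, index_map_eq _ (QuotientGroup.mk'_surjective _) (by
        rw [QuotientGroup.ker_mk', ← hZ]; exact zpowers_le.2 (zpow_mem (mem_zpowers a) _)), ← relIndex_top_right,
        h.relIndex_eq]
    have h3 := (zpowers (π a)).card_mul_index
    have h4 := (center X).card_mul_index
    rw [Nat.card_zpowers, h2, ← index_eq_card] at h3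
    rw [maxClass_card_center hX h0, ← h3, hX] at h4
    change _ = 2 ^ (n + 1)
    rw [pow_succ, pow_succ] at h4
    omega
  · rw [sq, ← map_mul, h.sq, map_zpow, h1]
  · rw [← map_inv, ← map_mul, ← map_mul, h.conj, map_zpow, zpow_sub, h1]; simp
  · rw [← MonoidHom.map_zpowers, ← MonoidHom.map_zpowers, ← Subgroup.map_sup, h.sup,
      map_top_of_surjective _ (QuotientGroup.mk'_surjective _)]

end Cfsg.Agent.S0114
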