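import Cfsg.Statements.S0115
import Cfsg.Agent.Lib.BG.Hall
import Cfsg.Agent.Lib.FGS.Taussky

set_option autoImplicit false
open Cfsg

namespace Cfsg.Agent.S0115

/-- A 2-group of order 2^n, n ≥ 3, is of maximal class exactly when its commutator quotient is a Klein four-group. -/
theorem result {X : Type*} [Group X] [Finite X] (n : ℕ) (hn : 3 ≤ n) (hX : Nat.card X = 2 ^ n) : Group.nilpotencyClass X = n - 1 ↔ IsKleinFour (X ⧸ commutator X) := by
  open Subgroup Cfsg.Lib Cfsg.Lib.BG Cfsg.Lib.Transfer in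
  open Cfsg.Lib.PGroup Cfsg.Lib.FGS Cfsg.Lib.Inv in
  obtain ⟨n, rfl⟩ : ∃ m, n = m + 3 := ⟨n - 3, by omega⟩
  have hG := IsPGroup.of_card hX
  refine ⟨fun hc => ?_, fun h => ?_⟩
  · have h0 := (maxClass_iff (n := n + 1) hX).1 hc
    have h1 : Nat.card (X ⧸ commutator X) = 4 := maxClass_index_commutator (n := n + 1) hX h0
    haveI : Nontrivial (X ⧸ commutator X) := Finite.one_lt_card_iff_nontrivial.1 (by omega)
    refine ⟨h1, (Monoid.exponent_eq_prime_iff Nat.prime_two).2 fun g hg => orderOf_eq_prime ?_ hg⟩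
    obtain ⟨g, rfl⟩ := QuotientGroup.mk_surjective g
    rw [← QuotientGroup.mk_pow, QuotientGroup.eq_one_iff, ← maxClass_frattini hX h0]
    exact pow_mem_frattini hG g
  · have h1 : (commutator X).index = 4 := h.card_four
    obtain ⟨a, b, m, -, h2⟩ := exists_mc_of_index_commutator hG h1 fun e => by
      rw [e, index_bot, hX, pow_add] at h1
      have : 0 < 2 ^ n := by positivity
      omega
    obtain ⟨ε, δ, h2⟩ : ∃ ε δ : ℤ, MC ⊤ a b m ε δ := by
      obtain h | h | ⟨-, h⟩ := h2 <;> exact ⟨_, _, h⟩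
    have h3 := h2.card_eq
    rw [card_top, hX] at h3
    have := Nat.pow_right_injective le_rfl h3
    rw [mc_nilpotencyClass h2]; omega

end Cfsg.Agent.S0115
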