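import Cfsg.Statements.S0118
import Cfsg.Agent.Lib.PLocal.Control
import Cfsg.Agent.Lib.PLocal.StableSL2

set_option autoImplicit false
open Cfsg

set_option linter.unusedVariables false
open Cfsg.Lib

namespace Cfsg.Agent.S0118

/-- Glauberman's ZJ-Theorem, in the case of groups with no section isomorphic to SL(2,p), p odd: conjugation of subsets of a Sylow p-subgroup P inside P is always induced from the normalizer of Z(J(P)). -/
theorem result {G : Type*} [Group G] [Finite G] {p : ℕ} [Fact p.Prime] (hp : p ≠ 2) (hfree : ¬ ∃ (H K : Subgroup G) (hK : (K.subgroupOf H).Normal), Nonempty ((H ⧸ K.subgroupOf H) ≃* Matrix.SpecialLinearGroup (Fin 2) (ZMod p))) (P : Sylow p G) (A : Set G) (hA : A ⊆ (P : Set G)) (g : G) (hAg : (fun a => g⁻¹ * a * g) '' A ⊆ (P : Set G)) : ∃ n ∈ Subgroup.normalizer (Cfsg.centerThompsonOf p (P : Subgroup G) : Set G), ∀ a ∈ A, n⁻¹ * a * n = g⁻¹ * a * g := by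
  have h := PLocal.secStable_of_sl_two_free hp fun h => hfree (PLocal.hasSection_iff.mp h)
  obtain ⟨n, hn, h⟩ := (PLocal.controls_of_secStable (PLocal.subFunctor_centerThompsonOf (Or.inr rfl))
    (PLocal.zjLike_centerThompsonOf hp (Or.inr rfl)) h P (PLocal.isStronglyClosed_self _)).set hA
    (Subgroup.mem_top g⁻¹) fun a ha => by rw [inv_inv]; exact hAg ⟨a, ha, rfl⟩
  exact ⟨n⁻¹, inv_mem hn, by simpa using h⟩

end Cfsg.Agent.S0118
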