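import Cfsg.Statements.S0124
import Cfsg.Agent.Lib.PGroup.Commutator

set_option autoImplicit false
open Cfsg

namespace Cfsg.Agent.S0124

/-- For p > 3, in a p-group of class at most three the elements of order dividing p generate a subgroup of exponent dividing p. -/
theorem result {R : Type*} [Group R] [Finite R] {p : ℕ} [Fact p.Prime] (hp : 3 < p) (hR : IsPGroup p R) (hcl : ⁅⁅commutator R, (⊤ : Subgroup R)⁆, (⊤ : Subgroup R)⁆ = ⊥) (g : R) (hg : g ∈ Subgroup.closure {x : R | x ^ p = 1}) : g ^ p = 1 := by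
  rw [← Cfsg.Lib.PGroup.omegaOne_top] at hg
  exact Cfsg.Lib.PGroup.pow_eq_one_of_mem_omegaOne_of_class_three Fact.out hp hcl hg

end Cfsg.Agent.S0124
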