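import Cfsg.Statements.S0131
import Cfsg.Agent.Lib.Transfer.Criteria

set_option autoImplicit false
open Cfsg

namespace Cfsg.Agent.S0131

/-- P/P' has a normal complement in G exactly when the focal subgroup G' ∩ P is as small as possible, namely P'. -/
theorem result {G : Type*} [Group G] [Finite G] {p : ℕ} [Fact p.Prime] (P : Sylow p G) : (∃ N : Subgroup G, N.Normal ∧ N ⊓ (P : Subgroup G) = ⁅(P : Subgroup G), (P : Subgroup G)⁆ ∧ N ⊔ (P : Subgroup G) = ⊤) ↔ commutator G ⊓ (P : Subgroup G) = ⁅(P : Subgroup G), (P : Subgroup G)⁆ := by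
  constructor
  · rintro ⟨N, hN, h1, h2⟩
    apply le_antisymm
    · rw [← h1]
      refine inf_le_inf_right _ ?_
      have h3 : (P : Subgroup G).map (QuotientGroup.mk' N) = ⊤ := by
        rw [Lib.Core.map_mk'_eq_top_iff, sup_comm, h2]
      rw [commutator_def, Lib.Core.commutator_le_iff_map_mk',
        Subgroup.map_top_of_surjective _ (QuotientGroup.mk'_surjective N), ← h3,
        ← Lib.Core.commutator_le_iff_map_mk', ← h1]
      exact inf_le_left
    · exact le_inf (Subgroup.commutator_mono le_top le_top) (Subgroup.commutator_le_self _)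
  · intro h
    refine ⟨(P : Subgroup G).transferFocal.ker, inferInstance, ?_, ?_⟩
    · rw [Subgroup.ker_transferFocal_inf_eq_focalSubgroup, ← Subgroup.commutator_inf_eq_focalSubgroup, h]
    · rw [eq_top_iff, ← Lib.Transfer.pResidual_sup_sylow P]
      exact sup_le_sup_right (Lib.Transfer.pResidual_le_ker (P.2.to_quotient _) _) _

end Cfsg.Agent.S0131
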