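import Cfsg.Statements.S0132
import Cfsg.Agent.Lib.Transfer.Criteria

set_option autoImplicit false
open Cfsg

namespace Cfsg.Agent.S0132

/-- A minimal non-p-nilpotent finite group is a minimal non-nilpotent group with a normal Sylow p-subgroup. -/
theorem result {G : Type*} [Group G] [Finite G] {p : ℕ} [Fact p.Prime] (h1 : ¬ Cfsg.HasNormalPComplement p G) (h2 : ∀ H : Subgroup G, H ≠ ⊤ → Cfsg.HasNormalPComplement p H) : (∀ H : Subgroup G, H ≠ ⊤ → Group.IsNilpotent H) ∧ ¬ Group.IsNilpotent G ∧ ∀ P : Sylow p G, (P : Subgroup G).Normal := by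
  obtain ⟨P, q, g, hn, hq, hqp, ⟨k, hk⟩, htop, -⟩ := Lib.Transfer.minimal_not_hasNormalPComplement h1 h2
  have : Fact q.Prime := ⟨hq⟩
  refine ⟨fun H hH => ?_, fun h => h1 Lib.Transfer.hasNormalPComplement_of_isNilpotent, fun Q => ?_⟩
  · have hH' := h2 H hH
    have hqG : IsPGroup q (G ⧸ (P : Subgroup G)) := by
      have h3 : (Subgroup.zpowers g).map (QuotientGroup.mk' (P : Subgroup G)) = ⊤ := by
        rw [Lib.Core.map_mk'_eq_top_iff, sup_comm, htop]
      have h4 : IsPGroup q (Subgroup.zpowers g) := IsPGroup.of_card_dvd_pow (n := k)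
        (by rw [Nat.card_zpowers]; exact orderOf_dvd_of_pow_eq_one hk)
      exact (h3 ▸ h4.map (QuotientGroup.mk' (P : Subgroup G))).of_equiv Subgroup.topEquiv
    have h5 : IsPGroup q (Cfsg.pResidual p H) := by
      rintro ⟨x, hx⟩
      obtain ⟨j, hj⟩ := hqG (x : G)
      rw [← QuotientGroup.mk_pow, QuotientGroup.eq_one_iff] at hj
      obtain ⟨i, hi⟩ := P.2 ⟨_, hj⟩
      refine ⟨j, Subtype.ext (Subtype.ext ?_)⟩
      refine Lib.Transfer.eq_one_of_pow_pow_eq_one_of_coprime (congrArg Subtype.val hi) ?_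
      have := (Lib.Transfer.mem_pResidual_iff hH').1 (pow_mem hx (q ^ j))
      rw [← Subgroup.orderOf_coe] at this
      exact this
    have h6 : IsPGroup p ((P : Subgroup G).subgroupOf H) := P.2.comap_subtype
    have h7 := Lib.Core.isNilpotent_sup Subgroup.le_normalizer_of_normal
      Subgroup.le_normalizer_of_normal h5.isNilpotent h6.isNilpotent
    rw [Lib.Transfer.pResidual_sup_eq_top (H := (P : Subgroup G).subgroupOf H)
      fun hd => P.not_dvd_index (hd.trans (Subgroup.relIndex_dvd_index_of_normal _ _))] at h7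
    exact Group.nilpotent_of_mulEquiv Subgroup.topEquiv
  · have := P.unique_of_normal hn
    rw [Subsingleton.elim Q P]
    exact hn

end Cfsg.Agent.S0132
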