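import Cfsg.Statements.S0139
import Cfsg.Agent.Lib.Char.Values

set_option autoImplicit false
open Cfsg

namespace Cfsg.Agent.S0139

open Cfsg.Lib.Char

/-- The kernel of a complex representation of a finite group is the set of elements where the character equals the degree. -/
theorem result {G : Type*} [Group G] [Finite G] {V : Type*} [AddCommGroup V] [Module ℂ V] [FiniteDimensional ℂ V] (ρ : Representation ℂ G V) (g : G) : ρ.character g = (Module.finrank ℂ V : ℂ) ↔ ρ g = LinearMap.id := by
  exact character_eq_finrank_iff ρ g

end Cfsg.Agent.S0139
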