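import Cfsg.Statements.S0166
import Cfsg.Agent.Lib.Char.Split
import Cfsg.Agent.Lib.Clifford.Det

set_option autoImplicit false
open Cfsg

namespace Cfsg.Agent.S0166

open Cfsg.Lib.Char

/-- Brauer's splitting field Theorem: a complex representation of a finite group of exponent m is equivalent to a representation by matrices with entries in ℚ adjoined exp(2πi/m). -/
theorem result {G : Type*} [Group G] [Finite G] (n : ℕ) (ρ : Representation ℂ G (Fin n → ℂ)) : ∃ σ : Representation ℂ G (Fin n → ℂ), Nonempty (ρ.Equiv σ) ∧ ∀ g : G, ∀ i j : Fin n, LinearMap.toMatrix' (σ g) i j ∈ Algebra.adjoin ℚ ({Complex.exp (2 * Real.pi * Complex.I / (Monoid.exponent G : ℂ))} : Set ℂ) := by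
  haveI := Fintype.ofFinite G
  have hm : Monoid.exponent G ≠ 0 := Monoid.exponent_ne_zero_of_finite
  have hζ := Complex.isPrimitiveRoot_exp _ hm
  set ζ := Complex.exp (2 * Real.pi * Complex.I / (Monoid.exponent G : ℂ))
  have halg : IsAlgebraic ℚ ζ := (hζ.isIntegral (Nat.pos_of_ne_zero hm)).tower_top.isAlgebraic
  haveI : NeZero (Monoid.exponent G) := ⟨hm⟩
  obtain ⟨k, σ, hσ, hF⟩ := (isFChar_of_roots (F := (IntermediateField.adjoin ℚ {ζ}).toSubfield)
    (fun z hz => by
      obtain ⟨i, -, rfl⟩ := hζ.eq_pow_of_pow_eq_one hz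
      exact pow_mem (IntermediateField.mem_adjoin_simple_self ℚ ζ) i)
    (isCharacter_character ρ)).exists_complex
  obtain rfl : k = n := by
    have := congrFun hσ 1
    simpa using this
  refine ⟨σ, Lib.Clifford.nonempty_equiv_of_character_eq ρ σ hσ.symm, fun g i j => ?_⟩
  rw [← IntermediateField.adjoin_simple_toSubalgebra_of_isAlgebraic halg]
  exact hF g i j

end Cfsg.Agent.S0166
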