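import Cfsg.Statements.S0168
import Cfsg.Agent.Lib.Char.Product

set_option autoImplicit false
open Cfsg

namespace Cfsg.Agent.S0168

open Cfsg.Lib.Char

/-- The Burnside–Brauer Theorem. Let χ be the character of a faithful complex representation of a finite group, taking m distinct values. Then every irreducible character has nonzero inner product with χ ^ i for some i < m. -/
theorem result {G : Type*} [Group G] [Fintype G] {V : Type*} [AddCommGroup V] [Module ℂ V] [FiniteDimensional ℂ V] (ρ : Representation ℂ G V) (hfaithful : Function.Injective ρ) (ψ : G → ℂ) (hψ : Cfsg.IsIrrCharacter G ψ) : ∃ i : ℕ, i < Nat.card (Set.range ρ.character) ∧ Cfsg.classInner (fun g => ρ.character g ^ i) ψ ≠ 0 := by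
  classical
  by_contra hcon
  push Not at hcon
  set χ := ρ.character with hχ
  let s : Finset ℂ := (Finset.univ.image χ).erase (χ 1)
  let q : Polynomial ℂ := ∏ a ∈ s, (Polynomial.X - Polynomial.C a)
  have hcard : Nat.card (Set.range χ) = (Finset.univ.image χ).card := by
    rw [← Set.image_univ, ← Finset.coe_univ, ← Finset.coe_image, Nat.card_coe_set_eq,
      Set.ncard_coe_finset]
  have hdeg : q.natDegree < Nat.card (Set.range χ) := by
    rw [hcard, Polynomial.natDegree_finsetProd_X_sub_C_eq_card]
    exact Finset.card_erase_lt_of_mem (Finset.mem_image_of_mem _ (Finset.mem_univ 1))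
  have h1 : (fun g => q.eval (χ g)) = ∑ i ∈ Finset.range (Nat.card (Set.range χ)),
      q.coeff i • fun g => χ g ^ i := by
    funext g
    rw [Polynomial.eval_eq_sum_range' hdeg, Finset.sum_apply]
    rfl
  have h2 : classInner (fun g => q.eval (χ g)) ψ = 0 := by
    rw [h1, classInner_sum_left]
    refine Finset.sum_eq_zero fun i hi => ?_
    rw [classInner_smul_left, hcon i (Finset.mem_range.1 hi), mul_zero]
  rw [classInner_def, Finset.sum_eq_single 1] at h2
  · have h3 : q.eval (χ 1) ≠ 0 := by
      simp only [q, Polynomial.eval_prod, Polynomial.eval_sub, Polynomial.eval_X, Polynomial.eval_C]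
      exact Finset.prod_ne_zero_iff.2 fun a ha => sub_ne_zero.2 (Finset.ne_of_mem_erase ha).symm
    rw [hψ.isCharacter.conj_apply_one] at h2
    exact mul_ne_zero (inv_ne_zero (card_ne_zero_complex G))
      (mul_ne_zero h3 hψ.apply_one_ne_zero) h2
  · intro g _ hg
    have : χ g ∈ s := Finset.mem_erase.2 ⟨fun e => hg (hfaithful (by
      rw [(character_eq_character_one_iff ρ g).1 e, map_one])),
      Finset.mem_image_of_mem _ (Finset.mem_univ g)⟩
    simp only [q, Polynomial.eval_prod, Polynomial.eval_sub, Polynomial.eval_X, Polynomial.eval_C]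
    rw [Finset.prod_eq_zero this (sub_self _), zero_mul]
  · simp

end Cfsg.Agent.S0168
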