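import Cfsg.Statements.S0170
import Cfsg.Agent.S0198
import Cfsg.Agent.Lib.Induce.TI
import Cfsg.Agent.Lib.Induce.Character

set_option autoImplicit false
open Cfsg

namespace Cfsg.Agent.S0170

/-- Exceptional characters. Let S be a subset of a finite group contained in its normalizer N and meeting its conjugates by elements outside N only in the identity. Given n ≥ 2 distinct irreducible characters of N of equal degree that vanish on N away from S, there exist a sign ε and n distinct irreducible characters θ_i of G such that inducing χ_i − χ_j to G gives ε (θ_i − θ_j) for all i, j. -/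
theorem result {G : Type*} [Group G] [Fintype G] (S : Set G) (hSN : S ⊆ Subgroup.normalizer S) (hTI : ∀ g : G, g ∉ Subgroup.normalizer S → ∀ s ∈ S, g * s * g⁻¹ ∈ S → s = 1) (n : ℕ) (hn : 2 ≤ n) (χ : Fin n → (Subgroup.normalizer S → ℂ)) (hirr : ∀ i, Cfsg.IsIrrCharacter (Subgroup.normalizer S) (χ i)) (hinj : Function.Injective χ) (hvan : ∀ i, ∀ x : Subgroup.normalizer S, (x : G) ∉ S → χ i x = 0) (hdeg : ∀ i j, χ i 1 = χ j 1) : ∃ ε : ℂ, (ε = 1 ∨ ε = -1) ∧ ∃ θ : Fin n → (G → ℂ), (∀ i, Cfsg.IsIrrCharacter G (θ i)) ∧ Function.Injective θ ∧ ∀ i j, Cfsg.indFun (Subgroup.normalizer S) (χ i) - Cfsg.indFun (Subgroup.normalizer S) (χ j) = ε • (θ i - θ j) := by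
  classical
  let N := Subgroup.normalizer S
  let i₀ : Fin n := ⟨0, by omega⟩
  have hcf : ∀ i j, Cfsg.IsClassFunction N (χ i - χ j) := fun i j =>
    Cfsg.Lib.Char.Cfsg.IsClassFunction.sub (Cfsg.Lib.Char.Cfsg.IsIrrCharacter.isClassFunction (hirr i))
      (Cfsg.Lib.Char.Cfsg.IsIrrCharacter.isClassFunction (hirr j))
  have hv : ∀ i j, ∀ x : N, (x : G) ∉ S → (χ i - χ j) x = 0 := fun i j x hx => by
    simp [hvan i x hx, hvan j x hx]
  obtain ⟨ε, hε, μ, hμ, hμinj, h⟩ := Cfsg.Agent.S0198.result n i₀ (fun i => indFun N (χ i - χ i₀))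
    (by simp [Cfsg.Lib.Induce.indFun_zero])
    (fun i => Cfsg.Lib.Induce.isGeneralizedCharacter_indFun N
      (Cfsg.Lib.Char.Cfsg.IsGeneralizedCharacter.sub
        (Cfsg.Lib.Char.Cfsg.IsIrrCharacter.isGeneralizedCharacter (hirr i))
        (Cfsg.Lib.Char.Cfsg.IsIrrCharacter.isGeneralizedCharacter (hirr i₀))))
    (fun i => by simp [Cfsg.Lib.Induce.indFun_one, hdeg i i₀])
    (fun i j hi hj => by
      rw [Cfsg.Lib.Induce.classInner_indFun_of_ti N S hTI (hcf j i₀) (hv i i₀) (hv j i₀)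
        (by simp [hdeg i i₀])]
      simp only [Cfsg.Lib.Char.classInner_sub_left, Cfsg.Lib.Char.classInner_sub_right,
        Cfsg.Lib.Char.Cfsg.IsIrrCharacter.inner_eq_ite (hirr _) (hirr _), hinj.eq_iff]
      simp only [hi, hj.symm, if_false, if_true]
      split_ifs <;> norm_num)
  refine ⟨ε, hε, μ, hμ, hμinj, fun i j => ?_⟩
  have h1 := h i
  have h2 := h j
  simp only [Cfsg.Lib.Induce.indFun_sub] at h1 h2
  have : indFun N (χ i) - indFun N (χ j) =
      (indFun N (χ i) - indFun N (χ i₀)) - (indFun N (χ j) - indFun N (χ i₀)) := by abel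
  rw [this, h1, h2, ← smul_sub]
  congr 1; abel

end Cfsg.Agent.S0170
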