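import Cfsg.Statements.S0172
import Cfsg.Agent.Lib.Frobenius.Basic

set_option autoImplicit false
open Cfsg

namespace Cfsg.Agent.S0172

open Subgroup in
theorem sum_card_centralizer (G : Type*) [Group G] [Fintype G] :
    ∑ x : G, Nat.card (centralizer ({x} : Set G)) = Nat.card (ConjClasses G) * Nat.card G := by
  rw [← card_comm_eq_card_conjClasses_mul_card, ← Nat.card_sigma]
  refine Nat.card_congr ⟨fun p => ⟨(p.1, p.2), (mem_centralizer_singleton_iff.1 p.2.2).symm⟩,
    fun p => ⟨p.1.1, p.1.2, mem_centralizer_singleton_iff.2 p.2.symm⟩, fun _ => rfl, fun _ => rfl⟩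

open Subgroup in
theorem card_centralizer_coe {G : Type*} [Group G] (K : Subgroup G) (k : K)
    (h : centralizer ({(k : G)} : Set G) ≤ K) :
    Nat.card (centralizer ({(k : G)} : Set G)) = Nat.card (centralizer ({k} : Set K)) := by
  refine Nat.card_congr ⟨fun x => ⟨⟨x, h x.2⟩, mem_centralizer_singleton_iff.2
    (Subtype.ext (mem_centralizer_singleton_iff.1 x.2))⟩,
    fun x => ⟨x.1, mem_centralizer_singleton_iff.2
      (congrArg Subtype.val (mem_centralizer_singleton_iff.1 x.2))⟩, fun _ => rfl, fun _ => rfl⟩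

open Subgroup in
theorem card_centralizer_conj {G : Type*} [Group G] (x g : G) :
    Nat.card (centralizer ({x * g * x⁻¹} : Set G)) = Nat.card (centralizer ({g} : Set G)) := by
  refine Nat.card_congr ((MulAut.conj x).toEquiv.subtypeEquiv fun y => ?_).symm
  simp only [mem_centralizer_singleton_iff, MulEquiv.toEquiv_eq_coe, EquivLike.coe_coe,
    MulAut.conj_apply, conj_mul, mul_left_inj, mul_right_inj]

open Subgroup in
theorem sum_erase_one (K : Type*) [Group K] [Fintype K] [DecidableEq K] :
    ∑ x ∈ Finset.univ.erase (1 : K), Nat.card (centralizer ({x} : Set K)) + Nat.card K =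
      Nat.card (ConjClasses K) * Nat.card K := by
  rw [← sum_card_centralizer, ← Finset.sum_erase_add _ _ (Finset.mem_univ (1 : K))]
  congr 1
  rw [centralizer_eq_top_iff_subset.2 (by simp), card_top]

/-- Class number of a Frobenius group: if G = K H with K normal, K ⊓ H trivial and no non-identity element of H commuting with a non-identity element of K, then |H| * k(G) + 1 = |H| * k(H) + k(K), where k denotes the number of conjugacy classes. -/
theorem result {G : Type*} [Group G] [Finite G] (K H : Subgroup G) [K.Normal] (hKH : K ⊓ H = ⊥) (hKH' : K ⊔ H = ⊤) (hfpf : ∀ h ∈ H, h ≠ 1 → ∀ k ∈ K, h * k = k * h → k = 1) : Nat.card H * Nat.card (ConjClasses G) + 1 = Nat.card H * Nat.card (ConjClasses H) + Nat.card (ConjClasses K) := by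
  classical
  haveI := Fintype.ofFinite G
  have hf := (Cfsg.Lib.Frobenius.fpf_iff K H).2 hfpf
  have hn : H ≤ Subgroup.normalizer (K : Set G) := Subgroup.le_normalizer_of_normal
  have hcard : Nat.card G = Nat.card K * Nat.card H :=
    (Subgroup.isComplement'_of_disjoint_and_mul_eq_univ (disjoint_iff.2 hKH)
      (by rw [← Subgroup.normal_mul, hKH']; rfl)).card_mul.symm
  let c : G → ℕ := fun x => Nat.card (Subgroup.centralizer ({x} : Set G))
  have h1 : ∑ x ∈ (Finset.univ.erase (1 : G)).filter (· ∈ K), c x =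
      ∑ x ∈ Finset.univ.erase (1 : K), Nat.card (Subgroup.centralizer ({x} : Set K)) := by
    symm
    refine Finset.sum_bij (fun x _ => (x : G)) ?_ ?_ ?_ ?_
    · intro a ha
      simpa using ha
    · intro a _ b _ h
      exact Subtype.ext h
    · intro b hb
      simp only [Finset.mem_filter, Finset.mem_erase, Finset.mem_univ, and_true] at hb
      exact ⟨⟨b, hb.2⟩, by simpa using hb.1, rfl⟩
    · intro a ha
      have ha1 : (a : G) ≠ 1 := by simpa using ha
      refine (card_centralizer_coe K a fun g hg => ?_).symm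
      exact Cfsg.Lib.Frobenius.mem_of_commute_of_mem_kernel hn hf a.2 ha1 (hKH' ▸ Subgroup.mem_top g)
        (Subgroup.mem_centralizer_singleton_iff.1 hg)
  have h2 : ∑ x ∈ (Finset.univ.erase (1 : G)).filter (fun x => ¬ x ∈ K), c x =
      ∑ p ∈ (Finset.univ : Finset K) ×ˢ Finset.univ.erase (1 : H),
        Nat.card (Subgroup.centralizer ({p.2} : Set H)) := by
    symm
    refine Finset.sum_bij (fun p _ => (p.1 : G) * p.2 * (p.1 : G)⁻¹) ?_ ?_ ?_ ?_
    · rintro ⟨a, b⟩ hab
      have hb1 : (b : G) ≠ 1 := by simpa using hab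
      have : (a : G) * b * (a : G)⁻¹ ∉ K := fun h => hb1 (by
        have h' : (b : G) ∈ K := by simpa [mul_assoc] using K.mul_mem (K.mul_mem (K.inv_mem a.2) h) a.2
        exact (Subgroup.mem_bot).1 (hKH ▸ ⟨h', b.2⟩))
      simp only [Finset.mem_filter, Finset.mem_erase, Finset.mem_univ, and_true]
      exact ⟨fun e => this (e ▸ K.one_mem), this⟩
    · rintro ⟨a, b⟩ hab ⟨a', b'⟩ - h
      have hb1 : (b : G) ≠ 1 := by simpa using hab
      have h' : (a : G) * b * (a : G)⁻¹ = a' * b' * (a' : G)⁻¹ := h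
      have e : ((a' : G)⁻¹ * a) * b * ((a' : G)⁻¹ * a)⁻¹ = b' := by
        calc ((a' : G)⁻¹ * a) * b * ((a' : G)⁻¹ * a)⁻¹ = (a' : G)⁻¹ * (a * b * (a : G)⁻¹) * a' := by group
          _ = b' := by rw [h']; group
      have hm := Cfsg.Lib.Frobenius.mem_of_conj_mem_of_fpf hn hf (hKH' ▸ Subgroup.mem_top _) b.2 hb1
        (e ▸ b'.2)
      have h1 : (a' : G)⁻¹ * a = 1 :=
        (Subgroup.mem_bot).1 (hKH ▸ ⟨K.mul_mem (K.inv_mem a'.2) a.2, hm⟩)
      rw [h1] at e
      refine Prod.ext (Subtype.ext (inv_mul_eq_one.1 h1).symm) (Subtype.ext (by simpa using e))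
    · intro g hg
      simp only [Finset.mem_filter, Finset.mem_erase, Finset.mem_univ, and_true] at hg
      obtain ⟨x, hx, h, hh, h1, rfl⟩ := Cfsg.Lib.Frobenius.exists_conj_of_not_mem hn hf
        (hKH' ▸ Subgroup.mem_top g) hg.2
      exact ⟨(⟨x, hx⟩, ⟨h, hh⟩), by simpa using h1, rfl⟩
    · rintro ⟨a, b⟩ hab
      have hb1 : (b : G) ≠ 1 := by simpa using hab
      simp only [c]
      rw [card_centralizer_conj]
      refine (card_centralizer_coe H b fun g hg => ?_).symm
      refine Cfsg.Lib.Frobenius.mem_of_conj_mem_of_fpf hn hf (hKH' ▸ Subgroup.mem_top _) b.2 hb1 ?_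
      rw [Subgroup.mem_centralizer_singleton_iff.1 hg]
      simp
  have hG := sum_erase_one G
  have hK := sum_erase_one K
  have hH := sum_erase_one H
  rw [← Finset.sum_filter_add_sum_filter_not _ (· ∈ K), h1, h2, Finset.sum_product_right] at hG
  simp only [Finset.sum_const, Finset.card_univ, ← Nat.card_eq_fintype_card, smul_eq_mul,
    ← Finset.mul_sum] at hG
  rw [hcard] at hG
  refine Nat.eq_of_mul_eq_mul_left (Nat.card_pos (α := K)) ?_
  zify at hG hK hH ⊢
  linear_combination -hG + hK + (Nat.card K : ℤ) * hH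

end Cfsg.Agent.S0172
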