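import Cfsg.Statements.S0178
import Cfsg.Agent.Lib.Char.Product
import Cfsg.Agent.Lib.Induce.Character

set_option autoImplicit false
open Cfsg

namespace Cfsg.Agent.S0178

open Cfsg.Lib.Char Cfsg.Lib.Induce

/-- The degree of an irreducible complex representation of a finite group is at most the index of any abelian subgroup. -/
theorem result {G : Type*} [Group G] [Finite G] {V : Type*} [AddCommGroup V] [Module ℂ V] [FiniteDimensional ℂ V] (ρ : Representation ℂ G V) [ρ.IsIrreducible] (A : Subgroup G) (hA : ∀ a ∈ A, ∀ b ∈ A, a * b = b * a) : Module.finrank ℂ V ≤ A.index := by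
  classical
  haveI := Fintype.ofFinite G
  haveI : IsMulCommutative A := ⟨⟨fun a b => Subtype.ext (hA a a.2 b b.2)⟩⟩
  have hχ := isIrrCharacter_character ρ
  obtain ⟨θ, hθ, h⟩ := exists_irr_below A hχ
  rw [← frobenius_reciprocity' A θ hχ.isClassFunction, ne_eq, classInner_eq_zero_comm] at h
  refine (isCharacter_indFun A hθ.isCharacter).degree_le_of_constituent hχ h
    (Representation.char_one ρ) ?_
  rw [indFun_one, hθ.apply_one_of_comm, mul_one]

end Cfsg.Agent.S0178
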