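import Cfsg.Statements.S0184
import Cfsg.Agent.Lib.Char.Product
import Cfsg.Agent.Lib.PGroup.Basic
import Cfsg.Agent.Lib.Misc.Cyclic

set_option autoImplicit false
open Cfsg

namespace Cfsg.Agent.S0184

open Cfsg.Lib.Char

/-- A finite p-group admits a faithful irreducible complex representation if and only if its centre is cyclic. -/
theorem result {G : Type*} [Group G] [Finite G] (p : ℕ) [Fact p.Prime] (hG : IsPGroup p G) : (∃ (n : ℕ) (ρ : Representation ℂ G (Fin n → ℂ)), ρ.IsIrreducible ∧ Function.Injective ρ) ↔ IsCyclic (Subgroup.center G) := by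
  constructor
  · rintro ⟨n, ρ, hρ, hf⟩
    refine isCyclic_center_of_faithful (isIrrCharacter_character ρ) ?_
    rw [charKer_character]
    exact (MonoidHom.ker_eq_bot_iff ρ).2 hf
  · intro hZ
    suffices h : ∃ χ, IsIrrCharacter G χ ∧ charKer χ = ⊥ by
      obtain ⟨_, ⟨n, ρ, hρ, rfl⟩, hk⟩ := h
      rw [charKer_character] at hk
      exact ⟨n, ρ, hρ, (MonoidHom.ker_eq_bot_iff ρ).1 hk⟩
    by_cases htop : (⊤ : Subgroup G) = ⊥
    · exact ⟨_, isIrrCharacter_one, eq_bot_iff.2 (htop ▸ le_top)⟩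
    obtain ⟨z, -, hz, hzp⟩ := Cfsg.Lib.PGroup.exists_mem_center_orderOf_eq hG ⊤ htop
    have hz1 : z ≠ 1 := by
      rintro rfl
      rw [orderOf_one] at hzp
      exact (Fact.out : p.Prime).ne_one hzp.symm
    obtain ⟨χ, hχ, hne⟩ := exists_irr_apply_ne_of_ne_one hz1
    refine ⟨χ, hχ, ?_⟩
    by_contra hK
    haveI := hχ.isCharacter.charKer_normal
    obtain ⟨y, hyK, hy, hyp⟩ := Cfsg.Lib.PGroup.exists_mem_center_orderOf_eq hG _ hK
    apply hne
    rw [← hχ.isCharacter.mem_charKer_iff]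
    exact Subgroup.zpowers_le.2 hyK
      (Cfsg.Lib.Misc.mem_zpowers_of_orderOf_dvd_of_cyclic hZ hz hy (by rw [hzp, hyp]))

end Cfsg.Agent.S0184
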