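import Cfsg.Statements.S0185
import Cfsg.Agent.Lib.Char.Product

set_option autoImplicit false
open Cfsg

namespace Cfsg.Agent.S0185

open Cfsg.Lib.Char

/-- If a finite group has a faithful complex representation of degree less than the smallest prime dividing its order, the group is abelian. -/
theorem result {G : Type*} [Group G] [Finite G] {V : Type*} [AddCommGroup V] [Module ℂ V] [FiniteDimensional ℂ V] (ρ : Representation ℂ G V) (hfaithful : Function.Injective ρ) (hdeg : ∀ p : ℕ, p.Prime → p ∣ Nat.card G → Module.finrank ℂ V < p) (a b : G) : a * b = b * a := by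
  haveI := Fintype.ofFinite G
  have hχ := isCharacter_character ρ
  have h1 := hχ.apply_eq_of_forall_constituent (g := a * b * a⁻¹ * b⁻¹) fun ψ hψ hne => by
    refine hψ.isCharacter.apply_commutator_of_apply_one ?_ a b
    rw [← hψ.isCharacter.charDegree_eq_one_iff]
    by_contra h
    have h2 := hχ.charDegree_le_of_constituent hψ hne
    rw [charDegree_character] at h2
    obtain ⟨p, hp, hpd⟩ := Nat.exists_prime_and_dvd h
    have h3 := hdeg p hp (hpd.trans hψ.charDegree_dvd_card)
    have h4 := Nat.le_of_dvd hψ.charDegree_pos hpd
    omega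
  have h2 := hfaithful (((character_eq_character_one_iff ρ _).1 h1).trans (map_one ρ).symm)
  rwa [mul_inv_eq_one, mul_inv_eq_iff_eq_mul] at h2

end Cfsg.Agent.S0185
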