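import Cfsg.Statements.S0186
import Cfsg.Agent.Lib.Char.Product
import Cfsg.Agent.Lib.Char.Burnside

set_option autoImplicit false
open Cfsg

namespace Cfsg.Agent.S0186

open Cfsg.Lib.Char

/-- Let G be a finite simple group of order n and p a prime dividing n. If G has more than n / p^2 conjugacy classes, then every Sylow p-subgroup of G is abelian. -/
theorem result {G : Type*} [Group G] [Finite G] [IsSimpleGroup G] (p : ℕ) [Fact p.Prime] (hp : p ∣ Nat.card G) (hmany : Nat.card G < p ^ 2 * Nat.card (ConjClasses G)) (P : Sylow p G) (a b : G) (ha : a ∈ P) (hb : b ∈ P) : a * b = b * a := by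
  classical
  haveI := Fintype.ofFinite G
  have hpp : p.Prime := Fact.out
  by_contra hab
  have hdeg : ∀ χ : IrrCharacter G, χ ≠ irrOne G → p ≤ charDegree (χ : G → ℂ) := by
    intro χ hχ
    by_contra hlt
    have hker := χ.2.charKer_eq_bot_of_isSimpleGroup fun e => hχ (Subtype.ext e)
    have hres := χ.2.isCharacter.restrict (P : Subgroup G)
    have h1 := hres.apply_eq_of_forall_constituent
      (g := (⟨a, ha⟩ : (P : Subgroup G)) * ⟨b, hb⟩ * ⟨a, ha⟩⁻¹ * ⟨b, hb⟩⁻¹) fun ψ hψ hne => by
        refine hψ.isCharacter.apply_commutator_of_apply_one ?_ _ _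
        rw [← hψ.isCharacter.charDegree_eq_one_iff]
        have h2 : charDegree ψ ≤ charDegree (χ : G → ℂ) := hres.charDegree_le_of_constituent hψ hne
        obtain ⟨k, hk⟩ := P.isPGroup'.exists_card_eq
        have h3 := hψ.charDegree_dvd_card
        rw [hk, Nat.dvd_prime_pow hpp] at h3
        obtain ⟨j, -, hj⟩ := h3
        rcases j with _ | j
        · simpa using hj
        · have := Nat.le_of_dvd hψ.charDegree_pos (Dvd.intro_left _ (by rw [hj, pow_succ]) : p ∣ _)
          omega
    have h2 := χ.2.isCharacter.mem_charKer_iff.2 h1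
    rw [hker, Subgroup.mem_bot] at h2
    apply hab
    have h3 : a * b * a⁻¹ * b⁻¹ = 1 := h2
    rwa [mul_inv_eq_one, mul_inv_eq_iff_eq_mul] at h3
  have hsum := sum_charDegree_sq G
  rw [← Finset.add_sum_erase _ _ (Finset.mem_univ (irrOne G))] at hsum
  have h1 : (Finset.univ.erase (irrOne G)).card • p ^ 2 ≤
      ∑ χ ∈ Finset.univ.erase (irrOne G), charDegree (χ : G → ℂ) ^ 2 :=
    Finset.card_nsmul_le_sum _ _ _ fun χ hχ =>
      Nat.pow_le_pow_left (hdeg χ (Finset.ne_of_mem_erase hχ)) 2
  have h2 : 0 < charDegree (irrOne G : G → ℂ) ^ 2 := pow_pos (irrOne G).2.charDegree_pos 2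
  rw [Finset.card_erase_of_mem (Finset.mem_univ _), Finset.card_univ, ← Nat.card_eq_fintype_card,
    card_irr_eq_card_conjClasses, smul_eq_mul] at h1
  have h3 : p ^ 2 ∣ Nat.card G := by
    obtain ⟨k, hk⟩ := P.isPGroup'.exists_card_eq
    refine (pow_dvd_pow p ?_).trans (hk ▸ Subgroup.card_subgroup_dvd_card (P : Subgroup G))
    by_contra hk2
    have : Nat.card (P : Subgroup G) ∣ p := by
      rw [hk]
      simpa using pow_dvd_pow p (show k ≤ 1 by omega)
    haveI := isCyclic_of_card_dvd_prime this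
    exact hab (congrArg Subtype.val (mul_comm' (⟨a, ha⟩ : (P : Subgroup G)) ⟨b, hb⟩))
  obtain ⟨j, hj⟩ := h3
  rw [hj] at hmany hsum
  have h4 : j < Nat.card (ConjClasses G) := Nat.lt_of_mul_lt_mul_left hmany
  have h5 : Nat.card (ConjClasses G) - 1 < j :=
    Nat.lt_of_mul_lt_mul_left (a := p ^ 2) (by rw [mul_comm]; omega)
  omega

end Cfsg.Agent.S0186
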