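import Cfsg.Statements.S0192
import Cfsg.Agent.Lib.Char.Product

set_option autoImplicit false
open Cfsg

namespace Cfsg.Agent.S0192

open Cfsg.Lib.Char

/-- Brauer's generation criterion. Let G be a finite simple group, H₁ and H₂ subgroups, and χ a non-principal irreducible character. If the multiplicity of the principal character in χ restricted to H₁ ⊓ H₂ is less than the sum of the corresponding multiplicities for H₁ and H₂, then H₁ and H₂ do not generate G. -/
theorem result {G : Type*} [Group G] [Fintype G] [IsSimpleGroup G] (H₁ H₂ : Subgroup G) [Fintype H₁] [Fintype H₂] [Fintype ↥(H₁ ⊓ H₂)] (χ : G → ℂ) (hχ : Cfsg.IsIrrCharacter G χ) (hχ1 : χ ≠ fun _ => 1) (hlt : (Cfsg.classInner (fun x : ↥(H₁ ⊓ H₂) => χ x) (fun _ => 1)).re < (Cfsg.classInner (fun x : H₁ => χ x) (fun _ => 1)).re + (Cfsg.classInner (fun x : H₂ => χ x) (fun _ => 1)).re) : H₁ ⊔ H₂ ≠ ⊤ := by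
  intro htop
  obtain ⟨n, ρ, hρ, rfl⟩ := id hχ
  have key : ∀ (H : Subgroup G) [Fintype H], Cfsg.classInner (fun x : H => ρ.character x)
      (fun _ => 1) = Module.finrank ℂ (Representation.invariants (ρ.comp H.subtype)) :=
    fun H _ => classInner_character_one (ρ.comp H.subtype : Representation ℂ H _)
  rw [key, key, key] at hlt
  simp only [Complex.natCast_re] at hlt
  have hinf : Representation.invariants (ρ.comp H₁.subtype) ⊓
      Representation.invariants (ρ.comp H₂.subtype) = ⊥ := by
    have h0 : Module.finrank ℂ ρ.invariants = 0 := by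
      have := classInner_character_one ρ
      rw [hχ.inner_eq_zero_of_ne isIrrCharacter_one hχ1] at this
      exact_mod_cast this.symm
    rw [eq_bot_iff, ← Submodule.finrank_eq_zero.1 h0]
    rintro v ⟨h1, h2⟩ g
    have hg : g ∈ H₁ ⊔ H₂ := htop ▸ Subgroup.mem_top g
    let S : Subgroup G :=
      { carrier := {g | ρ g v = v}
        one_mem' := by simp
        mul_mem' := fun {a b} ha hb => by
          simp only [Set.mem_ofPred_eq, map_mul, Module.End.mul_apply] at *
          rw [hb, ha]
        inv_mem' := fun {a} ha => by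
          simp only [Set.mem_ofPred_eq] at *
          conv_lhs => rw [← ha]
          rw [← Module.End.mul_apply, ← map_mul, inv_mul_cancel, map_one, Module.End.one_apply] }
    exact (sup_le (fun x hx => h1 ⟨x, hx⟩) (fun x hx => h2 ⟨x, hx⟩) : H₁ ⊔ H₂ ≤ S) hg
  have hsup : Representation.invariants (ρ.comp H₁.subtype) ⊔
      Representation.invariants (ρ.comp H₂.subtype) ≤
        Representation.invariants (ρ.comp (H₁ ⊓ H₂).subtype) :=
    sup_le (fun v hv x => hv ⟨x, x.2.1⟩) (fun v hv x => hv ⟨x, x.2.2⟩)
  have h1 := Submodule.finrank_sup_add_finrank_inf_eq (Representation.invariants (ρ.comp H₁.subtype))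
    (Representation.invariants (ρ.comp H₂.subtype))
  rw [hinf, finrank_bot, add_zero] at h1
  have h2 := Submodule.finrank_mono hsup
  rw [h1] at h2
  exact absurd hlt (not_lt.2 (by exact_mod_cast h2))

end Cfsg.Agent.S0192
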