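import Cfsg.Statements.S0193
import Cfsg.Agent.Lib.Clifford.Basic

set_option autoImplicit false
open Cfsg

namespace Cfsg.Agent.S0193

/-- Let H be a normal subgroup of a finite group G and θ an irreducible character of H. Then |H| times the inner product of the induced function of θ with itself equals the number of g in G with θ(g h g⁻¹) = θ(h) for all h in H; in particular the induced character is irreducible when only elements of H stabilise θ. -/
theorem result {G : Type*} [Group G] [Fintype G] (H : Subgroup G) [hN : H.Normal] (θ : H → ℂ) (hθ : Cfsg.IsIrrCharacter H θ) : (Nat.card H : ℂ) * Cfsg.classInner (Cfsg.indFun H θ) (Cfsg.indFun H θ) = (Nat.card {g : G // ∀ h : H, θ ⟨g * h * g⁻¹, hN.conj_mem h h.2 g⟩ = θ h} : ℂ) := by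
  rw [Cfsg.Lib.Clifford.card_mul_classInner_indFun_self H hθ]
  congr 1
  exact Nat.card_congr (Equiv.subtypeEquivRight fun g => Cfsg.Lib.Clifford.mem_inertia_iff H)

end Cfsg.Agent.S0193
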