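import Cfsg.Statements.S0194
import Cfsg.Agent.Lib.PF.Sec1Clifford

set_option autoImplicit false
open scoped ComplexConjugate
open Cfsg

namespace Cfsg.Agent.S0194

/-- Let G have odd order, H be a normal subgroup and θ a non-principal irreducible character of H. Then the function induced from θ is orthogonal to its complex conjugate. -/
theorem result {G : Type*} [Group G] [Fintype G] (hodd : Odd (Nat.card G)) (H : Subgroup G) [H.Normal] (θ : H → ℂ) (hθ : Cfsg.IsIrrCharacter H θ) (hθ1 : θ ≠ fun _ => 1) : Cfsg.classInner (fun g => conj (Cfsg.indFun H θ g)) (Cfsg.indFun H θ) = 0 := by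
  open Cfsg.Lib.PF in
  have h := cfdot_ind_star_eq_zero (H := H) (K := ⊤) (θ := extendByZero H θ) le_top
    Subgroup.le_normalizer_of_normal (by rwa [Subgroup.card_top]) (extendByZero_mem_Irr.2 hθ) (by
      intro e
      apply hθ1
      rw [← coe_extendByZero H θ, e]
      funext x
      exact cf1_of_mem x.2)
  rw [Cfsg.Lib.PF.cfdot_top, Cfsg.Lib.PF.ind_top, Cfsg.Lib.PF.coe_extendByZero] at h
  exact Cfsg.Lib.Char.classInner_eq_zero_comm.1 h

end Cfsg.Agent.S0194
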