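import Cfsg.Statements.S0196
import Cfsg.Agent.Lib.Frobenius.Basic

set_option autoImplicit false
open Cfsg

namespace Cfsg.Agent.S0196

/-- Let A be a subgroup of a finite group G that equals the centralizer of each of its non-identity elements, and let N be its normalizer. Then the index of A in N divides |A| − 1 (N/A permutes the non-identity elements of A in orbits of full length). -/
theorem result {G : Type*} [Group G] [Finite G] (A : Subgroup G) (hA : ∀ x ∈ A, x ≠ 1 → Subgroup.centralizer ({x} : Set G) = A) : (A.subgroupOf (Subgroup.normalizer (A : Set G))).index ∣ Nat.card A - 1 := by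
  open Cfsg.Lib.Frobenius in
  -- `N` acts on `A`, and `A` (abelian) acts trivially; `N / A` acts semiregularly on `A \ {1}`
  have hab : ∀ a ∈ A, ∀ b ∈ A, a * b = b * a := by
    intro a ha b hb
    by_cases h1 : a = 1
    · simp [h1]
    · rw [← hA a ha h1, Subgroup.mem_centralizer_singleton_iff] at hb
      exact hb.symm
  let f := A.normalizerMonoidHom
  have hker : A.subgroupOf (Subgroup.normalizer (A : Set G)) ≤ f.ker := by
    intro x hx
    rw [MonoidHom.mem_ker]
    ext a
    change (x : G) * a * (x : G)⁻¹ = a
    rw [hab (x : G) hx _ a.2, mul_inv_cancel_right]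
  let φ := QuotientGroup.lift _ f hker
  let _ : MulAction (Subgroup.normalizer (A : Set G) ⧸ A.subgroupOf (Subgroup.normalizer (A : Set G)))
    A := MulAction.compHom A φ
  refine Cfsg.Lib.Frobenius.card_dvd_card_sub_one_of_free _ A 1 (fun q => map_one (φ q))
    fun q a ha e => ?_
  induction q using QuotientGroup.induction_on with | _ x =>
  rw [QuotientGroup.eq_one_iff, Subgroup.mem_subgroupOf]
  refine (hA a a.2 (fun h => ha (Subtype.ext h))).le ?_
  rw [Subgroup.mem_centralizer_singleton_iff]
  have : (x : G) * a * (x : G)⁻¹ = a := congrArg Subtype.val e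
  exact mul_inv_eq_iff_eq_mul.1 this

end Cfsg.Agent.S0196
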