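import Cfsg.Statements.S0208
import Mathlib.Tactic.Group

set_option autoImplicit false
open Cfsg

namespace Cfsg.Agent.S0208

theorem result {G : Type*} [Group G] [Finite G] (x y : G) (hx : orderOf x = 2) (hy : orderOf y = 2) (hodd : Odd (orderOf (x * y))) : ∃ d ∈ Subgroup.closure ({x, y} : Set G), d * x * d⁻¹ = y := by
  obtain ⟨k, hk⟩ := hodd
  have hx2 : x * x = 1 := by have := pow_orderOf_eq_one x; rwa [hx, pow_two] at this
  have hy2 : y * y = 1 := by have := pow_orderOf_eq_one y; rwa [hy, pow_two] at this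
  have hxi : x⁻¹ = x := inv_eq_of_mul_eq_one_right hx2
  have hyi : y⁻¹ = y := inv_eq_of_mul_eq_one_right hy2
  have hconj : x * (x * y) * x⁻¹ = (x * y)⁻¹ := by
    rw [mul_inv_rev, hxi, hyi, ← mul_assoc, hx2, one_mul]
  have hconjk : ∀ n : ℕ, x * (x * y) ^ n * x⁻¹ = ((x * y) ^ n)⁻¹ := by
    intro n
    rw [← conj_pow, hconj, inv_pow]
  have hz : (x * y) ^ (2 * k + 1) = 1 := by rw [← hk]; exact pow_orderOf_eq_one _
  refine ⟨(x * y) ^ k, ?_, ?_⟩
  · apply Subgroup.pow_mem; apply Subgroup.mul_mem <;> apply Subgroup.subset_closure <;> simp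
  · have h5 : x * ((x * y) ^ k)⁻¹ = (x * y) ^ k * x := by
      have := hconjk k
      have h6 : x * (x * y) ^ k = ((x * y) ^ k)⁻¹ * x := by rw [← this]; group
      have h7 : (x * y) ^ k * (x * (x * y) ^ k) * ((x * y) ^ k)⁻¹ = (x * y) ^ k * (((x * y) ^ k)⁻¹ * x) * ((x * y) ^ k)⁻¹ := by rw [h6]
      simp only [mul_assoc, mul_inv_cancel, mul_one, mul_inv_cancel_left] at h7
      exact h7.symm
    have h8 : (x * y) ^ k * (x * y) ^ k = (x * y)⁻¹ := by
      rw [← pow_add, eq_inv_iff_mul_eq_one, ← pow_succ, ← two_mul, hz]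
    rw [mul_assoc, h5, ← mul_assoc, h8, mul_inv_rev, hxi, hyi, mul_assoc, hx2, mul_one]

end Cfsg.Agent.S0208
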