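import Cfsg.Statements.S0210
import Cfsg.Agent.Lib.Inv.Basic

set_option autoImplicit false
open Cfsg

namespace Cfsg.Agent.S0210
open Cfsg.Lib.Inv


/-- If x, y are involutions whose product has even order, no element of the subgroup generated by x and y conjugates x to y. -/
theorem result {G : Type*} [Group G] [Finite G] (x y : G) (hx : orderOf x = 2) (hy : orderOf y = 2) (heven : Even (orderOf (x * y))) (d : G) (hd : d ∈ Subgroup.closure ({x, y} : Set G)) : d * x * d⁻¹ ≠ y := by
  have hx2 := mul_self_of_orderOf hx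
  have hy2 := mul_self_of_orderOf hy
  obtain ⟨k, hk⟩ := conj_of_mem_closure_pair hx2 hy2 hd
  intro h
  have h1 : (x * y) ^ (2 * k) * x = (x * y) ^ (-1 : ℤ) * x := by
    rw [← hk, h]; exact pair_right_eq hx2 hy2
  have h2 : (x * y) ^ (2 * k + 1) = 1 := by
    rw [zpow_add_one, mul_right_cancel h1, zpow_neg_one, inv_mul_cancel]
  have h3 := orderOf_dvd_iff_zpow_eq_one.2 h2
  obtain ⟨m, hm⟩ := heven
  rw [hm] at h3
  obtain ⟨c, hc⟩ := h3
  push_cast at hc
  have : (2 * k + 1) = 2 * ((m : ℤ) * c) := by rw [hc]; ring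
  omega

end Cfsg.Agent.S0210
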