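import Cfsg.Statements.S0211
import Cfsg.Agent.Lib.Inv.Basic

set_option autoImplicit false
open Cfsg

namespace Cfsg.Agent.S0211
open Cfsg.Lib.Inv


/-- Let x, y be involutions with xy of even order n and z = (xy)^(n/2). Then xz is conjugate to x by an element of the subgroup generated by x, y if and only if 4 divides n. -/
theorem result {G : Type*} [Group G] [Finite G] (x y : G) (hx : orderOf x = 2) (hy : orderOf y = 2) (heven : Even (orderOf (x * y))) : (∃ d ∈ Subgroup.closure ({x, y} : Set G), d * x * d⁻¹ = x * (x * y) ^ (orderOf (x * y) / 2)) ↔ 4 ∣ orderOf (x * y) := by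
  have hx2 := mul_self_of_orderOf hx
  have hy2 := mul_self_of_orderOf hy
  obtain ⟨h1, h2, h3⟩ := half_pow_of_even hx2 hy2 heven
  obtain ⟨m, hm⟩ := heven
  have hm' : orderOf (x * y) / 2 = m := by omega
  rw [hm'] at h1 h2 h3 ⊢
  constructor
  · rintro ⟨d, hd, h⟩
    obtain ⟨k, hk⟩ := conj_of_mem_closure_pair hx2 hy2 hd
    rw [hk, ← h2.eq] at h
    have h4 : (x * y) ^ (2 * k - m) = 1 := by
      rw [zpow_sub, mul_right_cancel h, zpow_natCast, mul_inv_cancel]
    have h5 := orderOf_dvd_iff_zpow_eq_one.2 h4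
    rw [hm] at h5 ⊢
    obtain ⟨c, hc⟩ := h5
    push_cast at hc
    have : (m : ℤ) = 2 * (k - (m : ℤ) * c) := by linear_combination -hc
    omega
  · intro h
    have : ∃ j : ℕ, m = 2 * j := ⟨m / 2, by omega⟩
    obtain ⟨j, hj⟩ := this
    refine ⟨(x * y) ^ (j : ℤ), (mem_closure_pair_iff hx2 hy2).2 ⟨j, Or.inl rfl⟩, ?_⟩
    rw [zpow_conj_left hx2 hy2, ← h2.eq, hj]
    norm_cast

end Cfsg.Agent.S0211
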