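import Cfsg.Statements.S0212
import Cfsg.Agent.Lib.Inv.BrauerFowler

set_option autoImplicit false
open Cfsg

namespace Cfsg.Agent.S0212
open Cfsg.Lib.Inv


/-- The Brauer–Fowler bound: if G is a finite simple group and t an involution of G whose centralizer has order n, then |G| ≤ (2n^2)!. -/
theorem result {G : Type*} [Group G] [Finite G] [IsSimpleGroup G] (t : G) (ht : orderOf t = 2) : Nat.card G ≤ Nat.factorial (2 * (Nat.card (Subgroup.centralizer ({t} : Set G))) ^ 2) := by
  have heven : Even (Nat.card G) := by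
    have := orderOf_dvd_natCard t
    rw [ht] at this
    exact even_iff_two_dvd.2 this
  have hc : 0 < Nat.card (Subgroup.centralizer ({t} : Set G)) := Nat.card_pos
  by_cases hgt : 2 < Nat.card G
  swap
  · calc Nat.card G ≤ 2 := not_lt.1 hgt
      _ = Nat.factorial 2 := rfl
      _ ≤ _ := Nat.factorial_le (by nlinarith)
  have hZ := center_eq_bot_of_simple heven hgt
  obtain ⟨H, hH, h | h⟩ := brauer_fowler_index heven (by rw [hZ]; simp)
  · exact absurd h (index_ne_two_of_simple hgt H)
  have h1 := card_le_card_inv_mul ht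
  have h2 := Nat.le_of_dvd (Nat.factorial_pos _) (card_dvd_factorial_index hH)
  refine h2.trans (Nat.factorial_le ?_)
  set n := Nat.card {t : G // orderOf t = 2}
  set c := Nat.card (Subgroup.centralizer ({t} : Set G))
  have h3 : Nat.card G * (Nat.card G + n) ≤ (n * c) * (n * c + n * c) :=
    Nat.mul_le_mul h1 (Nat.add_le_add h1 (Nat.le_mul_of_pos_right _ hc))
  have h4 : H.index * (2 * n ^ 2) < c ^ 2 * (2 * n ^ 2) := by nlinarith
  have h5 := lt_of_mul_lt_mul_right h4 (Nat.zero_le _)
  omega

end Cfsg.Agent.S0212
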