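import Cfsg.Statements.S0216
import Cfsg.Agent.Lib.Inv.SylowTwo
import Cfsg.Agent.Lib.ZStar.Isolated

set_option autoImplicit false
open Cfsg

namespace Cfsg.Agent.S0216
open Cfsg.Lib.Inv


/-- For an involution u in a Sylow 2-subgroup P of a finite group G, the following are equivalent: no G-conjugate of u other than u lies in P; every commutator of u with an element of G has odd order. -/
theorem result {G : Type*} [Group G] [Finite G] (P : Sylow 2 G) (u : G) (hu : orderOf u = 2) (huP : u ∈ P) : (∀ g : G, g * u * g⁻¹ ∈ P → g * u * g⁻¹ = u) ↔ (∀ g : G, Odd (orderOf (u * g * u⁻¹ * g⁻¹))) := by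
  have hu1 := inv_eq_of_orderOf hu
  constructor
  · intro h g
    have h1 := Lib.ZStar.odd_orderOf_mul (Lib.ZStar.isolated_of_sylow P hu h)
      (isConj_iff.2 ⟨g, rfl⟩)
    rw [hu1]
    simpa only [mul_assoc] using h1
  · intro h g hg
    have h1 := h g
    rw [hu1] at h1
    have h2 : u * g * u * g⁻¹ ∈ (P : Subgroup G) := by
      have := (P : Subgroup G).mul_mem huP hg
      simpa only [mul_assoc] using this
    obtain ⟨k, hk⟩ := P.2 ⟨_, h2⟩
    have h3 : u * g * u * g⁻¹ = 1 :=
      Lib.Transfer.eq_one_of_pow_pow_eq_one_of_coprime (p := 2) (congrArg Subtype.val hk)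
        (Nat.coprime_two_right.2 h1)
    calc g * u * g⁻¹ = u⁻¹ * (u * g * u * g⁻¹) := by group
      _ = u := by rw [h3, mul_one, hu1]

end Cfsg.Agent.S0216
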