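import Cfsg.Statements.S0218
import Mathlib

set_option autoImplicit false
open Cfsg

namespace Cfsg.Agent.S0218

/-- The generalized quaternion group of order 2^(n+3) contains exactly one element of order 2. -/
theorem result (n : ℕ) : Nat.card {x : QuaternionGroup (2 ^ (n + 1)) // orderOf x = 2} = 1 := by
  rw [Nat.card_eq_one_iff_exists]
  have h2 : (2 : ℕ) ^ (n + 1) ≠ 0 := by positivity
  have : NeZero (2 ^ (n + 1)) := ⟨h2⟩
  have hc : ((2 ^ (n + 1) : ℕ) : ZMod (2 * 2 ^ (n + 1))) ≠ 0 := by
    rw [Ne, ZMod.natCast_eq_zero_iff]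
    intro h
    have := Nat.le_of_dvd (Nat.pos_of_ne_zero h2) h
    omega
  refine ⟨⟨QuaternionGroup.a ((2 ^ (n + 1) : ℕ) : ZMod (2 * 2 ^ (n + 1))), ?_⟩, ?_⟩
  · apply orderOf_eq_prime
    · rw [pow_two, QuaternionGroup.a_mul_a, ← Nat.cast_add, ← two_mul, ZMod.natCast_self,
        QuaternionGroup.a_zero]
    · intro h
      rw [QuaternionGroup.one_def, QuaternionGroup.a.injEq] at h
      exact hc h
  · rintro ⟨x | x, hx⟩
    · apply Subtype.ext
      have h1 : QuaternionGroup.a x ^ 2 = 1 := orderOf_dvd_iff_pow_eq_one.mp (by rw [hx])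
      have h0 : x ≠ 0 := by
        rintro rfl
        simp at hx
      rw [pow_two, QuaternionGroup.a_mul_a, QuaternionGroup.one_def,
        QuaternionGroup.a.injEq] at h1
      simp only [QuaternionGroup.a.injEq]
      rw [← ZMod.natCast_zmod_val x, ← Nat.cast_add, ZMod.natCast_eq_zero_iff, ← two_mul] at h1
      obtain ⟨k, hk⟩ := Nat.dvd_of_mul_dvd_mul_left two_pos h1
      have h3 := ZMod.val_lt x
      have h4 : x.val ≠ 0 := fun h => h0 ((ZMod.val_eq_zero x).mp h)
      have h5 : k = 1 := by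
        rw [hk] at h3 h4
        have : k ≠ 0 := by rintro rfl; simp at h4
        have : k < 2 := by nlinarith
        omega
      rw [← ZMod.natCast_zmod_val x, hk, h5, mul_one]
    · rw [QuaternionGroup.orderOf_xa] at hx
      omega

end Cfsg.Agent.S0218
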