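import Cfsg.Statements.S0229
import Cfsg.Agent.Lib.Inv.SylowTwo
import Cfsg.Agent.Lib.ZStar.Isolated

set_option autoImplicit false
open Cfsg

namespace Cfsg.Agent.S0229
open Cfsg.Lib.Inv


/-- Let t be an involution of a Sylow 2-subgroup S of a finite group G, conjugate in G to no other element of S, and let s be an involution of G not conjugate to t. Then the order of st is twice an odd number. -/
theorem result {G : Type*} [Group G] [Finite G] (S : Sylow 2 G) (t : G) (ht : orderOf t = 2) (htS : t ∈ S) (hiso : ∀ g : G, g * t * g⁻¹ ∈ S → g * t * g⁻¹ = t) (s : G) (hs : orderOf s = 2) (hns : ¬ IsConj s t) : orderOf (s * t) % 4 = 2 := by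
  have hz := Lib.ZStar.isolated_of_sylow S ht hiso
  have hs2 := mul_self_of_orderOf hs
  have ht2 := mul_self_of_orderOf ht
  have he : Even (orderOf (s * t)) := by
    by_contra ho
    exact hns (isConj_of_odd hs2 ht2 (Nat.not_even_iff_odd.1 ho))
  obtain ⟨h1, h2, h3⟩ := half_pow_of_even hs2 ht2 he
  obtain ⟨m, hm⟩ := he
  have hm' : orderOf (s * t) / 2 = m := by omega
  rw [hm'] at h1 h2 h3
  rcases Nat.even_or_odd' m with ⟨j, rfl | rfl⟩
  · exfalso
    have h4 := conj_pow_of_inv (pair_right_inv hs2 ht2) j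
    have h5 : (s * t) ^ j * t * ((s * t) ^ j)⁻¹ = (s * t) ^ (2 * j) * t := by
      have h6 : t * ((s * t) ^ j)⁻¹ = (s * t) ^ j * t := by
        rw [← h4, inv_eq_of_mul_self ht2, ← mul_assoc, ← mul_assoc, ht2, one_mul]
      rw [mul_assoc, h6, ← mul_assoc, ← pow_add, two_mul]
    have h7 := hz.2 ((s * t) ^ j) (by rw [h5]; exact h3.symm.mul_right (Commute.refl t))
    rw [h5] at h7
    exact ne_one_of_orderOf h1 (by simpa using h7)
  · omega

end Cfsg.Agent.S0229
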