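import Cfsg.Statements.S0230
import Cfsg.Agent.Lib.Inv.Count

set_option autoImplicit false
open Cfsg

namespace Cfsg.Agent.S0230
open Cfsg.Lib.Inv


/-- Let G be a finite group with two non-conjugate involutions, and let t be an involution whose centralizer has maximal order among centralizers of involutions. Then |G| < |C_G(t)|^3. -/
theorem result {G : Type*} [Group G] [Finite G] (s t : G) (hs : orderOf s = 2) (ht : orderOf t = 2) (hnc : ¬ IsConj s t) (hmax : ∀ u : G, orderOf u = 2 → Nat.card (Subgroup.centralizer ({u} : Set G)) ≤ Nat.card (Subgroup.centralizer ({t} : Set G))) : Nat.card G < Nat.card (Subgroup.centralizer ({t} : Set G)) ^ 3 := by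
  classical
  have := Fintype.ofFinite G
  set m := Nat.card (Subgroup.centralizer ({t} : Set G)) with hm
  have hm0 : 0 < m := Nat.card_pos
  have h1 : ∀ y : {y : G // IsConj t y}, ∃ z : G, (orderOf z = 2 ∧ Commute z s) ∧ Commute z y.1 := by
    rintro ⟨y, hy⟩
    obtain ⟨z, -, h1, h2, h3⟩ := exists_commute_of_not_isConj (mul_self_of_orderOf hs)
      (mul_self_of_orderOf ((orderOf_eq_of_isConj hy).symm.trans ht))
      (fun h => hnc (h.trans hy.symm))
    exact ⟨z, ⟨h1, h2⟩, h3⟩
  choose f hf using h1
  have h2 := card_eq_sum_fiber (α := {y : G // IsConj t y}) (fun _ => True) f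
  rw [Nat.card_congr (Equiv.subtypeUnivEquiv fun _ => trivial)] at h2
  have h3 : ∀ z : G, Nat.card {a : {y : G // IsConj t y} // True ∧ f a = z} ≤
      if orderOf z = 2 ∧ Commute z s then m else 0 := by
    intro z
    split_ifs with h
    · refine le_trans ?_ (hmax z h.1)
      refine Nat.card_le_card_of_injective (fun a => ⟨a.1.1, ?_⟩) ?_
      · have := (hf a.1).2
        rw [a.2.2] at this
        exact mem_centralizer_singleton.2 this.eq.symm
      · intro a b hab
        exact Subtype.ext (Subtype.ext (by simpa using hab))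
    · rw [Nat.le_zero, Nat.card_eq_zero]
      exact Or.inl ⟨fun a => h (a.2.2 ▸ (hf a.1).1)⟩
  have h4 := Finset.sum_le_sum (s := Finset.univ) fun z _ => h3 z
  rw [← h2, sum_ite_eq_card_mul] at h4
  have h5 := card_inv_commute_add_one_le s
  have h6 := hmax s hs
  have h7 := card_class_mul_card_centralizer t
  rw [← h7, ← hm]
  have h8 : Nat.card {y : G // IsConj t y} < m * m :=
    h4.trans_lt (Nat.mul_lt_mul_of_pos_right (by omega) hm0)
  calc _ < m * m * m := Nat.mul_lt_mul_of_pos_right h8 hm0
    _ = m ^ 3 := by ring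

end Cfsg.Agent.S0230
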