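import Cfsg.Statements.S0232
import Cfsg.Agent.Lib.Inv.BrauerFowler

set_option autoImplicit false
open Cfsg

namespace Cfsg.Agent.S0232
open Cfsg.Lib.Inv

theorem aux.{u} (n : ℕ) : ∀ (G : Type u) [Group G] [Finite G], Nat.card G = n → Even (Nat.card G) →
    2 < Nat.card G → ∃ H : Subgroup G, H ≠ ⊤ ∧ Nat.card G < (Nat.card H) ^ 3 := by
  induction n using Nat.strong_induction_on with
  | _ n ih =>
  intro G _ _ hn heven hgt
  by_cases hZ : Odd (Nat.card (Subgroup.center G))
  · exact exists_proper_cube_of_odd_center heven hZ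
  obtain ⟨z, hzZ, hz⟩ := exists_involution_mem_of_even (Nat.not_odd_iff_even.1 hZ)
  have hN : (Subgroup.zpowers z).Normal := ⟨fun a ha g => by
    have : a ∈ Subgroup.center G := (Subgroup.zpowers_le.2 hzZ) ha
    rw [Subgroup.mem_center_iff.1 this g, mul_inv_cancel_right]; exact ha⟩
  have hc : Nat.card (Subgroup.zpowers z) = 2 := by rw [Nat.card_zpowers, hz]
  have hq : Nat.card G = Nat.card (G ⧸ Subgroup.zpowers z) * 2 := by
    rw [← hc]; exact Subgroup.card_eq_card_quotient_mul_card_subgroup _
  by_cases ho : Odd (Nat.card (G ⧸ Subgroup.zpowers z))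
  · obtain ⟨H, hH⟩ := Subgroup.exists_right_complement'_of_coprime (N := Subgroup.zpowers z)
      (by rw [hc]; exact Nat.coprime_two_left.2 ho)
    have h1 := hH.card_mul_card
    rw [hc] at h1
    refine ⟨H, fun h => ?_, ?_⟩
    · rw [h, Subgroup.card_top] at h1; omega
    · have h2 : 2 ≤ Nat.card H := by omega
      rw [← h1]
      have : 2 < Nat.card H ^ 2 := by nlinarith
      nlinarith
  rw [Nat.not_odd_iff_even] at ho
  by_cases h4 : 2 < Nat.card (G ⧸ Subgroup.zpowers z)
  · obtain ⟨K, hK, h⟩ := ih _ (by omega) (G ⧸ Subgroup.zpowers z) rfl ho h4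
    refine ⟨K.comap (QuotientGroup.mk' _), fun h' => hK ?_, ?_⟩
    · rw [← Subgroup.map_comap_eq_self_of_surjective (QuotientGroup.mk'_surjective _) K, h',
        Subgroup.map_top_of_surjective _ (QuotientGroup.mk'_surjective _)]
    · have h5 := (K.comap (QuotientGroup.mk' _)).index_mul_card
      rw [Subgroup.index_comap_of_surjective _ (QuotientGroup.mk'_surjective _), hq,
        ← K.index_mul_card, mul_assoc] at h5
      have h6 := Nat.eq_of_mul_eq_mul_left
        (Nat.pos_of_ne_zero (Subgroup.FiniteIndex.index_ne_zero (H := K))) h5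
      rw [h6, hq]
      nlinarith
  · refine ⟨Subgroup.zpowers z, fun h => ?_, ?_⟩
    · rw [h, Subgroup.card_top] at hc; omega
    · rw [hc]; omega

/-- A finite group G of even order greater than 2 has a proper subgroup H with |G| < |H|^3. -/
theorem result {G : Type*} [Group G] [Finite G] (heven : Even (Nat.card G)) (hgt : 2 < Nat.card G) : ∃ H : Subgroup G, H ≠ ⊤ ∧ Nat.card G < (Nat.card H) ^ 3 := by
  exact aux _ G rfl heven hgt

end Cfsg.Agent.S0232
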