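import Cfsg.Statements.S0234
import Cfsg.Agent.Lib.Inv.BrauerFowler
import Cfsg.Agent.Lib.Inv.SylowTwo

set_option autoImplicit false
open Cfsg

namespace Cfsg.Agent.S0234
open Cfsg.Lib.Inv

theorem card_inv_alt :
    Nat.card {σ : Equiv.Perm (Fin 5) // σ ≠ 1 ∧ σ * σ = 1 ∧ Equiv.Perm.sign σ = 1} = 15 := by
  rw [Nat.card_eq_fintype_card]
  decide +kernel

theorem sieve {G : Type*} [Group G] [Finite G] [IsSimpleGroup G] (p k : ℕ) [Fact p.Prime]
    (h : p ^ k ∣ Nat.card G) (h2 : p ^ k ≠ Nat.card G) :
    Nat.card G ∣ (Nat.card G / p ^ k).factorial := by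
  obtain ⟨H, hH⟩ := Sylow.exists_subgroup_card_pow_prime p h
  have h3 := card_dvd_factorial_index (H := H) (fun h => h2 (by rw [← hH, h, Subgroup.card_top]))
  have h4 : H.index = Nat.card G / p ^ k := by
    rw [← H.index_mul_card, hH, Nat.mul_div_cancel _ (Nat.pow_pos (Fact.out : p.Prime).pos)]
  rwa [h4] at h3

/-- In a finite simple group G of even order greater than 2, the number n of involutions satisfies 3n < |G|. -/
theorem result {G : Type*} [Group G] [Finite G] [IsSimpleGroup G] (heven : Even (Nat.card G)) (hgt : 2 < Nat.card G) : 3 * Nat.card {t : G // orderOf t = 2} < Nat.card G := by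
  classical
  have hZ := center_eq_bot_of_simple heven hgt
  have : Fact (Nat.Prime 5) := ⟨by norm_num⟩
  have hsmall : Nat.card G ∣ 120 → Nat.card G = 60 ∨ Nat.card G = 120 := by
    intro h
    have h1 : Nat.card G ∈ Nat.divisors 120 := Nat.mem_divisors.2 ⟨h, by norm_num⟩
    have h2 : Nat.divisors 120 = {1, 2, 3, 4, 5, 6, 8, 10, 12, 15, 20, 24, 30, 40, 60, 120} := by
      decide +kernel
    have s1 := sieve (G := G) 2 1
    have s2 := sieve (G := G) 2 2
    have s3 := sieve (G := G) 2 3
    have s4 := sieve (G := G) 3 1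
    have s5 := sieve (G := G) 5 1
    have s6 : Nat.card G ≠ 30 := by
      intro h30
      obtain ⟨T⟩ : Nonempty (Sylow 2 G) := inferInstance
      have hT : Nat.card T = 2 := by
        rw [T.card_eq_multiplicity, h30]; decide +kernel
      obtain ⟨H, hH⟩ := exists_index_two_of_isCyclic heven T (isCyclic_of_prime_card hT)
      exact index_ne_two_of_simple hgt H hH
    have s7 : Nat.card G ≠ 40 := by
      intro h40
      obtain ⟨T⟩ : Nonempty (Sylow 5 G) := inferInstance
      have hT : Nat.card T = 5 := by
        rw [T.card_eq_multiplicity, h40]; decide +kernel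
      have a1 := card_sylow_modEq_one 5 G
      have a2 := T.card_dvd_index
      have a3 := (T : Subgroup G).index_mul_card
      rw [hT, h40] at a3
      have a4 : (T : Subgroup G).index = 8 := by omega
      rw [a4] at a2
      have a5 : Nat.card (Sylow 5 G) = 1 := by
        have := Nat.le_of_dvd (by norm_num) a2
        unfold Nat.ModEq at a1
        interval_cases (Nat.card (Sylow 5 G)) <;> simp_all
      have : Subsingleton (Sylow 5 G) := (Nat.card_eq_one_iff_unique.1 a5).1
      rcases (T.normal_of_subsingleton).eq_bot_or_eq_top with h | h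
      · rw [h] at hT; simp at hT
      · rw [h] at a4; simp at a4
    rw [h2] at h1
    simp only [Finset.mem_insert, Finset.mem_singleton] at h1
    rcases h1 with h | h | h | h | h | h | h | h | h | h | h | h | h | h | h | h <;>
      rw [h] at heven hgt s1 s2 s3 s4 s5 s6 s7 ⊢ <;> simp_all [Nat.factorial] <;>
      exact absurd heven (by decide)
  obtain ⟨H, hH, h | h⟩ := brauer_fowler_index heven (by rw [hZ]; simp)
  · exact absurd h (index_ne_two_of_simple hgt H)
  by_contra hc
  push Not at hc
  set n := Nat.card {t : G // orderOf t = 2} with hn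
  have hn0 : 0 < n := by omega
  have h1 : Nat.card G * (Nat.card G + n) ≤ (3 * n) * (3 * n + n) :=
    Nat.mul_le_mul hc (Nat.add_le_add_right hc n)
  have h2 : H.index * (2 * n ^ 2) < 6 * (2 * n ^ 2) := by nlinarith
  have h3 : H.index < 6 := lt_of_mul_lt_mul_right h2 (Nat.zero_le _)
  have h4 := card_dvd_factorial_index hH
  have h5 := hsmall (h4.trans (Nat.factorial_dvd_factorial (n := 5) (by omega)))
  have h6 : H.index = 5 := by
    by_contra h7
    have := h4.trans (Nat.factorial_dvd_factorial (n := 4) (by omega))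
    rcases h5 with h5 | h5 <;> rw [h5] at this <;> exact absurd this (by decide)
  have e : (G ⧸ H) ≃ Fin 5 := Finite.equivFinOfCardEq h6
  let φ : G →* Equiv.Perm (Fin 5) := e.permCongrHom.toMonoidHom.comp (MulAction.toPermHom G (G ⧸ H))
  have hφ : Function.Injective φ := e.permCongrHom.injective.comp (toPermHom_quotient_injective hH)
  have hs : ∀ g, Equiv.Perm.sign (φ g) = 1 := by
    rcases (Equiv.Perm.sign.comp φ).normal_ker.eq_bot_or_eq_top with h8 | h8
    · have := Nat.card_le_card_of_injective _ ((MonoidHom.ker_eq_bot_iff _).1 h8)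
      rw [Nat.card_eq_fintype_card (α := ℤˣ), Fintype.card_units_int] at this
      omega
    · intro g
      have : g ∈ (Equiv.Perm.sign.comp φ).ker := h8 ▸ Subgroup.mem_top g
      exact this
  have h9 : n ≤ 15 := by
    rw [← card_inv_alt]
    refine Nat.card_le_card_of_injective (fun t => ⟨φ t.1, ?_, ?_, hs _⟩) ?_
    · rw [Ne, ← φ.map_one, hφ.eq_iff]; exact ne_one_of_orderOf t.2
    · rw [← map_mul, mul_self_of_orderOf t.2, map_one]
    · intro a b hab
      exact Subtype.ext (hφ (congrArg Subtype.val hab))
  omega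

end Cfsg.Agent.S0234
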