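import Cfsg.Statements.S0239
import Cfsg.Agent.Lib.Inv.Count

set_option autoImplicit false
open Cfsg

namespace Cfsg.Agent.S0239
open Cfsg.Lib.Inv


/-- If some nontrivial element x of a finite group G is conjugate to x⁻¹, then |G| is even. -/
theorem result {G : Type*} [Group G] [Finite G] (x : G) (hx : x ≠ 1) (hreal : IsConj x x⁻¹) : Even (Nat.card G) := by
  by_contra h
  rw [Nat.not_even_iff_odd] at h
  obtain ⟨g, hg⟩ := isConj_iff.1 hreal
  exact hx (eq_one_of_odd_of_mul_self (Odd.of_dvd_nat h (orderOf_dvd_natCard x))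
    (mul_self_eq_one_of_odd_inv hg (Odd.of_dvd_nat h (orderOf_dvd_natCard g))))

end Cfsg.Agent.S0239
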