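import Cfsg.Statements.S0240
import Cfsg.Agent.Lib.Inv.Count

set_option autoImplicit false
open Cfsg

namespace Cfsg.Agent.S0240
open Cfsg.Lib.Inv


/-- Let G be a finite group with n involutions and H a subgroup with |H|·(n+1) > |G|. Then some nontrivial h ∈ H is strongly real in G: an involution t of G satisfies t h t⁻¹ = h⁻¹. -/
theorem result {G : Type*} [Group G] [Finite G] (H : Subgroup G) (hH : Nat.card G < Nat.card H * (Nat.card {t : G // orderOf t = 2} + 1)) : ∃ h : G, h ∈ H ∧ h ≠ 1 ∧ ∃ t : G, orderOf t = 2 ∧ t * h * t⁻¹ = h⁻¹ := by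
  have h1 := card_subtype_ne_add_one (P := fun g : G => g * g = 1) (x := 1) (by simp)
  have h3 : Nat.card {t : G // orderOf t = 2} = Nat.card {g : G // g * g = 1 ∧ g ≠ 1} :=
    card_subtype_congr fun t => by rw [Lib.Inv.orderOf_eq_two_iff, and_comm]
  rw [h3, h1, ← H.card_mul_index] at hH
  have h4 : Nat.card (G ⧸ H) < Nat.card {g : G // g * g = 1} := lt_of_mul_lt_mul_left hH (Nat.zero_le _)
  have h5 : ¬ Function.Injective (fun g : {g : G // g * g = 1} => (g.1 : G ⧸ H)) := fun h =>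
    absurd (Nat.card_le_card_of_injective _ h) (not_le.2 h4)
  rw [Function.not_injective_iff] at h5
  obtain ⟨⟨u, hu⟩, ⟨v, hv⟩, h6, h7⟩ := h5
  have h8 : u ≠ v := fun h => h7 (Subtype.ext h)
  have h9 : u * v ∈ H := by
    have := QuotientGroup.eq.1 h6
    rwa [inv_eq_of_mul_self hu] at this
  refine ⟨u * v, h9, fun h => h8 ?_, ?_⟩
  · rw [← inv_eq_of_mul_self hv]; exact eq_inv_of_mul_eq_one_left h
  · by_cases hu1 : u = 1
    · exact ⟨v, orderOf_eq_two_iff.2 ⟨fun h => h8 (hu1.trans h.symm), hv⟩, pair_right_inv hu hv⟩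
    · exact ⟨u, orderOf_eq_two_iff.2 ⟨hu1, hu⟩, pair_left_inv hu hv⟩

end Cfsg.Agent.S0240
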