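import Cfsg.Statements.S0241
import Cfsg.Agent.Lib.Inv.Count

set_option autoImplicit false
open Cfsg

namespace Cfsg.Agent.S0241
open Cfsg.Lib.Inv


/-- If x ≠ 1 is conjugate to x⁻¹ in a finite group G and |C_G(x)| is odd, then some involution t satisfies t x t⁻¹ = x⁻¹. -/
theorem result {G : Type*} [Group G] [Finite G] (x : G) (hx : x ≠ 1) (hreal : IsConj x x⁻¹) (hodd : Odd (Nat.card (Subgroup.centralizer ({x} : Set G)))) : ∃ t : G, orderOf t = 2 ∧ t * x * t⁻¹ = x⁻¹ := by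
  obtain ⟨g, hg⟩ := isConj_iff.1 hreal
  have h1 : g * g ∈ Subgroup.centralizer ({x} : Set G) :=
    mem_centralizer_singleton.2 (commute_sq_of_inv hg).eq
  have h2 := odd_orderOf_of_mem hodd h1
  have h3 := odd_pow_inv hg h2
  refine ⟨g ^ orderOf (g * g), orderOf_eq_two_iff.2 ⟨fun h => hx ?_, ?_⟩, h3⟩
  · rw [h, one_mul, inv_one, mul_one] at h3
    refine eq_one_of_odd_of_mul_self (odd_orderOf_of_mem hodd (mem_centralizer_singleton.2 rfl)) ?_
    calc x * x = x * x⁻¹ := by rw [← h3]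
      _ = 1 := mul_inv_cancel x
  · rw [← (Commute.refl g).mul_pow, pow_orderOf_eq_one]

end Cfsg.Agent.S0241
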