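import Cfsg.Statements.S0250
import Cfsg.Agent.Lib.PSL2.SmallIso

set_option autoImplicit false
open Cfsg

namespace Cfsg.Agent.S0250

/-- SL_2(2) is isomorphic to S_3. -/
theorem result {F : Type*} [Field F] [Fintype F] (hF : Fintype.card F = 2) : Nonempty (Matrix.SpecialLinearGroup (Fin 2) F ≃* Equiv.Perm (Fin 3)) := by
  open Cfsg.Lib.PSL2 in
  rw [← Nat.card_eq_fintype_card] at hF
  obtain ⟨e⟩ := equiv_sl_psl_of_even (F := F) (by rw [hF]; decide)
  obtain ⟨e'⟩ := equiv_psl_perm_three hF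
  exact ⟨e.trans e'⟩

end Cfsg.Agent.S0250
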