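import Cfsg.Statements.S0251
import Cfsg.Agent.Lib.PSL2.SmallIso

set_option autoImplicit false
open Cfsg

namespace Cfsg.Agent.S0251

/-- PSL_2(3) is isomorphic to A_4. -/
theorem result {F : Type*} [Field F] [Fintype F] (hF : Fintype.card F = 3) : Nonempty (Matrix.ProjectiveSpecialLinearGroup (Fin 2) F ≃* alternatingGroup (Fin 4)) := by
  exact Cfsg.Lib.PSL2.equiv_psl_alt_four (Nat.card_eq_fintype_card.trans hF)

end Cfsg.Agent.S0251
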