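import Cfsg.Statements.S0257
import Cfsg.Agent.Lib.PSL2.SmallIso

set_option autoImplicit false
open Cfsg

namespace Cfsg.Agent.S0257

/-- SL_2(3) has a normal subgroup of index 3 isomorphic to the quaternion group of order 8, and its centre has order 2. -/
theorem result {F : Type*} [Field F] [Fintype F] (hF : Fintype.card F = 3) : (∃ Q : Subgroup (Matrix.SpecialLinearGroup (Fin 2) F), Q.Normal ∧ Q.index = 3 ∧ Nonempty (Q ≃* QuaternionGroup 2)) ∧ Nat.card (Subgroup.center (Matrix.SpecialLinearGroup (Fin 2) F)) = 2 := by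
  open Cfsg.Lib.PSL2 Cfsg.Lib.Small in
  rw [← Nat.card_eq_fintype_card] at hF
  have ho : Odd (Nat.card F) := by rw [hF]; decide
  have h2 := two_ne_zero_iff_odd.2 ho
  refine ⟨?_, card_center_SL2 h2⟩
  obtain ⟨V, hV⟩ := exists_four_psl ho
  have h1 := card_normalizer_four_psl_of_three_five (by omega) hV
  have h3 := card_psl_of_eq (n := 12) hF rfl
  have h4 : V.Normal := Subgroup.normalizer_eq_top_iff.1 (Subgroup.eq_top_of_card_eq _
    (by rw [h1, h3]))
  have h5 := V.index_mul_card
  rw [hV.card_four, h3] at h5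
  have h6 := card_comap_toL h2 V
  rw [hV.card_four] at h6
  refine ⟨V.comap toL, inferInstance, ?_, ?_⟩
  · rw [Subgroup.index_comap_of_surjective _ toL_surjective]; omega
  · rcases isCyclic_or_quaternion_SL2 h2 (P := V.comap toL) (IsPGroup.of_card (n := 3) h6) with
      h | ⟨k, hk, ⟨e⟩⟩
    · have : IsCyclic ((V.comap toL).map toL) :=
        isCyclic_of_surjective _ (toL.subgroupMap_surjective _)
      rw [map_comap_toL] at this
      exact absurd this (IsKleinFour.not_isCyclic (G := V))
    · have h7 := Nat.card_congr e.toEquiv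
      rw [h6, Nat.card_eq_fintype_card, QuaternionGroup.card] at h7
      obtain rfl : k = 1 := by
        have : 2 ^ k = 2 ^ 1 := by omega
        exact Nat.pow_right_injective le_rfl this
      exact ⟨e⟩

end Cfsg.Agent.S0257
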