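import Cfsg.Statements.S0261
import Cfsg.Agent.Lib.PSL2.SL

set_option autoImplicit false
open Cfsg

namespace Cfsg.Agent.S0261

/-- For q odd, the Sylow 2-subgroups of SL_2(q) are generalised quaternion. -/
theorem result {F : Type*} [Field F] [Fintype F] (hF : Odd (Fintype.card F)) (P : Sylow 2 (Matrix.SpecialLinearGroup (Fin 2) F)) : ∃ k : ℕ, 1 ≤ k ∧ Nonempty ((P : Subgroup (Matrix.SpecialLinearGroup (Fin 2) F)) ≃* QuaternionGroup (2 ^ k)) := by
  open Cfsg.Lib.PSL2 in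
  rw [← Nat.card_eq_fintype_card] at hF
  obtain ⟨V, hV⟩ := exists_four_psl hF
  obtain ⟨k, hk, ⟨e⟩⟩ := quaternion_sylow_of_four hF (H := ⊤) hV
    (by rw [Subgroup.map_top_of_surjective _ toL_surjective]; exact le_top) (P.subtype le_top)
  exact ⟨k, hk, ⟨(Subgroup.subgroupOfEquivOfLe le_top).symm.trans e⟩⟩

end Cfsg.Agent.S0261
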