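import Cfsg.Statements.S0262
import Cfsg.Agent.Lib.PSL2.SL

set_option autoImplicit false
open Cfsg

namespace Cfsg.Agent.S0262

/-- For an odd prime r different from the characteristic, the Sylow r-subgroups of SL_2(q) are cyclic. -/
theorem result {F : Type*} [Field F] [Fintype F] (p : ℕ) [Fact p.Prime] [CharP F p] (r : ℕ) [Fact r.Prime] (hr : r ≠ 2) (hrp : r ≠ p) (R : Sylow r (Matrix.SpecialLinearGroup (Fin 2) F)) : IsCyclic (R : Subgroup (Matrix.SpecialLinearGroup (Fin 2) F)) := by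
  open Cfsg.Lib.PSL2 in
  obtain ⟨n, hn⟩ := R.isPGroup'.exists_card_eq
  have ho : Odd (Nat.card R) := hn ▸ ((Fact.out : r.Prime).odd_of_ne_two hr).pow
  obtain ⟨e⟩ := equiv_map_toL_of_odd ho
  have e' := e.trans (Subgroup.equivMapOfInjective _ _ toP_injective)
  refine e'.isCyclic.2 (isCyclic_of_coprime_of_odd p ?_ ?_)
  · rw [← Nat.card_congr e'.toEquiv, hn]
    exact Nat.Coprime.pow_left _ ((Nat.coprime_primes Fact.out Fact.out).2 hrp)
  · rwa [← Nat.card_congr e'.toEquiv]

end Cfsg.Agent.S0262
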