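import Cfsg.Statements.S0267
import Cfsg.Agent.Lib.PSL2.Line
import Cfsg.Agent.Lib.Perm.Basic
import Cfsg.Agent.Lib.Symp.Group

set_option autoImplicit false
open Cfsg

namespace Cfsg.Agent.S0267

/-- SL_2(q) is 3-transitive on the q+1 points of the projective line if and only if q is even. -/
theorem result {F : Type*} [Field F] [Fintype F] : MulAction.IsMultiplyPretransitive (Matrix.SpecialLinearGroup (Fin 2) F) (Projectivization F (Fin 2 → F)) 3 ↔ ringChar F = 2 := by
  open Cfsg.Lib.PSL2 in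
  rw [Cfsg.Lib.Perm.three_iff]
  constructor
  · intro h
    by_contra h2
    obtain ⟨a, ha⟩ := FiniteField.exists_nonsquare h2
    have ha0 : a ≠ 0 := by rintro rfl; exact ha ⟨0, by simp⟩
    obtain ⟨g, h1, h2, h3⟩ := h inf (pt 0) (pt 1) inf (pt 0) (pt a) (by simp) (by simp) (by simp)
      (by simp) (by simp) (by simpa using ha0.symm)
    rw [sl_smul_eq] at h1 h2 h3
    rw [gl_smul_inf_eq_inf] at h1
    rw [gl_smul_pt_eq_pt] at h2 h3
    have hd := g.2
    rw [Matrix.det_fin_two] at hd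
    simp only [Matrix.SpecialLinearGroup.coe_GL_coe_matrix] at h1 h2 h3
    refine ha ⟨g.1 0 0, ?_⟩
    linear_combination (-a) * hd - g.1 0 0 * h3 + g.1 0 0 * h2 - a * (g.1 0 0 + g.1 0 1) * h1
  · intro h2 a b c a' b' c' h1 h3 h4 h5 h6 h7
    obtain ⟨g, hg⟩ := exists_smul_three h1 h3 h4 h5 h6 h7
    obtain ⟨g, rfl⟩ := QuotientGroup.mk_surjective g
    obtain ⟨t, ht⟩ := FiniteField.isSquare_of_char_two h2 g.1.det
    have ht0 : t ≠ 0 := by rintro rfl; exact g.det_ne_zero (by simpa using ht)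
    let s : Matrix.SpecialLinearGroup (Fin 2) F := ⟨t⁻¹ • g.1, by
      rw [Matrix.det_smul, ht]; simp only [Fintype.card_fin]; field_simp⟩
    have : (Matrix.ProjGenLinGroup.mk (Matrix.SpecialLinearGroup.toGL s) :
        Matrix.ProjGenLinGroup (Fin 2) F) = Matrix.ProjGenLinGroup.mk g :=
      ((pgl_mk_eq_mk_iff _ _).2 ⟨t⁻¹, inv_ne_zero ht0, rfl, rfl, rfl, rfl⟩).symm
    refine ⟨s, ?_⟩
    simp only [sl_smul_eq, ← pgl_mk_smul, this]
    exact hg

end Cfsg.Agent.S0267
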