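import Cfsg.Statements.S0284
import Cfsg.Agent.Lib.Unitary.Count

set_option autoImplicit false
open Cfsg

namespace Cfsg.Agent.S0284

/-- The standard Hermitian form on F^n, |F| = q^2, has exactly q^(n-1) (q^n - (-1)^n) vectors of norm 1. -/
theorem result {F : Type*} [Field F] [Fintype F] {q : ℕ} (hF : Fintype.card F = q ^ 2) (n : ℕ) : Nat.card {v : Fin n → F // Cfsg.hermForm n F q v v = 1} = (if Even n then q ^ (n - 1) * (q ^ n - 1) else q ^ (n - 1) * (q ^ n + 1)) := by
  obtain ⟨σ, hσ⟩ := Cfsg.Lib.Unitary.exists_isBar hF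
  simp only [hσ.hermForm_eq]
  rcases n with _ | n
  · have : IsEmpty {v : Fin 0 → F // Cfsg.Lib.Unitary.stdForm σ _ v v = 1} := ⟨fun v => by
      simpa [Cfsg.Lib.Unitary.stdForm_apply] using v.2⟩
    simp
  · rw [hσ.isHerm.card_norm_one hσ (n := n) (by simp), Cfsg.Lib.Unitary.uf]
    by_cases h : Even n <;> simp [h, Nat.even_add_one]

end Cfsg.Agent.S0284
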