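import Cfsg.Statements.S0285
import Cfsg.Agent.Lib.Unitary.Count

set_option autoImplicit false
open Cfsg

namespace Cfsg.Agent.S0285

/-- The standard Hermitian form on F^n, |F| = q^2, has exactly (q^n - (-1)^n)(q^(n-1) + (-1)^n) non-zero isotropic vectors; counting the zero vector too: -/
theorem result {F : Type*} [Field F] [Fintype F] {q : ℕ} (hF : Fintype.card F = q ^ 2) (n : ℕ) : Nat.card {v : Fin n → F // Cfsg.hermForm n F q v v = 0} = (if Even n then (q ^ n - 1) * (q ^ (n - 1) + 1) else (q ^ n + 1) * (q ^ (n - 1) - 1)) + 1 := by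
  obtain ⟨σ, hσ⟩ := Cfsg.Lib.Unitary.exists_isBar hF
  simp only [hσ.hermForm_eq]
  rcases n with _ | _ | n
  · rw [Nat.card_congr (Equiv.subtypeUnivEquiv
      (fun v => by simp [Cfsg.Lib.Unitary.stdForm_apply]))]
    simp
  · have h1 := (hσ.card_std_aux 1).1
    have h2 := hσ.two_le
    have hq : (q : ℤ) ≠ 0 := by omega
    apply Nat.cast_injective (R := ℤ)
    apply mul_left_cancel₀ hq
    rw [h1]
    simp
    ring
  · rw [hσ.isHerm.card_isotropic hσ (n := n) (by simp), Cfsg.Lib.Unitary.uf, Cfsg.Lib.Unitary.uf]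
    by_cases h : Even n <;> simp [h, Nat.even_add_one]

end Cfsg.Agent.S0285
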