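import Cfsg.Statements.S0305
import Cfsg.Agent.Lib.Orth.Plane

set_option autoImplicit false
open Cfsg

namespace Cfsg.Agent.S0305

open Cfsg.Lib.Orth QuadraticMap

/-- GO^+_2(q) is dihedral of order 2(q-1). -/
theorem result {F : Type*} [Field F] [Fintype F] {q : ℕ} (hF : Fintype.card F = q) : Nonempty (Cfsg.isometryGroup F (Cfsg.quadFormPlus 1 F) ≃* DihedralGroup (q - 1)) := by
  have h := card_O_plus (m := 0) (nd_qPlus (F := F) 1) (by simp) (wittIndex_qPlus 1)
  obtain ⟨e⟩ := nonempty_equiv_dihedral (nd_qPlus (F := F) 1) (by simp) (n := q - 1)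
    (by rw [h, Nat.card_eq_fintype_card, hF]; simp)
  exact ⟨(isoEquiv (qPlus 1 F)).trans e⟩

end Cfsg.Agent.S0305
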