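import Cfsg.Statements.S0306
import Cfsg.Agent.Lib.Orth.Plane

set_option autoImplicit false
open Cfsg

namespace Cfsg.Agent.S0306

open Cfsg.Lib.Orth QuadraticMap

/-- GO^-_2(q) is dihedral of order 2(q+1). -/
theorem result {F : Type*} [Field F] [Fintype F] {q : ℕ} (hF : Fintype.card F = q) (a b : F) (hab : ∀ z₁ z₂ : F, z₁ ^ 2 + a * z₁ * z₂ + b * z₂ ^ 2 = 0 → z₁ = 0 ∧ z₂ = 0) : Nonempty (Cfsg.isometryGroup F (Cfsg.quadFormMinus 0 F a b) ≃* DihedralGroup (q + 1)) := by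
  have h := card_O_minus (m := 0) (nd_qMinus (F := F) 0 hab) (by simp) (wittIndex_qMinus 0 hab)
  obtain ⟨e⟩ := nonempty_equiv_dihedral (nd_qMinus (F := F) 0 hab) (by simp) (n := q + 1)
    (by rw [h, Nat.card_eq_fintype_card, hF]; simp)
  exact ⟨(isoEquiv (qMinus 0 F a b)).trans e⟩

end Cfsg.Agent.S0306
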