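import Cfsg.Statements.S0307
import Cfsg.Agent.Lib.Linear.AutType

set_option autoImplicit false
open Cfsg

namespace Cfsg.Agent.S0307

/-- PSL_n(q) is normal in PGL_n(q) with cyclic quotient of order gcd(n, q-1): the image of the natural map PSL_n → PGL_n is the kernel of a surjective homomorphism onto the cyclic group of that order. -/
theorem result {F : Type*} [Field F] [Fintype F] {q : ℕ} (hF : Fintype.card F = q) (n : ℕ) (hn : 1 ≤ n) : ∃ g : Matrix.ProjGenLinGroup (Fin n) F →* Multiplicative (ZMod (Nat.gcd n (q - 1))), Function.Surjective g ∧ g.ker = (Matrix.ProjectiveSpecialLinearGroup.toPGL : Matrix.ProjectiveSpecialLinearGroup (Fin n) F →* Matrix.ProjGenLinGroup (Fin n) F).range := by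
  subst hF
  have : Nonempty (Fin n) := ⟨⟨0, hn⟩⟩
  have hc := Cfsg.Lib.Linear.card_units_quot_pow (F := F) (Fintype.card (Fin n))
  let e : (Fˣ ⧸ (powMonoidHom (Fintype.card (Fin n)) : Fˣ →* Fˣ).range) ≃*
      Multiplicative (ZMod (Nat.gcd n (Fintype.card F - 1))) := by
    rw [Fintype.card_fin] at hc ⊢
    rw [← hc]
    exact (zmodCyclicMulEquiv inferInstance).symm
  let d := Matrix.ProjGenLinGroup.lift (Cfsg.Lib.Linear.detClass (ι := Fin n) (F := F)) (by
    ext u
    exact Cfsg.Lib.Linear.mem_ker_detClass.2 ⟨u, (Matrix.GeneralLinearGroup.det_scalar u).symm⟩)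
  refine ⟨e.toMonoidHom.comp d, e.surjective.comp fun c => ?_, ?_⟩
  · obtain ⟨g, rfl⟩ := Cfsg.Lib.Linear.detClass_surjective c
    exact ⟨Matrix.ProjGenLinGroup.mk g, rfl⟩
  · ext x
    induction x using Matrix.ProjGenLinGroup.induction_on with
    | mk g =>
      have h1 : Matrix.ProjGenLinGroup.mk g ∈ (e.toMonoidHom.comp d).ker ↔
          g ∈ (Cfsg.Lib.Linear.detClass (ι := Fin n) (F := F)).ker := by
        simp [d]
      rw [h1, Cfsg.Lib.Linear.mem_ker_detClass, ← Cfsg.Lib.Linear.innDiag_mem_inn_iff]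
      refine exists_congr fun y => ?_
      induction y using QuotientGroup.induction_on with
      | H y =>
        rw [← Cfsg.Lib.Linear.innDiag_toGL, Matrix.ProjectiveSpecialLinearGroup.toPGL_mk,
          ← MonoidHom.div_mem_ker_iff, ← MonoidHom.div_mem_ker_iff, Cfsg.Lib.Linear.ker_innDiag,
          Matrix.ProjGenLinGroup.ker_mk]

end Cfsg.Agent.S0307
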