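import Cfsg.Statements.S0310
import Cfsg.Agent.Lib.BN.Parabolic

set_option autoImplicit false
open Cfsg

namespace Cfsg.Agent.S0310

/-- For a set `J` of distinguished generators, the subgroup generated by `B` and `J` is exactly the union of
the double cosets `B n B` with `n` in the subgroup generated by `J` (so `B W_J B` is a subgroup). -/
theorem result {G : Type*} [Group G] (P : Cfsg.BNPair G) {J : Set G}
    (hJ : J ⊆ P.S) (g : G) :
    g ∈ P.parabolic J ↔ ∃ n ∈ Subgroup.closure J, g ∈ DoubleCoset.doubleCoset n (P.B : Set G) P.B := by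
  constructor
  · intro hg
    rw [Cfsg.Lib.BN.parabolic_eq_cellSubgroup hJ] at hg
    obtain ⟨w, hw, hg⟩ := hg
    obtain ⟨l, hl, rfl⟩ := Cfsg.Lib.BN.exists_word_of_mem_closure (Cfsg.Lib.BN.sW_sq P) hw
    rw [← Cfsg.Lib.BN.toW_wp, Cfsg.Lib.BN.cell_iff] at hg
    exact ⟨_, Cfsg.Lib.BN.wp_mem fun i hi => Subgroup.subset_closure (hl i hi), hg⟩
  · rintro ⟨n, hn, hg⟩
    obtain ⟨b, hb, b', hb', rfl⟩ := DoubleCoset.mem_doubleCoset.1 hg
    exact Subgroup.mul_mem _ (Subgroup.mul_mem _ (Cfsg.Lib.BN.B_le_parabolic J hb)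
      ((le_sup_right : Subgroup.closure J ≤ P.B ⊔ Subgroup.closure J) hn))
      (Cfsg.Lib.BN.B_le_parabolic J hb')

end Cfsg.Agent.S0310
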