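import Cfsg.Statements.S0316
import Cfsg.Agent.Lib.BN.Parabolic

set_option autoImplicit false
open Cfsg

namespace Cfsg.Agent.S0316

/-- The map `J ↦ P_J` is a lattice isomorphism from the power set of the set of distinguished generators onto the
subgroups containing `B`. -/
theorem result {G : Type*} [Group G] (P : Cfsg.BNPair G) :
    ∃ e : Set P.S ≃o {M : Subgroup G // P.B ≤ M},
      ∀ J : Set P.S, ((e J : {M : Subgroup G // P.B ≤ M}) : Subgroup G) = P.parabolic (Subtype.val '' J) := by
  have hsub : ∀ J : Set P.S, Subtype.val '' J ⊆ P.S := fun J => Subtype.coe_image_subset _ _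
  let f : Set P.S → {M : Subgroup G // P.B ≤ M} := fun J =>
    ⟨P.parabolic (Subtype.val '' J), Cfsg.Lib.BN.B_le_parabolic _⟩
  have hf : ∀ J K, f J ≤ f K ↔ J ≤ K := fun J K => by
    change P.parabolic _ ≤ P.parabolic _ ↔ _
    rw [Cfsg.Lib.BN.parabolic_le_parabolic_iff (hsub J) (hsub K),
      Set.image_subset_image_iff Subtype.val_injective]
  have hs : Function.Surjective f := by
    rintro ⟨M, hM⟩
    refine ⟨{s | (s : G) ∈ M}, Subtype.ext ?_⟩
    change P.parabolic _ = M
    conv_rhs => rw [Cfsg.Lib.BN.eq_parabolic_of_le hM]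
    congr 1
    ext s
    simp [and_comm]
  exact ⟨RelIso.ofSurjective (OrderEmbedding.ofMapLEIff f hf) hs, fun J => rfl⟩

end Cfsg.Agent.S0316
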