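import Cfsg.Statements.S0321
import Cfsg.Agent.Lib.BN.RankOne

set_option autoImplicit false
open Cfsg

namespace Cfsg.Agent.S0321

/-- For `n ∈ N` not in `B`, the union `B ∪ B n B` is (the underlying set of) a subgroup exactly when `n` agrees
modulo `B ⊓ N` with one of the distinguished representatives; thus the distinguished involutions are
determined by `B` and `N`. -/
theorem result {G : Type*} [Group G] (P : Cfsg.BNPair G) {n : G}
    (hn : n ∈ P.N) (hnB : n ∉ P.B) :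
    (∃ H : Subgroup G, (H : Set G) = (P.B : Set G) ∪ DoubleCoset.doubleCoset n (P.B : Set G) P.B) ↔ ∃ s ∈ P.S, s⁻¹ * n ∈ P.B := by
  constructor
  · rintro ⟨H, hH⟩
    have hB : P.B ≤ H := fun b hb => by
      rw [← SetLike.mem_coe, hH]; exact Or.inl hb
    have hnH : n ∈ H := by
      rw [← SetLike.mem_coe, hH]; exact Or.inr (DoubleCoset.mem_doubleCoset_self _ _ _)
    obtain ⟨l, hl, hw⟩ := (Cfsg.Lib.BN.invGen P).exists_reduced (Cfsg.Lib.BN.toW P hn)
    rcases l with _ | ⟨s, l⟩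
    · exact absurd ((Cfsg.Lib.BN.toW_eq_one_iff P hn).1 hw.symm) hnB
    have hs : (s : G) ∈ H := Cfsg.Lib.BN.letters_mem_of_mem hB (s :: l) (by rw [hw, hl])
      (by rw [hw]; exact Cfsg.Lib.BN.cell_self hn) hnH s (by simp)
    rw [← SetLike.mem_coe, hH] at hs
    rcases hs with hs | hs
    · exact absurd hs (Cfsg.Lib.BN.not_mem_B P s.2)
    · exact ⟨s, s.2, (Cfsg.Lib.BN.toW_eq_iff P (P.subset s.2) hn).1
        ((Cfsg.Lib.BN.cell_sW s).unique ((Cfsg.Lib.BN.cell_iff hn).2 hs))⟩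
  · rintro ⟨s, hs, h⟩
    have e : Cfsg.Lib.BN.sW P ⟨s, hs⟩ = Cfsg.Lib.BN.toW P hn :=
      (Cfsg.Lib.BN.toW_eq_iff P (P.subset hs) hn).2 h
    refine ⟨Cfsg.Lib.BN.cellSubgroup P {⟨s, hs⟩}, ?_⟩
    ext g
    rw [SetLike.mem_coe, Cfsg.Lib.BN.mem_cellSubgroup, Set.mem_union, ← Cfsg.Lib.BN.cell_iff hn,
      ← e, SetLike.mem_coe, ← Cfsg.Lib.BN.cell_one_iff, Set.image_singleton]
    constructor
    · rintro ⟨w, hw, hg⟩
      rcases Cfsg.Lib.BN.eq_or_eq_of_mem_closure_singleton (Cfsg.Lib.BN.sW_sq P ⟨s, hs⟩) hw with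
        rfl | rfl
      exacts [Or.inl hg, Or.inr hg]
    · rintro (hg | hg)
      · exact ⟨1, Subgroup.one_mem _, hg⟩
      · exact ⟨_, Subgroup.subset_closure rfl, hg⟩

end Cfsg.Agent.S0321
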