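import Cfsg.Statements.S0326

set_option autoImplicit false
open Cfsg

namespace Cfsg.Agent.S0326

/-- The Suzuki–Tits ovoid over a finite field with `q` elements has `q² + 1` points. -/
theorem result {F : Type*} [Field F] [Fintype F] (m : ℕ) :
    Nat.card (Cfsg.suzukiOvoid F m) = Fintype.card F ^ 2 + 1 := by
  let φ : Option (F × F) → (Fin 4 → F) := fun p => match p with
    | none => ![1, 0, 0, 0]
    | some p => ![p.1 * p.2 + p.1 ^ (2 ^ (m + 1) + 2) + p.2 ^ (2 ^ (m + 1)), p.2, p.1, 1]
  have hφ : ∀ p, φ p ≠ 0 := by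
    rintro (_ | ⟨x, y⟩) h
    · simpa [φ] using congrFun h 0
    · simpa [φ] using congrFun h 3
  have h1 : Cfsg.suzukiOvoid F m = Set.range fun p => Projectivization.mk F (φ p) (hφ p) := by
    ext P
    constructor
    · rintro ⟨v, hv, rfl, rfl | ⟨x, y, rfl⟩⟩
      · exact ⟨none, rfl⟩
      · exact ⟨some (x, y), rfl⟩
    · rintro ⟨p, rfl⟩
      refine ⟨φ p, hφ p, rfl, ?_⟩
      rcases p with _ | ⟨x, y⟩
      · exact Or.inl rfl
      · exact Or.inr ⟨x, y, rfl⟩
  have h2 : Function.Injective fun p => Projectivization.mk F (φ p) (hφ p) := by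
    intro p p' h
    obtain ⟨c, hc⟩ := (Projectivization.mk_eq_mk_iff F _ _ _ _).1 h
    have h1 := congrFun hc 1
    have h2 := congrFun hc 2
    have h3 := congrFun hc 3
    rcases p with _ | ⟨x, y⟩ <;> rcases p' with _ | ⟨x', y'⟩
    · rfl
    · simp [φ, Units.smul_def] at h3
    · simp [φ, Units.smul_def] at h3
    · simp only [φ, Units.smul_def, Pi.smul_apply, smul_eq_mul] at h1 h2 h3
      simp at h1 h2 h3
      simp [h3] at h1 h2
      rw [h1, h2]
  rw [h1, Nat.card_range_of_injective h2, Finite.card_option, Nat.card_prod, sq,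
    Nat.card_eq_fintype_card]

end Cfsg.Agent.S0326
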