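import Cfsg.Statements.S0327
import Cfsg.Agent.Lib.Sz.Ovoid

set_option autoImplicit false
open Cfsg

namespace Cfsg.Agent.S0327

/-- The Suzuki group (`m ≥ 1`) is a Zassenhaus group on the `q² + 1` points of the Suzuki–Tits ovoid. -/
theorem result {F : Type*} [Field F] [Fintype F] {m : ℕ} (hm : 1 ≤ m)
    (hF : Fintype.card F = 2 ^ (2 * m + 1)) :
    Cfsg.IsZassenhausGroup (Cfsg.Sz F m) (Cfsg.suzukiOvoid F m) := by
  have ht := Cfsg.Lib.Sz.exists_ne_zero_ne_one hm hF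
  set M := Cfsg.Lib.Sz.ovoidModel hm hF
  set e := Cfsg.Lib.Sz.ovoidEquiv hm hF
  have he : ∀ (g : Cfsg.Sz F m) (p : M.Pt), g • e p = e (g • p) := fun g p =>
    (Cfsg.Lib.Sz.ovoidEquiv_smul hm hF g p).symm
  obtain ⟨μ, hμ⟩ := Cfsg.Lib.Sz.Model.exists_h_ne_one ht
  have hne : e M.inf ≠ e (M.pt 0 0) := fun h => M.pt_ne_inf 0 0 (e.injective h).symm
  refine ⟨⟨fun {g g'} h => ?_⟩, ?_, ?_, ?_, ?_⟩
  · refine FaithfulSMul.eq_of_smul_eq_smul (α := M.Pt) fun p => e.injective ?_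
    rw [← he, ← he, h]
  · rw [MulAction.is_two_pretransitive_iff]
    intro a b c d hab hcd
    obtain ⟨a, rfl⟩ := e.surjective a
    obtain ⟨b, rfl⟩ := e.surjective b
    obtain ⟨c, rfl⟩ := e.surjective c
    obtain ⟨d, rfl⟩ := e.surjective d
    obtain ⟨g, h1, h2⟩ := MulAction.is_two_pretransitive_iff.1 M.two_transitive
      (fun h => hab (congrArg e h)) (fun h => hcd (congrArg e h))
    exact ⟨g, by rw [he, h1], by rw [he, h2]⟩
  · intro g a b c hab hbc hac ha hb hc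
    obtain ⟨a, rfl⟩ := e.surjective a
    obtain ⟨b, rfl⟩ := e.surjective b
    obtain ⟨c, rfl⟩ := e.surjective c
    rw [he, e.injective.eq_iff] at ha hb hc
    exact M.eq_one_of_fix_three (fun h => hab (congrArg e h)) (fun h => hbc (congrArg e h))
      (fun h => hac (congrArg e h)) ha hb hc
  · exact ⟨M.h μ, fun h => hμ (M.h_eq_one.1 h), _, _, hne, by rw [he, M.h_smul_inf],
      by rw [he, M.h_smul_zero]⟩
  · intro N hN htr
    have := M.isSimpleGroup ht
    rcases hN.eq_bot_or_eq_top with rfl | rfl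
    · exfalso
      obtain ⟨⟨g, hg⟩, h⟩ := htr.exists_smul_eq (e M.inf) (e (M.pt 0 0))
      obtain rfl : g = 1 := hg
      exact hne (by rw [← h]; exact (one_smul (Cfsg.Sz F m) _).symm)
    · refine ⟨e M.inf, fun h => hμ (M.h_eq_one.1 ?_)⟩
      have h1 : (⟨M.h μ, trivial⟩ : (⊤ : Subgroup (Cfsg.Sz F m))) ∈
          MulAction.stabilizer (⊤ : Subgroup (Cfsg.Sz F m)) (e M.inf) := by
        change M.h μ • e M.inf = e M.inf
        rw [he, M.h_smul_inf]
      rw [h] at h1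
      exact congrArg Subtype.val (Subgroup.mem_bot.1 h1)

end Cfsg.Agent.S0327
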