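import Cfsg.Statements.S0330
import Cfsg.Agent.Lib.Sz.Simple

set_option autoImplicit false
open Cfsg

namespace Cfsg.Agent.S0330

/-- A Sylow 2-subgroup `P` of the Suzuki group (field with `q = 2^(2m+1)` elements, `m ≥ 1`) has order `q²` and
exponent `4`; its centre coincides with its commutator subgroup and has order `q`. -/
theorem result {F : Type*} [Field F] [Fintype F] {m : ℕ} (hm : 1 ≤ m)
    (hF : Fintype.card F = 2 ^ (2 * m + 1)) (P : Sylow 2 (Cfsg.Sz F m)) :
    Nat.card P = (2 ^ (2 * m + 1)) ^ 2 ∧ Monoid.exponent P = 4 ∧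
      Subgroup.center P = commutator P ∧ Nat.card (Subgroup.center P) = 2 ^ (2 * m + 1) := by
  have ht := Cfsg.Lib.Sz.exists_ne_zero_ne_one hm hF
  obtain ⟨x, hx⟩ := (Cfsg.Lib.Sz.ovoidModel hm hF).exists_conj_U_eq P
  generalize (Cfsg.Lib.Sz.ovoidModel hm hF).conj x = M at hx
  obtain ⟨P, hP⟩ := P
  change P = _ at hx
  subst hx
  have hq : Nat.card F = 2 ^ (2 * m + 1) := by rw [Nat.card_eq_fintype_card, hF]
  exact ⟨hq ▸ M.card_U, M.exponent_U, (M.center_U ht).trans (M.commutator_U ht).symm,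
    hq ▸ M.card_center_U ht⟩

end Cfsg.Agent.S0330
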