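import Cfsg.Statements.S0333
import Cfsg.Agent.Lib.Sz.TorusCount

set_option autoImplicit false
open Cfsg

namespace Cfsg.Agent.S0333

/-- With `q = 2^(2m+1)` and `r = 2^m`, the Suzuki group has cyclic subgroups of orders `q + 2r + 1` and
`q - 2r + 1`; each is the centraliser of each of its non-identity elements and has index `4` in its normaliser. -/
theorem result {F : Type*} [Field F] [Fintype F] {m : ℕ} (hm : 1 ≤ m)
    (hF : Fintype.card F = 2 ^ (2 * m + 1)) :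
    ∀ k ∈ ({2 ^ (2 * m + 1) + 2 ^ (m + 1) + 1, 2 ^ (2 * m + 1) - 2 ^ (m + 1) + 1} : Set ℕ),
      ∃ U : Subgroup (Cfsg.Sz F m), IsCyclic U ∧ Nat.card U = k ∧
        (∀ u ∈ U, u ≠ 1 → Subgroup.centralizer {u} = U) ∧ Nat.card (Subgroup.normalizer (U : Set (Cfsg.Sz F m))) = 4 * k := by
  have hq : Nat.card F = 2 ^ (2 * m + 1) := by rw [Nat.card_eq_fintype_card, hF]
  obtain ⟨g, y, hg, hy, h1, h2, -⟩ := (Cfsg.Lib.Sz.ovoidModel hm hF).exists_tori hm hq
  rintro k (rfl | rfl)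
  · exact ⟨_, hg.isCyclic, h1, fun u hu h => hg.centralizer_eq hu h, h1 ▸ hg.card_normalizer hm hq⟩
  · exact ⟨_, hy.isCyclic, h2, fun u hu h => hy.centralizer_eq hu h, h2 ▸ hy.card_normalizer hm hq⟩

end Cfsg.Agent.S0333
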