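import Cfsg.Statements.S0335
import Cfsg.Agent.Lib.Sz.Ovoid

set_option autoImplicit false
open Cfsg

namespace Cfsg.Agent.S0335

/-- The Suzuki–Tits point set is an ovoid: any three distinct points of it are projectively independent
(no line of projective 3-space meets it in more than two points). -/
theorem result {F : Type*} [Field F] [Fintype F] {m : ℕ} (hm : 1 ≤ m)
    (hF : Fintype.card F = 2 ^ (2 * m + 1)) (p : Fin 3 ↪ Cfsg.suzukiOvoid F m) :
    Projectivization.Independent (fun i => (p i : Projectivization F (Fin 4 → F))) := by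
  set M := Cfsg.Lib.Sz.ovoidModel hm hF
  set e := Cfsg.Lib.Sz.ovoidEquiv hm hF
  have hinj : ∀ i j, e.symm (p i) = e.symm (p j) → i = j := fun i j h =>
    p.injective (e.symm.injective h)
  obtain ⟨g, h0, h1⟩ := M.exists_smul_inf_zero (p := e.symm (p 0)) (p' := e.symm (p 1))
    (fun h => absurd (hinj _ _ h) (by decide))
  obtain ⟨x, y, h2⟩ := M.exists_pt_of_ne (p := g⁻¹ • e.symm (p 2)) (fun h => by
    rw [inv_smul_eq_iff, h0] at h; exact absurd (hinj _ _ h) (by decide))
  have hxy : ¬ (x = 0 ∧ y = 0) := by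
    rintro ⟨rfl, rfl⟩
    rw [inv_smul_eq_iff, h1] at h2; exact absurd (hinj _ _ h2) (by decide)
  let c : Fin 3 → M.Pt := ![M.inf, M.pt 0 0, M.pt x y]
  have hc : ∀ i, e.symm (p i) = g • c i := by
    intro i
    fin_cases i
    · exact h0.symm
    · exact h1.symm
    · exact inv_smul_eq_iff.1 h2
  have h3 : (fun i => (p i : Projectivization F (Fin 4 → F))) = fun i =>
      Projectivization.mk F (g • M.pvec (c i)) ((smul_ne_zero_iff_ne g).2 (M.pvec_ne_zero _)) := by
    funext i
    rw [← e.apply_symm_apply (p i), hc, Cfsg.Lib.Sz.coe_ovoidEquiv,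
      ← Cfsg.Lib.Sz.ovoidModel_smul_proj hm hF]
    rfl
  rw [h3]
  refine Projectivization.Independent.mk _ _ ?_
  have h4 : LinearIndependent F fun i => M.pvec (c i) := by
    rw [Fintype.linearIndependent_iff]
    intro a ha
    simp only [Fin.sum_univ_three, c, Matrix.cons_val_zero, Matrix.cons_val_one, Matrix.cons_val,
      M.pvec_inf, M.pvec_pt] at ha
    have e0 := congrFun ha 0
    have e1 := congrFun ha 1
    have e2 := congrFun ha 2
    have e3 := congrFun ha 3
    simp at e0 e1 e2 e3
    have a2 : a 2 = 0 := by tauto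
    intro i
    fin_cases i
    · simpa [a2] using e0
    · simpa [a2] using e3
    · exact a2
  exact h4.map' (DistribMulAction.toLinearEquiv F (Fin 4 → F) g).toLinearMap (LinearEquiv.ker _)

end Cfsg.Agent.S0335
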