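import Cfsg.Statements.S0340
import Cfsg.Agent.Lib.Perm.Zass7
import Cfsg.Agent.S0347

set_option autoImplicit false
open Cfsg

namespace Cfsg.Agent.S0340

open Cfsg.Lib.Perm Subgroup in

/-- Classification of Zassenhaus groups, simple case, order-level form: a finite simple Zassenhaus group is
isomorphic to `PSL₂(F)` for some finite field `F` or is simple of Suzuki order. -/
theorem result {G Ω : Type*} [Group G] [Finite G] [MulAction G Ω]
    [Finite Ω] (hZ : Cfsg.IsZassenhausGroup G Ω) [IsSimpleGroup G] :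
    (∃ (F : Type) (_ : Field F) (_ : Fintype F), Nonempty (G ≃* Matrix.ProjectiveSpecialLinearGroup (Fin 2) F)) ∨ Cfsg.IsSuzuki G := by
  have h := ZT.of_zassenhaus hZ
  obtain ⟨a⟩ := h.nonempty
  obtain ⟨b, hb⟩ := h.exists_ne a
  refine (feit_zassenhaus hZ hb.symm).imp (fun e => ?_) fun ⟨h1, h2, _⟩ =>
    S0347.result hZ a _ (zker_le a) (h.normal_zker a) h1 ?_ fun y z hy hz => ?_
  · obtain ⟨K, _, _, hK⟩ := h.exists_field hb.symm e
    exact ⟨K, _, inferInstance, h.PSL_of_simple hb.symm e K hK⟩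
  · by_contra! e
    exact h2 (commutator_self_eq_bot_iff.2 ⟨⟨e⟩⟩)
  · obtain ⟨u, hu, e⟩ := h.exists_zker_smul hy hz
    exact ⟨⟨u, hu⟩, e, fun v hv => Subtype.ext (h.eq_of_zker_smul_eq v.2 hu hy (hv.trans e.symm))⟩

end Cfsg.Agent.S0340
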