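import Cfsg.Statements.S0341
import Cfsg.Agent.Lib.Perm.Zass3
import Cfsg.Agent.Lib.Perm.Affine
import Cfsg.Agent.Lib.Coprime.Lift

set_option autoImplicit false
open Cfsg

namespace Cfsg.Agent.S0341

open MulAction Subgroup Cfsg.Lib.Perm Cfsg.Lib

/-- If a finite group acts faithfully and doubly transitively, no non-identity element fixes three points, some
non-identity element fixes two points, and some normal subgroup acts regularly, then the number of points
is `2^p` with `p` prime. -/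
theorem result {G Ω : Type*} [Group G]
    [MulAction G Ω] [Fintype Ω] [FaithfulSMul G Ω] (h2 : MulAction.IsMultiplyPretransitive G Ω 2)
    (h3 : ∀ g : G, ∀ a b c : Ω, a ≠ b → b ≠ c → a ≠ c → g • a = a → g • b = b → g • c = c → g = 1)
    (hfix : ∃ g : G, g ≠ 1 ∧ ∃ a b : Ω, a ≠ b ∧ g • a = a ∧ g • b = b)
    (N : Subgroup G) [N.Normal] (hNt : MulAction.IsPretransitive N Ω)
    (hNr : ∀ a : Ω, MulAction.stabilizer N a = ⊥) :
    ∃ p : ℕ, p.Prime ∧ Fintype.card Ω = 2 ^ p := by
  classical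
  obtain ⟨g, hg1, a, b, hab, hga, hgb⟩ := hfix
  have hc3 : 3 ≤ Nat.card Ω := by
    obtain ⟨c, hc⟩ := exists_smul_ne (α := Ω) hg1
    have h1 : c ≠ a := by rintro rfl; exact hc hga
    have h2 : c ≠ b := by rintro rfl; exact hc hgb
    have := Finset.card_le_univ ({a, b, c} : Finset Ω)
    rwa [Finset.card_eq_three.2 ⟨a, b, c, hab, h1.symm, h2.symm, rfl⟩,
      ← Nat.card_eq_fintype_card] at this
  have h : ZT G Ω := ⟨two_iff.1 h2, h3, hc3⟩
  have := h.finite
  have := h.nonempty
  obtain ⟨hNc, r, hr, hNp⟩ := S0054.result h2 N hNt hNr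
  obtain ⟨n, hn, hnb⟩ := exists_regular_smul hNt a b
  have hn1 : n ≠ 1 := by rintro rfl; exact hab (by simpa using hnb)
  -- the centraliser in `N` of a non-trivial element of `G_{ab}`
  have hcent : ∀ k ∈ stab2 G a b, k ≠ 1 → ∀ m ∈ N, k * m = m * k → m = 1 ∨ m = n := by
    intro k hk hk1 m hm e
    exact (h.eq_or_eq hab hk hk1 ((smul_fix_iff hNr hk.1 hm).2 e)).imp
      (eq_one_of_regular hNr hm) fun e' => eq_of_smul_eq_of_regular hNr hm hn (e'.trans hnb.symm)
  have hcn : ∀ k ∈ stab2 G a b, k * n = n * k := fun k hk =>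
    (smul_fix_iff hNr hk.1 hn).1 (by rw [hnb]; exact hk.2)
  have hn2 : n⁻¹ = n := (hcent g ⟨hga, hgb⟩ hg1 _ (N.inv_mem hn)
    (Commute.inv_right (hcn g ⟨hga, hgb⟩))).resolve_left (by simpa using hn1)
  have hr2 : r = 2 := by
    have h1 : orderOf n = 2 := orderOf_eq_prime (by rw [sq]; exact mul_eq_one_iff_eq_inv.2 hn2.symm) hn1
    exact ((Nat.prime_dvd_prime_iff_eq Nat.prime_two hr).1
      (h1 ▸ orderOf_dvd_of_pow_eq_one (hNp n hn))).symm
  subst hr2
  have hcard := card_eq_of_regular hNt hNr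
  have hp2 : IsPGroup 2 N := fun x => ⟨1, Subtype.ext (by simpa using hNp x x.2)⟩
  obtain ⟨m, hm⟩ := IsPGroup.iff_card.1 hp2
  have hm0 : m ≠ 0 := by rintro rfl; omega
  have hev : Even (Nat.card Ω) := by rw [← hcard, hm]; exact (Nat.even_pow' hm0).2 even_two
  obtain ⟨p, hp, hpd⟩ := Nat.exists_prime_and_dvd
    (n := Nat.card (stab2 G a b)) fun e => hg1 (by
      have := card_eq_one.1 e ▸ (show g ∈ stab2 G a b from ⟨hga, hgb⟩)
      exact this)
  have := Fact.mk hp
  obtain ⟨t, ht, hto⟩ := Core.exists_mem_orderOf_eq_prime hp hpd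
  have ht1 : t ≠ 1 := by rintro rfl; exact hp.one_lt.ne (by simpa using hto)
  refine ⟨p, hp, ?_⟩
  rw [← Nat.card_eq_fintype_card]
  by_cases hp2 : p = 2
  · subst hp2
    have htt : t * t = 1 := by rw [← sq, ← hto, pow_orderOf_eq_one]
    have key : ∀ x, x ≠ a → x ≠ b → (n * t) • x = x := by
      intro x hxa hxb
      obtain ⟨u, hu, e⟩ := exists_regular_smul hNt x (t • x)
      have huu : u * u = 1 := by rw [← sq, hNp u hu]
      have e2 : (t * u * t⁻¹) • t • x = u • t • x := by
        rw [← mul_smul, inv_mul_cancel_right, mul_smul, e, ← mul_smul, htt, ← e, ← mul_smul, huu]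
      have e3 := eq_of_smul_eq_of_regular hNr (Normal.conj_mem inferInstance u hu t) hu e2
      rcases hcent t ht ht1 u hu (mul_inv_eq_iff_eq_mul.1 e3) with rfl | rfl
      · exact absurd (h.eq_or_eq hab ht ht1 (by simpa using e.symm)) (by tauto)
      · rw [mul_smul, ← e, ← mul_smul, huu, one_smul]
    by_contra hne
    have h5 : 5 ≤ Nat.card Ω := by
      obtain ⟨k, hk⟩ := hev
      omega
    obtain ⟨x, hx⟩ := exists_notMem_finset ({a, b} : Finset Ω)
      (lt_of_le_of_lt Finset.card_le_two (by omega))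
    obtain ⟨y, hy⟩ := exists_notMem_finset ({a, b, x} : Finset Ω)
      (lt_of_le_of_lt Finset.card_le_three (by omega))
    obtain ⟨z, hz⟩ := exists_notMem_finset ({a, b, x, y} : Finset Ω)
      (lt_of_le_of_lt Finset.card_le_four (by omega))
    simp only [Finset.mem_insert, Finset.mem_singleton, not_or] at hx hy hz
    have := h3 (n * t) x y z (Ne.symm hy.2.2) (Ne.symm hz.2.2.2) (Ne.symm hz.2.2.1)
      (key x hx.1 hx.2) (key y hy.1 hy.2.1) (key z hz.1 hz.2.1)
    exact hab (by rw [← hnb, ← show t • a = a from ht.1, ← mul_smul, this, one_smul]; exact ht.1)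
  have hR : zpowers t ≤ stab2 G a b := zpowers_le.2 ht
  have hRn := hR.trans (h.stab2_le_normalizer a b)
  have hodd : Odd (Nat.card (zker G a)) := by
    rw [← h.card_zker a] at hev
    exact Nat.not_even_iff_odd.1 (Nat.even_add_one.1 hev)
  have hcR : Nat.card (zpowers t) = p := by rw [Nat.card_zpowers, hto]
  have hcop : (Nat.card ↥(zker G a ⊔ zpowers t)).Coprime (Nat.card N) := by
    rw [hm]
    rw [sup_comm]
    refine Nat.Coprime.pow_right _ (Nat.Coprime.coprime_dvd_left (Core.card_sup_dvd hRn) ?_)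
    rw [hcR]
    exact ((hp.odd_of_ne_two hp2).mul hodd).coprime_two_right
  have key := Coprime.wielandt_fixpoint_frobenius hRn (fun k hk => h.fpf hab k (hR hk))
    (V := N) (by rw [normalizer_eq_top]; exact le_top) hcop (isSolvable_of_comm fun x y => hNc.is_comm.comm x y)
  have e1 : N ⊓ centralizer (zker G a : Set G) = ⊥ := by
    refine eq_bot_iff.2 fun u hu => ?_
    obtain ⟨v, hv, hv1⟩ := (bot_or_exists_ne_one _).resolve_left (h.zker_ne_bot a)
    exact eq_one_of_regular hNr hu.1 (h.eq_of_zker_fix hv hv1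
      ((smul_fix_iff hNr (zker_fix hv) hu.1).2 (hu.2 v hv)))
  have e2 : N ⊓ centralizer ((zker G a ⊔ zpowers t : Subgroup G) : Set G) = ⊥ :=
    eq_bot_iff.2 (e1 ▸ inf_le_inf_left _ (centralizer_le (SetLike.coe_subset_coe.2 le_sup_left)))
  have e3 : N ⊓ centralizer (zpowers t : Set G) = zpowers n := by
    refine le_antisymm (fun u hu => ?_) (zpowers_le.2 ⟨hn, fun k hk => hcn k (hR hk)⟩)
    rcases hcent t ht ht1 u hu.1 (hu.2 t (mem_zpowers t)) with rfl | rfl
    exacts [one_mem _, mem_zpowers _]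
  rw [e1, e2, e3, card_bot, one_pow, one_mul, mul_one, hcR, Nat.card_zpowers,
    orderOf_eq_prime (hNp n hn) hn1, hcard] at key
  exact key

end Cfsg.Agent.S0341
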