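import Cfsg.Statements.S0344
import Cfsg.Agent.Lib.Perm.Zass4

set_option autoImplicit false
open Cfsg

namespace Cfsg.Agent.S0344

/-- A finite simple Zassenhaus group with a two-point stabiliser of even order is isomorphic to `PSL₂(F)` for a finite
field `F` with more than three elements. -/
theorem result {G Ω : Type*} [Group G] [Finite G] [MulAction G Ω] [Finite Ω]
    (hZ : Cfsg.IsZassenhausGroup G Ω) [IsSimpleGroup G]
    {a b : Ω} (hab : a ≠ b) (heven : Even (Nat.card ↥(MulAction.stabilizer G a ⊓ MulAction.stabilizer G b))) :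
    ∃ (F : Type) (_ : Field F) (_ : Fintype F), 3 < Fintype.card F ∧ Nonempty (G ≃* Matrix.ProjectiveSpecialLinearGroup (Fin 2) F) := by
  have h := Lib.Perm.ZT.of_zassenhaus hZ
  have hd := h.card_of_simple_even hab heven
  obtain ⟨s, h4, h5⟩ := h.two a b b a hab hab.symm
  have hi := h.inverts_of_forall_swap (fun s => h.sq_swap_of_simple hab) h4 h5
  obtain ⟨u, hu, hu1⟩ := Lib.BG.exists_ne_one (h.zker_ne_bot a)
  obtain ⟨K, _, _, f, ψ, hc, -⟩ := h.exists_fieldCoord' hab le_rfl
    (Lib.Perm.isMulCommutative_of_inverted hi) (by omega) hu hu1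
  have := Lib.Perm.one_lt_card_stab2 hZ hab
  exact ⟨K, inferInstance, inferInstance, by rw [← Nat.card_eq_fintype_card, hc.card_eq]; omega,
    h.nonempty_equiv_PSL hab h4 h5 (h.sq_swap_of_simple hab h4 h5) hi hd K hc.card_eq⟩

end Cfsg.Agent.S0344
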