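import Cfsg.Statements.S0346
import Cfsg.Agent.Lib.Perm.Zass6

set_option autoImplicit false
open Cfsg

namespace Cfsg.Agent.S0346

open Cfsg.Lib.Perm Subgroup in

/-- The number of points of a finite simple Zassenhaus group is `p^k + 1` for some prime power `p^k` (the regular normal
subgroup of a point stabiliser is a `p`-group). -/
theorem result {G Ω : Type*} [Group G] [Finite G] [MulAction G Ω] [Fintype Ω]
    (hZ : Cfsg.IsZassenhausGroup G Ω) [IsSimpleGroup G] :
    IsPrimePow (Fintype.card Ω - 1) := by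
  have h := ZT.of_zassenhaus hZ
  obtain ⟨a⟩ := h.nonempty
  obtain ⟨b, hb⟩ := h.exists_ne a
  obtain ⟨p, hp, h1⟩ : ∃ p : ℕ, p.Prime ∧ IsPGroup p (zker G a) := by
    obtain e | e := feit_zassenhaus hZ hb.symm
    · obtain ⟨p, hp, e⟩ := h.elab_of_large hb.symm e
      exact ⟨p, hp, Lib.Core.isPGroup_of_isElementaryAbelian e⟩
    · exact ⟨2, Nat.prime_two, e.1⟩
  have := Fact.mk hp
  obtain ⟨k, hk⟩ := IsPGroup.iff_card.1 h1
  have := h.two_le_card_zker a
  rw [← Nat.card_eq_fintype_card, ← h.card_zker a, Nat.add_sub_cancel]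
  exact ⟨p, k, hp.prime, Nat.pos_of_ne_zero (by rintro rfl; rw [hk] at this; simp at this), hk.symm⟩

end Cfsg.Agent.S0346
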