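import Cfsg.Statements.S0371
import Cfsg.Agent.Lib.Golay.Img

set_option autoImplicit false
open Cfsg

namespace Cfsg.Agent.S0371

/-- Multiplication by a nonzero square residue modulo 23, fixing the extra point, lies in the group of the length-24 code. -/
theorem result (u : (ZMod 23)ˣ) (hu : IsSquare u) : Equiv.optionCongr (Units.mulLeft u) ∈ Cfsg.M24 := by
  exact Lib.Golay.mulSquare_mem u hu

end Cfsg.Agent.S0371
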