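import Cfsg.Statements.S0375
import Cfsg.Agent.Lib.Golay.UniqueCode

set_option autoImplicit false
open Cfsg

namespace Cfsg.Agent.S0375

/-- A doubly even self-dual binary code of length 24 with no words of weight 4 is equivalent to the length-24 code built from the squares modulo 23. -/
theorem result (C : Submodule (ZMod 2) (Fin 24 → ZMod 2)) (hdim : Module.finrank (ZMod 2) C = 12) (horth : ∀ v ∈ C, ∀ w ∈ C, ∑ i, v i * w i = 0) (h4 : ∀ w ∈ C, 4 ∣ hammingNorm w) (hno4 : ∀ w ∈ C, hammingNorm w ≠ 4) : ∃ e : Fin 24 ≃ Cfsg.GolayPt, ∀ w : Cfsg.GolayPt → ZMod 2, w ∈ Cfsg.golayCode ↔ (fun i => w (e i)) ∈ C := by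
  have hC := Lib.Golay.isGolaySys_supports (by simp) C hdim (fun w hw h0 => by
    have h1 := h4 w hw
    have h2 := hno4 w hw
    have h3 : hammingNorm w ≠ 0 := fun h => h0 (hammingNorm_eq_zero.1 h)
    omega)
  obtain ⟨e, he⟩ := hC.exists_equiv Lib.Golay.isGolaySys_CW
  refine ⟨e, fun w => ?_⟩
  have h1 : support₂ (fun i => w (e i)) = (support₂ w).image e.symm := by
    ext i
    simp only [Lib.Golay.mem_support₂, Finset.mem_image]
    constructor
    · intro h; exact ⟨e i, h, by simp⟩
    · rintro ⟨a, ha, rfl⟩; simpa using ha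
  have h2 := Lib.Golay.support₂_mem_supports (C := (C : Set (Fin 24 → ZMod 2)))
    (w := fun i => w (e i))
  have h3 := Lib.Golay.support₂_mem_supports (C := (golayCode : Set (GolayPt → ZMod 2))) (w := w)
  rw [h1, ← Lib.Golay.mem_imageSys, he] at h2
  exact h3.symm.trans h2

end Cfsg.Agent.S0375
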