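import Cfsg.Statements.S0384
import Cfsg.Agent.Lib.Mathieu.Aut2

set_option autoImplicit false
open scoped Pointwise
open Cfsg

namespace Cfsg.Agent.S0384

/-- A dodecad stabiliser is sharply 5-transitive on the dodecad. -/
theorem result (d : Finset Cfsg.GolayPt) (hd : d ∈ Cfsg.dodecads) (x y : Fin 5 ↪ Cfsg.GolayPt) (hx : ∀ i, x i ∈ d) (hy : ∀ i, y i ∈ d) : ∃! g : MulAction.stabilizer Cfsg.M24 d, ∀ i, ((g : Cfsg.M24) : Equiv.Perm Cfsg.GolayPt) (x i) = y i := by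
  obtain ⟨g, h1, h2⟩ := Lib.Mathieu.exists_map_m12 hd le_rfl x y hx hy x.2 y.2
  refine ⟨⟨g, h1⟩, h2, fun k hk => Subtype.ext ?_⟩
  have := Lib.Mathieu.eq_one_of_fix_five' hd (g := g⁻¹ * k) (mul_mem (inv_mem h1) k.2) x.2 hx fun i => by
    change (g : Equiv.Perm GolayPt)⁻¹ (((k : M24) : Equiv.Perm GolayPt) (x i)) = _
    rw [hk, ← h2, Equiv.Perm.inv_def, Equiv.symm_apply_apply]; rfl
  exact (inv_mul_eq_one.1 this).symm

end Cfsg.Agent.S0384
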