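import Cfsg.Statements.S0385
import Cfsg.Agent.Lib.Mathieu.Aut2

set_option autoImplicit false
open Cfsg

namespace Cfsg.Agent.S0385

/-- The 6-point intersections of octads with a fixed dodecad form a Steiner system S(5, 6, 12) on the dodecad. -/
theorem result (d : Finset Cfsg.GolayPt) (hd : d ∈ Cfsg.dodecads) : Cfsg.IsSteinerSystem 5 6 {h : Finset {p : Cfsg.GolayPt // p ∈ d} | ∃ o ∈ Cfsg.octads, (o ∩ d).card = 6 ∧ h = Finset.subtype (fun p => p ∈ d) o} := by
  convert (Lib.Mathieu.steinerOn_hexads hd).steiner using 1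
  ext h
  constructor
  · rintro ⟨o, h1, h2, rfl⟩
    change _ ∈ Lib.Mathieu.hexOn d
    rw [Finset.subtype_map, Finset.filter_mem_eq_inter]
    exact ⟨h2, o, h1, rfl⟩
  · rintro ⟨h1, o, h2, h3⟩
    refine ⟨o, h2, h3 ▸ h1, Finset.map_injective (Function.Embedding.subtype _) ?_⟩
    rw [Finset.subtype_map, Finset.filter_mem_eq_inter, h3]

end Cfsg.Agent.S0385
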