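import Cfsg.Statements.S0389
import Cfsg.Agent.Lib.Mathieu.Aut2

set_option autoImplicit false
open scoped Pointwise
open Cfsg

namespace Cfsg.Agent.S0389

/-- The stabiliser of a dodecad and a point on it is 3-transitive on the complementary dodecad. -/
theorem result (d : Finset Cfsg.GolayPt) (hd : d ∈ Cfsg.dodecads) (p : Cfsg.GolayPt) (hp : p ∈ d) (x y : Fin 3 ↪ Cfsg.GolayPt) (hx : ∀ i, x i ∉ d) (hy : ∀ i, y i ∉ d) : ∃ g ∈ MulAction.stabilizer Cfsg.M24 d ⊓ MulAction.stabilizer Cfsg.M24 p, ∀ i, (g : Equiv.Perm Cfsg.GolayPt) (x i) = y i := by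
  obtain ⟨a, rfl, -, h⟩ := Lib.Mathieu.cj11 hd hp
  have key : ∀ z : GolayPt, z ∉ (a : Equiv.Perm GolayPt) • Lib.Golay.G.toF 340831 →
      (a : Equiv.Perm GolayPt)⁻¹ z ∈ Lib.Golay.G.toF 16436384 := fun z hz => by
    rw [← Lib.Mathieu.sdiff_toF (a := 16777215) (b := 340831) (by decide +kernel), Lib.Golay.toF_full]
    exact Finset.mem_sdiff.2 ⟨Finset.mem_univ _, fun e => hz (Finset.inv_smul_mem_iff.1 e)⟩
  obtain ⟨g, h1, h2⟩ := Lib.Mathieu.exists_map_mask Lib.Mathieu.ch11c.w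
    (fun _ h => Lib.Mathieu.smul_toF_compl h.1 (by decide +kernel)) (by decide +kernel) _ _
    (fun i => key _ (hx i)) (fun i => key _ (hy i)) ((a : Equiv.Perm GolayPt)⁻¹.injective.comp x.2)
    ((a : Equiv.Perm GolayPt)⁻¹.injective.comp y.2)
  refine ⟨_, h.mem h1, fun i => ?_⟩
  change (a : Equiv.Perm GolayPt) ((g : Equiv.Perm GolayPt) ((a : Equiv.Perm GolayPt)⁻¹ (x i))) = _
  rw [h2, Equiv.Perm.inv_def, Equiv.apply_symm_apply]

end Cfsg.Agent.S0389
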