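import Cfsg.Statements.S0402
import Cfsg.Agent.Lib.Leech.Orders

set_option autoImplicit false
open Cfsg

namespace Cfsg.Agent.S0402

/-- Stabiliser of a minimal vector is simple of order 42305421312000. -/
theorem result (v : Cfsg.leechLattice) (hv : Cfsg.sqNorm (v : Cfsg.GolayPt → ℤ) = 32) : Cfsg.IsCo2 (MulAction.stabilizer Cfsg.Co0 v) := by
  obtain ⟨g, rfl⟩ := Cfsg.Lib.Leech.exists_smul_U hv
  rw [Cfsg.Lib.F2.stabilizer_smul]
  have := Cfsg.Lib.Leech.simple_co2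
  exact ⟨(Cfsg.Lib.F2.conjEquiv g _).symm.isSimpleGroup,
    (Nat.card_congr (Cfsg.Lib.F2.conjEquiv g _).toEquiv).symm.trans Cfsg.Lib.Leech.card_co2⟩

end Cfsg.Agent.S0402
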