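import Cfsg.Statements.S0404
import Cfsg.Agent.Lib.Leech.Orders

set_option autoImplicit false
open Cfsg

namespace Cfsg.Agent.S0404

/-- Joint stabiliser of two minimal vectors with coordinate dot product −8 is simple of order 898128000. -/
theorem result (v w : Cfsg.leechLattice) (hv : Cfsg.sqNorm (v : Cfsg.GolayPt → ℤ) = 32) (hw : Cfsg.sqNorm (w : Cfsg.GolayPt → ℤ) = 32) (hvw : Cfsg.dotInt (v : Cfsg.GolayPt → ℤ) (w : Cfsg.GolayPt → ℤ) = -8) : Cfsg.IsMcL ↥(MulAction.stabilizer Cfsg.Co0 v ⊓ MulAction.stabilizer Cfsg.Co0 w) := by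
  obtain ⟨g, rfl, rfl⟩ := Cfsg.Lib.Leech.exists_smul_UW hv hw hvw
  rw [Cfsg.Lib.F2.stabilizer_smul, Cfsg.Lib.F2.stabilizer_smul, ← Cfsg.Lib.F2.conj_smul_inf,
    Cfsg.Lib.Leech.stab_U_W]
  have := Cfsg.Lib.Leech.simple_mcl
  exact ⟨(Cfsg.Lib.F2.conjEquiv g _).symm.isSimpleGroup,
    (Nat.card_congr (Cfsg.Lib.F2.conjEquiv g _).toEquiv).symm.trans Cfsg.Lib.Leech.card_mcl⟩

end Cfsg.Agent.S0404
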