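import Cfsg.Statements.S0423
import Cfsg.Agent.Lib.J2.Basic

set_option autoImplicit false
open Cfsg

namespace Cfsg.Agent.S0423

open Cfsg.Lib.J2 Cfsg.Lib.F2

/-- Existence of a simple group of order 604800. -/
theorem result : ∃ G : Subgroup (Equiv.Perm (Fin 100)), Cfsg.IsJ2 G := by
  obtain ⟨P, e, -⟩ := exists_perm_of_core _ (normalCore_eq_bot (by rw [index_k]; norm_num)) index_k
  exact ⟨P, e.symm.isSimpleGroup, (Nat.card_congr e.toEquiv).symm.trans card_hj⟩

end Cfsg.Agent.S0423
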