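import Cfsg.Statements.S0425
import Cfsg.Agent.Lib.Mathieu.Aut2

set_option autoImplicit false
open Cfsg

namespace Cfsg.Agent.S0425

/-- Aut of an S(5, 6, 12) is simple of order 95040 and sharply 5-transitive on points. -/
theorem result {α : Type*} [Fintype α] [DecidableEq α] (hα : Fintype.card α = 12) {B : Set (Finset α)} (hB : Cfsg.IsSteinerSystem 5 6 B) : Cfsg.IsM12 (Cfsg.setSystemAut B) ∧ MulAction.IsMultiplyPretransitive (Cfsg.setSystemAut B) α 5 ∧ ∀ x : Fin 5 ↪ α, MulAction.stabilizer (Cfsg.setSystemAut B) x = ⊥ := by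
  have h := Lib.Mathieu.autEq12 hα hB
  exact ⟨⟨h.simple Lib.Mathieu.simple_m12, by rw [h.card, Lib.Mathieu.card_m12]⟩, h.trans fun x y a b hx hy =>
    Lib.Mathieu.exists_map_m12 Lib.Mathieu.dod0_mem le_rfl x y a b hx hy, h.sharp fun g hg x a b c =>
    Lib.Mathieu.eq_one_of_fix_five' Lib.Mathieu.dod0_mem hg b a c⟩

end Cfsg.Agent.S0425
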