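import Cfsg.Statements.S0426
import Cfsg.Agent.Lib.Mathieu.Aut2

set_option autoImplicit false
open Cfsg

namespace Cfsg.Agent.S0426

/-- Aut of an S(4, 5, 11) is simple of order 7920 and sharply 4-transitive on points. -/
theorem result {α : Type*} [Fintype α] [DecidableEq α] (hα : Fintype.card α = 11) {B : Set (Finset α)} (hB : Cfsg.IsSteinerSystem 4 5 B) : Cfsg.IsM11 (Cfsg.setSystemAut B) ∧ MulAction.IsMultiplyPretransitive (Cfsg.setSystemAut B) α 4 ∧ ∀ x : Fin 4 ↪ α, MulAction.stabilizer (Cfsg.setSystemAut B) x = ⊥ := by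
  have h := Lib.Mathieu.autEq11 hα hB
  refine ⟨⟨h.simple Lib.Mathieu.simple_m11, by rw [h.card, Lib.Mathieu.card_m11]⟩, h.trans fun x y a b hx hy =>
    Lib.Mathieu.exists_map_mask Lib.Mathieu.ch11.w (fun _ h => Lib.Mathieu.smul_sdiff_maskL [0] h.1
      (List.forall_mem_singleton.2 h.2) (by decide +kernel)) (by decide +kernel) x y a b hx hy,
    h.sharp fun g hg x a b c => ?_⟩
  rw [← Lib.Mathieu.sdiff_toF (a := 340831) (b := 2 ^ 0) (by decide +kernel),
    Lib.Golay.G.toF_two_pow (by decide)] at a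
  simp only [Finset.mem_sdiff, Finset.mem_singleton] at a
  refine Lib.Mathieu.eq_one_of_fix_five Lib.Mathieu.dod0_mem hg.1 (l := Lib.Golay.G.pt 0 :: List.ofFn x)
    (List.nodup_cons.2 ⟨?_, List.nodup_ofFn.2 b⟩) (by simp) (List.forall_mem_cons.2
      ⟨(Lib.Golay.G.pt_mem_toF (by decide)).2 (by decide), List.forall_mem_ofFn_iff.2 fun i => (a i).1⟩)
    (List.forall_mem_cons.2 ⟨hg.2, List.forall_mem_ofFn_iff.2 c⟩)
  rw [List.mem_ofFn]
  rintro ⟨i, hi⟩
  exact (a i).2 hi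

end Cfsg.Agent.S0426
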