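import Cfsg.Statements.S0429
import Cfsg.Agent.Lib.Srg.P77

set_option autoImplicit false
open Cfsg

namespace Cfsg.Agent.S0429

open Cfsg.Lib.Srg

/-- Uniqueness of the strongly regular graph with parameters (77, 16, 0, 4). -/
theorem result {V W : Type*} [Fintype V] [Fintype W] {G : SimpleGraph V} {H : SimpleGraph W} [DecidableRel G.Adj] [DecidableRel H.Adj] (hG : G.IsSRGWith 77 16 0 4) (hH : H.IsSRGWith 77 16 0 4) : Nonempty (G ≃g H) := by
  classical
  obtain ⟨a, B, b, ⟨e⟩⟩ := exists_steiner77 hG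
  obtain ⟨a', B', b', ⟨e'⟩⟩ := exists_steiner77 hH
  obtain ⟨f, hf⟩ := Agent.S0410.result a a' b b'
  refine ⟨e.symm.trans (RelIso.trans ⟨blkEquiv f hf, fun {b c} => ?_⟩ e')⟩
  rw [block_adj, block_adj, coe_blkEquiv, coe_blkEquiv, Finset.disjoint_image f.injective,
    (blkEquiv f hf).injective.ne_iff]

end Cfsg.Agent.S0429
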