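import Cfsg.Statements.S0430
import Cfsg.Agent.Lib.Srg.HS

set_option autoImplicit false
open Cfsg

namespace Cfsg.Agent.S0430

/-- Uniqueness of the strongly regular graph with parameters (100, 22, 0, 6). -/
theorem result {V W : Type*} [Fintype V] [Fintype W] {G : SimpleGraph V} {H : SimpleGraph W} [DecidableRel G.Adj] [DecidableRel H.Adj] (hG : G.IsSRGWith 100 22 0 6) (hH : H.IsSRGWith 100 22 0 6) : Nonempty (G ≃g H) := by
  obtain ⟨v⟩ := Fintype.card_pos_iff.1 (hG.card ▸ by norm_num : 0 < Fintype.card V)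
  obtain ⟨w⟩ := Fintype.card_pos_iff.1 (hH.card ▸ by norm_num : 0 < Fintype.card W)
  exact ((Lib.Srg.srg_iff.1 hG).unique100 (Lib.Srg.srg_iff.1 hH) v w).nonempty

end Cfsg.Agent.S0430
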