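import Cfsg.Statements.S0439
import Cfsg.Agent.Lib.ThreeTr.Basic

set_option autoImplicit false
open Cfsg

namespace Cfsg.Agent.S0439

/-- In the symmetric group of degree n ≥ 2, the set of transpositions is a conjugacy class of 3-transpositions which generates the group. -/
theorem result (n : ℕ) (hn : 2 ≤ n) : Cfsg.IsThreeTranspositionClass {σ : Equiv.Perm (Fin n) | σ.IsSwap} := by
  refine ⟨⟨fun d hd => ?_, fun d hd e he => ?_⟩, ?_, Equiv.Perm.closure_isSwap⟩
  · obtain ⟨x, y, hxy, rfl⟩ := hd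
    exact Cfsg.Lib.ThreeTr.orderOf_two_of_sq (Equiv.swap_mul_self x y)
      (fun h => hxy (Equiv.swap_eq_one_iff.1 h))
  · obtain ⟨x, y, hxy, rfl⟩ := hd
    obtain ⟨z, w, hzw, rfl⟩ := he
    have sq := fun a b : Fin n => Equiv.swap_mul_self a b
    have key : ∀ a b c : Fin n, a ≠ b → a ≠ c →
        (Equiv.swap a b * Equiv.swap a c) ^ 2 = 1 ∨ (Equiv.swap a b * Equiv.swap a c) ^ 3 = 1 := by
      intro a b c hab hac
      by_cases hbc : b = c
      · left; rw [hbc, sq, one_pow]
      right
      rw [← Cfsg.Lib.ThreeTr.braid_iff_mul_cube (sq _ _) (sq _ _)]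
      have e1 := Equiv.swap_mul_swap_mul_swap (x := c) (y := a) (z := b) hac.symm (Ne.symm hbc)
      have e2 := Equiv.swap_mul_swap_mul_swap (x := b) (y := a) (z := c) hab.symm hbc
      rw [Equiv.swap_comm c a] at e1
      rw [Equiv.swap_comm b a] at e2
      rw [e1, e2, Equiv.swap_comm]
    by_cases h1 : x = z
    · subst h1; exact key x y w hxy hzw
    by_cases h2 : x = w
    · subst h2; rw [Equiv.swap_comm z x]; exact key x y z hxy h1
    by_cases h3 : y = z
    · subst h3; rw [Equiv.swap_comm x y]; exact key y x w (Ne.symm hxy) hzw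
    by_cases h4 : y = w
    · subst h4; rw [Equiv.swap_comm x y, Equiv.swap_comm z y]; exact key y x z (Ne.symm hxy) h3
    left
    rw [← Cfsg.Lib.ThreeTr.commute_iff_mul_sq (sq _ _) (sq _ _)]
    refine Equiv.Perm.Disjoint.commute fun t => ?_
    by_cases ht : t = x ∨ t = y
    · right
      apply Equiv.swap_apply_of_ne_of_ne <;> rcases ht with rfl | rfl <;> assumption
    · left
      push Not at ht
      exact Equiv.swap_apply_of_ne_of_ne ht.1 ht.2
  · let a : Fin n := ⟨0, by omega⟩
    let b : Fin n := ⟨1, by omega⟩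
    have hab : a ≠ b := by simp [a, b]
    refine ⟨Equiv.swap a b, ⟨a, b, hab, rfl⟩, ?_⟩
    ext σ
    constructor
    · rintro ⟨x, y, hxy, rfl⟩
      exact Equiv.Perm.isConj_swap hab hxy
    · intro h
      obtain ⟨g, rfl⟩ := isConj_iff.1 h
      exact ⟨g a, g b, g.injective.ne hab, (Equiv.swap_apply_apply g a b).symm⟩

end Cfsg.Agent.S0439
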