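import Cfsg.Statements.S0440
import Cfsg.Agent.Lib.Symp.Inv2

set_option autoImplicit false
open Cfsg

namespace Cfsg.Agent.S0440

open Cfsg.Lib Cfsg.Lib.Symp Matrix

/-- In the symplectic group in dimension 2n ≥ 2 over the field with two elements, the elements g for which g - 1 has rank one (the symplectic transvections) form a conjugacy class of 3-transpositions generating the group. -/
theorem result (n : ℕ) (hn : 1 ≤ n) : Cfsg.IsThreeTranspositionClass {g : Matrix.symplecticGroup (Fin n) (ZMod 2) | ((g : Matrix (Fin n ⊕ Fin n) (Fin n ⊕ Fin n) (ZMod 2)) - 1).rank = 1} := by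
  have h01 : ∀ a : ZMod 2, a = 0 ∨ a = 1 := by decide
  have hB := bil_nondegenerate (Fin n) (ZMod 2)
  have hA := bil_isAlt (Fin n) (ZMod 2)
  have hv : ∀ (v : Fin n ⊕ Fin n → ZMod 2) x, (tvSp v 1).1 *ᵥ x = x + bil _ _ x v • v := fun v x => by
    simp [tvMat_mulVec]
  have hD : ∀ g : symplecticGroup (Fin n) (ZMod 2), (g.1 - 1).rank = 1 ↔ ∃ v ≠ 0, g = tvSp v 1 := fun g => by
    rw [rank_sub_one]
    refine ⟨fun h => ?_, ?_⟩
    · obtain ⟨⟨v, x, hx⟩, h0, h1⟩ := finrank_eq_one_iff'.1 h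
      have h0 : v ≠ 0 := fun e => h0 (Subtype.ext e)
      have h3 : g.1 *ᵥ x = x + v := by simpa [sub_eq_iff_eq_add'] using hx
      have h2 : ∀ y, ∃ c : ZMod 2, g.1 *ᵥ y = y + c • v ∧ bil _ _ y v = c * bil _ _ x v := fun y =>
        (h1 ⟨_, y, rfl⟩).imp fun c hc => by
          have h4 : g.1 *ᵥ y = y + c • v := by
            simpa [eq_sub_iff_add_eq, eq_comm, add_comm] using congrArg Subtype.val hc
          have := bil_mulVec g y x
          simp only [h3, h4, map_add, map_smul, LinearMap.add_apply, LinearMap.smul_apply,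
            hA.self_eq_zero, ← hA.neg_eq x v, smul_eq_mul] at this
          exact ⟨h4, by linear_combination this⟩
      refine ⟨v, h0, Subtype.ext (ext_of_mulVec_single fun i => ?_)⟩
      obtain ⟨c, h4, h5⟩ := h2 (Pi.single i 1)
      rw [hv, h4, h5, (h01 (bil _ _ x v)).resolve_left fun h => h0 (hB.2 v fun y => by
        obtain ⟨c, -, h5⟩ := h2 y; rw [h5, h, mul_zero]), mul_one]
    · rintro ⟨v, h0, rfl⟩
      rw [← finrank_span_singleton (K := ZMod 2) h0, le_antisymm (a := LinearMap.range _) (b := ZMod 2 ∙ v) ?_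
        ((Submodule.span_singleton_le_iff_mem _ _).2 ?_)]
      · rintro _ ⟨x, rfl⟩
        simp [-coe_tvSp, hv, Submodule.smul_mem]
      · obtain ⟨x, hx⟩ := exists_bilin_eq_one hB h0
        exact ⟨x, by simp [-coe_tvSp, hv, hx]⟩
  have h2 : ∀ v : Fin n ⊕ Fin n → ZMod 2, tvSp v 1 * tvSp v 1 = 1 := fun v => by
    rw [tvSp_mul]; exact tvSp_zero_right v
  simp only [hD]
  refine ⟨⟨?_, ?_⟩, ⟨tvSp (Pi.single (.inl ⟨0, hn⟩) 1) 1, ⟨_, by simp, rfl⟩, Set.ext fun g => ⟨?_, ?_⟩⟩,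
    eq_top_of_tvSp_mem _ fun v c => ?_⟩
  · rintro _ ⟨v, h0, rfl⟩
    refine orderOf_eq_prime (by rw [pow_two, h2]) fun h => ?_
    obtain ⟨x, hx⟩ := exists_bilin_eq_one hB h0
    simpa [h, hx, h0] using hv v x
  · rintro _ ⟨v, -, rfl⟩ _ ⟨w, -, rfl⟩
    have h3 := conj_tvSp (tvSp v 1) w 1
    have h4 := conj_tvSp (tvSp w 1) v 1
    rw [hv, inv_eq_of_mul_eq_one_left (h2 _)] at h3 h4
    rcases h01 (bil _ _ w v) with h | h
    · rw [h, zero_smul, add_zero] at h3
      exact .inl (by rw [pow_two, ← mul_assoc, h3, h2])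
    · rw [← hA.neg_eq, h, show (-1 : ZMod 2) = 1 from rfl, one_smul, add_comm] at h4
      rw [h, one_smul, ← h4] at h3
      exact .inr (by
        rw [pow_three', ← mul_assoc, ← mul_assoc, h3, mul_assoc _ (tvSp w 1) (tvSp w 1), h2, mul_one,
          mul_assoc _ (tvSp v 1) (tvSp v 1), h2, mul_one, h2])
  · rintro ⟨v, h0, rfl⟩
    obtain ⟨A, hA⟩ := exists_sp_of_ne_zero (x := Pi.single (.inl ⟨0, hn⟩) 1) (by simp) h0
    exact isConj_iff.2 ⟨A, by rw [conj_tvSp, hA]⟩
  · intro h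
    obtain ⟨A, rfl⟩ := isConj_iff.1 h
    exact ⟨_, fun h => by simpa [h] using (inv_mulVec_mulVec A (Pi.single (.inl ⟨0, hn⟩) 1)).symm, conj_tvSp _ _ _⟩
  · rcases h01 c with rfl | rfl
    · simp
    · by_cases h : v = 0
      · simp [h]
      · exact Subgroup.subset_closure ⟨v, h, rfl⟩

end Cfsg.Agent.S0440
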