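import Cfsg.Statements.S0442
import Cfsg.Agent.Lib.ThreeTr.Basic

set_option autoImplicit false
open Cfsg

namespace Cfsg.Agent.S0442

/-- A standard trick for producing elements of an involution centraliser: for an involution a and an element g, let b be the conjugate g⁻¹ * a * g. If a * b has odd order 2m + 1 then g * (a * b) ^ m commutes with a; if a * b has even order 2m then (a * b) ^ m and (a * (g * a * g⁻¹)) ^ m commute with a. -/
theorem result {G : Type*} [Group G] (a g : G) (ha : orderOf a = 2) : (∀ m : ℕ, orderOf (a * (g⁻¹ * a * g)) = 2 * m + 1 → Commute (g * (a * (g⁻¹ * a * g)) ^ m) a) ∧ (∀ m : ℕ, orderOf (a * (g⁻¹ * a * g)) = 2 * m → Commute ((a * (g⁻¹ * a * g)) ^ m) a ∧ Commute ((a * (g * a * g⁻¹)) ^ m) a) := by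
  have hsq : a * a = 1 := Cfsg.Lib.ThreeTr.mul_self_of_orderOf_two ha
  have hinv : ∀ b : G, b * b = 1 → ∀ m : ℕ, a * (a * b) ^ m = ((a * b) ^ m)⁻¹ * a := by
    intro b hb m
    have h1 : a * (a * b) * a⁻¹ = (a * b)⁻¹ := by
      rw [mul_inv_rev, Cfsg.Lib.ThreeTr.inv_eq_of_sq hsq, Cfsg.Lib.ThreeTr.inv_eq_of_sq hb,
        ← mul_assoc, hsq, one_mul]
    rw [← inv_pow, ← h1, conj_pow, inv_mul_cancel_right]
  have hconj : ∀ g : G, (g⁻¹ * a * g) * (g⁻¹ * a * g) = 1 := by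
    intro g
    calc (g⁻¹ * a * g) * (g⁻¹ * a * g) = g⁻¹ * (a * a) * g := by group
      _ = 1 := by rw [hsq]; group
  have heven : ∀ g : G, ∀ m : ℕ, (a * (g⁻¹ * a * g)) ^ (2 * m) = 1 →
      Commute ((a * (g⁻¹ * a * g)) ^ m) a := by
    intro g m h
    have h2 := hinv _ (hconj g) m
    rw [two_mul, pow_add, mul_eq_one_iff_inv_eq] at h
    rw [h] at h2
    exact h2.symm
  refine ⟨fun m hm => ?_, fun m hm => ⟨heven g m (by rw [← hm, pow_orderOf_eq_one]), ?_⟩⟩
  · set b := g⁻¹ * a * g with hb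
    have h1 : (a * b) ^ (2 * m + 1) = 1 := by rw [← hm, pow_orderOf_eq_one]
    have h2 := hinv b (hconj g) m
    have h3 : a * g = g * b := by rw [hb]; group
    have h4 : b = a * (a * b) := by rw [← mul_assoc, hsq, one_mul]
    have h5 := hinv b (hconj g) (m + 1)
    have h6 : ((a * b) ^ (m + 1))⁻¹ = (a * b) ^ m := by
      rw [inv_eq_iff_mul_eq_one, ← pow_add, ← h1]; congr 1; ring
    show g * (a * b) ^ m * a = a * (g * (a * b) ^ m)
    calc g * (a * b) ^ m * a = g * (a * (a * b) ^ (m + 1)) := by rw [h5, h6, mul_assoc]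
      _ = g * (a * (a * b)) * (a * b) ^ m := by rw [pow_succ']; simp only [mul_assoc]
      _ = a * (g * (a * b) ^ m) := by rw [← h4, ← h3, mul_assoc]
  · have h1 : (a * (g⁻¹ * a * g)) ^ (2 * m) = 1 := by rw [← hm, pow_orderOf_eq_one]
    have h2 := heven g⁻¹ m
    rw [inv_inv] at h2
    apply h2
    have h3 : a * (g * a * g⁻¹) = g * (a * (g⁻¹ * a * g))⁻¹ * g⁻¹ := by
      rw [mul_inv_rev, Cfsg.Lib.ThreeTr.inv_eq_of_sq hsq, Cfsg.Lib.ThreeTr.inv_eq_of_sq (hconj g)]
      group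
    rw [h3, conj_pow, inv_pow, h1]
    simp

end Cfsg.Agent.S0442
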