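import Cfsg.Statements.S0458
import Cfsg.Agent.Lib.J3.More

set_option autoImplicit false
open Cfsg

namespace Cfsg.Agent.S0458

/-- Janko's third group exists as a transitive permutation group of degree 6156 with point stabiliser of order 8160: a simple group of order 50232960. -/
theorem result : ∃ H : Subgroup (Equiv.Perm (Fin 6156)), Cfsg.IsJ3 H ∧ MulAction.IsPretransitive H (Fin 6156) ∧ Nat.card (MulAction.stabilizer H (0 : Fin 6156)) = 8160 := by
  letI := Fintype.ofFinite (GaloisField 2 2)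
  obtain ⟨ω, hω⟩ := Lib.J3.exists_isF4 Lib.J3.card_gf4
  have h := Lib.F2.IsF4.of_card Lib.J3.card_gf4 hω
  haveI := Lib.J3.simple_J3 h
  obtain ⟨K, hK⟩ := Lib.J3.exists_index_6156 h
  obtain ⟨P, e, h1, h2⟩ := Lib.F2.exists_perm_of_core K (Lib.F2.normalCore_eq_bot (by rw [hK]; norm_num)) hK
  refine ⟨P, ⟨e.symm.isSimpleGroup, by rw [← Nat.card_congr e.toEquiv, Lib.J3.card_J3 h]⟩, h1, ?_⟩
  have h3 := K.index_mul_card
  rw [hK, Lib.J3.card_J3 h] at h3
  rw [h2, Subgroup.card_map_of_injective e.injective]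
  omega

end Cfsg.Agent.S0458
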