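import Cfsg.Statements.S0459
import Cfsg.Agent.Lib.Ru.Basic

set_option autoImplicit false
open Cfsg

namespace Cfsg.Agent.S0459

/-- The Rudvalis group exists as a transitive permutation group of degree 4060: simple of order 145926144000, with point stabiliser of order 35942400 containing a simple subgroup of order 17971200 (the order of the Tits group). -/
theorem result : ∃ H : Subgroup (Equiv.Perm (Fin 4060)), Cfsg.IsRu H ∧ MulAction.IsPretransitive H (Fin 4060) ∧ Nat.card (MulAction.stabilizer H (0 : Fin 4060)) = 35942400 ∧ ∃ T : Subgroup (MulAction.stabilizer H (0 : Fin 4060)), Cfsg.IsTits T := by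
  have h := Lib.Ru.model
  haveI := h.simple
  haveI := h.simple_T
  have h0 := h.card_stab h.good_s
  rw [top_inf_eq] at h0
  have hK : (h.st 1).index = 4060 := by
    have := (h.st 1).index_mul_card
    rw [h0, h.card] at this
    omega
  obtain ⟨P, e, h1, h2⟩ := Lib.F2.exists_perm_of_core _ (Lib.F2.normalCore_eq_bot (by rw [hK]; norm_num)) hK
  refine ⟨P, ⟨e.symm.isSimpleGroup, by rw [← Nat.card_congr e.toEquiv, h.card]⟩, h1, ?_, ?_⟩
  · rw [h2, Subgroup.card_map_of_injective e.injective, h0]
  · rw [h2]
    have f := (e.subgroupMap h.T).trans (Subgroup.subgroupOfEquivOfLe (Subgroup.map_mono (f := (e : _ →* P)) h.T_le)).symm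
    exact ⟨_, f.symm.isSimpleGroup, by rw [← Nat.card_congr f.toEquiv, h.card_T.1]⟩

end Cfsg.Agent.S0459
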