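import Cfsg.Statements.S0460
import Cfsg.Agent.Lib.Calc.ONSub
import Cfsg.Agent.Lib.Calc.Range
-- import your own Cfsg.Agent.* helpers here

set_option autoImplicit false
open Cfsg Cfsg.Lib.Calc

namespace Cfsg.Agent.S0460

/-- The O'Nan group exists as a transitive permutation group of degree 122760: simple of order 460815505920, point stabiliser of order 3753792, and containing simple subgroups of orders 175560 and 7920. -/
theorem result : ∃ H : Subgroup (Equiv.Perm (Fin 122760)), Cfsg.IsON H ∧ MulAction.IsPretransitive H (Fin 122760) ∧ Nat.card (MulAction.stabilizer H (0 : Fin 122760)) = 3753792 ∧ (∃ K : Subgroup H, Cfsg.IsJ1 K) ∧ (∃ K : Subgroup H, Cfsg.IsM11 K) := by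
  let _ := ON.act
  have e := MonoidHom.ofInjective ON.rho_injective
  have := ON.simple
  obtain ⟨J, hJ, cJ⟩ := ON.exists_J1
  obtain ⟨M, hM, cM⟩ := ON.exists_M11
  exact ⟨ON.rho.range, ⟨e.symm.isSimpleGroup, (Nat.card_congr e.toEquiv).symm.trans ON.card⟩,
    isPretransitive_range (x := finPt 122760 0) ((ON.stab ▸ ON.index_stab).trans (Nat.card_fin _).symm),
    (Nat.card_congr (stabRange ON.rho_injective (finPt 122760 0)).toEquiv).symm.trans (ON.stab ▸ ON.card_stab),
    ⟨_, (e.subgroupMap J).symm.isSimpleGroup, (Nat.card_congr (e.subgroupMap J).toEquiv).symm.trans cJ⟩,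
    _, (e.subgroupMap M).symm.isSimpleGroup, (Nat.card_congr (e.subgroupMap M).toEquiv).symm.trans cM⟩

end Cfsg.Agent.S0460
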