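import Cfsg.Statements.S0462
import Cfsg.Agent.Lib.Calc.HeSp4
import Cfsg.Agent.Lib.Calc.Range
-- import your own Cfsg.Agent.* helpers here

set_option autoImplicit false
open Cfsg Cfsg.Lib.Calc

namespace Cfsg.Agent.S0462

/-- The Held group exists as a transitive permutation group of degree 2058: simple of order 4030387200, with point stabiliser containing, with index 2, a copy of the 4-dimensional symplectic group over the field with four elements. -/
theorem result : ∃ H : Subgroup (Equiv.Perm (Fin 2058)), Cfsg.IsHe H ∧ MulAction.IsPretransitive H (Fin 2058) ∧ ∃ (F : Type) (_ : Field F) (_ : Fintype F), Fintype.card F = 4 ∧ ∃ N : Subgroup (MulAction.stabilizer H (0 : Fin 2058)), N.index = 2 ∧ Nonempty (N ≃* Matrix.symplecticGroup (Fin 2) F) := by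
  let _ := He.act
  have e := MonoidHom.ofInjective He.rho_injective
  have := He.simple
  obtain ⟨K, _, _, hK, N, h1, ⟨f⟩⟩ := He.Sp.exists_sub
  have s := stabRange He.rho_injective (finPt 2058 0)
  exact ⟨He.rho.range, ⟨e.symm.isSimpleGroup, (Nat.card_congr e.toEquiv).symm.trans He.card⟩,
    isPretransitive_range (x := finPt 2058 0) ((He.stab ▸ He.index_stab).trans (Nat.card_fin _).symm), K, _, _, hK,
    N.map s.toMonoidHom, (Subgroup.index_map_of_bijective s.bijective N).trans h1, ⟨(s.subgroupMap N).symm.trans f⟩⟩

end Cfsg.Agent.S0462
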