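import Cfsg.Statements.S0464
import Cfsg.Agent.Lib.Th.MLow

set_option autoImplicit false
open Cfsg

namespace Cfsg.Agent.S0464

open Cfsg.Lib.Th

theorem aux {G Γ : Type*} [Group G] [Group Γ] {ι : G →* Γ} (h : Function.Injective ι) {L : Subgroup G}
    (h1 : IsSimpleGroup L) (h2 : Nat.card L = 211341312) : Is3D4 (L.map ι) :=
  have e := L.equivMapOfInjective ι h
  ⟨e.symm.isSimpleGroup, 2, Nat.prime_two.isPrimePow, ((Nat.card_congr e.toEquiv).symm.trans h2).trans (by norm_num)⟩

/-- The Thompson group exists as a group of 248 × 248 matrices over the field with three elements: a simple subgroup of GL(248, 3) of order 90745943887872000, possessing a subgroup of index 143127000 which contains a simple subgroup of the order of a triality-twisted D4 group. -/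
theorem result : ∃ H : Subgroup (GL (Fin 248) (ZMod 3)), Cfsg.IsTh H ∧ ∃ K : Subgroup H, K.index = 143127000 ∧ ∃ L : Subgroup H, L ≤ K ∧ Cfsg.Is3D4 L := by
  obtain ⟨ι, h⟩ := solM
  exact ⟨GM, isTh_GM, ι.range, (h.exact dvdM).1, LL.map ι, LL.map_le_range ι, aux h.inj simpleL cardL⟩

end Cfsg.Agent.S0464
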