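import Cfsg.Statements.S0465
import Cfsg.Agent.Lib.Mon.Baby
import Cfsg.Agent.Lib.Mon.Pair
import Cfsg.Agent.Lib.Mon.Red

set_option autoImplicit false
open Cfsg

namespace Cfsg.Agent.S0465

open Lib.Griess Lib.Leech Subgroup MulAction Matrix Module

/-- the `1/4`-eigenspace of an axis -/
noncomputable abbrev W (r : Q) : Submodule ℝ V := End.eigenspace (S (ax r)) (-1)

variable {r : Q} (h : Short r)
include h

theorem fix {v : V} (hv : v ∈ W r) : qV r • v = v := by
  have h1 : qV r • (v - qV r • v) = -(v - qV r • v) := by rw [smul_sub, h.ax.smul_smul, neg_sub]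
  have h2 : S (ax r) (v - qV r • v) = -(v - qV r • v) := by
    rw [map_sub, ← h.ax.fix, ← smul_S, h.ax.fix, End.mem_eigenspace_iff.1 hv]
    simp only [aut_smul_def, map_smul]; module
  rw [S_apply, h.ax.mu_neg h1, map_sub, ← h.ax.B_t, h.ax.fix, sub_self] at h2
  linear_combination (norm := (simp only [aut_smul_def]; module)) (-4 / 7 : ℝ) • h2

theorem card_T : Nat.card ((QuotientGroup.mk (s := closure {zQ, r})) '' {y | Short y ∧ (Pm y * Pm r).trace = 4}) =
    2300 := by
  have h1 := fun u => Lib.ES.mem_closure_pair_iff zQ_mul_self h.mul_self (zQ_comm r) (u := u)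
  have h2 : Nat.card (closure {zQ, r}) = 4 := by
    have a : r ≠ 1 := fun e => h.piQ_ne (e ▸ piQ_one)
    have b : zQ ≠ r := fun e => h.piQ_ne (e ▸ piQ_zQ)
    rw [← SetLike.coe_sort_coe, Nat.card_coe_set_eq, show (closure {zQ, r} : Set Q) = {1, zQ, r, zQ * r} from
      Set.ext fun x => by simp [h1], Set.ncard_eq_four]
    exact ⟨_, _, _, _, zQ_ne_one.symm, a.symm, fun e => b (mul_left_cancel (zQ_mul_self.trans e)), b, by simpa,
      (zQ_mul_ne r).symm, rfl⟩
  have h3 := QuotientGroup.card_preimage_mk (closure {zQ, r})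
    (QuotientGroup.mk '' {y | Short y ∧ (Pm y * Pm r).trace = 4})
  rw [h2, Set.Subset.antisymm (a := _ ⁻¹' _) ?_ (Set.subset_preimage_image _ _), Nat.card_coe_set_eq,
    ncard_four h] at h3
  · omega
  rintro x ⟨y, ⟨y1, y2⟩, e⟩
  obtain ⟨a, b, c⟩ := twoA_ax h y1 ((ip_four_iff h y1).2 y2)
  have d : (Pm (r * y) * Pm r).trace = 4 := by
    rw [← ip_four_iff h a, ← b, ← B_apply, ← B_S, h.ax.S_self, c.ip]
  have f : y * r = r * y := qV_injective (by rw [map_mul, map_mul, c.comm])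
  rw [← mul_inv_cancel_left y x]
  rcases (h1 _).1 (QuotientGroup.eq.1 e) with e | e | e | e <;> rw [e]
  · exact ⟨by rwa [mul_one], by rwa [mul_one]⟩
  · rw [← zQ_comm]; exact ⟨by simpa, by simpa⟩
  · rw [f]; exact ⟨a, d⟩
  · rw [← mul_assoc, ← zQ_comm, mul_assoc, f]; exact ⟨by simpa, by simpa⟩

theorem finrank_W : finrank ℝ (W r) ≤ 2 * 2185 + 1 := by
  obtain ⟨u, hu, e⟩ := id h
  have h1 : rv u ⬝ᵥ rv u = 32 := by rw [rv_dot_self, hu]; norm_num
  have h2 : ∀ {m : Type} {M : Matrix m Pt ℝ}, M *ᵥ rv u = 0 → M * Rf r = M := fun e' => by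
    rw [Rf, Matrix.mul_sub, Pm_rv hu e, Matrix.mul_smul, Matrix.mul_smul, mul_vecMulVec, e']; simp
  have h3 : Rf r *ᵥ rv u = -rv u := by
    rw [Rf, Pm_rv hu e, sub_mulVec, one_mulVec, smul_mulVec, smul_mulVec, vecMulVec_mulVec, h1]
    funext i; simp; ring
  have h4 : ∀ v : W r, Rf r * v.1.1.1 * Rf r = -v.1.1.1 ∧ (∀ y, v.1.1.2.1 (phi r y) = -v.1.1.2.1 y) ∧
      v.1.1.2.2 * Rf r = -v.1.1.2.2 := fun v => by
    have := congrArg Subtype.val ((S_ax h (fix h v.2)).symm.trans (End.mem_eigenspace_iff.1 v.2))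
    rw [coe_sig, neg_one_smul] at this
    exact ⟨congr(($this).1), fun y => congr(($this).2.1 y), congr(($this).2.2)⟩
  let U1 := LinearMap.ker (dotProductBilin ℝ ℝ (rv u))
  let T := (QuotientGroup.mk (s := closure {zQ, r})) '' {y | Short y ∧ (Pm y * Pm r).trace = 4}
  let U3 := End.eigenspace (toLin' (rhoM r)) 1
  let f : W r →ₗ[ℝ] U1 × (T → ℝ) × U3 :=
    { toFun := fun v => (⟨v.1.1.1 *ᵥ rv u, by
        have := congrArg (rv u ⬝ᵥ · *ᵥ rv u) (h4 v).1
        simp only [← mulVec_mulVec, dotProduct_mulVec (rv u) (Rf r), ← mulVec_transpose, Rf_transpose, h3, neg_mulVec,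
          mulVec_neg, dotProduct_neg, neg_dotProduct, neg_neg] at this
        exact self_eq_neg.1 this⟩, fun c => v.1.1.2.1 c.1.out, ⟨v.1.1.2.2 *ᵥ rv u, by
          rw [End.mem_eigenspace_iff, toLin'_apply, mulVec_mulVec, (fix_iff.1 (fix h v.2)).2, one_smul]⟩)
      map_add' := fun v w => by ext <;> simp [add_mulVec]
      map_smul' := fun c v => by ext <;> simp [smul_mulVec] }
  have h5 : Function.Injective f := (injective_iff_map_eq_zero _).2 fun v hv => by
    obtain ⟨a, b, c⟩ := h4 v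
    have a1 := h2 (congr(($hv).1.1))
    refine Subtype.ext (Subtype.ext (Prod.ext ?_ (Prod.ext (funext fun y => by_contra fun d => ?_) ?_)))
    · rw [Matrix.mul_assoc, a1, ← v.1.2.1, ← Rf_transpose, ← transpose_mul, a1] at a
      rw [v.1.2.1] at a
      exact Matrix.ext fun i j => self_eq_neg.1 congr($a i j)
    · obtain ⟨y1, y2, y3, y4⟩ := (phi_cases h y).resolve_left fun e => d (self_eq_neg.1 (by simpa only [e.2] using b y))
      obtain ⟨k, hk⟩ := QuotientGroup.mk_out_eq_mul (closure {zQ, r}) y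
      have : v.1.1.2.1 (y * k) = 0 := hk ▸ congr(($hv).2.1 ⟨y, y, ⟨y1, y3⟩, rfl⟩)
      rcases (Lib.ES.mem_closure_pair_iff zQ_mul_self h.mul_self (zQ_comm r)).1 k.2 with e | e | e | e <;>
        rw [e] at this
      · exact d (by rwa [mul_one] at this)
      · exact d (by rwa [← zQ_comm, v.1.2.2.1, neg_eq_zero] at this)
      · exact d (by rwa [← comm_of_pr y2, ← y4, b, neg_eq_zero] at this)
      · exact d (by rwa [← mul_assoc, ← zQ_comm, mul_assoc, v.1.2.2.1, ← comm_of_pr y2, ← y4, b, neg_neg] at this)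
    · rw [h2 (congr(($hv).2.2.1))] at c
      exact Matrix.ext fun i j => self_eq_neg.1 congr($c i j)
  have h6 : finrank ℝ U1 = 23 := by
    have := (dotProductBilin ℝ ℝ (rv u)).finrank_range_add_finrank_ker
    rw [LinearMap.range_eq_top.2 fun t => ⟨(t / 32) • rv u, by simp [h1]⟩, finrank_top, finrank_self,
      finrank_fintype_fun_eq_card, show Fintype.card Pt = 24 from rfl] at this
    exact Nat.add_left_cancel this
  have h7 : finrank ℝ U3 = 2048 := by
    have := LinearMap.IsProj.trace (p := U3) (f := toLin' ((1 / 2 : ℝ) • (1 + rhoM r))) ⟨fun x => by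
      rw [End.mem_eigenspace_iff, toLin'_apply, toLin'_apply, mulVec_mulVec, Matrix.mul_smul, Matrix.mul_add, ← map_mul,
        h.mul_self, map_one, Matrix.mul_one, one_smul, add_comm], fun x hx => by
      rw [End.mem_eigenspace_iff, toLin'_apply] at hx
      rw [toLin'_apply, smul_mulVec, add_mulVec, hx, one_mulVec]; module⟩
    rw [trace_toLin'_eq, trace_smul, trace_add, h.trace_rhoM, trace_one, card_Cd'] at this
    exact_mod_cast (by rw [← this]; norm_num : (finrank ℝ U3 : ℝ) = 2048)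
  have := Fintype.ofFinite T
  have h8 := LinearMap.finrank_le_finrank_of_injective h5
  rwa [finrank_prod, finrank_prod, h6, h7, finrank_fintype_fun_eq_card, ← Nat.card_eq_fintype_card, card_T h] at h8

theorem exists_rep₀ : ∃ σ : Representation ℝ (HB r) (W r), ∀ g v, (σ g v : V) = g.1.1 • v.1 :=
  ⟨Representation.subrepresentation (.ofDistribMulAction ℝ (HB r) V) (W r) fun g v hv => End.mem_eigenspace_iff.2 (by
    change S (ax r) (g.1.1 • v) = _ • g.1.1 • v
    rw [← show g.1.1 • ax r = ax r from (HB_eq h).le g.2, ← smul_S, End.mem_eigenspace_iff.1 hv, smul_comm]),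
    fun _ _ => rfl⟩

omit h in
theorem exists_lift {H M : Type} [Group H] [Monoid M] {N : Subgroup H} [N.Normal] (σ : H →* M)
    (h : ∀ c, QuotientGroup.mk' N c = 1 → σ c = 1) : ∃ ρ : H ⧸ N →* M, ∀ c : H, ρ c = σ c :=
  ⟨QuotientGroup.lift N σ fun c hc => h c ((QuotientGroup.eq_one_iff c).2 hc), fun _ => rfl⟩

theorem exists_rep {s : Q} (h' : Short s) (h4 : ip (ax r) (ax s) = 4) : ∃ ρ : Representation ℝ (BB r) (W r),
    (∀ g u v, B (ρ g u) (ρ g v) = B u v) ∧ ρ.ker = ⊥ := by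
  obtain ⟨σ, hσ⟩ := exists_rep₀ h
  obtain ⟨ρ, hρ⟩ := exists_lift σ fun c hc => LinearMap.ext fun v => Subtype.ext (by
    rw [hσ]
    rcases (mk_eq_one h c).1 hc with e | e <;> rw [e]
    exacts [one_smul .., fix h v.2])
  have := (simple_BB h).1
  refine ⟨ρ, fun g u v => ?_, (MonoidHom.normal_ker _).eq_bot_or_eq_top.resolve_right fun e => h.ax.ne_one ?_⟩
  · obtain ⟨g, rfl⟩ := QuotientGroup.mk_surjective g
    rw [hρ, hσ, hσ, B_smul]
  obtain ⟨h1, h2, h3⟩ := twoA_ax h h' h4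
  have h5 := (h.ax.S_S_mu h3.fix h3.fix).1
  obtain ⟨c, hc, e1, e2⟩ := exists_smul_ax₂ h h' h h1 h4 (by rw [← h2, ← B_apply, ← B_S, h.ax.S_self, B_apply, h4])
  have := hσ ⟨⟨c, CZ_le_M1 hc⟩, (HB_eq h).ge e1⟩
    ⟨ax s - S (ax r) (ax s), End.mem_eigenspace_iff.2 (by rw [map_sub, h5]; module)⟩
  rw [← hρ, MonoidHom.mem_ker.1 (e.ge (mem_top _)), End.one_apply] at this
  dsimp only at this
  rw [smul_sub, smul_S, e1, e2, ← h2, h5, h2] at this
  simpa using conj_of_smul_ax h1 h' ((one_smul Aut _).trans (by linear_combination (norm := module) (-1 / 2 : ℝ) • this))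

theorem exists_GL {s : Q} (h' : Short s) (h4 : ip (ax r) (ax s) = 4) (h3 : 3 ∣ Nat.card (BB r)) :
    ∃ (F : Type) (_ : Field F) (_ : Fintype F), CharP F 2 ∧ ∃ φ : BB r →* GL (Fin 4370) F, Function.Injective φ := by
  obtain ⟨ρ, h1, h2⟩ := exists_rep h h' h4
  have := (simple_BB h).1
  have : Fact (Nat.Prime 3) := ⟨Nat.prime_three⟩
  obtain ⟨x, hx⟩ := exists_prime_orderOf_dvd_card' 3 h3
  obtain ⟨F, _, _, U, τ, _, h4, h5⟩ := exists_rep_two' (V := W r) ρ (B.restrict (W r)) (fun u v => B_comm u v) (fun v hv =>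
    (ip_self_nonneg _).lt_of_ne' fun e => hv (Subtype.ext (eq_zero_of_B e))) h1 (finrank_W h) (g := x)
    (by rw [hx]; decide) fun e => by simp [mem_bot.1 (h2.le e)] at hx
  exact ⟨F, _, ‹_›, ‹_›, exists_GL_of h4 τ h5⟩

omit h

theorem aux {G H : Type} [Group G] [Group H] (h : IsB G) (φ : G →* H) (hφ : Function.Injective φ) : IsB φ.range :=
  have := h.1
  ⟨(MonoidHom.ofInjective hφ).symm.isSimpleGroup, (Nat.card_congr (MonoidHom.ofInjective hφ).toEquiv).symm.trans h.2⟩

/-- The Baby Monster as matrices in characteristic 2: for some finite field F of characteristic 2, GL(4370, F) has a simple subgroup of order 4154781481226426191177580544000000. -/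
theorem result : ∃ (F : Type) (_ : Field F) (_ : Fintype F), CharP F 2 ∧ ∃ H : Subgroup (GL (Fin 4370) F), Cfsg.IsB H := by
  obtain ⟨F, _, _, _, φ, hφ⟩ := exists_GL (r := eP 0 none (some 0)) (short_eP 0 nofun) (short_eP 0 (by decide))
    (ip_P (i := none) (j := some 0) (k := some 1) nofun nofun (by decide)) (by rw [isB_BB.2]; norm_num)
  exact ⟨F, _, ‹_›, ‹_›, _, aux isB_BB φ hφ⟩

end Cfsg.Agent.S0465
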