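import Cfsg.Statements.S0466
import Cfsg.Agent.Lib.Mon.Baby
import Cfsg.Agent.Lib.Mon.Order2

set_option autoImplicit false
open Cfsg

namespace Cfsg.Agent.S0466

open Lib.Griess Subgroup MulAction

theorem mem_iff {G B : Type*} [Group G] [Group B] {t : G} {f : centralizer ({t} : Set G) →* B}
    (hk : ∀ c, f c = 1 ↔ (c : G) = 1 ∨ (c : G) = t) (g x : centralizer ({t} : Set G)) :
    g ∈ (centralizer {f x}).comap f ↔ (g : G) * x * (g : G)⁻¹ = x ∨ (g : G) * x * (g : G)⁻¹ = t * x := by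
  rw [mem_comap, mem_centralizer_singleton_iff, ← mul_inv_eq_iff_eq_mul, ← mul_inv_eq_one, ← map_inv, ← map_inv,
    ← map_mul, ← map_mul, ← map_mul, hk, coe_mul, coe_inv, mul_inv_eq_one, mul_inv_eq_iff_eq_mul]
  rfl

theorem two_mul_index {H X : Type*} [Group H] [MulAction H X] {K : Subgroup H} {a b : X}
    (hK : ∀ g, g ∈ K ↔ g • a = a ∨ g • a = b) (c : H) (e : c • a = b) (h : a ≠ b) :
    2 * K.index = (orbit H a).ncard := by
  rw [← index_stabilizer, ← relIndex_mul_index (H := stabilizer H a) (K := K) fun g hg => (hK g).2 (.inl hg), ← Set.ncard_pair h,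
    ← Set.Subset.antisymm (a := orbit K a) (by rintro _ ⟨g, rfl⟩; exact (hK g).1 g.2)
      (Set.pair_subset (mem_orbit_self _) ⟨⟨c, (hK _).2 (.inr e)⟩, e⟩), ← index_stabilizer]
  rfl

theorem conj_iff {x y : Q} (hx : Short x) (hy : Short y) (g : M1) : g * qM x * g⁻¹ = qM y ↔ g • ax x = ax y := by
  rw [Subtype.ext_iff, coe_mul, coe_mul, coe_inv]
  exact ⟨fun e => (hx.ax.smul _).uniq ((show _ = qV y from e).symm ▸ hy.ax), conj_of_smul_ax hx hy⟩

theorem orbit_HB {r : Q} (h : Short r) (v : V) : orbit (HB r) v = orbit ↥(M1 ⊓ stabilizer Aut (ax r)) v := by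
  rw [HB_eq h]
  ext w
  constructor
  · rintro ⟨⟨⟨g, g1⟩, g2⟩, rfl⟩
    exact ⟨⟨g, mem_inf.2 ⟨g1, g2⟩⟩, rfl⟩
  · rintro ⟨⟨g, g1⟩, rfl⟩
    exact ⟨⟨⟨g, (mem_inf.1 g1).1⟩, (mem_inf.1 g1).2⟩, rfl⟩

variable {r s : Q} {B : Type} [Group B] {f : HB r →* B} (h : Short r) (hf : Function.Surjective f)
  (hk : ∀ c, f c = 1 ↔ (c : M1) = 1 ∨ (c : M1) = qM r) (h' : Short s) (h4 : ip (ax r) (ax s) = 4) (m : qM s ∈ HB r)
include h hf hk h' h4

theorem card_class :
    2 * (centralizer {f ⟨_, m⟩}).index = (orbit ↥(M1 ⊓ stabilizer Aut (ax r)) (ax s)).ncard := by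
  obtain ⟨h1, h2, h3⟩ := twoA_ax h h' h4
  have h5 : ip (ax r) (ax (r * s)) = 4 := by rw [← h2, ← B_apply, ← B_S, h.ax.S_self, B_apply, h4]
  have hK : ∀ g : HB r, g ∈ (centralizer {f ⟨_, m⟩}).comap f ↔ g • ax s = ax s ∨ g • ax s = ax (r * s) := fun g => by
    exact (mem_iff hk g _).trans (or_congr (conj_iff h' h' g) ((map_mul qM r s).symm ▸ conj_iff h' h1 g))
  obtain ⟨c, hc, e1, e2⟩ := exists_smul_ax₂ h h' h h1 h4 h5
  rw [← index_comap_of_surjective _ hf, two_mul_index hK ⟨⟨c, CZ_le_M1 hc⟩, (HB_eq h).ge e1⟩ e2 fun e =>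
    h.ax.ne_one (by simpa using conj_of_smul_ax h1 h' ((one_smul Aut _).trans e.symm))]
  exact congrArg _ (orbit_HB h _)

theorem order_class : (∀ d ∈ conjugatesOf (f ⟨_, m⟩), orderOf d = 2) ∧
    ∀ d ∈ conjugatesOf (f ⟨_, m⟩), ∀ e ∈ conjugatesOf (f ⟨_, m⟩), orderOf (d * e) ≤ 4 := by
  have key : ∀ d ∈ conjugatesOf (f ⟨_, m⟩), ∃ x b, f x = d ∧ TwoA (ax r) (qV r) b x := fun d hd => by
    obtain ⟨g, rfl⟩ := isConj_iff.1 hd
    obtain ⟨g, rfl⟩ := hf g
    exact ⟨g * ⟨_, m⟩ * g⁻¹, _, by simp only [map_mul, map_inv], by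
      rw [coe_mul, coe_mul, coe_mul, coe_mul, coe_inv, coe_inv]
      exact (twoA_ax h h' h4).2.2.smul (mem_stabilizer_iff.1 ((HB_eq h).le g.2))⟩
  refine ⟨fun d hd => ?_, fun d hd e he => ?_⟩
  · obtain ⟨x, b, rfl, hx⟩ := key d hd
    refine orderOf_eq_prime (by
      rw [← map_pow, sq, show x * x = 1 from Subtype.ext (Subtype.ext hx.hb.mul_self), map_one]) fun e => ?_
    rcases (hk x).1 e with e | e
    · exact hx.hb.ne_one (congrArg Subtype.val e)
    · have := hx.ip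
      rw [hx.hb.uniq ((show _ = qV r from congrArg Subtype.val e).symm ▸ hx.ha), hx.ha.B_self] at this
      norm_num at this
  · obtain ⟨x, b, rfl, hx⟩ := key d hd
    obtain ⟨y, b', rfl, hy⟩ := key e he
    obtain ⟨k, k1, k2, n, e⟩ := hy.four hx
    refine (orderOf_le_of_pow_eq_one k1 ?_).trans k2
    rw [← map_mul, ← map_pow, hk, ← Lib.ES.mem_zpowers_iff_of_orderOf_two (orderOf_qM h)]
    exact ⟨n, Subtype.ext e⟩

omit h hf hk h' h4

/-- The Baby Monster as a 4-transposition group: there is a simple group of its order with a conjugacy class of 13571955000 involutions such that the product of any two of them has order at most 4, the centraliser of each having order 4 · 76532479683774853939200. -/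
theorem result : ∃ (G : Type) (_ : Group G) (_ : Finite G), Cfsg.IsB G ∧ ∃ D : Set G, (∃ d ∈ D, D = conjugatesOf d) ∧ Nat.card D = 13571955000 ∧ (∀ d ∈ D, orderOf d = 2) ∧ (∀ d ∈ D, ∀ e ∈ D, orderOf (d * e) ≤ 4) ∧ ∀ d ∈ D, Nat.card (Subgroup.centralizer ({d} : Set G)) = 306129918735099415756800 := by
  have h : Short (eP 0 none (some 0)) := short_eP 0 nofun
  have h' : Short (eP 0 none (some 1)) := short_eP 0 nofun
  have h4 := ip_P (i := none) (j := some 0) (k := some 1) nofun nofun (by decide)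
  have m : qM (eP 0 none (some 1)) ∈ HB (eP 0 none (some 0)) := (HB_eq h).ge (twoA_ax h h' h4).2.2.fix'
  have h5 := card_class h (QuotientGroup.mk'_surjective _) (mk_eq_one h) h' h4 m
  have h6 := order_class h (QuotientGroup.mk'_surjective _) (mk_eq_one h) h' h4 m
  rw [ncard_pairs, ← Lib.Calc.card_conjugatesOf] at h5
  refine ⟨_, inferInstance, inferInstance, isB_BB, _, ⟨_, IsConj.refl _, rfl⟩, by omega, h6.1, h6.2, fun d hd => ?_⟩
  have := index_mul_card (centralizer {d})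
  rw [isB_BB.2, ← Lib.Calc.card_conjugatesOf, ← isConj_iff_conjugatesOf_eq.1 hd,
    show Nat.card (conjugatesOf _) = 13571955000 by omega] at this
  omega

end Cfsg.Agent.S0466
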