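import Cfsg.Statements.S0467
import Cfsg.Agent.Lib.Mon.Grp
import Cfsg.Agent.Lib.Mon.Order

set_option autoImplicit false
open Cfsg

namespace Cfsg.Agent.S0467

theorem aux {G H : Type*} [Group G] [Group H] (h : IsM G) (ρ : G →* H) (e : Function.Injective ρ) : IsM ρ.range :=
  have := h.1
  ⟨(MonoidHom.ofInjective e).symm.isSimpleGroup, (Nat.card_congr (MonoidHom.ofInjective e).toEquiv).symm.trans h.2⟩

/-- The Monster exists as a group of real 196883 × 196883 matrices: GL(196883, ℝ) has a simple subgroup of order 808017424794512875886459904961710757005754368000000000. -/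
theorem result : ∃ H : Subgroup (GL (Fin 196883) ℝ), Cfsg.IsM H := by
  obtain ⟨ρ, h⟩ := Lib.Griess.exists_GL
  exact ⟨_, aux ⟨inferInstance, Lib.Griess.card_M1⟩ ρ h⟩

end Cfsg.Agent.S0467
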