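import Cfsg.Statements.S0468
import Cfsg.Agent.Lib.Mon.Baby
import Cfsg.Agent.Lib.Calc.Iso2

set_option autoImplicit false
open Cfsg

namespace Cfsg.Agent.S0468

open Lib.Griess Subgroup

/-- The Monster as a 6-transposition group: there is a simple group of its order with a conjugacy class of 97239461142009186000 involutions, the product of any two of which has order at most 6, and the centraliser of each of which is a non-split double cover of a simple group of order 4154781481226426191177580544000000. -/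
theorem result : ∃ (G : Type) (_ : Group G) (_ : Finite G), Cfsg.IsM G ∧ ∃ D : Set G, (∃ d ∈ D, D = conjugatesOf d) ∧ Nat.card D = 97239461142009186000 ∧ (∀ d ∈ D, orderOf d = 2) ∧ (∀ d ∈ D, ∀ e ∈ D, orderOf (d * e) ≤ 6) ∧ ∀ d ∈ D, ∃ (K : Type) (_ : Group K), Cfsg.IsB K ∧ Cfsg.IsNonsplitDoubleCover (Subgroup.centralizer ({d} : Set G)) K := by
  have h : Short (eP 0 none (some 0)) := short_eP 0 nofun
  have key : ∀ d ∈ conjugatesOf (qM (eP 0 none (some 0))), ∃ a, Ax a (d : M1) := fun d hd => by
    obtain ⟨g, rfl⟩ := isConj_iff.1 hd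
    exact ⟨_, h.ax.smul g⟩
  refine ⟨M1, inferInstance, inferInstance, ⟨inferInstance, card_M1⟩, _, ⟨_, IsConj.refl (qM (eP 0 none (some 0))), rfl⟩,
    ?_, fun d hd => ?_, fun d hd e he => ?_, fun d hd => ⟨_, inferInstance, isB_BB, ?_⟩⟩
  · rw [Lib.Calc.card_conjugatesOf, ← ncard_axes, ← MulAction.index_stabilizer, ← HB_eq h]
  · obtain ⟨g, rfl⟩ := isConj_iff.1 hd
    rw [Lib.ES.orderOf_conj_eq, orderOf_qM h]
  · obtain ⟨a, ha⟩ := key d hd
    obtain ⟨b, hb⟩ := key e he
    exact (orderOf_coe (d * e)).symm.trans_le (hb.six ha)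
  · exact Lib.Calc.isNonsplitDoubleCover_congr (Lib.Calc.nonempty_centralizer_equiv hd).some (simple_BB h).2

end Cfsg.Agent.S0468
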