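import Cfsg.Statements.S0469
import Cfsg.Agent.Lib.Mon.Grp
import Cfsg.Agent.Lib.Mon.Order

set_option autoImplicit false
open Cfsg

namespace Cfsg.Agent.S0469


/-- In some simple group of the Monster's order there is an involution whose centraliser C has a normal extraspecial subgroup Q of order 2 ^ 25 such that C / Q is simple of the order of the largest Conway group. -/
theorem result : ∃ (G : Type) (_ : Group G) (_ : Finite G), Cfsg.IsM G ∧ ∃ z : G, orderOf z = 2 ∧ ∃ (Q : Subgroup (Subgroup.centralizer ({z} : Set G))) (_ : Q.Normal), Nat.card Q = 2 ^ 25 ∧ Cfsg.IsExtraspecial 2 Q ∧ Cfsg.IsCo1 ((Subgroup.centralizer ({z} : Set G)) ⧸ Q) := by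
  obtain ⟨⟨h1, -, h2, h3, -⟩, e, -⟩ := Lib.Griess.monsterType_M1
  have := Lib.Leech.simple_Co1
  exact ⟨Lib.Griess.M1, inferInstance, inferInstance, ⟨inferInstance, Lib.Griess.card_M1⟩, _, h1, _, _, h3, h2,
    e.isSimpleGroup, (Nat.card_congr e.toEquiv).trans Lib.Leech.card_Co1⟩

end Cfsg.Agent.S0469
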