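import Cfsg.Statements.S0471
import Cfsg.Agent.Lib.Calc.U6
import Cfsg.Agent.Lib.Calc.Fi22TM
import Cfsg.Agent.Lib.Unitary.SmallField
-- import your own Cfsg.Agent.* helpers here

set_option autoImplicit false
open Cfsg

namespace Cfsg.Agent.S0471

/-- The Fischer group of order 64561751654400 exists as a 3-transposition group: a simple group of that order generated by a conjugacy class of 3510 3-transpositions, the centraliser of each being a non-split double cover of PSU(6, 2). -/
theorem result : ∃ (G : Type) (_ : Group G) (_ : Finite G), Cfsg.IsFi22 G ∧ ∃ D : Set G, Cfsg.IsThreeTranspositionClass D ∧ Nat.card D = 3510 ∧ ∀ d ∈ D, ∃ (F : Type) (_ : Field F) (_ : Fintype F), Fintype.card F = 4 ∧ Cfsg.IsNonsplitDoubleCover (Subgroup.centralizer ({d} : Set G)) (Cfsg.PSU 6 F 2) := by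
  open Cfsg.Lib.Calc Cfsg.Lib.Calc.Fi22 in
  refine ⟨Spor.Fi22, inferInstance, inferInstance, ⟨simple, card⟩, _, transp, card_class, fun d hd => ?_⟩
  open Cfsg.Lib.Calc in
  obtain ⟨e⟩ := nonempty_centralizer_equiv hd
  open Cfsg.Lib.Calc in
  obtain ⟨e', -⟩ := U6.exists_iso Cfsg.Lib.Unitary.card_K4
  open Cfsg.Lib.Calc Cfsg.Lib.Calc.Fi22 in
  let _ := act
  open Cfsg.Lib.Calc Cfsg.Lib.Calc.Fi22 in
  have h : genW gam hs = Subgroup.centralizer {gam 1} := stab.trans
    (Subgroup.ext fun g => (tact.stab g).trans Subgroup.mem_centralizer_singleton_iff.symm)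
  open Cfsg.Lib.Calc in
  exact ⟨_, _, _, Cfsg.Lib.Unitary.card_K4, isNonsplitDoubleCover_congr e
    (h ▸ isNonsplitDoubleCover_congr_right e' U6.double_cover)⟩

end Cfsg.Agent.S0471
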