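import Cfsg.Statements.S0478
import Cfsg.Agent.Lib.J3.More

set_option autoImplicit false
open Cfsg

namespace Cfsg.Agent.S0478

/-- A triple cover of Janko's third group inside a unitary group: for a field F with four elements, the special unitary group of dimension 9 (with respect to the form with q = 2) has a subgroup whose centre has order 3 and whose quotient by its centre is simple of order 50232960. -/
theorem result : ∃ (F : Type) (_ : Field F) (_ : Fintype F), Fintype.card F = 4 ∧ ∃ H : Subgroup (Cfsg.SU 9 F 2), Nat.card (Subgroup.center H) = 3 ∧ Cfsg.IsJ3 (H ⧸ Subgroup.center H) := by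
  letI := Fintype.ofFinite (GaloisField 2 2)
  obtain ⟨ω, hω⟩ := Lib.J3.exists_isF4 Lib.J3.card_gf4
  have h := Lib.F2.IsF4.of_card Lib.J3.card_gf4 hω
  have e : Spor.threeJ3 _ ω ≃* (Lib.J3.toSU h).range :=
    (MulEquiv.subgroupCongr (Lib.J3.threeJ3_eq h)).trans (MonoidHom.ofInjective (Lib.J3.toSU_injective h))
  haveI := Lib.J3.simple_J3 h
  exact ⟨_, inferInstance, inferInstance, Lib.J3.card_gf4, (Lib.J3.toSU h).range,
    by rw [← Nat.card_congr (Subgroup.centerCongr e).toEquiv, Lib.J3.card_center h],
    (Lib.F2.quotCenterEquiv e).symm.isSimpleGroup,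
    by rw [← Nat.card_congr (Lib.F2.quotCenterEquiv e).toEquiv, Lib.J3.card_J3 h]⟩

end Cfsg.Agent.S0478
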