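import Cfsg.Statements.S0480
import Cfsg.Agent.Lib.Fischer.Main
import Cfsg.Agent.Lib.Calc.TypeM
import Cfsg.Agent.Lib.Calc.Fi24
-- import your own Cfsg.Agent.* helpers here

set_option autoImplicit false
open Cfsg

namespace Cfsg.Agent.S0480
open Cfsg.Lib Cfsg.Lib.ThreeTr Subgroup
open Cfsg.Lib.Fischer Cfsg.Lib.Orth Module

private theorem sgn_one {G : Type*} [Group G] [IsSimpleGroup G] (hna : ∃ x y : G, x * y ≠ y * x)
    (χ : G →* ℤˣ) (g : G) : χ g = 1 := by
  rcases χ.normal_ker.eq_bot_or_eq_top with h | h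
  · obtain ⟨x, y, e⟩ := hna
    exact absurd ((MonoidHom.ker_eq_bot_iff χ).1 h (by rw [map_mul, map_mul, mul_comm])) e
  · exact (h ▸ mem_top g : g ∈ χ.ker)

private theorem orth {G : Type*} [Group G] [Finite G] {D : Set G} (h : Prim D) (hX : closure D = ⊤)
    (hZ : center G = ⊥) (hL : layer G = ⊤) {K : Type} [Field K] [Finite K] {n : ℕ} (hn : 5 ≤ n)
    (k : TyO K D n) : (2 : K) ≠ 0 ∧ ∃ m, Nonempty (G ≃* POmega K (quadFormOdd m K)) := by
  obtain ⟨Q, v, hQ⟩ := k
  obtain ⟨a, ha⟩ := h.ne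
  have e : Cmp D a = D := Set.ext fun b => ⟨fun e => e.1, fun e => ⟨e, h.cc a ha b e⟩⟩
  obtain ⟨κ, ψ, -, k1, k2⟩ := h.red.exists_kappa hX hZ ha (e.symm ▸ hQ) (by simpa)
  have k3 := (Gam.rho_mem_inn_iff hQ.nd (not_exc_of_five_le (by simpa)) (by simp; omega)).1
    ⟨_, (k1 ⟨a, hL ▸ mem_top a⟩).symm.trans (k2 a ⟨ha, .refl⟩)⟩
  have k4 := dickson_refl hQ.nd (hQ.one a ha ▸ one_ne_zero : Q (v a) ≠ 0)
  have k5 : ∀ o ∈ commutator (O Q), dickson hQ.nd o = 1 := fun o ho =>
    Abelianization.commutator_subset_ker _ ho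
  have ho : Odd (finrank K (Fin n → K)) := by
    rcases Gam.ofO_mem_ZOm_iff.1 k3 with k | k
    · exact absurd (k4.symm.trans (k5 _ k)) (by decide)
    · have := k5 _ k
      rw [map_mul, k4, dickson_neg] at this
      exact Nat.not_even_iff_odd.1 fun e => by rw [e.neg_one_pow] at this; exact absurd this (by decide)
  have h2 := two_ne_zero_of_odd_finrank hQ.nd ho
  obtain ⟨m, hm⟩ := id ho
  obtain ⟨e'⟩ := nonempty_O_equiv_of_odd hQ.nd (nd_qOdd h2 m) ho (by rw [hm]; simp; omega)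
  exact ⟨h2, m, ⟨((topEquiv.symm.trans (MulEquiv.subgroupCongr hL.symm)).trans ψ).trans
    ((pcomCongr e').trans (pomegaEquiv (qOdd m K)).symm)⟩⟩


/-- The simple 3-transposition groups: if a finite non-abelian simple group G is generated by a conjugacy class of 3-transpositions, then G is isomorphic to a symplectic group Sp(2n, 2), or to a projective special unitary group PSU(n, 2) (defined over the field with four elements), or to the projective commutator subgroup of an orthogonal group in odd dimension over the field with three elements, or G has order 64561751654400, or G has order 4089470473293004800. -/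
theorem result {G : Type*} [Group G] [Finite G] [IsSimpleGroup G] (hna : ∃ x y : G, x * y ≠ y * x) {D : Set G} (hD : Cfsg.IsThreeTranspositionClass D) : (∃ n : ℕ, Nonempty (G ≃* Matrix.symplecticGroup (Fin n) (ZMod 2))) ∨ (∃ (F : Type) (_ : Field F) (_ : Fintype F) (n : ℕ), Fintype.card F = 4 ∧ Nonempty (G ≃* Cfsg.PSU n F 2)) ∨ (∃ m : ℕ, Nonempty (G ≃* Cfsg.POmega (ZMod 3) (Cfsg.quadFormOdd m (ZMod 3)))) ∨ Cfsg.IsFi22 G ∨ Cfsg.IsFi23 G := by
  have hX := hD.2.2
  have hZ : center G = ⊥ := (Normal.eq_bot_or_eq_top inferInstance).resolve_right fun h =>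
    let ⟨x, y, e⟩ := hna; e (mem_center_iff.1 (h ▸ mem_top y) x)
  have hc : commutator G = ⊤ := (Normal.eq_bot_or_eq_top inferInstance).resolve_left fun h =>
    bot_ne_top (hZ.symm.trans ((commutator_eq_bot_iff_center_eq_top G).1 h))
  have hS : ∀ n, 2 ≤ n → (G ≃* Equiv.Perm (Fin n)) → False := fun n hn e => by
    have := sgn_one hna (Equiv.Perm.sign.comp e.toMonoidHom)
      (e.symm (Equiv.swap ⟨0, by omega⟩ ⟨1, by omega⟩))
    simp [Equiv.Perm.sign_swap'] at this
  rcases prim_of_simple hD hZ (hc ▸ topEquiv.isSimpleGroup) with ⟨e, -⟩ | h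
  · exact (hS 3 (by omega) e).elim
  have hL : layer G = ⊤ := (Normal.eq_bot_or_eq_top inferInstance).resolve_left fun e =>
    Comp.isQuasisimple_not_isSolvable (h.red.layer_le_ker hX).2.2 (e ▸ inferInstance)
  by_cases ht : Thick D
  · rcases h.classify_thick ht with ⟨-, m, -, k⟩ | ⟨-, n, hn, k⟩
    · exact .inl ⟨m, let ⟨e, _⟩ := k.out hX hZ; ⟨e⟩⟩
    · exact .inr (.inl ⟨F4, inferInstance, inferInstance, n, card_F4,
        let ⟨e, _⟩ := k.out (by omega) hX hZ; ⟨e⟩⟩)
  rcases h.classify_thin ht with ⟨-, -, n, hn, k⟩ | ⟨-, ⟨-, n, hn, k⟩ | ⟨n, hn, k⟩ | k | k | k⟩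
  · exact let ⟨e, _⟩ := k.out (by omega) hX hZ; (hS n (by omega) e).elim
  · exact absurd rfl (orth h hX hZ hL (by omega) k).1
  · exact .inr (.inr (.inl (orth h hX hZ hL hn k).2))
  · obtain ⟨e, -⟩ := Calc.typeM22_iso (class_group hD) (k.out hZ)
    exact .inr (.inr (.inr (.inl ⟨inferInstance, (Nat.card_congr e.toEquiv).trans Calc.Fi22.card⟩)))
  · obtain ⟨e, -⟩ := Calc.typeM23_iso (class_group hD) (k.out hZ)
    exact .inr (.inr (.inr (.inr ⟨inferInstance, (Nat.card_congr e.toEquiv).trans Calc.Fi23.card⟩)))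
  · obtain ⟨e, -⟩ := Calc.typeM24_iso (class_group hD) (k.out hZ)
    have := sgn_one hna (Calc.Fi24.sgn.comp e.toMonoidHom) (e.symm (Calc.Fi24.gam 1))
    simp [Calc.Fi24.sgn_gam, Calc.Fi24.sg] at this

end Cfsg.Agent.S0480
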