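import Cfsg.Statements.S0481
import Cfsg.Agent.Lib.ThreeTr.Structure

set_option autoImplicit false
open Cfsg

namespace Cfsg.Agent.S0481

open Cfsg.Lib Cfsg.Lib.ThreeTr

/-- Large extraspecial subgroups: let z be an involution of a finite group G whose centraliser C contains a normal 2-subgroup Q with centre of order 2 and all squares central, such that every element of G centralising Q lies in Q. Then C contains a Sylow 2-subgroup of G, and any involution of G whose centraliser contains a Sylow 2-subgroup of G is conjugate to z. -/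
theorem result {G : Type*} [Group G] [Finite G] (z : G) (hz : orderOf z = 2) (Q : Subgroup G) (hQC : Q ≤ Subgroup.centralizer ({z} : Set G)) (hQn : ∀ g ∈ Subgroup.centralizer ({z} : Set G), ∀ q ∈ Q, g * q * g⁻¹ ∈ Q) (hQ2 : IsPGroup 2 Q) (hZ : Nat.card (Subgroup.center Q) = 2) (hsq : ∀ x : Q, x ^ 2 ∈ Subgroup.center Q) (hlarge : Subgroup.centralizer (Q : Set G) ≤ Q) : (∃ P : Sylow 2 G, (P : Subgroup G) ≤ Subgroup.centralizer ({z} : Set G)) ∧ ∀ u : G, orderOf u = 2 → (∃ P : Sylow 2 G, (P : Subgroup G) ≤ Subgroup.centralizer ({u} : Set G)) → IsConj z u := by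
  have hzQ : z ∈ Q := hlarge fun q hq => Subgroup.mem_centralizer_singleton_iff.1 (hQC hq)
  have key : ∀ x : G, (∀ q ∈ Q, q * x = x * q) → x ≠ 1 → x = z := by
    intro x hx hx1
    obtain ⟨y, -, hy⟩ := (Nat.card_eq_two_iff' (1 : Subgroup.center Q)).1 hZ
    have h1 := hy ⟨⟨x, hlarge hx⟩, Subgroup.mem_center_iff.2 fun q => Subtype.ext (hx q q.2)⟩
      (fun h => hx1 (congrArg (fun t : Subgroup.center Q => ((t : Q) : G)) h))
    have h2 := hy ⟨⟨z, hzQ⟩, Subgroup.mem_center_iff.2 fun q => Subtype.ext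
      (Subgroup.mem_centralizer_singleton_iff.1 (hQC q.2))⟩
      (fun h => ne_one_of_orderOf_two hz (congrArg (fun t : Subgroup.center Q => ((t : Q) : G)) h))
    exact congrArg (fun t : Subgroup.center Q => ((t : Q) : G)) (h1.trans h2.symm)
  obtain ⟨T, hQT, hTC, hT, hTi⟩ := Transfer.exists_sylowIn_ge (p := 2) hQ2 hQC
  obtain ⟨P, hP⟩ := hT.exists_le_sylow
  have hPT : (P : Subgroup G) ≤ T := by
    by_contra hn
    have h1 := Transfer.lt_inf_normalizer_of_lt P.isPGroup' (lt_of_le_of_ne hP fun h => hn h.ge)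
    refine h1.ne (Transfer.eq_of_not_dvd_relIndex_of_le hTi (P.isPGroup'.to_le inf_le_left)
      (fun g hg => ?_) h1.le)
    have h2 : g * z * g⁻¹ = z := by
      refine key _ (fun q hq => ?_) (by simpa using ne_one_of_orderOf_two hz)
      have h3 := Subgroup.mem_centralizer_singleton_iff.1
        (hTC ((Subgroup.mem_normalizer_iff''.1 hg.2 q).1 (hQT hq)))
      have h4 := (commute_conj_iff g _ _).2 h3
      simpa [mul_assoc] using h4.eq
    exact Subgroup.mem_centralizer_singleton_iff.2 (mul_inv_eq_iff_eq_mul.1 h2)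
  refine ⟨⟨P, hPT.trans hTC⟩, fun u hu ⟨S, hS⟩ => ?_⟩
  obtain ⟨g, hg⟩ := MulAction.exists_smul_eq G S P
  refine (isConj_iff.2 ⟨g, key _ (fun q hq => ?_) (by simpa using ne_one_of_orderOf_two hu)⟩).symm
  have h1 : q ∈ (g • S : Sylow 2 G) := hg ▸ hP (hQT hq)
  obtain ⟨s, hs, rfl⟩ := h1
  exact (commute_conj_iff g _ _).2 (Subgroup.mem_centralizer_singleton_iff.1 (hS hs))

end Cfsg.Agent.S0481
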