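import Cfsg.Statements.S0505
import Cfsg.Agent.Lib.Comp.Local
import Cfsg.Agent.Lib.Comp.PLayer

set_option autoImplicit false
open Cfsg

namespace Cfsg.Agent.S0505

open Subgroup Cfsg.Lib Cfsg.Lib.Comp

/-- Let G be a finite group of even order in which the centralizer of every involution is solvable and has trivial
core (no nontrivial normal subgroup of odd order). Then G is of characteristic 2 type. -/
theorem result {G : Type*} [Group G] [Finite G]
    (h2 : Even (Nat.card G))
    (hs : ∀ t : G, orderOf t = 2 → Group.IsSolvable (Subgroup.centralizer ({t} : Set G)))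
    (hc : ∀ t : G, orderOf t = 2 → Cfsg.oddCore (Subgroup.centralizer ({t} : Set G)) = ⊥) :
    Cfsg.IsCharacteristicTwoType G := by
  refine ⟨h2, fun T hT hT1 => ?_⟩
  have h : ∀ t : G, orderOf t = 2 → generalizedFittingSubgroup (centralizer ({t} : Set G)) =
      pCore 2 (centralizer ({t} : Set G)) := fun t ht =>
    genFitting_eq_pCore_iff_pLayer.2 ⟨pLayer_eq_bot_of_isSolvable (hs t ht), hc t ht⟩
  have := genFitting_normalizer_eq_pCore_of_centralizers (p := 2) h hT hT1
  first
    | exact this
    | exact genFitting_eq_pCore_iff_centralizer_le.1 this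

end Cfsg.Agent.S0505
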