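import Cfsg.Statements.S0514
import Cfsg.Agent.Lib.Inv.DihedralSylow

set_option autoImplicit false
open Cfsg

namespace Cfsg.Agent.S0514
open Cfsg.Lib.Inv

open Cfsg.Lib.Transfer

/-- In a finite group whose Sylow 2-subgroups are dihedral of order at least 4, the centralizer of any involution has a
normal subgroup of odd order whose index in the centralizer is a power of 2. -/
theorem result {X : Type*} [Group X] [Finite X]
    (S : Sylow 2 X) (n : ℕ) (hn : 2 ≤ n) (hS : Nonempty ((S : Subgroup X) ≃* DihedralGroup n)) (t : X)
    (ht : orderOf t = 2) :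
    ∃ N : Subgroup (Subgroup.centralizer ({t} : Set X)), N.Normal ∧ Odd (Nat.card N) ∧ ∃ k : ℕ, N.index = 2 ^ k := by
  obtain ⟨a, b, m, -, h⟩ := exists_mc_of_dihedral S.isPGroup' hn hS.some
  have := h.dih_hasNormalPComplement_of_central ht
  exact ⟨pResidual 2 _, pResidual_normal,
    odd_of_coprime_two (hasNormalPComplement_iff_card_pResidual.1 this),
    exists_index_pResidual_eq_pow⟩

end Cfsg.Agent.S0514
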