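import Cfsg.Statements.S0515
import Cfsg.Agent.Lib.Sig.Main
import Cfsg.Agent.Lib.Sig.Glob

set_option autoImplicit false
open Cfsg

namespace Cfsg.Agent.S0515

open Subgroup Cfsg.Lib Cfsg.Lib.Sig in

/-- Inside a finite group, let A be an elementary abelian p-subgroup of order at least p^3 normalizing a subgroup K of
order prime to p. If the centralizer in K of every non-identity element of A is solvable, then K is solvable. -/
theorem result {X : Type*} [Group X] [Finite X]
    (p : ℕ) [Fact p.Prime] (A K : Subgroup X) (hA : IsMulCommutative A) (hAp : ∀ a ∈ A, a ^ p = 1)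
    (hA3 : p ^ 3 ≤ Nat.card A) (hK : (Nat.card K).Coprime p) (hAK : A ≤ Subgroup.normalizer (K : Set X))
    (hC : ∀ a ∈ A, a ≠ 1 → Group.IsSolvable ((K ⊓ Subgroup.centralizer ({a} : Set X) : Subgroup X))) :
    Group.IsSolvable K := by
  have hE : IsElementaryAbelian p A := ⟨hA, hAp⟩
  have hp : p.Prime := Fact.out
  have hK' : ¬ p ∣ Nat.card K := hp.coprime_iff_not_dvd.1 hK.symm
  have h := closure_mem (θ := fun a => K ⊓ centralizer {a}) hE hA3
    ⟨⟨fun _ _ _ => inf_le_right, fun _ _ _ e => hK' (e.trans (card_dvd_of_le inf_le_left)),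
      fun a ha _ b hb x hx => ⟨(mem_normalizer_iff.1 (hAK hb) x).1 hx.1,
        (mem_normalizer_iff.1 (elemAb_le_normalizer_centralizer_elt hE ha hb) x).1 hx.2⟩,
      fun _ _ _ _ _ _ => inf_le_inf_right _ inf_le_left⟩, hC⟩
  have hle : K ≤ signalizerClosure A fun a => K ⊓ centralizer {a} :=
    Coprime.le_of_forall_centralizer_le hA (fun hc => ?_) hAK
      (coprime_of_not_dvd (PGroup.elemAb_isPGroup hE) hK') fun a ha h1 =>
      le_closure (θ := fun a => K ⊓ centralizer {a}) ha h1
  · haveI := mem_solv h
    exact solvable_of_solvable_injective (inclusion_injective hle)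
  · have h1 : Nat.card A ∣ p := by
      rw [← hc.exponent_eq_card]
      exact Monoid.exponent_dvd_of_forall_pow_eq_one fun a => Subtype.ext (hAp a a.2)
    have h2 := hA3.trans (Nat.le_of_dvd hp.pos h1)
    have := hp.one_lt
    have : p ^ 1 < p ^ 3 := Nat.pow_lt_pow_right this (by norm_num)
    simp at this
    omega

end Cfsg.Agent.S0515
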