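import Cfsg.Statements.S0518
import Cfsg.Agent.Lib.JComp.Final
-- import your own Cfsg.Agent.* helpers here

set_option autoImplicit false
open Cfsg

namespace Cfsg.Agent.S0518

open Subgroup Lib.JComp Lib.BG Lib.Loc Lib.PLocal

/-- Let G be a finite group of characteristic 2 type with trivial 2-core in which every 2-local subgroup is solvable
and, for every Sylow 2-subgroup S, the centralizer of the set of central involutions of S lies in the normalizer of S.
Then either G has a strongly embedded subgroup, or the subgroup generated by the elements of odd order has two distinct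
maximal 2-local subgroups, each isomorphic to the symmetric group of degree 4, whose intersection has order 8. -/
theorem result {G : Type*} [Group G] [Finite G]
    (hL : Cfsg.IsCharacteristicTwoType G) (hO : Cfsg.pCore 2 G = ⊥)
    (hN : ∀ N : Subgroup G, Cfsg.IsTwoLocal N → Group.IsSolvable N)
    (hZ : ∀ S : Sylow 2 G,
      Subgroup.centralizer {z : G | z ∈ (S : Subgroup G) ∧ z ^ 2 = 1 ∧ ∀ s ∈ (S : Subgroup G), s * z = z * s} ≤
        Subgroup.normalizer ((S : Subgroup G) : Set G))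
    (H : Subgroup G) (hH : H = Subgroup.closure {g : G | Odd (orderOf g)}) :
    (∃ K : Subgroup G, Cfsg.IsStronglyEmbedded K) ∨
      ∃ M₁ M₂ : Subgroup H, M₁ ≠ M₂ ∧ Cfsg.IsMaximalTwoLocal M₁ ∧ Cfsg.IsMaximalTwoLocal M₂ ∧
        Nonempty (M₁ ≃* Equiv.Perm (Fin 4)) ∧ Nonempty (M₂ ≃* Equiv.Perm (Fin 4)) ∧ Nat.card ↥(M₁ ⊓ M₂) = 8 := by
  have hG : ZN G := zn_of hL hN fun S => le_trans (centralizer_le fun z hz => mem_oz.2 ⟨⟨hz.1, hz.2.2⟩, hz.2.1⟩) (hZ S)
  have eH : H = pResidual 2 G := by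
    rw [hH, pResidual]
    simp only [Nat.coprime_two_right]
  subst eH
  haveI : (pResidual 2 G).Normal := res_top (p := 2) (G := G) ▸ res_normal 2 ⊤
  obtain ⟨S⟩ : Nonempty (Sylow 2 G) := inferInstance
  have hM : MJ (normalizer (thompsonSubgroupOf 2 (S : Subgroup G) : Set G)) :=
    ⟨isTwoLocal_J S.isPGroup' (sylow_ne_bot S hL.1.two_dvd), S, le_rfl⟩
  refine or_iff_not_imp_left.2 fun e => ?_
  obtain ⟨T, hT⟩ := exists_mstr (Set.nonempty_iff_ne_empty.2 fun c => e ⟨_, (se_iff_str hO hM.loc).2 c⟩)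
  obtain ⟨K, hK⟩ := hM.exists_outside hT hG
  obtain ⟨L, h⟩ := hM.exists_gc hT hG hK
  obtain ⟨K', L', hp, h8⟩ := h.exists_gp_res hG hO
  have hR : ∀ {J K : Subgroup G}, JC J K → K ≤ pResidual 2 G := fun h => h.res.ge.trans ((res_mono le_top).trans res_top.le)
  have h1 := hR hp.l.jc
  have h2 := hR hp.r.jc
  have h8' := fun e => h8 (hp.card_Q_eq.symm.trans e)
  refine ⟨_, _, fun c => hp.ne fun k hk => hp.l.P_le ?_, hp.isMax_inf h1 h8, hp.symm.isMax_inf h2 h8',
    hp.equiv_inf h1 h2 h8, hp.symm.equiv_inf h2 h1 h8', ?_⟩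
  · exact c.ge (x := ⟨k, h2 hk⟩) (mem_subgroupOf.2 (mem_sup_left hk))
  · rw [← subOf_inf, hp.inf_eq, ← inf_subgroupOf_right, subOf_card inf_le_right, hp.card_T_inf h1 h2 h8]

end Cfsg.Agent.S0518
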