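import Cfsg.Statements.S0519
import Cfsg.Agent.Lib.PGroup.RankOne

set_option autoImplicit false
open Cfsg

namespace Cfsg.Agent.S0519

/-- Let P be a finite p-group in which every abelian normal subgroup is cyclic, but which has a non-cyclic abelian
subgroup. Then p = 2 and P is generalized quaternion, dihedral of order at least 16, or quasi-dihedral. -/
theorem result {P : Type*} [Group P] [Finite P] (p : ℕ) [Fact p.Prime]
    (hP : IsPGroup p P) (hn : ∀ A : Subgroup P, A.Normal → IsMulCommutative A → IsCyclic A)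
    (hm : ∃ B : Subgroup P, IsMulCommutative B ∧ ¬ IsCyclic B) :
    p = 2 ∧ ((∃ n : ℕ, Nonempty (P ≃* QuaternionGroup n)) ∨ (∃ n : ℕ, 8 ≤ n ∧ Nonempty (P ≃* DihedralGroup n)) ∨
      Cfsg.IsQuasiDihedral P) := by
  rcases Cfsg.Lib.PGroup.isCyclic_or_of_no_normal_rank_two hP (fun E h1 h2 h3 =>
    Cfsg.Lib.PGroup.elemAb_not_isCyclic h2 h3.ge (hn E h1 h2.1)) with
    h1 | ⟨rfl, a, b, m, hm, ha, hc, hba, hsup, h | h | h⟩
  · obtain ⟨B, -, hB⟩ := hm
    exact absurd (Subgroup.isCyclic B) hB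
  · refine ⟨rfl, Or.inr (Or.inl ⟨2 ^ m, ?_,
      Cfsg.Lib.PGroup.nonempty_mulEquiv_dihedral ha h.2.1 h.2.2 hba hsup⟩)⟩
    exact Nat.pow_le_pow_right (n := 2) two_pos h.1
  · obtain ⟨m, rfl⟩ : ∃ m', m = m' + 1 := ⟨m - 1, by omega⟩
    exact ⟨rfl, Or.inl ⟨2 ^ m, Cfsg.Lib.PGroup.nonempty_mulEquiv_quaternion
      (by rw [ha, pow_succ']) h.1 h.2 hba hsup⟩⟩
  · exact ⟨rfl, Or.inr (Or.inr ⟨m, h.1, hc, a, b, ha,
      orderOf_eq_prime h.2.1 (fun e => hba (e ▸ one_mem _)), h.2.2⟩)⟩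

end Cfsg.Agent.S0519
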