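import Cfsg.Statements.S0520
import Cfsg.Agent.Lib.Inv.Misc

set_option autoImplicit false
open Cfsg

namespace Cfsg.Agent.S0520
open Cfsg.Lib.Inv

open Subgroup Cfsg.Lib Cfsg.Lib.Transfer

/-- adjacency in the commuting graph -/
abbrev Adj {G : Type*} [Group G] (A B : Subgroup G) : Prop :=
  IsKleinFour A ∧ IsKleinFour B ∧ ∀ a ∈ A, ∀ b ∈ B, a * b = b * a

theorem conn_map {G G' : Type*} [Group G] [Group G'] {f : G →* G'} (hf : Function.Injective f)
    {U V : Subgroup G} (h : Relation.ReflTransGen Adj U V) :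
    Relation.ReflTransGen Adj (U.map f) (V.map f) :=
  h.lift (map f) fun A B h => ⟨k4_map h.1 hf, k4_map h.2.1 hf, by
    rintro _ ⟨a, ha, rfl⟩ _ ⟨b, hb, rfl⟩
    rw [← map_mul, h.2.2 a ha b hb, map_mul]⟩

theorem conn_symm {G : Type*} [Group G] {U V : Subgroup G} (h : Relation.ReflTransGen Adj U V) :
    Relation.ReflTransGen Adj V U := by
  induction h with
  | refl => rfl
  | tail _ h ih => exact ih.head ⟨h.2.1, h.1, fun b hb a ha => (h.2.2 a ha b hb).symm⟩

/-- Let G be a finite group of 2-rank at least 2 and S a Sylow 2-subgroup whose commuting graph of Klein four-subgroups is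
connected. Then the commuting graph of Klein four-subgroups of G is disconnected if and only if the 2-generated core — the
subgroup generated by the normalizers N_G(Q) of the subgroups Q of S that contain a Klein four-group — is a proper
subgroup of G. -/
theorem result {G : Type*} [Group G] [Finite G] (h2 : ¬ Cfsg.PRankLE 2 1 G)
    (S : Sylow 2 G) (hS : Cfsg.IsFourConnected (S : Subgroup G)) :
    ¬ Cfsg.IsFourConnected G ↔
      (⨆ Q : {Q : Subgroup G // Q ≤ (S : Subgroup G) ∧ ¬ Cfsg.PRankLE 2 1 Q},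
          Subgroup.normalizer ((Q : Subgroup G) : Set G)) ≠ ⊤ := by
  have hc : ∀ U ≤ (S : Subgroup G), ∀ V ≤ (S : Subgroup G), IsKleinFour U → IsKleinFour V →
      Relation.ReflTransGen Adj U V := fun U h1 V h2 hU hV => by
    have := conn_map (S : Subgroup G).subtype_injective (hS _ _ (k4_subgroupOf hU h1) (k4_subgroupOf hV h2))
    rwa [map_subgroupOf_eq_of_le h1, map_subgroupOf_eq_of_le h2] at this
  have hcj : ∀ (g : G) {U V : Subgroup G}, Relation.ReflTransGen Adj U V →
      Relation.ReflTransGen Adj (g ⋆ U) (g ⋆ V) := fun g _ _ h => conn_map (MulAut.conj g).injective h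
  obtain ⟨U₁, hU₁⟩ := not_pRankLE_iff'.1 h2
  obtain ⟨c, hUS⟩ := exists_conj_le_sylow S (k4_isPGroup hU₁)
  have hU := k4_conj hU₁ c
  generalize c ⋆ U₁ = U at hU hUS
  rw [not_iff_not]
  set H := ⨆ Q : {Q : Subgroup G // Q ≤ (S : Subgroup G) ∧ ¬ Cfsg.PRankLE 2 1 Q},
    normalizer ((Q : Subgroup G) : Set G)
  have hH : ∀ Q ≤ (S : Subgroup G), (∃ V ≤ Q, IsKleinFour V) → normalizer (Q : Set G) ≤ H :=
    fun Q h1 h2 => le_iSup (fun Q : {Q : Subgroup G // Q ≤ (S : Subgroup G) ∧ ¬ Cfsg.PRankLE 2 1 Q} =>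
      normalizer ((Q : Subgroup G) : Set G)) ⟨Q, h1, not_pRankLE_iff.2 h2⟩
  have hSH : (S : Subgroup G) ≤ H := le_normalizer.trans (hH _ le_rfl ⟨U, hUS, hU⟩)
  constructor
  · intro hG
    have hconj : ∀ (g : G) (X : Subgroup G), (∃ V ≤ X, IsKleinFour V) → ∃ V ≤ g ⋆ X, IsKleinFour V :=
      fun g X ⟨V, h1, h2⟩ => ⟨_, conj_mono g h1, k4_conj h2 g⟩
    have hi := sylow_not_dvd_relIndex S hSH
    refine eq_top_iff.2 fun g _ => mem_of_normalizers_le (p := 2) (fun X => ∃ V ≤ X, IsKleinFour V)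
      (fun X Y h ⟨V, h1, h2⟩ => ⟨V, h1.trans h, h2⟩) hconj hi (fun X h _ => hH X h) U g
      (k4_isPGroup hU) ⟨U, le_rfl, hU⟩ (hUS.trans hSH) ?_
    have := hG U _ hU (k4_conj hU g)
    generalize g ⋆ U = V at this
    induction this with
    | refl => exact hUS.trans hSH
    | tail _ h ih =>
      exact le_trans (fun b hb => centralizer_le_normalizer _ fun a ha => h.2.2 a ha b hb)
        (normalizer_le_of_sylowIn _ hconj hi (fun X h _ => hH X h) _ ih (k4_isPGroup h.1)
          ⟨_, le_rfl, h.1⟩)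
  · intro hT
    have key : ∀ g ∈ H, Relation.ReflTransGen Adj U (g ⋆ U) := fun g hg => by
      refine iSup_induction _ (C := fun g => Relation.ReflTransGen Adj U (g ⋆ U)) hg ?_
        (by rw [conj_one]) fun x y hx hy => hx.trans (conj_conj x y U ▸ hcj x hy)
      rintro ⟨Q, hQ, hQ'⟩ g hg
      obtain ⟨V, h1, h2⟩ := not_pRankLE_iff.1 hQ'
      exact (hc U hUS _ (((conj_mono g h1).trans (conj_eq_self_iff.2 hg).le).trans hQ) hU
        (k4_conj h2 g)).trans (hcj g (hc V (h1.trans hQ) U hUS h2 hU))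
    have key' : ∀ V : Subgroup G, IsKleinFour V → Relation.ReflTransGen Adj U V := fun V hV => by
      obtain ⟨g, hg⟩ := exists_conj_le_sylow S (k4_isPGroup hV)
      have := hcj g⁻¹ (hc U hUS _ hg hU (k4_conj hV g))
      rw [inv_conj_conj] at this
      exact (key _ (hT ▸ mem_top _)).trans this
    exact fun V W hV hW => (conn_symm (key' V hV)).trans (key' W hW)

end Cfsg.Agent.S0520
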