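import Cfsg.Statements.S0521
import Cfsg.Agent.Lib.BG.T03_6
import Cfsg.Agent.Lib.BG.T06_1
import Cfsg.Agent.Lib.BG.T01_PLength
-- import your own Cfsg.Agent.* helpers here

set_option autoImplicit false
open Cfsg

namespace Cfsg.Agent.S0521
open Cfsg.Lib Cfsg.Lib.BG Subgroup
open scoped Cfsg.Lib.Transfer

universe u

theorem aux (p : ℕ) [hp : Fact p.Prime] (n : ℕ) : ∀ (G : Type u) [Group G] [Finite G] (M S : Subgroup G),
    Nat.card M = n → Group.IsSolvable M → Odd (Nat.card M) → Syl p S M → IsCyclic ↥⁅S, S⁆ → PLengthLE p 1 M := by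
  induction n using Nat.strong_induction_on with
  | _ n ih =>
  intro G _ _ M S hn hs hodd hS hc
  subst hn
  have ihquo : ∀ X : Subgroup G, X ≠ ⊥ → Nml X M → PLengthLE p 1 (quo M X) := fun X h1 h2 => by
    refine ih _ ?_ _ _ (quo S X) rfl (sol_quo hs X) (odd_quo hodd X) (hS.quo h2.norm) ?_
    · have a1 := card_quo_mul h2
      have a3 : 1 < Nat.card X := lt_of_le_of_ne Nat.card_pos (card_ne_one h1).symm
      have a4 : 0 < Nat.card (quo M X) := Nat.card_pos
      nlinarith
    · rw [← quo_comm (hS.le.trans h2.norm) (hS.le.trans h2.norm)]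
      exact cyclic_quo hc X
  by_cases hO : 𝐎({p}ᶜ, M) = ⊥
  swap
  · exact plength_of_quo_p' (pcore_nml _ M) (pcore_pi _ M) (ihquo _ hO (pcore_nml _ M))
  by_cases hPhi : 𝚽(𝐎({p}, M)) = ⊥
  swap
  · have h1 := (pcore_nml {p} M).Phi
    exact plength_of_quo_Phi h1 (Core.frattiniOf_le_of_le_normalizer (pcore_le _ M) (pcore_nml _ M).norm)
      (ihquo _ hPhi h1)
  have hV : ∀ a ∈ 𝐎({p}, M), a ^ p = 1 :=
    ((PGroup.map_subtype_frattini_le_iff (pcore_pgroup p M)).1 hPhi.le).2
  have hab : ∀ A : Subgroup G, Nml A S → IsMulCommutative A → A ≤ 𝐎({p}, M) := fun A h1 h2 =>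
    O2_eq_pcore hO ▸ odd_p_abelian_constrained hs hodd hS h1 h2
  have hD := hab _ (Nml.der_self S) (abelian_of_cyclic hc)
  have hDc : ⁅S, S⁆ ≤ 𝐂(S) := by
    by_cases h1 : ⁅S, S⁆ = ⊥
    · rw [h1]
      exact bot_le
    obtain ⟨x, hx, e⟩ := cyclic_iff.1 hc
    have hx1 : x ≠ 1 := by
      rintro rfl
      exact h1 (by rw [← e, zpowers_one_eq_bot])
    have : (Nat.card ↥⁅S, S⁆).Prime := by
      rw [← e, Nat.card_zpowers, orderOf_eq_prime (hV x (hD hx)) hx1]
      exact hp.out
    exact le_of_prime_of_inf_ne_bot this (nil_meet_center hS.nil (der_le S) (Nml.der_self S).norm h1)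
  have hSV : S ≤ 𝐎({p}, M) := fun s hs' => by
    have h1 : zpowers s ≤ S := zpowers_le.2 hs'
    exact hab (⁅S, S⁆ ⊔ zpowers s) (Nml.of_der_le le_sup_left (sup_le (der_le S) h1))
      (abelian_sup (abelian_of_cyclic hc) inferInstance (hDc.trans (cent_anti h1)))
      (le_sup_right (a := ⁅S, S⁆) (mem_zpowers s))
  rw [plength1_iff hS, hO, bot_sup_eq, le_antisymm hSV hS.pcore_le]
  exact pcore_nml _ M


/-- Let X be a finite solvable group of odd order, p a prime and S a Sylow p-subgroup of X whose commutator subgroup is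
cyclic. Then the product of the largest normal subgroup of X of order prime to p with S is a normal subgroup of X. -/
theorem result {X : Type*} [Group X] [Finite X] [Group.IsSolvable X]
    (hX : Odd (Nat.card X)) (p : ℕ) [Fact p.Prime] (S : Sylow p X) (hS : IsCyclic (commutator (S : Subgroup X))) :
    (Cfsg.pPrimeCore p X ⊔ (S : Subgroup X)).Normal := by
  have h1 := aux p _ X ⊤ S rfl inferInstance (by rwa [card_top]) (Syl.of_sylow_top S) (by
    have := cyclic_map (S : Subgroup X).subtype hS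
    rwa [map_subtype_commutator] at this)
  rw [plength1_iff (Syl.of_sylow_top S), Nml.top_iff, pcore_p'_eq] at h1
  rwa [Core.pPrimeCoreOf_top] at h1

end Cfsg.Agent.S0521
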