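import Cfsg.Statements.S0522
import Cfsg.Agent.Lib.BG.Transitivity
import Cfsg.Agent.Lib.BG.T07_1
-- import your own Cfsg.Agent.* helpers here

set_option autoImplicit false
open Cfsg

namespace Cfsg.Agent.S0522
open Cfsg.Lib Cfsg.Lib.BG Subgroup
open scoped Cfsg.Lib.Transfer

/-- Transitivity Theorem (odd-order setting). Let X be a finite group of odd order in which the normalizer of every
nontrivial p-subgroup is solvable, P a Sylow p-subgroup, and B an abelian subgroup of P, normalized by P, with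
C_P(B) = B and containing an elementary abelian subgroup of order p^3. Then for every prime q ≠ p, any two q-subgroups
that are maximal among the q-subgroups normalized by B are conjugate by an element of the centralizer of B. -/
theorem result {X : Type*} [Group X] [Finite X] (hX : Odd (Nat.card X)) (p : ℕ)
    [Fact p.Prime] (hloc : ∀ T : Subgroup X, IsPGroup p T → T ≠ ⊥ → Group.IsSolvable (Subgroup.normalizer (T : Set X)))
    (P : Sylow p X) (B : Subgroup X) (hBP : B ≤ (P : Subgroup X))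
    (hBn : ∀ x ∈ (P : Subgroup X), ∀ b ∈ B, x * b * x⁻¹ ∈ B) (hBa : IsMulCommutative B)
    (hBc : (P : Subgroup X) ⊓ Subgroup.centralizer (B : Set X) = B)
    (hB3 : ∃ E : Subgroup X, E ≤ B ∧ (∀ e ∈ E, e ^ p = 1) ∧ p ^ 3 ≤ Nat.card E)
    (q : ℕ) [Fact q.Prime] (hqp : q ≠ p) (Q₁ Q₂ : Subgroup X)
    (h₁ : IsPGroup q Q₁ ∧ B ≤ Subgroup.normalizer (Q₁ : Set X) ∧
      ∀ R : Subgroup X, IsPGroup q R → B ≤ Subgroup.normalizer (R : Set X) → Q₁ ≤ R → R = Q₁)
    (h₂ : IsPGroup q Q₂ ∧ B ≤ Subgroup.normalizer (Q₂ : Set X) ∧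
      ∀ R : Subgroup X, IsPGroup q R → B ≤ Subgroup.normalizer (R : Set X) → Q₂ ≤ R → R = Q₂) :
    ∃ c ∈ Subgroup.centralizer (B : Set X), Q₂ = Q₁.map (MulAut.conj c).toMonoidHom := by
  obtain ⟨E, hEB, hE, hc⟩ := hB3
  have pB : IsPGroup p B := pgroup_of_le P.isPGroup' hBP
  obtain ⟨n, hn⟩ := Elem.of_elab (p := p) (A := E) ⟨abelian_of_le hBa hEB, hE⟩ hEB
  have h3 : 3 ≤ rk p B := by
    rw [hn.card] at hc
    exact ((Nat.pow_le_pow_iff_right (Fact.out : p.Prime).one_lt).1 hc).trans hn.le_rk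
  have hp2 : p ≠ 2 := by
    rintro rfl
    exact (Nat.not_even_iff_odd.2 hX) (even_iff_two_dvd.2
      ((rk_pos_iff.1 (by omega : 0 < rk 2 B)).trans B.card_subgroup_dvd_card))
  have hSCN : IsSCN (P : Subgroup X) B := ⟨hBP, le_norm_iff.2 hBn, hBc⟩
  obtain ⟨c, hc, e⟩ := thompson_transitivity hqp
    (fun T hT h1 => Core.isPConstrained_iff.2 (Coprime.centralizer_pCore_quotient_le (hloc T hT h1)))
    (fun h => absurd h hp2) pB hBa h3 (fun x hx px => SCN_Sylow_cent_pgroup_le (Syl.of_sylow_top P)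
      hSCN px (le_inf le_top (zpowers_le.2 hx)) (mem_zpowers x)) Q₁
    (maxInv_mk le_top (PiGrp.p_iff.2 h₁.1) h₁.2.1 fun R _ h2 h3 h4 => (h₁.2.2 R h2.pgroup h3 h4).le)
    Q₂
    (maxInv_mk le_top (PiGrp.p_iff.2 h₂.1) h₂.2.1 fun R _ h2 h3 h4 => (h₂.2.2 R h2.pgroup h3 h4).le)
  exact ⟨c, pcore_le _ _ hc, e⟩

end Cfsg.Agent.S0522
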