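import Cfsg.Statements.S0524
import Cfsg.Agent.Lib.Solv.Super

set_option autoImplicit false
open Cfsg

namespace Cfsg.Agent.S0524

/-- The class of supersolvable groups is closed under subgroups and quotients: if a finite group has a chain of normal subgroups from the trivial subgroup to the whole group with cyclic steps, then so do each of its subgroups and each of its quotient groups. -/
theorem result {G : Type*} [Group G] [Finite G] (hG : Cfsg.IsSupersolvable G) (H N : Subgroup G) [N.Normal] : Cfsg.IsSupersolvable H ∧ Cfsg.IsSupersolvable (G ⧸ N) := by
  exact ⟨Cfsg.Lib.Solv.isSupersolvable_subgroup hG H, Cfsg.Lib.Solv.isSupersolvable_quotient hG N⟩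

end Cfsg.Agent.S0524
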