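import Cfsg.Statements.S0529
import Cfsg.Agent.Lib.Solv.Huppert
import Cfsg.Agent.Lib.Core.PiSeparable

set_option autoImplicit false
open Cfsg

namespace Cfsg.Agent.S0529

open Subgroup Cfsg.Lib Cfsg.Lib.Core Cfsg.Lib.Solv

/-- A finite supersolvable group has a chain of normal subgroups, from the trivial subgroup to the whole group, in which every step has prime index and the primes occurring are non-increasing as one goes up the chain. -/
theorem result {G : Type*} [Group G] [Finite G] (hG : Cfsg.IsSupersolvable G) : ∃ (n : ℕ) (H : Fin (n + 1) → Subgroup G), H 0 = ⊥ ∧ H (Fin.last n) = ⊤ ∧ (∀ i, (H i).Normal) ∧ (∀ i : Fin n, H i.castSucc ≤ H i.succ ∧ ((H i.castSucc).relIndex (H i.succ)).Prime) ∧ ∀ i j : Fin n, i ≤ j → (H j.castSucc).relIndex (H j.succ) ≤ (H i.castSucc).relIndex (H i.succ) := by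
  revert hG
  refine induction_on_card (P := fun G _ _ => IsSupersolvable G →
    ∃ (n : ℕ) (H : Fin (n + 1) → Subgroup G), H 0 = ⊥ ∧ H (Fin.last n) = ⊤ ∧ (∀ i, (H i).Normal) ∧
    (∀ i : Fin n, H i.castSucc ≤ H i.succ ∧ ((H i.castSucc).relIndex (H i.succ)).Prime) ∧
    ∀ i j : Fin n, i ≤ j → (H j.castSucc).relIndex (H j.succ) ≤ (H i.castSucc).relIndex (H i.succ))
    G fun G _ _ ih hG => ?_
  by_cases h1 : Nat.card G = 1
  · have := (Nat.card_eq_one_iff_unique.1 h1).1
    exact ⟨0, fun _ => ⊥, rfl, Subsingleton.elim _ _, fun _ => inferInstance, fun i => i.elim0,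
      fun i => i.elim0⟩
  obtain ⟨p, hp, hd, hmax⟩ := exists_max_prime Nat.card_pos.ne' h1
  obtain ⟨N, hN, hc⟩ := exists_normal_card_eq_max_prime hG hp hd hmax
  obtain ⟨n, H, h0, hl, hn, hs, hm⟩ := ih _ (card_quotient_lt (N := N) fun e =>
    hp.ne_one (by rw [← hc, e, card_bot])) (isSupersolvable_quotient hG N)
  have hf := QuotientGroup.mk'_surjective N
  have e0 : (⊥ : Subgroup G).relIndex ((H 0).comap (QuotientGroup.mk' N)) = p := by
    rw [h0, relIndex_bot_left, MonoidHom.comap_bot, QuotientGroup.ker_mk', hc]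
  refine ⟨n + 1, Fin.cons ⊥ fun i => (H i).comap (QuotientGroup.mk' N), rfl, ?_, fun i => ?_,
    fun i => ?_, fun i j hij => ?_⟩
  · rw [← Fin.succ_last, Fin.cons_succ, hl, comap_top]
  · refine Fin.cases normal_bot (fun i => ?_) i
    exact (hn i).comap _
  · refine Fin.cases ⟨bot_le, ?_⟩ (fun i => ?_) i
    · exact e0 ▸ hp
    · rw [← Fin.succ_castSucc, Fin.cons_succ, Fin.cons_succ, relIndex_comap_comap hf]
      exact ⟨comap_mono (hs i).1, (hs i).2⟩
  · revert hij
    refine Fin.cases (Fin.cases (fun _ => le_rfl) (fun j _ => ?_) j)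
      (fun i => Fin.cases (fun h => absurd h (by simp)) (fun j h => ?_) j) i
    · refine le_trans ?_ e0.ge
      rw [← Fin.succ_castSucc, Fin.cons_succ, Fin.cons_succ, relIndex_comap_comap hf]
      exact hmax _ (hs j).2 ((relIndex_dvd_card _ _).trans ((card_subgroup_dvd_card _).trans
        (card_quotient_dvd_card N)))
    · rw [← Fin.succ_castSucc, ← Fin.succ_castSucc, Fin.cons_succ, Fin.cons_succ, Fin.cons_succ,
        Fin.cons_succ, relIndex_comap_comap hf, relIndex_comap_comap hf]
      exact hm i j (Fin.succ_le_succ_iff.1 h)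

end Cfsg.Agent.S0529
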