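import Cfsg.Statements.S0530
import Cfsg.Agent.Lib.Solv.Huppert

set_option autoImplicit false
open Cfsg

namespace Cfsg.Agent.S0530

open Subgroup Cfsg.Lib Cfsg.Lib.Core Cfsg.Lib.Solv

/-- A finite group whose order is twice a prime power is supersolvable. -/
theorem result {G : Type*} [Group G] [Finite G] (p n : ℕ) (hp : p.Prime) (hG : Nat.card G = 2 * p ^ n) : Cfsg.IsSupersolvable G := by
  have := Fact.mk hp
  rcases hp.eq_two_or_odd' with rfl | ⟨k, hk⟩
  · exact isSupersolvable_of_isNilpotent (IsPGroup.of_card (p := 2) (n := n + 1)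
      (by rw [hG, pow_succ'])).isNilpotent
  let P : Sylow p G := default
  have hi : (P : Subgroup G).index = 2 := by
    refine Nat.eq_of_mul_eq_mul_left (Nat.card_pos (α := (P : Subgroup G))) ?_
    have h2 : ¬ p ∣ 2 := fun h => by have := Nat.le_of_dvd two_pos h; have := hp.two_le; omega
    rw [card_mul_index, P.card_eq_multiplicity, hG, Nat.factorization_mul two_ne_zero
      (pow_pos hp.pos n).ne', Finsupp.add_apply, Nat.factorization_eq_zero_of_not_dvd h2,
      hp.factorization_pow, Finsupp.single_eq_same, zero_add, mul_comm]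
  have hn := normal_of_index_eq_two hi
  have : IsCyclic (G ⧸ (P : Subgroup G)) := isCyclic_of_prime_card (p := 2) hi
  refine isSupersolvable_of_pow_sub_one hn P.2
    (Normal.quotient_commutative_iff_commutator_le.1 inferInstance) fun g => ?_
  rw [show p - 1 = 2 * k by omega, pow_mul]
  exact pow_mem (sq_mem_of_index_two hi g) k

end Cfsg.Agent.S0530
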