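import Cfsg.Statements.S0534
import Cfsg.Agent.Lib.Solv.Super
import Cfsg.Agent.Lib.Hall.Solvable

set_option autoImplicit false
open Cfsg

namespace Cfsg.Agent.S0534

open Subgroup Cfsg.Lib Cfsg.Lib.Core Cfsg.Lib.Solv

/-- Let G be a finite solvable group and A a finite abelian group such that every prime dividing the order of A divides the order of G and, for each prime p dividing the order of G, the exponent of p in the order of A is one less than its exponent in the order of G. Then G × A has a subgroup of every order dividing its order. -/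
theorem result {G A : Type*} [Group G] [CommGroup A] [Finite G] [Finite A] [Group.IsSolvable G] (hA : ∀ p : ℕ, p.Prime → p ∣ Nat.card A → p ∣ Nat.card G) (hexp : ∀ p : ℕ, p.Prime → p ∣ Nat.card G → (Nat.card A).factorization p + 1 = (Nat.card G).factorization p) : Cfsg.HasSubgroupOfEveryOrder (G × A) := by
  intro d hd
  rw [Nat.card_prod] at hd
  have hG : Nat.card G ≠ 0 := Nat.card_pos.ne'
  have hA0 : Nat.card A ≠ 0 := Nat.card_pos.ne'
  have hd0 : d ≠ 0 := ne_zero_of_dvd_ne_zero (mul_ne_zero hG hA0) hd
  obtain ⟨H, h1, h2⟩ := Hall.exists_isPiHall (G := G)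
    {p | (Nat.card G).factorization p ≤ d.factorization p}
  have hH : Nat.card H ≠ 0 := Nat.card_pos.ne'
  have h0 : ∀ p, (Nat.card G).factorization p = (Nat.card H).factorization p + H.index.factorization p :=
    fun p => by rw [← H.card_mul_index, Nat.factorization_mul hH index_ne_zero_of_finite, Finsupp.add_apply]
  have h3 : Nat.card H ∣ d := (Nat.factorization_prime_le_iff_dvd hH hd0).1 fun p hp => by
    by_cases h : p ∣ Nat.card H
    · have := h1 p hp h
      have := h0 p
      simp only [Set.mem_setOf_eq] at *
      omega
    · rw [Nat.factorization_eq_zero_of_not_dvd h]; exact Nat.zero_le _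
  obtain ⟨e, rfl⟩ := h3
  have he : e ≠ 0 := right_ne_zero_of_mul hd0
  have h4 : e ∣ Nat.card A := (Nat.factorization_prime_le_iff_dvd he hA0).1 fun p hp => by
    have h5 := (Nat.factorization_prime_le_iff_dvd hd0 (mul_ne_zero hG hA0)).2 hd p hp
    have h6 : (Nat.card H * e).factorization p = (Nat.card H).factorization p + e.factorization p := by
      rw [Nat.factorization_mul hH he, Finsupp.add_apply]
    rw [Nat.factorization_mul hG hA0, Finsupp.add_apply] at h5
    have h7 := h0 p
    by_cases h : (Nat.card G).factorization p ≤ (Nat.card H * e).factorization p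
    · have := Nat.factorization_eq_zero_of_not_dvd (h2 p hp h)
      omega
    · have := hexp p hp (Nat.dvd_of_factorization_pos (by omega))
      omega
  obtain ⟨B, hB⟩ := hasSubgroupOfEveryOrder (isSupersolvable_of_isNilpotent (G := A) inferInstance) e h4
  exact ⟨H.prod B, by rw [Nat.card_congr (H.prodEquiv B).toEquiv, Nat.card_prod, hB]⟩

end Cfsg.Agent.S0534
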