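import Cfsg.Statements.S0535
import Cfsg.Agent.Lib.Solv.System
import Cfsg.Agent.Lib.Hall.Converse

set_option autoImplicit false
open Cfsg

namespace Cfsg.Agent.S0535

open Cfsg.Lib Cfsg.Lib.Core Subgroup

/-- Suppose that for every nontrivial subgroup H of a finite group and every prime p dividing the order of H there is a proper subgroup of H whose index in H is a power of p. Then the group is solvable. -/
theorem result {G : Type*} [Group G] [Finite G] (h : ∀ H : Subgroup G, H ≠ ⊥ → ∀ p : ℕ, p.Prime → p ∣ Nat.card H → ∃ K : Subgroup H, K ≠ ⊤ ∧ ∃ k : ℕ, K.index = p ^ k) : Group.IsSolvable G := by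
  refine Hall.isSolvable_of_complements_aux _ G rfl fun p hp => ?_
  obtain ⟨H, -, ⟨k, hk⟩, hmin⟩ := exists_minimal_le (H := ⊤)
    (P := fun H : Subgroup G => ∃ k, H.index = p ^ k) ⟨0, by simp⟩
  have h1 : ¬ p ∣ Nat.card H := fun hd => by
    obtain ⟨K, h1, j, hj⟩ := h H (fun e => hp.ne_one (by simpa [e] using hd)) p hp hd
    exact h1 (map_subtype_eq_self_iff.1 (hmin _ ⟨j + k, by
      rw [← relIndex_mul_index (map_subtype_le K), relIndex_map_subtype, hj, hk, pow_add]⟩
      (map_subtype_le K)))
  refine ⟨H, ?_⟩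
  rw [← card_mul_index H, Nat.factorization_mul Nat.card_pos.ne' index_ne_zero_of_finite, hk]
  simp [Nat.factorization_eq_zero_of_not_dvd h1, hp.factorization_pow]

end Cfsg.Agent.S0535
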