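import Cfsg.Statements.S0540
import Cfsg.Agent.Lib.Core.Subnormal

set_option autoImplicit false
open Pointwise
open Cfsg

namespace Cfsg.Agent.S0540

open Cfsg.Lib Cfsg.Lib.Core Cfsg.Lib.Transfer Subgroup

/-- A uniqueness lemma of zipper type. Let A be a subgroup of a finite group G and U a nonempty family of subgroups. For V in U write S(V) for the set of conjugates of A that lie in V and are subnormal in V. Assume: A belongs to S(V) for every V in U; a member of some S(W) that lies in V belongs to S(V); and for all V, W in U the normalizer of the join of S(V) ∩ S(W) lies in some member of U. Then U has a greatest element. -/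
theorem result {G : Type*} [Group G] [Finite G] (A : Subgroup G) (U : Set (Subgroup G)) (hU : U.Nonempty) (S : Subgroup G → Set (Subgroup G)) (hS : ∀ V B : Subgroup G, B ∈ S V ↔ (∃ g : G, B = MulAut.conj g • A) ∧ B ≤ V ∧ (B.subgroupOf V).IsSubnormal) (h1 : ∀ V ∈ U, A ∈ S V) (h2 : ∀ V ∈ U, ∀ W ∈ U, ∀ B ∈ S W, B ≤ V → B ∈ S V) (h3 : ∀ V ∈ U, ∀ W ∈ U, ∃ X ∈ U, Subgroup.normalizer ((sSup (S V ∩ S W) : Subgroup G) : Set G) ≤ X) : ∃ M ∈ U, ∀ V ∈ U, V ≤ M := by
  simp only [Core.conj_smul_eq_map, ← subnormalIn_iff] at hS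
  have hc : ∀ V, ∀ B ∈ S V, ∀ g ∈ V, g ⋆ B ∈ S V := fun V B hB g hg => by
    obtain ⟨⟨x, rfl⟩, h⟩ := (hS _ _).1 hB
    exact (hS _ _).2 ⟨⟨g * x, conj_conj _ _ _⟩, h.conj_of_mem hg⟩
  have hs : ∀ V, ∀ B ∈ S V, SubnormalIn B V := fun V B hB => ((hS _ _).1 hB).2
  let Mx : Subgroup G → Prop := fun V => V ∈ U ∧ ∀ K, K ∈ U → V ≤ K → K = V
  have hN : ∀ V, Mx V → normalizer ((sSup (S V) : Subgroup G) : Set G) = V := fun V hV => by
    obtain ⟨X, hX, h⟩ := h3 V hV.1 V hV.1
    rw [Set.inter_self] at h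
    have h4 : V ≤ normalizer ((sSup (S V) : Subgroup G) : Set G) := fun g hg =>
      mem_normalizer_of_conj_le (by
        rw [map_le_iff_le_comap, sSup_le_iff]
        exact fun B hB => map_le_iff_le_comap.1 (le_sSup (hc V B hB g hg)))
    exact le_antisymm (h.trans (hV.2 X hX (h4.trans h)).le) h4
  have hlt : ∀ V W, Mx V → Mx W → V ≠ W → S V ∩ S W ⊂ S V := fun V W hV hW hne => by
    refine Set.inter_subset_left.ssubset_of_ne fun e => ?_
    have h4 : S V ⊆ S W := Set.inter_eq_left.1 e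
    obtain ⟨X, hX, h5, h6⟩ := exists_notMem_le_normalizer_sSup (hs W) (hc W) (h4.ssubset_of_ne fun e =>
      hne (by rw [← hN V hV, e, hN W hW]))
    exact h5 (h2 V hV.1 W hW.1 X hX (hN V hV ▸ h6))
  have key : ∀ (n : ℕ) V W, Mx V → Mx W → Nat.card (Subgroup G) - (S V ∩ S W).ncard = n → V = W := by
    intro n
    induction n using Nat.strong_induction_on with | _ n ih
    intro V W hV hW hn
    by_contra hne
    obtain ⟨X, hX, h4⟩ := h3 V hV.1 W hW.1
    obtain ⟨M, h5, hM⟩ := exists_maximal_ge (P := (· ∈ U)) hX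
    have h6 : ∀ V' W', Mx V' → Mx W' → V' ≠ W' → S V' ∩ S W' = S V ∩ S W → V' = M := by
      intro V' W' hV' hW' hne' e
      obtain ⟨Y, hY, h7, h8⟩ := exists_notMem_le_normalizer_sSup (hs V') (hc V') (hlt V' W' hV' hW' hne')
      rw [e] at h7 h8
      refine ih _ ?_ V' M hV' hM rfl
      have h9 : (S V ∩ S W).ncard < (S V' ∩ S M).ncard := Set.ncard_lt_ncard ⟨
        fun B hB => ⟨(e.ge hB).1, h2 M hM.1 V hV.1 B hB.1 ((le_sSup hB).trans
          (le_normalizer.trans (h4.trans h5)))⟩,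
        fun h => h7 (h ⟨hY, h2 M hM.1 V' hV'.1 Y hY (h8.trans (h4.trans h5))⟩)⟩
      have := Set.ncard_le_card (S V' ∩ S M)
      omega
    exact hne ((h6 V W hV hW hne rfl).trans (h6 W V hW hV (Ne.symm hne) (Set.inter_comm _ _)).symm)
  obtain ⟨V, hV⟩ := hU
  obtain ⟨M, -, hM⟩ := exists_maximal_ge (P := (· ∈ U)) hV
  refine ⟨M, hM.1, fun W hW => ?_⟩
  obtain ⟨M', h, hM'⟩ := exists_maximal_ge (P := (· ∈ U)) hW
  exact key _ M' M hM' hM rfl ▸ h

end Cfsg.Agent.S0540
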