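import Cfsg.Statements.S0541
import Cfsg.Agent.Lib.Core.Subnormal

set_option autoImplicit false
open Pointwise
open Cfsg

namespace Cfsg.Agent.S0541

open Cfsg.Lib Cfsg.Lib.Core Cfsg.Lib.Transfer Subgroup

/-- Let Z and Y be subgroups of a finite group G and p a prime. Suppose that for every g in G the subgroup generated by the conjugates of g Z g⁻¹ under Y is a p-group. Then there is a Sylow p-subgroup P of G such that Y normalizes the subgroup generated by all conjugates of Z contained in P. -/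
theorem result {G : Type*} [Group G] [Finite G] (p : ℕ) [Fact p.Prime] (Z Y : Subgroup G) (h : ∀ g : G, IsPGroup p ↥(⨆ y ∈ Y, MulAut.conj (y * g) • Z)) : ∃ P : Sylow p G, Y ≤ Subgroup.normalizer ((⨆ g ∈ {g : G | MulAut.conj g • Z ≤ (P : Subgroup G)}, MulAut.conj g • Z : Subgroup G) : Set G) := by
  simp only [Core.conj_smul_eq_map] at h ⊢
  let S : Subgroup G → Set (Subgroup G) := fun W => {B | (∃ g, B = g ⋆ Z) ∧ B ≤ W}
  obtain ⟨W, -, ⟨h1, h2, h3⟩, hmax⟩ := exists_maximal_ge (H := ⊥) (P := fun W : Subgroup G =>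
    IsPGroup p W ∧ Y ≤ normalizer (W : Set G) ∧ W ≤ sSup (S W))
    ⟨IsPGroup.of_bot, le_normalizer_of_normal, bot_le⟩
  obtain ⟨P, hP⟩ := h1.exists_le_sylow
  have h4 : sSup (S W) = W := le_antisymm (sSup_le fun B hB => hB.2) h3
  have h5 : S W = S P := by_contra fun hne => by
    obtain ⟨_, ⟨⟨g, rfl⟩, -⟩, h6, h7⟩ := exists_notMem_le_normalizer_sSup (H := P) (S := S P) (S₀ := S W)
      (fun U hU => SubnormalIn.of_isNilpotent P.isPGroup'.isNilpotent hU.2)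
      (fun U hU g hg => by
        obtain ⟨⟨x, rfl⟩, hU⟩ := hU
        exact ⟨⟨g * x, conj_conj _ _ _⟩, map_conj_le_of_mem hU hg⟩)
      (LE.le.ssubset_of_ne (fun B hB => ⟨hB.1, hB.2.trans hP⟩) hne)
    rw [h4] at h7
    have h8 : (⨆ y ∈ Y, (y * g) ⋆ Z) ≤ normalizer (W : Set G) := iSup₂_le fun y hy => by
      rw [← conj_conj]
      exact map_conj_le_of_mem h7 (h2 hy)
    have h9 : Y ≤ normalizer ((⨆ y ∈ Y, (y * g) ⋆ Z : Subgroup G) : Set G) := fun x hx =>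
      mem_normalizer_of_conj_le (by
        rw [map_le_iff_le_comap]
        refine iSup₂_le fun y hy => map_le_iff_le_comap.1 ?_
        rw [conj_conj, ← mul_assoc]
        exact le_iSup₂_of_le (f := fun y (_ : y ∈ Y) => (y * g) ⋆ Z) (x * y) (mul_mem hx hy) le_rfl)
    have h10 := hmax ((⨆ y ∈ Y, (y * g) ⋆ Z) ⊔ W) ⟨IsPGroup.to_sup_of_normal_right' (h g) h1 h8,
      le_normalizer_sup h9 h2, sup_le (iSup₂_le fun y hy => le_sSup ⟨⟨_, rfl⟩, le_sup_of_le_left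
        (le_iSup₂_of_le (f := fun y (_ : y ∈ Y) => (y * g) ⋆ Z) y hy le_rfl)⟩)
        (h3.trans (sSup_le_sSup fun B hB => ⟨hB.1, hB.2.trans le_sup_right⟩))⟩ le_sup_right
    refine h6 ⟨⟨g, rfl⟩, le_trans ?_ (le_sup_left.trans h10.le)⟩
    exact le_iSup₂_of_le (f := fun y (_ : y ∈ Y) => (y * g) ⋆ Z) 1 Y.one_mem (by rw [one_mul])
  refine ⟨P, ?_⟩
  convert h2 using 3
  rw [← h4, h5]
  exact le_antisymm (iSup₂_le fun g hg => le_sSup ⟨⟨g, rfl⟩, hg⟩)
    (sSup_le fun B ⟨⟨g, e⟩, hB⟩ => e ▸ le_iSup₂_of_le (f := fun g (_ : g ∈ {g : G | g ⋆ Z ≤ P}) => g ⋆ Z)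
      g (e.ge.trans hB) le_rfl)

end Cfsg.Agent.S0541
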