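import Cfsg.Statements.S0550
import Cfsg.Agent.Lib.Solv.CoreFree

set_option autoImplicit false
open Cfsg

namespace Cfsg.Agent.S0550

open Subgroup Cfsg.Lib Cfsg.Lib.Core Cfsg.Lib.Solv

/-- Let U be a maximal subgroup with trivial normal core in a finite group G, and A ≠ B two minimal normal subgroups. Then A is the centralizer of B and B that of A, U complements each of them, A and B are non-abelian, and A, B and (A ⊔ B) ∩ U are pairwise isomorphic. -/
theorem result {G : Type*} [Group G] [Finite G] (U : Subgroup G) (hU : IsCoatom U) (hcore : U.normalCore = ⊥) (A B : Subgroup G) [A.Normal] [B.Normal] (hA : A ≠ ⊥) (hB : B ≠ ⊥) (hAmin : ∀ K : Subgroup G, K.Normal → K ≤ A → K = ⊥ ∨ K = A) (hBmin : ∀ K : Subgroup G, K.Normal → K ≤ B → K = ⊥ ∨ K = B) (hAB : A ≠ B) : Subgroup.centralizer (B : Set G) = A ∧ Subgroup.centralizer (A : Set G) = B ∧ Subgroup.IsComplement' A U ∧ Subgroup.IsComplement' B U ∧ ¬ IsMulCommutative A ∧ Nonempty (A ≃* B) ∧ Nonempty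 (A ≃* ↥((A ⊔ B) ⊓ U)) := by
  have mA : IsMinNormal A := ⟨inferInstance, hA, hAmin⟩
  have mB : IsMinNormal B := ⟨inferInstance, hB, hBmin⟩
  have h1 := eq_centralizer_of_coreFree hU hcore mB.normal hB mA.normal hA (mA.le_centralizer_of_ne mB hAB)
  have h2 := eq_centralizer_of_coreFree hU hcore mA.normal hA mB.normal hB
    (mB.le_centralizer_of_ne mA hAB.symm)
  have h3 : A ⊓ U = ⊥ := h1 ▸ centralizer_inf_eq_bot_of_coreFree hU hcore mB.normal hB
  have h4 : B ⊓ U = ⊥ := h2 ▸ centralizer_inf_eq_bot_of_coreFree hU hcore mA.normal hA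
  have h5 := sup_eq_top_of_coreFree hU hcore mA.normal hA
  have h6 := sup_eq_top_of_coreFree hU hcore mB.normal hB
  have h7 := mA.inf_eq_bot_of_ne mB hAB
  have e1 : Nonempty (A ≃* ↥((A ⊔ B) ⊓ U)) := nonempty_equiv_of_sup_eq h7
    (by rw [inf_assoc, inf_comm U, h4, inf_bot_eq]) (by
      rw [sup_comm ((A ⊔ B) ⊓ U), inf_comm,
        ← sup_inf_of_le_normalizer' le_sup_right le_normalizer_of_normal, h6, top_inf_eq])
  have e2 : Nonempty (B ≃* ↥((A ⊔ B) ⊓ U)) := nonempty_equiv_of_sup_eq (inf_comm A B ▸ h7)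
    (by rw [inf_assoc, inf_comm U, h3, inf_bot_eq]) (by
      rw [sup_comm B A, sup_comm ((A ⊔ B) ⊓ U), inf_comm,
        ← sup_inf_of_le_normalizer' le_sup_left le_normalizer_of_normal, h5, top_inf_eq])
  refine ⟨h1.symm, h2.symm, isComplement'_of_inf_eq_bot h3 h5, isComplement'_of_inf_eq_bot h4 h6,
    fun h => hA ?_, ⟨e1.some.trans e2.some.symm⟩, e1⟩
  rw [← h7, eq_comm, inf_eq_left, h2]
  exact le_centralizer A

end Cfsg.Agent.S0550
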