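import Cfsg.Statements.S0552
import Cfsg.Agent.Lib.Core.Fitting

set_option autoImplicit false
open Cfsg

namespace Cfsg.Agent.S0552

open Subgroup Cfsg.Lib Cfsg.Lib.Core

/-- Let σ be an automorphism of a finite solvable group G fixing every element of the Fitting subgroup. If σ is not the identity then the order of σ and the order of G have a common prime factor. -/
theorem result {G : Type*} [Group G] [Finite G] [Group.IsSolvable G] (σ : G ≃* G) (hσ : ∀ x ∈ Cfsg.fittingSubgroup G, σ x = x) (hne : σ ≠ MulEquiv.refl G) : ¬ (orderOf σ).Coprime (Nat.card G) := by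
  intro hc
  refine hne (MulEquiv.ext fun g => ?_)
  have h1 : g⁻¹ * σ g ∈ fittingSubgroup G := centralizer_fittingSubgroup_le fun x hx => by
    have h2 := hσ _ ((fittingSubgroup_normal G).conj_mem x hx g)
    rw [map_mul, map_mul, map_inv, hσ x hx] at h2
    calc x * (g⁻¹ * σ g) = g⁻¹ * (g * x * g⁻¹) * σ g := by group
      _ = g⁻¹ * σ g * x := by rw [← h2]; group
  have h3 : ∀ n : ℕ, (σ ^ n) g = g * (g⁻¹ * σ g) ^ n := fun n => by
    induction n with
    | zero => simp
    | succ n ih =>
      rw [pow_succ', MulAut.mul_apply, ih, map_mul, map_pow, hσ _ h1, pow_succ', ← mul_assoc,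
        mul_inv_cancel_left]
  have h4 := h3 (orderOf σ)
  rw [pow_orderOf_eq_one, MulAut.one_apply, left_eq_mul] at h4
  have h5 : g⁻¹ * σ g = 1 := orderOf_eq_one_iff.1 (Nat.eq_one_of_dvd_coprimes hc
    (orderOf_dvd_of_pow_eq_one h4) (orderOf_dvd_natCard _))
  exact (inv_mul_eq_one.1 h5).symm

end Cfsg.Agent.S0552
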