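import Cfsg.Statements.S0553
import Cfsg.Agent.Lib.Solv.Schmidt

set_option autoImplicit false
open Cfsg

namespace Cfsg.Agent.S0553

open Subgroup Cfsg.Lib Cfsg.Lib.Core Cfsg.Lib.Solv

/-- Let G be a nontrivial finite solvable group in which every maximal subgroup has order coprime to its index. Then for some prime p dividing the order of G the Sylow p-subgroups of G are normal. -/
theorem result {G : Type*} [Group G] [Finite G] [Group.IsSolvable G] [Nontrivial G] (h : ∀ M : Subgroup G, IsCoatom M → (Nat.card M).Coprime M.index) : ∃ p : ℕ, p.Prime ∧ p ∣ Nat.card G ∧ ∀ P : Sylow p G, (P : Subgroup G).Normal := by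
  have h1 : ¬ fittingSubgroup G ≤ frattini G := frattini_lt_fittingSubgroup.not_ge
  rw [fittingSubgroup_eq_iSup_pCore, iSup_le_iff, not_forall] at h1
  obtain ⟨⟨p, hp⟩, h1⟩ := h1
  have := Fact.mk hp
  obtain ⟨M, hM, -, hs⟩ := exists_isCoatom_sup_eq_top h1
  obtain ⟨k, hk⟩ := card_pCore_eq_pow (G := G) p
  obtain ⟨j, -, hj⟩ := (Nat.dvd_prime_pow hp).1 (hk ▸ index_dvd_card_of_sup_eq_top' hs)
  have h2 : p ∣ M.index := hj ▸ dvd_pow_self p fun e => hM.1 (index_eq_one.1 (by rw [hj, e, pow_zero]))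
  refine ⟨p, hp, h2.trans M.index_dvd_card, fun P => ?_⟩
  rw [sylow_eq_pCore_of_not_dvd_index (fun h3 => hp.ne_one (Nat.eq_one_of_dvd_coprimes (h M hM)
    (h3.trans (index_dvd_card_of_sup_eq_top hs)) h2)) P]
  infer_instance

end Cfsg.Agent.S0553
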