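import Cfsg.Statements.S0554
import Cfsg.Agent.Lib.Core.MinNormal
import Cfsg.Agent.Lib.Transfer.SylowIn

set_option autoImplicit false
open Cfsg

namespace Cfsg.Agent.S0554

open Subgroup Cfsg.Lib Cfsg.Lib.Core
open scoped Pointwise

theorem prod_mul {G : Type*} [Group G] (N : Subgroup G) [N.Normal] (l : List (Subgroup G))
    (h : ∃ H ∈ l, N ≤ H) :
    (l.map fun H : Subgroup G => (H : Set G)).prod * (N : Set G) =
      (l.map fun H : Subgroup G => (H : Set G)).prod := by
  induction l with
  | nil => simp at h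
  | cons H l ih =>
    rw [List.map_cons, List.prod_cons, mul_assoc]
    by_cases h1 : N ≤ H
    · rw [set_mul_normal_comm, ← mul_assoc, ← mul_normal, sup_eq_left.2 h1]
    · rw [ih (by simpa [h1] using h)]

theorem image_prod {G G' : Type*} [Group G] [Group G'] (f : G →* G') (l : List (Subgroup G)) :
    f '' (l.map fun H : Subgroup G => (H : Set G)).prod =
      ((l.map (Subgroup.map f)).map fun H : Subgroup G' => (H : Set G')).prod := by
  induction l with
  | nil => simp [Set.singleton_one]
  | cons H l ih => simp only [List.map_cons, List.prod_cons, Set.image_mul, ih, coe_map]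

theorem aux {G : Type*} [Group G] [Finite G] [h : Group.IsSolvable G] (l : List (Subgroup G))
    (hl : ∀ q : ℕ, q.Prime → q ∣ Nat.card G → ∃ H ∈ l, ¬ q ∣ H.index) :
    (l.map fun H : Subgroup G => (H : Set G)).prod = Set.univ := by
  revert h l
  refine induction_on_isMinNormal (P := fun G _ _ => ∀ [Group.IsSolvable G] (l : List (Subgroup G)),
    (∀ q : ℕ, q.Prime → q ∣ Nat.card G → ∃ H ∈ l, ¬ q ∣ H.index) →
    (l.map fun H : Subgroup G => (H : Set G)).prod = Set.univ) G (fun G _ _ _ _ l _ => ?_)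
    fun G _ _ N _ hN ih _ l hl => ?_
  · refine Set.eq_univ_of_forall fun x => Subsingleton.elim 1 x ▸ ?_
    induction l with
    | nil => simp [Set.singleton_one]
    | cons H l ih => exact ⟨1, H.one_mem, 1, ih (fun q hq hd => absurd (Nat.dvd_one.1
        (Nat.card_unique (α := G) ▸ hd)) hq.ne_one), mul_one 1⟩
  obtain ⟨p, hp, hpN⟩ := hN.exists_isPGroup inferInstance
  have := Fact.mk hp
  have h1 := ih (l.map (Subgroup.map (QuotientGroup.mk' N))) fun q hq hd => by
    obtain ⟨H, hH, h⟩ := hl q hq (hd.trans (card_quotient_dvd_card N))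
    exact ⟨_, List.mem_map_of_mem hH, fun h2 =>
      h (h2.trans (index_map_dvd H (QuotientGroup.mk'_surjective N)))⟩
  obtain ⟨k, hk⟩ := IsPGroup.iff_card.1 hpN
  obtain ⟨H, hH, h⟩ := hl p hp ((hk ▸ dvd_pow_self p fun e => hN.ne_bot
    (card_eq_one.1 (by rw [hk, e, pow_zero]))).trans (card_subgroup_dvd_card N))
  obtain ⟨g, hg⟩ := Transfer.exists_conj_le_of_not_dvd_index h hpN
  rw [Transfer.conj_eq_self_of_normal] at hg
  rw [← prod_mul N l ⟨H, hH, hg⟩]
  refine Set.eq_univ_of_forall fun x => ?_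
  obtain ⟨y, hy, e⟩ : QuotientGroup.mk' N x ∈ _ := (h1 ▸ image_prod _ l).ge (Set.mem_univ _)
  exact ⟨y, hy, _, QuotientGroup.eq.1 e, mul_inv_cancel_left y x⟩

/-- Let G be a finite solvable group and let S assign to each of t distinct primes, including every prime divisor of the order of G, a Sylow subgroup of G. Then every element of G is a product s_0 s_1 ⋯ s_(t-1) with s_i in S i, the factors taken in the given order. -/
theorem result {G : Type*} [Group G] [Finite G] [Group.IsSolvable G] (t : ℕ) (p : Fin t → ℕ) (hp : ∀ i, (p i).Prime) (hinj : Function.Injective p) (hall : ∀ q : ℕ, q.Prime → q ∣ Nat.card G → ∃ i, p i = q) (S : (i : Fin t) → Sylow (p i) G) : ∀ g : G, ∃ s : (i : Fin t) → G, (∀ i, s i ∈ (S i : Subgroup G)) ∧ g = (List.ofFn s).prod := by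
  intro g
  have h := aux (List.ofFn fun i => (S i : Subgroup G)) fun q hq hd => by
    obtain ⟨i, rfl⟩ := hall q hq hd
    have := Fact.mk hq
    exact ⟨_, List.mem_ofFn.2 ⟨i, rfl⟩, (S i).not_dvd_index⟩
  rw [List.map_ofFn] at h
  obtain ⟨f, hf⟩ := Set.mem_prod_list_ofFn.1 (h.ge (Set.mem_univ g))
  exact ⟨fun i => f i, fun i => (f i).2, hf.symm⟩

end Cfsg.Agent.S0554
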