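import Cfsg.Statements.S0555
import Cfsg.Agent.Lib.PGroup.Metacyclic
import Cfsg.Agent.Lib.Core.Basic

set_option autoImplicit false
open Cfsg

namespace Cfsg.Agent.S0555

open Cfsg.Lib Cfsg.Lib.Core Subgroup

/-- Let i ≥ 1. If in the derived series of a group the quotient of the i-th term by the (i+1)-st and the quotient of the (i+1)-st by the (i+2)-nd are both cyclic, then the (i+1)-st and (i+2)-nd terms coincide. -/
theorem result {G : Type*} [Group G] (i : ℕ) (hi : 1 ≤ i) (h₁ : IsCyclic (↥(derivedSeries G i) ⧸ (derivedSeries G (i + 1)).subgroupOf (derivedSeries G i))) (h₂ : IsCyclic (↥(derivedSeries G (i + 1)) ⧸ (derivedSeries G (i + 2)).subgroupOf (derivedSeries G (i + 1)))) : derivedSeries G (i + 1) = derivedSeries G (i + 2) := by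
  have key : ∀ {H N : Subgroup G} [(N.subgroupOf H).Normal], IsCyclic (H ⧸ N.subgroupOf H) →
      ∃ x ∈ H, ∀ y ∈ H, ∃ k : ℤ, (x ^ k)⁻¹ * y ∈ N := fun {H N} _ h => by
    obtain ⟨g, hg⟩ := h.exists_zpow_surjective
    obtain ⟨x, rfl⟩ := QuotientGroup.mk_surjective g
    refine ⟨x, x.2, fun y hy => ?_⟩
    obtain ⟨k, hk⟩ := hg ((⟨y, hy⟩ : H) : H ⧸ N.subgroupOf H)
    exact ⟨k, by simpa [mem_subgroupOf] using QuotientGroup.eq.1 ((QuotientGroup.mk_zpow _ _ _).trans hk)⟩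
  obtain ⟨x, hx, h1⟩ := key h₁
  obtain ⟨z, hz, h2⟩ := key h₂
  obtain ⟨j, rfl⟩ := Nat.exists_eq_add_of_le' hi
  let f := QuotientGroup.mk' (derivedSeries G (j + 1 + 2))
  have h3 : (derivedSeries G (j + 1 + 1)).map f = zpowers (f z) :=
    le_antisymm (by
      rintro _ ⟨y, hy, rfl⟩
      obtain ⟨k, hk⟩ := h2 y hy
      exact ⟨k, (map_zpow f z k).symm.trans (QuotientGroup.eq.2 hk)⟩) (zpowers_le.2 ⟨z, hz, rfl⟩)
  have h4 : (derivedSeries G (j + 1)).map f ≤
      centralizer (((derivedSeries G (j + 1 + 1)).map f : Subgroup _) : Set _) := by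
    have : ((derivedSeries G (j + 1 + 1)).map f).Normal := Normal.map inferInstance f
      (QuotientGroup.mk'_surjective _)
    rw [derivedSeries_succ G j, map_commutator]
    exact PGroup.commutator_le_centralizer_of_isCyclic (h3 ▸ inferInstance) le_normalizer_of_normal
      le_normalizer_of_normal
  refine le_antisymm ?_ (commutator_le_left _ _)
  rw [derivedSeries_succ G (j + 1), commutator_le_iff_map_mk', commutator_eq_bot_iff_le_centralizer]
  rintro _ ⟨a, ha, rfl⟩ _ ⟨b, hb, rfl⟩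
  obtain ⟨k, hk⟩ := h1 a ha
  obtain ⟨l, hl⟩ := h1 b hb
  have e1 : Commute (f ((x ^ k)⁻¹ * a)) (f b) := h4 ⟨b, hb, rfl⟩ _ ⟨_, hk, rfl⟩
  have e2 : Commute (f ((x ^ l)⁻¹ * b)) (f (x ^ k)) := h4 ⟨_, zpow_mem hx k, rfl⟩ _ ⟨_, hl, rfl⟩
  have e3 : Commute (f (x ^ l)) (f (x ^ k)) := (Commute.zpow_zpow_self x l k).map f
  have e4 := e3.mul_left e2
  rw [← map_mul, mul_inv_cancel_left] at e4
  have e5 := e4.mul_right e1.symm
  rwa [← map_mul, mul_inv_cancel_left] at e5

end Cfsg.Agent.S0555
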