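import Cfsg.Statements.S0557
import Cfsg.Agent.Lib.Transfer.Criteria
import Cfsg.Agent.Lib.Coprime.Nilpotent

set_option autoImplicit false
open Cfsg

namespace Cfsg.Agent.S0557

open Cfsg.Lib Cfsg.Lib.Core Cfsg.Lib.Transfer Subgroup
open scoped commutatorElement

/-- Let H be a subgroup of a finite group G with order coprime to its index. If iterating the focal-subgroup construction starting from H reaches the trivial subgroup after finitely many steps, then H has a normal complement in G. -/
theorem result {G : Type*} [Group G] [Finite G] (H : Subgroup G) (hHall : (Nat.card H).Coprime H.index) (n : ℕ) (hfoc : (fun K : Subgroup G => Subgroup.focalSubgroup K)^[n] H = ⊥) : ∃ N : Subgroup G, N.Normal ∧ Subgroup.IsComplement' N H := by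
  refine exists_normal_complement_of_forall_prime H hHall fun q hq hd => ?_
  have := Fact.mk hq
  have key : ∀ Q : Subgroup G, Q ≤ H → IsPGroup q Q → ∀ g ∈ normalizer (Q : Set G),
      (orderOf g).Coprime q → g ∈ centralizer (Q : Set G) := fun Q hQ hp g hg hc => by
    have h1 : ∀ i, ∀ y ∈ Q ⊓ (fun K : Subgroup G => focalSubgroup K)^[i] H, ∀ a ∈ zpowers g,
        ⁅y, a⁆ ∈ Q ⊓ (fun K : Subgroup G => focalSubgroup K)^[i + 1] H := fun i => by
      have h2 : ∀ y ∈ Q, ∀ a ∈ zpowers g, ⁅y, a⁆ ∈ Q := fun y hy a ha =>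
        le_normalizer_iff_commutator_le_left.1 (zpowers_le.2 hg) (commutator_mem_commutator hy ha)
      induction i with
      | zero => exact fun y hy a ha => ⟨h2 y hy.1 a ha, subset_closure ⟨hQ (h2 y hy.1 a ha), y, hy.2, a, rfl⟩⟩
      | succ i ih =>
        refine fun y hy a ha => ⟨h2 y hy.1 a ha, ?_⟩
        rw [Function.iterate_succ_apply']
        refine subset_closure ⟨(ih y ⟨hy.1, ?_⟩ a ha).2, y, hy.2, a, rfl⟩
        rw [Function.iterate_succ_apply'] at hy
        exact focalSubgroup_le _ hy.2
    have h3 := Coprime.le_centralizer_of_chain (A := zpowers g)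
      (fun i => Q ⊓ (fun K : Subgroup G => focalSubgroup K)^[i] H) n (by rw [hfoc, inf_bot_eq])
      (fun i _ => commutator_le.2 (h1 i)) fun i _ => by
        rw [Nat.card_zpowers]
        exact (coprime_card_of_isPGroup hp hc).symm.coprime_dvd_right (card_dvd_of_le inf_le_left)
    rw [Function.iterate_zero_apply, inf_eq_left.2 hQ] at h3
    exact h3 (mem_zpowers g)
  refine hasNormalPComplement_top_iff.1 (hasNormalPComplement_subgroup_iff.2 fun Q _ hQ g _ hg hc => ?_)
  obtain ⟨x, hx⟩ := exists_conj_le_of_not_dvd_index (T := H) (fun h =>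
    hq.ne_one (Nat.eq_one_of_dvd_coprimes hHall hd h)) hQ
  rw [← conj_mem_conj (g := x), conj_centralizer]
  exact key _ hx (isPGroup_conj hQ x) _ (by rwa [← conj_normalizer, conj_mem_conj])
    (by rwa [← MulAut.conj_apply, MulEquiv.orderOf_eq])

end Cfsg.Agent.S0557
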