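import Cfsg.Statements.S0558
import Cfsg.Agent.Lib.Transfer.Criteria
import Cfsg.Agent.Lib.Coprime.Sylow
import Cfsg.Agent.Lib.Core.MinNormal

set_option autoImplicit false
open Cfsg

namespace Cfsg.Agent.S0558

open Cfsg.Lib Cfsg.Lib.Core Cfsg.Lib.Transfer Subgroup

/-- Let H be a subgroup of a finite group G that is not a Sylow subgroup of G for any prime, and suppose that for every prime p dividing the order of H and every Sylow p-subgroup P of H the normalizer of P in G is exactly H. Then some normal subgroup of G is a complement to H. -/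
theorem result {G : Type*} [Group G] [Finite G] (H : Subgroup G) (hnot : ∀ p : ℕ, p.Prime → ∀ P : Sylow p G, (P : Subgroup G) ≠ H) (hnorm : ∀ p : ℕ, p.Prime → p ∣ Nat.card H → ∀ P : Sylow p H, Subgroup.normalizer (((P : Subgroup H).map H.subtype : Subgroup G) : Set G) = H) : ∃ N : Subgroup G, N.Normal ∧ Subgroup.IsComplement' N H := by
  have hH : Group.IsNilpotent H := (Group.isNilpotent_of_finite_tfae.out 3 0).1
    (show ∀ (p : ℕ) (_ : Fact p.Prime) (P : Sylow p H), (P : Subgroup H).Normal from fun p hp P => by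
      by_cases hd : p ∣ Nat.card H
      · exact (normal_iff_le_normalizer_map_subtype _).2 (hnorm p hp.out hd P).ge
      · rw [eq_bot_of_isPGroup_of_coprime P.isPGroup' ((coprime_iff_not_dvd.2 hd).coprime_dvd_left
          (card_subgroup_dvd_card _))]; infer_instance)
  have h1 : ∀ p : ℕ, p.Prime → p ∣ Nat.card H →
      normalizer (((pCore p H).map H.subtype : Subgroup G) : Set G) = H ∧
      ¬ p ∣ ((pCore p H).map H.subtype).index := fun p hp hd => by
    have := Fact.mk hp
    obtain ⟨P, hP⟩ := exists_sylow_map_eq_iff.2 ⟨pCoreOf_le p H, pCoreOf_isPGroup p H,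
      not_dvd_relIndex_pCoreOf hH p⟩
    have h1 := hP ▸ hnorm p hp hd P
    refine ⟨h1, ?_⟩
    rw [← relIndex_top_right]
    exact Coprime.not_dvd_relIndex_of_normalizer le_top (pCoreOf_isPGroup p H)
      (by rw [top_inf_eq, h1]; exact not_dvd_relIndex_pCoreOf hH p)
  refine exists_normal_complement_of_forall_prime H (Nat.coprime_of_dvd fun p hp hd h =>
    (h1 p hp hd).2 (h.trans (index_dvd_of_le (pCoreOf_le p H)))) fun p hp hd => ?_
  have := Fact.mk hp
  have hR : (pPrimeCore p H).map H.subtype ≠ ⊥ := fun e => by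
    have h2 := pCoreOf_sup_pPrimeCoreOf hH p
    rw [e, sup_bot_eq] at h2
    obtain ⟨P, hP⟩ := exists_sylow_eq_iff.2 ⟨pCoreOf_isPGroup p H, (h1 p hp hd).2⟩
    exact hnot p hp P (hP.trans h2)
  obtain ⟨q, hq, hqd⟩ := exists_prime_dvd_card hR
  have := Fact.mk hq
  have hqp : q ≠ p := fun e => coprime_iff_not_dvd.1 (pPrimeCoreOf_coprime p H) (e ▸ hqd)
  replace hqd := hqd.trans (card_dvd_of_le (map_subtype_le _))
  have hC : ∀ {U : Subgroup G}, U ≤ H → (Nat.card U).Coprime p →
      U ≤ centralizer (((pCore p H).map H.subtype : Subgroup G) : Set G) := fun hU hc =>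
    le_centralizer_of_coprime_of_le hH hU (pCoreOf_le p H)
      (coprime_card_of_isPGroup (pCoreOf_isPGroup p H) hc).symm
  have hQ := hC (pCoreOf_le q H) (coprime_card_of_isPGroup (pCoreOf_isPGroup q H)
    ((Nat.coprime_primes hp hq).2 hqp.symm))
  refine hasNormalPComplement_top_iff.1 (hasNormalPComplement_subgroup_of_controls_fusion
    (pCoreOf_isPGroup p H) (by rw [relIndex_top_right]; exact (h1 p hp hd).2) le_top fun x hx g _ hg => ?_)
  have h2 : (pCore q H).map H.subtype ≤ centralizer {g * x * g⁻¹} :=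
    hQ.trans (centralizer_le (Set.singleton_subset_iff.2 hg))
  obtain ⟨c, hc, h3⟩ := exists_conj_le_of_not_dvd_relIndex' (fun h => (h1 q hq hqd).2
    (h.trans (relIndex_dvd_index_of_le h2))) (isPGroup_conj (pCoreOf_isPGroup q H) g) (by
      rw [← centralizer_zpowers, ← conj_zpowers, ← conj_centralizer, centralizer_zpowers]
      exact conj_mono g (hQ.trans (centralizer_le (Set.singleton_subset_iff.2 hx))))
  rw [conj_conj] at h3
  have h4 := (h1 q hq hqd).1.le (mem_normalizer_of_conj_le h3)
  rw [← pCoreOf_sup_pPrimeCoreOf hH p] at h4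
  obtain ⟨n, hn, r, hr, e⟩ := (mem_sup_of_le_normalizer_right ((pCoreOf_le p H).trans
    (le_normalizer_pPrimeCoreOf p H))).1 h4
  refine ⟨n, hn, ?_⟩
  have h5 := hC (map_subtype_le _) (pPrimeCoreOf_coprime p H) hr x hx
  have h6 := mem_centralizer_singleton_iff.1 hc
  calc n * x * n⁻¹ = n * (x * r) * (n * r)⁻¹ := by group
    _ = c * (g * x * g⁻¹) * c⁻¹ := by rw [h5, ← mul_assoc, e]; group
    _ = g * x * g⁻¹ := by rw [h6, mul_inv_cancel_right]

end Cfsg.Agent.S0558
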