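import Cfsg.Statements.S0559
import Cfsg.Agent.Lib.Solv.Factor

set_option autoImplicit false
open Pointwise
open Cfsg

namespace Cfsg.Agent.S0559

open Cfsg.Lib Cfsg.Lib.Solv

/-- Let G = HK be a finite group (every element a product of an element of H and an element of K), and let A and B be conjugates of H and K. Then every element is a product of an element of A and one of B, and there is g with A = gHg⁻¹ and B = gKg⁻¹ simultaneously. -/
theorem result {G : Type*} [Group G] [Finite G] (H K A B : Subgroup G) (hHK : ∀ g : G, ∃ h ∈ H, ∃ k ∈ K, g = h * k) (hA : ∃ x : G, A = MulAut.conj x • H) (hB : ∃ y : G, B = MulAut.conj y • K) : (∀ g : G, ∃ a ∈ A, ∃ b ∈ B, g = a * b) ∧ ∃ g : G, A = MulAut.conj g • H ∧ B = MulAut.conj g • K := by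
  obtain ⟨x, rfl⟩ := hA
  obtain ⟨y, rfl⟩ := hB
  simp only [Core.conj_smul_eq_map]
  obtain ⟨g, h1, h2⟩ := Factor.exists_conj_eq hHK Subgroup.le_normalizer Subgroup.le_normalizer x y
  exact ⟨Factor.conj hHK x y, g, h1.symm, h2.symm⟩

end Cfsg.Agent.S0559
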