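import Cfsg.Statements.S0560
import Cfsg.Agent.Lib.Solv.Factor

set_option autoImplicit false
open Pointwise
open Cfsg

namespace Cfsg.Agent.S0560

open Cfsg.Lib Cfsg.Lib.Solv Cfsg.Lib.Transfer

/-- Let the finite group G be the product HK of two subgroups and p a prime. Then there are Sylow p-subgroups P of H and Q of K and a Sylow p-subgroup R of G whose underlying set is the product set of P and Q. -/
theorem result {G : Type*} [Group G] [Finite G] (H K : Subgroup G) (hHK : ∀ g : G, ∃ h ∈ H, ∃ k ∈ K, g = h * k) (p : ℕ) [Fact p.Prime] : ∃ (P : Sylow p H) (Q : Sylow p K) (R : Sylow p G), ((R : Subgroup G) : Set G) = (((P : Subgroup H).map H.subtype : Subgroup G) : Set G) * (((Q : Subgroup K).map K.subtype : Subgroup G) : Set G) := by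
  obtain ⟨P, -, h1, h2, h3⟩ := exists_sylowIn_ge (p := p) IsPGroup.of_bot (bot_le : ⊥ ≤ H)
  obtain ⟨Q, -, h4, h5, h6⟩ := exists_sylowIn_ge (p := p) IsPGroup.of_bot (bot_le : ⊥ ≤ K)
  obtain ⟨a, ha, b, hb, R, h7, h8⟩ := Factor.exists_sylow_ge hHK h2 h5
  have key : ∀ {H P : Subgroup G} {a : G}, a ∈ H → P ≤ H → ¬ p ∣ P.relIndex H →
      a ⋆ P ≤ H ∧ ¬ p ∣ (a ⋆ P).relIndex H := fun {H P a} ha h1 h3 =>
    ⟨(conj_mono a h1).trans (conj_eq_self_of_mem ha).le, by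
      rwa [← relIndex_conj a, conj_eq_self_of_mem ha] at h3⟩
  obtain ⟨P', hP⟩ := exists_sylow_map_eq_iff.2 ⟨(key ha h1 h3).1, isPGroup_conj h2 a, (key ha h1 h3).2⟩
  obtain ⟨Q', hQ⟩ := exists_sylow_map_eq_iff.2 ⟨(key hb h4 h6).1, isPGroup_conj h5 b, (key hb h4 h6).2⟩
  exact ⟨P', Q', R, hP ▸ hQ ▸ Factor.coe_eq_mul_of_sylow hHK (key ha h1 h3).1 (key ha h1 h3).2
    (key hb h4 h6).1 (key hb h4 h6).2 R.isPGroup' h7 h8⟩

end Cfsg.Agent.S0560
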