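import Cfsg.Statements.S0563
import Cfsg.Agent.Lib.Solv.KegelWielandt
import Cfsg.Agent.S0561

set_option autoImplicit false
open Pointwise
open Cfsg

namespace Cfsg.Agent.S0563

open Cfsg.Lib Cfsg.Lib.Solv Subgroup

/-- If a finite group G is the product AB of two nilpotent subgroups of coprime orders, then G is solvable, and for every Sylow p-subgroup P of A and Sylow q-subgroup Q of B the product set PQ is a subgroup. -/
theorem result {G : Type*} [Group G] [Finite G] (A B : Subgroup G) (hA : Group.IsNilpotent A) (hB : Group.IsNilpotent B) (hcop : (Nat.card A).Coprime (Nat.card B)) (hAB : ∀ g : G, ∃ a ∈ A, ∃ b ∈ B, g = a * b) : Group.IsSolvable G ∧ ∀ (p q : ℕ) [Fact p.Prime] [Fact q.Prime] (P : Sylow p A) (Q : Sylow q B), ∃ S : Subgroup G, (S : Set G) = (((P : Subgroup A).map A.subtype : Subgroup G) : Set G) * (((Q : Subgroup B).map B.subtype : Subgroup G) : Set G) := by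
  have hs := isSolvable_of_factor hAB hA hB
  refine ⟨hs, fun p q _ _ P Q => ?_⟩
  have key : ∀ {A B : Subgroup G}, Group.IsNilpotent A → (Nat.card A).Coprime (Nat.card B) →
      Factor A B → ∀ (p : ℕ) [Fact p.Prime] (P : Sylow p A),
      (((P : Subgroup A).map A.subtype).subgroupOf A).Normal ∧
      (Nat.card ((P : Subgroup A).map A.subtype)).Coprime ((P : Subgroup A).map A.subtype).index :=
    fun {A B} hA hc h p _ P => by
      refine ⟨by rw [subgroupOf, comap_map_eq_self_of_injective A.subtype_injective]; infer_instance, ?_⟩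
      rw [← relIndex_mul_index (map_subtype_le _)]
      exact Nat.Coprime.mul_right (Core.coprime_card_of_isPGroup (P.isPGroup'.map _)
        (Core.coprime_iff_not_dvd.2 (Transfer.not_dvd_relIndex_map_sylow P)))
        ((hc.coprime_dvd_left (card_dvd_of_le (map_subtype_le _))).coprime_dvd_right h.index_dvd)
  simpa using S0561.result A B _ _ hAB (map_subtype_le _) (key hA hcop hAB p P).1 (map_subtype_le _)
    (key hB hcop.symm (Factor.symm hAB) q Q).1 (key hA hcop hAB p P).2
    (key hB hcop.symm (Factor.symm hAB) q Q).2 1 1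

end Cfsg.Agent.S0563
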