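import Cfsg.Statements.S0565
import Cfsg.Agent.Lib.Solv.KegelWielandt
import Cfsg.Agent.Lib.Solv.CoreFree

set_option autoImplicit false
open Cfsg

namespace Cfsg.Agent.S0565

open Cfsg.Lib Cfsg.Lib.Solv Cfsg.Lib.Core Subgroup

/-- Let the finite group G be the product AB of nilpotent subgroups A and B, not both equal to G. Then there is a proper normal subgroup of G containing A or containing B. -/
theorem result {G : Type*} [Group G] [Finite G] (A B : Subgroup G) (hA : Group.IsNilpotent A) (hB : Group.IsNilpotent B) (hAB : ∀ g : G, ∃ a ∈ A, ∃ b ∈ B, g = a * b) (hproper : A ≠ ⊤ ∨ B ≠ ⊤) : ∃ N : Subgroup G, N.Normal ∧ N ≠ ⊤ ∧ (A ≤ N ∨ B ≤ N) := by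
  revert A B
  refine induction_on_card (P := fun G _ _ => ∀ (A B : Subgroup G), Group.IsNilpotent A →
    Group.IsNilpotent B → Factor A B → A ≠ ⊤ ∨ B ≠ ⊤ → ∃ N : Subgroup G, N.Normal ∧ N ≠ ⊤ ∧
    (A ≤ N ∨ B ≤ N)) G fun G _ _ ih A B hA hB h hp => ?_
  have := isSolvable_of_factor h hA hB
  by_contra hn
  have h1 : ∀ {A B : Subgroup G}, Group.IsNilpotent A → A = ⊤ → B ≠ ⊤ →
      ∃ N : Subgroup G, N.Normal ∧ N ≠ ⊤ ∧ B ≤ N := fun {A B} hA e hB => by
    have : Group.IsNilpotent G := Group.isNilpotent_top.1 (e ▸ hA)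
    obtain ⟨M, hM, hle⟩ := (eq_top_or_exists_le_coatom B).resolve_left hB
    exact ⟨M, NormalizerCondition.normal_of_coatom M Group.normalizerCondition_of_isNilpotent hM, hM.1, hle⟩
  have hA' : A ≠ ⊤ := fun e => by
    obtain ⟨N, h1, h2, h3⟩ := h1 hA e (hp.resolve_left fun h => h e)
    exact hn ⟨N, h1, h2, Or.inr h3⟩
  have hB' : B ≠ ⊤ := fun e => by
    obtain ⟨N, h1, h2, h3⟩ := h1 hB e hA'
    exact hn ⟨N, h1, h2, Or.inl h3⟩
  have h2 : ∀ N : Subgroup G, N.Normal → N ≠ ⊥ → N ⊔ A = ⊤ ∧ N ⊔ B = ⊤ := fun N _ h0 => by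
    by_contra h3
    obtain ⟨K, h4, h5, h6⟩ := ih _ (card_quotient_lt h0) _ _ (isNilpotent_map (QuotientGroup.mk' N) hA)
      (isNilpotent_map (QuotientGroup.mk' N) hB) (h.map (QuotientGroup.mk'_surjective N)) (by
        rw [← not_and_or]
        refine fun h4 => h3 ⟨?_, ?_⟩
        · simpa using congrArg (comap (QuotientGroup.mk' N)) h4.1
        · simpa using congrArg (comap (QuotientGroup.mk' N)) h4.2)
    exact hn ⟨K.comap (QuotientGroup.mk' N), inferInstance, fun e => h5 (comap_injective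
      (QuotientGroup.mk'_surjective N) e), h6.imp map_le_iff_le_comap.1 map_le_iff_le_comap.1⟩
  have : Nontrivial G := not_subsingleton_iff_nontrivial.1 fun _ => hA' (Subsingleton.elim _ _)
  obtain ⟨N, hN⟩ := exists_isMinNormal (G := G)
  have := hN.isMulCommutative inferInstance
  obtain ⟨g, hg⟩ := exists_conj_eq_of_coreFree
    (hN.isCoatom_of_sup_eq_top hA' (h2 N hN.normal hN.ne_bot).1)
    (by_contra fun h0 => hA' (by rw [← (h2 _ inferInstance h0).1, sup_eq_right.2 A.normalCore_le]))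
    (hN.isCoatom_of_sup_eq_top hB' (h2 N hN.normal hN.ne_bot).2)
    (by_contra fun h0 => hB' (by rw [← (h2 _ inferInstance h0).2, sup_eq_right.2 B.normalCore_le]))
  exact hA' (h.eq_top_of_conj hg)

end Cfsg.Agent.S0565
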