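import Cfsg.Statements.S0568
import Cfsg.Agent.Lib.Solv.System

set_option autoImplicit false
open Cfsg

namespace Cfsg.Agent.S0568

open Subgroup Cfsg.Lib Cfsg.Lib.Core Cfsg.Lib.Solv

/-- Let D be the system normalizer of a Hall complement system of a finite solvable group G, and let A < B be normal subgroups with no normal subgroup of G strictly between them (a chief factor). If G centralizes B modulo A then B ≤ A ⊔ D (D covers the factor); otherwise B ∩ D ≤ A (D avoids it). -/
theorem result {G : Type*} [Group G] [Finite G] [Group.IsSolvable G] (K : Nat.Primes → Subgroup G) (hK : Cfsg.IsComplementSystem K) (A B : Subgroup G) [A.Normal] [B.Normal] (hAB : A < B) (hchief : ∀ N : Subgroup G, N.Normal → A ≤ N → N ≤ B → N = A ∨ N = B) : (⁅B, (⊤ : Subgroup G)⁆ ≤ A → B ≤ A ⊔ Cfsg.systemNormalizer K) ∧ (¬ ⁅B, (⊤ : Subgroup G)⁆ ≤ A → B ⊓ Cfsg.systemNormalizer K ≤ A) := by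
  have hB := isMinNormal_map_mk'_of_isChiefFactor (U := B) (W := A) ⟨hAB, inferInstance, inferInstance, hchief⟩
  have h1 : ⁅B, (⊤ : Subgroup G)⁆ ≤ A ↔ B.map (QuotientGroup.mk' A) ≤ center (G ⧸ A) := by
    rw [commutator_le_iff_map_mk', map_top_of_surjective _ (QuotientGroup.mk'_surjective A),
      commutator_eq_bot_iff_le_centralizer, coe_top, centralizer_univ]
  rw [h1]
  refine ⟨fun h => ?_, fun h => ?_⟩
  · rw [sup_comm, ← map_mk'_le_map_mk'_iff, ← systemNormalizer_map hK]
    exact le_iInf fun p => h.trans (center_le_normalizer _)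
  · rw [← map_mk'_eq_bot_iff, eq_bot_iff,
      ← IsMinNormal.inf_systemNormalizer_eq_bot (isComplementSystem_map hK A) hB h, systemNormalizer_map hK]
    exact map_inf_le _ _ _

end Cfsg.Agent.S0568
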