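import Cfsg.Statements.S0569
import Cfsg.Agent.Lib.Solv.System

set_option autoImplicit false
open Cfsg

namespace Cfsg.Agent.S0569

open Subgroup Cfsg.Lib Cfsg.Lib.Core Cfsg.Lib.Solv

/-- In a finite solvable group: each nilpotent self-normalizing subgroup contains the system normalizer of some Hall complement system, and the system normalizer of any Hall complement system lies in some nilpotent self-normalizing subgroup. -/
theorem result {G : Type*} [Group G] [Finite G] [Group.IsSolvable G] : (∀ C : Subgroup G, Cfsg.IsCarterSubgroup C → ∃ K : Nat.Primes → Subgroup G, Cfsg.IsComplementSystem K ∧ Cfsg.systemNormalizer K ≤ C) ∧ ∀ K : Nat.Primes → Subgroup G, Cfsg.IsComplementSystem K → ∃ C : Subgroup G, Cfsg.IsCarterSubgroup C ∧ Cfsg.systemNormalizer K ≤ C := by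
  refine ⟨fun C hC => exists_systemNormalizer_le_of_carter hC, fun K hK => ?_⟩
  obtain ⟨C, hC⟩ := exists_isCarterSubgroup G
  obtain ⟨L, hL, h⟩ := exists_systemNormalizer_le_of_carter hC
  obtain ⟨g, -, hg⟩ := exists_conj_eq_of_isComplementSystem hL hK ⊤ fun p => by simp
  refine ⟨_, isCarterSubgroup_conj hC g, ?_⟩
  rw [← funext hg, ← conj_systemNormalizer]
  exact map_mono h

end Cfsg.Agent.S0569
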