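import Cfsg.Statements.S0570
import Cfsg.Agent.Lib.Solv.System

set_option autoImplicit false
open Cfsg

namespace Cfsg.Agent.S0570

open Subgroup Cfsg.Lib Cfsg.Lib.Core Cfsg.Lib.Solv

/-- Let G be a finite group with a nilpotent normal subgroup F such that G modulo F is nilpotent (nilpotent length at most two). Then a subgroup of G is a Carter subgroup if and only if it is the system normalizer of some Hall complement system. -/
theorem result {G : Type*} [Group G] [Finite G] (F : Subgroup G) [F.Normal] (hF : Group.IsNilpotent F) (hGF : Group.IsNilpotent (G ⧸ F)) (C : Subgroup G) : Cfsg.IsCarterSubgroup C ↔ ∃ K : Nat.Primes → Subgroup G, Cfsg.IsComplementSystem K ∧ C = Cfsg.systemNormalizer K := by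
  have : Group.IsSolvable G := isSolvable_of_normal_quotient F inferInstance inferInstance
  refine ⟨fun hC => ?_, fun ⟨K, hK, e⟩ => e ▸ isCarterSubgroup_systemNormalizer hK hF hGF⟩
  obtain ⟨K, hK, h⟩ := exists_systemNormalizer_le_of_carter hC
  exact ⟨K, hK, ((SubnormalIn.of_isNilpotent hC.1 h).eq_of_normalizer_le
    (inf_le_right.trans (isCarterSubgroup_systemNormalizer hK hF hGF).2.le)).symm⟩

end Cfsg.Agent.S0570
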