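import Cfsg.Statements.S0571
import Cfsg.Agent.Lib.Solv.Huppert
import Cfsg.Agent.Lib.Solv.CoreFree
import Cfsg.Agent.Lib.Solv.Factor
import Cfsg.Agent.S0572

set_option autoImplicit false
open Cfsg

namespace Cfsg.Agent.S0571

open Cfsg.Lib Cfsg.Lib.Core Cfsg.Lib.Solv Subgroup

/-- If a finite group G is the product AB of two cyclic subgroups (every element is a product ab), then G is supersolvable. -/
theorem result {G : Type*} [Group G] [Finite G] (A B : Subgroup G) [IsCyclic A] [IsCyclic B] (hAB : ∀ g : G, ∃ a ∈ A, ∃ b ∈ B, g = a * b) : Cfsg.IsSupersolvable G := by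
  suffices ∀ A B : Subgroup G, IsCyclic A → IsCyclic B → Factor A B → IsSupersolvable G from
    this A B ‹_› ‹_› hAB
  refine induction_on_card (P := fun G _ _ => ∀ (A B : Subgroup G), IsCyclic A → IsCyclic B →
    Factor A B → IsSupersolvable G) G fun G _ _ ih A B hA hB h => ?_
  have hq : ∀ (N : Subgroup G) [N.Normal], N ≠ ⊥ → IsSupersolvable (G ⧸ N) := fun N _ h0 =>
    ih _ (card_quotient_lt h0) _ _ (isCyclic_of_surjective _ ((QuotientGroup.mk' N).subgroupMap_surjective A))
      (isCyclic_of_surjective _ ((QuotientGroup.mk' N).subgroupMap_surjective B))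
      (h.map (QuotientGroup.mk'_surjective N))
  by_cases h0 : commutator G = ⊥
  · have : IsMulCommutative G := (commutator_eq_bot_iff G).1 h0
    exact isSupersolvable_of_isNilpotent (isNilpotent_of_isMulCommutative G)
  by_cases h1 : frattini G ≠ ⊥
  · exact isSupersolvable_of_quotient_of_le_frattini le_rfl (hq _ h1)
  have h2 := S0572.result A B h
  rw [derivedSeries_succ, derivedSeries_one, commutator_eq_bot_iff_le_centralizer,
    le_centralizer_iff_isMulCommutative] at h2
  obtain ⟨N, hN, hle⟩ := exists_isMinNormal_le (inferInstance : (commutator G).Normal) h0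
  have := hN.normal
  refine (isSupersolvable_or_unique hq hN).elim id fun hu => ?_
  obtain ⟨M, hM, hNM, -⟩ := exists_isCoatom_sup_eq_top (N := N) fun h3 =>
    hN.ne_bot (le_bot_iff.1 (h3.trans (not_not.1 h1).le))
  have hc : M.normalCore = ⊥ := by_contra fun h3 => hNM ((hu _ inferInstance h3).trans M.normalCore_le)
  have h3 : ∀ L : Subgroup G, L.Normal → L ≠ ⊥ → Group.IsNilpotent L → centralizer (L : Set G) = L ∧ L = N :=
    fun L h1 h2 h3 => ⟨(centralizer_eq_of_coreFree hM hc h1 h2 h3).1,
      ((centralizer_eq_of_coreFree hM hc h1 h2 h3).2.eq_of_le hN.normal hN.ne_bot (hu L h1 h2)).symm⟩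
  obtain ⟨h4, rfl⟩ := h3 _ inferInstance h0 (isNilpotent_of_isMulCommutative _)
  obtain ⟨p, hp, hd⟩ := exists_prime_dvd_card h0
  have := Fact.mk hp
  obtain ⟨P⟩ : Nonempty (Sylow p G) := inferInstance
  obtain ⟨q, hq', hpq⟩ := hN.exists_isPGroup (isSolvable_of_isMulCommutative _)
  obtain rfl : p = q := by
    have := Fact.mk hq'
    obtain ⟨k, hk⟩ := IsPGroup.iff_card.1 hpq
    exact (Nat.prime_dvd_prime_iff_eq hp hq').1 (hp.dvd_of_dvd_pow (hk ▸ hd))
  have h5 : commutator G ≤ P := (le_pCore inferInstance hpq).trans (pCore_le_sylow P)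
  have h6 := (h3 P (Normal.of_commutator_le G h5) (fun e => h0 (le_bot_iff.1 (e ▸ h5)))
    P.isPGroup'.isNilpotent).2
  have key : ∀ A : Subgroup G, IsCyclic A → A ≤ commutator G ∨
      (A ⊓ commutator G = ⊥ ∧ ¬ p ∣ Nat.card A) := fun A hA => by
    by_cases h7 : A ⊓ commutator G = ⊥
    · refine Or.inr ⟨h7, fun h8 => P.not_dvd_index (h6 ▸ h8.trans ?_)⟩
      rw [← card_inf_mul_relIndex (commutator G) A, inf_comm, h7, card_bot, one_mul]
      exact relIndex_dvd_index_of_normal _ _
    have := Normal.of_commutator_le G (le_sup_right : commutator G ≤ A ⊔ commutator G)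
    have h8 := hN.eq_of_le (K := commutator G ⊓ centralizer ((A ⊔ commutator G : Subgroup G) : Set G))
      inferInstance (fun e => h7 (le_bot_iff.1 (e ▸ le_inf inf_le_right (by
        rw [centralizer_sup, h4]
        exact inf_le_inf_right _ (le_centralizer_iff_isMulCommutative.2 inferInstance))))) inf_le_left
    exact Or.inl (h4 ▸ le_sup_left.trans (le_centralizer_iff.1 (h8.ge.trans inf_le_right)))
  have h7 : ∀ {A B : Subgroup G}, IsCyclic A → Factor A B → A ≤ commutator G → B ⊓ commutator G = ⊥ →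
      IsSupersolvable G := fun {A B} hA h h1 h2 => by
    have h8 := h.sup_inf h1
    rw [h2, sup_bot_eq] at h8
    exact isSupersolvable_of_isCyclic_normal (h8 ▸ hA) (hq _ h0)
  rcases key A hA with h8 | h8 <;> rcases key B hB with h9 | h9
  · have h10 : commutator G = ⊤ := top_le_iff.1 (h.sup_eq_top.ge.trans (sup_le h8 h9))
    exact absurd (commutator_eq_bot_iff_le_centralizer.2 (h10 ▸ (h4.trans h10).ge)) h0
  · exact h7 hA h h8 h9.1
  · exact h7 hB h.symm h9 h8.1
  · exact ((hp.dvd_mul.1 (h.card_mul ▸ (hd.trans (card_subgroup_dvd_card _)).mul_right _)).elim h8.2 h9.2).elim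

end Cfsg.Agent.S0571
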