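import Cfsg.Statements.S0573
import Cfsg.Agent.S0572
import Cfsg.Agent.Lib.PGroup.Basic
import Cfsg.Agent.Lib.Core.Basic

set_option autoImplicit false
open Cfsg

namespace Cfsg.Agent.S0573

open Subgroup Cfsg.Lib
open scoped commutatorElement

/-- If an element `a ≠ 1` of `A` centralizes `G'`, and `C(A) ≤ A`, we get the normal subgroup. -/
theorem of_cent {G : Type*} [Group G] (A : Subgroup G) [IsMulCommutative A]
    (hC : centralizer (A : Set G) ≤ A) {a : G} (ha : a ∈ A) (h1 : a ≠ 1)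
    (hc : ∀ k ∈ commutator G, k * a = a * k) : ∃ N : Subgroup G, N.Normal ∧ N ≠ ⊥ ∧ N ≤ A := by
  have hn : (A ⊔ commutator G).Normal := Subgroup.Normal.of_commutator_le G le_sup_right
  refine ⟨centralizer ((A ⊔ commutator G : Subgroup G) : Set G), inferInstance, fun h => h1 ?_,
    (centralizer_le (SetLike.coe_subset_coe.2 le_sup_left)).trans hC⟩
  have : a ∈ centralizer ((A ⊔ commutator G : Subgroup G) : Set G) := by
    have h2 : A ⊔ commutator G ≤ centralizer ({a} : Set G) :=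
      sup_le (fun x hx => mem_centralizer_singleton_iff.2 (setLike_mul_comm hx ha))
        fun x hx => mem_centralizer_singleton_iff.2 (hc x hx)
    exact fun x hx => mem_centralizer_singleton_iff.1 (h2 hx)
  rwa [h, mem_bot] at this

theorem cent_le {G : Type*} [Group G] (A B : Subgroup G) [IsMulCommutative A] [IsMulCommutative B]
    (hAB : ∀ g : G, ∃ a ∈ A, ∃ b ∈ B, g = a * b) (hZ : B ⊓ center G = ⊥) :
    centralizer (A : Set G) ≤ A := by
  intro c hc
  obtain ⟨a, ha, b, hb, rfl⟩ := hAB c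
  have hb' : b ∈ centralizer (A : Set G) :=
    (mul_mem_cancel_left (show a ∈ centralizer (A : Set G) from
      fun x hx => setLike_mul_comm hx ha)).1 hc
  have : b ∈ B ⊓ center G := ⟨hb, mem_center_iff.2 fun g => by
    obtain ⟨x, hx, y, hy, rfl⟩ := hAB g
    rw [mul_assoc, setLike_mul_comm hy hb, ← mul_assoc, hb' x hx, mul_assoc]⟩
  rw [hZ, mem_bot] at this
  rw [this, mul_one]; exact ha

/-- If a nontrivial finite group G is the product AB of abelian subgroups A and B, then some nontrivial normal subgroup of G is contained in A or in B. -/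
theorem result {G : Type*} [Group G] [Finite G] [Nontrivial G] (A B : Subgroup G) [IsMulCommutative A] [IsMulCommutative B] (hAB : ∀ g : G, ∃ a ∈ A, ∃ b ∈ B, g = a * b) : ∃ N : Subgroup G, N.Normal ∧ N ≠ ⊥ ∧ (N ≤ A ∨ N ≤ B) := by
  by_contra hcon
  push Not at hcon
  have hcA : ∀ N : Subgroup G, N.Normal → N ≤ A → N = ⊥ := fun N hN h => by
    by_contra h1; exact (hcon N hN h1).1 h
  have hcB : ∀ N : Subgroup G, N.Normal → N ≤ B → N = ⊥ := fun N hN h => by
    by_contra h1; exact (hcon N hN h1).2 h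
  have hBA : ∀ g : G, ∃ b ∈ B, ∃ a ∈ A, g = b * a := fun g => by
    obtain ⟨a, ha, b, hb, e⟩ := hAB g⁻¹
    exact ⟨b⁻¹, inv_mem hb, a⁻¹, inv_mem ha, by rw [← mul_inv_rev, ← e, inv_inv]⟩
  have hnZ : ∀ H : Subgroup G, (H ⊓ center G).Normal := fun H =>
    ⟨fun n hn g => by rw [mem_center_iff.1 hn.2 g, mul_inv_cancel_right]; exact hn⟩
  have hCA := cent_le A B hAB (hcB _ (hnZ B) inf_le_left)
  have hCB := cent_le B A hBA (hcA _ (hnZ A) inf_le_left)
  have hK : ∀ x ∈ commutator G, ∀ y ∈ commutator G, x * y = y * x := fun x hx y hy => by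
    have h := Cfsg.Agent.S0572.result A B hAB
    have h2 : ⁅x, y⁆ ∈ derivedSeries G 2 := commutator_mem_commutator hx hy
    rw [h, mem_bot] at h2
    exact commutatorElement_eq_one_iff_mul_comm.1 h2
  have nA : ∀ a ∈ A, (∀ k ∈ commutator G, k * a = a * k) → a = 1 := fun a ha hc => by
    by_contra h1
    obtain ⟨N, h2, h3, h4⟩ := of_cent A hCA ha h1 hc
    exact h3 (hcA N h2 h4)
  have nB : ∀ a ∈ B, (∀ k ∈ commutator G, k * a = a * k) → a = 1 := fun a ha hc => by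
    by_contra h1
    obtain ⟨N, h2, h3, h4⟩ := of_cent B hCB ha h1 hc
    exact h3 (hcB N h2 h4)
  have hAB1 : ∀ x ∈ A, x ∈ B → x = 1 := fun x hx hx' => nA x hx fun k _ => by
    obtain ⟨a, ha, b, hb, rfl⟩ := hAB k
    rw [mul_assoc, setLike_mul_comm hb hx', ← mul_assoc, setLike_mul_comm ha hx, mul_assoc]
  have hK1 : commutator G ≠ ⊥ := fun h => by
    obtain ⟨g, hg⟩ := exists_ne (1 : G)
    obtain ⟨a, ha, b, hb, rfl⟩ := hAB g
    have ha1 := nA a ha fun k hk => by rw [h, mem_bot] at hk; simp [hk]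
    have hb1 := nB b hb fun k hk => by rw [h, mem_bot] at hk; simp [hk]
    exact hg (by simp [ha1, hb1])
  obtain ⟨p, hp, hd⟩ := Nat.exists_prime_and_dvd (card_eq_one.not.2 hK1)
  haveI := Fact.mk hp
  -- `N`: the `p`-elements of `G'`
  let N : Subgroup G :=
    { carrier := {x | x ∈ commutator G ∧ ∃ n, x ^ p ^ n = 1}
      one_mem' := ⟨one_mem _, 0, one_pow _⟩
      mul_mem' := fun {x y} ⟨hx, n, hn⟩ ⟨hy, m, hm⟩ => ⟨mul_mem hx hy, n + m, by
        rw [(show Commute x y from hK x hx y hy).mul_pow, pow_add, pow_mul, hn, one_pow, mul_comm (p ^ n),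
          pow_mul, hm, one_pow, one_mul]⟩
      inv_mem' := fun {x} ⟨hx, n, hn⟩ => ⟨inv_mem hx, n, by rw [inv_pow, hn, inv_one]⟩ }
  have hNn : N.Normal := ⟨fun x ⟨hx, n, hn⟩ g => ⟨Subgroup.Normal.conj_mem inferInstance x hx g, n, by
    rw [conj_pow, hn, mul_one, mul_inv_cancel]⟩⟩
  have hNp : IsPGroup p N := fun x => let ⟨n, hn⟩ := x.2.2; ⟨n, Subtype.ext hn⟩
  have hN1 : N ≠ ⊥ := by
    obtain ⟨x, hx⟩ := exists_prime_orderOf_dvd_card' p hd
    intro h
    have : (x : G) ∈ N := ⟨x.2, 1, by rw [pow_one, ← hx, ← orderOf_coe, pow_orderOf_eq_one]⟩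
    rw [h, mem_bot] at this
    rw [← orderOf_coe, this, orderOf_one] at hx
    exact hp.one_lt.ne hx
  have hBN : ∀ b ∈ B, b ∈ N → b = 1 := fun b hb hn => nB b hb fun k hk => hK k hk b hn.1
  set A₁ := A ⊓ (N ⊔ B) with hA₁
  have hA₁p : IsPGroup p A₁ := by
    have hs : ∀ a : A₁, ∃ k : N, ∃ b ∈ B, (k : G) * b = a := fun a => by
      obtain ⟨k, hk, b, hb, e⟩ := (Core.mem_sup_of_le_normalizer_left
        ((normalizer_eq_top N).ge.trans' le_top)).1 a.2.2
      exact ⟨⟨k, hk⟩, b, hb, e⟩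
    choose f hf using hs
    have hinj : Function.Injective f := fun a a' e => by
      obtain ⟨b, hb, e1⟩ := hf a
      obtain ⟨b', hb', e2⟩ := hf a'
      have h1 : (a : G)⁻¹ * a' = b⁻¹ * b' := by rw [← e1, ← e2, e]; group
      have h2 := hAB1 _ (mul_mem (inv_mem a.2.1) a'.2.1) (h1 ▸ mul_mem (inv_mem hb) hb')
      exact Subtype.ext (inv_mul_eq_one.1 h2)
    have hsurj : Function.Surjective f := fun k => by
      obtain ⟨a, ha, b, hb, e⟩ := hAB k
      have ha' : a ∈ A₁ := ⟨ha, by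
        rw [show a = k * b⁻¹ by rw [e, mul_inv_cancel_right]]
        exact mul_mem_sup k.2 (inv_mem hb)⟩
      obtain ⟨b', hb', e1⟩ := hf ⟨a, ha'⟩
      refine ⟨⟨a, ha'⟩, Subtype.ext ?_⟩
      have h1 : (f ⟨a, ha'⟩ : G)⁻¹ * k = b' * b := by
        rw [inv_mul_eq_iff_eq_mul, ← mul_assoc, e1, e]
      have h2 := hBN _ (mul_mem hb' hb) (h1 ▸ mul_mem (inv_mem (f _).2) k.2)
      exact inv_mul_eq_one.1 (h1.trans h2)
    obtain ⟨n, hn⟩ := IsPGroup.iff_card.1 hNp
    exact IsPGroup.iff_card.2 ⟨n, (Nat.card_congr (Equiv.ofBijective f ⟨hinj, hsurj⟩)).trans hn⟩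
  obtain ⟨⟨z, hzN, hzC⟩, hz1⟩ := ne_bot_iff_exists_ne_one.1
    (PGroup.inf_centralizer_ne_bot hNp hA₁p ((normalizer_eq_top N).ge.trans' le_top) hN1)
  obtain ⟨a, ha, b, hb, e⟩ := hAB z
  have ea : a = z * b⁻¹ := by rw [e, mul_inv_cancel_right]
  have h1 : ∀ k ∈ N, k * a = a * k := fun k hk => by
    obtain ⟨x, hx, y, hy, e'⟩ := hAB k
    have ex : x = k * y⁻¹ := by rw [e', mul_inv_cancel_right]
    have hx1 : x ∈ A₁ := ⟨hx, ex ▸ mul_mem_sup hk (inv_mem hy)⟩
    have hyz : Commute y z := by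
      have : y = x⁻¹ * k := by rw [e', inv_mul_cancel_left]
      rw [this]
      exact Commute.mul_left (Commute.inv_left (hzC x hx1)) (hK k hk.1 z hzN.1)
    have hya : Commute y a := by
      rw [ea]; exact hyz.mul_right (Commute.inv_right (setLike_mul_comm hy hb))
    rw [e']
    exact Commute.mul_left (setLike_mul_comm hx ha) hya
  have h2 : ∀ g : G, a * g * a⁻¹ * g⁻¹ ∈ N := fun g => by
    obtain ⟨x, hx, y, hy, rfl⟩ := hAB g
    have e1 : a * (x * y) * a⁻¹ * (x * y)⁻¹ = x * (z * (y * z⁻¹ * y⁻¹)) * x⁻¹ := by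
      rw [← mul_assoc, setLike_mul_comm ha hx, ea]
      have := setLike_mul_comm hy hb
      calc x * (z * b⁻¹) * y * (z * b⁻¹)⁻¹ * (x * y)⁻¹
          = x * z * b⁻¹ * (y * b) * z⁻¹ * y⁻¹ * x⁻¹ := by group
        _ = _ := by rw [this]; group
    rw [e1]
    exact hNn.conj_mem _ (mul_mem hzN (hNn.conj_mem _ (inv_mem hzN) y)) x
  have h3 : a = 1 := nA a ha fun k hk => by
    obtain ⟨n, m, hm, hnm⟩ := Nat.exists_eq_pow_mul_and_not_dvd (orderOf_pos k).ne' p hp.ne_one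
    have hkm : k ^ m ∈ N := ⟨pow_mem hk m, n, by
      rw [← pow_mul, mul_comm, ← hnm, pow_orderOf_eq_one]⟩
    obtain ⟨hc, j, hj⟩ := h2 k
    have hak : a * k * a⁻¹ ∈ commutator G := Subgroup.Normal.conj_mem inferInstance k hk a
    have hcm : (a * k * a⁻¹ * k⁻¹) ^ m = 1 := by
      rw [(show Commute (a * k * a⁻¹) k⁻¹ from hK _ hak _ (inv_mem hk)).mul_pow, conj_pow, inv_pow,
        ← h1 _ hkm]
      simp
    have hcop : (p ^ j).Coprime m := Nat.Coprime.pow_left _ ((Nat.Prime.coprime_iff_not_dvd hp).2 hm)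
    have h4 : orderOf (a * k * a⁻¹ * k⁻¹) = 1 := Nat.eq_one_of_dvd_coprimes hcop
      (orderOf_dvd_of_pow_eq_one hj) (orderOf_dvd_of_pow_eq_one hcm)
    rw [orderOf_eq_one_iff, mul_inv_eq_one, mul_inv_eq_iff_eq_mul] at h4
    exact h4.symm
  rw [h3, one_mul] at e
  exact hz1 (Subtype.ext (hBN z (e ▸ hb) hzN))

end Cfsg.Agent.S0573
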