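import Cfsg.Statements.S0574
import Cfsg.Agent.S0564
import Cfsg.Agent.S0572
import Cfsg.Agent.Lib.Solv.Factor

set_option autoImplicit false
open Cfsg

namespace Cfsg.Agent.S0574

open Subgroup Cfsg.Lib.Core Cfsg.Lib.Solv
open scoped commutatorElement

universe u

theorem eq_top_aux (n : ℕ) : ∀ (G : Type u) [Group G] [Finite G] [Group.IsSolvable G]
    (A B : Subgroup G), Nat.card G = n → IsMulCommutative A →
    ⁅B, B⁆ ≤ centralizer (B : Set G) → A ⊔ ⁅B, B⁆ = ⊤ → A = ⊤ := by
  induction n using Nat.strong_induction_on with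
  | _ n ih =>
  intro G _ _ _ A B hn hA hB ht
  have key : ∀ N : Subgroup G, N.Normal → N ≠ ⊥ → N ⊔ A = ⊤ := fun N _ h0 => by
    have h1 := ih _ (by
        rw [← hn, ← N.index_mul_card]
        exact lt_mul_of_one_lt_right Nat.card_pos (one_lt_card_iff_ne_bot _ |>.2 h0))
      (G ⧸ N) (A.map (QuotientGroup.mk' N)) (B.map (QuotientGroup.mk' N)) rfl inferInstance
      (by
        rw [← commutator_eq_bot_iff_le_centralizer] at hB ⊢
        rw [← map_commutator, ← map_commutator, hB, Subgroup.map_bot])
      (by rw [← map_commutator, ← Subgroup.map_sup, ht,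
        map_top_of_surjective _ (QuotientGroup.mk'_surjective N)])
    have := congrArg (comap (QuotientGroup.mk' N)) h1
    rwa [comap_map_eq, QuotientGroup.ker_mk', comap_top, sup_comm] at this
  by_contra hne
  haveI : Nontrivial G := by
    by_contra h
    rw [not_nontrivial_iff_subsingleton] at h
    exact hne (Subsingleton.elim _ _)
  obtain ⟨V, hV⟩ := exists_isMinNormal (G := G)
  haveI := hV.normal
  haveI := hV.isMulCommutative inferInstance
  have dec : ∀ g : G, ∃ v ∈ V, ∃ a ∈ A, v * a = g := fun g =>
    mem_sup_of_normal_left.1 (key V hV.normal hV.ne_bot ▸ mem_top g)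
  have h1 : ∀ a ∈ A, ∀ w ∈ V, w ≠ 1 → w * a = a * w → a = 1 := fun a ha w hw w1 e => by
    have hn : (V ⊓ centralizer {a}).Normal := ⟨fun m hm g => by
      obtain ⟨v, hv, b, hb, rfl⟩ := dec g
      have h2 := hV.normal.conj_mem m hm.1 b
      have e1 : v * b * m * (v * b)⁻¹ = b * m * b⁻¹ := by
        calc v * b * m * (v * b)⁻¹ = v * (b * m * b⁻¹) * v⁻¹ := by group
          _ = _ := by rw [setLike_mul_comm hv h2]; group
      rw [e1]
      refine mem_inf.2 ⟨h2, mem_centralizer_singleton_iff.2 ?_⟩
      have e2 := mem_centralizer_singleton_iff.1 hm.2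
      calc b * m * b⁻¹ * a = b * (m * a) * b⁻¹ := by
            rw [mul_assoc, setLike_mul_comm (inv_mem hb) ha]; group
        _ = _ := by rw [e2, ← mul_assoc, setLike_mul_comm hb ha]; group⟩
    have h2 := hV.eq_of_le hn (ne_bot_iff_exists_ne_one.2
      ⟨⟨w, hw, mem_centralizer_singleton_iff.2 e⟩, fun e => w1 (congrArg Subtype.val e)⟩) inf_le_left
    have h3 : a ∈ center G := mem_center_iff.2 fun g => by
      obtain ⟨v, hv, b, hb, rfl⟩ := dec g
      rw [mul_assoc, setLike_mul_comm hb ha, ← mul_assoc,
        mem_centralizer_singleton_iff.1 (h2.ge hv).2, mul_assoc]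
    by_contra a1
    have h4 : zpowers a ≤ center G := by simpa using h3
    refine hne (top_le_iff.1 ((key (zpowers a) ⟨fun m hm g => by
      rwa [mem_center_iff.1 (h4 hm) g, mul_inv_cancel_right]⟩ (by simpa using a1)).ge.trans ?_))
    exact sup_le (by simpa using ha) le_rfl
  have h2 : ⁅B, B⁆ ≤ V := commutator_le.2 fun g _ k _ => by
    obtain ⟨v, hv, a, ha, rfl⟩ := dec g
    obtain ⟨w, hw, b, hb, rfl⟩ := dec k
    rw [← QuotientGroup.eq_one_iff]
    refine (map_commutatorElement (QuotientGroup.mk' _) _ _).trans ?_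
    rw [commutatorElement_eq_one_iff_mul_comm]
    simp only [map_mul, QuotientGroup.mk'_apply, (QuotientGroup.eq_one_iff _).2 hv,
      (QuotientGroup.eq_one_iff _).2 hw, one_mul]
    exact congrArg QuotientGroup.mk (setLike_mul_comm ha hb)
  have h3 : ⁅B, B⁆ = ⊥ := by
    by_contra h0
    obtain ⟨⟨w, hw⟩, w1⟩ := ne_bot_iff_exists_ne_one.1 h0
    have h4 : B ≤ V := fun b hb => by
      obtain ⟨v, hv, a, ha, rfl⟩ := dec b
      have e := hB hw _ hb
      rw [h1 a ha w (h2 hw) (fun e => w1 (Subtype.ext e)) (by
        rw [← mul_assoc, ← setLike_mul_comm hv (h2 hw), mul_assoc, mul_assoc] at e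
        exact (mul_left_cancel e).symm)]
      simpa using hv
    exact h0 (commutator_eq_bot_iff_le_centralizer.2 fun a ha b hb =>
      setLike_mul_comm (h4 hb) (h4 ha))
  exact hne (by simpa [h3] using ht)

theorem ds_add {G : Type*} [Group G] {H : Subgroup G} {a : ℕ} (h : derivedSeries G a ≤ H) (m : ℕ) :
    derivedSeries G (a + m) ≤ (derivedSeries H m).map H.subtype := by
  induction m with
  | zero => simpa [← MonoidHom.range_eq_map] using h
  | succ m ih =>
    rw [← add_assoc, derivedSeries_succ, derivedSeries_succ, map_commutator]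
    exact commutator_mono ih ih

theorem main_aux (k : ℕ) : ∀ (G : Type u) [Group G] [Finite G] [Group.IsSolvable G]
    (A B : Subgroup G), IsMulCommutative A → ⁅B, B⁆ ≤ centralizer (B : Set G) → Factor A B →
    ArithmeticFunction.cardFactors (Nat.card ↥⁅B, B⁆) ≤ k → derivedSeries G (2 * (1 + k)) = ⊥ := by
  have base : ∀ (G : Type u) [Group G] (A B : Subgroup G), IsMulCommutative A → ⁅B, B⁆ = ⊥ →
      Factor A B → derivedSeries G 2 = ⊥ := fun G _ A B _ h0 hf => by
    haveI : IsMulCommutative B := ⟨⟨fun a b => Subtype.ext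
      (commutator_eq_bot_iff_le_centralizer.1 h0 b.2 a a.2)⟩⟩
    exact S0572.result A B hf
  induction k with
  | zero =>
    intro G _ _ _ A B hA hB hf hk
    refine base G A B hA ?_ hf
    rw [Nat.le_zero, ArithmeticFunction.cardFactors_eq_zero_iff_eq_zero_or_one] at hk
    exact card_eq_one.1 (hk.resolve_left Nat.card_pos.ne')
  | succ k ih =>
    intro G _ _ _ A B hA hB hf hk
    have h1 : derivedSeries G 2 ≤ A ⊔ ⁅B, B⁆ := by
      refine le_trans ?_ (hf.normalClosure_le (B₀ := ⁅B, B⁆) fun b hb => ?_)
      · set X := normalClosure ((⁅B, B⁆ : Subgroup G) : Set G)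
        have := base _ (A.map (QuotientGroup.mk' X)) (B.map (QuotientGroup.mk' X)) inferInstance
          (by rw [← map_commutator, Subgroup.map_eq_bot_iff, QuotientGroup.ker_mk']
              exact le_normalClosure) (hf.map (QuotientGroup.mk'_surjective X))
        rw [← map_derivedSeries_eq (QuotientGroup.mk'_surjective X), Subgroup.map_eq_bot_iff,
          QuotientGroup.ker_mk'] at this
        exact this
      · exact mem_normalizer_fintype fun n hn => by rwa [hB hn b hb, mul_inv_cancel_right]
    set L := A ⊔ ⁅B, B⁆ with hL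
    have h2 : derivedSeries L (2 * (1 + k)) = ⊥ := by
      have hm : (⁅B.subgroupOf L, B.subgroupOf L⁆).map L.subtype ≤ ⁅B, B⁆ := by
        rw [map_commutator, subgroupOf_map_subtype]
        exact commutator_mono inf_le_left inf_le_left
      have hc : ⁅B.subgroupOf L, B.subgroupOf L⁆ ≤ centralizer (B.subgroupOf L : Set L) :=
        fun c hc b hb => Subtype.ext (hB (hm ⟨c, hc, rfl⟩) b hb)
      rcases hm.eq_or_lt with e | e
      · have h3 := eq_top_aux _ L (A.subgroupOf L) (B.subgroupOf L) rfl inferInstance hc (by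
          apply map_injective L.subtype_injective
          rw [Subgroup.map_sup, e, subgroupOf_map_subtype, inf_eq_left.2 le_sup_left,
            ← MonoidHom.range_eq_map, range_subtype])
        have h4 : derivedSeries L 1 = ⊥ := commutator_eq_bot_iff_le_centralizer.2 fun a _ b _ =>
          setLike_mul_comm (s := A.subgroupOf L) (h3 ▸ mem_top b) (h3 ▸ mem_top a)
        exact eq_bot_iff.2 (h4 ▸ derivedSeries_antitone L (by omega))
      · refine ih L _ _ inferInstance hc (hf.subgroupOf_of_le le_sup_left) ?_
        obtain ⟨m, hm'⟩ := card_dvd_of_le hm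
        have h5 : m ≠ 1 := by
          rintro rfl
          exact e.ne (eq_of_le_of_card_ge hm (by omega))
        have h6 : m ≠ 0 := by
          rintro rfl
          exact Nat.card_pos.ne' hm'
        rw [hm', card_map_of_injective L.subtype_injective,
          ArithmeticFunction.cardFactors_mul Nat.card_pos.ne' h6] at hk
        have : ArithmeticFunction.cardFactors m ≠ 0 := by
          rw [Ne, ArithmeticFunction.cardFactors_eq_zero_iff_eq_zero_or_one]
          tauto
        omega
    have h3 := ds_add h1 (2 * (1 + k))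
    rw [h2, Subgroup.map_bot, le_bot_iff] at h3
    rw [← h3]
    congr 1
    ring


/-- Let the finite group G be the product AB of an abelian subgroup A and a subgroup B of nilpotency class at most two, and let Ω be the number of prime factors, with multiplicity, of the order of the commutator subgroup of B. Then the term of index 2(1 + Ω) of the derived series of G is trivial. -/
theorem result {G : Type*} [Group G] [Finite G] (A B : Subgroup G) [IsMulCommutative A] (hB : commutator ↥B ≤ Subgroup.center ↥B) (hAB : ∀ g : G, ∃ a ∈ A, ∃ b ∈ B, g = a * b) : derivedSeries G (2 * (1 + (Nat.card ↥(commutator ↥B)).primeFactorsList.length)) = ⊥ := by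
  have e : (commutator B).map B.subtype = ⁅B, B⁆ := by
    rw [commutator_def, map_commutator, ← MonoidHom.range_eq_map, range_subtype]
  haveI : Group.IsNilpotent B := by
    rw [Subgroup.nilpotent_iff_lowerCentralSeries]
    exact ⟨2, commutator_eq_bot_iff_le_centralizer.2 fun a ha b _ => mem_center_iff.1 (hB ha) b⟩
  haveI := S0564.result A B (Cfsg.Lib.Core.isNilpotent_of_isMulCommutative A) inferInstance hAB
  refine main_aux _ G A B inferInstance ?_ hAB ?_
  · rw [← e]
    rintro _ ⟨c, hc, rfl⟩ b hb
    exact congrArg Subtype.val (mem_center_iff.1 (hB hc) ⟨b, hb⟩)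
  · rw [← e, card_map_of_injective B.subtype_injective, ArithmeticFunction.cardFactors_apply]

end Cfsg.Agent.S0574
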