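import Cfsg.Statements.S0576
import Cfsg.Agent.Lib.Core.Frattini

set_option autoImplicit false
open Cfsg

namespace Cfsg.Agent.S0576

/-- Let H be a normal subgroup of a finite group G with H contained in the Frattini subgroup of G. Then the group of inner automorphisms of H is contained in the Frattini subgroup of the automorphism group of H. -/
theorem result {G : Type*} [Group G] [Finite G] (H : Subgroup G) [H.Normal] (hH : H ≤ frattini G) : (MulAut.conj : ↥H →* MulAut ↥H).range ≤ frattini (MulAut ↥H) := by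
  have hn : (MulAut.conj : ↥H →* MulAut ↥H).range.Normal := ⟨by
    rintro _ ⟨x, rfl⟩ σ
    exact ⟨σ x, by ext y; simp⟩⟩
  have h1 : (MulAut.conj : ↥H →* MulAut ↥H).range = H.map (MulAut.conjNormal (H := H)) := by
    ext σ
    constructor
    · rintro ⟨x, rfl⟩
      exact ⟨x, x.2, MulAut.conjNormal_val⟩
    · rintro ⟨x, hx, rfl⟩
      exact ⟨⟨x, hx⟩, (MulAut.conjNormal_val (h := ⟨x, hx⟩)).symm⟩
  refine Cfsg.Lib.Core.le_frattini_of_le_frattiniOf (H := (⊤ : Subgroup G).map (MulAut.conjNormal (H := H))) ?_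
  rw [h1]
  refine le_trans ?_ (Cfsg.Lib.Core.map_frattiniOf_le _ _)
  rw [Cfsg.Lib.Core.frattiniOf_top]
  exact Subgroup.map_mono hH

end Cfsg.Agent.S0576
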