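import Cfsg.Statements.S0577
import Cfsg.Agent.Lib.Solv.Schmidt

set_option autoImplicit false
open Cfsg

namespace Cfsg.Agent.S0577

open Subgroup Cfsg.Lib Cfsg.Lib.Core Cfsg.Lib.Solv

/-- Let G be a finite minimal non-nilpotent group and Q a normal Sylow q-subgroup of G, and let D be the commutator subgroup of Q regarded in G (a normal subgroup). Then G modulo D is non-abelian and all its proper subgroups are abelian. -/
theorem result {G : Type*} [Group G] [Finite G] (hG : Cfsg.IsMinimalNonNilpotent G) (q : ℕ) [Fact q.Prime] (hq : q ∣ Nat.card G) (Q : Sylow q G) (hQ : (Q : Subgroup G).Normal) (D : Subgroup G) [D.Normal] (hD : D = (commutator ↥(Q : Subgroup G)).map (Q : Subgroup G).subtype) : ¬ IsMulCommutative (G ⧸ D) ∧ ∀ K : Subgroup (G ⧸ D), K ≠ ⊤ → IsMulCommutative K := by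
  have hD' : D = ⁅(Q : Subgroup G), (Q : Subgroup G)⁆ := by
    rw [hD, _root_.commutator, map_commutator, map_subtype_top]
  refine ⟨fun h => hG.1 (isNilpotent_iff_commutator_le_frattini.2 ?_), fun K hK => ?_⟩
  · exact (Normal.quotient_commutative_iff_commutator_le.1 h).trans
      (hD' ▸ commutator_le_frattini_of_normal (Q : Subgroup G) Q.2.isNilpotent)
  obtain ⟨r, s, S, g, hr, hs, hrs, hS, ⟨k, hk⟩, hsup, hg⟩ := schmidt hG
  have := Fact.mk hr
  have := Fact.mk hs
  have hq' : q.Prime := Fact.out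
  have hGQ : _root_.commutator G ≤ Q := by
    by_cases e : s = q
    · subst e
      have : Q = S := by
        have := Sylow.unique_of_normal Q hQ
        exact Subsingleton.elim _ _
      exact this ▸ commutator_le_of_sup_zpowers hsup
    exfalso
    have hd : q ∣ Nat.card (zpowers g) * Nat.card S := by
      refine hq.trans ?_
      rw [← card_top, ← hsup, sup_comm]
      exact card_sup_dvd_of_normal _ _
    obtain ⟨a, ha⟩ := IsPGroup.iff_card.1 (isPGroup_zpowers hk)
    obtain ⟨b, hb⟩ := IsPGroup.iff_card.1 S.2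
    rw [ha, hb, hq'.dvd_mul] at hd
    have hqr : q = r := (Nat.prime_dvd_prime_iff_eq hq' hr).1 (hq'.dvd_of_dvd_pow
      (hd.resolve_right fun h => e ((Nat.prime_dvd_prime_iff_eq hq' hs).1 (hq'.dvd_of_dvd_pow h)).symm))
    subst hqr
    have hgQ : zpowers g ≤ Q := le_of_isPGroup_of_coprime_index (isPGroup_zpowers hk)
      (coprime_iff_not_dvd.2 Q.not_dvd_index)
    exact hg (le_centralizer_of_coprime le_normalizer_of_normal le_normalizer_of_normal
      (IsPGroup.coprime_card_of_ne q s hrs _ _ Q.2 S.2) (hgQ (mem_zpowers g)))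
  set L := K.comap (QuotientGroup.mk' D)
  have hL : Group.IsNilpotent L := hG.2 L fun e => hK (by rw [← map_comap_mk' D K]; exact (map_mk'_eq_top_iff _ _).2 (by rw [show comap _ K = ⊤ from e, top_sup_eq]))
  have h1 := pCoreOf_sup_pPrimeCoreOf hL q
  set A := (pCore q L).map L.subtype
  set B := (pPrimeCore q L).map L.subtype
  have hAQ : A ≤ Q := le_of_isPGroup_of_coprime_index (pCoreOf_isPGroup q L)
    (coprime_iff_not_dvd.2 Q.not_dvd_index)
  have hAB : ⁅A, B⁆ = ⊥ := commutator_eq_bot_iff_le_centralizer.2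
    (le_centralizer_of_coprime_of_le hL (map_subtype_le _) (map_subtype_le _)
      (coprime_card_of_isPGroup (pCoreOf_isPGroup q L) (pPrimeCoreOf_coprime q L)))
  have hBB : ⁅B, B⁆ = ⊥ := le_bot_iff.1 ((le_inf ((commutator_mono le_top le_top).trans hGQ)
    (Coprime.commutator_le_of_le_normalizer le_normalizer)).trans
    (inf_eq_bot_of_isPGroup_of_coprime Q.2 (pPrimeCoreOf_coprime q L)).le)
  have h2 : ⁅L, L⁆ ≤ D := by
    have h3 : ∀ C, ⁅A, C⁆ ≤ D → ⁅B, C⁆ ≤ D → ⁅C, L⁆ ≤ D := fun C h4 h5 => by
      rw [commutator_comm, ← h1]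
      exact commutator_sup_le le_normalizer_of_normal le_normalizer_of_normal h4 h5
    conv_lhs => rw [← h1]; enter [2]; rw [h1]
    exact commutator_sup_le le_normalizer_of_normal le_normalizer_of_normal
      (h3 A (hD' ▸ commutator_mono hAQ hAQ) (by rw [commutator_comm, hAB]; exact bot_le))
      (h3 B (hAB ▸ bot_le) (hBB ▸ bot_le))
  rw [commutator_le_iff_map_mk', map_comap_mk', commutator_eq_bot_iff_le_centralizer] at h2
  exact le_centralizer_iff_isMulCommutative.1 h2

end Cfsg.Agent.S0577
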