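import Cfsg.Statements.S0578
import Cfsg.Agent.Lib.Solv.Schmidt

set_option autoImplicit false
open Cfsg

namespace Cfsg.Agent.S0578

open Subgroup Cfsg.Lib Cfsg.Lib.Solv

/-- If in a finite group the normalizer of each abelian subgroup coincides with its centralizer, then the group is abelian. -/
theorem result {G : Type*} [Group G] [Finite G] (h : ∀ A : Subgroup G, IsMulCommutative A → Subgroup.normalizer (A : Set G) = Subgroup.centralizer (A : Set G)) : IsMulCommutative G := by
  have key : ∀ S : Subgroup G, Group.IsNilpotent S → IsMulCommutative S := fun S hS => by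
    obtain ⟨A, -, hAS, hn, hA, hc⟩ := PGroup.exists_scn_ge_of_le (S := S) (E := ⊥) bot_le
      le_normalizer_of_normal
    rw [h A hA, ← inf_eq_left, hc] at hn
    exact hn ▸ hA
  have hG : Group.IsNilpotent G := isNilpotent_of_forall_hasNormalPComplement fun p hp => by
    have := Fact.mk hp
    let P : Sylow p G := default
    rw [← Transfer.hasNormalPComplement_top_iff]
    refine Transfer.hasNormalPComplement_subgroup_of_normalizer_le P.2
      (by rw [relIndex_top_right]; exact P.not_dvd_index) le_top ?_
    rw [h P (key P P.2.isNilpotent)]
    exact inf_le_right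
  exact isMulCommutative_of_top (key ⊤ inferInstance)

end Cfsg.Agent.S0578
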