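import Cfsg.Statements.S0587
import Cfsg.Agent.Lib.Solv.CoreFree

set_option autoImplicit false
open Cfsg

namespace Cfsg.Agent.S0587

open Subgroup Cfsg.Lib Cfsg.Lib.Core Cfsg.Lib.Solv

/-- Let G be a finite group whose largest normal p-subgroup L is nontrivial, and M a maximal subgroup of G with trivial normal core. Then L is elementary abelian, M is a complement to L, L is a minimal normal subgroup of G, the centralizer of L is L, and for every prime q such that the largest normal q-subgroup of M is nontrivial, the order of L is congruent to 1 modulo q and q ≠ p. -/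
theorem result {G : Type*} [Group G] [Finite G] (p : ℕ) [Fact p.Prime] (hL : Cfsg.pCore p G ≠ ⊥) (M : Subgroup G) (hM : IsCoatom M) (hcore : M.normalCore = ⊥) : Cfsg.IsElementaryAbelian p (Cfsg.pCore p G) ∧ Subgroup.IsComplement' (Cfsg.pCore p G) M ∧ (∀ K : Subgroup G, K.Normal → K ≤ Cfsg.pCore p G → K = ⊥ ∨ K = Cfsg.pCore p G) ∧ Subgroup.centralizer ((Cfsg.pCore p G : Subgroup G) : Set G) = Cfsg.pCore p G ∧ ∀ (q : ℕ) [Fact q.Prime], Cfsg.pCore q ↥M ≠ ⊥ → Nat.card (Cfsg.pCore p G) % q = 1 % q ∧ q ≠ p := by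
  have hn := (pCore_isPGroup p G).isNilpotent
  obtain ⟨h1, h2⟩ := centralizer_eq_of_coreFree hM hcore inferInstance hL hn
  refine ⟨h2.isElementaryAbelian_of_isPGroup (pCore_isPGroup p G), isComplement'_of_inf_eq_bot
    (inf_eq_bot_of_coreFree hM hcore inferInstance hL hn)
    (sup_eq_top_of_coreFree hM hcore inferInstance hL), h2.min, h1, fun q hq h0 => ?_⟩
  have h3 := Transfer.card_modEq_card_inf_centralizer (pCoreOf_isPGroup q M)
    (T := pCore p G) le_normalizer_of_normal
  rw [inf_centralizer_eq_bot_of_coreFree hM hcore inferInstance hL hn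
    (fun e => h0 (pCoreOf_eq_bot_iff.1 e)) (pCoreOf_le q M) (le_normalizer_pCoreOf q M), card_bot] at h3
  refine ⟨h3, ?_⟩
  rintro rfl
  obtain ⟨k, hk⟩ := card_pCore_eq_pow (G := G) q
  have h4 : q ∣ Nat.card (pCore q G) := hk ▸ dvd_pow_self q fun e =>
    hL (card_eq_one.1 (by rw [hk, e, pow_zero]))
  exact hq.out.ne_one (Nat.dvd_one.1 ((h3.dvd_iff dvd_rfl).1 h4))

end Cfsg.Agent.S0587
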