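import Cfsg.Statements.S0588
import Cfsg.Agent.Lib.Core.MinNormal
import Cfsg.Agent.Lib.Transfer.SylowIn

set_option autoImplicit false
open Cfsg

namespace Cfsg.Agent.S0588

open Subgroup Cfsg.Lib Cfsg.Lib.Core

/-- If a subgroup H of a finite group G contains the centralizer of every non-identity element of H, then the order of H is coprime to its index. -/
theorem result {G : Type*} [Group G] [Finite G] (H : Subgroup G) (h : ∀ x ∈ H, x ≠ 1 → Subgroup.centralizer ({x} : Set G) ≤ H) : (Nat.card H).Coprime H.index := by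
  refine Nat.coprime_of_dvd fun p hp h1 h2 => ?_
  have := Fact.mk hp
  obtain ⟨x, hx, ho⟩ := exists_mem_orderOf_eq_prime hp h1
  have hx1 : x ≠ 1 := fun e => hp.ne_one (by rw [← ho, e, orderOf_one])
  obtain ⟨P, hP⟩ := (IsPGroup.of_card (n := 1) (by rw [Nat.card_zpowers, ho, pow_one]) :
    IsPGroup p (zpowers x)).exists_le_sylow
  obtain ⟨z, hz, hzc, hzo⟩ := PGroup.exists_mem_centralizer_orderOf_eq P.2 P.2 le_normalizer
    fun e => hx1 (mem_bot.1 (e ▸ hP (mem_zpowers x)))
  have hz1 : z ≠ 1 := fun e => hp.ne_one (by rw [← hzo, e, orderOf_one])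
  have hzH : z ∈ H := h x hx hx1 (mem_centralizer_singleton_iff.2 (hzc x (hP (mem_zpowers x))).symm)
  exact Transfer.not_dvd_index_of_sylow_le P
    (fun y hy => h z hzH hz1 (mem_centralizer_singleton_iff.2 (hzc y hy))) h2

end Cfsg.Agent.S0588
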