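import Cfsg.Statements.S0589
import Cfsg.Agent.Lib.PLocal.FPF
import Cfsg.Agent.Lib.Frobenius.Theorem
import Cfsg.Agent.Lib.Core.Solvable

set_option autoImplicit false
open Pointwise
open Cfsg

namespace Cfsg.Agent.S0589

open Subgroup Cfsg.Lib Cfsg.Lib.Core

/-- Let H be a Frobenius complement in a finite group G and L a subgroup of G whose order divides the order of H. Then L is contained in some conjugate of H. -/
theorem result {G : Type*} [Group G] [Finite G] (H : Subgroup G) (hH : Cfsg.IsFrobeniusComplement H) (L : Subgroup G) (hL : Nat.card L ∣ Nat.card H) : ∃ x : G, L ≤ MulAut.conj x • H := by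
  obtain ⟨K, hK, -, -, hs, hf⟩ := Frobenius.exists_kernel hH
  obtain ⟨n, -, hn⟩ := Coprime.exists_map_conj_le_of_le_sup (N := K) (A := H) (B := L)
    le_normalizer_of_normal (hs ▸ le_top)
    ((Frobenius.coprime_card_of_fpf le_normalizer_of_normal hf).coprime_dvd_left hL)
    (Or.inr (isSolvable_of_isNilpotent (PLocal.isNilpotent_of_fpf le_normalizer_of_normal
      ((Frobenius.isFrobeniusComplement_iff H).1 hH).1 hf)))
  exact ⟨n⁻¹, by rw [conj_smul_eq_map]; exact Transfer.conj_le_iff_le_inv_conj.1 hn⟩

end Cfsg.Agent.S0589
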