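import Cfsg.Statements.S0591
import Cfsg.Agent.Lib.PLocal.Offender

set_option autoImplicit false
open Cfsg

set_option linter.unusedVariables false
open Cfsg.Lib

namespace Cfsg.Agent.S0591

/-- For a quadratically acting element a on an elementary abelian p-group V, the fixed points C_V(a) have order at least the square root of the order of V. -/
theorem result {G : Type*} [Group G] [Finite G] {p : ℕ} [Fact p.Prime] (V : Subgroup G) (hV : Cfsg.IsElementaryAbelian p V) (a : G) (ha : a ∈ Subgroup.normalizer (V : Set G)) (hq : ⁅⁅V, Subgroup.zpowers a⁆, Subgroup.zpowers a⁆ = ⊥) : Nat.card V ≤ Nat.card ↥(V ⊓ Subgroup.centralizer (Subgroup.zpowers a : Set G)) ^ 2 := by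
  have hz : Subgroup.zpowers a ≤ Subgroup.normalizer (V : Set G) := Subgroup.zpowers_le.mpr ha
  have h := PLocal.relIndex_le_of_map (A := V) (B := Subgroup.centralizer (Subgroup.zpowers a : Set G))
    (C := ⊥) (M := V ⊓ Subgroup.centralizer (Subgroup.zpowers a : Set G))
    (fun v => v * a * v⁻¹ * a⁻¹) (fun v hv => ⟨PLocal.commutator_le_of_le hz le_rfl
      (Subgroup.commutator_mem_commutator hv (Subgroup.mem_zpowers a)),
      Subgroup.commutator_eq_bot_iff_le_centralizer.mp hq
        (Subgroup.commutator_mem_commutator hv (Subgroup.mem_zpowers a))⟩) fun v hv w hw h => by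
      rw [Core.centralizer_zpowers, Subgroup.mem_centralizer_singleton_iff]
      rw [Subgroup.mem_bot, inv_mul_eq_one, mul_left_inj] at h
      calc v⁻¹ * w * a = v⁻¹ * (w * a * w⁻¹) * w := by group
        _ = _ := by rw [← h]; group
  rw [← Core.card_inf_mul_relIndex (Subgroup.centralizer (Subgroup.zpowers a : Set G)) V, inf_comm, sq]
  exact Nat.mul_le_mul_left _ (by rwa [Subgroup.relIndex_bot_left] at h)

end Cfsg.Agent.S0591
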