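import Cfsg.Statements.S0592
import Cfsg.Agent.Lib.PLocal.QuadCore

set_option autoImplicit false
open Cfsg

namespace Cfsg.Agent.S0592

/-- Two quadratically acting generators of a linear group that is not a p-group, with the p'-part of the order of their product dividing q - 1, give a homomorphism onto a subgroup of SL(2, q) that is not a p-group. -/
theorem result {K : Type*} [Field K] [Fintype K] {p : ℕ} [Fact p.Prime] [CharP K p] {W : Type*} [AddCommGroup W] [Module K W] [FiniteDimensional K W] [Finite W] [Nontrivial W] (H : Subgroup (W ≃ₗ[K] W)) (a b : W ≃ₗ[K] W) (hH : H = Subgroup.closure {a, b}) (ha : ∀ w : W, a (a w - w) = a w - w) (hb : ∀ w : W, b (b w - w) = b w - w) (hnp : ¬ IsPGroup p H) (hk : ∃ e k : ℕ, orderOf (a * b) = p ^ e * k ∧ k ∣ Fintype.card K - 1) : ∃ φ : H →* Matrix.SpecialLinearGroup (Fin 2) K, ¬ IsPGroup p φ.range := by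
  classical
  have haH : a ∈ H := hH ▸ Subgroup.subset_closure (by simp)
  have hbH : b ∈ H := hH ▸ Subgroup.subset_closure (by simp)
  let ρ : H →* Module.End K W :=
    (LinearEquiv.automorphismGroup.toLinearMapMonoidHom).comp H.subtype
  have hρ : Function.Injective ρ := fun x y h => Subtype.ext (LinearEquiv.toLinearMap_injective h)
  have hab : Subgroup.closure {(⟨a, haH⟩ : H), ⟨b, hbH⟩} = ⊤ := by
    apply Subgroup.map_injective H.subtype_injective
    rw [MonoidHom.map_closure, Set.image_pair, ← MonoidHom.range_eq_map, Subgroup.range_subtype]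
    exact hH.symm
  have hsplit : (minpoly K (ρ (⟨a, haH⟩ * ⟨b, hbH⟩))).Splits := by
    obtain ⟨e, k, h1, l, h2⟩ := hk
    have h3 : (Polynomial.X ^ Fintype.card K - Polynomial.X : Polynomial K).Splits := by
      simpa using (FiniteField.isSplittingField_sub K K).splits
    refine (h3.pow (p ^ e)).of_dvd (pow_ne_zero _ (FiniteField.X_pow_card_sub_X_ne_zero K
      Fintype.one_lt_card)) (minpoly.dvd _ _ ?_)
    set g := ρ (⟨a, haH⟩ * ⟨b, hbH⟩) with hg
    have h4 : g ^ (p ^ e * k) = 1 := by
      rw [hg, ← map_pow, ← map_one ρ]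
      congr 1
      exact Subtype.ext (by simp [← h1])
    have h5 : Fintype.card K = k * l + 1 := by
      have := Fintype.one_lt_card (α := K); omega
    have : CharP (Module.End K W) p := charP_of_injective_algebraMap' K p
    rw [map_pow, map_sub, map_pow, Polynomial.aeval_X, sub_pow_char_pow_of_commute _ _
      ((Commute.refl g).pow_left _), ← pow_mul, h5,
      show (k * l + 1) * p ^ e = (p ^ e * k) * l + p ^ e by ring, pow_add, pow_mul, h4, one_pow,
      one_mul, sub_self]
  have hchar : CharP (Module.End K W) p := charP_of_injective_algebraMap' K p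
  rcases Cfsg.Lib.PLocal.unipotent_or_exists_pair ρ hab
    (LinearMap.ext fun w => by simpa [ρ, sub_eq_zero] using ha w)
    (LinearMap.ext fun w => by simpa [ρ, sub_eq_zero] using hb w) hsplit with h | ⟨μ, φ, -, hμ, hdet, h1, h2, -⟩
  · refine absurd (fun g => ?_) hnp
    obtain ⟨n, hn⟩ := h g
    refine ⟨n, hρ ?_⟩
    rw [map_pow, map_one, ← sub_eq_zero, ← one_pow (p ^ n), ← sub_pow_char_pow_of_commute _ _
      (Commute.one_right _)]
    exact pow_eq_zero_of_le (Nat.lt_pow_self (Fact.out : p.Prime).one_lt).le hn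
  · let ψ : H →* Matrix.SpecialLinearGroup (Fin 2) K :=
      { toFun := fun h => ⟨φ h, hdet h⟩
        map_one' := Subtype.ext (map_one φ)
        map_mul' := fun x y => Subtype.ext (map_mul φ x y) }
    refine ⟨ψ, fun hp => ?_⟩
    obtain ⟨n, hn⟩ := hp ⟨ψ (⟨a, haH⟩ * ⟨b, hbH⟩), _, rfl⟩
    have h3 : φ (⟨a, haH⟩ * ⟨b, hbH⟩) ^ p ^ n = 1 := by
      rw [← map_pow]
      have : ψ ((⟨a, haH⟩ * ⟨b, hbH⟩) ^ p ^ n) = 1 := by
        rw [map_pow]; exact congrArg Subtype.val hn
      exact congrArg Subtype.val this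
    have h4 := Cfsg.Lib.PLocal.sub_one_sq_eq_zero_of_pow_char_pow p h3
    rw [map_mul, h1, h2] at h4
    have := congrFun (congrFun h4 1) 1
    simp [Matrix.mul_apply, Fin.sum_univ_two] at this
    exact hμ this

end Cfsg.Agent.S0592
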