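import Cfsg.Statements.S0594
import Cfsg.Agent.Lib.PLocal.Quadratic

set_option autoImplicit false
open Cfsg

namespace Cfsg.Agent.S0594

/-- For odd p, two quadratic generators of a faithful group that is not a p-group, one of which acts nontrivially on a normal subgroup of order prime to p, force p = 3 and a section isomorphic to SL(2,3). -/
theorem result {G : Type*} [Group G] [Finite G] {p : ℕ} [Fact p.Prime] (hp : p ≠ 2) (V H : Subgroup G) (hV : Cfsg.IsElementaryAbelian p V) (hHV : H ≤ Subgroup.normalizer (V : Set G)) (hf : H ⊓ Subgroup.centralizer (V : Set G) = ⊥) (a b : G) (hab : H = Subgroup.closure {a, b}) (ha : ⁅⁅V, Subgroup.zpowers a⁆, Subgroup.zpowers a⁆ = ⊥) (hb : ⁅⁅V, Subgroup.zpowers b⁆, Subgroup.zpowers b⁆ = ⊥) (hnp : ¬ IsPGroup p H) (Q : Subgroup G) (hQH : Q ≤ H) (hQn : H ≤ Subgroup.normalizer (Q : Set G)) (hQ : (Nat.card Q).Coprime p) (hQa : ⁅Q, Subgroup.zpowers a⁆ ≠ ⊥) : p = 3 ∧ ∃ (K L : Subgroup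 G) (hL : (L.subgroupOf K).Normal), K ≤ H ∧ Nonempty ((K ⧸ L.subgroupOf K) ≃* Matrix.SpecialLinearGroup (Fin 2) (ZMod 3)) := by
  have haH : a ∈ H := hab ▸ Subgroup.subset_closure (by simp)
  obtain ⟨x, hx, hxa⟩ : ∃ x ∈ Q, a⁻¹ * (x * a * x⁻¹) ∉ Subgroup.centralizer (V : Set G) := by
    by_contra h
    push Not at h
    apply hQa
    rw [Subgroup.commutator_eq_bot_iff_le_centralizer, Cfsg.Lib.Core.centralizer_zpowers]
    intro x hx
    have h1 : a⁻¹ * (x * a * x⁻¹) = 1 := Subgroup.mem_bot.mp (hf ▸ ⟨H.mul_mem (H.inv_mem haH)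
      (H.mul_mem (H.mul_mem (hQH hx) haH) (H.inv_mem (hQH hx))), h x hx⟩)
    rw [Subgroup.mem_centralizer_singleton_iff, ← mul_inv_eq_iff_eq_mul]
    exact (inv_mul_eq_one.mp h1).symm
  obtain ⟨h3, h⟩ := Cfsg.Lib.PLocal.eq_three_of_quadratic_of_not_commute hp hV (hQH.trans hHV)
    (hHV haH) (hQn haH) ha (hQ.coprime_dvd_left (Subgroup.relIndex_dvd_card _ _)) hx hxa
  subst h3
  exact ⟨rfl, (h.hasSection.of_le (Cfsg.Lib.PLocal.closure_pair_le haH
    (mul_mem (mul_mem (hQH hx) haH) (inv_mem (hQH hx))))).exists_le⟩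

end Cfsg.Agent.S0594
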