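import Cfsg.Statements.S0595
import Cfsg.Agent.Lib.PLocal.Quadratic

set_option autoImplicit false
open Cfsg

namespace Cfsg.Agent.S0595

/-- For odd p, a faithful action on an elementary abelian p-group that is not p-stable forces non-abelian Sylow 2-subgroups. -/
theorem result {G : Type*} [Group G] [Finite G] {p : ℕ} [Fact p.Prime] (hp : p ≠ 2) (V H : Subgroup G) (hV : Cfsg.IsElementaryAbelian p V) (hHV : H ≤ Subgroup.normalizer (V : Set G)) (hf : H ⊓ Subgroup.centralizer (V : Set G) = ⊥) (a : G) (haH : a ∈ H) (hq : ⁅⁅V, Subgroup.zpowers a⁆, Subgroup.zpowers a⁆ = ⊥) (hna : a ∉ (Cfsg.pCore p H).map H.subtype) (T : Sylow 2 H) : ¬ IsMulCommutative T := by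
  obtain ⟨g, hg, h⟩ := Cfsg.Lib.PLocal.exists_conj_not_isPGroup_of_not_mem_pCore_map haH hna
  have hle := Cfsg.Lib.PLocal.closure_pair_le haH (mul_mem (mul_mem hg haH) (inv_mem hg))
  intro hT
  obtain ⟨T'⟩ : Nonempty (Sylow 2 (Subgroup.closure {a, g * a * g⁻¹} : Subgroup G)) := inferInstance
  refine Cfsg.Lib.PLocal.not_isMulCommutative_sylow_two_of_quadratic hp hV (hle.trans hHV) rfl hq
    (Cfsg.Lib.PLocal.quadratic_conj (hHV hg) hq)
    (fun h' => h ((Cfsg.Lib.PLocal.isPGroup_iff_of_inf_centralizer_eq_bot hle hf).mpr h')) T'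
    (Cfsg.Lib.PLocal.isMulCommutative_sylow_of_hasSection
      (Cfsg.Lib.PLocal.hasSection_refl.of_le hle) (fun S => ?_) T')
  have e := Sylow.equiv S T
  exact ⟨⟨fun x y => e.injective (by rw [map_mul, map_mul, mul_comm'])⟩⟩

end Cfsg.Agent.S0595
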