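import Cfsg.Statements.S0596
import Cfsg.Agent.Lib.PLocal.Offender

set_option autoImplicit false
open Cfsg

set_option linter.unusedVariables false
open Cfsg.Lib

namespace Cfsg.Agent.S0596

/-- For odd p, a p-separable group with a faithful action on an elementary abelian p-group that is not p-stable has p = 3 and involves SL(2,3). -/
theorem result {G : Type*} [Group G] [Finite G] {p : ℕ} [Fact p.Prime] (hp : p ≠ 2) (V H : Subgroup G) (hV : Cfsg.IsElementaryAbelian p V) (hHV : H ≤ Subgroup.normalizer (V : Set G)) (hf : H ⊓ Subgroup.centralizer (V : Set G) = ⊥) (hsep : Cfsg.IsPSolvable p H) (a : G) (haH : a ∈ H) (hq : ⁅⁅V, Subgroup.zpowers a⁆, Subgroup.zpowers a⁆ = ⊥) (hna : a ∉ (Cfsg.pCore p H).map H.subtype) : p = 3 ∧ ∃ (K L : Subgroup G) (hL : (L.subgroupOf K).Normal), K ≤ H ∧ Nonempty ((K ⧸ L.subgroupOf K) ≃* Matrix.SpecialLinearGroup (Fin 2) (ZMod 3)) := by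
    let K := H ⊔ V
    have hK : K ≤ Subgroup.normalizer (V : Set G) := Core.sup_le_normalizer hHV
    have : (V.subgroupOf K).Normal := (Subgroup.normal_subgroupOf_iff_le_normalizer le_sup_right).mpr hK
    have hns : ¬ IsPStableOn p (V.subgroupOf K) := fun h => hna
      ((((PLocal.isPStableOn_subgroupOf_iff le_sup_right).mp h a (Subgroup.mem_sup_left haH) hq).mono
        le_sup_left haH (C' := ⊥) (by rw [inf_comm, hf])).mem_pCoreOf
        (by rw [bot_inf_eq]; exact IsPGroup.of_bot))
    have := mt (PLocal.isPStableOn_of_forall_quotient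
      (PGroup.elemAb_isPGroup (PGroup.elemAb_subgroupOf hV K))) hns
    simp only [not_forall] at this
    obtain ⟨N, _, hN, U, _, hU, hUV, hUe, hns'⟩ := this
    let f : H →* (K ⧸ N) ⧸ Subgroup.centralizer (U : Set (K ⧸ N)) :=
      (QuotientGroup.mk' _).comp ((QuotientGroup.mk' N).comp (Subgroup.inclusion le_sup_left))
    have hfs : Function.Surjective f := by
      intro x
      obtain ⟨x, rfl⟩ := QuotientGroup.mk_surjective x
      obtain ⟨x, rfl⟩ := QuotientGroup.mk_surjective x
      obtain ⟨h, hh, v, hv, e⟩ := (Core.mem_sup_of_le_normalizer_right hHV).mp x.2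
      refine ⟨⟨h, hh⟩, QuotientGroup.eq.mpr ?_⟩
      have h1 : (QuotientGroup.mk' N) ⟨v, Subgroup.mem_sup_right hv⟩ ∈
          Subgroup.centralizer (U : Set (K ⧸ N)) :=
        PLocal.le_centralizer_of_comm (PGroup.elemAb_map _ (PGroup.elemAb_subgroupOf hV K)).1 le_rfl
          hUV (Subgroup.mem_map_of_mem _ hv)
      convert h1 using 1
      rw [inv_mul_eq_iff_eq_mul]
      change QuotientGroup.mk' N x = QuotientGroup.mk' N _ * _
      rw [← map_mul]
      exact congrArg _ (Subtype.ext e.symm)
    obtain ⟨rfl, L, hL⟩ := PLocal.eq_three_of_not_isPStableOn hp hU hUe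
      (Core.isPSolvable_of_surjective hsep hfs) hns'
    exact ⟨rfl, (((hL.hasSection_map (QuotientGroup.mk' _) (QuotientGroup.ker_mk' _).le).of_subgroup).of_surjective
      f hfs).exists_le⟩

end Cfsg.Agent.S0596
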