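import Cfsg.Statements.S0601
import Cfsg.Agent.Lib.PLocal.Factor

set_option autoImplicit false
open Cfsg

set_option linter.unusedVariables false
open Cfsg.Lib

namespace Cfsg.Agent.S0601

/-- When O_p(G) contains its centralizer, the normal closure of Ω₁(Z(S)) is elementary abelian and G has no nontrivial normal p-subgroup modulo its centralizer. -/
theorem result {G : Type*} [Group G] [Finite G] {p : ℕ} [Fact p.Prime] (hc : Subgroup.centralizer (Cfsg.pCore p G : Set G) ≤ Cfsg.pCore p G) : (⨆ S : Sylow p G, Cfsg.omegaOne p (((S : Subgroup G)) ⊓ Subgroup.centralizer ((S : Subgroup G) : Set G))).Normal ∧ Cfsg.IsElementaryAbelian p (⨆ S : Sylow p G, Cfsg.omegaOne p (((S : Subgroup G)) ⊓ Subgroup.centralizer ((S : Subgroup G) : Set G))) ∧ ∀ D : Subgroup G, D.Normal → Subgroup.centralizer ((⨆ S : Sylow p G, Cfsg.omegaOne p (((S : Subgroup G)) ⊓ Subgroup.centralizer ((S : Subgroup G) : Set G)) : Subgroup G) : Set G) ≤ D → (∃ k : ℕ, (Subgroup.centralizer ((⨆ S : Sylow p G, Cfsg.omegaOne p (((S :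 Subgroup G)) ⊓ Subgroup.centralizer ((S : Subgroup G) : Set G)) : Subgroup G) : Set G)).relIndex D = p ^ k) → D = Subgroup.centralizer ((⨆ S : Sylow p G, Cfsg.omegaOne p (((S : Subgroup G)) ⊓ Subgroup.centralizer ((S : Subgroup G) : Set G)) : Subgroup G) : Set G) := by
  refine ⟨PLocal.omegaCenterSup_normal (e := p) (p := p), PLocal.isElementaryAbelian_omegaCenterSup (e := p) hc, ?_⟩
  intro D hD hle ⟨k, hk⟩
  refine le_antisymm (fun a ha => ?_) hle
  refine PLocal.InCoreMod.mem_centralizer (p := p) (PLocal.omegaCenterSup_le_iSup (e := p)) ⟨D, ha, le_top, ?_, fun x hx => ⟨k, ?_⟩⟩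
  · rw [Subgroup.normalizer_eq_top]
  · haveI : (Subgroup.centralizer (PLocal.omegaCenterSup p p G : Set G)).Normal := inferInstance
    have := Subgroup.pow_index_mem (H := (Subgroup.centralizer (PLocal.omegaCenterSup p p G : Set G)).subgroupOf D) ⟨x, hx⟩
    rw [Subgroup.mem_subgroupOf] at this
    have hk' : ((Subgroup.centralizer (PLocal.omegaCenterSup p p G : Set G)).subgroupOf D).index = p ^ k := hk
    rw [hk'] at this
    exact this

end Cfsg.Agent.S0601
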