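import Cfsg.Statements.S0605
import Cfsg.Agent.Lib.PLocal.Thompson

set_option autoImplicit false
open Cfsg

namespace Cfsg.Agent.S0605

/-- Elements of order p in the centralizer of the Thompson subgroup belong to the Thompson subgroup (so to its centre). -/
theorem result {G : Type*} [Group G] [Finite G] {p : ℕ} [Fact p.Prime] (x : G) (hx : x ∈ Subgroup.centralizer (Cfsg.thompsonSubgroup p G : Set G)) (ho : orderOf x = p) : x ∈ Cfsg.thompsonSubgroup p G := by
  rw [← Cfsg.Lib.PLocal.thompsonSubgroupOf_top] at hx ⊢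
  exact (Cfsg.Lib.PLocal.mem_centerThompsonOf (Subgroup.mem_top x) hx (ho ▸ pow_orderOf_eq_one x)).1

end Cfsg.Agent.S0605
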