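import Cfsg.Statements.S0607
import Cfsg.Agent.Lib.PLocal.Offender

set_option autoImplicit false
open Cfsg

set_option linter.unusedVariables false
open Cfsg.Lib

namespace Cfsg.Agent.S0607

/-- The replacement Theorem for the Thompson subgroup: from A of maximal order among elementary abelian p-subgroups one obtains A₀ = [V, A] C_A([V, A]) of the same kind, quadratic on V and nontrivial on V when A is. -/
theorem result {G : Type*} [Group G] [Finite G] {p : ℕ} [Fact p.Prime] (V : Subgroup G) [V.Normal] (hV : Cfsg.IsElementaryAbelian p V) (A : Subgroup G) (hA : A ∈ Cfsg.maxElementaryAbelianSubgroups p G) : (⁅V, A⁆ ⊔ (A ⊓ Subgroup.centralizer ((⁅V, A⁆ : Subgroup G) : Set G))) ∈ Cfsg.maxElementaryAbelianSubgroups p G ∧ ⁅⁅V, ⁅V, A⁆ ⊔ (A ⊓ Subgroup.centralizer ((⁅V, A⁆ : Subgroup G) : Set G))⁆, ⁅V, A⁆ ⊔ (A ⊓ Subgroup.centralizer ((⁅V, A⁆ : Subgroup G) : Set G))⁆ = ⊥ ∧ (⁅V, A⁆ ≠ ⊥ → ⁅V, ⁅V, A⁆ ⊔ (A ⊓ Subgroup.centralizer ((⁅V,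 A⁆ : Subgroup G) : Set G))⁆ ≠ ⊥) := by
  rw [← PLocal.maxIn_top] at hA ⊢
  have hAV : A ≤ Subgroup.normalizer (V : Set G) := Subgroup.le_normalizer_of_normal
  refine ⟨PLocal.replacement_mem_maxIn hA le_top hV hAV, PLocal.quadratic_replacement hV.1 hAV,
    fun h0 h => ?_⟩
  refine PLocal.commutator_replacement_ne_bot (PGroup.elemAb_isPGroup hV) hV.1 hAV
    (fun a ha => ⟨1, by rw [pow_one, hA.2.1.2 a ha]; exact one_mem _⟩) le_rfl
    (PLocal.replacement_of_max hV.1 hAV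
      (by rw [Subgroup.commutator_self_eq_bot_iff.mpr hA.2.1.1]; exact bot_le)
      (fun B hB => PLocal.offMeasure_le_of_mem_maxIn hA le_top hV hB) le_rfl).1 h0 ?_
  exact eq_bot_iff.mpr ((Subgroup.commutator_mono le_rfl le_sup_right).trans h.le)

end Cfsg.Agent.S0607
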