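import Cfsg.Statements.S0609
import Cfsg.Agent.Lib.PLocal.Factor

set_option autoImplicit false
open Cfsg

set_option linter.unusedVariables false
open Cfsg.Lib

namespace Cfsg.Agent.S0609

theorem aux {G : Type*} [Group G] [Finite G] {p : ℕ} [Fact p.Prime] (S : Sylow p G) :
    Subgroup.centralizer (PLocal.omegaCenter p ((S : Subgroup G).map (QuotientGroup.mk' (Cfsg.pPrimeCore p G))) : Set (G ⧸ Cfsg.pPrimeCore p G)) =
      (Subgroup.centralizer (PLocal.omegaCenter p (S : Subgroup G) : Set G)).map (QuotientGroup.mk' (Cfsg.pPrimeCore p G)) ∧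
    Subgroup.normalizer (Cfsg.thompsonSubgroupOf p ((S : Subgroup G).map (QuotientGroup.mk' (Cfsg.pPrimeCore p G))) : Set (G ⧸ Cfsg.pPrimeCore p G)) =
      (Subgroup.normalizer (Cfsg.thompsonSubgroupOf p (S : Subgroup G) : Set G)).map (QuotientGroup.mk' (Cfsg.pPrimeCore p G)) := by
  have hk : (Nat.card (QuotientGroup.mk' (Cfsg.pPrimeCore p G)).ker).Coprime p := by
    rw [QuotientGroup.ker_mk']; exact Core.pPrimeCore_coprime p G
  refine ⟨?_, (PLocal.subFunctor_thompsonSubgroupOf (Or.inr rfl)).normalizer_map (QuotientGroup.mk'_surjective _) hk S.isPGroup'⟩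
  rw [← (PLocal.subFunctor_omegaCenter (Or.inr rfl)).map S.isPGroup' (Core.inf_eq_bot_of_isPGroup_of_coprime S.isPGroup' hk)]
  have hZ : IsPGroup p (PLocal.omegaCenter p (S : Subgroup G)) := S.isPGroup'.to_le (PLocal.omegaCenter_le _)
  exact Coprime.centralizer_map_mk' (Core.coprime_card_of_isPGroup hZ (Core.pPrimeCore_coprime p G))
    (Or.inl (by have := hZ.isNilpotent; infer_instance))

/-- Thompson factorizability passes to and from the quotient by the largest normal subgroup of order prime to p. -/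
theorem result {G : Type*} [Group G] [Finite G] {p : ℕ} [Fact p.Prime] : Cfsg.IsThompsonFactorizable p G ↔ Cfsg.IsThompsonFactorizable p (G ⧸ Cfsg.pPrimeCore p G) := by
  constructor
  · intro h S' g'
    obtain ⟨S, rfl⟩ := Sylow.mapSurjective_surjective (QuotientGroup.mk'_surjective (Cfsg.pPrimeCore p G)) p S'
    obtain ⟨g, rfl⟩ := QuotientGroup.mk'_surjective (Cfsg.pPrimeCore p G) g'
    obtain ⟨x, hx, c, hc, n, hn, hg⟩ := h S g
    refine ⟨1, Subgroup.one_mem _, QuotientGroup.mk' _ c, ?_, QuotientGroup.mk' _ n, ?_, ?_⟩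
    · exact (aux S).1.ge (Subgroup.mem_map_of_mem _ hc)
    · exact (aux S).2.ge (Subgroup.mem_map_of_mem _ hn)
    · rw [hg, map_mul, map_mul]
      congr 2
      exact (QuotientGroup.eq_one_iff _).mpr hx
  · intro h S g
    obtain ⟨x, hx, c, hc, n, hn, hg⟩ := h (S.mapSurjective (QuotientGroup.mk'_surjective (Cfsg.pPrimeCore p G))) (QuotientGroup.mk' _ g)
    rw [Core.pPrimeCore_quotient_pPrimeCore, Subgroup.mem_bot] at hx
    subst hx
    obtain ⟨c, hc', rfl⟩ := (aux S).1.le hc
    obtain ⟨n, hn', rfl⟩ := (aux S).2.le hn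
    refine ⟨g * (c * n)⁻¹, ?_, c, hc', n, hn', by group⟩
    rw [← QuotientGroup.eq_one_iff]
    change QuotientGroup.mk' _ _ = 1
    rw [map_mul, map_inv, map_mul, hg, one_mul, mul_inv_cancel]

end Cfsg.Agent.S0609
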