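import Cfsg.Statements.S0614
import Cfsg.Agent.Lib.PLocal.FFSep

set_option autoImplicit false
open Cfsg

set_option linter.unusedVariables false
open Cfsg.Lib

namespace Cfsg.Agent.S0614

theorem aux : ∃ a b : Matrix.SpecialLinearGroup (Fin 2) (ZMod 3),
    a ^ 4 = 1 ∧ b ^ 4 = 1 ∧ a * b ≠ b * a :=
  ⟨⟨!![0, 1; -1, 0], by decide⟩, ⟨!![1, 1; 1, -1], by decide⟩, by decide, by decide, by decide⟩

/-- The commutator of the p'-core with a minimal nontrivially-acting best offender is a 3-group (when p = 2) or a non-abelian 2-group (when p = 3). -/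
theorem result {G : Type*} [Group G] [Finite G] {p : ℕ} [Fact p.Prime] (V H : Subgroup G) (hV : Cfsg.IsElementaryAbelian p V) (hHV : H ≤ Subgroup.normalizer (V : Set G)) (hf : H ⊓ Subgroup.centralizer (V : Set G) = ⊥) (hS1 : Subgroup.centralizer (Cfsg.pPrimeCore p ↥H : Set ↥H) ≤ Cfsg.pPrimeCore p ↥H) (hS3 : H = ⨆ A : {A : Subgroup G // A ≤ H ∧ Cfsg.IsBestOffenderOn p V A}, (A : Subgroup G)) (hH1 : H ≠ ⊥) (A : Subgroup G) (hAH : A ≤ H) (hA : Cfsg.IsBestOffenderOn p V A) (hAV : ⁅V, A⁆ ≠ ⊥) (hmin : ∀ B : Subgroup G, B ≤ A → Cfsg.IsBestOffenderOn p V B → ⁅V, B⁆ ≠ ⊥ → B = A) : (p = 2 ∧ IsPGroup 3 ↥(⁅((Cfsg.pPrimeCore p ↥H).map H.subtype), A⁆)) ∨ (p = 3 ∧ IsPGroup 2 ↥(⁅((Cfsg.pPrimeCore p ↥H).map H.subtype), A⁆) ∧ ¬ IsMulCommutative ↥(⁅((Cfsg.pPrimeCore p ↥H).map H.subtype), A⁆)) := by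
    have h := PLocal.ffPair_pPrimeCore hV hHV hf hS1
    have ht := h.transv_of_minimal hAH hA hAV hmin
    have hc := h.card_core hAH ht
    rcases h.eq_two_or_three hAH ht with rfl | rfl
    · exact Or.inl ⟨rfl, IsPGroup.of_card (n := 1) hc⟩
    · refine Or.inr ⟨rfl, IsPGroup.of_card (n := 3) hc, fun hab => ?_⟩
      obtain ⟨e⟩ := h.nonempty_equiv hAH ht
      set Q := ⁅(pPrimeCore 3 H).map H.subtype, A⁆ with hQ
      have hn : (Q.subgroupOf (Q ⊔ A)).Normal :=
        (Subgroup.normal_subgroupOf_iff_le_normalizer le_sup_left).mpr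
          (Core.sup_le_normalizer (Subgroup.normalizer_commutator_ge_right _ _) |>
            (sup_comm Q A).le.trans)
      have hi : (Q.subgroupOf (Q ⊔ A)).index = 3 := by
        have h1 := Core.card_mul_relIndex (le_sup_left : Q ≤ Q ⊔ A)
        rw [h.card_block hAH ht, hc] at h1
        change 8 * (Q.subgroupOf (Q ⊔ A)).index = 24 at h1
        omega
      have key : ∀ x : ↥(Q ⊔ A), x ^ 4 = 1 → (x : G) ∈ Q := fun x hx => by
        have h1 := Subgroup.pow_index_mem (Q.subgroupOf (Q ⊔ A)) x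
        rw [hi, show x ^ 3 = x⁻¹ from eq_inv_of_mul_eq_one_left (by rw [← pow_succ, hx]),
          inv_mem_iff] at h1
        exact h1
      obtain ⟨a, b, ha, hb, hab'⟩ := aux
      have h1 := key (e.symm a) (by rw [← map_pow, ha, map_one])
      have h2 := key (e.symm b) (by rw [← map_pow, hb, map_one])
      have h3 : e.symm a * e.symm b = e.symm b * e.symm a :=
        Subtype.ext (setLike_mul_comm (s := Q) h1 h2)
      rw [← map_mul, ← map_mul] at h3
      exact hab' (e.symm.injective h3)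

end Cfsg.Agent.S0614
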