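import Cfsg.Statements.S0615
import Cfsg.Agent.Lib.PLocal.FFPair

set_option autoImplicit false
open Cfsg

set_option linter.unusedVariables false
open Cfsg.Lib

namespace Cfsg.Agent.S0615

open Subgroup Transfer commutatorElement in
theorem aux {G : Type*} [Group G] [Finite G] {p : ℕ} [Fact p.Prime] {V H : Subgroup G}
    (hV : Cfsg.IsElementaryAbelian p V) (hHV : H ≤ normalizer (V : Set G))
    (hf : H ⊓ centralizer (V : Set G) = ⊥) (hO : (pCore p H).map H.subtype = ⊥) (n : ℕ) :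
    ∀ E₁ E₂ : Subgroup G, Nat.card ↥(E₁ ⊔ E₂) = n → Core.SubnormalIn E₁ H → Core.SubnormalIn E₂ H →
    (∀ U : Subgroup G, U ≤ ⁅V, E₁⁆ → E₁ ≤ normalizer (U : Set G) → U = ⊥ ∨ U = ⁅V, E₁⁆) →
    (∀ U : Subgroup G, U ≤ ⁅V, E₂⁆ → E₂ ≤ normalizer (U : Set G) → U = ⊥ ∨ U = ⁅V, E₂⁆) →
    ¬ ⁅V, E₁⁆ ≤ ⁅V, E₂⁆ → ¬ ⁅V, E₂⁆ ≤ ⁅V, E₁⁆ → 2 < Nat.card E₁ → 2 < Nat.card E₂ →
    ⁅⁅V, E₁⁆, E₂⁆ = ⊥ ∧ ⁅V, E₁⁆ ⊓ ⁅V, E₂⁆ = ⊥ := by
  induction n using Nat.strong_induction_on with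
  | _ n ih =>
  -- a subnormal subgroup acting quadratically is trivial
  have hquad : ∀ K, Core.SubnormalIn K H → ⁅⁅V, K⁆, K⁆ = ⊥ → K = ⊥ := fun K hK hq =>
    le_bot_iff.mp ((Core.le_pCoreOf_of_isSubnormal hK.le hK.isSubnormal_subgroupOf
      (PLocal.isPGroup_of_quadratic hV (hK.le.trans hHV)
        (le_bot_iff.mp ((inf_le_inf_right _ hK.le).trans hf.le)) hq)).trans hO.le)
  have hVle : ∀ K, K ≤ H → ⁅V, K⁆ ≤ V := fun K hK =>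
    Coprime.commutator_le_of_le_normalizer (hK.trans hHV)
  -- the case of an invariant commutator module
  have caseA : ∀ E₁ E₂ : Subgroup G, E₁ ≤ H →
      (∀ U : Subgroup G, U ≤ ⁅V, E₂⁆ → E₂ ≤ normalizer (U : Set G) → U = ⊥ ∨ U = ⁅V, E₂⁆) →
      ¬ ⁅V, E₂⁆ ≤ ⁅V, E₁⁆ → E₂ ≤ normalizer ((⁅V, E₁⁆ : Subgroup G) : Set G) →
      ⁅⁅V, E₁⁆, E₂⁆ = ⊥ ∧ ⁅V, E₁⁆ ⊓ ⁅V, E₂⁆ = ⊥ := by
    intro E₁ E₂ h₁ i₂ h21 hn
    have h0 : ⁅V, E₁⁆ ⊓ ⁅V, E₂⁆ = ⊥ := (i₂ _ inf_le_right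
      (Core.le_normalizer_inf hn (normalizer_commutator_ge_right _ _))).resolve_right
      fun e => h21 (e.ge.trans inf_le_left)
    exact ⟨le_bot_iff.mp ((le_inf (Coprime.commutator_le_of_le_normalizer hn)
      (commutator_mono (hVle _ h₁) le_rfl)).trans h0.le), h0⟩
  -- conjugates of the first module
  have conj : ∀ E₁ E₂ : Subgroup G, Nat.card ↥(E₁ ⊔ E₂) = n → Core.SubnormalIn E₁ H → E₂ ≤ H →
      (∀ U : Subgroup G, U ≤ ⁅V, E₁⁆ → E₁ ≤ normalizer (U : Set G) → U = ⊥ ∨ U = ⁅V, E₁⁆) →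
      ¬ ⁅V, E₂⁆ ≤ ⁅V, E₁⁆ → 2 < Nat.card E₁ → ∀ x ∈ E₂, x ⋆ ⁅V, E₁⁆ ≠ ⁅V, E₁⁆ →
      ⁅x ⋆ ⁅V, E₁⁆, E₁⁆ = ⊥ ∧ x ⋆ ⁅V, E₁⁆ ⊓ ⁅V, E₁⁆ = ⊥ := by
    intro E₁ E₂ hn s₁ h₂ i₁ h21 c₁ x hx hne
    have hxV : x ⋆ V = V := conj_eq_self_iff.mpr (hHV (h₂ hx))
    have he : x ⋆ ⁅V, E₁⁆ = ⁅V, x ⋆ E₁⁆ := by rw [conj_commutator, hxV]
    obtain ⟨N, hN, hlt, hNn⟩ := (s₁.mono le_sup_left (sup_le s₁.le h₂)).exists_lt
      fun e => h21 (commutator_mono le_rfl (le_sup_right.trans e.ge))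
    have hxN : x ⋆ E₁ ≤ N := Core.map_conj_le_of_mem_normalizer hN.le (hNn (mem_sup_right hx))
    have hc : Nat.card ↥(x ⋆ ⁅V, E₁⁆) = Nat.card ↥⁅V, E₁⁆ := card_conj _ _
    rw [he] at hne hc ⊢
    refine ih _ (hn ▸ Core.card_lt_card_of_lt ((sup_le hxN hN.le).trans_lt hlt)) _ _ rfl
      (s₁.conj_of_mem (h₂ hx)) s₁ (fun U hU hUn => ?_) i₁
      (fun e => hne (Core.eq_of_le_of_card_eq e hc))
      (fun e => hne (Core.eq_of_le_of_card_eq e hc.symm).symm) (by rwa [card_conj]) c₁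
    rw [← he, le_conj_iff_inv_conj_le] at hU
    rw [conj_le_iff_le_inv_conj, conj_normalizer] at hUn
    rcases i₁ _ hU hUn with e | e
    · exact Or.inl (conj_eq_bot_iff.mp e)
    · exact Or.inr (by rw [← he, ← e, conj_inv_conj])
  intro E₁ E₂ hn s₁ s₂ i₁ i₂ h12 h21 c₁ c₂
  by_cases n₁ : E₂ ≤ normalizer ((⁅V, E₁⁆ : Subgroup G) : Set G)
  · exact caseA E₁ E₂ s₁.le i₂ h21 n₁
  by_cases n₂ : E₁ ≤ normalizer ((⁅V, E₂⁆ : Subgroup G) : Set G)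
  · obtain ⟨h1, h2⟩ := caseA E₂ E₁ s₂.le i₁ h12 n₂
    have h3 := PLocal.commutator_le_pCoreOf_of_subnormal hV hHV hf s₂ s₁ h1
    rw [hO, le_bot_iff, commutator_eq_bot_iff_le_centralizer] at h3
    exact (n₁ (Core.le_normalizer_commutator (s₂.le.trans hHV)
      (h3.trans (centralizer_le_normalizer _)))).elim
  exfalso
  obtain ⟨x, hx, hx'⟩ := SetLike.not_le_iff_exists.mp n₁
  obtain ⟨y, hy, hy'⟩ := SetLike.not_le_iff_exists.mp n₂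
  have c1 := conj E₁ E₂ hn s₁ s₂.le i₁ h21 c₁
  obtain ⟨hx1, hx2⟩ := c1 x hx (mt conj_eq_self_iff.mp hx')
  obtain ⟨-, hy2⟩ := conj E₂ E₁ (by rwa [sup_comm]) s₂ s₁.le i₂ h12 c₂ y hy
    (mt conj_eq_self_iff.mp hy')
  set V₁ := ⁅V, E₁⁆ with hV₁
  set V₂ := ⁅V, E₂⁆ with hV₂
  have hV₁V : V₁ ≤ V := hVle _ s₁.le
  have hV₂V : V₂ ≤ V := hVle _ s₂.le
  have hconj : ∀ (A B : Subgroup G), A ≤ V → ∀ z ∈ B, z ⋆ A ≤ A ⊔ ⁅V, B⁆ := by
    intro A B hA z hz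
    rw [conj_le_iff]
    intro a ha
    rw [show z * a * z⁻¹ = a * ⁅a⁻¹, z⁆ by simp only [commutatorElement_def]; group]
    exact mul_mem (mem_sup_left ha) (mem_sup_right (commutator_mem_commutator (hA (inv_mem ha)) hz))
  have hcV : ∀ (A : Subgroup G), A ≤ V → ∀ z ∈ H, z ⋆ A ≤ V := fun A hA z hz =>
    Core.map_conj_le_of_mem_normalizer hA (hHV hz)
  have hcard : ∀ A B : Subgroup G, A ≤ V → B ≤ V → A ⊓ B = ⊥ →
      Nat.card ↥(A ⊔ B) = Nat.card A * Nat.card B := fun A B hA hB h =>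
    Core.card_sup_of_disjoint (PLocal.le_normalizer_of_comm hV.1 hA hB) h
  have hU := Core.card_sup_mul_card_inf (PLocal.le_normalizer_of_comm hV.1 hV₁V hV₂V)
  have hxle : x ⋆ V₁ ⊔ V₁ ≤ V₁ ⊔ V₂ := sup_le (hconj _ _ hV₁V x hx) le_sup_left
  have hyle : y ⋆ V₂ ⊔ V₂ ≤ V₁ ⊔ V₂ :=
    sup_le ((hconj _ _ hV₂V y hy).trans (sup_comm _ _).le) le_sup_right
  have e1 := hcard _ _ (hcV _ hV₁V x (s₂.le hx)) hV₁V hx2
  have e2 := hcard _ _ (hcV _ hV₂V y (s₁.le hy)) hV₂V hy2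
  rw [card_conj] at e1 e2
  have l1 := card_le_of_le hxle
  have l2 := card_le_of_le hyle
  rw [e1] at l1
  rw [e2] at l2
  have p1 : 0 < Nat.card V₁ := Nat.card_pos
  have p2 : 0 < Nat.card V₂ := Nat.card_pos
  have p3 : 0 < Nat.card ↥(V₁ ⊓ V₂) := Nat.card_pos
  have hxeq : x ⋆ V₁ ⊔ V₁ = V₁ ⊔ V₂ := by
    refine Core.eq_of_le_of_card_eq hxle (le_antisymm (card_le_of_le hxle) ?_)
    rw [e1]
    have l3 : Nat.card ↥(V₁ ⊔ V₂) ≤ Nat.card V₁ * Nat.card V₂ := by nlinarith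
    have l4 : Nat.card V₂ ≤ Nat.card V₁ := by nlinarith
    nlinarith
  have hD : V₁ ⊓ V₂ = ⊥ := by
    have l3 : Nat.card ↥(V₁ ⊔ V₂) ≤ Nat.card V₁ * Nat.card V₂ := by nlinarith
    have l4 : Nat.card V₂ ≤ Nat.card V₁ := by nlinarith
    have l5 : Nat.card V₁ ≤ Nat.card V₂ := by nlinarith
    have l6 := le_antisymm l4 l5
    rw [l6] at hU
    refine card_eq_one.mp (le_antisymm ?_ p3)
    nlinarith
  have hE₁ : E₁ ≠ ⊥ := by
    rintro rfl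
    rw [card_bot] at c₁
    omega
  have hC : V₁ ⊓ centralizer (E₁ : Set G) = ⊥ := (i₁ _ inf_le_left
    (Coprime.le_normalizer_inf_centralizer _ _)).resolve_right fun e => hE₁ (hquad _ s₁
      (commutator_eq_bot_iff_le_centralizer.mpr (e.ge.trans inf_le_right)))
  -- all conjugates of `V₁` under `E₂` different from `V₁` coincide
  have huniq : ∀ z ∈ E₂, z ⋆ V₁ ≠ V₁ → z ⋆ V₁ = x ⋆ V₁ := by
    intro z hz hne
    have h1 := commutator_eq_bot_iff_le_centralizer.mp (c1 z hz hne).1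
    have h2 := commutator_eq_bot_iff_le_centralizer.mp hx1
    refine Core.eq_of_le_of_card_eq ?_ (by rw [card_conj, card_conj])
    have h3 : (x ⋆ V₁ ⊔ V₁) ⊓ centralizer (E₁ : Set G) = x ⋆ V₁ := by
      rw [Core.sup_inf_of_le_normalizer h2
        (PLocal.le_normalizer_of_comm hV.1 (hcV _ hV₁V x (s₂.le hx)) hV₁V), hC, sup_bot_eq]
    exact (le_inf ((hconj _ _ hV₁V z hz).trans hxeq.ge) h1).trans h3.le
  let N := E₂ ⊓ normalizer (V₁ : Set G)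
  have hNc : ∀ z ∈ N, z ∈ centralizer (V₁ : Set G) := fun z hz v hv => by
    rw [← commutatorElement_eq_one_iff_mul_comm, ← mem_bot, ← hD]
    exact ⟨Coprime.commutator_le_of_le_normalizer (inf_le_right : N ≤ _)
      (commutator_mem_commutator hv hz), commutator_mem_commutator (hV₁V hv) hz.1⟩
  have hidx : N.relIndex E₂ = 2 := by
    refine index_eq_two_iff'.mpr ⟨⟨x⁻¹, inv_mem hx⟩, fun b => ?_⟩
    by_cases hb : (b : G) ⋆ V₁ = V₁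
    · refine Or.inr ⟨⟨b.2, conj_eq_self_iff.mp hb⟩, fun h => hx' ?_⟩
      have h' : x⁻¹ * (b : G) ∈ normalizer (V₁ : Set G) := h.2
      have := Subgroup.mul_mem _ (conj_eq_self_iff.mp hb) (Subgroup.inv_mem _ h')
      simpa using this
    · refine Or.inl ⟨⟨E₂.mul_mem (E₂.inv_mem hx) b.2, conj_eq_self_iff.mp ?_⟩,
        fun h => hb (conj_eq_self_iff.mpr h.2)⟩
      change (x⁻¹ * (b : G)) ⋆ V₁ = V₁
      rw [← conj_conj, huniq b b.2 hb, inv_conj_conj]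
  have hNn : E₂ ≤ normalizer (N : Set G) :=
    (normal_subgroupOf_iff_le_normalizer inf_le_left).mp (normal_of_index_eq_two hidx)
  have hN0 : N = ⊥ := by
    refine hquad N (s₂.head inf_le_left hNn) (le_bot_iff.mp ((commutator_mono
      (commutator_mono le_rfl inf_le_left) le_rfl).trans
      (commutator_eq_bot_iff_le_centralizer.mpr ?_).le))
    refine le_sup_right.trans (hxeq.ge.trans (sup_le ?_ (le_centralizer_iff.mp hNc)))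
    rw [conj_le_iff_le_inv_conj, conj_centralizer, conj_eq_self_iff.mpr (hNn (inv_mem hx))]
    exact le_centralizer_iff.mp hNc
  rw [hN0, relIndex_bot_left] at hidx
  omega

/-- Two subnormal subgroups acting irreducibly on their incomparable commutator modules, in a faithful group with trivial largest normal p-subgroup, generate their direct product, and the commutator module splits accordingly. -/
theorem result {G : Type*} [Group G] [Finite G] {p : ℕ} [Fact p.Prime] (V E E₁ E₂ : Subgroup G) (hV : Cfsg.IsElementaryAbelian p V) (hEV : E ≤ Subgroup.normalizer (V : Set G)) (hf : E ⊓ Subgroup.centralizer (V : Set G) = ⊥) (hgen : E = E₁ ⊔ E₂) (hs₁ : (E₁.subgroupOf E).IsSubnormal) (hs₂ : (E₂.subgroupOf E).IsSubnormal) (hOp : Cfsg.pCore p ↥E = ⊥) (hirr₁ : (∀ U : Subgroup G, U ≤ ⁅V, E₁⁆ → E₁ ≤ Subgroup.normalizer (U : Set G) → U = ⊥ ∨ U = ⁅V, E₁⁆)) (hirr₂ :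 (∀ U : Subgroup G, U ≤ ⁅V, E₂⁆ → E₂ ≤ Subgroup.normalizer (U : Set G) → U = ⊥ ∨ U = ⁅V, E₂⁆)) (h12 : ¬ ⁅V, E₁⁆ ≤ ⁅V, E₂⁆) (h21 : ¬ ⁅V, E₂⁆ ≤ ⁅V, E₁⁆) (hc₁ : 2 < Nat.card E₁) (hc₂ : 2 < Nat.card E₂) : ⁅E₁, E₂⁆ = ⊥ ∧ E₁ ⊓ E₂ = ⊥ ∧ ⁅V, E₁⁆ ⊓ ⁅V, E₂⁆ = ⊥ ∧ ⁅V, E⁆ = ⁅V, E₁⁆ ⊔ ⁅V, E₂⁆ := by
    have s₁ := Core.subnormalIn_iff.mpr ⟨le_sup_left.trans hgen.ge, hs₁⟩
    have s₂ := Core.subnormalIn_iff.mpr ⟨le_sup_right.trans hgen.ge, hs₂⟩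
    have hO : (pCore p E).map E.subtype = ⊥ := by rw [hOp, Subgroup.map_bot]
    obtain ⟨h1, h2⟩ := aux hV hEV hf hO _ E₁ E₂ rfl s₁ s₂ hirr₁ hirr₂ h12 h21 hc₁ hc₂
    refine ⟨le_bot_iff.mp ((PLocal.commutator_le_pCoreOf_of_subnormal hV hEV hf s₁ s₂ h1).trans
      hO.le), le_bot_iff.mp (le_trans (le_inf (inf_le_left.trans s₁.le) ?_) hf.le), h2,
      le_antisymm ?_ (sup_le (Subgroup.commutator_mono le_rfl s₁.le)
        (Subgroup.commutator_mono le_rfl s₂.le))⟩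
    · rw [Subgroup.le_centralizer_iff, ← Subgroup.commutator_eq_bot_iff_le_centralizer,
        ← le_bot_iff, ← h2]
      exact le_inf (Subgroup.commutator_mono le_rfl inf_le_left)
        (Subgroup.commutator_mono le_rfl inf_le_right)
    · have hW : ⁅V, E₁⁆ ⊔ ⁅V, E₂⁆ ≤ V :=
        sup_le (Coprime.commutator_le_of_le_normalizer (s₁.le.trans hEV))
          (Coprime.commutator_le_of_le_normalizer (s₂.le.trans hEV))
      rw [hgen, Subgroup.commutator_comm]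
      exact Core.commutator_sup_le (Coprime.le_normalizer_of_commutator_le hW le_sup_left)
        (Coprime.le_normalizer_of_commutator_le hW le_sup_right)
        ((Subgroup.commutator_comm _ _).le.trans le_sup_left)
        ((Subgroup.commutator_comm _ _).le.trans le_sup_right)

end Cfsg.Agent.S0615
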