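import Cfsg.Statements.S0617
import Cfsg.Agent.Lib.PLocal.FFSep

set_option autoImplicit false
open Cfsg

set_option linter.unusedVariables false
open Cfsg.Lib

namespace Cfsg.Agent.S0617

open Subgroup in
theorem aux {G : Type*} [Group G] [Finite G] {p : ℕ} [Fact p.Prime] {V H F : Subgroup G}
    (h : PLocal.FFPair p V H F) (hg : PLocal.TransvGen p V H) (P : Subgroup G → Prop)
    (h1 : ∀ E, P E → ∃ A, A ≤ H ∧ PLocal.Transv p V A ∧ E = ⁅F, A⁆ ⊔ A)
    (h2 : ∀ A, A ≤ H → IsBestOffenderOn p V A → PLocal.Transv p V A → P (⁅F, A⁆ ⊔ A)) :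
    (∀ E : {E // P E}, H ≤ normalizer ((E : Subgroup G) : Set G) ∧
      Nonempty (↥(E : Subgroup G) ≃* Matrix.SpecialLinearGroup (Fin 2) (ZMod p)) ∧
      Nat.card ↥(⁅V, (E : Subgroup G)⁆) = p ^ 2) ∧
    iSupIndep (fun E : {E // P E} => (E : Subgroup G)) ∧
    (⨆ E : {E // P E}, (E : Subgroup G)) = H ∧
    iSupIndep (fun o : Option {E // P E} =>
      o.elim (V ⊓ centralizer (H : Set G)) (fun E => ⁅V, (E : Subgroup G)⁆)) ∧
    (V ⊓ centralizer (H : Set G)) ⊔ (⨆ E : {E // P E}, ⁅V, (E : Subgroup G)⁆) = V := by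
  have hne : ∀ E E' : {E // P E}, E' ≠ E →
      (E' : Subgroup G) ≤ centralizer ((⁅V, (E : Subgroup G)⁆ : Subgroup G) : Set G) := by
    rintro ⟨E, hE⟩ ⟨E', hE'⟩ hne
    obtain ⟨A, hAH, hA, rfl⟩ := h1 E hE
    obtain ⟨B, hBH, hB, rfl⟩ := h1 E' hE'
    exact ((h.block_eq_or hAH hA hBH hB).resolve_left fun e => hne (Subtype.ext e)).1
  have hle : ∀ E : {E // P E}, (E : Subgroup G) ≤ H := by
    rintro ⟨E, hE⟩
    obtain ⟨A, hAH, hA, rfl⟩ := h1 E hE
    exact h.block_le hAH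
  have hWF : ∀ E : {E // P E}, ⁅V, (E : Subgroup G)⁆ ≤ ⁅V, F⁆ := by
    rintro ⟨E, hE⟩
    obtain ⟨A, hAH, hA, rfl⟩ := h1 E hE
    exact (h.commutator_core_eq hAH hA).ge.trans (commutator_mono le_rfl (h.commutator_le_core hAH))
  have hVp := PGroup.elemAb_isPGroup h.elem
  refine ⟨?_, fun E => ?_, le_antisymm (iSup_le hle) (hg _ fun B hBH hB hB' =>
    le_sup_right.trans (le_iSup (fun E : {E // P E} => (E : Subgroup G)) ⟨_, h2 B hBH hB hB'⟩)),
    fun o => ?_, ?_⟩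
  · rintro ⟨E, hE⟩
    obtain ⟨A, hAH, hA, rfl⟩ := h1 E hE
    exact ⟨h.le_normalizer_block hAH hA hg, h.nonempty_equiv hAH hA, h.card_plane hAH hA⟩
  · refine Disjoint.mono_right (iSup₂_le fun E' hE' => hne E E' hE') (disjoint_iff.mpr ?_)
    obtain ⟨E, hE⟩ := E
    obtain ⟨A, hAH, hA, rfl⟩ := h1 E hE
    exact h.block_inf hAH hA
  · cases o with
    | none =>
      refine Disjoint.mono (inf_le_right.trans (centralizer_le (SetLike.coe_subset_coe.mpr h.le)))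
        (iSup₂_le fun o ho => ?_) (disjoint_iff.mpr (Coprime.centralizer_inf_commutator_eq_bot
          h.elem.1 (h.le.trans h.norm) (h.coprime le_rfl hVp)))
      cases o with
      | none => exact (ho rfl).elim
      | some E => exact hWF E
    | some E =>
      have h3 : Disjoint ⁅V, (E : Subgroup G)⁆ (centralizer ((E : Subgroup G) : Set G)) := by
        obtain ⟨E, hE⟩ := E
        obtain ⟨A, hAH, hA, rfl⟩ := h1 E hE
        exact disjoint_iff.mpr (h.plane_inf hAH hA)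
      refine h3.mono_right (iSup₂_le fun o ho => ?_)
      cases o with
      | none => exact inf_le_right.trans (centralizer_le (SetLike.coe_subset_coe.mpr (hle E)))
      | some E' => exact le_centralizer_iff.mp (hne E' E fun e => ho (congrArg some e.symm))
  · have hW : (⨆ E : {E // P E}, ⁅V, (E : Subgroup G)⁆) ≤ V :=
      iSup_le fun E => Coprime.commutator_le_of_le_normalizer ((hle E).trans h.norm)
    refine le_antisymm (sup_le inf_le_left hW) ?_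
    let Q := F ⊓ PLocal.commStab V _ hW
    have hQ := Coprime.commutator_sup_centralizer (A := Q) (K := V)
      (inf_le_left.trans (h.le.trans h.norm)) (h.coprime inf_le_left hVp)
      (Or.inr (Coprime.isSolvable_of_isMulCommutative h.elem.1))
    refine hQ.ge.trans (sup_le (le_sup_of_le_right ?_) (le_sup_of_le_left (le_inf inf_le_left ?_)))
    · rw [commutator_comm, commutator_le]
      exact fun x hx v hv => hx.2.2 v hv
    · rw [le_centralizer_iff]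
      refine hg _ fun B hBH hB hB' => le_sup_right.trans (le_centralizer_iff.mp
        (le_trans ?_ ((h.inf_centralizer_core hBH hB').le.trans inf_le_right)))
      refine inf_le_inf_left _ (centralizer_le (SetLike.coe_subset_coe.mpr
        (le_inf (h.commutator_le_core hBH) fun x hx => ⟨h.norm (h.le (h.commutator_le_core hBH hx)),
          fun v hv => ?_⟩)))
      refine le_iSup (fun E : {E // P E} => ⁅V, (E : Subgroup G)⁆) ⟨_, h2 B hBH hB hB'⟩ ?_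
      rw [commutator_comm]
      exact commutator_mem_commutator (mem_sup_left hx) hv

/-- Structure Theorem for failure of factorization: a faithful group generated by best offenders, with self-centralizing p'-core, is a direct product of copies of SL(2, p) (p = 2 or 3), each acting on its own plane in V, which is the direct product of these planes and C_V(H). -/
theorem result {G : Type*} [Group G] [Finite G] {p : ℕ} [Fact p.Prime] (V H : Subgroup G) (hV : Cfsg.IsElementaryAbelian p V) (hHV : H ≤ Subgroup.normalizer (V : Set G)) (hf : H ⊓ Subgroup.centralizer (V : Set G) = ⊥) (hS1 : Subgroup.centralizer (Cfsg.pPrimeCore p ↥H : Set ↥H) ≤ Cfsg.pPrimeCore p ↥H) (hS3 : H = ⨆ A : {A : Subgroup G // A ≤ H ∧ Cfsg.IsBestOffenderOn p V A}, (A : Subgroup G)) (hH1 : H ≠ ⊥) : (p = 2 ∨ p = 3) ∧ (∀ E : {E : Subgroup G // ∃ A : Subgroup G, A ≤ H ∧ Cfsg.IsBestOffenderOn p V A ∧ ⁅V, A⁆ ≠ ⊥ ∧ (∀ B : Subgroup G, B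 ≤ A → Cfsg.IsBestOffenderOn p V B → ⁅V, B⁆ ≠ ⊥ → B = A) ∧ E = ⁅((Cfsg.pPrimeCore p ↥H).map H.subtype), A⁆ ⊔ A}, H ≤ Subgroup.normalizer ((E : Subgroup G) : Set G) ∧ Nonempty (↥(E : Subgroup G) ≃* Matrix.SpecialLinearGroup (Fin 2) (ZMod p)) ∧ Nat.card ↥(⁅V, (E : Subgroup G)⁆) = p ^ 2) ∧ iSupIndep (fun E : {E : Subgroup G // ∃ A : Subgroup G, A ≤ H ∧ Cfsg.IsBestOffenderOn p V A ∧ ⁅V, A⁆ ≠ ⊥ ∧ (∀ B : Subgroup G, B ≤ A → Cfsg.IsBestOffenderOn p V B → ⁅V, B⁆ ≠ ⊥ → B = A) ∧ E = ⁅((Cfsg.pPrimeCore p ↥H).map H.subtype), A⁆ ⊔ A} => (E : Subgroup G)) ∧ (⨆ E : {E : Subgroup G // ∃ A : Subgroup G, A ≤ H ∧ Cfsg.IsBestOffenderOn p V A ∧ ⁅V, A⁆ ≠ ⊥ ∧ (∀ B : Subgroup G, B ≤ A → Cfsg.IsBestOffenderOn p V B → ⁅V, B⁆ ≠ ⊥ → B = A) ∧ E = ⁅((Cfsg.pPrimeCore p ↥H).map H.subtype), A⁆ ⊔ A}, (E : Subgroup G)) = H ∧ iSupIndep (fun o : Option {E : Subgroup G // ∃ A : Subgroup G, A ≤ H ∧ Cfsg.IsBestOffenderOn p V A ∧ ⁅V, A⁆ ≠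 ⊥ ∧ (∀ B : Subgroup G, B ≤ A → Cfsg.IsBestOffenderOn p V B → ⁅V, B⁆ ≠ ⊥ → B = A) ∧ E = ⁅((Cfsg.pPrimeCore p ↥H).map H.subtype), A⁆ ⊔ A} => o.elim (V ⊓ Subgroup.centralizer (H : Set G)) (fun E => ⁅V, (E : Subgroup G)⁆)) ∧ (V ⊓ Subgroup.centralizer (H : Set G)) ⊔ (⨆ E : {E : Subgroup G // ∃ A : Subgroup G, A ≤ H ∧ Cfsg.IsBestOffenderOn p V A ∧ ⁅V, A⁆ ≠ ⊥ ∧ (∀ B : Subgroup G, B ≤ A → Cfsg.IsBestOffenderOn p V B → ⁅V, B⁆ ≠ ⊥ → B = A) ∧ E = ⁅((Cfsg.pPrimeCore p ↥H).map H.subtype), A⁆ ⊔ A}, ⁅V, (E : Subgroup G)⁆) = V := by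
    have h := PLocal.ffPair_pPrimeCore hV hHV hf hS1
    have hg := h.transvGen hS3
    obtain ⟨B, hBH, -, hB⟩ := PLocal.FFPair.exists_transv hg hH1
    refine ⟨h.eq_two_or_three hBH hB, aux h hg _ ?_ fun A hAH hA hA' => ?_⟩
    · rintro E ⟨A, hAH, hA, hAV, hmin, rfl⟩
      exact ⟨A, hAH, h.transv_of_minimal hAH hA hAV hmin, rfl⟩
    · exact ⟨A, hAH, hA, (h.minimal_of_card hAH hA'.card).1, (h.minimal_of_card hAH hA'.card).2, rfl⟩

end Cfsg.Agent.S0617
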