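import Cfsg.Statements.S0618
import Cfsg.Agent.Lib.PLocal.FFSep
import Cfsg.Agent.S0608

set_option autoImplicit false
open Cfsg

set_option linter.unusedVariables false
open Cfsg.Lib

namespace Cfsg.Agent.S0618

/-- A p-separable group with trivial p'-core in which the Thompson factorization fails has p = 2 or 3, and J(G) induces on the normal closure of Ω₁(Z(S)) a group containing a normal SL(2, p). -/
theorem result {G : Type*} [Group G] [Finite G] {p : ℕ} [Fact p.Prime] (hsep : Cfsg.IsPSolvable p G) (hO : Cfsg.pPrimeCore p G = ⊥) (hnf : ¬ Cfsg.IsThompsonFactorizable p G) : (p = 2 ∨ p = 3) ∧ ∃ E : Subgroup G, Subgroup.centralizer ((⨆ S : Sylow p G, Cfsg.omegaOne p ((S : Subgroup G) ⊓ Subgroup.centralizer ((S : Subgroup G) : Set G))) : Set G) ≤ E ∧ E ≤ Cfsg.thompsonSubgroup p G ⊔ Subgroup.centralizer ((⨆ S : Sylow p G, Cfsg.omegaOne p ((S : Subgroup G) ⊓ Subgroup.centralizer ((S : Subgroup G) : Set G))) : Set G) ∧ Cfsg.thompsonSubgroup p G ⊔ Subgroup.centralizer ((⨆ S : Sylow p G, Cfsg.omegaOne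 p ((S : Subgroup G) ⊓ Subgroup.centralizer ((S : Subgroup G) : Set G))) : Set G) ≤ Subgroup.normalizer (E : Set G) ∧ ∃ hn : ((Subgroup.centralizer ((⨆ S : Sylow p G, Cfsg.omegaOne p ((S : Subgroup G) ⊓ Subgroup.centralizer ((S : Subgroup G) : Set G))) : Set G)).subgroupOf E).Normal, Nonempty ((↥E ⧸ (Subgroup.centralizer ((⨆ S : Sylow p G, Cfsg.omegaOne p ((S : Subgroup G) ⊓ Subgroup.centralizer ((S : Subgroup G) : Set G))) : Set G)).subgroupOf E) ≃* Matrix.SpecialLinearGroup (Fin 2) (ZMod p)) := by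
    open Subgroup Transfer PLocal in
    have e : centralizer ((⨆ S : Sylow p G, Cfsg.omegaOne p ((S : Subgroup G) ⊓
        centralizer ((S : Subgroup G) : Set G))) : Set G) =
        centralizer (omegaCenterSup p p G : Set G) := by
      rw [omegaCenterSup, Core.centralizer_iSup]
      ext x
      simp only [mem_centralizer_iff, Set.iSup_eq_iUnion, Set.mem_iUnion, mem_iInf]
      exact ⟨fun h S y hy => h y ⟨S, hy⟩, fun h y ⟨S, hy⟩ => h S y hy⟩
    rw [e]
    have hc := Core.centralizer_pCore_le_of_isPSolvable hsep hO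
    have hV := isElementaryAbelian_omegaCenterSup (e := p) hc
    have hm := model_hol (omegaCenterSup p p G)
    have hF := hm.ffPair hV hsep (le_bot_iff.mp fun x hx => by
      obtain ⟨x, rfl⟩ := QuotientGroup.mk_surjective x
      exact (QuotientGroup.eq_one_iff _).mpr ((mk_mem_pCore_iff_top.mp hx).mem_centralizer
        (omegaCenterSup_le_iSup))) (thompsonSubgroup p G)
    have hg := hm.transvGen hV hF
    obtain ⟨A, hAH, -, hA⟩ := FFPair.exists_transv hg fun h0 => hnf ((S0608.result hO).mpr
      (((Subgroup.map_eq_bot_iff _).mp h0).trans hm.ker_eq.le))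
    generalize (PGroup.holR (omegaCenterSup p p G)).comp MulAut.conjNormal = π at hm hF hg hAH hA
    generalize (pPrimeCore p ((thompsonSubgroup p G).map π)).map (Subgroup.subtype _) = F at hF
    obtain ⟨φ⟩ := hF.nonempty_equiv hAH hA
    have h1 := hF.block_le hAH
    have h2 := hF.le_normalizer_block hAH hA hg
    refine ⟨hF.eq_two_or_three hAH hA, ?_⟩
    generalize ⁅F, A⁆ ⊔ A = E at φ h1 h2
    rw [← hm.ker_eq]
    refine ⟨E.comap π, ker_le_comap _ _, (comap_mono h1).trans (comap_map_eq _ _).le,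
      sup_le ((map_le_iff_le_comap.mp h2).trans (le_normalizer_comap π))
        ((ker_le_comap _ _).trans le_normalizer), inferInstance, ?_⟩
    have hs : Function.Surjective (π.subgroupComap E) := fun x => by
      obtain ⟨y, -, hy⟩ := h1 x.2
      exact ⟨⟨y, show π y ∈ E from hy ▸ x.2⟩, Subtype.ext hy⟩
    have hk : (π.subgroupComap E).ker = π.ker.subgroupOf (E.comap π) :=
      Subgroup.ext fun x => Subtype.ext_iff
    exact ⟨((QuotientGroup.quotientMulEquivOfEq hk.symm).trans
      (QuotientGroup.quotientKerEquivOfSurjective _ hs)).trans φ⟩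

end Cfsg.Agent.S0618
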