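import Cfsg.Statements.S0619
import Cfsg.Agent.Lib.PLocal.FFSep

set_option autoImplicit false
open Cfsg

set_option linter.unusedVariables false
open Cfsg.Lib

namespace Cfsg.Agent.S0619

/-- For a p-separable group and a normal elementary abelian p-subgroup V with no nontrivial normal p-subgroup modulo its centralizer C, the Thompson subgroup J(G) moves Ω₁(Z(J(C))) only inside V. -/
theorem result {G : Type*} [Group G] [Finite G] {p : ℕ} [Fact p.Prime] (hsep : Cfsg.IsPSolvable p G) (V : Subgroup G) [V.Normal] (hV : Cfsg.IsElementaryAbelian p V) (hO : Cfsg.pCore p (G ⧸ Subgroup.centralizer (V : Set G)) = ⊥) : ⁅Cfsg.omegaOne p (Cfsg.centerThompsonOf p (Subgroup.centralizer (V : Set G))), Cfsg.thompsonSubgroup p G⁆ ≤ V := by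
    open Subgroup Transfer PLocal in
    have hm := model_hol V
    have hF := hm.ffPair hV hsep hO ⊤
    rw [commutator_comm, ← commutator_le_iff_le_sectionKernel.symm, ← thompsonSubgroupOf_top,
      thompsonSubgroupOf_le_iff]
    intro A hA
    rw [← commutator_le_iff_le_sectionKernel, commutator_comm]
    have h1 := hF.offMeasure_eq (map_mono le_top)
      (hm.isBestOffenderOn_map (Model.isBestOffenderOn_of_mem_maxIn hV hA))
    have h2 := hm.offMeasure_map_mul A
    rw [h1, hm.card_range, hm.ker_eq, offMeasure, inf_centralizer_eq_of_mem_maxIn hA le_top hV] at h2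
    have h3 : A ⊓ centralizer (V : Set G) ≤ normalizer (V : Set G) := le_normalizer_of_normal
    have h4 := Core.card_sup_mul_card_inf h3
    have h5 : A ⊓ centralizer (V : Set G) ⊓ V = V ⊓ A := by
      rw [inf_assoc, inf_eq_right.mpr (PGroup.elemAb_le_centralizer hV), inf_comm]
    rw [h5, mul_comm _ (Nat.card V), h2] at h4
    have h6 : A ⊓ centralizer (V : Set G) ⊔ V ∈ maxIn p (centralizer (V : Set G)) :=
      mem_maxIn_of_le (mem_maxIn_of_card_le hA le_top (PGroup.elemAb_sup
        (PGroup.elemAb_of_le hA.2.1 inf_le_left) hV inf_le_right)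
        (Nat.eq_of_mul_eq_mul_right Nat.card_pos h4).ge)
        (sup_le inf_le_right (PGroup.elemAb_le_centralizer hV)) le_top
    refine (commutator_mono (omegaOne_centerThompsonOf_le h6) le_rfl).trans
      (Core.commutator_sup_le le_normalizer_of_normal le_normalizer_of_normal ?_
        (commutator_le_left _ _))
    exact (commutator_eq_bot_iff_le_centralizer.mpr
      (le_centralizer_of_comm hA.2.1.1 inf_le_left le_rfl)).le.trans bot_le

end Cfsg.Agent.S0619
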