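import Cfsg.Statements.S0627
import Cfsg.Agent.Lib.PLocal.StableClosure

set_option autoImplicit false
open Cfsg

set_option linter.unusedVariables false
open Cfsg.Lib

namespace Cfsg.Agent.S0627

/-- In a p-separable group with p at least 5, the normalizer of W(S) supplements the largest normal subgroup of order prime to p. -/
theorem result {G : Type*} [Group G] [Finite G] {p : ℕ} [Fact p.Prime] (hp : 5 ≤ p) (hsep : Cfsg.IsPSolvable p G) (S : Sylow p G) : Cfsg.pPrimeCore p G ⊔ Subgroup.normalizer (((Cfsg.stableNormalClosure p ↥(S : Subgroup G)).map (S : Subgroup G).subtype) : Set G) = ⊤ := by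
    have hk : (Nat.card (QuotientGroup.mk' (Cfsg.pPrimeCore p G)).ker).Coprime p := by
      rw [QuotientGroup.ker_mk']; exact Core.pPrimeCore_coprime p G
    have hq := Core.isPSolvable_quotient hsep (Cfsg.pPrimeCore p G)
    have h1 := PLocal.normal_map_stableNormalClosure_of_isActionPStable
      (PLocal.secStable_of_isPSolvable (by omega) hq (by omega)).isActionPStable
      (Core.centralizer_pCore_le_of_isPSolvable hq (Core.pPrimeCore_quotient_pPrimeCore p G))
      (S.mapSurjective (QuotientGroup.mk'_surjective (Cfsg.pPrimeCore p G)))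
    have h2 := Transfer.normalizer_inducedFunctor_map PLocal.isCharPFunctor_stableNormalClosure
      (QuotientGroup.mk'_surjective (Cfsg.pPrimeCore p G)) hk S.isPGroup'
    rw [sup_comm, ← Core.map_mk'_eq_top_iff]
    exact h2.symm.trans (Subgroup.normalizer_eq_top_iff.mpr h1)

end Cfsg.Agent.S0627
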