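import Cfsg.Statements.S0629
import Cfsg.Agent.Lib.Core.PSolvable

set_option autoImplicit false
open Cfsg

namespace Cfsg.Agent.S0629

/-- A group in which the centralizer of a Sylow p-subgroup of O_{p',p}(G) is p-solvable is p-constrained. -/
theorem result {G : Type*} [Group G] [Finite G] {p : ℕ} [Fact p.Prime] (P : Sylow p ↥(Cfsg.pPrimePCore p G)) (hsol : Cfsg.IsPSolvable p ↥(Subgroup.centralizer (((P : Subgroup ↥(Cfsg.pPrimePCore p G)).map (Cfsg.pPrimePCore p G).subtype : Subgroup G) : Set G))) : Cfsg.IsPConstrained p G := by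
  exact Cfsg.Lib.Core.isPConstrained_of_isPSolvable_centralizer (P.isPGroup'.map _)
    (Cfsg.Lib.Core.pPrimeCore_sup_eq_pPrimePCore (Subgroup.map_subtype_le _)
      (Cfsg.Lib.Transfer.not_dvd_relIndex_map_sylow P)) hsol

end Cfsg.Agent.S0629
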