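import Cfsg.Statements.S0632
import Cfsg.Agent.Lib.PLocal.Stable

set_option autoImplicit false
open Cfsg

namespace Cfsg.Agent.S0632

open Cfsg.Lib Cfsg.Lib.Core Cfsg.Lib.PLocal Subgroup

/-- For a group with a nontrivial normal p-subgroup, p-stability passes to and from the quotient by the largest normal subgroup of order prime to p. -/
theorem result {G : Type*} [Group G] [Finite G] {p : ℕ} [Fact p.Prime] (hO : Cfsg.pCore p G ≠ ⊥) : Cfsg.IsPStable p G ↔ Cfsg.IsPStable p (G ⧸ Cfsg.pPrimeCore p G) := by
  set f := QuotientGroup.mk' (pPrimeCore p G)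
  have hf : Function.Surjective f := QuotientGroup.mk'_surjective _
  constructor
  · intro h
    refine ⟨h.1, fun h0 => hO ?_, fun A P hA hP hAP _ hn hq => ?_⟩
    · have h1 := map_pCore_le (p := p) hf
      rw [h0, le_bot_iff, Subgroup.map_eq_bot_iff, QuotientGroup.ker_mk'] at h1
      rw [← pCore_inf_pPrimeCore p G, inf_eq_left.2 h1]
    · rw [pPrimeCore_quotient_pPrimeCore, bot_sup_eq] at hn
      rw [subgroupOf_map_le_pCore_iff le_normalizer_of_normal, normalizer_eq_top]
      exact normalStable_quotient_of_isPStable h P hn hP A hA hq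
  · intro h
    refine ⟨h.1, hO, fun A P hA hP hAP hle hn hq => ?_⟩
    have hn' : (P.map f).Normal := by
      have := hn.map f hf
      rwa [Subgroup.map_sup, (Subgroup.map_eq_bot_iff _).2 (QuotientGroup.ker_mk' _).ge,
        bot_sup_eq] at this
    have hA' : A ≤ normalizer (P : Set G) := fun a ha =>
      mem_normalizer_fintype (fun x hx => hAP a ha x hx)
    have h1 := h.2.2 (A.map f) (P.map f) (hA.map f) (hP.map f)
      (fun a _ x hx => hn'.conj_mem x hx a) ((map_mono hle).trans (map_pPrimePCore_le hf))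
      (by rw [pPrimeCore_quotient_pPrimeCore, bot_sup_eq]; exact hn')
      (by rw [← map_commutator, ← map_commutator, hq, Subgroup.map_bot])
    rw [subgroupOf_map_le_pCore_iff le_normalizer_of_normal, normalizer_eq_top] at h1
    rw [subgroupOf_map_le_pCore_iff hA']
    intro a ha
    refine (h1 (f a) (mem_map_of_mem f ha)).comap.mono (fun _ _ => mem_top _) (hA' ha) ?_
    rintro x ⟨hx1, hx2⟩ y hy
    have h3 : y * (x * y⁻¹ * x⁻¹) ∈ P ⊓ pPrimeCore p G := by
      refine ⟨mul_mem hy ((mem_normalizer_iff.1 hx2 _).1 (inv_mem hy)), ?_⟩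
      have := hx1 (f y) (mem_map_of_mem f hy)
      have h4 : f (y * (x * y⁻¹ * x⁻¹)) = 1 := by
        simp only [map_mul, map_inv, ← mul_assoc, this]; group
      exact (QuotientGroup.eq_one_iff _).1 h4
    rw [inf_pPrimeCore_eq_bot hP, mem_bot] at h3
    rw [← mul_inv_eq_one]
    simpa [mul_assoc] using h3

end Cfsg.Agent.S0632
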