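import Cfsg.Statements.S0633
import Cfsg.Agent.Lib.HH.ModB

set_option autoImplicit false
open Cfsg

namespace Cfsg.Agent.S0633

/-- Theorem B of Hall and Higman on the minimal polynomial of a p-element of order p^n in a p-solvable linear group on a nonzero vector space in characteristic p with no nontrivial normal p-subgroup: its degree is p^n, except when some p^n₀ - 1 (n₀ ≤ n) is a power of a prime q for which the Sylow q-subgroups are non-abelian, in which case the degree is at least p^(n-n₀)(p^n₀ - 1). -/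
theorem result {F : Type*} [Field F] {p : ℕ} [Fact p.Prime] [CharP F p] {V : Type*} [AddCommGroup V] [Module F V] [FiniteDimensional F V] [Nontrivial V] (H : Subgroup (V ≃ₗ[F] V)) [Finite H] (hsol : Cfsg.IsPSolvable p H) (hOp : Cfsg.pCore p H = ⊥) (x : V ≃ₗ[F] V) (hx : x ∈ H) (n : ℕ) (hn : orderOf x = p ^ n) (r : ℕ) (hr : minpoly F (x : Module.End F V) = (Polynomial.X - 1) ^ r) : r = p ^ n ∨ ∃ n₀ q m : ℕ, 1 ≤ n₀ ∧ n₀ ≤ n ∧ q.Prime ∧ 1 ≤ m ∧ p ^ n₀ - 1 = q ^ m ∧ (∀ Q : Sylow q H, ¬ IsMulCommutative Q) ∧ p ^ (n - n₀) * (p ^ n₀ - 1) ≤ r := by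
  let ρ : H →* Module.End F V := LinearEquiv.automorphismGroup.toLinearMapMonoidHom.comp H.subtype
  refine (Lib.HH.ModB.thmB (ρ := ρ) (x := ⟨x, hx⟩) (r := r) (fun a b e => Subtype.ext (LinearEquiv.toLinearMap_injective e)) hsol hOp
    (by rw [← hn, Subgroup.orderOf_mk]) ?_).imp_left fun h => le_antisymm ?_ h
  · have := minpoly.aeval F (x : Module.End F V)
    rwa [hr, map_pow, map_sub, Polynomial.aeval_X, map_one] at this
  · have h1 : ρ ⟨x, hx⟩ ^ p ^ n = 1 := by
      rw [← map_pow, show (⟨x, hx⟩ : H) ^ p ^ n = 1 from Subtype.ext (hn ▸ pow_orderOf_eq_one x), map_one]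
    have := minpoly.dvd F (x : Module.End F V) (p := (Polynomial.X - 1) ^ p ^ n) (by
      rw [map_pow, map_sub, Polynomial.aeval_X, map_one, Lib.HH.ModB.sub_one_pow_pow F, sub_eq_zero]; exact h1)
    rwa [hr, pow_dvd_pow_iff (Polynomial.X_sub_C_ne_zero 1) (Polynomial.not_isUnit_X_sub_C 1)] at this

end Cfsg.Agent.S0633
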