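import Cfsg.Statements.S0640
import Cfsg.Agent.Lib.PGroup.Blackburn

set_option autoImplicit false
open Cfsg

namespace Cfsg.Agent.S0640

/-- For odd p, a prime q ≠ p dividing the order of the automorphism group of a p-group of rank at most 2 divides p² - 1 and is less than p. -/
theorem result {R : Type*} [Group R] [Finite R] {p : ℕ} [Fact p.Prime] (hp : p ≠ 2) (hR : IsPGroup p R) (hrk : Cfsg.PRankLE p 2 R) (q : ℕ) (hq : q.Prime) (hqp : q ≠ p) (hdvd : q ∣ Nat.card (MulAut R)) : q ∣ p ^ 2 - 1 ∧ q < p := by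
  have hp' : p.Prime := Fact.out
  have := Lib.PGroup.hol_finite (G := R)
  have h := Lib.PGroup.dvd_pred_or_dvd_succ_of_rank_two hp hq hqp
    (Lib.PGroup.isPGroup_map_holL hR ⊤)
    ((Lib.PGroup.pRankLE_congr (Lib.PGroup.holEquiv R)).mp hrk)
    (Lib.PGroup.map_holR_le_normalizer_top ⊤) (by
      rwa [← Subgroup.inf_relIndex_left, Lib.PGroup.map_holR_inf_centralizer_top,
        Subgroup.relIndex_bot_left, Lib.PGroup.card_map_holR, Subgroup.card_top])
  constructor
  · rw [show p ^ 2 - 1 = (p + 1) * (p - 1) from Nat.sq_sub_sq p 1]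
    exact h.elim (fun h => h.mul_left _) (fun h => h.mul_right _)
  · by_cases hq2 : q = 2
    · have := hp'.two_le
      omega
    · exact (Lib.PGroup.two_mul_dvd_of_dvd_pred_or_succ hp' hp hq hq2 h).1

end Cfsg.Agent.S0640
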