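import Cfsg.Statements.S0642
import Cfsg.Agent.Lib.BG.Hall
import Cfsg.Agent.Lib.FGS.Regular

set_option autoImplicit false
open Cfsg

namespace Cfsg.Agent.S0642

/-- Among finite 2-groups the regular ones are exactly the abelian ones. -/
theorem result {G : Type*} [Group G] [Finite G] (hG : IsPGroup 2 G) : Cfsg.IsRegularPGroup 2 G ↔ ∀ a b : G, a * b = b * a := by
  open Subgroup Cfsg.Lib Cfsg.Lib.BG Cfsg.Lib.Transfer in
  open Cfsg.Lib.RegP Cfsg.Lib.PGroup in
  refine ⟨fun h a b => ?_, fun h => ⟨hG, fun a b n => ⟨1, one_mem _, by simpa using Commute.mul_pow (h a b) _⟩⟩⟩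
  obtain ⟨c, hc, e⟩ := (reg_of_regular h).2 a b
  have hn := (norm_der (le_norm (Subgroup.closure {a, b}))).trans (normalizer_le_normalizer_powerClosure (p := 2) 1 _)
  have h1 := comm_pair_le (a := a⁻¹) (b := b⁻¹) (W := powerClosure 2 1 _) ((pair_le (inv_mem (left_mem a b))
    (inv_mem (right_mem a b))).trans hn) (by
      have : (a⁻¹ * b⁻¹ * a * b) = b * c⁻¹ * b⁻¹ := by
        have : c = (a ^ 2 * b ^ 2)⁻¹ * (a * b) ^ 2 := by rw [e]; group
        rw [this]; simp only [sq]; group
      simpa [commutatorElement_def, this] using conj_mem_of_norm (hn (right_mem a b)) (inv_mem hc))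
  have h2 : Subgroup.closure {a⁻¹, b⁻¹} = Subgroup.closure {a, b} := le_antisymm (pair_le (inv_mem (left_mem a b))
    (inv_mem (right_mem a b))) (pair_le (inv_mem_iff.1 (left_mem _ _)) (inv_mem_iff.1 (right_mem _ _)))
  rw [h2] at h1
  have := eq_of_sup_map_subtype_frattini bot_le (h1.trans (le_sup_of_le_right (powerClosure_le_iff.2 fun x hx => by
    simpa using pow_mem_map_subtype_frattini (hG.to_subgroup _) hx)))
  exact commutatorElement_eq_one_iff_mul_comm.1 (mem_bot.1 (this.ge (commutator_mem_commutator (left_mem a b) (right_mem a b))))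

end Cfsg.Agent.S0642
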