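import Cfsg.Statements.S0645
import Cfsg.Agent.Lib.PGroup.CyclicMax

set_option autoImplicit false
open Cfsg

namespace Cfsg.Agent.S0645

/-- Classification of p-groups with a cyclic maximal subgroup, odd p: a non-abelian one of order p^n has generators a of order p^(n-1) and b of order p, b outside the cyclic subgroup generated by a, with b a b⁻¹ = a^(1 + p^(n-2)). -/
theorem result {G : Type*} [Group G] [Finite G] {p : ℕ} [Fact p.Prime] (hp : p ≠ 2) (n : ℕ) (hn : 3 ≤ n) (hG : Nat.card G = p ^ n) (C : Subgroup G) (hC : IsCyclic C) (hCi : C.index = p) (hna : ∃ x y : G, x * y ≠ y * x) : ∃ a b : G, orderOf a = p ^ (n - 1) ∧ orderOf b = p ∧ b ∉ Subgroup.zpowers a ∧ b * a * b⁻¹ = a ^ (1 + p ^ (n - 2)) := by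
  obtain ⟨a, g, k, m, rfl, ha, hc, hk, hga, hg, htop⟩ :=
    Cfsg.Lib.PGroup.exists_generators_of_cyclic_index (IsPGroup.of_card hG) hC hCi
  obtain rfl : n = m + 1 := Nat.pow_right_injective (Fact.out : p.Prime).two_le (hG.symm.trans hc)
  have hna' : ¬ Commute g a := by
    intro h
    obtain ⟨x, y, hxy⟩ := hna
    have := Cfsg.Lib.PGroup.isMulCommutative_sup_zpowers (A := Subgroup.zpowers a) (x := g)
      (by rintro _ ⟨j, rfl⟩; exact (h.zpow_right j).symm)
    exact hxy (Cfsg.Lib.PGroup.isMulCommutative_iff.mp this x (htop ▸ Subgroup.mem_top x) y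
      (htop ▸ Subgroup.mem_top y))
  obtain ⟨-, -, b, hba, hb, hbk, -⟩ :=
    Cfsg.Lib.PGroup.modular_exists_standard_generator ha hk hga hg (Or.inl hp) hna'
  exact ⟨a, b, ha, orderOf_eq_prime hb (fun h => hba (h ▸ one_mem _)), hba, hbk⟩

end Cfsg.Agent.S0645
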