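import Cfsg.Statements.S0646
import Cfsg.Agent.Lib.PGroup.CyclicMax

set_option autoImplicit false
open Cfsg

namespace Cfsg.Agent.S0646

/-- Classification of non-abelian 2-groups with a cyclic maximal subgroup: dihedral, generalized quaternion, and for order at least 16 the modular group and the semidihedral group, each given by generators a (of index 2) and b with the stated relations. -/
theorem result {G : Type*} [Group G] [Finite G] (n : ℕ) (hn : 3 ≤ n) (hG : Nat.card G = 2 ^ n) (C : Subgroup G) (hC : IsCyclic C) (hCi : C.index = 2) (hna : ∃ x y : G, x * y ≠ y * x) : ∃ a b : G, orderOf a = 2 ^ (n - 1) ∧ b ∉ Subgroup.zpowers a ∧ ((b ^ 2 = 1 ∧ b * a * b⁻¹ = a⁻¹) ∨ (b ^ 2 = a ^ (2 ^ (n - 2)) ∧ b * a * b⁻¹ = a⁻¹) ∨ (4 ≤ n ∧ b ^ 2 = 1 ∧ b * a * b⁻¹ = a ^ (1 + 2 ^ (n - 2))) ∨ (4 ≤ n ∧ b ^ 2 = 1 ∧ b * a * b⁻¹ = a ^ (2 ^ (n - 2) - 1))) := by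
  obtain ⟨a, g, k, m, rfl, ha, hc, hk, hga, hg, htop⟩ :=
    Cfsg.Lib.PGroup.exists_generators_of_cyclic_index (IsPGroup.of_card hG) hC hCi
  obtain rfl : n = m + 1 := Nat.pow_right_injective le_rfl (hG.symm.trans hc)
  have hna' : ¬ Commute g a := by
    intro h
    obtain ⟨x, y, hxy⟩ := hna
    have := Cfsg.Lib.PGroup.isMulCommutative_sup_zpowers (A := Subgroup.zpowers a) (x := g)
      (by rintro _ ⟨j, rfl⟩; exact (h.zpow_right j).symm)
    exact hxy (Cfsg.Lib.PGroup.isMulCommutative_iff.mp this x (htop ▸ Subgroup.mem_top x) y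
      (htop ▸ Subgroup.mem_top y))
  by_cases h4 : 4 ∣ k - 1
  · obtain ⟨-, h3, b, hba, hb, hbk, -⟩ :=
      Cfsg.Lib.PGroup.modular_exists_standard_generator ha hk hga hg (Or.inr h4) hna'
    exact ⟨a, b, ha, hba, Or.inr (Or.inr (Or.inl ⟨by have := h3 rfl; omega, hb, hbk⟩))⟩
  · obtain ⟨b, hba, -, h | h | h⟩ :=
      Cfsg.Lib.PGroup.exists_generator_of_not_four_dvd ha (by omega) hk hga hg h4
    · exact ⟨a, b, ha, hba, Or.inl h⟩
    · exact ⟨a, b, ha, hba, Or.inr (Or.inl h)⟩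
    · exact ⟨a, b, ha, hba, Or.inr (Or.inr (Or.inr ⟨by omega, h.2⟩))⟩

end Cfsg.Agent.S0646
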