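import Cfsg.Statements.S0656
import Cfsg.Agent.Lib.PLocal.QuadSL2

set_option autoImplicit false
open Cfsg

namespace Cfsg.Agent.S0656

/-- For odd p, a faithful group on an elementary abelian p-group with no nontrivial normal p-subgroup in which some nontrivial p-element acts quadratically has a section isomorphic to SL(2, p). -/
theorem result {G : Type*} [Group G] [Finite G] {p : ℕ} [Fact p.Prime] (hp : p ≠ 2) (V H : Subgroup G) (hV : Cfsg.IsElementaryAbelian p V) (hHV : H ≤ Subgroup.normalizer (V : Set G)) (hf : H ⊓ Subgroup.centralizer (V : Set G) = ⊥) (hO : Cfsg.pCore p ↥H = ⊥) (x : G) (hxH : x ∈ H) (hx1 : x ≠ 1) (hxp : ∃ k : ℕ, orderOf x = p ^ k) (hq : ⁅⁅V, Subgroup.zpowers x⁆, Subgroup.zpowers x⁆ = ⊥) : ∃ (K L : Subgroup G) (hL : (L.subgroupOf K).Normal), K ≤ H ∧ Nonempty ((K ⧸ L.subgroupOf K) ≃* Matrix.SpecialLinearGroup (Fin 2) (ZMod p)) := by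
  obtain ⟨g, hg, h⟩ := Cfsg.Lib.PLocal.exists_conj_not_isPGroup_of_not_mem_pCore_map (p := p) hxH
    (by rw [hO, Subgroup.map_bot]; exact hx1)
  have hle := Cfsg.Lib.PLocal.closure_pair_le hxH (mul_mem (mul_mem hg hxH) (inv_mem hg))
  obtain ⟨L, hL, h'⟩ := Cfsg.Lib.PLocal.exists_hasNatPlane_of_quadratic hp hV (hle.trans hHV) rfl hq
    (Cfsg.Lib.PLocal.quadratic_conj (hHV hg) hq)
    (fun h' => h ((Cfsg.Lib.PLocal.isPGroup_iff_of_inf_centralizer_eq_bot hle hf).mpr h'))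
  exact (h'.hasSection.of_le (hL.trans hle)).exists_le

end Cfsg.Agent.S0656
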