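import Cfsg.Statements.S0661
import Cfsg.Agent.Lib.Coprime.Constraint

set_option autoImplicit false
open Cfsg

set_option linter.unusedVariables false
open Cfsg.Lib

namespace Cfsg.Agent.S0661

/-- If, modulo the largest normal subgroup of order prime to p, the largest normal p-subgroup contains its centralizer, then for every p-subgroup P the p'-core of N_G(P) is just O_p'(G) ∩ N_G(P). -/
theorem result {G : Type*} [Group G] [Finite G] {p : ℕ} [Fact p.Prime] (hc : Subgroup.centralizer (Cfsg.pCore p (G ⧸ Cfsg.pPrimeCore p G) : Set (G ⧸ Cfsg.pPrimeCore p G)) ≤ Cfsg.pCore p (G ⧸ Cfsg.pPrimeCore p G)) (P : Subgroup G) (hP : IsPGroup p P) : (Cfsg.pPrimeCore p ↥(Subgroup.normalizer (P : Set G))).map (Subgroup.normalizer (P : Set G)).subtype = Cfsg.pPrimeCore p G ⊓ Subgroup.normalizer (P : Set G) := by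
  refine le_antisymm (le_inf ?_ (Core.pPrimeCoreOf_le p _)) (Core.pPrimeCore_inf_le_pPrimeCoreOf _)
  refine Coprime.le_pPrimeCore_of_le_centralizer hc hP (Core.pPrimeCoreOf_coprime p _) ?_ ?_
  · exact (Core.pPrimeCoreOf_le_centralizer_pCoreOf p _).trans
      (Subgroup.centralizer_le (SetLike.coe_subset_coe.mpr (Core.le_pCoreOf_normalizer hP)))
  · exact (Subgroup.centralizer_le_normalizer _).trans (Core.le_normalizer_pPrimeCoreOf p _)

end Cfsg.Agent.S0661
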