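import Cfsg.Statements.S0663
import Cfsg.Agent.Lib.PGroup.MaxClass

set_option autoImplicit false
open Cfsg

namespace Cfsg.Agent.S0663

/-- A p-group acts uniserially on a p-group N of order p^n exactly when the iterated commutator chain from N has length n; in that case the chain terms are all the invariant subgroups of N and they are normal in N. -/
theorem result {L : Type*} [Group L] [Finite L] {p : ℕ} [Fact p.Prime] (N G : Subgroup L) (hN : IsPGroup p N) (hG : IsPGroup p G) (hGN : G ≤ Subgroup.normalizer (N : Set L)) (n : ℕ) (hn : Nat.card N = p ^ n) : ((∀ H : Subgroup L, H ≤ N → G ≤ Subgroup.normalizer (H : Set L) → H ≠ ⊥ → (⁅H, G⁆).relIndex H = p) ↔ Cfsg.iterCommutator N G (n - 1) ≠ ⊥ ∨ n = 0) ∧ ((∀ H : Subgroup L, H ≤ N → G ≤ Subgroup.normalizer (H : Set L) → H ≠ ⊥ → (⁅H, G⁆).relIndex H = p) → ∀ H : Subgroup L, H ≤ N → G ≤ Subgroup.normalizer (H : Set L) → (∃ i ≤ n, H = Cfsg.iterCommutator N G i) ∧ N ≤ Subgroup.normalizer (H : Set L)) := by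
  open Cfsg.Lib.PGroup Subgroup in
  have hp : p.Prime := Fact.out
  rcases n with _ | n
  · rw [pow_zero, card_eq_one] at hn
    subst hn
    refine ⟨⟨fun _ => Or.inr rfl, fun _ H hH _ h => (h (le_bot_iff.mp hH)).elim⟩,
      fun _ H hH _ => ?_⟩
    rw [le_bot_iff.mp hH]
    exact ⟨⟨0, le_rfl, rfl⟩, bot_le⟩
  have h1 : (∀ H : Subgroup L, H ≤ N → G ≤ normalizer (H : Set L) → H ≠ ⊥ →
      (⁅H, G⁆).relIndex H = p) → iterCommutator N G n ≠ ⊥ := by
    intro h
    have h2 : ∀ i ≤ n, p ^ i * Nat.card (iterCommutator N G i) = p ^ (n + 1) ∧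
        iterCommutator N G i ≠ ⊥ := by
      have h3 : ∀ i ≤ n, p ^ i * Nat.card (iterCommutator N G i) = p ^ (n + 1) →
          iterCommutator N G i ≠ ⊥ := fun i hi h4 h5 => by
        rw [h5, card_bot, mul_one] at h4
        have := Nat.pow_right_injective hp.two_le h4
        omega
      intro i hi
      induction i with
      | zero => exact ⟨by rw [pow_zero, one_mul]; exact hn, h3 0 hi (by rw [pow_zero, one_mul]; exact hn)⟩
      | succ i ih =>
        obtain ⟨h4, h5⟩ := ih (Nat.le_of_succ_le hi)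
        have h6 := card_mul_relIndex (iterCommutator_antitone hGN i.le_succ)
        rw [show (iterCommutator N G (i + 1)).relIndex (iterCommutator N G i) = p from
          h _ (iterCommutator_le hGN i) (le_normalizer_iterCommutator hGN le_normalizer i) h5] at h6
        have h7 : p ^ (i + 1) * Nat.card (iterCommutator N G (i + 1)) = p ^ (n + 1) := by
          rw [← h4, ← h6]; ring
        exact ⟨h7, h3 _ hi h7⟩
    exact (h2 n le_rfl).2
  refine ⟨⟨fun h => Or.inl (h1 h), fun h H hHN hGH hH => ?_⟩, fun h H hHN hGH => ?_⟩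
  · have h2 : iterCommutator N G n ≠ ⊥ := h.resolve_right n.succ_ne_zero
    obtain ⟨i, hi, rfl⟩ := uniserial_exists_eq hG hGN hn h2 hHN hGH
    have h3 : i ≤ n := by
      by_contra h3
      obtain rfl : i = n + 1 := by omega
      exact hH (iterCommutator_eq_bot_of_card_le hN hG hGN hn.le)
    have h6 := card_mul_relIndex (iterCommutator_antitone hGN i.le_succ)
    rw [uniserial_card hG hGN hn h2 hi, uniserial_card hG hGN hn h2 (Nat.succ_le_succ h3),
      show n + 1 - i = n + 1 - (i + 1) + 1 by omega, pow_succ] at h6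
    exact Nat.eq_of_mul_eq_mul_left (pow_pos hp.pos _) h6
  · obtain ⟨i, hi, rfl⟩ := uniserial_exists_eq hG hGN hn (h1 h) hHN hGH
    exact ⟨⟨i, hi, rfl⟩, uniserial_le_normalizer hG hGN hn (h1 h) i⟩

end Cfsg.Agent.S0663
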