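import Cfsg.Statements.S0666
import Cfsg.Agent.Lib.Coprime.FrobAction
import Cfsg.Agent.Lib.Frobenius.Theorem

set_option autoImplicit false
open Cfsg

set_option linter.unusedVariables false
open Cfsg.Lib

namespace Cfsg.Agent.S0666

/-- A Frobenius group acting on a nontrivial abelian group of order prime to that of its kernel, with the kernel acting without nontrivial fixed points, has a complement with a nontrivial fixed point. -/
theorem result {G : Type*} [Group G] [Finite G] (V F : Subgroup G) (hVab : IsMulCommutative V) (hV1 : V ≠ ⊥) (hFV : F ≤ Subgroup.normalizer (V : Set G)) (H : Subgroup ↥F) (hH : Cfsg.IsFrobeniusComplement H) (hcop : (Nat.card V).Coprime (Nat.card (Cfsg.frobeniusKernel H))) (hCK : V ⊓ Subgroup.centralizer (Subtype.val '' Cfsg.frobeniusKernel H : Set G) = ⊥) : V ⊓ Subgroup.centralizer ((H.map F.subtype : Subgroup G) : Set G) ≠ ⊥ := by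
  obtain ⟨K, hKn, hKe, hK0, hKH, hf⟩ := Frobenius.exists_kernel hH
  intro h0
  apply hV1
  have hle : K.map F.subtype ≤ Subgroup.centralizer (V : Set G) := by
    refine Coprime.le_centralizer_of_frobenius_abelian (R := H.map F.subtype) ?_ ?_
      ((Subgroup.map_subtype_le _).trans hFV) ((Subgroup.map_subtype_le _).trans hFV) ?_ hVab h0
    · exact (Subgroup.map_subtype_le _).trans (Core.le_normalizer_map_subtype K)
    · rintro _ ⟨h, hh, rfl⟩ h1
      rw [Frobenius.inf_centralizer_eq_bot_iff]
      rintro _ ⟨k, hk, rfl⟩ e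
      have := (Frobenius.inf_centralizer_eq_bot_iff K h).mp (hf h hh (fun h2 => h1 (by rw [h2]; rfl))) k hk
        (Subtype.ext e)
      rw [this]; rfl
    · rw [Core.card_map_subtype]
      rw [← hKe] at hcop
      exact hcop.symm
  rw [eq_bot_iff, ← hCK, ← hKe]
  exact le_inf le_rfl (Subgroup.le_centralizer_iff.mp hle)

end Cfsg.Agent.S0666
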