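import Cfsg.Statements.S0668
import Cfsg.Agent.Lib.Perm.Module

set_option autoImplicit false
open Cfsg

namespace Cfsg.Agent.S0668

open Lib.Perm

/-- The equivariant linear maps between the permutation modules of two finite `G`-sets form a space whose dimension is the number of `G`-orbits on the product of the two sets. -/
theorem result {G : Type*} [Group G] {K : Type*} [Field K] {Ω₁ Ω₂ : Type*} [Fintype Ω₁] [Fintype Ω₂] [MulAction G Ω₁] [MulAction G Ω₂] : Module.finrank K ((Cfsg.permRep K G Ω₁).linHom (Cfsg.permRep K G Ω₂)).invariants = Nat.card (MulAction.orbitRel.Quotient G (Ω₁ × Ω₂)) := by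
  classical
  let Q := MulAction.orbitRel.Quotient G (Ω₁ × Ω₂)
  let φ : (Q → K) →ₗ[K] ((Cfsg.permRep K G Ω₁).linHom (Cfsg.permRep K G Ω₂)).invariants :=
    { toFun := fun c => ⟨kernelMap fun y x => c (Quotient.mk _ (x, y)), fun g => by
        refine LinearMap.ext fun f => ?_
        simp only [Representation.linHom_apply, LinearMap.comp_apply]
        rw [← kernelMap_permRep (G := G) (fun g y x => congrArg c (Quotient.sound
          (show MulAction.orbitRel G (Ω₁ × Ω₂) (g • x, g • y) (x, y) from ⟨g, rfl⟩))),
          ← Module.End.mul_apply, ← map_mul, mul_inv_cancel, map_one, Module.End.one_apply]⟩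
      map_add' := fun c d => by ext f y; simp [add_mul, Finset.sum_add_distrib]
      map_smul' := fun a c => by ext f y; simp [Finset.mul_sum, mul_assoc] }
  have hφ : Function.Bijective φ := by
    constructor
    · rw [injective_iff_map_eq_zero]
      intro c hc
      ext q
      induction q using Quotient.inductionOn with | _ z => ?_
      have := congrFun (LinearMap.congr_fun (congrArg Subtype.val hc) (Pi.single z.1 1)) z.2
      exact (kernelMap_single (fun y x => c (Quotient.mk _ (x, y))) z.1 z.2).symm.trans this
    · rintro ⟨T, hT⟩
      refine ⟨Quotient.lift (fun z : Ω₁ × Ω₂ => T (Pi.single z.1 1) z.2) ?_, Subtype.ext ?_⟩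
      · rintro _ z ⟨g, rfl⟩
        have := congrFun (LinearMap.congr_fun (hT g) (Pi.single (g • z.1) 1)) (g • z.2)
        simp only [Representation.linHom_apply, LinearMap.comp_apply, permRep_single,
          inv_smul_smul, permRep_apply] at this
        exact this.symm
      · refine LinearMap.ext fun f => funext fun y => ?_
        change ∑ x, T (Pi.single x 1) y * f x = T f y
        conv_rhs => rw [← Finset.univ_sum_single f, map_sum, Finset.sum_apply]
        refine Finset.sum_congr rfl fun x _ => ?_
        rw [show (Pi.single x (f x) : Ω₁ → K) = f x • Pi.single x 1 by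
          rw [← Pi.single_smul, smul_eq_mul, mul_one], map_smul, mul_comm]
        rfl
  rw [← (LinearEquiv.ofBijective φ hφ).finrank_eq]
  have := Fintype.ofFinite Q
  rw [Module.finrank_fintype_fun_eq_card, Nat.card_eq_fintype_card]

end Cfsg.Agent.S0668
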