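import Cfsg.Statements.S0677
import Cfsg.Agent.Lib.Perm.PrimeDegree2
import Cfsg.Agent.Lib.Perm.Module
import Cfsg.Agent.S0675
import Cfsg.Agent.S0673
import Cfsg.Agent.Lib.Hall.Solvable

set_option autoImplicit false
open Cfsg

namespace Cfsg.Agent.S0677

open Lib.Perm MulAction
open scoped Pointwise

/-- A symmetric difference set modulo an odd prime is trivial. -/
theorem const_of_symm {p : ℕ} [hp : Fact p.Prime] (h2 : (2 : ZMod p) ≠ 0) (f : ZMod p → ZMod p)
    (hk : ∑ i, f i ≠ 0) (l : ZMod p) (hl : ∀ a ≠ 0, ∑ i, f (a - i) * f i = l) :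
    ∃ c, ∀ a ≠ 0, f a = c := by
  set k := ∑ i, f i with hk'
  have hk1 : ∀ a, ∑ i, f (a - i) = k := fun a => Equiv.sum_comp (Equiv.subLeft a) f
  have hk2 : ∀ i, ∑ a, f (a - i) = k := fun i => Equiv.sum_comp (Equiv.subRight i) f
  let A : (ZMod p → ZMod p) →ₗ[ZMod p] (ZMod p → ZMod p) :=
    kernelMap (fun a i => f (a - i)) + k • LinearMap.id
  have hA : ∀ u a, A u a = ∑ i, f (a - i) * u i + k * u a := fun u a => rfl
  obtain ⟨r, -, -, hr⟩ := S0673.result (LinearMap.ker A) (by
    intro u hu
    ext a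
    have : A u (a - 1) = 0 := congrFun (LinearMap.mem_ker.1 hu) (a - 1)
    rw [hA, Pi.zero_apply, ← this, hA]
    congr 1
    exact Fintype.sum_equiv (Equiv.subRight 1) _ _ fun i => by simp)
  have hr0 : r = 0 := by
    by_contra h
    have := congrFun (LinearMap.mem_ker.1 ((hr (fun _ => 1)).2 ⟨1, by
      rw [Polynomial.degree_one]; exact_mod_cast Nat.pos_of_ne_zero h, by simp⟩)) 0
    rw [hA] at this
    simp only [mul_one, hk1, Pi.zero_apply] at this
    exact mul_ne_zero h2 hk (by linear_combination this)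
  have h0 : ∑ i, f (0 - i) * f i = l + k ^ 2 := by
    have e1 : ∑ a, ∑ i, f (a - i) * f i = k ^ 2 := by
      rw [Finset.sum_comm]
      simp only [← Finset.sum_mul, hk2, ← Finset.mul_sum]
      ring
    rw [← Finset.add_sum_erase _ _ (Finset.mem_univ 0),
      Finset.sum_congr rfl fun a ha => hl a (Finset.ne_of_mem_erase ha)] at e1
    rw [Finset.sum_const, Finset.card_erase_of_mem (Finset.mem_univ _), Finset.card_univ, ZMod.card,
      nsmul_eq_mul, Nat.cast_sub hp.out.one_le] at e1
    simp only [CharP.cast_eq_zero] at e1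
    linear_combination e1
  obtain ⟨P, hP, hP'⟩ := (hr (fun a => f a - k * (if a = 0 then 1 else 0) - l / (2 * k))).1 (by
    ext a
    rw [hA]
    simp only [mul_sub, Finset.sum_sub_distrib, ← Finset.sum_mul, hk1, mul_ite, mul_one, mul_zero,
      Finset.sum_ite_eq', Finset.mem_univ, if_true, sub_zero, Pi.zero_apply]
    split_ifs with h
    · subst h
      rw [h0]; field_simp; ring
    · rw [hl a h]; field_simp; ring)
  rw [hr0, Nat.cast_zero, Nat.WithBot.lt_zero_iff, Polynomial.degree_eq_bot] at hP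
  refine ⟨l / (2 * k), fun a ha => ?_⟩
  have := hP' a
  simp only [hP, ha, if_false, Polynomial.eval_zero] at this
  linear_combination this

/-- In a transitive permutation group of prime degree `p` whose Sylow `p`-normaliser has even order, the point stabilisers are the only subgroups of index `p`. -/
theorem result {α : Type*} [Fintype α] [DecidableEq α] {p : ℕ} [Fact p.Prime] (hα : Fintype.card α = p) (G : Subgroup (Equiv.Perm α)) [MulAction.IsPretransitive G α] (P : Sylow p G) (heven : Even (Nat.card (Subgroup.normalizer ((P : Subgroup G) : Set G)))) (H : Subgroup G) (hH : H.index = p) : ∃ a : α, H = MulAction.stabilizer G a := by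
  have hp := (Fact.out : p.Prime)
  have hn : Nat.card α = p := Nat.card_eq_fintype_card.trans hα
  have hidx : ∀ a : α, (stabilizer G a).index = p := fun a => by
    rw [index_stabilizer_of_transitive, hn]
  suffices h : ∃ a : α, H ≤ stabilizer G a by
    obtain ⟨a, ha⟩ := h
    refine ⟨a, Subgroup.eq_of_le_of_card_ge ha (le_of_eq (Nat.eq_of_mul_eq_mul_right hp.pos ?_))⟩
    have h1 := H.card_mul_index
    have h2 := (stabilizer G a).card_mul_index
    rw [hidx] at h2
    rw [hH] at h1
    rw [h1, h2]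
  have hHp : ¬ p ∣ Nat.card H := by
    intro h
    apply not_sq_dvd_card_of_prime_degree (G := G) hp hn
    rw [← H.card_mul_index, hH, sq]
    exact Nat.mul_dvd_mul_right h p
  obtain ⟨a₀⟩ : Nonempty α := Fintype.card_pos_iff.1 (hα ▸ hp.pos)
  rcases S0675.result (hα ▸ hp) G with hG | hG
  · obtain ⟨g, hg⟩ := Lib.Hall.exists_conj_le_of_coprime (H := stabilizer G a₀) (U := H)
      (by rw [hidx]; exact ((Nat.Prime.coprime_iff_not_dvd hp).2 hHp).symm)
    refine ⟨g⁻¹ • a₀, fun h hh => ?_⟩
    have : (g * h * g⁻¹) • a₀ = a₀ := hg ⟨h, hh, rfl⟩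
    rw [mem_stabilizer_iff, eq_inv_smul_iff, ← mul_smul, ← mul_smul, this]
  by_cases hp2 : p = 2
  · refine ⟨a₀, fun h hh => ?_⟩
    have h1 := card_dvd_factorial G α
    rw [hn, hp2, ← H.card_mul_index, hH, hp2] at h1
    have h2 : Nat.card H ∣ 1 := Nat.dvd_of_mul_dvd_mul_right two_pos h1
    rw [Nat.dvd_one, Subgroup.card_eq_one] at h2
    rw [h2, Subgroup.mem_bot] at hh
    exact hh ▸ one_mem _
  have h6 : (2 : ZMod p) ≠ 0 := fun h =>
    hp2 ((Nat.prime_dvd_prime_iff_eq hp Nat.prime_two).1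
      ((ZMod.natCast_eq_zero_iff 2 p).1 (by exact_mod_cast h)))
  obtain ⟨g, t, e, c, hP, hg, ht⟩ := exists_translation_reflection hn hp2 P heven
  classical
  -- every element is uniquely `g ^ i * h`
  have hbij : Function.Bijective fun x : ZMod p × H => g ^ x.1.val * (x.2 : G) := by
    rw [Nat.bijective_iff_injective_and_card]
    refine ⟨?_, by rw [Nat.card_prod, Nat.card_zmod, ← H.card_mul_index, hH, mul_comm]⟩
    rintro ⟨i, h⟩ ⟨j, k⟩ hij
    simp only at hij
    have h1 : (g ^ j.val)⁻¹ * g ^ i.val ∈ (P : Subgroup G) ⊓ H := by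
      refine Subgroup.mem_inf.2 ⟨hP ▸ mul_mem (inv_mem (Subgroup.npow_mem_zpowers _ _))
        (Subgroup.npow_mem_zpowers _ _), ?_⟩
      rw [show (g ^ j.val)⁻¹ * g ^ i.val = k * h⁻¹ by
        rw [inv_mul_eq_iff_eq_mul, ← mul_assoc, ← hij]; simp]
      exact mul_mem k.2 (inv_mem h.2)
    rw [Subgroup.inf_eq_bot_of_coprime (by
      rw [card_sylow_of_prime_degree hn P]; exact (Nat.Prime.coprime_iff_not_dvd hp).2 hHp),
      Subgroup.mem_bot, inv_mul_eq_one] at h1
    have h2 := congrArg (· • e 0) h1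
    simp only [pow_smul_zmod hg, ZMod.natCast_zmod_val, zero_add, e.apply_eq_iff_eq] at h2
    subst h2
    rw [Subtype.ext (mul_left_cancel hij)]
  let f : α → ZMod p := fun x => if x ∈ orbit H a₀ then 1 else 0
  have hf : ∀ (h : H) x, f ((h : G) • x) = f x := fun h x => by
    simp only [f]
    congr 1
    exact propext ⟨fun hx => by simpa [Subgroup.smul_def] using mem_orbit_of_mem_orbit h⁻¹ hx,
      mem_orbit_of_mem_orbit h⟩
  have hinv : ∀ i j : ZMod p, (g ^ i.val)⁻¹ • e j = e (j - i) := fun i j => by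
    rw [inv_smul_eq_iff, pow_smul_zmod hg]; simp
  have hcount : ∀ x y : ZMod p, ∑ k : G, f (k⁻¹ • e x) * f (k⁻¹ • e y) =
      Nat.card H * ∑ i, f (e (x - i)) * f (e (y - i)) := by
    intro x y
    rw [← (Equiv.ofBijective _ hbij).sum_comp, Fintype.sum_prod_type, Finset.mul_sum]
    refine Finset.sum_congr rfl fun i _ => ?_
    simp only [Equiv.ofBijective_apply, mul_inv_rev, mul_smul, hinv, ← Subgroup.coe_inv, hf]
    simp
  have hH0 : (Nat.card H : ZMod p) ≠ 0 := fun h => hHp ((ZMod.natCast_eq_zero_iff _ _).1 h)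
  have hconst : ∀ x y : ZMod p, x ≠ y → ∑ i, f (e (x - i)) * f (e (y - i)) =
      ∑ i, f (e (0 - i)) * f (e (1 - i)) := by
    intro x y hxy
    obtain ⟨k, h1, h2⟩ := two_iff.1 hG (e 0) (e 1) (e x) (e y) (by simp) (by simpa using hxy)
    apply mul_left_cancel₀ hH0
    rw [← hcount, ← hcount, ← h1, ← h2]
    exact (Fintype.sum_equiv (Equiv.mulLeft k) _ _ fun u => by simp [mul_smul]).symm
  obtain ⟨⟨m, h⟩, hm⟩ := hbij.2 t
  have hsym : ∀ j, f (e (c - m - j)) = f (e j) := by
    intro j
    rw [← hf h (e j), show (h : G) = (g ^ m.val)⁻¹ * t by rw [← hm]; simp, mul_smul, ht, hinv]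
    congr 2; ring
  set s := (c - m) / 2 with hs
  have hs2 : c - m = s + s := by rw [hs]; field_simp; ring
  obtain ⟨v, hv⟩ := const_of_symm h6 (fun j => f (e (j + s))) (by
      rw [Fintype.sum_equiv (Equiv.addRight s) (fun j => f (e (j + s))) (fun j => f (e j))
        fun _ => rfl, e.sum_comp f]
      simp only [f, Finset.sum_boole, ne_eq, ZMod.natCast_eq_zero_iff]
      intro hdvd
      apply hHp
      refine hdvd.trans ?_
      rw [card_eq_card_orbit_mul (G := H) a₀]
      apply Dvd.dvd.mul_right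
      rw [Nat.card_eq_fintype_card, Fintype.card_subtype])
    (∑ i, f (e (0 - i)) * f (e (1 - i))) (fun a ha => by
      rw [← hconst (a + s) s (by simpa using ha)]
      refine Finset.sum_congr rfl fun i _ => ?_
      rw [← hsym (s - i), hs2]
      congr 3 <;> ring)
  -- the orbit is `{e s}` or its complement
  have hall : ∀ x, x ≠ e s → f x = v := fun x hx => by
    obtain ⟨j, rfl⟩ := e.surjective x
    simpa using hv (j - s) (sub_ne_zero.2 fun h => hx (by rw [h]))
  refine ⟨e s, fun k hk => by_contra fun hne => ?_⟩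
  have hall' : ∀ x, f x = v := fun x => by
    by_cases hx : x = e s
    · rw [hx, ← hf ⟨k, hk⟩]; exact hall _ hne
    · exact hall x hx
  have h1 : v = 1 := by rw [← hall' a₀]; simp [f]
  apply hHp
  rw [card_eq_card_orbit_mul (G := H) a₀]
  apply Dvd.dvd.mul_right
  have : orbit H a₀ = Set.univ := Set.eq_univ_of_forall fun x => by
    by_contra hx
    have := hall' x
    simp [f, hx, h1] at this
  rw [this, Nat.card_univ, hn]

end Cfsg.Agent.S0677
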