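import Cfsg.Statements.S0680
import Cfsg.Agent.Lib.Perm.Frob
import Cfsg.Agent.S0054

set_option autoImplicit false
open Cfsg

namespace Cfsg.Agent.S0680

/-- A finite sharply doubly transitive permutation group has degree a prime power `p ^ j`; a Sylow `p`-subgroup is normal, elementary abelian and regular, and consists of the identity together with the elements without fixed points. (Frobenius' Theorem is not needed.) -/
theorem result {α : Type*} [Fintype α] [DecidableEq α] (G : Subgroup (Equiv.Perm α)) [MulAction.IsMultiplyPretransitive G α 2] (hsharp : ∀ x : Fin 2 ↪ α, MulAction.stabilizer G x = ⊥) (h2 : 2 ≤ Fintype.card α) : ∃ p j : ℕ, p.Prime ∧ 1 ≤ j ∧ Fintype.card α = p ^ j ∧ ∀ (hp : Fact p.Prime) (P : Sylow p G), (P : Subgroup G).Normal ∧ IsMulCommutative (P : Subgroup G) ∧ (∀ x ∈ (P : Subgroup G), x ^ p = 1) ∧ MulAction.IsPretransitive (P : Subgroup G) α ∧ (∀ a : α, MulAction.stabilizer (P : Subgroup G) a = ⊥) ∧ ∀ g : G, g ∈ (P : Subgroup G) ↔ g = 1 ∨ ∀ a : α, g • a ≠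 a := by
  have : Nontrivial α := Fintype.one_lt_card_iff_nontrivial.1 h2
  have h2t : MulAction.IsMultiplyPretransitive G α 2 := inferInstance
  have hs := (Lib.Perm.sharp_two_iff (G := G) (α := α)).1 hsharp
  obtain ⟨N, hN, hmem, htr, hreg⟩ := Lib.Perm.exists_regular_normal_of_sharply_two h2t hs
  obtain ⟨hc, p, hp, hpow⟩ := S0054.result h2t N htr hreg
  have := Fact.mk hp
  have hP : IsPGroup p N := fun n => ⟨1, Subtype.ext (by simpa using hpow n n.2)⟩
  obtain ⟨j, hj⟩ := IsPGroup.iff_card.1 hP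
  have hcard := Lib.Perm.card_eq_of_regular htr hreg
  rw [hj, Nat.card_eq_fintype_card] at hcard
  have hj1 : 1 ≤ j := by
    rcases Nat.eq_zero_or_pos j with rfl | h
    · simp at hcard; omega
    · exact h
  refine ⟨p, j, hp, hj1, hcard.symm, fun _ P => ?_⟩
  have hG : Nat.card G = p ^ j * (p ^ j - 1) := by
    rw [Lib.Perm.card_eq_descFactorial_of_sharp h2t hsharp (by simpa using h2)]
    simp [Nat.descFactorial, mul_comm, hcard]
  have hnd : ¬ p ∣ p ^ j - 1 := by
    intro h
    have h1 : p ∣ p ^ j := dvd_pow_self p (by omega)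
    have := (Nat.dvd_sub_iff_right (Nat.one_le_pow _ _ hp.pos) h1).1 h
    exact hp.one_lt.ne' (Nat.dvd_one.1 this)
  have hPN : (P : Subgroup G) = N := by
    symm
    apply Subgroup.eq_of_le_of_card_ge (hP.le_sylow_of_normal P)
    rw [(Lib.Small.card_sylow_eq p P hG hnd).1, hj]
  rw [hPN]
  exact ⟨hN, hc, hpow, htr, hreg, hmem⟩

end Cfsg.Agent.S0680
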