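import Cfsg.Statements.S0681
import Cfsg.Agent.Lib.Perm.Basic

set_option autoImplicit false
open Cfsg

namespace Cfsg.Agent.S0681

theorem zero_mul' {F : Type*} [Cfsg.NearField F] (a : F) : (0 : F) * a = 0 := by
  have := NearField.right_distrib (0 : F) 0 a
  rw [add_zero] at this
  exact (left_eq_add.1 this)

theorem neg_mul' {F : Type*} [Cfsg.NearField F] (a b : F) : (-a) * b = -(a * b) := by
  have := NearField.right_distrib a (-a) b
  rw [add_neg_cancel, zero_mul'] at this
  exact (neg_eq_of_add_eq_zero_right this.symm).symm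

theorem mul_ne_zero' {F : Type*} [Cfsg.NearField F] {a b : F} (ha : a ≠ 0) (hb : b ≠ 0) :
    a * b ≠ 0 := by
  intro h
  obtain ⟨c, hc, -⟩ := NearField.exists_inv b hb
  apply ha
  rw [← mul_one a, ← hc, ← mul_assoc, h, zero_mul']

theorem exists_perm {F : Type*} [Cfsg.NearField F] {a : F} (ha : a ≠ 0) (b : F) :
    ∃ σ : Equiv.Perm F, ∀ x, σ x = x * a + b := by
  obtain ⟨c, hc1, hc2⟩ := NearField.exists_inv a ha
  exact ⟨⟨fun x => x * a + b, fun y => (y - b) * c, fun x => by simp [mul_assoc, hc1],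
    fun y => by simp [mul_assoc, hc2]⟩, fun x => rfl⟩

/-- The affine maps `x ↦ x * a + b`, `a ≠ 0`, of a near-field form a sharply doubly transitive permutation group. -/
theorem result {F : Type*} [Cfsg.NearField F] : ∃ H : Subgroup (Equiv.Perm F), (∀ σ : Equiv.Perm F, σ ∈ H ↔ ∃ a b : F, a ≠ 0 ∧ ∀ x : F, σ x = x * a + b) ∧ MulAction.IsMultiplyPretransitive H F 2 ∧ ∀ x : Fin 2 ↪ F, MulAction.stabilizer H x = ⊥ := by
  let H : Subgroup (Equiv.Perm F) :=
    { carrier := {σ | ∃ a b : F, a ≠ 0 ∧ ∀ x : F, σ x = x * a + b}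
      one_mem' := ⟨1, 0, NearField.zero_ne_one.symm, fun x => by simp⟩
      mul_mem' := by
        rintro σ τ ⟨a, b, ha, h⟩ ⟨c, d, hc, h'⟩
        refine ⟨c * a, d * a + b, mul_ne_zero' hc ha, fun x => ?_⟩
        simp [h, h', NearField.right_distrib, mul_assoc, add_assoc]
      inv_mem' := by
        rintro σ ⟨a, b, ha, h⟩
        obtain ⟨c, hc1, hc2⟩ := NearField.exists_inv a ha
        refine ⟨c, -b * c, ?_, fun x => ?_⟩
        · rintro rfl
          rw [NearField.mul_zero] at hc1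
          exact NearField.zero_ne_one hc1
        · apply σ.injective
          rw [← NearField.right_distrib, h (_ * c)]
          simp [mul_assoc, hc2] }
  have key : ∀ a b : F, a ≠ b → ∃ g : H, g • (0 : F) = a ∧ g • (1 : F) = b := by
    intro a b hab
    have hne : b - a ≠ 0 := fun e => hab (sub_eq_zero.1 e).symm
    obtain ⟨σ, hσ⟩ := exists_perm hne a
    refine ⟨⟨σ, b - a, a, hne, hσ⟩, ?_, ?_⟩
    · change σ 0 = a
      rw [hσ, zero_mul', zero_add]
    · change σ 1 = b
      rw [hσ, one_mul, sub_add_cancel]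
  refine ⟨H, fun σ => Iff.rfl, ?_, ?_⟩
  · rw [Lib.Perm.two_iff]
    intro a b c d hab hcd
    obtain ⟨g, h1, h2⟩ := key a b hab
    obtain ⟨k, h3, h4⟩ := key c d hcd
    exact ⟨k * g⁻¹, by rw [mul_smul, ← h1, inv_smul_smul, h3],
      by rw [mul_smul, ← h2, inv_smul_smul, h4]⟩
  · refine (Lib.Perm.sharp_two_iff (G := H) (α := F)).2 ?_
    intro g a b hab ha hb
    obtain ⟨k, h1, h2⟩ := key a b hab
    suffices k⁻¹ * g * k = 1 by
      have h3 : g = k * (k⁻¹ * g * k) * k⁻¹ := by group
      rw [h3, this]; simp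
    have h3 : (k⁻¹ * g * k) • (0 : F) = 0 := by rw [mul_smul, mul_smul, h1, ha, ← h1, inv_smul_smul]
    have h4 : (k⁻¹ * g * k) • (1 : F) = 1 := by rw [mul_smul, mul_smul, h2, hb, ← h2, inv_smul_smul]
    obtain ⟨c, d, -, h⟩ := (k⁻¹ * g * k).2
    have h5 : d = 0 := by
      have := h 0
      rw [zero_mul', zero_add] at this
      exact this.symm.trans h3
    have h6 : c = 1 := by
      have := h 1
      rw [one_mul, h5, add_zero] at this
      exact this.symm.trans h4
    ext x
    rw [h, h5, h6]; simp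

end Cfsg.Agent.S0681
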