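import Cfsg.Statements.S0682
import Cfsg.Agent.Lib.Perm.Basic

set_option autoImplicit false
open Cfsg

namespace Cfsg.Agent.S0682

/-- A finite near-field has prime-power order; its additive group is commutative of prime exponent. -/
theorem result {F : Type*} [Cfsg.NearField F] [Finite F] : ∃ p j : ℕ, p.Prime ∧ 1 ≤ j ∧ Nat.card F = p ^ j ∧ (∀ x y : F, x + y = y + x) ∧ ∀ x : F, p • x = 0 := by
  have key : ∀ x y : Multiplicative F, x ≠ 1 → y ≠ 1 →
      ∃ φ : Multiplicative F ≃* Multiplicative F, φ x = y := by
    intro x y hx hy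
    obtain ⟨x', hx1, hx2⟩ := NearField.exists_inv x.toAdd hx
    obtain ⟨y', hy1, hy2⟩ := NearField.exists_inv y.toAdd hy
    let e : F ≃+ F :=
      { toFun := fun z => z * (x' * y.toAdd)
        invFun := fun z => z * (y' * x.toAdd)
        left_inv := fun z => by
          simp only [mul_assoc]
          rw [← mul_assoc y.toAdd, hy1, one_mul, hx2, mul_one]
        right_inv := fun z => by
          simp only [mul_assoc]
          rw [← mul_assoc x.toAdd, hx1, one_mul, hy2, mul_one]
        map_add' := fun z w => NearField.right_distrib _ _ _ }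
    refine ⟨AddEquiv.toMultiplicative e, ?_⟩
    change x.toAdd * (x' * y.toAdd) = y.toAdd
    rw [← mul_assoc, hx1, one_mul]
  obtain ⟨h1, p, hp, h2⟩ := Lib.Perm.elementary_of_aut_transitive key
  have := Fact.mk hp
  have hP : IsPGroup p (Multiplicative F) := fun n => ⟨1, by simpa using h2 n⟩
  obtain ⟨j, hj⟩ := IsPGroup.iff_card.1 hP
  refine ⟨p, j, hp, ?_, hj, fun x y => h1.is_comm.comm (Multiplicative.ofAdd x)
    (Multiplicative.ofAdd y), fun x => h2 (Multiplicative.ofAdd x)⟩
  rcases Nat.eq_zero_or_pos j with rfl | h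
  · have : Nontrivial (Multiplicative F) := ⟨Multiplicative.ofAdd (0 : F), Multiplicative.ofAdd (1 : F), NearField.zero_ne_one (F := F)⟩
    have := Finite.one_lt_card (α := Multiplicative F)
    simp [hj] at this
  · exact h

end Cfsg.Agent.S0682
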