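import Cfsg.Statements.S0683
import Cfsg.Agent.Lib.Perm.Frob

set_option autoImplicit false
open Cfsg

namespace Cfsg.Agent.S0683

/-- A finite sharply doubly transitive permutation group is the affine group of a near-field: the permuted set carries a near-field structure for which the group consists exactly of the maps `x ↦ x * a + b` with `a ≠ 0`. -/
theorem result {α : Type*} [Fintype α] [DecidableEq α] (H : Subgroup (Equiv.Perm α)) [MulAction.IsMultiplyPretransitive H α 2] (hsharp : ∀ x : Fin 2 ↪ α, MulAction.stabilizer H x = ⊥) (h2 : 2 ≤ Fintype.card α) : ∃ _ : Cfsg.NearField α, ∀ σ : Equiv.Perm α, σ ∈ H ↔ ∃ a b : α, a ≠ 0 ∧ ∀ x : α, σ x = x * a + b := by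
  have : Nontrivial α := Fintype.one_lt_card_iff_nontrivial.1 h2
  have h2t : MulAction.IsMultiplyPretransitive H α 2 := inferInstance
  have hs := (Lib.Perm.sharp_two_iff (G := H) (α := α)).1 hsharp
  obtain ⟨N, hN, -, htr, hreg⟩ := Lib.Perm.exists_regular_normal_of_sharply_two h2t hs
  obtain ⟨o, e, hoe⟩ := exists_pair_ne α
  choose τ hτ using fun y => htr.exists_smul_eq o y
  have hτ' : ∀ y, (τ y : H) • o = y := hτ
  have hτu : ∀ (n : H) (y : α), n ∈ N → n • o = y → (τ y : H) = n := fun n y hn h =>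
    Lib.Perm.eq_of_smul_eq_of_regular hreg (τ y).2 hn (a := o) (by rw [hτ', h])
  have hex : ∀ c : α, ∃ g : H, c ≠ o → g • o = o ∧ g • e = c := by
    intro c
    by_cases hc : c = o
    · exact ⟨1, fun h => absurd hc h⟩
    · obtain ⟨g, hg⟩ := Lib.Perm.two_iff.1 h2t o e o c hoe (Ne.symm hc)
      exact ⟨g, fun _ => hg⟩
  choose μ hμ using hex
  have hμu : ∀ (g : H) (c : α), g • o = o → g • e = c → μ c = g := by
    intro g c h1 h2
    have hc : c ≠ o := fun h => hoe (smul_left_cancel g (h1.trans (h2.trans h).symm))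
    have := hs (g⁻¹ * μ c) o e hoe (by rw [mul_smul, (hμ c hc).1, inv_smul_eq_iff, h1])
      (by rw [mul_smul, (hμ c hc).2, inv_smul_eq_iff, h2])
    exact (inv_mul_eq_one.1 this).symm
  have hμne : ∀ c, c ≠ o → ∀ x, x ≠ o → μ c • x ≠ o := fun c hc x hx h =>
    hx (smul_left_cancel (μ c) (h.trans (hμ c hc).1.symm))
  let _ : Add α := ⟨fun x y => (τ y : H) • x⟩
  let _ : Zero α := ⟨o⟩
  let _ : Neg α := ⟨fun x => (τ x : H)⁻¹ • o⟩
  let _ : Mul α := ⟨fun x c => if c = o then o else μ c • x⟩
  let _ : One α := ⟨e⟩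
  have add_def : ∀ x y : α, x + y = (τ y : H) • x := fun _ _ => rfl
  have mul_def : ∀ x c : α, x * c = if c = o then o else μ c • x := fun _ _ => rfl
  let A : AddGroup α := AddGroup.ofLeftAxioms
    (fun x y z => by
      simp only [add_def]
      rw [hτu ((τ z : H) * τ y) ((τ z : H) • y) (N.mul_mem (τ z).2 (τ y).2) (by rw [mul_smul, hτ']), mul_smul])
    (fun x => hτ' x)
    (fun x => smul_inv_smul (τ x : H) o)
  let M : Monoid α :=
    { mul_assoc := fun x y z => by
        simp only [mul_def]
        by_cases hz : z = o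
        · simp [hz]
        by_cases hy : y = o
        · simp [hy, hz, (hμ z hz).1]
        simp only [hy, hz, if_false, hμne z hz y hy]
        rw [hμu (μ z * μ y) (μ z • y) (by rw [mul_smul, (hμ y hy).1, (hμ z hz).1])
          (by rw [mul_smul, (hμ y hy).2]), mul_smul]
      one_mul := fun x => by
        rw [mul_def]
        split_ifs with h
        · exact h.symm
        · exact (hμ x h).2
      mul_one := fun x => by
        change (if e = o then o else μ e • x) = x
        rw [if_neg hoe.symm, hμu 1 _ (one_smul _ _) (one_smul _ _), one_smul] }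
  have hdist : ∀ (g : H) (x y : α), g • o = o → g • (x + y) = g • x + g • y := by
    intro g x y hg
    simp only [add_def]
    rw [hτu (g * τ y * g⁻¹) (g • y) (hN.conj_mem _ (τ y).2 g)
      (by rw [mul_smul, mul_smul, inv_smul_eq_iff.2 hg.symm, hτ'])]
    simp [mul_smul]
  refine ⟨{ A, M with
    right_distrib := fun x y c => ?_
    mul_zero := fun x => if_pos rfl
    zero_ne_one := hoe
    exists_inv := fun c hc => ?_ }, fun σ => ⟨fun hσ => ?_, ?_⟩⟩
  · change (x + y) * c = x * c + y * c
    simp only [mul_def]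
    split_ifs with h
    · exact (hτ' o).symm
    · exact hdist _ x y (hμ c h).1
  · have hc' : c ≠ o := hc
    have h1 : (μ c)⁻¹ • o = o := by rw [inv_smul_eq_iff, (hμ c hc').1]
    have h2 : (μ c)⁻¹ • e ≠ o := fun h => hoe (smul_left_cancel _ (h1.trans h.symm))
    refine ⟨(μ c)⁻¹ • e, ?_, ?_⟩
    · change c * ((μ c)⁻¹ • e) = e
      rw [mul_def, if_neg h2, hμu (μ c)⁻¹ _ h1 rfl, inv_smul_eq_iff, (hμ c hc').2]
    · change ((μ c)⁻¹ • e) * c = e
      rw [mul_def, if_neg hc', smul_inv_smul]
  · let g : H := (τ (σ o) : H)⁻¹ * ⟨σ, hσ⟩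
    have hg : g • o = o := by
      rw [mul_smul, inv_smul_eq_iff, hτ']; rfl
    have hne : g • e ≠ o := fun h => hoe (smul_left_cancel _ (hg.trans h.symm))
    refine ⟨g • e, σ o, hne, fun x => ?_⟩
    change σ x = (τ (σ o) : H) • (if g • e = o then o else μ (g • e) • x)
    rw [if_neg hne, hμu g _ hg rfl, mul_smul, smul_inv_smul]
    rfl
  · rintro ⟨c, b, hc, h⟩
    have hc' : c ≠ o := hc
    have : σ = ((τ b : H) * μ c : H) := by
      ext x
      rw [h]
      change (τ b : H) • (if c = o then o else μ c • x) = _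
      rw [if_neg hc', ← mul_smul]
      rfl
    rw [this]
    exact Subtype.property _

end Cfsg.Agent.S0683
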