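import Cfsg.Statements.S0684
import Cfsg.Agent.Lib.Frobenius.NearField

set_option autoImplicit false
open Cfsg

namespace Cfsg.Agent.S0684

/-- Point stabiliser of a sharply doubly transitive group not of semilinear type: a maximal normal abelian subgroup `A` of a linear group `H` that is regular on non-zero vectors and has no irreducible cyclic normal subgroup is cyclic and reducible, and the order of `A` divides `p ^ k - 1` for `k` the dimension of a minimal `A`-invariant subspace. -/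
theorem result {p : ℕ} [Fact p.Prime] {V : Type*} [AddCommGroup V] [Module (ZMod p) V] [Finite V] (H : Subgroup (V ≃ₗ[ZMod p] V)) (hreg : ∀ v w : V, v ≠ 0 → w ≠ 0 → ∃! h : H, (h : V ≃ₗ[ZMod p] V) v = w) (hI : ∀ A : Subgroup H, A.Normal → IsCyclic A → ∃ W : Submodule (ZMod p) V, W ≠ ⊥ ∧ W ≠ ⊤ ∧ ∀ a ∈ A, ∀ v ∈ W, ((a : H) : V ≃ₗ[ZMod p] V) v ∈ W) (A : Subgroup H) (hAn : A.Normal) (hAc : IsMulCommutative A) (hAmax : ∀ B : Subgroup H, B.Normal → IsMulCommutative B → A ≤ B → B = A) : IsCyclic A ∧ ∃ W : Submodule (ZMod p) V, W ≠ ⊥ ∧ W ≠ ⊤ ∧ (∀ a ∈ A, ∀ v ∈ W, ((a : H) : V ≃ₗ[ZMod p] V) v ∈ W) ∧ (∀ W' : Submodule (ZMod p) V, W' ≤ W → (∀ a ∈ A, ∀ v ∈ W', ((a : H) : V ≃ₗ[ZMod p] V) v ∈ W') → W' = ⊥ ∨ W' = W) ∧ Nat.card A ∣ p ^ Module.finrank (ZMod p) W - 1 := by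
  haveI : Finite (V ≃ₗ[ZMod p] V) := DFunLike.finite _
  have h := Cfsg.Lib.Frobenius.reg_of_existsUnique hreg
  have hc := h.isCyclic_of_comm hI hAc
  obtain ⟨W₀, h1, h2, h3⟩ := hI A hAn hc
  obtain ⟨W, hW, ⟨h4, h5⟩, h6⟩ := exists_minimal_le_of_wellFoundedLT
    (fun W : Submodule (ZMod p) V => W ≠ ⊥ ∧ ∀ a ∈ A, ∀ v ∈ W, ((a : H) : V ≃ₗ[ZMod p] V) v ∈ W)
    W₀ ⟨h1, h3⟩
  refine ⟨hc, W, h4, fun e => h2 (top_le_iff.1 (e ▸ hW)), h5, fun W' h7 h8 =>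
    or_iff_not_imp_left.2 fun h9 => le_antisymm h7 (h6 ⟨h9, h8⟩ h7),
    Cfsg.Lib.Frobenius.card_dvd_of_fpf h.fpf h5⟩

end Cfsg.Agent.S0684
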