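import Cfsg.Statements.S0689
import Cfsg.Agent.Lib.Frobenius.NearField

set_option autoImplicit false
open Cfsg

namespace Cfsg.Agent.S0689

/-- The insoluble sharply doubly transitive groups: a non-solvable linear group over the prime field that is regular on the non-zero vectors of `V` occurs only for `|V| = 11², 29², 59²`, and is `SL(2,5) × C_m` with `m = 1, 7, 29` respectively. -/
theorem result {p : ℕ} [Fact p.Prime] {V : Type*} [AddCommGroup V] [Module (ZMod p) V] [Finite V] (H : Subgroup (V ≃ₗ[ZMod p] V)) (hreg : ∀ v w : V, v ≠ 0 → w ≠ 0 → ∃! h : H, (h : V ≃ₗ[ZMod p] V) v = w) (hsolv : ¬ Group.IsSolvable H) : (Nat.card V = 121 ∧ Nonempty (H ≃* Matrix.SpecialLinearGroup (Fin 2) (ZMod 5))) ∨ (Nat.card V = 841 ∧ Nonempty (H ≃* Matrix.SpecialLinearGroup (Fin 2) (ZMod 5) × Multiplicative (ZMod 7))) ∨ (Nat.card V = 3481 ∧ Nonempty (H ≃* Matrix.SpecialLinearGroup (Fin 2) (ZMod 5) × Multiplicative (ZMod 29))) :=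 by
  haveI : Finite (V ≃ₗ[ZMod p] V) := DFunLike.finite _
  haveI : Nontrivial V := by
    by_contra h1
    rw [not_nontrivial_iff_subsingleton] at h1
    haveI : Subsingleton H := ⟨fun a b => Subtype.ext (LinearEquiv.ext fun v => Subsingleton.elim _ _)⟩
    exact hsolv inferInstance
  obtain ⟨J, M, _, _, ⟨e⟩, h1, h2, h3⟩ :=
    (Cfsg.Lib.Frobenius.reg_of_existsUnique hreg).nonsolvable hsolv
  obtain ⟨e'⟩ := Cfsg.Lib.Perm.nonempty_sup_equiv_prod J M h1
  replace e' := (Subgroup.topEquiv.symm.trans (MulEquiv.subgroupCongr h2.symm)).trans e'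
  rcases h3 with ⟨h3, h4⟩ | ⟨h3, h4⟩ | ⟨h3, h4⟩
  · rw [Subgroup.card_eq_one.1 h4, sup_bot_eq] at h2
    subst h2
    exact Or.inl ⟨h3, ⟨Subgroup.topEquiv.symm.trans e⟩⟩
  · haveI : Fact (Nat.Prime 7) := ⟨by norm_num⟩
    exact Or.inr (Or.inl ⟨h3, ⟨e'.trans (e.prodCongr (mulEquivOfPrimeCardEq h4 (by simp)))⟩⟩)
  · haveI : Fact (Nat.Prime 29) := ⟨by norm_num⟩
    exact Or.inr (Or.inr ⟨h3, ⟨e'.trans (e.prodCongr (mulEquivOfPrimeCardEq h4 (by simp)))⟩⟩)

end Cfsg.Agent.S0689
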