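import Cfsg.Statements.S0690
import Cfsg.Agent.Lib.Frobenius.Compl

set_option autoImplicit false
open Cfsg

namespace Cfsg.Agent.S0690

/-- Zassenhaus: a perfect non-trivial group of fixed-point-free automorphisms of a finite group is isomorphic to `SL(2,5)`. -/
theorem result {K : Type*} [Group K] [Finite K] (G : Subgroup (MulAut K)) (hfpf : ∀ φ ∈ G, φ ≠ 1 → ∀ k : K, φ k = k → k = 1) (hperf : commutator G = ⊤) (hne : G ≠ ⊥) : Nonempty (G ≃* Matrix.SpecialLinearGroup (Fin 2) (ZMod 5)) := by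
  haveI : Nontrivial K := by
    by_contra h
    rw [not_nontrivial_iff_subsingleton] at h
    exact hne (eq_bot_iff.2 fun φ _ => MulEquiv.ext fun k => Subsingleton.elim _ _)
  have h := Cfsg.Lib.Frobenius.fpf_of_aut G.subtype fun g k e => or_iff_not_imp_left.2 fun g1 =>
    hfpf g g.2 (fun e => g1 (Subtype.ext e)) k e
  haveI := (Subgroup.nontrivial_iff_ne_bot G).2 hne
  obtain ⟨J, M, f, _, _, ⟨e⟩, h1, h2, h3, h4, h5⟩ := h.nonsolvable_structure fun hs =>
    (Group.IsSolvable.commutator_lt_top_of_nontrivial G).ne hperf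
  have h6 : J ⊔ M = ⊤ := by
    rw [h4, ← h1, ← Subgroup.comap_map_eq, h2, eq_top_iff, ← hperf]
    exact Abelianization.commutator_subset_ker (Equiv.Perm.sign.comp f)
  haveI := h.isZGroup_of_odd (Nat.coprime_two_right.1 (h5.coprime_dvd_right (by decide)))
  have h7 := Cfsg.Lib.Core.isSolvable_map (H := M) (QuotientGroup.mk' J) inferInstance
  have h8 : M.map (QuotientGroup.mk' J) = Subgroup.map (QuotientGroup.mk' J) ⊤ := by
    rw [← h6, Subgroup.map_sup, (Subgroup.map_eq_bot_iff J).2 (by simp), bot_sup_eq]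
  have h9 := Cfsg.Lib.Core.eq_bot_of_isSolvable_of_commutator_eq h7 (by
    rw [h8, ← Subgroup.map_commutator, ← commutator_def, hperf])
  rw [h8, Subgroup.map_eq_bot_iff, QuotientGroup.ker_mk', top_le_iff] at h9
  subst h9
  exact ⟨Subgroup.topEquiv.symm.trans e⟩

end Cfsg.Agent.S0690
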