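import Cfsg.Statements.S0691
import Cfsg.Agent.Lib.Frobenius.NearField

set_option autoImplicit false
open Cfsg

namespace Cfsg.Agent.S0691

/-- An exceptional sharply doubly transitive group of degree 5^2: the listed matrices generate a subgroup of GL(2,5) of order 24 acting regularly on the non-zero vectors. -/
theorem result (A : Matrix.GeneralLinearGroup (Fin 2) (ZMod 5)) (B : Matrix.GeneralLinearGroup (Fin 2) (ZMod 5)) (C : Matrix.GeneralLinearGroup (Fin 2) (ZMod 5)) (hA : (A : Matrix (Fin 2) (Fin 2) (ZMod 5)) = !![2, 0; 0, -2]) (hB : (B : Matrix (Fin 2) (Fin 2) (ZMod 5)) = !![0, -1; 1, 0]) (hC : (C : Matrix (Fin 2) (Fin 2) (ZMod 5)) = !![1, 2; 1, -2]) : Nat.card (Subgroup.closure ({A, B, C} : Set (Matrix.GeneralLinearGroup (Fin 2) (ZMod 5)))) = 24 ∧ ∀ v w : Fin 2 → ZMod 5, v ≠ 0 → w ≠ 0 → ∃! h : Subgroup.closure ({A, B, C} : Set (Matrix.GeneralLinearGroup (Fin 2) (ZMod 5))), Matrix.mulVec ((h : Matrix.GeneralLinearGroup (Fin 2) (ZMod 5)) : Matrix (Fin 2) (Fin 2) (ZMod 5)) v = w := by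
  have hz := Cfsg.Lib.Frobenius.orderOf_neg_one_gl (p := 5) (by decide)
  obtain ⟨e⟩ := Cfsg.Lib.Frobenius.equiv_sl_two_three (x := C) (y := B * C * C)
    (Units.ext (by simp only [Units.val_pow_eq_pow_val, hC]; decide))
    (Units.ext (by simp only [Units.val_pow_eq_pow_val, Units.val_mul, hB, hC]; decide)) hz
    (Units.ext (by simp only [Units.val_pow_eq_pow_val, Units.val_mul, hB, hC]; decide))
    (by simp) (by simp)
  have h1 : Subgroup.closure {A, B, C} = Subgroup.closure {C, B * C * C} := by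
    have x : C ∈ Subgroup.closure {C, B * C * C} := Subgroup.subset_closure (by simp)
    have y : B * C * C ∈ Subgroup.closure {C, B * C * C} := Subgroup.subset_closure (by simp)
    have b : B ∈ Subgroup.closure {A, B, C} := Subgroup.subset_closure (by simp)
    have c : C ∈ Subgroup.closure {A, B, C} := Subgroup.subset_closure (by simp)
    have eA : C * (B * C * C) = A := Units.ext (by simp only [Units.val_mul, hA, hB, hC]; decide)
    refine le_antisymm ((Subgroup.closure_le _).2 ?_) ((Subgroup.closure_le _).2 ?_)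
    · rintro g (rfl | rfl | rfl)
      · exact eA ▸ mul_mem x y
      · simpa using mul_mem (mul_mem y (inv_mem x)) (inv_mem x)
      · exact x
    · rintro g (rfl | rfl)
      exacts [c, mul_mem (mul_mem b c) c]
  have h2 : Nat.card (Subgroup.closure {A, B, C}) = 24 := by
    rw [h1, Nat.card_congr e.toEquiv, Cfsg.Lib.Frobenius.card_sl_two_three]
  refine ⟨h2, Cfsg.Lib.Frobenius.regular_of_card h2 fun g hg v hv =>
    Cfsg.Lib.Frobenius.eq_one_of_det ((Subgroup.closure_le _).2 ?_) (by rw [h2]; decide) hg hv⟩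
  rintro g (rfl | rfl | rfl) <;> refine Units.ext ?_ <;>
    simp only [Matrix.GeneralLinearGroup.val_det_apply, hA, hB, hC, Matrix.det_fin_two_of] <;> decide

end Cfsg.Agent.S0691
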