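import Cfsg.Statements.S0692
import Cfsg.Agent.Lib.Frobenius.NearField

set_option autoImplicit false
open Cfsg

namespace Cfsg.Agent.S0692

local instance fact11 : Fact (Nat.Prime 11) := ⟨by norm_num⟩

/-- An exceptional sharply doubly transitive group of degree 11^2: the listed matrices generate a subgroup of GL(2,11) of order 120 acting regularly on the non-zero vectors. -/
theorem result (A : Matrix.GeneralLinearGroup (Fin 2) (ZMod 11)) (B : Matrix.GeneralLinearGroup (Fin 2) (ZMod 11)) (hA : (A : Matrix (Fin 2) (Fin 2) (ZMod 11)) = !![0, -1; 1, 0]) (hB : (B : Matrix (Fin 2) (Fin 2) (ZMod 11)) = !![2, 4; 1, -3]) : Nat.card (Subgroup.closure ({A, B} : Set (Matrix.GeneralLinearGroup (Fin 2) (ZMod 11)))) = 120 ∧ ∀ v w : Fin 2 → ZMod 11, v ≠ 0 → w ≠ 0 → ∃! h : Subgroup.closure ({A, B} : Set (Matrix.GeneralLinearGroup (Fin 2) (ZMod 11))), Matrix.mulVec ((h : Matrix.GeneralLinearGroup (Fin 2) (ZMod 11)) : Matrix (Fin 2) (Fin 2) (ZMod 11)) v = w := by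
  have h2 : Nat.card (Subgroup.closure {A, B}) = 120 := by
    refine Cfsg.Lib.Frobenius.card_closure_eq_120
      (Cfsg.Lib.Frobenius.orderOf_neg_one_gl (p := 11) (by decide)) (by simp) rfl rfl
      ?_ ?_ ?_ ?_ ?_ ?_ ?_ <;> refine Units.ext ?_ <;>
      simp only [Units.val_pow_eq_pow_val, Units.val_mul, hA, hB] <;> decide +kernel
  refine ⟨h2, Cfsg.Lib.Frobenius.regular_of_card h2 fun g hg v hv =>
    Cfsg.Lib.Frobenius.eq_one_of_det ((Subgroup.closure_le _).2 ?_) (by rw [h2]; decide) hg hv⟩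
  rintro g (rfl | rfl) <;> refine Units.ext ?_ <;>
    simp only [Matrix.GeneralLinearGroup.val_det_apply, hA, hB, Matrix.det_fin_two_of] <;> decide

end Cfsg.Agent.S0692
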