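import Cfsg.Statements.S0693
import Cfsg.Agent.Lib.Frobenius.NearField

set_option autoImplicit false
open Cfsg

namespace Cfsg.Agent.S0693

local instance fact29 : Fact (Nat.Prime 29) := ⟨by norm_num⟩

local instance fact59 : Fact (Nat.Prime 59) := ⟨by norm_num⟩

/-- An exceptional sharply doubly transitive group of degree 59^2: the listed matrices generate a subgroup of GL(2,59) of order 3480 acting regularly on the non-zero vectors. -/
theorem result (A : Matrix.GeneralLinearGroup (Fin 2) (ZMod 59)) (B : Matrix.GeneralLinearGroup (Fin 2) (ZMod 59)) (C : Matrix.GeneralLinearGroup (Fin 2) (ZMod 59)) (hA : (A : Matrix (Fin 2) (Fin 2) (ZMod 59)) = !![0, -1; 1, 0]) (hB : (B : Matrix (Fin 2) (Fin 2) (ZMod 59)) = !![9, 15; -10, -10]) (hC : (C : Matrix (Fin 2) (Fin 2) (ZMod 59)) = !![4, 0; 0, 4]) : Nat.card (Subgroup.closure ({A, B, C} : Set (Matrix.GeneralLinearGroup (Fin 2) (ZMod 59)))) = 3480 ∧ ∀ v w : Fin 2 → ZMod 59, v ≠ 0 → w ≠ 0 → ∃! h : Subgroup.closure ({A,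 B, C} : Set (Matrix.GeneralLinearGroup (Fin 2) (ZMod 59))), Matrix.mulVec ((h : Matrix.GeneralLinearGroup (Fin 2) (ZMod 59)) : Matrix (Fin 2) (Fin 2) (ZMod 59)) v = w := by
  have h1 : Nat.card (Subgroup.closure {A, B}) = 120 := by
    refine Cfsg.Lib.Frobenius.card_closure_eq_120
      (Cfsg.Lib.Frobenius.orderOf_neg_one_gl (p := 59) (by decide)) (by simp) rfl rfl
      ?_ ?_ ?_ ?_ ?_ ?_ ?_ <;> refine Units.ext ?_ <;>
      simp only [Units.val_pow_eq_pow_val, Units.val_mul, hA, hB] <;> decide +kernel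
  have hd : Subgroup.closure {A, B} ≤ Matrix.GeneralLinearGroup.det.ker := by
    rw [Subgroup.closure_le]
    rintro g (rfl | rfl) <;> refine Units.ext ?_ <;>
      simp only [Matrix.GeneralLinearGroup.val_det_apply, hA, hB, Matrix.det_fin_two_of] <;> decide
  have hC' : C.1 = (4 : ZMod 59) • 1 := by rw [hC]; decide
  have hc : C ∈ Subgroup.center _ := Subgroup.mem_center_iff.2 fun g => Units.ext (by simp [hC'])
  have ho : orderOf C = 29 := orderOf_eq_prime
    (Units.ext (by simp only [Units.val_pow_eq_pow_val, hC]; decide +kernel))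
    fun e => by rw [e] at hC; exact absurd hC (by decide)
  have hZ : Nat.card (Subgroup.zpowers C) = 29 := by rw [Nat.card_zpowers, ho]
  haveI : (Subgroup.zpowers C).Normal := ⟨fun x hx g => by
    rwa [Subgroup.mem_center_iff.1 (Subgroup.zpowers_le.2 hc hx) g, mul_inv_cancel_right]⟩
  have h3 : Subgroup.closure {A, B, C} = Subgroup.closure {A, B} ⊔ Subgroup.zpowers C := by
    rw [Subgroup.zpowers_eq_closure, ← Subgroup.closure_union, Set.insert_union, Set.singleton_union]
  have h2 : Nat.card (Subgroup.closure {A, B, C}) = 3480 := by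
    rw [h3, Cfsg.Lib.Core.card_sup_of_disjoint (by simp [Subgroup.normalizer_eq_top])
      (Subgroup.disjoint_of_coprime_natCard (by rw [h1, hZ]; decide)).eq_bot, h1, hZ]
  refine ⟨h2, Cfsg.Lib.Frobenius.regular_of_card h2 fun g hg v hv h => ?_⟩
  rw [h3, ← SetLike.mem_coe, Subgroup.mul_normal] at hg
  obtain ⟨a, ha, c, hc', rfl⟩ := hg
  have h4 : c ^ 29 = 1 := orderOf_dvd_iff_pow_eq_one.1 (hZ ▸ Subgroup.orderOf_dvd_natCard _ hc')
  have h5 := pow_mem h 29
  rw [Commute.mul_pow (Subgroup.mem_center_iff.1 (Subgroup.zpowers_le.2 hc hc') a), h4,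
    mul_one] at h5
  have h6 := Cfsg.Lib.Frobenius.eq_one_of_det hd (by rw [h1]; decide) (pow_mem ha 29) hv h5
  obtain rfl : a = 1 := Cfsg.Lib.Transfer.eq_one_of_pow_pow_eq_one_of_coprime (p := 29) (k := 1) h6
    (Cfsg.Lib.Frobenius.coprime_orderOf_of_mem' ha (by rw [h1]; decide))
  simp only [one_mul] at h ⊢
  by_contra c1
  have h7 : C ∈ Cfsg.Lib.Frobenius.vecStab v := Subgroup.zpowers_le.2 h
    (Cfsg.Lib.BG.zpowers_eq_of_prime (by rw [hZ]; norm_num) hc' c1 ▸ Subgroup.mem_zpowers C)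
  have h8 : C.1.mulVec v = v := h7
  rw [hC', Matrix.smul_mulVec, Matrix.one_mulVec] at h8
  exact hv ((smul_eq_zero.1 (by rw [sub_smul, h8, one_smul, sub_self] :
    ((4 : ZMod 59) - 1) • v = 0)).resolve_left (by decide))

end Cfsg.Agent.S0693
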