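import Cfsg.Statements.S0694
import Mathlib

set_option autoImplicit false
open Cfsg

namespace Cfsg.Agent.S0694

open Finset

def S (x i : ℕ) : ℕ := ∑ k ∈ range i, (x + 1) ^ k

theorem S_mul (x i : ℕ) : S x i * x + 1 = (x + 1) ^ i := geom_sum_mul_add x i

theorem S_succ (x i : ℕ) : S x (i + 1) = (x + 1) * S x i + 1 := geom_sum_succ

theorem modEq_iff {x : ℕ} (hx : 0 < x) (n i : ℕ) : (x + 1) ^ i ≡ 1 [MOD n * x] ↔ n ∣ S x i := by
  rw [← S_mul, Nat.add_modEq_right_iff, Nat.mul_dvd_mul_iff_right hx]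

theorem pow_dvd_iff {x r k : ℕ} (hx : 0 < x) (hr : r.Prime) (h1 : r ∣ x) (h4 : 4 ∣ r ^ k → 4 ∣ x)
    (i : ℕ) : r ^ k ∣ S x i ↔ r ^ k ∣ i := by
  have hx' : ¬ r ∣ x + 1 := fun h => hr.one_lt.ne' (Nat.dvd_one.1 ((Nat.dvd_add_right h1).1 h))
  have e : (x + 1) ^ i - 1 ^ i = S x i * x := by rw [one_pow, ← S_mul]; rfl
  have fin : emultiplicity r x ≠ ⊤ := finiteMultiplicity_iff_emultiplicity_ne_top.1
    (Nat.finiteMultiplicity_iff.2 ⟨hr.ne_one, hx⟩)
  have key : emultiplicity r ((x + 1) ^ i - 1 ^ i) = emultiplicity r x + emultiplicity r i →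
      (r ^ k ∣ S x i ↔ r ^ k ∣ i) := fun h => by
    rw [e, emultiplicity_mul hr.prime, add_comm] at h
    rw [pow_dvd_iff_le_emultiplicity, pow_dvd_iff_le_emultiplicity, WithTop.add_left_cancel fin h]
  rcases hr.eq_two_or_odd' with rfl | ho
  · by_cases h : 4 ∣ x
    · refine key ?_
      have := Int.two_pow_sub_pow' (x := ((x + 1 : ℕ) : ℤ)) (y := 1) i (by simpa using Int.natCast_dvd_natCast.2 h)
        (by exact_mod_cast hx')
      rw [← Int.natCast_emultiplicity, ← Int.natCast_emultiplicity, ← Int.natCast_emultiplicity,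
        Nat.cast_sub (Nat.pow_le_pow_left (by omega) i)]
      simpa using this
    · obtain rfl | rfl : k = 0 ∨ k = 1 := by
        by_contra hk
        exact h (h4 (pow_dvd_pow 2 (show 2 ≤ k by omega)))
      · simp
      rw [pow_one]
      clear key e
      induction i with
      | zero => simp [S]
      | succ i ih =>
        obtain ⟨y, rfl⟩ := h1
        rw [S_succ, show (2 * y + 1) * S (2 * y) i + 1 = 2 * (y * S (2 * y) i) + (S (2 * y) i + 1) by ring]
        omega
  · simpa using key (by simpa using Nat.emultiplicity_pow_sub_pow hr ho (x := x + 1) (y := 1) h1 hx' i)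

/-- The Dickson pair condition: for a prime power `q` and `n > 1`, (every prime factor of `n` divides `q - 1`, and `4 ∣ n → 4 ∣ q - 1`) holds exactly when `q ^ n ≡ 1` modulo `n * (q - 1)` but `q ^ i` is not, for `0 < i < n`. -/
theorem result (q n : ℕ) (hq : IsPrimePow q) (hn : 1 < n) : ((∀ r : ℕ, r.Prime → r ∣ n → r ∣ q - 1) ∧ (4 ∣ n → 4 ∣ q - 1)) ↔ (q ^ n ≡ 1 [MOD n * (q - 1)] ∧ ∀ i : ℕ, 0 < i → i < n → ¬ q ^ i ≡ 1 [MOD n * (q - 1)]) := by
  obtain ⟨x, rfl⟩ : ∃ x, q = x + 1 := ⟨q - 1, by have := hq.pos; omega⟩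
  have hx : 0 < x := by have := hq.two_le; omega
  simp only [Nat.add_sub_cancel, modEq_iff hx]
  constructor
  · rintro ⟨h1, h2⟩
    have key : ∀ i, n ∣ S x i ↔ n ∣ i := fun i => by
      rw [Nat.dvd_iff_prime_pow_dvd_dvd, Nat.dvd_iff_prime_pow_dvd_dvd i]
      refine forall₂_congr fun r k => forall₂_congr fun hr hk => ?_
      rcases k with _ | k
      · simp
      exact pow_dvd_iff hx hr (h1 r hr ((dvd_pow_self r k.succ_ne_zero).trans hk))
        (fun h => h2 (h.trans hk)) i
    exact ⟨(key n).2 dvd_rfl, fun i h0 hi h => Nat.not_dvd_of_pos_of_lt h0 hi ((key i).1 h)⟩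
  · rintro ⟨h1, h2⟩
    have : NeZero n := ⟨by omega⟩
    have hu : IsUnit ((x : ZMod n) + 1) := by
      have := congrArg (Nat.cast : ℕ → ZMod n) (S_mul x n)
      push_cast at this
      rw [(ZMod.natCast_eq_zero_iff _ _).2 h1, zero_mul, zero_add] at this
      exact IsUnit.of_pow_eq_one this.symm (by omega)
    have add : ∀ i j, S x (i + j) = S x i + (x + 1) ^ i * S x j := fun i j => by
      simp only [S, sum_range_add, mul_sum, pow_add]
    have lt : ∀ i j : Fin n, i < j → (S x i : ZMod n) ≠ S x j := fun i j hij e => by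
      obtain ⟨d, hd⟩ := Nat.exists_eq_add_of_lt (show (i : ℕ) < j from hij)
      rw [hd, add_assoc, add] at e
      push_cast at e
      rw [left_eq_add, (hu.pow _).mul_right_eq_zero, ZMod.natCast_eq_zero_iff] at e
      exact h2 _ d.succ_pos (by omega) e
    have surj : Function.Surjective fun i : Fin n => (S x i : ZMod n) :=
      ((Fintype.bijective_iff_injective_and_card _).2 ⟨fun i j e => by
        rcases lt_trichotomy i j with h | h | h
        exacts [absurd e (lt i j h), h, absurd e.symm (lt j i h)], by simp⟩).2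
    have surj' : ∀ m, m ∣ n → ∀ y : ZMod m, ∃ i, (S x i : ZMod m) = y := fun m hm y => by
      obtain ⟨z, rfl⟩ := ZMod.castHom_surjective hm y
      obtain ⟨i, rfl⟩ := surj z
      exact ⟨i, by simp⟩
    have hr : ∀ r : ℕ, r.Prime → r ∣ n → r ∣ x := fun r hr hrn => by
      have := Fact.mk hr
      by_contra h
      obtain ⟨i, hi⟩ := surj' r hrn (-(x : ZMod r)⁻¹)
      have e := congrArg (Nat.cast : ℕ → ZMod r) (S_mul x i)
      push_cast at e
      rw [hi, neg_mul, inv_mul_cancel₀ (mt (ZMod.natCast_eq_zero_iff _ _).1 h), neg_add_cancel] at e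
      have := (hu.map (ZMod.castHom hrn (ZMod r))).pow i
      simp only [map_add, map_natCast, map_one, ← e] at this
      exact not_isUnit_zero this
    refine ⟨hr, fun h4 => ?_⟩
    obtain ⟨y, rfl⟩ := hr 2 Nat.prime_two (Dvd.dvd.trans ⟨2, rfl⟩ h4)
    obtain ⟨i, hi⟩ := surj' 4 h4 2
    by_contra h
    obtain ⟨z, rfl⟩ : ∃ z, y = 2 * z + 1 := ⟨y / 2, by omega⟩
    have : ∀ i, (S (2 * (2 * z + 1)) i : ZMod 4) = 0 ∨ (S (2 * (2 * z + 1)) i : ZMod 4) = 1 := by
      intro i
      induction i with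
      | zero => simp [S]
      | succ i ih =>
        rw [S_succ]
        push_cast
        rw [show (2 * (2 * z + 1) + 1 : ZMod 4) = 4 * z + 3 by ring, show (4 : ZMod 4) = 0 from rfl]
        rcases ih with h | h <;> rw [h] <;> simp
        decide
    rcases this i with h | h <;> rw [hi] at h <;> exact absurd h (by decide)

end Cfsg.Agent.S0694
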