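import Cfsg.Statements.S0701
import Cfsg.Agent.Lib.Perm.Basic

set_option autoImplicit false
open Cfsg

namespace Cfsg.Agent.S0701

/-- The centraliser in the full symmetric group of a transitive permutation group `G` is semiregular, and it is transitive if and only if `G` is regular. -/
theorem result {α : Type*} (G : Subgroup (Equiv.Perm α)) [MulAction.IsPretransitive G α] : (∀ c ∈ Subgroup.centralizer (G : Set (Equiv.Perm α)), ∀ a : α, c a = a → c = 1) ∧ (MulAction.IsPretransitive (Subgroup.centralizer (G : Set (Equiv.Perm α))) α ↔ ∀ a : α, MulAction.stabilizer G a = ⊥) := by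
  have h1 : ∀ c ∈ Subgroup.centralizer (G : Set (Equiv.Perm α)), ∀ a : α, c a = a → c = 1 := by
    intro c hc a ha
    ext b
    obtain ⟨g, rfl⟩ := MulAction.exists_smul_eq G a b
    have := DFunLike.congr_fun (Subgroup.mem_centralizer_iff.1 hc g g.2) a
    simp only [Equiv.Perm.coe_mul, Function.comp_apply, ha] at this
    exact this.symm
  refine ⟨h1, fun ht a => ?_, fun hreg => ?_⟩
  · rw [eq_bot_iff]
    intro g hg
    rw [Subgroup.mem_bot]
    ext b
    obtain ⟨c, rfl⟩ := ht.exists_smul_eq a b
    have := DFunLike.congr_fun (Subgroup.mem_centralizer_iff.1 c.2 g g.2) a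
    have hg' : (g : Equiv.Perm α) a = a := hg
    simp only [Equiv.Perm.coe_mul, Function.comp_apply, hg'] at this
    exact this
  · refine ⟨fun a b => ?_⟩
    have bij : ∀ a : α, Function.Bijective (fun g : G => (g : Equiv.Perm α) a) := fun a =>
      Lib.Perm.bijective_smul_of_regular (N := G) inferInstance hreg a
    let c : Equiv.Perm α := (Equiv.ofBijective _ (bij a)).symm.trans (Equiv.ofBijective _ (bij b))
    have hc : ∀ g : G, c ((g : Equiv.Perm α) a) = (g : Equiv.Perm α) b := by
      intro g
      simp only [c, Equiv.trans_apply]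
      rw [Equiv.ofBijective_symm_apply_apply (fun g : G => (g : Equiv.Perm α) a) (bij a) g]
      rfl
    refine ⟨⟨c, ?_⟩, ?_⟩
    · rw [Subgroup.mem_centralizer_iff]
      intro h hh
      ext x
      obtain ⟨g, rfl⟩ := (bij a).2 x
      have := hc (⟨h, hh⟩ * g)
      simp only [Equiv.Perm.coe_mul, Function.comp_apply, hc]
      exact this.symm
    · exact hc 1

end Cfsg.Agent.S0701
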