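import Cfsg.Statements.S0702
import Cfsg.Agent.Lib.Perm.Basic
import Cfsg.Agent.S0701

set_option autoImplicit false
open Cfsg

namespace Cfsg.Agent.S0702

/-- For a transitive permutation group `G` on a finite set, the centraliser of `G` in the symmetric group is isomorphic to `N_G(G_ω)/G_ω`, and its orbit of `ω` is the set of fixed points of `G_ω`. -/
theorem result {α : Type*} [Finite α] (G : Subgroup (Equiv.Perm α)) [MulAction.IsPretransitive G α] (a : α) : Nonempty (Subgroup.centralizer (G : Set (Equiv.Perm α)) ≃* Subgroup.normalizer ((MulAction.stabilizer G a : Subgroup G) : Set G) ⧸ (MulAction.stabilizer G a).subgroupOf (Subgroup.normalizer ((MulAction.stabilizer G a : Subgroup G) : Set G))) ∧ MulAction.orbit (Subgroup.centralizer (G : Set (Equiv.Perm α))) a = MulAction.fixedPoints (MulAction.stabilizer G a) α := by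
  set C := Subgroup.centralizer (G : Set (Equiv.Perm α)) with hC
  set K : Subgroup G := MulAction.stabilizer G a with hK
  have hcomm : ∀ c ∈ C, ∀ g : G, ∀ x, c ((g : Equiv.Perm α) x) = (g : Equiv.Perm α) (c x) := by
    intro c hc g x
    exact (DFunLike.congr_fun (Subgroup.mem_centralizer_iff.1 hc g g.2) x).symm
  -- for a point `b` fixed by `K` there is an element of the centraliser taking `a` to `b`
  have hex : ∀ b : α, (∀ g : G, g ∈ K → (g : Equiv.Perm α) b = b) → ∃ c ∈ C, c a = b := by
    intro b hb
    choose r hr using fun x => MulAction.exists_smul_eq G a x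
    have hr' : ∀ x, (r x : Equiv.Perm α) a = x := hr
    let f : α → α := fun x => (r x : Equiv.Perm α) b
    have hf : ∀ g : G, f ((g : Equiv.Perm α) a) = (g : Equiv.Perm α) b := by
      intro g
      have h1 : g⁻¹ * r ((g : Equiv.Perm α) a) ∈ K := by
        change (g⁻¹ * r ((g : Equiv.Perm α) a)) • a = a
        rw [mul_smul, hr]
        exact inv_smul_smul g a
      have h2 := hb _ h1
      simp only [Subgroup.coe_mul, Subgroup.coe_inv, Equiv.Perm.coe_mul, Function.comp_apply,
        Equiv.Perm.inv_eq_iff_eq] at h2
      exact h2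
    have hsurj : Function.Surjective f := by
      intro x
      obtain ⟨g, hg⟩ := MulAction.exists_smul_eq G b x
      exact ⟨_, (hf g).trans hg⟩
    refine ⟨Equiv.ofBijective f (Finite.surjective_iff_bijective.1 hsurj), ?_, hf 1⟩
    rw [Subgroup.mem_centralizer_iff]
    intro h hh
    ext x
    obtain ⟨g, rfl⟩ := MulAction.exists_smul_eq G a x
    have h1 := hf (⟨h, hh⟩ * g)
    have h2 := hf g
    change h (f ((g : Equiv.Perm α) a)) = f (h ((g : Equiv.Perm α) a))
    rw [h2]
    exact h1.symm
  have hsemi := (S0701.result G).1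
  constructor
  · -- the map from the normaliser onto the centraliser
    have hN : ∀ n : Subgroup.normalizer (K : Set G), ∃ c ∈ C, c a = ((n : G) : Equiv.Perm α)⁻¹ a := by
      intro n
      apply hex
      intro g hg
      have h1 : (n : G) * g * (n : G)⁻¹ ∈ K := (Subgroup.mem_normalizer_iff.1 n.2 g).1 hg
      have h2 : ((n : G) * g * (n : G)⁻¹) • a = a := h1
      rw [mul_smul, mul_smul, smul_eq_iff_eq_inv_smul] at h2
      exact h2
    choose c hc hca using hN
    have huniq : ∀ x ∈ C, ∀ y ∈ C, x a = y a → x = y := by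
      intro x hx y hy h
      have := hsemi (y⁻¹ * x) (C.mul_mem (C.inv_mem hy) hx) a (by simp [h])
      exact (inv_mul_eq_one.1 this).symm
    let φ : Subgroup.normalizer (K : Set G) →* C := MonoidHom.mk' (fun n => ⟨c n, hc n⟩) (by
      intro m n
      apply Subtype.ext
      apply huniq _ (hc _) _ (C.mul_mem (hc _) (hc _))
      have := hcomm _ (hc m) (n : G)⁻¹ a
      simp only [Subgroup.coe_inv] at this
      simp only [hca, Equiv.Perm.coe_mul, Function.comp_apply, this]
      simp)
    have hφ : Function.Surjective φ := by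
      intro x
      obtain ⟨g, hg⟩ := MulAction.exists_smul_eq G a ((x : Equiv.Perm α) a)
      have hg' : (g : Equiv.Perm α) a = (x : Equiv.Perm α) a := hg
      have hmem : g ∈ Subgroup.normalizer (K : Set G) := by
        rw [Subgroup.mem_normalizer_iff'']
        intro h
        change h • a = a ↔ (g⁻¹ * h * g) • a = a
        rw [mul_smul, mul_smul, inv_smul_eq_iff]
        change (h : Equiv.Perm α) a = a ↔ (h : Equiv.Perm α) ((g : Equiv.Perm α) a) = (g : Equiv.Perm α) a
        rw [hg', ← hcomm _ x.2, (x : Equiv.Perm α).apply_eq_iff_eq]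
      refine ⟨⟨g, hmem⟩⁻¹, Subtype.ext (huniq _ (hc _) _ x.2 ?_)⟩
      rw [hca]
      simpa using hg'
    have hker : φ.ker = K.subgroupOf (Subgroup.normalizer (K : Set G)) := by
      ext n
      rw [MonoidHom.mem_ker, Subgroup.mem_subgroupOf]
      constructor
      · intro h
        have h1 : c n = 1 := congrArg Subtype.val h
        have h2 := hca n
        rw [h1] at h2
        have h3 : a = ((n : G) : Equiv.Perm α)⁻¹ a := h2
        rw [Equiv.Perm.eq_inv_iff_eq] at h3
        exact h3
      · intro h
        apply Subtype.ext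
        apply hsemi _ (hc n) a
        rw [hca, Equiv.Perm.inv_eq_iff_eq]
        exact (show ((n : G) : Equiv.Perm α) a = a from h).symm
    exact ⟨(QuotientGroup.quotientKerEquivOfSurjective φ hφ).symm.trans
      (QuotientGroup.quotientMulEquivOfEq hker)⟩
  · ext b
    constructor
    · rintro ⟨c, rfl⟩ g
      have := hcomm _ c.2 g a
      have hg : ((g : G) : Equiv.Perm α) a = a := g.2
      rw [hg] at this
      exact this.symm
    · intro hb
      obtain ⟨c, hc, hca⟩ := hex b fun g hg => hb ⟨g, hg⟩
      exact ⟨⟨c, hc⟩, hca⟩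

end Cfsg.Agent.S0702
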