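import Cfsg.Statements.S0703
import Cfsg.Agent.Lib.Perm.Centralizer

set_option autoImplicit false
open Cfsg

namespace Cfsg.Agent.S0703

/-- An abelian transitive minimal normal subgroup `M` of a permutation group on a finite set is self-centralising in the symmetric group, regular, elementary abelian, and is the unique minimal normal subgroup. -/
theorem result {α : Type*} [Finite α] (G : Subgroup (Equiv.Perm α)) (M : Subgroup G) [M.Normal] (hM : M ≠ ⊥) (hmin : ∀ L : Subgroup G, L.Normal → L ≤ M → L = ⊥ ∨ L = M) (hab : IsMulCommutative M) (htrans : MulAction.IsPretransitive M α) : Subgroup.centralizer ((M.map G.subtype : Subgroup (Equiv.Perm α)) : Set (Equiv.Perm α)) = M.map G.subtype ∧ (∀ a : α, MulAction.stabilizer M a = ⊥) ∧ (∃ p : ℕ, p.Prime ∧ ∀ m ∈ M, m ^ p = 1) ∧ ∀ L : Subgroup G, L.Normal → L ≠ ⊥ → (∀ L' : Subgroup G, L'.Normal → L' ≤ L → L' = ⊥ ∨ L' = L) → L = M := by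
  rcases isEmpty_or_nonempty α with hα | hα
  · exact absurd (Subsingleton.elim _ _) hM
  have hM' := Lib.Perm.isPretransitive_map_subtype htrans
  refine ⟨Lib.Perm.centralizer_eq_of_transitive hM' hM' (Subgroup.le_centralizer _),
    Lib.Perm.stabilizer_eq_bot_of_comm htrans, Lib.Perm.elementary_of_minimal_normal hM hmin,
    fun L hL hL1 hLmin => ?_⟩
  by_cases h : M ≤ L
  · exact ((hLmin M inferInstance h).resolve_left hM).symm
  have h1 := Lib.Perm.le_centralizer_of_minimal_normal hmin h
  rw [Lib.Perm.centralizer_eq_of_transitive htrans htrans (Subgroup.le_centralizer _)] at h1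
  exact (hmin L hL h1).resolve_left hL1

end Cfsg.Agent.S0703
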