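import Cfsg.Statements.S0704
import Cfsg.Agent.Lib.Perm.Centralizer

set_option autoImplicit false
open Cfsg

namespace Cfsg.Agent.S0704

theorem aux {G : Type*} [Group G] {H : Subgroup G} {M N : Subgroup H}
    (h : N ≤ Subgroup.centralizer (M : Set H)) :
    N.map H.subtype ≤ Subgroup.centralizer ((M.map H.subtype : Subgroup G) : Set G) := by
  rintro _ ⟨n, hn, rfl⟩ _ ⟨m, hm, rfl⟩
  exact congrArg Subtype.val (h hn m hm)

/-- Two distinct transitive minimal normal subgroups `M`, `N` of a permutation group are regular, non-abelian, isomorphic, each other's centraliser in the symmetric group, and the only minimal normal subgroups. -/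
theorem result {α : Type*} (G : Subgroup (Equiv.Perm α)) (M N : Subgroup G) [M.Normal] [N.Normal] (hM : M ≠ ⊥) (hN : N ≠ ⊥) (hMmin : ∀ L : Subgroup G, L.Normal → L ≤ M → L = ⊥ ∨ L = M) (hNmin : ∀ L : Subgroup G, L.Normal → L ≤ N → L = ⊥ ∨ L = N) (hMN : M ≠ N) (hMt : MulAction.IsPretransitive M α) (hNt : MulAction.IsPretransitive N α) : (∀ a : α, MulAction.stabilizer M a = ⊥) ∧ (∀ a : α, MulAction.stabilizer N a = ⊥) ∧ ¬ IsMulCommutative M ∧ Nonempty (M ≃* N) ∧ Subgroup.centralizer ((M.map G.subtype : Subgroup (Equiv.Perm α)) : Set (Equiv.Perm α)) = N.map G.subtype ∧ Subgroup.centralizer ((N.map G.subtype : Subgroup (Equiv.Perm α)) : Set (Equiv.Perm α)) = M.map G.subtype ∧ ∀ L : Subgroup G, L.Normal → L ≠ ⊥ → (∀ L' : Subgroup G, L'.Normal → L' ≤ L → L' = ⊥ ∨ L' = L) → L = M ∨ L = N := by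
  rcases isEmpty_or_nonempty α with hα | hα
  · exact absurd (Subsingleton.elim _ _) hM
  have hMN' : ¬ M ≤ N := fun h => hMN ((hNmin M inferInstance h).resolve_left hM)
  have hNM' : ¬ N ≤ M := fun h => hMN ((hMmin N inferInstance h).resolve_left hN).symm
  have h1 := Lib.Perm.le_centralizer_of_minimal_normal hMmin hMN'
  have h2 := Lib.Perm.le_centralizer_of_minimal_normal hNmin hNM'
  have hcM := Lib.Perm.centralizer_eq_of_transitive hMt hNt h1
  have hMr := Lib.Perm.stabilizer_eq_bot_of_le_centralizer hNt h2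
  have hNr := Lib.Perm.stabilizer_eq_bot_of_le_centralizer hMt h1
  have hM' := Lib.Perm.isPretransitive_map_subtype hMt
  have hN' := Lib.Perm.isPretransitive_map_subtype hNt
  refine ⟨hMr, hNr, fun hab => hMN' (hcM ▸ Subgroup.le_centralizer M), ?_,
    Lib.Perm.centralizer_eq_of_transitive hM' hN' (aux h1),
    Lib.Perm.centralizer_eq_of_transitive hN' hM' (aux h2), fun L hL hL1 hLmin => ?_⟩
  · obtain ⟨a⟩ := hα
    have bM := Lib.Perm.bijective_smul_of_regular hMt hMr a
    have bN := Lib.Perm.bijective_smul_of_regular hNt hNr a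
    let e : M ≃ N := (Equiv.inv M).trans ((Equiv.ofBijective _ bM).trans (Equiv.ofBijective _ bN).symm)
    have he : ∀ m : M, ((e m : N) : G) • a = (m : G)⁻¹ • a := fun m =>
      Equiv.ofBijective_apply_symm_apply _ bN _
    refine ⟨⟨e, fun x y => bN.1 ?_⟩⟩
    change ((e (x * y) : N) : G) • a = ((e x : G) * (e y : G)) • a
    rw [he, mul_smul, he, ← mul_smul (e x : G), ← h1 (e x).2 _ (M.inv_mem y.2), mul_smul, he,
      ← mul_smul]
    simp
  · by_cases h : M ≤ L
    · exact Or.inl ((hLmin M inferInstance h).resolve_left hM).symm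
    have h3 := Lib.Perm.le_centralizer_of_minimal_normal hMmin h
    rw [hcM] at h3
    exact Or.inr ((hNmin L hL h3).resolve_left hL1)

end Cfsg.Agent.S0704
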