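import Cfsg.Statements.S0705
import Cfsg.Agent.Lib.Perm.Basic

set_option autoImplicit false
open scoped Pointwise
open Cfsg

namespace Cfsg.Agent.S0705

/-- A generously `k`-transitive permutation group (every `(k+1)`-subset has its full symmetric group induced by the setwise stabiliser) of degree greater than `k` is `k`-transitive, and for a `k`-subset the setwise and pointwise stabilisers have the same orbits outside it. -/
theorem result {α : Type*} [Fintype α] [DecidableEq α] (G : Subgroup (Equiv.Perm α)) {k : ℕ} (hk : k < Fintype.card α) (hgen : ∀ s : Finset α, s.card = k + 1 → ∀ σ : Equiv.Perm ↥s, ∃ g ∈ G, ∀ x : ↥s, g (x : α) = σ x) : MulAction.IsMultiplyPretransitive G α k ∧ ∀ s : Finset α, s.card = k → ∀ a b : α, a ∉ s → b ∉ s → (∃ g ∈ G, g • s = s ∧ g a = b) → ∃ g ∈ G, (∀ x ∈ s, g x = x) ∧ g a = b := by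
  constructor
  · have hswap : ∀ (a b : α) (t : Finset α), t.card = k → a ∈ t →
        ∃ g ∈ G, ∀ x ∈ t, g x = Equiv.swap a b x := by
      intro a b t ht ha
      obtain ⟨s, hs1, hs2⟩ := Finset.exists_superset_card_eq (s := insert b t) (n := k + 1)
        ((Finset.card_insert_le _ _).trans (by omega)) hk
      have has : a ∈ s := hs1 (Finset.mem_insert_of_mem ha)
      have hbs : b ∈ s := hs1 (Finset.mem_insert_self _ _)
      obtain ⟨g, hg, hg'⟩ := hgen s hs2 (Equiv.swap ⟨a, has⟩ ⟨b, hbs⟩)
      refine ⟨g, hg, fun x hx => ?_⟩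
      rw [hg' ⟨x, hs1 (Finset.mem_insert_of_mem hx)⟩]
      simp only [Equiv.swap_apply_def, Subtype.ext_iff]
      split_ifs <;> rfl
    have key : ∀ (σ : Equiv.Perm α) (t : Finset α), t.card = k → ∃ g ∈ G, ∀ x ∈ t, g x = σ x := by
      intro σ
      induction σ using Equiv.Perm.swap_induction_on with
      | one => exact fun t _ => ⟨1, G.one_mem, fun _ _ => rfl⟩
      | swap_mul f a b hab ih =>
        intro t ht
        obtain ⟨g, hg, hg'⟩ := ih t ht
        have ht' : (t.image f).card = k := by rw [Finset.card_image_of_injective _ f.injective, ht]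
        have : ∃ h ∈ G, ∀ x ∈ t.image f, h x = Equiv.swap a b x := by
          by_cases ha : a ∈ t.image f
          · exact hswap a b _ ht' ha
          by_cases hb : b ∈ t.image f
          · rw [Equiv.swap_comm]; exact hswap b a _ ht' hb
          refine ⟨1, G.one_mem, fun x hx => ?_⟩
          rw [Equiv.swap_apply_of_ne_of_ne (by rintro rfl; exact ha hx) (by rintro rfl; exact hb hx)]
          rfl
        obtain ⟨h, hh, hh'⟩ := this
        refine ⟨h * g, G.mul_mem hh hg, fun x hx => ?_⟩
        simp only [Equiv.Perm.coe_mul, Function.comp_apply, hg' x hx]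
        exact hh' _ (Finset.mem_image_of_mem _ hx)
    rw [Lib.Perm.mt_iff_finset]
    intro s hs f hf
    obtain ⟨σ, hσ⟩ := Lib.Perm.mt_iff_finset.1 (Equiv.Perm.isMultiplyPretransitive α k) s hs f hf
    obtain ⟨g, hg, hg'⟩ := key σ s hs
    exact ⟨⟨g, hg⟩, fun a ha => (hg' a ha).trans (hσ a ha)⟩
  · intro s hs a b ha hb ⟨g, hg, hgs, hga⟩
    -- the permutation of `insert a s` induced by `g⁻¹` on `s`
    have hmem : ∀ x : α, x ∈ s ↔ g x ∈ s := by
      intro x
      conv_rhs => rw [← hgs]
      exact Finset.smul_mem_smul_finset_iff (a := g) |>.symm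
    let f : α → α := fun x => if x ∈ s then g⁻¹ x else x
    have hf : ∀ x : ↥(insert a s), f x ∈ insert a s := by
      rintro ⟨x, hx⟩
      by_cases h : x ∈ s
      · simp only [f, h, if_true]
        exact Finset.mem_insert_of_mem ((hmem _).2 (by simpa using h))
      · simpa [f, h] using hx
    have hinj : Function.Injective (fun x : ↥(insert a s) => (⟨f x, hf x⟩ : ↥(insert a s))) := by
      rintro ⟨x, hx⟩ ⟨y, hy⟩ hxy
      have hxy' : f x = f y := congrArg Subtype.val hxy
      apply Subtype.ext
      by_cases h1 : x ∈ s <;> by_cases h2 : y ∈ s <;> simp only [f, h1, h2, if_true, if_false] at hxy'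
      · exact g⁻¹.injective hxy'
      · exact absurd (hxy' ▸ (hmem _).2 (by simpa using h1)) h2
      · exact absurd (hxy' ▸ (hmem _).2 (by simpa using h2)) h1
      · exact hxy'
    obtain ⟨h, hh, hh'⟩ := hgen (insert a s) (by simp [ha, hs])
      (Equiv.ofBijective _ (Finite.injective_iff_bijective.1 hinj))
    refine ⟨g * h, G.mul_mem hg hh, fun x hx => ?_, ?_⟩
    · have := hh' ⟨x, Finset.mem_insert_of_mem hx⟩
      simp only [Equiv.ofBijective_apply, f, hx, if_true] at this
      simp [this]
    · have := hh' ⟨a, Finset.mem_insert_self _ _⟩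
      simp only [Equiv.ofBijective_apply, f, ha, if_false] at this
      simp [this, hga]

end Cfsg.Agent.S0705
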