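import Cfsg.Statements.S0706
import Cfsg.Agent.Lib.Perm.Witt
import Cfsg.Agent.S0705

set_option autoImplicit false
open Cfsg

namespace Cfsg.Agent.S0706

/-- In a generously `k`-transitive permutation group, for a prime `p ≤ k` and a `k`-set `Γ`, there are no `p` points outside `Γ` lying in distinct orbits of the pointwise stabiliser of `Γ` all of length prime to `p` (at most `p - 1` such orbits). -/
theorem result {α : Type*} [Fintype α] [DecidableEq α] (G : Subgroup (Equiv.Perm α)) {k : ℕ} (hk : k < Fintype.card α) (hgen : ∀ s : Finset α, s.card = k + 1 → ∀ σ : Equiv.Perm ↥s, ∃ g ∈ G, ∀ x : ↥s, g (x : α) = σ x) {p : ℕ} (hp : p.Prime) (hpk : p ≤ k) (Γ : Finset α) (hΓ : Γ.card = k) (f : Fin p → α) (hf : ∀ i, f i ∉ Γ) (hdist : ∀ i j, i ≠ j → f j ∉ MulAction.orbit (fixingSubgroup G (Γ : Set α)) (f i)) : ∃ i, p ∣ Nat.card (MulAction.orbit (fixingSubgroup G (Γ : Set α)) (f i)) := by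
  by_contra hcon
  push Not at hcon
  have := Fact.mk hp
  have hkt := (S0705.result G hk hgen).1
  obtain ⟨T, hTΓ, hT⟩ := Finset.exists_subset_card_eq (s := Γ) (n := p) (by omega)
  obtain ⟨σ, hσ, hσT⟩ := T.exists_cycleOn
  have hσfix : ∀ x, x ∉ T → σ x = x := fun x hx => Equiv.Perm.notMem_support.1 fun h => hx (hσT h)
  have hσΓ : ∀ (n : ℤ), ∀ x ∈ Γ, (σ ^ n) x ∈ Γ := by
    intro n x hx
    by_cases h : x ∈ T
    · exact hTΓ (hσ.1.perm_zpow n |>.1 h)
    · rw [Equiv.Perm.zpow_apply_eq_self_of_apply_eq_self (hσfix x h)]; exact hx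
  set K := fixingSubgroup G (Γ : Set α) with hK
  let H : Subgroup G :=
    { carrier := {g | ∃ n : ℤ, ∀ x ∈ Γ, g • x = (σ ^ n) x}
      one_mem' := ⟨0, fun x _ => rfl⟩
      mul_mem' := by
        rintro g h ⟨m, hm⟩ ⟨n, hn⟩
        exact ⟨m + n, fun x hx => by rw [mul_smul, hn x hx, hm _ (hσΓ n x hx), zpow_add]; rfl⟩
      inv_mem' := by
        rintro g ⟨m, hm⟩
        refine ⟨-m, fun x hx => ?_⟩
        rw [inv_smul_eq_iff, hm _ (hσΓ (-m) x hx)]
        simp }
  -- an element of `H` inducing `σ ^ n` and fixing a given point outside `Γ`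
  have hind : ∀ (n : ℤ) (d : α), d ∉ Γ → ∃ g : G, (∀ x ∈ Γ, g • x = (σ ^ n) x) ∧ g • d = d := by
    intro n d hd
    have hd' : (σ ^ n) d = d :=
      Equiv.Perm.zpow_apply_eq_self_of_apply_eq_self (hσfix d fun h => hd (hTΓ h)) n
    have hinv : ∀ x, (σ ^ n) x ∈ insert d Γ ↔ x ∈ insert d Γ := by
      intro x
      simp only [Finset.mem_insert]
      constructor
      · rintro (h | h)
        · exact Or.inl ((σ ^ n).injective (h.trans hd'.symm))
        · exact Or.inr (by simpa using hσΓ (-n) _ h)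
      · rintro (rfl | h)
        · exact Or.inl hd'
        · exact Or.inr (hσΓ n x h)
    obtain ⟨g, hg, hg'⟩ := hgen (insert d Γ) (by rw [Finset.card_insert_of_notMem hd, hΓ])
      ((σ ^ n).subtypePerm hinv)
    exact ⟨⟨g, hg⟩, fun x hx => hg' ⟨x, Finset.mem_insert_of_mem hx⟩,
      (hg' ⟨d, Finset.mem_insert_self _ _⟩).trans hd'⟩
  have hKH : K ≤ H := fun g hg => ⟨0, fun x hx => Lib.Perm.mem_fixing_iff.1 hg x hx⟩
  obtain ⟨t, ht⟩ : T.Nonempty := Finset.card_pos.1 (hT ▸ hp.pos)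
  have hcardH : Nat.card H = p * Nat.card K := by
    rw [Lib.Perm.card_eq_card_orbit_mul (G := H) t]
    congr 1
    · have : MulAction.orbit H t = (T : Set α) := by
        ext y
        constructor
        · rintro ⟨⟨g, n, hn⟩, rfl⟩
          change g • t ∈ (T : Set α)
          rw [hn t (hTΓ ht)]
          exact (hσ.1.perm_zpow n).1 ht
        · intro hy
          obtain ⟨n, hn⟩ := hσ.2 ht hy
          obtain ⟨g, hg, -⟩ := hind n (f ⟨0, hp.pos⟩) (hf _)
          exact ⟨⟨g, n, hg⟩, (hg t (hTΓ ht)).trans hn⟩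
      rw [this, Nat.card_coe_set_eq, Set.ncard_coe_finset, hT]
    · have : MulAction.stabilizer H t = K.subgroupOf H := by
        ext ⟨g, n, hn⟩
        rw [Subgroup.mem_subgroupOf, MulAction.mem_stabilizer_iff, Lib.Perm.mem_fixing_iff]
        refine ⟨fun h x hx => ?_, fun h => h t (hTΓ ht)⟩
        have h1 : (σ ^ n) t = t := (hn t (hTΓ ht)).symm.trans h
        rw [hn x hx]
        by_cases hxT : x ∈ T
        · obtain ⟨m, rfl⟩ := hσ.2 ht hxT
          rw [← Equiv.Perm.mul_apply, ← zpow_add, add_comm, zpow_add, Equiv.Perm.mul_apply, h1]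
        · exact Equiv.Perm.zpow_apply_eq_self_of_apply_eq_self (hσfix x hxT) n
      rw [this, Nat.card_congr (Subgroup.subgroupOfEquivOfLe hKH).toEquiv]
  obtain ⟨Q, -, hQH, hQ, hQi⟩ := Lib.Transfer.exists_sylowIn_ge (p := p) (H := H)
    IsPGroup.of_bot bot_le
  have hfix : ∀ i, ∃ x ∈ MulAction.orbit K (f i), ∀ u ∈ Q, u • x = x := by
    intro i
    refine Lib.Perm.exists_fixed_of_not_dvd hQ ?_ (hcon i)
    rintro u hu _ ⟨y, rfl⟩
    obtain ⟨n, hn⟩ := H.mul_mem (hQH hu) (hKH y.2)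
    obtain ⟨g, hg1, hg2⟩ := hind n (f i) (hf i)
    refine ⟨⟨u * y * g⁻¹, Lib.Perm.mem_fixing_iff.2 fun x hx => ?_⟩, ?_⟩
    · have h1 : g⁻¹ • x = (σ ^ (-n)) x := by
        rw [inv_smul_eq_iff, hg1 _ (hσΓ _ x hx)]; simp
      rw [mul_smul, h1, hn _ (hσΓ _ x hx)]; simp
    · change (u * y * g⁻¹) • f i = u • (y : G) • f i
      rw [mul_smul, mul_smul, inv_smul_eq_iff.2 hg2.symm]
  choose d hd1 hd2 using hfix
  have hdΓ : ∀ i, d i ∉ Γ := by
    intro i hi
    obtain ⟨y, hy⟩ := hd1 i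
    have h1 : (y : G) • f i = d i := hy
    rw [← Lib.Perm.mem_fixing_iff.1 y.2 _ hi, smul_left_cancel_iff] at h1
    exact hf i (h1 ▸ hi)
  have hdinj : Function.Injective d := by
    intro i j hij
    by_contra hne
    apply hdist i j hne
    rw [← MulAction.orbit_eq_iff.2 (hd1 i), hij]
    exact MulAction.mem_orbit_symm.1 (hd1 j)
  have hΓ' : (Γ \ T ∪ Finset.univ.image d).card = k := by
    rw [Finset.card_union_of_disjoint, Finset.card_sdiff_of_subset hTΓ,
      Finset.card_image_of_injective _ hdinj, hΓ, hT]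
    · simp; omega
    · rw [Finset.disjoint_right]
      intro x hx hx'
      obtain ⟨i, -, rfl⟩ := Finset.mem_image.1 hx
      exact hdΓ i (Finset.mem_sdiff.1 hx').1
  have hQle : Q ≤ fixingSubgroup G ((Γ \ T ∪ Finset.univ.image d : Finset α) : Set α) := by
    intro u hu
    rw [Lib.Perm.mem_fixing_iff]
    intro x hx
    rcases Finset.mem_union.1 hx with hx | hx
    · obtain ⟨n, hn⟩ := hQH hu
      rw [Finset.mem_sdiff] at hx
      rw [hn x hx.1, Equiv.Perm.zpow_apply_eq_self_of_apply_eq_self (hσfix x hx.2) n]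
    · obtain ⟨i, -, rfl⟩ := Finset.mem_image.1 hx
      exact hd2 i u hu
  have h1 := Subgroup.card_dvd_of_le hQle
  rw [Lib.Perm.card_fixing_eq hkt hΓ' hΓ, ← hK] at h1
  obtain ⟨c, hc⟩ := h1
  have h2 := Lib.Transfer.card_mul_relIndex hQH
  rw [hcardH, hc, mul_left_comm] at h2
  exact hQi ⟨c, Nat.eq_of_mul_eq_mul_left Nat.card_pos h2⟩

end Cfsg.Agent.S0706
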