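import Cfsg.Statements.S0707
import Cfsg.Agent.Lib.Perm.Basic

set_option autoImplicit false
open Cfsg

namespace Cfsg.Agent.S0707

/-- In a primitive permutation group, distinct points have distinct stabilisers unless the group is regular of prime degree. -/
theorem result {α : Type*} (G : Subgroup (Equiv.Perm α)) [MulAction.IsPreprimitive G α] (h : ¬ (Nat.card α).Prime ∨ ∃ a : α, MulAction.stabilizer G a ≠ ⊥) {a b : α} (hab : a ≠ b) : MulAction.stabilizer G a ≠ MulAction.stabilizer G b := by
  intro hst
  have : Nontrivial α := ⟨a, b, hab⟩
  -- the points with the same stabiliser as `a` form a block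
  let B : Set α := {x | MulAction.stabilizer G x = MulAction.stabilizer G a}
  have hB : MulAction.IsBlock G B := by
    rw [MulAction.isBlock_iff_smul_eq_of_mem]
    intro g x hx hgx
    have h1 : ∀ y : α, MulAction.stabilizer G y = MulAction.stabilizer G x →
        MulAction.stabilizer G (g • y) = MulAction.stabilizer G (g • x) := by
      intro y hy
      rw [MulAction.stabilizer_smul_eq_stabilizer_map_conj,
        MulAction.stabilizer_smul_eq_stabilizer_map_conj, hy]
    have h2 : ∀ y : α, MulAction.stabilizer G (g • y) = MulAction.stabilizer G (g • x) →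
        MulAction.stabilizer G y = MulAction.stabilizer G x := by
      intro y hy
      rw [MulAction.stabilizer_smul_eq_stabilizer_map_conj,
        MulAction.stabilizer_smul_eq_stabilizer_map_conj] at hy
      exact Subgroup.map_injective (MulAut.conj g).injective hy
    ext y
    rw [Set.mem_smul_set_iff_inv_smul_mem]
    constructor
    · intro hy
      have := h1 (g⁻¹ • y) (hy.trans hx.symm)
      rw [smul_inv_smul] at this
      exact this.trans hgx
    · intro hy
      refine (h2 (g⁻¹ • y) ?_).trans hx
      rw [smul_inv_smul]
      exact hy.trans hgx.symm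
  have hBu : B = Set.univ := by
    refine hB.subsingleton_or_eq_univ.resolve_left fun hs => hab (hs ?_ ?_)
    · rfl
    · exact hst.symm
  have hbot : ∀ x : α, MulAction.stabilizer G x = ⊥ := by
    intro x
    rw [eq_bot_iff]
    intro g hg
    rw [Subgroup.mem_bot]
    ext y
    have hx : x ∈ B := hBu ▸ Set.mem_univ _
    have hy : y ∈ B := hBu ▸ Set.mem_univ _
    have : g ∈ MulAction.stabilizer G y := by rw [hy, ← hx]; exact hg
    exact this
  rcases h with h | ⟨x, hx⟩
  · apply h
    have hco : IsCoatom (⊥ : Subgroup G) := hbot a ▸
      MulAction.IsPreprimitive.isCoatom_stabilizer_of_isPreprimitive G a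
    have hso : IsSimpleOrder (Subgroup G) := isSimpleOrder_iff_isCoatom_bot.2 hco
    have hcard : Nat.card G = Nat.card α :=
      Nat.card_eq_of_bijective _ (Lib.Perm.bijective_smul_of_regular (N := G) inferInstance hbot a)
    rw [← hcard]
    have hnt : Nontrivial G := by
      rw [← Subgroup.nontrivial_iff]; infer_instance
    obtain ⟨g, hg⟩ := exists_ne (1 : G)
    have hcyc : IsCyclic G := by
      refine ⟨g, fun y => ?_⟩
      have : Subgroup.zpowers g = ⊤ := (eq_bot_or_eq_top _).resolve_left (by simpa using hg)
      have hy : y ∈ Subgroup.zpowers g := this ▸ Subgroup.mem_top _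
      exact hy
    have hs : IsSimpleGroup G := ⟨fun N _ => eq_bot_or_eq_top N⟩
    let _ : CommGroup G := IsCyclic.commGroup
    exact IsSimpleGroup.prime_card
  · exact hx (hbot x)

end Cfsg.Agent.S0707
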