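import Cfsg.Statements.S0708
import Cfsg.Agent.Lib.Perm.Hall4

set_option autoImplicit false
open Cfsg

namespace Cfsg.Agent.S0708

/-- Tits' argument: a sharply 4-transitive group (no finiteness assumed) has finite degree at most 11, and at most 6 when the degree is even. -/
theorem result {G : Type*} [Group G] {Ω : Type*} [MulAction G Ω] (h4 : MulAction.IsMultiplyPretransitive G Ω 4) (hsharp : ∀ x : Fin 4 ↪ Ω, MulAction.stabilizer G x = ⊥) (hne : Nonempty (Fin 4 ↪ Ω)) : Finite Ω ∧ Nat.card Ω ≤ 11 ∧ (Even (Nat.card Ω) → Nat.card Ω ≤ 6) := by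
  by_cases h : ∃ s : Finset Ω, s.card = 6
  · obtain ⟨s, hs⟩ := h
    obtain ⟨h1, h2⟩ := Lib.Perm.sharp_four_card h4 (Lib.Perm.sharp_four_iff.1 hsharp) s hs
    refine ⟨h1, by omega, fun he => ?_⟩
    rcases h2 with h2 | h2
    · omega
    · rw [h2] at he; exact absurd he (by decide)
  · have hfin : Finite Ω := by
      by_contra hinf
      rw [not_finite_iff_infinite] at hinf
      exact h (Infinite.exists_subset_card_eq Ω 6)
    have : Nat.card Ω < 6 := by
      by_contra hc
      exact h (Lib.Perm.exists_finset_card (by omega))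
    exact ⟨hfin, by omega, fun _ => by omega⟩

end Cfsg.Agent.S0708
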