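import Cfsg.Statements.S0709
import Cfsg.Agent.Lib.Perm.Basic

set_option autoImplicit false
open Cfsg

namespace Cfsg.Agent.S0709

/-- the chain of subgroups -/
def chain {Γ : Type*} [Group Γ] (H K : Subgroup Γ) (s : ℕ → Γ) : ℕ → Subgroup Γ
  | 0 => H
  | 1 => K
  | i + 2 => chain H K s (i + 1) ⊔ Subgroup.zpowers (s (i + 1))

theorem dc {Γ : Type*} [Group Γ] {A B : Subgroup Γ} (hBA : B ≤ A) {g h : Γ} (hg : g ∈ A)
    (hA : ∀ a ∈ A, a ∈ B ∨ ∃ b ∈ B, ∃ b' ∈ B, a = b * g * b') (hn : ∀ b ∈ B, h * b * h⁻¹ ∈ B)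
    (h2 : h ^ 2 ∈ B) (h3 : (g * h) ^ 3 ∈ B) {x : Γ} (hx : x ∈ A ⊔ Subgroup.zpowers h) :
    x ∈ A ∨ ∃ a ∈ A, ∃ a' ∈ A, x = a * h * a' := by
  have key : ∀ a ∈ A, h * a * h ∈ A ∨ ∃ c ∈ A, ∃ c' ∈ A, h * a * h = c * h * c' := by
    intro a ha
    rcases hA a ha with hb | ⟨b, hb, b', hb', rfl⟩
    · exact .inl (hBA (by convert B.mul_mem (hn a hb) h2 using 1; group))
    · refine .inr ⟨h * b * h⁻¹ * g⁻¹ * (g * h) ^ 3, A.mul_mem (A.mul_mem (hBA (hn b hb))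
        (A.inv_mem hg)) (hBA h3), (h ^ 2)⁻¹ * g⁻¹ * ((h ^ 2)⁻¹ * (h * b' * h⁻¹) * h ^ 2),
        A.mul_mem (A.mul_mem (A.inv_mem (hBA h2)) (A.inv_mem hg))
          (hBA (B.mul_mem (B.mul_mem (B.inv_mem h2) (hn b' hb')) h2)), ?_⟩
      simp only [pow_succ, pow_zero, one_mul]; group
  let S : Subgroup Γ :=
    { carrier := {x | x ∈ A ∨ ∃ a ∈ A, ∃ a' ∈ A, x = a * h * a'}
      one_mem' := .inl A.one_mem
      mul_mem' := by
        rintro x y (hx | ⟨a, ha, a', ha', rfl⟩) (hy | ⟨c, hc, c', hc', rfl⟩)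
        · exact .inl (A.mul_mem hx hy)
        · exact .inr ⟨x * c, A.mul_mem hx hc, c', hc', by group⟩
        · exact .inr ⟨a, ha, a' * y, A.mul_mem ha' hy, by group⟩
        · rcases key _ (A.mul_mem ha' hc) with h1 | ⟨d, hd, d', hd', h1⟩
          · exact .inl (by convert A.mul_mem (A.mul_mem ha h1) hc' using 1; group)
          · exact .inr ⟨a * d, A.mul_mem ha hd, d' * c', A.mul_mem hd' hc', by
              calc _ = a * (h * (a' * c) * h) * c' := by group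
                _ = _ := by rw [h1]; group⟩
      inv_mem' := by
        rintro x (hx | ⟨a, ha, a', ha', rfl⟩)
        · exact .inl (A.inv_mem hx)
        · exact .inr ⟨a'⁻¹, A.inv_mem ha', (h ^ 2)⁻¹ * a⁻¹,
            A.mul_mem (A.inv_mem (hBA h2)) (A.inv_mem ha), by group⟩ }
  exact (sup_le (fun a ha => .inl ha) (Subgroup.zpowers_le.2
    (.inr ⟨1, A.one_mem, 1, A.one_mem, by simp⟩)) : A ⊔ Subgroup.zpowers h ≤ S) hx

/-- Witt's Lemma for constructing transitive extensions. Points `q 1, …, q t` (`t ≥ 2`) of a finite set are given; `G` fixes `q i` for `i ≥ 3` and is doubly transitive on the remaining points; `s 1 ∈ G` swaps `q 1, q 2`; for `2 ≤ i ≤ t-1`, `s i` swaps `q i, q (i+1)` and fixes the other `q j`; with `H` the stabiliser of `q 1, q 2` in `G`: `s i ^ 2 ∈ H`, `(s i * s (i+1)) ^ 3 ∈ H`, `(s i * s j) ^ 2 ∈ H` for `j ≥ i + 2`, and `s i` (`i ≥ 2`) normalises the stabiliser of `q 2` in `G`. Then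 `G` and the `s i` generate a `t`-transitive group whose pointwise stabiliser of the `q`'s is `H`. -/
theorem result {α : Type*} [Fintype α] [DecidableEq α] (t : ℕ) (ht : 2 ≤ t) (q : ℕ → α) (hq : ∀ i j : ℕ, 1 ≤ i → i ≤ t → 1 ≤ j → j ≤ t → q i = q j → i = j) (G : Subgroup (Equiv.Perm α)) (hfix : ∀ g ∈ G, ∀ i : ℕ, 3 ≤ i → i ≤ t → g (q i) = q i) (h2 : ∀ a b c d : α, (∀ i, 3 ≤ i → i ≤ t → a ≠ q i ∧ b ≠ q i ∧ c ≠ q i ∧ d ≠ q i) → a ≠ b → c ≠ d → ∃ g ∈ G, g a = c ∧ g b = d) (s : ℕ → Equiv.Perm α) (hs1 : s 1 ∈ G) (hs1q : s 1 (q 1) = q 2 ∧ s 1 (q 2) = q 1) (hsq : ∀ i : ℕ, 2 ≤ i → i + 1 ≤ t → s i (q i) = q (i + 1) ∧ s i (q (i + 1)) = q i ∧ ∀ j : ℕ, 1 ≤ j → j ≤ t → j ≠ i → j ≠ i + 1 → s i (q j) = q j) (H : Subgroup (Equiv.Perm α)) (hH : H = G ⊓ MulAction.stabilizer (Equiv.Perm α) (q 1) ⊓ MulAction.stabilizer (Equiv.Perm α) (q 2)) (hsq2 : ∀ i : ℕ, 1 ≤ i → i + 1 ≤ t → s i ^ 2 ∈ H) (hbraid : ∀ i : ℕ, 1 ≤ i → i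 + 2 ≤ t → (s i * s (i + 1)) ^ 3 ∈ H) (hcomm : ∀ i j : ℕ, 1 ≤ i → i + 2 ≤ j → j + 1 ≤ t → (s i * s j) ^ 2 ∈ H ∧ (s j * s i) ^ 2 ∈ H) (hnorm : ∀ i : ℕ, 2 ≤ i → i + 1 ≤ t → ∀ g ∈ G ⊓ MulAction.stabilizer (Equiv.Perm α) (q 2), s i * g * (s i)⁻¹ ∈ G ⊓ MulAction.stabilizer (Equiv.Perm α) (q 2)) : MulAction.IsMultiplyPretransitive ↥(Subgroup.closure ((G : Set (Equiv.Perm α)) ∪ {x | ∃ i : ℕ, 2 ≤ i ∧ i + 1 ≤ t ∧ x = s i})) α t ∧ Subgroup.closure ((G : Set (Equiv.Perm α)) ∪ {x | ∃ i : ℕ, 2 ≤ i ∧ i + 1 ≤ t ∧ x = s i}) ⊓ fixingSubgroup (Equiv.Perm α) {x | ∃ i : ℕ, 1 ≤ i ∧ i ≤ t ∧ x = q i} = H := by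
  set K := chain H (G ⊓ MulAction.stabilizer (Equiv.Perm α) (q 2)) s with hK
  have hK2 : ∀ i, K (i + 2) = K (i + 1) ⊔ Subgroup.zpowers (s (i + 1)) := fun i => rfl
  have hmono : Monotone K := monotone_nat_of_le_succ fun i => by
    cases i with
    | zero => exact hH.le.trans (inf_le_inf_right _ inf_le_left)
    | succ i => exact le_sup_left
  have hH0 : ∀ i, H ≤ K i := fun i => hmono (Nat.zero_le i)
  have hsK : ∀ i, s (i + 1) ∈ K (i + 2) := fun i =>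
    (le_sup_right : _ ≤ K (i + 2)) (Subgroup.mem_zpowers _)
  have hne : ∀ i j, 1 ≤ i → i < j → j ≤ t → q i ≠ q j := fun i j h1 h2 h3 e =>
    h2.ne (hq i j h1 (by omega) (by omega) h3 e)
  have hG' : ∀ g ∈ G, ∀ a, (∀ i, 3 ≤ i → i ≤ t → a ≠ q i) → ∀ i, 3 ≤ i → i ≤ t → g a ≠ q i :=
    fun g hg a ha i h1 h2 e => ha i h1 h2 (g.injective (e.trans (hfix g hg i h1 h2).symm))
  have hq1 : ∀ i, 3 ≤ i → i ≤ t → q 1 ≠ q i := fun i h1 h2 => hne 1 i le_rfl (by omega) h2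
  have hq2 : ∀ i, 3 ≤ i → i ≤ t → q 2 ≠ q i := fun i h1 h2 => hne 2 i (by omega) (by omega) h2
  have h12 : q 1 ≠ q 2 := hne 1 2 le_rfl (by omega) ht
  have hKG : K 2 = G := by
    refine le_antisymm (sup_le inf_le_left (Subgroup.zpowers_le.2 hs1)) fun g hg => ?_
    by_cases h : g (q 2) = q 2
    · exact hmono (by omega : 1 ≤ 2) ⟨hg, h⟩
    obtain ⟨b, hb, h3, h4⟩ := h2 (q 2) (q 1) (q 2) (g (q 2))
      (fun i h1 h2 => ⟨hq2 i h1 h2, hq1 i h1 h2, hq2 i h1 h2, hG' g hg _ hq2 i h1 h2⟩) h12.symm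
      (Ne.symm h)
    have h5 : (b * s 1)⁻¹ * g ∈ K 1 := ⟨G.mul_mem (G.inv_mem (G.mul_mem hb hs1)) hg, by
      change (b * s 1)⁻¹ (g (q 2)) = q 2
      rw [Equiv.Perm.inv_eq_iff_eq, Equiv.Perm.mul_apply, hs1q.2, h4]⟩
    have := (K 2).mul_mem ((K 2).mul_mem (hmono (by omega : 1 ≤ 2) (show b ∈ K 1 from ⟨hb, h3⟩))
      (hsK 0)) (hmono (by omega : 1 ≤ 2) h5)
    rwa [mul_inv_cancel_left] at this
  have hsw : ∀ i, 1 ≤ i → i + 1 ≤ t → s i (q i) = q (i + 1) ∧ s i (q (i + 1)) = q i ∧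
      ∀ j, i + 1 < j → j ≤ t → s i (q j) = q j := fun i h1 h3 => by
    by_cases hi : i = 1
    · subst hi; exact ⟨hs1q.1, hs1q.2, fun j h4 h5 => hfix _ hs1 j h4 h5⟩
    · obtain ⟨e1, e2, e3⟩ := hsq i (by omega) h3
      exact ⟨e1, e2, fun j h4 h5 => e3 j (by omega) h5 (by omega) (by omega)⟩
  have hA : ∀ i, i + 1 ≤ t → ∀ j, i + 1 < j → j ≤ t →
      K (i + 1) ≤ MulAction.stabilizer (Equiv.Perm α) (q j) := by
    intro i
    induction i with
    | zero =>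
      intro _ j h1 h3 g hg
      by_cases hj : j = 2
      · subst hj; exact hg.2
      · exact hfix g hg.1 j (by omega) h3
    | succ i ih =>
      intro h j h1 h3
      exact sup_le (ih (by omega) j (by omega) h3)
        (Subgroup.zpowers_le.2 ((hsw (i + 1) (by omega) h).2.2 j h1 h3))
  have hN : ∀ i, i + 1 ≤ t → ∀ j, j + 2 ≤ i → ∀ b ∈ K (j + 1), s i * b * (s i)⁻¹ ∈ K (j + 1) := by
    intro i hi j
    induction j with
    | zero => exact fun h => hnorm i h hi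
    | succ j ih =>
      intro h
      refine (sup_le (fun b hb => hmono (Nat.le_succ _) (ih (by omega) b hb))
        (Subgroup.zpowers_le.2 ?_) : K (j + 2) ≤ (K (j + 2)).comap (MulAut.conj (s i)).toMonoidHom)
      have := (K (j + 2)).mul_mem ((K (j + 2)).mul_mem
        (hH0 _ (hcomm (j + 1) i (by omega) (by omega) hi).2) ((K (j + 2)).inv_mem (hsK j)))
        ((K (j + 2)).inv_mem (hH0 _ (hsq2 i (by omega) hi)))
      change s i * s (j + 1) * (s i)⁻¹ ∈ K (j + 2)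
      convert this using 1
      simp only [pow_succ, pow_zero, one_mul]; group
  have hBC : ∀ i, i + 2 ≤ t →
      (∀ a, (∀ j, i + 1 < j → j ≤ t → a ≠ q j) → ∃ g ∈ K (i + 1), g (q (i + 1)) = a) ∧
      (∀ a, (∀ j, i + 2 < j → j ≤ t → a ≠ q j) → ∃ g ∈ K (i + 2), g (q (i + 2)) = a) ∧
      ∀ g ∈ K (i + 2), g (q (i + 2)) = q (i + 2) → g ∈ K (i + 1) := by
    have hB : ∀ i, i + 2 ≤ t →
        (∀ a, (∀ j, i + 1 < j → j ≤ t → a ≠ q j) → ∃ g ∈ K (i + 1), g (q (i + 1)) = a) →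
        ∀ a, (∀ j, i + 2 < j → j ≤ t → a ≠ q j) → ∃ g ∈ K (i + 2), g (q (i + 2)) = a := by
      intro i hi h a ha
      by_cases e : a = q (i + 2)
      · exact ⟨1, one_mem _, e.symm⟩
      obtain ⟨g, hg, rfl⟩ := h a fun j h1 h3 => by
        by_cases hj : j = i + 2
        · rwa [hj]
        · exact ha j (by omega) h3
      exact ⟨g * s (i + 1), mul_mem (hmono (Nat.le_succ _) hg) (hsK i), by
        rw [Equiv.Perm.mul_apply, (hsw (i + 1) (by omega) hi).2.1]⟩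
    intro i
    induction i with
    | zero =>
      intro hi
      have h0 : ∀ a, (∀ j, 0 + 1 < j → j ≤ t → a ≠ q j) → ∃ g ∈ K (0 + 1), g (q (0 + 1)) = a := by
        intro a ha
        obtain ⟨b, hb, h3, h4⟩ := h2 (q 2) (q 1) (q 2) a
          (fun i h1 h2 => ⟨hq2 i h1 h2, hq1 i h1 h2, hq2 i h1 h2, ha i (by omega) h2⟩) h12.symm
          (ha 2 (by omega) ht).symm
        exact ⟨b, ⟨hb, h3⟩, h4⟩
      exact ⟨h0, hB 0 hi h0, fun g hg e => ⟨hKG ▸ hg, e⟩⟩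
    | succ i ih =>
      intro hi
      obtain ⟨h1, h3, h4⟩ := ih (by omega)
      refine ⟨h3, hB _ hi h3, fun g hg e => ?_⟩
      have hmv : ∀ a ∈ K (i + 2), ∀ j, i + 2 < j → j ≤ t → a (q (i + 2)) ≠ q j :=
        fun a ha j h5 h6 e => hne (i + 2) j (by omega) h5 h6
          (a.injective (e.trans (hA (i + 1) (by omega) j h5 h6 ha).symm))
      have hdc : ∀ a ∈ K (i + 2), a ∈ K (i + 1) ∨
          ∃ b ∈ K (i + 1), ∃ b' ∈ K (i + 1), a = b * s (i + 1) * b' := by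
        intro a ha
        by_cases h : a (q (i + 2)) = q (i + 2)
        · exact .inl (h4 a ha h)
        obtain ⟨b, hb, e⟩ := h1 (a (q (i + 2))) fun j h5 h6 => by
          by_cases hj : j = i + 2
          · rwa [hj]
          · exact hmv a ha j (by omega) h6
        refine .inr ⟨b, hb, (b * s (i + 1))⁻¹ * a, h4 _ (mul_mem (inv_mem (mul_mem
          (hmono (Nat.le_succ _) hb) (hsK i))) ha) ?_, by group⟩
        rw [Equiv.Perm.mul_apply, Equiv.Perm.inv_eq_iff_eq, Equiv.Perm.mul_apply,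
          (hsw (i + 1) (by omega) (by omega)).2.1, e]
      rcases dc (hmono (Nat.le_succ (i + 1))) (hsK i) hdc (hN (i + 2) hi i le_rfl)
        (hH0 _ (hsq2 (i + 2) (by omega) hi)) (hH0 _ (hbraid (i + 1) (by omega) hi)) hg with
        h | ⟨a, ha, a', ha', rfl⟩
      · exact h
      · exfalso
        refine hmv a ha (i + 3) (by omega) hi (Eq.trans ?_ e)
        rw [Equiv.Perm.mul_apply, Equiv.Perm.mul_apply,
          show a' (q (i + 1 + 2)) = q (i + 2 + 1) from hA (i + 1) (by omega) (i + 3) (by omega) hi ha',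
          (hsw (i + 2) (by omega) hi).2.1]
  have hB : ∀ i, i + 1 ≤ t →
      ∀ a, (∀ j, i + 1 < j → j ≤ t → a ≠ q j) → ∃ g ∈ K (i + 1), g (q (i + 1)) = a := by
    rintro (_ | i) hi
    · exact (hBC 0 ht).1
    · exact (hBC i hi).2.1
  have hC : ∀ i, i + 1 ≤ t → ∀ g ∈ K (i + 1), g (q (i + 1)) = q (i + 1) → g ∈ K i := by
    rintro (_ | i) hi
    · exact fun g hg e => hH.ge ⟨⟨hg.1, e⟩, hg.2⟩
    · exact (hBC i hi).2.2
  have hcl : Subgroup.closure ((G : Set (Equiv.Perm α)) ∪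
      {x | ∃ i : ℕ, 2 ≤ i ∧ i + 1 ≤ t ∧ x = s i}) = K t := by
    refine le_antisymm ((Subgroup.closure_le _).2 ?_) ?_
    · rintro x (hx | ⟨i, h1, h3, rfl⟩)
      · exact hmono ht (hKG ▸ hx)
      · obtain ⟨i, rfl⟩ : ∃ j, i = j + 1 := ⟨i - 1, by omega⟩
        exact hmono h3 (hsK i)
    · suffices h : ∀ i, i + 2 ≤ t → K (i + 2) ≤ Subgroup.closure ((G : Set (Equiv.Perm α)) ∪
          {x | ∃ i : ℕ, 2 ≤ i ∧ i + 1 ≤ t ∧ x = s i}) by
        have := h (t - 2) (by omega)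
        rwa [Nat.sub_add_cancel ht] at this
      intro i
      induction i with
      | zero => exact fun _ g hg => Subgroup.subset_closure (.inl (hKG ▸ hg))
      | succ i ih =>
        exact fun hi => sup_le (ih (by omega)) (Subgroup.zpowers_le.2
          (Subgroup.subset_closure (.inr ⟨i + 2, by omega, hi, rfl⟩)))
  rw [hcl]
  constructor
  · suffices h : ∀ j, j ≤ t → MulAction.IsMultiplyPretransitive (K t) α j from h t le_rfl
    intro j
    induction j with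
    | zero => exact fun _ => MulAction.is_zero_pretransitive
    | succ j ih =>
      intro hj
      obtain ⟨i, hi⟩ : ∃ i, t = i + 1 + j := ⟨t - j - 1, by omega⟩
      refine Cfsg.Lib.Perm.mt_succ_of_exists (ih (by omega)) ((Finset.Ioc (i + 1) t).image q) ?_
        fun a b ha hb => ?_
      · rw [Finset.card_image_of_injOn fun x hx y hy => hq x y (by simp at hx; omega)
          (by simp at hx; omega) (by simp at hy; omega) (by simp at hy; omega)]
        simp; omega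
      obtain ⟨g, hg, rfl⟩ := hB i (by omega) a fun k h1 h3 e =>
        ha (Finset.mem_image.2 ⟨k, by simp; omega, e.symm⟩)
      obtain ⟨g', hg', rfl⟩ := hB i (by omega) b fun k h1 h3 e =>
        hb (Finset.mem_image.2 ⟨k, by simp; omega, e.symm⟩)
      have hm := mul_mem hg' (inv_mem hg)
      refine ⟨⟨g' * g⁻¹, hmono (by omega) hm⟩, fun x hx => ?_, by simp [Subgroup.smul_def]⟩
      obtain ⟨k, hk, rfl⟩ := Finset.mem_image.1 hx
      rw [Finset.mem_Ioc] at hk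
      exact hA i (by omega) k hk.1 hk.2 hm
  · refine le_antisymm (fun g hg => ?_) (le_inf (hH0 t) fun g hg => ?_)
    · suffices h : ∀ j, j ≤ t → g ∈ K (t - j) by
        have := h t le_rfl
        rwa [Nat.sub_self] at this
      intro j
      induction j with
      | zero => exact fun _ => hg.1
      | succ j ih =>
        intro hj
        have := ih (by omega)
        rw [show t - j = t - (j + 1) + 1 by omega] at this
        exact hC _ (by omega) g this (hg.2 ⟨_, _, by omega, by omega, rfl⟩)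
    · rintro ⟨_, i, h1, h3, rfl⟩
      by_cases hi : i = 1
      · subst hi; exact (hH ▸ hg).1.2
      · exact hA 0 (by omega) i (by omega) h3 (hH0 1 hg)

end Cfsg.Agent.S0709
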