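import Cfsg.Statements.S0712
import Cfsg.Agent.Lib.Perm.Basic

set_option autoImplicit false
open Cfsg

namespace Cfsg.Agent.S0712

/-- Jordan: a primitive group in which the pointwise stabiliser of a set `s` is doubly transitive on the complement of `s` (which has at least 2 points) is `(|s| + 2)`-transitive. -/
theorem result {α : Type*} [Fintype α] [DecidableEq α] (G : Subgroup (Equiv.Perm α)) (hG : MulAction.IsPreprimitive G α) (s : Set α) {m : ℕ} (hsm : s.ncard = m) (hm : m + 2 ≤ Fintype.card α) (h2 : MulAction.IsMultiplyPretransitive (fixingSubgroup G s) (SubMulAction.ofFixingSubgroup G s) 2) : MulAction.IsMultiplyPretransitive G α (m + 2) := by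
  have hcard : Nat.card α = Fintype.card α := Nat.card_eq_fintype_card
  rcases Nat.eq_zero_or_pos m with rfl | hm0
  · have hs : s = ∅ := by simpa [Set.ncard_eq_zero s.toFinite] using hsm
    subst hs
    rw [Lib.Perm.two_iff] at h2 ⊢
    intro a b c d hab hcd
    obtain ⟨g, h1, h2⟩ := h2 ⟨a, id⟩ ⟨b, id⟩ ⟨c, id⟩ ⟨d, id⟩ (fun e => hab (congrArg Subtype.val e))
      (fun e => hcd (congrArg Subtype.val e))
    exact ⟨g, congrArg Subtype.val h1, congrArg Subtype.val h2⟩
  obtain ⟨n, rfl⟩ := Nat.exists_eq_succ_of_ne_zero hm0.ne'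
  have hprim := MulAction.isPreprimitive_of_is_two_pretransitive h2
  have h3 := hG.isMultiplyPreprimitive (s := s) (n := n) hsm (by omega) hprim
  have h4 : MulAction.IsMultiplyPretransitive G α (n + 2) := inferInstance
  have h5 : MulAction.IsMultiplyPretransitive G α (n + 1) :=
    MulAction.isMultiplyPretransitive_of_le (n := n + 2) (by omega) (by omega)
  obtain ⟨c, hc⟩ : ∃ c, c ∉ s := by
    by_contra h
    push Not at h
    have : s = Set.univ := Set.eq_univ_of_forall h
    rw [this, Set.ncard_univ] at hsm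
    omega
  have hcs : c ∉ s.toFinite.toFinset := by simpa using hc
  refine Lib.Perm.mt_succ_of_exists h4 (insert c s.toFinite.toFinset) ?_ ?_
  · rw [Finset.card_insert_of_notMem hcs, ← Set.ncard_eq_toFinset_card, hsm]
  · intro a b ha hb
    simp only [Finset.mem_insert, Set.Finite.mem_toFinset, not_or] at ha hb
    obtain ⟨g, h1, h2⟩ := Lib.Perm.two_iff.1 h2 ⟨c, hc⟩ ⟨a, ha.2⟩ ⟨c, hc⟩ ⟨b, hb.2⟩
      (fun e => ha.1 (congrArg Subtype.val e).symm) (fun e => hb.1 (congrArg Subtype.val e).symm)
    refine ⟨g, fun x hx => ?_, congrArg Subtype.val h2⟩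
    rcases Finset.mem_insert.1 hx with rfl | hx
    · exact congrArg Subtype.val h1
    · exact (mem_fixingSubgroup_iff G).1 g.2 x (by simpa using hx)

end Cfsg.Agent.S0712
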