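import Cfsg.Statements.S0714
import Cfsg.Agent.Lib.Perm.Module

set_option autoImplicit false
open Cfsg

namespace Cfsg.Agent.S0714

open Lib.Perm Equiv Equiv.Perm

/-- Over any field, the permutation module of the alternating group of degree at least 5 has exactly four invariant subspaces: zero, the constant functions, the functions with coordinate sum zero, and everything. -/
theorem result {α : Type*} [Fintype α] [DecidableEq α] (hα : 5 ≤ Fintype.card α) {K : Type*} [Field K] (W : Subrepresentation (Cfsg.permRep K (alternatingGroup α) α)) : W.toSubmodule = ⊥ ∨ W = Cfsg.permConstants K (alternatingGroup α) α ∨ W = Cfsg.permSumZero K (alternatingGroup α) α ∨ W.toSubmodule = ⊤ := by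
  have hn : Nat.card α = Fintype.card α := Nat.card_eq_fintype_card
  have h3 : MulAction.IsMultiplyPretransitive (alternatingGroup α) α 3 :=
    have := alternatingGroup.isMultiplyPretransitive α
    MulAction.isMultiplyPretransitive_of_le (n := Nat.card α - 2) (by omega) (by omega)
  have h2 : MulAction.IsMultiplyPretransitive (alternatingGroup α) α 2 :=
    MulAction.isMultiplyPretransitive_of_le (n := 3) (by omega) (by omega)
  by_cases hc : W.toSubmodule ≤ (Cfsg.permConstants K (alternatingGroup α) α).toSubmodule
  · by_cases h0 : W.toSubmodule = ⊥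
    · exact Or.inl h0
    refine Or.inr (Or.inl (Subrepresentation.toSubmodule_injective (le_antisymm hc ?_)))
    obtain ⟨v, hv, hv0⟩ := (Submodule.ne_bot_iff _).1 h0
    obtain ⟨c, hvc⟩ := mem_permConstants.1 (hc hv)
    have hc0 : c ≠ 0 := by rintro rfl; exact hv0 (funext hvc)
    intro w hw
    obtain ⟨d, hw⟩ := mem_permConstants.1 hw
    have : w = (d / c) • v := by ext x; simp [hw, hvc, hc0]
    rw [this]
    exact W.toSubmodule.smul_mem _ hv
  right; right
  obtain ⟨f, hf, hfc⟩ := SetLike.not_le_iff_exists.1 hc
  obtain ⟨a, b, hab⟩ : ∃ a b, f a ≠ f b := by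
    by_contra h
    push Not at h
    obtain ⟨a⟩ : Nonempty α := Fintype.card_pos_iff.1 (by omega)
    exact hfc (mem_permConstants.2 ⟨f a, fun x => h x a⟩)
  have hab' : a ≠ b := fun e => hab (e ▸ rfl)
  obtain ⟨c, hca, hcb⟩ := exists_ne_ne (by omega) a b
  have hσ := isThreeCycle_swap_mul_swap_same hab' hca.symm hcb.symm
  let σ : alternatingGroup α := ⟨_, hσ.mem_alternatingGroup⟩
  let v : α → K := permRep K _ α σ f - f
  have hv : v ∈ W.toSubmodule := W.toSubmodule.sub_mem (W.apply_mem_toSubmodule σ hf) hf
  have hvs : ∀ x, x ∉ ({a, b, c} : Finset α) → v x = 0 := by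
    intro x hx
    simp only [Finset.mem_insert, Finset.mem_singleton, not_or] at hx
    have : σ⁻¹ • x = x := by
      rw [inv_smul_eq_iff]
      change x = swap a b (swap a c x)
      rw [swap_apply_of_ne_of_ne hx.1 hx.2.2, swap_apply_of_ne_of_ne hx.1 hx.2.1]
    simp [v, this]
  have hva : v a ≠ 0 := by
    have : σ⁻¹ • a = b := by
      rw [inv_smul_eq_iff]
      change a = swap a b (swap a c b)
      rw [swap_apply_of_ne_of_ne hab'.symm hcb.symm, swap_apply_right]
    simp [v, this, sub_eq_zero, hab.symm]
  obtain ⟨d, hda, hdb, hdc⟩ := exists_ne_ne_ne (by omega) a b c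
  obtain ⟨g, hg1, hg2, hg3⟩ := three_iff.1 h3 a b c d b c hab' hca.symm hcb.symm hdb hdc hcb.symm
  have hdiff : (Pi.single d 1 - Pi.single a 1 : α → K) ∈ W.toSubmodule := by
    have h1 := W.toSubmodule.smul_mem (v a)⁻¹
      (W.toSubmodule.sub_mem (W.apply_mem_toSubmodule g hv) hv)
    have hv' : v = Pi.single a (v a) + Pi.single b (v b) + Pi.single c (v c) := by
      ext x
      by_cases hx : x ∈ ({a, b, c} : Finset α)
      · simp only [Finset.mem_insert, Finset.mem_singleton] at hx
        rcases hx with rfl | rfl | rfl <;> simp [Pi.single_apply, hab', hab'.symm, hca, hca.symm, hcb, hcb.symm]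
      · rw [hvs x hx]
        simp only [Finset.mem_insert, Finset.mem_singleton, not_or] at hx
        simp [Pi.single_apply, hx]
    convert h1 using 1
    generalize v a = p at hva hv'
    generalize v b = q at hv'
    generalize v c = r at hv'
    rw [hv']
    simp only [map_add, permRep_single, hg1, hg2, hg3]
    ext x
    simp only [Pi.sub_apply, Pi.add_apply, Pi.smul_apply, Pi.single_apply, smul_eq_mul]
    split_ifs <;> field_simp <;> ring
  have hall : ∀ x, (Pi.single x 1 - Pi.single a 1 : α → K) ∈ W.toSubmodule := by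
    intro x
    by_cases hx : x = a
    · simp [hx]
    obtain ⟨k, hk1, hk2⟩ := two_iff.1 h2 d a x a hda hx
    have := W.apply_mem_toSubmodule k hdiff
    rwa [map_sub, permRep_single, permRep_single, hk1, hk2] at this
  by_cases hs : W.toSubmodule ≤ (Cfsg.permSumZero K (alternatingGroup α) α).toSubmodule
  · exact Or.inl (Subrepresentation.toSubmodule_injective
      (le_antisymm hs fun w hw => mem_of_sum_eq_zero a hall hw))
  · obtain ⟨w, hw, hw0⟩ := SetLike.not_le_iff_exists.1 hs
    exact Or.inr (eq_top_of_sumZero_le (fun f hf => mem_of_sum_eq_zero a hall hf) hw hw0)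

end Cfsg.Agent.S0714
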