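import Cfsg.Statements.S0716
import Cfsg.Agent.Lib.CharDeg.PermChar

set_option autoImplicit false
open Cfsg

namespace Cfsg.Agent.S0716

open Cfsg.Lib.PermChar Cfsg.Lib.Char Matrix Finset MulAction in

/-- (a) If all non-principal irreducible constituents of the permutation character of a transitive group have the same degree `f`, the character is multiplicity-free and all non-trivial subdegrees equal `f`. (b) A transitive group of rank at most 5 has multiplicity-free permutation character. -/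
theorem result {G : Type*} [Group G] [Fintype G] {Ω : Type*} [Fintype Ω] [MulAction G Ω] [MulAction.IsPretransitive G Ω] (a : Ω) : ((f : ℕ) → (∀ χ : G → ℂ, Cfsg.IsIrrCharacter G χ → χ ≠ (fun _ => 1) → Cfsg.classInner (fun g : G => (Nat.card (MulAction.fixedBy Ω g) : ℂ)) χ ≠ 0 → χ 1 = f) → (∀ χ : G → ℂ, Cfsg.IsIrrCharacter G χ → Cfsg.classInner (fun g : G => (Nat.card (MulAction.fixedBy Ω g) : ℂ)) χ = 0 ∨ Cfsg.classInner (fun g : G => (Nat.card (MulAction.fixedBy Ω g) : ℂ)) χ = 1) ∧ ∀ b : Ω, b ≠ a → Nat.card (MulAction.orbit (MulAction.stabilizer G a) b) = f) ∧ (Nat.card (MulAction.orbitRel.Quotient (MulAction.stabilizer G a) Ω) ≤ 5 → ∀ χ : G → ℂ, Cfsg.IsIrrCharacter G χ → Cfsg.classInner (fun g : G => (Nat.card (MulAction.fixedBy Ω g) : ℂ)) χ = 0 ∨ Cfsg.classInner (fun g : G => (Nat.card (MulAction.fixedBy Ω g) : ℂ)) χ = 1) := by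
  classical
  obtain ⟨n, hn⟩ := (isCharacter_card_fixedBy (G := G) Ω).exists_eq_sum_nat
  change pc G Ω = _ at hn
  have h1 : ∀ χ : IrrCharacter G, classInner (pc G Ω) χ = n χ := fun χ => by
    rw [hn, classInner_sum_smul_irr]
  have h2 : n (irrOne G) = 1 := Nat.cast_eq_one.1 ((h1 _).symm.trans (inner_pc_one_of_trans a))
  have h3 : Nat.card (orbitRel.Quotient (stabilizer G a) Ω) =
      1 + ∑ χ ∈ univ.erase (irrOne G), n χ * n χ := by
    have := inner_pc_self (G := G) a
    rw [(isCharacter_card_fixedBy Ω).isClassFunction.inner_eq_sum_irr,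
      ← add_sum_erase _ _ (mem_univ (irrOne G))] at this
    simp only [h1, h2, map_natCast] at this
    exact_mod_cast this.symm
  have key : ∀ f : ℕ, (∀ χ, IsIrrCharacter G χ → χ ≠ (fun _ => 1) → classInner (pc G Ω) χ ≠ 0 →
      χ 1 = f) → (∀ χ, IsIrrCharacter G χ → classInner (pc G Ω) χ = 0 ∨
        classInner (pc G Ω) χ = 1) ∧
      ∀ b : Ω, b ≠ a → Nat.card (orbit (stabilizer G a) b) = f := by
    intro f hf
    haveI := Fintype.ofFinite (orbitRel.Quotient (stabilizer G a) Ω)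
    have h4 : Nat.card Ω = 1 + f * ∑ χ ∈ univ.erase (irrOne G), n χ := by
      have := congrFun hn 1
      rw [Finset.sum_apply, ← add_sum_erase _ _ (mem_univ (irrOne G)),
        sum_congr rfl (g := fun χ => (f : ℂ) * n χ) fun χ hχ => by
          by_cases e : n χ = 0
          · simp [e]
          · rw [Pi.smul_apply, hf _ χ.2 (fun e => (mem_erase.1 hχ).1 (Subtype.ext e))
              (by rw [h1]; exact Nat.cast_ne_zero.2 e), smul_eq_mul, mul_comm], ← mul_sum] at this
      simp only [pc, fixedBy_one_eq_univ, Nat.card_univ, h2, Pi.smul_apply, irrOne_apply,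
        Nat.cast_one, smul_eq_mul, mul_one] at this
      exact_mod_cast this
    have h5 : Nat.card Ω = 1 + ∑ ω ∈ univ.erase (Quotient.mk (orbitRel (stabilizer G a) Ω) a),
        Nat.card (orbitRel.Quotient.orbit ω) := by
      rw [Nat.card_congr (selfEquivSigmaOrbits' (stabilizer G a) Ω), Nat.card_sigma,
        ← add_sum_erase _ _ (mem_univ (Quotient.mk (orbitRel (stabilizer G a) Ω) a))]
      congr 1
      exact Nat.card_eq_one_iff_exists.2 ⟨⟨a, mem_orbit_self a⟩, fun ⟨_, g, hg⟩ =>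
        Subtype.ext (hg.symm.trans g.2)⟩
    have h6 : ∀ ω ∈ univ.erase (Quotient.mk (orbitRel (stabilizer G a) Ω) a),
        f ≤ Nat.card (orbitRel.Quotient.orbit ω) := fun ω hω => by
      obtain ⟨b, rfl⟩ := Quotient.exists_rep ω
      haveI : Nonempty (orbit (stabilizer G a) b) := ⟨⟨b, mem_orbit_self b⟩⟩
      exact Nat.le_of_dvd (Nat.card_pos (α := orbit (stabilizer G a) b)) (dvd_subdegree
        (fun χ h1 h2 h3 => ⟨1, by rw [hf χ h1 h2 h3]; simp⟩) fun e => (mem_erase.1 hω).1 (e ▸ rfl))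
    have h7 := sum_le_sum h6
    have h8 : ∀ χ ∈ univ.erase (irrOne G), n χ ≤ n χ * n χ := fun χ _ => Nat.le_mul_self _
    have h9 := Nat.mul_le_mul_left f (sum_le_sum h8)
    have h10 : ∑ _ω ∈ univ.erase (Quotient.mk (orbitRel (stabilizer G a) Ω) a), f =
        f * ∑ χ ∈ univ.erase (irrOne G), n χ * n χ := by
      rw [sum_const, card_erase_of_mem (mem_univ _), card_univ, ← Nat.card_eq_fintype_card, h3,
        Nat.add_sub_cancel_left, smul_eq_mul, mul_comm]
    refine ⟨fun χ hχ => ?_, fun b hb => ((sum_eq_sum_iff_of_le h6).1 (by omega) ⟦b⟧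
      (mem_erase.2 ⟨fun e => ?_, mem_univ _⟩)).symm⟩
    · by_cases e : χ = fun _ => 1
      · exact Or.inr (e ▸ inner_pc_one_of_trans a)
      refine or_iff_not_imp_left.2 fun e' => ?_
      have hf0 : 0 < f := Nat.pos_of_ne_zero fun e0 =>
        hχ.apply_one_ne_zero (by rw [hf χ hχ e e', e0, Nat.cast_zero])
      have := (sum_eq_sum_iff_of_le h8).1 (Nat.eq_of_mul_eq_mul_left hf0 (by omega)) ⟨χ, hχ⟩
        (mem_erase.2 ⟨fun h => e (congrArg Subtype.val h), mem_univ _⟩)
      rw [h1 ⟨χ, hχ⟩, Nat.cast_eq_zero] at e'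
      rw [h1 ⟨χ, hχ⟩, Nat.cast_eq_one]
      exact (Nat.mul_eq_left e').1 this.symm
    · obtain ⟨g, hg⟩ := Quotient.exact e
      exact hb (hg.symm.trans g.2)
  refine ⟨key, fun h5 χ hχ => ?_⟩
  by_contra e
  refine e ((key (charDegree χ) fun ψ hψ hψ1 h0 => ?_).1 χ hχ)
  by_contra e'
  change ¬ (classInner (pc G Ω) χ = 0 ∨ classInner (pc G Ω) χ = 1) at e
  have hne : (⟨χ, hχ⟩ : IrrCharacter G) ≠ ⟨ψ, hψ⟩ := fun h =>
    e' (by rw [← show χ = ψ from congrArg Subtype.val h]; exact hχ.apply_one_eq)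
  have := sum_le_sum_of_subset (f := fun χ => n χ * n χ) (s := {⟨χ, hχ⟩, ⟨ψ, hψ⟩})
    (t := univ.erase (irrOne G)) (insert_subset (mem_erase.2 ⟨fun h => e (Or.inr
      (by rw [show χ = fun _ => 1 from congrArg Subtype.val h]; exact inner_pc_one_of_trans a)),
        mem_univ _⟩)
      (singleton_subset_iff.2 (mem_erase.2 ⟨fun h => hψ1 (congrArg Subtype.val h), mem_univ _⟩)))
  rw [sum_pair hne] at this
  rw [h1 ⟨χ, hχ⟩, Nat.cast_eq_zero, Nat.cast_eq_one] at e
  rw [h1 ⟨ψ, hψ⟩, Nat.cast_ne_zero] at h0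
  have e1 : 2 ≤ n ⟨χ, hχ⟩ := by omega
  have e2 := Nat.mul_le_mul e1 e1
  have e3 := Nat.mul_pos (Nat.pos_of_ne_zero h0) (Nat.pos_of_ne_zero h0)
  omega

end Cfsg.Agent.S0716
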