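import Cfsg.Statements.S0718
import Cfsg.Agent.Lib.CharDeg.PermChar

set_option autoImplicit false
open Cfsg

namespace Cfsg.Agent.S0718

open Cfsg.Lib.PermChar Cfsg.Lib.Char Matrix Finset MulAction in

/-- Multiplicity-freeness of the permutation character is equivalent to commutativity of the centraliser ring, i.e. of the algebra of `G`-equivariant endomorphisms of the complex permutation module. -/
theorem result {G : Type*} [Group G] [Fintype G] {Ω : Type*} [Fintype Ω] [MulAction G Ω] : (∀ χ : G → ℂ, Cfsg.IsIrrCharacter G χ → Cfsg.classInner (fun g : G => (Nat.card (MulAction.fixedBy Ω g) : ℂ)) χ = 0 ∨ Cfsg.classInner (fun g : G => (Nat.card (MulAction.fixedBy Ω g) : ℂ)) χ = 1) ↔ ∀ S T : (Ω → ℂ) →ₗ[ℂ] (Ω → ℂ), S ∈ ((Cfsg.permRep ℂ G Ω).linHom (Cfsg.permRep ℂ G Ω)).invariants → T ∈ ((Cfsg.permRep ℂ G Ω).linHom (Cfsg.permRep ℂ G Ω)).invariants → S ∘ₗ T = T ∘ₗ S := by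
  have h : ∀ S : (Ω → ℂ) →ₗ[ℂ] (Ω → ℂ), S ∈ ((Cfsg.permRep ℂ G Ω).linHom
      (Cfsg.permRep ℂ G Ω)).invariants ↔ ∀ g, S * permRep ℂ G Ω g = permRep ℂ G Ω g * S :=
    fun S => forall_congr' fun g => by
      change permRep ℂ G Ω g * (S * permRep ℂ G Ω g⁻¹) = S ↔ _
      constructor
      · intro e
        conv_lhs => rw [← e]
        rw [mul_assoc, mul_assoc, ← map_mul, inv_mul_cancel, map_one, mul_one]
      · intro e
        rw [← mul_assoc, ← e, mul_assoc, ← map_mul, mul_inv_cancel, map_one, mul_one]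
  simp only [h]
  change (∀ χ, _ → classInner (pc G Ω) χ = 0 ∨ classInner (pc G Ω) χ = 1) ↔ _
  rw [← character_permRep]
  exact ⟨fun hm S T => comm_of_inner_le_one _ hm, fun hc χ => inner_le_one_of_comm _ hc⟩

end Cfsg.Agent.S0718
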