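import Cfsg.Statements.S0719
import Cfsg.Agent.Lib.CharDeg.PermChar

set_option autoImplicit false
open Cfsg

namespace Cfsg.Agent.S0719

theorem arith {m k t : ℤ} (hm : 2 ≤ m) (h1 : 2 ≤ k) (h2 : k + 3 ≤ 2 * m)
    (h : k ^ 2 + (k + t * m) ^ 2 * (m - 1) + (t - (k + t * m)) ^ 2 * m = 2 * m * k) :
    m = 2 * (k - m) ^ 2 + 2 * (k - m) + 1 := by
  have h3 : (k + t * m) ^ 2 ≤ m ^ 2 := by
    nlinarith [sq_nonneg (k - m), mul_nonneg (sq_nonneg (t - (k + t * m))) (by omega : 0 ≤ m),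
      mul_nonneg (sq_nonneg (k + t * m)) (by omega : 0 ≤ m - 2)]
  obtain ⟨h4, h5⟩ := abs_le_of_sq_le_sq' h3 (by omega)
  have h6 : t < 1 := by nlinarith
  have h7 : -3 < t := by nlinarith
  have h0 : m ≠ 0 := by omega
  interval_cases t
  · have : m * ((2 * m - 1 - k) * (2 * m - 2 - k)) * 2 = 0 := by linear_combination h
    simp only [mul_eq_zero] at this
    omega
  · exact mul_left_cancel₀ h0 (by linear_combination -h)
  · have : m * (k * (k - 1)) * 2 = 0 := by linear_combination h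
    simp only [mul_eq_zero] at this
    omega

open Cfsg.Lib.PermChar Cfsg.Lib.Char Matrix Finset MulAction in

/-- Groups of Wielandt type: if a primitive group of degree `2m` has rank 3 and permutation character `1 + χ₁ + χ₂` with irreducible `χ₁, χ₂` of degrees `m - 1` and `m`, then `m = 2a² + 2a + 1` for some positive integer `a` and the two non-trivial subdegrees are `a(2a+1)` and `(a+1)(2a+1)`. -/
theorem result {G : Type*} [Group G] [Fintype G] {Ω : Type*} [Fintype Ω] [MulAction G Ω] (hprim : MulAction.IsPreprimitive G Ω) {m : ℕ} (hm : Fintype.card Ω = 2 * m) (a₀ : Ω) (hrank : Nat.card (MulAction.orbitRel.Quotient (MulAction.stabilizer G a₀) Ω) = 3) (χ₁ χ₂ : G → ℂ) (h₁ : Cfsg.IsIrrCharacter G χ₁) (h₂ : Cfsg.IsIrrCharacter G χ₂) (hπ : (fun g : G => (Nat.card (MulAction.fixedBy Ω g) : ℂ)) = fun g => 1 + χ₁ g + χ₂ g) (hd₁ : χ₁ 1 = (m : ℂ) - 1) (hd₂ : χ₂ 1 = m) : ∃ a : ℕ, 0 < a ∧ m = 2 * a ^ 2 + 2 * a + 1 ∧ ∀ b : Ω, b ≠ a₀ → Nat.card (MulAction.orbit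 (MulAction.stabilizer G a₀) b) = a * (2 * a + 1) ∨ Nat.card (MulAction.orbit (MulAction.stabilizer G a₀) b) = (a + 1) * (2 * a + 1) := by
  classical
  change pc G Ω = _ at hπ
  replace hπ : pc G Ω = (fun _ => 1) + χ₁ + χ₂ := hπ
  have h₀ : IsIrrCharacter G fun _ => 1 := (irrOne G).2
  have hin : ∀ χ, classInner (pc G Ω) χ =
      classInner (fun _ => 1) χ + classInner χ₁ χ + classInner χ₂ χ := fun χ => by
    rw [hπ, classInner_add_left, classInner_add_left]
  have n12 : χ₁ ≠ χ₂ := fun e => by simp [← e, hd₁, sub_eq_self] at hd₂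
  have e1 := (hin _).symm.trans (inner_pc_one_of_trans a₀)
  rw [h₀.inner_self, h₁.inner_eq_ite h₀, h₂.inner_eq_ite h₀] at e1
  have n1 : χ₁ ≠ fun _ => 1 := fun e => by
    rw [if_pos e, if_neg fun e' => n12 (e.trans e'.symm)] at e1; norm_num at e1
  have n2 : χ₂ ≠ fun _ => 1 := fun e => by rw [if_pos e, if_neg n1] at e1; norm_num at e1
  have hz : ∀ χ, IsIrrCharacter G χ → χ ≠ (fun _ => 1) → χ ≠ χ₁ → χ ≠ χ₂ →
      classInner (pc G Ω) χ = 0 := fun χ h a b c => by
    rw [hin, h₀.inner_eq_zero_of_ne h a.symm, h₁.inner_eq_zero_of_ne h b.symm,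
      h₂.inner_eq_zero_of_ne h c.symm, add_zero, add_zero]
  have i0 := inner_pc_one_of_trans (G := G) a₀
  have i1 : classInner (pc G Ω) χ₁ = 1 := by
    simp [hin, h₀.inner_eq_zero_of_ne h₁ n1.symm, h₁.inner_self, h₂.inner_eq_zero_of_ne h₁ n12.symm]
  have i2 : classInner (pc G Ω) χ₂ = 1 := by
    simp [hin, h₀.inner_eq_zero_of_ne h₂ n2.symm, h₂.inner_self, h₁.inner_eq_zero_of_ne h₂ n12]
  have hc : ∀ χ, IsIrrCharacter G χ → classInner (pc G Ω) χ = 1 →
      classInner (pc G Ω) (fun g => (starRingEnd ℂ) (χ g)) ≠ 0 := fun χ h e => by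
    have := classInner_conj_conj (pc G Ω) χ
    simp only [pc, map_natCast] at this
    rw [this, ← conj_classInner, e]; simp
  have hreal : ∀ χ, IsIrrCharacter G χ → classInner (pc G Ω) χ ≠ 0 →
      classInner (pc G Ω) χ = 1 ∧ ∀ g, (starRingEnd ℂ) (χ g) = χ g := fun χ h h0 => by
    have c0 : ∀ ψ : G → ℂ, ψ ≠ (fun _ => 1) → (fun g => (starRingEnd ℂ) (ψ g)) ≠ fun _ => 1 :=
      fun ψ e e' => e (funext fun g => by simpa using congrArg (starRingEnd ℂ) (congrFun e' g))
    by_cases a : χ = fun _ => 1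
    · subst a; exact ⟨i0, fun g => map_one _⟩
    by_cases b : χ = χ₁
    · subst b
      refine ⟨i1, congrFun (by_contra fun e => hc _ h i1 (hz _ h.conj (c0 _ a) e fun e' => ?_))⟩
      simpa [hd₁, hd₂, sub_eq_self] using congrFun e' 1
    obtain rfl : χ = χ₂ := by_contra fun c => h0 (hz χ h a b c)
    refine ⟨i2, congrFun (by_contra fun e => hc _ h i2 (hz _ h.conj (c0 _ a) (fun e' => ?_) e))⟩
    simpa [hd₁, hd₂, eq_sub_iff_add_eq] using congrFun e' 1
  have hsum : ∀ c : IrrCharacter G → ℂ, ∑ χ : IrrCharacter G, c χ • em Ω (χ : G → ℂ) =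
      c (irrOne G) • em Ω (fun _ : G => 1) + c ⟨χ₁, h₁⟩ • em Ω χ₁ + c ⟨χ₂, h₂⟩ • em Ω χ₂ :=
    fun c => by
      rw [← sum_subset (subset_univ {irrOne G, ⟨χ₁, h₁⟩, ⟨χ₂, h₂⟩}) fun χ _ hχ => by
          simp only [mem_insert, mem_singleton, not_or, Subtype.ext_iff] at hχ
          rw [(em_eq_zero_iff χ.2).2 (hz _ χ.2 hχ.1 hχ.2.1 hχ.2.2), smul_zero],
        sum_insert (by simpa [Subtype.ext_iff, coe_irrOne] using ⟨n1.symm, n2.symm⟩),
        sum_pair fun e => n12 (congrArg Subtype.val e), add_assoc]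
      rfl
  have hI := hsum fun _ => 1
  simp only [one_smul, sum_em] at hI
  have hE : ∀ x y : Ω, em Ω (fun _ : G => 1) x y = (Nat.card Ω : ℂ)⁻¹ := fun x y => by
    simp only [em_apply, one_mul]
    rw [sum_smul_base y fun z => if x = z then (1 : ℂ) else 0, ← index_stabilizer_of_transitive G y,
      ← (stabilizer G y).card_mul_index]
    rw [sum_ite_eq, if_pos (mem_univ _), mul_one, Nat.cast_mul, one_div, mul_inv,
      mul_right_comm, inv_mul_cancel₀ (card_ne_zero_complex _), one_mul]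
  have hm2 : 2 ≤ m := by
    have := h₁.charDegree_pos
    have h : charDegree χ₁ + 1 = m := Nat.cast_injective (R := ℂ) (by
      rw [Nat.cast_add, ← h₁.apply_one_eq, hd₁]; simp)
    omega
  haveI : Nontrivial Ω := Fintype.one_lt_card_iff_nontrivial.1 (by omega)
  have nofix : ∀ b, b ≠ a₀ → ¬ ∀ h : stabilizer G a₀, h • b = b := fun b hb h => by
    have hco := hprim.isCoatom_stabilizer_of_isPreprimitive G a₀
    have h1 : stabilizer G b = stabilizer G a₀ := by_contra fun e =>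
      (hprim.isCoatom_stabilizer_of_isPreprimitive G b).1 (hco.2 _ (lt_of_le_of_ne
        (fun g hg => h ⟨g, hg⟩) (Ne.symm e)))
    obtain ⟨g, rfl⟩ := exists_smul_eq G a₀ b
    haveI := Subgroup.normalizer_eq_top_iff.1 (hco.2 _ (lt_of_le_of_ne Subgroup.le_normalizer
      fun e => hb (show g ∈ stabilizer G a₀ from e ▸ Subgroup.mem_normalizer_iff.2 fun k => by
        conv_rhs => rw [← h1]
        simp [mul_smul])))
    have : Nat.card Ω = 3 := hrank ▸ Nat.card_congr (Equiv.ofBijective _ ⟨fun x y e => by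
      obtain ⟨k, rfl⟩ := Quotient.exact e
      obtain ⟨l, rfl⟩ := exists_smul_eq G a₀ y
      have : (l⁻¹ * k * l⁻¹⁻¹) • a₀ = a₀ := this.conj_mem _ k.2 l⁻¹
      rwa [inv_inv, mul_smul, mul_smul, inv_smul_eq_iff] at this,
      Quotient.mk_surjective (s := orbitRel (stabilizer G a₀) Ω)⟩)
    rw [Nat.card_eq_fintype_card] at this
    omega
  have key : ∀ b, b ≠ a₀ → (m : ℤ) = 2 * ((Nat.card (orbit (stabilizer G a₀) b) : ℤ) - m) ^ 2 +
      2 * ((Nat.card (orbit (stabilizer G a₀) b) : ℤ) - m) + 1 := fun b hb => by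
    haveI := Fintype.ofFinite (orbitRel.Quotient (stabilizer G a₀) Ω)
    obtain ⟨ω, -, hω⟩ := exists_mem_notMem_of_card_lt_card
      (s := {Quotient.mk (orbitRel (stabilizer G a₀) Ω) a₀, ⟦b⟧})
      (t := (univ : Finset (orbitRel.Quotient (stabilizer G a₀) Ω))) (by
        rw [card_univ, ← Nat.card_eq_fintype_card, hrank]; exact Nat.lt_succ_of_le card_le_two)
    obtain ⟨b', rfl⟩ := Quotient.exists_rep ω
    simp only [mem_insert, mem_singleton, not_or] at hω
    have hb1 : b' ≠ a₀ := fun e => hω.1 (e ▸ rfl)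
    have hb2 : b' ∉ orbit (stabilizer G a₀) b := fun e => hω.2 (Quotient.sound e)
    have ha : a₀ ∉ orbit (stabilizer G a₀) b := fun ⟨g, hg⟩ =>
      hb (smul_left_cancel g (hg.trans g.2.symm))
    obtain ⟨c, hc⟩ := (eqv_orb (G := G) a₀ b).exists_eq_sum fun χ h =>
      or_iff_not_imp_left.2 fun e => (hreal χ h e).1
    have hs := Eqv.isSymm hreal (eqv_orb (G := G) a₀ b)
    rw [hsum] at hc
    have hk := sum_orb (G := G) a₀ b
    have hcard := Set.ncard_add_ncard_compl (insert a₀ (orbit (stabilizer G a₀) b))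
    rw [Set.ncard_insert_of_notMem ha, ← Nat.card_coe_set_eq, Nat.card_eq_fintype_card (α := Ω),
      hm] at hcard
    have k1 : 1 < Nat.card (orbit (stabilizer G a₀) b) := by
      rw [Nat.card_coe_set_eq]
      by_contra e
      exact nofix b hb fun h => (Set.ncard_le_one_iff (Set.toFinite _)).1 (not_lt.1 e)
        (mem_orbit b h) (mem_orbit_self b)
    have k2 : 1 < (insert a₀ (orbit (stabilizer G a₀) b))ᶜ.ncard := by
      by_contra e
      refine nofix b' hb1 fun h => (Set.ncard_le_one_iff (Set.toFinite _)).1 (not_lt.1 e) ?_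
        (by simp [hb1, hb2])
      rintro (e | ⟨g, hg⟩)
      · exact hb1 (smul_left_cancel h (e.trans h.2.symm))
      · exact hb2 ⟨h⁻¹ * g, by simp only at hg ⊢; rw [mul_smul, hg, inv_smul_smul]⟩
    generalize Nat.card (orbit (stabilizer G a₀) b) = k at *
    have o1 : orb G a₀ b a₀ b = 1 := if_pos ⟨1, one_smul _ _, one_smul _ _⟩
    have o2 : orb G a₀ b a₀ b' = 0 := if_neg fun ⟨g, h1, h2⟩ => hb2 ⟨⟨g, h1⟩, h2⟩
    have o3 : ∀ x y, orb G a₀ b x y * orb G a₀ b x y = orb G a₀ b x y := fun x y => by simp [orb]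
    have o4 : ∀ x y, ∃ z : ℤ, (orb G a₀ b * orb G a₀ b) x y = z := fun x y =>
      ⟨∑ w, (if ∃ g : G, g • a₀ = x ∧ g • b = w then 1 else 0) *
        if ∃ g : G, g • a₀ = w ∧ g • b = y then 1 else 0, by
          simp only [mul_apply, orb, of_apply, Int.cast_sum, Int.cast_mul, Int.cast_ite,
            Int.cast_one, Int.cast_zero]
          congr!⟩
    have t1 : (orb G a₀ b).trace = 0 := sum_eq_zero fun x _ => orb_diag hb x
    have t2 : (orb G a₀ b * orb G a₀ b).trace = 2 * m * k := by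
      nth_rw 2 [← hs]
      simp [trace, mul_apply, o3, hk, hm]
    generalize orb G a₀ b = T at *
    have hT : T * T = c (irrOne G) ^ 2 • em Ω (fun _ : G => 1) + c ⟨χ₁, h₁⟩ ^ 2 • em Ω χ₁ +
        c ⟨χ₂, h₂⟩ ^ 2 • em Ω χ₂ := by
      simp only [hc, add_mul, mul_add, smul_mul_smul_comm, em_mul_self, h₀, h₁, h₂,
        em_mul_of_ne h₀ h₁ n1.symm, em_mul_of_ne h₀ h₂ n2.symm, em_mul_of_ne h₁ h₀ n1,
        em_mul_of_ne h₁ h₂ n12, em_mul_of_ne h₂ h₀ n2, em_mul_of_ne h₂ h₁ n12.symm, smul_zero,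
        add_zero, zero_add, sq]
    have c0 : c (irrOne G) = k := by
      have : T * em Ω (fun _ : G => 1) = c (irrOne G) • em Ω (fun _ : G => 1) := by
        simp only [hc, add_mul, smul_mul_assoc, em_mul_self h₀, em_mul_of_ne h₁ h₀ n1,
          em_mul_of_ne h₂ h₀ n2, smul_zero, add_zero]
      have := congrFun (congrFun this a₀) a₀
      simp only [mul_apply, hE, ← sum_mul, hk, Matrix.smul_apply, smul_eq_mul] at this
      exact (mul_right_cancel₀ (inv_ne_zero (Nat.cast_ne_zero.2 Nat.card_pos.ne')) this).symm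
    obtain ⟨z, hz⟩ := o4 a₀ b
    obtain ⟨z', hz'⟩ := o4 a₀ b'
    have j1 := congrFun (congrFun hI a₀) b
    have j2 := congrFun (congrFun hI a₀) b'
    rw [hT] at hz hz' t2
    rw [hc] at o1 o2 t1
    simp only [Matrix.add_apply, Matrix.smul_apply, smul_eq_mul, hE, one_apply_ne hb.symm,
      one_apply_ne hb1.symm, trace_add, trace_smul, trace_em h₀.isCharacter,
      trace_em h₁.isCharacter, trace_em h₂.isCharacter, i0, i1, i2, hd₁, hd₂, mul_one, c0]
      at hz hz' o1 o2 j1 j2 t1 t2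
    generalize c ⟨χ₁, h₁⟩ = r at *
    generalize c ⟨χ₂, h₂⟩ = s at *
    have hrs : s = (z - z' : ℤ) - r := by
      push_cast
      linear_combination hz - hz' - (r + s) * (o1 - o2) - r * s * (j1 - j2)
    have hr : r = k + (z - z' : ℤ) * m := by rw [hrs] at t1; linear_combination -t1
    rw [hrs, hr] at t2
    exact arith (t := z - z') (by omega) (by omega) (by omega) (by exact_mod_cast t2)
  obtain ⟨b, hb⟩ := exists_ne a₀
  obtain ⟨a, ha⟩ : ∃ a : ℕ, (m : ℤ) = 2 * a ^ 2 + 2 * a + 1 := by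
    have := key b hb
    generalize (Nat.card (orbit (stabilizer G a₀) b) : ℤ) - m = r at this
    rcases r with r | r
    · exact ⟨r, this⟩
    · exact ⟨r, by rw [this, Int.negSucc_eq]; ring⟩
  refine ⟨a, Nat.pos_of_ne_zero fun e => by simp [e] at ha; omega, by exact_mod_cast ha,
    fun b hb => ?_⟩
  have := key b hb
  generalize Nat.card (orbit (stabilizer G a₀) b) = k at this
  have h : ((k : ℤ) - m - a) * (k - m + a + 1) * 2 = 0 := by linear_combination ha - this
  simp only [mul_eq_zero, OfNat.ofNat_ne_zero, or_false] at h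
  rcases h with h | h
  · right; zify; linear_combination h + ha
  · left; zify; linear_combination h + ha

end Cfsg.Agent.S0719
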