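import Cfsg.Statements.S0723
import Cfsg.Agent.Lib.Perm.Socle
import Cfsg.Agent.S0722

set_option autoImplicit false
open Cfsg

namespace Cfsg.Agent.S0723

open Cfsg.Lib.Perm Cfsg.Lib.Core Subgroup

theorem abstract {T : Type} [Group T] [Finite T] [IsSimpleGroup T] (hT : ¬ IsMulCommutative T)
    {m : ℕ} (A : Subgroup (MulAut (Fin m → T))) (L : Subgroup (Fin m → T)) (hL : L ≠ ⊤)
    (hAL : ∀ φ ∈ A, ∀ x ∈ L, φ x ∈ L)
    (hmax : ∀ X : Subgroup (Fin m → T), L ≤ X → (∀ φ ∈ A, ∀ x ∈ X, φ x ∈ X) → X = L ∨ X = ⊤)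
    (hmin : ∀ X : Subgroup (Fin m → T), X.Normal → (∀ φ ∈ A, ∀ x ∈ X, φ x ∈ X) → X = ⊥ ∨ X = ⊤) :
    (∃ K : Fin m → Subgroup T, (∀ i, K i ≠ ⊤) ∧ ∀ x, x ∈ L ↔ ∀ i, x i ∈ K i) ∨
    ∃ (θ : Fin m → T ≃* T) (k : ℕ) (c : Fin m → Fin m), 2 ≤ k ∧
      (∀ j : Fin m, Nat.card {i : Fin m // c i = j} = k ∨ Nat.card {i : Fin m // c i = j} = 0) ∧
      ∀ x, x ∈ L ↔ ∀ i j : Fin m, c i = c j → θ i (x i) = θ j (x j) := by
  classical
  obtain ⟨t₀, ht₀⟩ := exists_ne (1 : T)
  have hτ : ∀ (φ : MulAut (Fin m → T)) (j : Fin m), ∃ i, ∀ x, φ x j = 1 ↔ x i = 1 := fun φ j =>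
    exists_eq_proj_of_surjective hT ((Pi.evalMonoidHom (fun _ => T) j).comp φ.toMonoidHom)
      ((Function.surjective_eval j).comp φ.surjective)
  choose τ hτ using hτ
  have huniq : ∀ i j : Fin m, (∀ x : Fin m → T, x i = 1 → x j = 1) → i = j := by
    intro i j h
    by_contra hne
    exact ht₀ (by simpa using h (Pi.mulSingle j t₀) (by simp [hne]))
  have htrans : ∀ i j, ∃ φ ∈ A, τ φ j = i := by
    intro i j
    let X : Subgroup (Fin m → T) :=
      ⨅ l ∈ {l | ∃ φ ∈ A, τ φ l = i}, (Pi.evalMonoidHom (fun _ => T) l).ker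
    have hX : ∀ x, x ∈ X ↔ ∀ l, (∃ φ ∈ A, τ φ l = i) → x l = 1 := fun x => by
      simp [X, mem_iInf]
    rcases hmin X (normal_iInf_normal fun _ => normal_iInf_normal fun _ => inferInstance) (by
      intro φ hφ x hx
      rw [hX] at hx ⊢
      rintro l ⟨ψ, hψ, hl⟩
      rw [hτ]
      refine hx _ ⟨φ⁻¹ * ψ, A.mul_mem (A.inv_mem hφ) hψ, huniq _ _ fun y hy => ?_⟩
      rw [← hτ, ← hτ φ l] at hy
      rw [← hl, ← hτ]
      simpa using hy) with h | h
    · by_contra hne
      have : Pi.mulSingle j t₀ ∈ X := (hX _).2 fun l hl => by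
        have : l ≠ j := by rintro rfl; exact hne hl
        simp [this]
      rw [h, mem_bot] at this
      exact ht₀ (by simpa using congrFun this j)
    · exfalso
      have := (hX (Pi.mulSingle i t₀)).1 (h ▸ mem_top _) i ⟨1, A.one_mem, huniq _ _ fun y hy =>
        (hτ 1 i y).2 hy⟩
      exact ht₀ (by simpa using this)
  have hcoord : ∀ φ j (x y : Fin m → T), x (τ φ j) = y (τ φ j) → φ x j = φ y j := by
    intro φ j x y h
    have := (hτ φ j (x⁻¹ * y)).2 (by simp [h])
    simpa [inv_mul_eq_one] using this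
  let K : Fin m → Subgroup T := fun i => L.map (Pi.evalMonoidHom (fun _ => T) i)
  have hK : ∀ i t, t ∈ K i ↔ ∃ l ∈ L, l i = t := fun i t => mem_map
  by_cases hsub : ∀ i t, ∃ l ∈ L, l i = t
  swap
  · left
    push Not at hsub
    obtain ⟨i, t, hi⟩ := hsub
    have hne : ∀ j, K j ≠ ⊤ := by
      intro j hj
      obtain ⟨φ, hφ, hij⟩ := htrans j i
      obtain ⟨l, hl, e⟩ := (hK j (φ⁻¹ (Pi.mulSingle i t) j)).1 (hj ▸ mem_top _)
      refine hi _ (hAL φ hφ l hl) ?_
      rw [hcoord φ i l (φ⁻¹ (Pi.mulSingle i t)) (by rw [hij, e])]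
      simp
    refine ⟨K, hne, fun x => ?_⟩
    rcases hmax (pi Set.univ K) (fun l hl i _ => (hK i _).2 ⟨l, hl, rfl⟩) (by
      intro φ hφ x hx j _
      obtain ⟨l, hl, e⟩ := (hK _ _).1 (hx (τ φ j) trivial)
      exact (hK _ _).2 ⟨φ l, hAL φ hφ l hl, hcoord φ j _ _ e⟩) with h | h
    · rw [← h, mem_pi]; simp
    · exfalso
      refine hne i (eq_top_iff.2 fun s _ => ?_)
      simpa using (h ▸ mem_top _ : (Pi.mulSingle i s : Fin m → T) ∈ pi Set.univ K) i trivial
  right
  let r : Setoid (Fin m) := ⟨fun i j => ∀ y ∈ L, y i = 1 ↔ y j = 1, fun _ _ _ => Iff.rfl,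
    fun h y hy => (h y hy).symm, fun h1 h2 y hy => (h1 y hy).trans (h2 y hy)⟩
  let c : Fin m → Fin m := fun i => (Quotient.mk r i).out
  have hc : ∀ i j, c i = c j ↔ ∀ y ∈ L, y i = 1 ↔ y j = 1 := fun i j =>
    Quotient.out_inj.trans Quotient.eq
  have hcc : ∀ i, c (c i) = c i := fun i => by simp [c]
  have hθ : ∀ i, ∃ θ : T ≃* T, ∀ l ∈ L, θ (l i) = l (c i) := by
    intro i
    choose s hs hs' using hsub i
    have h1 : ∀ l ∈ L, s (l i) (c i) = l (c i) := by
      intro l hl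
      have := ((hc i (c i)).1 (hcc i).symm ((s (l i))⁻¹ * l)
        (L.mul_mem (L.inv_mem (hs _)) hl)).1 (by simp [hs'])
      simpa [inv_mul_eq_one] using this
    let f : T →* T := MonoidHom.mk' (fun t => s t (c i)) fun a b => by
      have := h1 (s a * s b) (L.mul_mem (hs a) (hs b))
      simpa [hs'] using this
    have hf : Function.Injective f := (injective_iff_map_eq_one f).2 fun t ht =>
      (hs' t).symm.trans (((hc i (c i)).1 (hcc i).symm _ (hs t)).2 ht)
    exact ⟨MulEquiv.ofBijective f (Finite.injective_iff_bijective.1 hf), h1⟩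
  choose θ hθ using hθ
  have hmem : ∀ x, x ∈ L ↔ ∀ i j : Fin m, c i = c j → θ i (x i) = θ j (x j) := by
    refine fun x => ⟨fun hx i j h => by rw [hθ i x hx, hθ j x hx, h], fun h => ?_⟩
    refine mem_subdirect hT hsub x fun i => ?_
    obtain ⟨l, hl, e⟩ := hsub i (x i)
    refine ⟨l, hl, fun j hj => (θ j).injective ?_⟩
    have hij : c j = c i := (hc j i).2 fun y hy => ⟨hj y hy, subdirect_symm hsub hj y hy⟩
    rw [h j i hij, hθ j l hl, hij, ← hθ i l hl, e]
  have hsize : ∀ i j, Nat.card {l // c l = c i} = Nat.card {l // c l = c j} := by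
    intro i j
    obtain ⟨φ, hφ, hij⟩ := htrans j i
    have hinj : Function.Injective (τ φ) := fun a b h => huniq _ _ fun y hy => by
      have := (hτ φ a (φ⁻¹ y)).1 (by simpa using hy)
      rw [h, ← hτ] at this
      simpa using this
    refine Nat.card_congr ((Equiv.ofBijective _ (Finite.injective_iff_bijective.1 hinj)).subtypeEquiv
      fun l => ?_)
    rw [Equiv.ofBijective_apply, ← hij, hc, hc]
    refine ⟨fun h y hy => ?_, fun h y hy => ?_⟩
    · rw [← hτ, ← hτ]
      exact h _ (hAL φ hφ y hy)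
    · have := h _ (hAL φ⁻¹ (A.inv_mem hφ) y hy)
      rw [← hτ, ← hτ] at this
      simpa using this
  obtain ⟨i, j, hij, hne⟩ : ∃ i j, c i = c j ∧ i ≠ j := by
    by_contra h
    push Not at h
    exact hL (eq_top_iff.2 fun x _ => (hmem x).2 fun i j hij => by rw [h i j hij])
  refine ⟨θ, Nat.card {l // c l = c i}, c, ?_, fun l => ?_, hmem⟩
  · exact Finite.one_lt_card_iff_nontrivial.2
      ⟨⟨i, rfl⟩, ⟨j, hij.symm⟩, fun h => hne (congrArg Subtype.val h)⟩
  · by_cases h : ∃ k, c k = l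
    · obtain ⟨k, rfl⟩ := h
      exact Or.inl (hsize k i)
    · push Not at h
      have : IsEmpty {k // c k = l} := ⟨fun k => h k.1 k.2⟩
      exact Or.inr Nat.card_of_isEmpty

/-- The core of the O'Nan–Scott Theorem. Let `H` be a primitive permutation group on a finite set whose unique minimal normal subgroup `N` is non-abelian, and `K` a point stabiliser. Then there are a non-abelian simple group `T` and an isomorphism `N ≃* T^m` (`m ≥ 1`) under which `K ⊓ N` becomes either a product `∏ K_i` of proper subgroups `K_i < T`, or the set of functions constant on each block of a partition of the index set into blocks of one common size `k ≥ 2`. -/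
theorem result {α : Type*} [Finite α] (H : Subgroup (Equiv.Perm α)) [MulAction.IsPreprimitive H α] (N : Subgroup H) [N.Normal] (hN : N ≠ ⊥) (hmin : ∀ M : Subgroup H, M.Normal → M ≤ N → M = ⊥ ∨ M = N) (huniq : ∀ L : Subgroup H, L.Normal → L ≠ ⊥ → (∀ M : Subgroup H, M.Normal → M ≤ L → M = ⊥ ∨ M = L) → L = N) (hnab : ¬ IsMulCommutative N) (a : α) : ∃ (T : Type) (_ : Group T) (m : ℕ) (e : N ≃* (Fin m → T)), IsSimpleGroup T ∧ ¬ IsMulCommutative T ∧ 0 < m ∧ ((∃ K : Fin m → Subgroup T, (∀ i, K i ≠ ⊤) ∧ ∀ n : N, (n : H) ∈ MulAction.stabilizer H a ↔ ∀ i, e n i ∈ K i) ∨ (∃ (k : ℕ) (c : Fin m → Fin m), 2 ≤ k ∧ (∀ j : Fin m, Nat.card {i : Fin m // c i = j} = k ∨ Nat.card {i : Fin m // c i = j} = 0) ∧ ∀ n : N, (n : H) ∈ MulAction.stabilizer H a ↔ ∀ i j : Fin m, c i = c j → e n i = e n j)) := by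
  obtain ⟨T, _, hT, m, hm, ⟨e⟩⟩ := IsMinNormal.exists_equiv_pi (N := N) ⟨inferInstance, hN, hmin⟩
  have hTab : ¬ IsMulCommutative T := fun h =>
    have := isMulCommutative_pi (ι := Fin m) (T := T)
    hnab ⟨⟨fun a b => e.injective (by rw [map_mul, map_mul, mul_comm'])⟩⟩
  have : Finite (Fin m → T) := Finite.of_equiv _ e.toEquiv
  have : Finite T := Finite.of_injective (fun t : T => fun _ : Fin m => t) fun a b h =>
    congrFun h ⟨0, hm⟩
  set K := MulAction.stabilizer H a with hK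
  let Φ : H →* MulAut (Fin m → T) := (MulAut.congr e).toMonoidHom.comp MulAut.conjNormal
  have hΦ : ∀ (h : H) (n : N), Φ h (e n) = e (MulAut.conjNormal h n) := fun h n => by
    simp [Φ]
  let L : Subgroup (Fin m → T) := (K.subgroupOf N).map e.toMonoidHom
  have hL : ∀ n : N, e n ∈ L ↔ (n : H) ∈ K := fun n =>
    mem_map_iff_mem (f := e.toMonoidHom) e.injective
  let pull : Subgroup (Fin m → T) → Subgroup H := fun X => (X.comap e.toMonoidHom).map N.subtype
  have hpull : ∀ X (n : N), (n : H) ∈ pull X ↔ e n ∈ X := fun X n =>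
    mem_map_iff_mem (f := N.subtype) N.subtype_injective
  have hpullK : ∀ X : Subgroup (Fin m → T), (∀ φ ∈ K.map Φ, ∀ x ∈ X, φ x ∈ X) →
      K ≤ normalizer (pull X : Set H) := by
    intro X hX
    rw [le_normalizer_iff]
    rintro k hk _ ⟨n, hn, rfl⟩
    have := hX _ (mem_map_of_mem Φ hk) _ hn
    exact (hpull X (MulAut.conjNormal k n)).2 (by rw [← hΦ]; exact this)
  have hple : ∀ X, pull X ≤ N := fun X => map_subtype_le _
  have htop : ∀ X, pull X = N → X = ⊤ := fun X h => eq_top_iff.2 fun x _ => by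
    obtain ⟨n, rfl⟩ := e.surjective x
    exact (hpull X n).1 (h.symm ▸ n.2)
  have hNt := isPretransitive_of_normal (α := α) N hN
  rcases abstract hTab (K.map Φ) L (fun h => hN (eq_bot_iff.2 fun n hn => by
      have h1 : ∀ n ∈ N, n • a = a := fun n hn => (hL ⟨n, hn⟩).1 (h ▸ mem_top _)
      refine mem_bot.2 (Subtype.ext (Equiv.ext fun b => ?_))
      obtain ⟨g, rfl⟩ := MulAction.exists_smul_eq N a b
      have h2 : g • a = a := h1 g g.2
      rw [h2]
      exact h1 n hn))
    (by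
      rintro _ ⟨k, hk, rfl⟩ x hx
      obtain ⟨n, rfl⟩ := e.surjective x
      rw [hΦ, hL]
      exact K.mul_mem (K.mul_mem hk ((hL n).1 hx)) (K.inv_mem hk))
    (fun X hLX hX => by
      rcases S0722.result H N hN hmin a (pull X) (hple X)
        (fun n hn => (hpull X ⟨n, hn.2⟩).2 (hLX ((hL _).2 hn.1))) (hpullK X hX) with h | h
      · refine Or.inl (le_antisymm (fun x hx => ?_) hLX)
        obtain ⟨n, rfl⟩ := e.surjective x
        exact (hL n).2 (h.le ((hpull X n).2 hx)).1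
      · exact Or.inr (htop X h))
    (fun X hXn hX => by
      have : (pull X).Normal := by
        refine ⟨fun x hx g => ?_⟩
        obtain ⟨n, hn⟩ := MulAction.exists_smul_eq N a (g • a)
        have h1 : (n : H)⁻¹ * g ∈ K := by
          rw [hK, MulAction.mem_stabilizer_iff, mul_smul, inv_smul_eq_iff]
          exact hn.symm
        have h2 := (le_normalizer_iff.1 (hpullK X hX)) _ h1 x hx
        have h3 := (hpull X ⟨_, hple X h2⟩).1 h2
        have h4 := hXn.conj_mem _ h3 (e n)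
        rw [← map_mul, ← map_inv, ← map_mul, ← hpull] at h4
        simpa [mul_assoc] using h4
      rcases hmin _ this (hple X) with h | h
      · refine Or.inl (eq_bot_iff.2 fun x hx => ?_)
        obtain ⟨n, rfl⟩ := e.surjective x
        have := (hpull X n).2 hx
        rw [h, mem_bot] at this
        rw [show n = 1 from Subtype.ext this, map_one]
        exact one_mem _
      · exact Or.inr (htop X h)) with ⟨K', h1, h2⟩ | ⟨θ, k, c, h1, h2, h3⟩
  · exact ⟨T, inferInstance, m, e, hT, hTab, hm, Or.inl ⟨K', h1, fun n => by rw [← hL, h2]⟩⟩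
  · exact ⟨T, inferInstance, m, e.trans (MulEquiv.piCongrRight θ), hT, hTab, hm,
      Or.inr ⟨k, c, h1, h2, fun n => by rw [← hL, h3]; rfl⟩⟩

end Cfsg.Agent.S0723
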