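import Cfsg.Statements.S0724
import Cfsg.Agent.Lib.Perm.Basic

set_option autoImplicit false
open Cfsg

namespace Cfsg.Agent.S0724

open Finset

/-- The order of the group divides the sum of the `k`-th powers of the fixed point numbers. -/
theorem dvd_sum_pow {G α : Type*} [Group G] [Fintype G] [Finite α] [MulAction G α] (k : ℕ) :
    Nat.card G ∣ ∑ g : G, Nat.card (MulAction.fixedBy α g) ^ k := by
  classical
  have := Fintype.ofFinite α
  have h := MulAction.sum_card_fixedBy_eq_card_orbits_mul_card_group G (Fin k → α)
  rw [Nat.card_eq_fintype_card]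
  refine Dvd.intro_left _ (h.symm.trans (Finset.sum_congr rfl fun g _ => ?_))
  rw [← Nat.card_eq_fintype_card]
  have e : MulAction.fixedBy (Fin k → α) g ≃ (Fin k → MulAction.fixedBy α g) :=
    { toFun := fun x i => ⟨x.1 i, congrFun x.2 i⟩
      invFun := fun y => ⟨fun i => y i, funext fun i => (y i).2⟩
      left_inv := fun _ => rfl
      right_inv := fun _ => rfl }
  rw [Nat.card_congr e, Nat.card_fun, Nat.card_fin]

theorem dvd_sum_eval {G α : Type*} [Group G] [Fintype G] [Finite α] [MulAction G α]
    (P : Polynomial ℤ) :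
    (Nat.card G : ℤ) ∣ ∑ g : G, P.eval (Nat.card (MulAction.fixedBy α g) : ℤ) := by
  induction P using Polynomial.induction_on' with
  | add p q hp hq => simpa [Finset.sum_add_distrib] using dvd_add hp hq
  | monomial k c =>
    simp only [Polynomial.eval_monomial, ← Finset.mul_sum]
    apply Dvd.dvd.mul_left
    exact_mod_cast dvd_sum_pow (G := G) (α := α) k

/-- Blichfeldt's Theorem: if a finite set `L` of natural numbers contains the number of fixed points of every non-identity element of a permutation group `G` of degree `n`, then the order of `G` divides `∏ (n - l)` over `l ∈ L`. -/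
theorem result {α : Type*} [Fintype α] [DecidableEq α] (G : Subgroup (Equiv.Perm α)) (L : Finset ℕ) (hL : ∀ g ∈ G, g ≠ 1 → Nat.card (MulAction.fixedBy α g) ∈ L) : Nat.card G ∣ ∏ l ∈ L, (Fintype.card α - l) := by
  classical
  by_cases hle : ∀ l ∈ L, l ≤ Fintype.card α
  swap
  · push Not at hle
    obtain ⟨l, hl, hlt⟩ := hle
    rw [Finset.prod_eq_zero hl (by omega)]
    exact dvd_zero _
  have h := dvd_sum_eval (G := G) (α := α) (∏ l ∈ L, (Polynomial.X - Polynomial.C (l : ℤ)))
  rw [Finset.sum_eq_single 1] at h
  · simp only [Polynomial.eval_prod, Polynomial.eval_sub, Polynomial.eval_X, Polynomial.eval_C,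
      MulAction.fixedBy_one_eq_univ, Nat.card_univ, Nat.card_eq_fintype_card (α := α)] at h
    rw [← Int.natCast_dvd_natCast, Nat.cast_prod]
    convert h using 1
    exact Finset.prod_congr rfl fun l hl => by rw [Nat.cast_sub (hle l hl)]
  · intro g _ hg
    rw [Polynomial.eval_prod]
    refine Finset.prod_eq_zero (hL g g.2 (by simpa using hg)) ?_
    simp only [Polynomial.eval_sub, Polynomial.eval_X, Polynomial.eval_C, sub_eq_zero]
    rfl
  · simp

end Cfsg.Agent.S0724
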