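import Cfsg.Statements.S0727
import Cfsg.Agent.Lib.Perm.Sharp3

set_option autoImplicit false
open Cfsg

namespace Cfsg.Agent.S0727

/-- A sharply triply transitive permutation group of degree `2^f + 1` is isomorphic to the projective general linear group of degree 2 over the field with `2^f` elements. -/
theorem result {α : Type*} [Fintype α] [DecidableEq α] {f : ℕ} (hf : 1 ≤ f) (hα : Fintype.card α = 2 ^ f + 1) (G : Subgroup (Equiv.Perm α)) (h3 : MulAction.IsMultiplyPretransitive G α 3) (hsharp : ∀ x : Fin 3 ↪ α, MulAction.stabilizer G x = ⊥) : ∃ (F : Type) (_ : Field F) (_ : Fintype F), Fintype.card F = 2 ^ f ∧ Nonempty (G ≃* Matrix.ProjGenLinGroup (Fin 2) F) := by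
  have hc : Nat.card α = 2 ^ f + 1 := by rw [Nat.card_eq_fintype_card, hα]
  have h2 : 2 ^ 1 ≤ 2 ^ f := Nat.pow_le_pow_right (by decide) hf
  have h := Lib.Perm.ZT.of_sharp h3 hsharp (by omega)
  obtain ⟨a⟩ := h.nonempty
  obtain ⟨b, hab⟩ := h.exists_ne a
  obtain ⟨s, h4, h5⟩ := h.two a b b a hab.symm hab
  have e := h.card_zker a
  have hn : Even (Nat.card (Lib.Perm.zker G a)) := by
    rw [show Nat.card (Lib.Perm.zker G a) = 2 ^ f by omega]
    exact (Nat.even_pow.2 ⟨by decide, by omega⟩)
  let _ := Fintype.ofFinite (GaloisField 2 f)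
  have hK := GaloisField.card 2 f (by omega)
  exact ⟨GaloisField 2 f, inferInstance, inferInstance, by rw [← Nat.card_eq_fintype_card, hK],
    h.nonempty_equiv_PGL hab.symm h4 h5
      (Lib.Inv.mul_self_of_orderOf (h.swap_of_even hab.symm hn h4 h5).1)
      (h.inverts_of_even hab.symm hn h4 h5) ((h.card_stab2_iff hab.symm).2 h3) _ (by omega)⟩

end Cfsg.Agent.S0727
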