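import Cfsg.Statements.S0730
import Cfsg.Agent.Lib.Perm.Sharp3
import Cfsg.Agent.Lib.Linear.FieldAut

set_option autoImplicit false
open Cfsg

namespace Cfsg.Agent.S0730

/-- A sharply triply transitive group of degree `p^f + 1`, `p` an odd prime and `f` odd, is isomorphic to the projective general linear group of degree 2 over the field with `p^f` elements (for even `f` there is a second, twisted, group). -/
theorem result {α : Type*} [Fintype α] [DecidableEq α] {p f : ℕ} (hp : p.Prime) (hp2 : p ≠ 2) (hfo : Odd f) (hα : Fintype.card α = p ^ f + 1) (G : Subgroup (Equiv.Perm α)) (h3 : MulAction.IsMultiplyPretransitive G α 3) (hsharp : ∀ x : Fin 3 ↪ α, MulAction.stabilizer G x = ⊥) : ∃ (F : Type) (_ : Field F) (_ : Fintype F), Fintype.card F = p ^ f ∧ Nonempty (G ≃* Matrix.ProjGenLinGroup (Fin 2) F) := by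
  have hc : Nat.card α = p ^ f + 1 := by rw [Nat.card_eq_fintype_card, hα]
  have hf : f ≠ 0 := by rintro rfl; simp at hfo
  have h2 : 1 < p ^ f := Nat.one_lt_pow hf hp.one_lt
  have h := Lib.Perm.ZT.of_sharp h3 hsharp (by omega)
  obtain ⟨a⟩ := h.nonempty
  obtain ⟨b, hab⟩ := h.exists_ne a
  have e := h.card_zker a
  have hd := (h.card_stab2_iff hab.symm).2 h3
  have := Fact.mk hp
  let _ := Fintype.ofFinite (GaloisField p f)
  have hK := GaloisField.card p f hf
  have hK' : Fintype.card (GaloisField p f) = p ^ f := by rw [← Nat.card_eq_fintype_card, hK]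
  obtain ⟨k, hk⟩ := (hp.odd_of_ne_two hp2).pow (n := f)
  refine ⟨GaloisField p f, inferInstance, inferInstance, hK', h.PGL_of_sharp hab.symm hd
    ⟨k, by omega⟩ _ (by omega) fun σ hσ x => ?_⟩
  let τ := RingEquiv.ofBijective σ (Function.Involutive.bijective hσ)
  have h1 := orderOf_dvd_natCard τ
  rw [Lib.Linear.card_ringAut hK'] at h1
  have : τ = 1 := Lib.Inv.eq_one_of_odd_of_mul_self (hfo.of_dvd_nat h1) (RingEquiv.ext hσ)
  exact congrArg (· x) this

end Cfsg.Agent.S0730
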