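import Cfsg.Statements.S0733
import Cfsg.Agent.Lib.Perm.Basic

set_option autoImplicit false
open Cfsg

namespace Cfsg.Agent.S0733

/-- A permutation group of affine type — generated by the translations of a finite vector space `V` over `ZMod p` together with a group `G₀` of linear automorphisms — is primitive on `V` if and only if `G₀` is irreducible on `V`. -/
theorem result {p : ℕ} [Fact p.Prime] {V : Type*} [AddCommGroup V] [Module (ZMod p) V] [Finite V] [Nontrivial V] (G₀ : Subgroup (V ≃ₗ[ZMod p] V)) (G : Subgroup (Equiv.Perm V)) (hG : ∀ σ : Equiv.Perm V, σ ∈ G ↔ ∃ g ∈ G₀, ∃ b : V, ∀ x : V, σ x = (g : V ≃ₗ[ZMod p] V) x + b) : MulAction.IsPreprimitive G V ↔ ∀ W : Submodule (ZMod p) V, (∀ g ∈ G₀, ∀ v ∈ W, (g : V ≃ₗ[ZMod p] V) v ∈ W) → W = ⊥ ∨ W = ⊤ := by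
  have htrans : ∀ b : V, Equiv.addRight b ∈ G := fun b => (hG _).2 ⟨1, G₀.one_mem, b, fun x => rfl⟩
  have hlin : ∀ g ∈ G₀, (g : V ≃ₗ[ZMod p] V).toEquiv ∈ G := fun g hg =>
    (hG _).2 ⟨g, hg, 0, fun x => by simp⟩
  constructor
  · intro hprim W hW
    have hB : MulAction.IsBlock G (W : Set V) := by
      rw [MulAction.isBlock_iff_smul_eq_of_mem]
      intro σ x hx hσx
      obtain ⟨g, hg, b, hb⟩ := (hG σ).1 σ.2
      have hσx' : g x + b ∈ W := by rw [← hb]; exact hσx
      have hbW : b ∈ W := by simpa using W.sub_mem hσx' (hW g hg x hx)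
      ext y
      constructor
      · rintro ⟨z, hz, rfl⟩
        change (σ : Equiv.Perm V) z ∈ W
        rw [hb]; exact W.add_mem (hW g hg z hz) hbW
      · intro hy
        refine ⟨g⁻¹ (y - b), hW _ (G₀.inv_mem hg) _ (W.sub_mem hy hbW), ?_⟩
        change (σ : Equiv.Perm V) _ = y
        rw [hb]
        simp
    rcases hB.subsingleton_or_eq_univ with h | h
    · left
      rw [eq_bot_iff]
      intro x hx
      exact h hx W.zero_mem
    · right
      exact SetLike.coe_injective h
  · intro hirr
    have : MulAction.IsPretransitive G V :=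
      ⟨fun x y => ⟨⟨_, htrans (y - x)⟩, by change x + (y - x) = y; simp⟩⟩
    refine MulAction.IsPreprimitive.of_isTrivialBlock_base (0 : V) fun {B} h0 hB => ?_
    have hadd : ∀ x ∈ B, ∀ y ∈ B, y + x ∈ B := by
      intro x hx y hy
      have := hB.smul_eq_of_mem (g := ⟨_, htrans x⟩) h0 (by change 0 + x ∈ B; simpa using hx)
      rw [← this]
      exact Set.smul_mem_smul_set (a := (⟨_, htrans x⟩ : G)) hy
    have hneg : ∀ x ∈ B, -x ∈ B := by
      intro x hx
      have := hB.smul_eq_of_mem (g := ⟨_, htrans (-x)⟩) hx (by change x + -x ∈ B; simpa using h0)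
      rw [← this]
      have h2 := Set.smul_mem_smul_set (a := (⟨_, htrans (-x)⟩ : G)) h0
      have h3 : (⟨_, htrans (-x)⟩ : G) • (0 : V) = -x := by change 0 + -x = -x; simp
      rwa [h3] at h2
    let A : AddSubgroup V :=
      { carrier := B, add_mem' := fun {x y} hx hy => hadd y hy x hx, zero_mem' := h0,
        neg_mem' := fun {x} hx => hneg x hx }
    rcases hirr (AddSubgroup.toZModSubmodule p A) (by
      intro g hg v hv
      have := hB.smul_eq_of_mem (g := ⟨_, hlin g hg⟩) h0 (by
        change g 0 ∈ B; simpa using h0)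
      change g v ∈ B
      rw [← this]
      exact Set.smul_mem_smul_set (a := (⟨_, hlin g hg⟩ : G)) hv) with h | h
    · left
      intro x hx y hy
      have hx' : x ∈ AddSubgroup.toZModSubmodule p A := hx
      have hy' : y ∈ AddSubgroup.toZModSubmodule p A := hy
      rw [h] at hx' hy'
      exact hx'.trans hy'.symm
    · right
      rw [Set.eq_univ_iff_forall]
      intro x
      have : x ∈ AddSubgroup.toZModSubmodule p A := h ▸ Submodule.mem_top
      exact this

end Cfsg.Agent.S0733
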