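import Cfsg.Statements.S0739
import Cfsg.Agent.Lib.Perm.Zass3

set_option autoImplicit false
open Cfsg

namespace Cfsg.Agent.S0739

/-- In a finite Zassenhaus group whose two-point stabiliser `H = G_{a,b}` has odd order `d`, and which has no normal `q`-complement for any prime `q ∣ d`, `H` is cyclic, `C_G(H) = H`, and every element swapping `a` and `b` inverts each element of `H`. -/
theorem result {G Ω : Type*} [Group G] [Finite G] [MulAction G Ω] [Fintype Ω] (hZ : Cfsg.IsZassenhausGroup G Ω) {a b : Ω} (hab : a ≠ b) (hodd : Odd (Nat.card ↥(MulAction.stabilizer G a ⊓ MulAction.stabilizer G b))) (hnil : ∀ q : ℕ, q.Prime → q ∣ Nat.card ↥(MulAction.stabilizer G a ⊓ MulAction.stabilizer G b) → ¬ ∃ N : Subgroup G, N.Normal ∧ N.index = q ^ (Nat.card G).factorization q) : IsCyclic ↥(MulAction.stabilizer G a ⊓ MulAction.stabilizer G b) ∧ Subgroup.centralizer ((MulAction.stabilizer G a ⊓ MulAction.stabilizer G b : Subgroup G) : Set G) = MulAction.stabilizer G a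 ⊓ MulAction.stabilizer G b ∧ ∀ s : G, s • a = b → s • b = a → ∀ h ∈ MulAction.stabilizer G a ⊓ MulAction.stabilizer G b, s * h * s⁻¹ = h⁻¹ := by
  have h := Lib.Perm.ZT.of_zassenhaus hZ
  have key := fun s h1 h2 => @h.inverts_of_odd G Ω _ _ a b s hab hodd hnil h1 h2
  obtain ⟨s, h1, h2⟩ := h.two a b b a hab hab.symm
  have hc := Lib.Perm.isMulCommutative_of_inverted (key s h1 h2)
  refine ⟨h.cyclic_of_ab hab le_rfl hc, le_antisymm (fun g hg => ?_) (Lib.BG.abelian_cent hc), key⟩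
  obtain ⟨k, hk, hk1⟩ := Lib.BG.exists_ne_one (Lib.Perm.stab2_ne_bot hZ hab)
  have e : g * k * g⁻¹ = k := by rw [← Lib.BG.mem_cent.1 hg k hk, mul_inv_cancel_right]
  refine (h.mem_pairStab_of_conj hab hk hk1 (by rwa [e])).resolve_right fun ⟨h3, h4⟩ => hk1 ?_
  exact Lib.Inv.eq_one_of_odd_of_mul_self (Lib.Inv.odd_orderOf_of_mem hodd hk)
    (by rw [← eq_inv_iff_mul_eq_one, ← key g h3 h4 k hk, e])

end Cfsg.Agent.S0739
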