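import Cfsg.Statements.S0740
import Cfsg.Agent.Lib.Perm.Witt

set_option autoImplicit false
open Cfsg

namespace Cfsg.Agent.S0740

/-- In a finite Zassenhaus group any two points `a ≠ b` are swapped by an involution; every such involution has exactly one fixed point when the degree is odd and 0 or 2 fixed points when the degree is even; and if the two-point stabiliser has even order, some such involution has exactly 2 fixed points. -/
theorem result {G Ω : Type*} [Group G] [Finite G] [MulAction G Ω] [Fintype Ω] (hZ : Cfsg.IsZassenhausGroup G Ω) {a b : Ω} (hab : a ≠ b) : (∃ s : G, orderOf s = 2 ∧ s • a = b ∧ s • b = a) ∧ (∀ s : G, orderOf s = 2 → s • a = b → s • b = a → (Odd (Fintype.card Ω) → Nat.card (MulAction.fixedBy Ω s) = 1) ∧ (Even (Fintype.card Ω) → Nat.card (MulAction.fixedBy Ω s) = 0 ∨ Nat.card (MulAction.fixedBy Ω s) = 2)) ∧ (Even (Fintype.card Ω) → Even (Nat.card ↥(MulAction.stabilizer G a ⊓ MulAction.stabilizer G b)) → ∃ s : G, orderOf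 s = 2 ∧ s • a = b ∧ s • b = a ∧ Nat.card (MulAction.fixedBy Ω s) = 2) := by
  obtain ⟨hf, h2, h3, -, -⟩ := hZ
  have hn' : Nat.card Ω = Fintype.card Ω := Nat.card_eq_fintype_card
  have two := Lib.Perm.two_iff.1 h2
  have hconj : ∀ (s : G) (c : Ω), orderOf s = 2 → s • c ≠ c →
      ∃ t : G, orderOf t = 2 ∧ t • a = b ∧ t • b = a ∧
        Nat.card (MulAction.fixedBy Ω t) = Nat.card (MulAction.fixedBy Ω s) := by
    intro s c hs hc
    obtain ⟨g, hg1, hg2⟩ := two c (s • c) a b hc.symm hab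
    refine ⟨g * s * g⁻¹, (Lib.Inv.orderOf_conj' g s).trans hs, ?_, ?_, ?_⟩
    · rw [← hg1, ← hg2]; simp [mul_smul]
    · rw [← hg1, ← hg2, mul_smul, mul_smul, inv_smul_smul, ← mul_smul s s,
        Lib.Inv.mul_self_of_orderOf hs, one_smul]
    · rw [← MulAction.smul_fixedBy, Nat.card_coe_set_eq, Nat.card_coe_set_eq, Set.ncard_smul_set]
  have hmove : ∀ s : G, s ≠ 1 → ∃ c : Ω, s • c ≠ c := by
    intro s hs
    by_contra h
    push Not at h
    exact hs (FaithfulSMul.eq_of_smul_eq_smul (α := Ω) fun x => by rw [h, one_smul])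
  have hle : ∀ s : G, s ≠ 1 → Nat.card (MulAction.fixedBy Ω s) ≤ 2 := by
    intro s hs
    by_contra h
    rw [not_le, Nat.card_coe_set_eq, Set.two_lt_ncard_iff] at h
    obtain ⟨x, y, z, hx, hy, hz, hxy, hxz, hyz⟩ := h
    exact hs (h3 s x y z hxy hyz hxz hx hy hz)
  have hmod : ∀ s : G, orderOf s = 2 →
      Fintype.card Ω ≡ Nat.card (MulAction.fixedBy Ω s) [MOD 2] := fun s hs =>
    hn' ▸ Lib.Perm.card_modEq_fixedBy (k := 1) (by rw [pow_one, ← hs, pow_orderOf_eq_one])
  refine ⟨?_, fun s hs _ _ => ?_, fun hev hev2 => ?_⟩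
  · obtain ⟨g, hg1, hg2⟩ := two a b b a hab hab.symm
    have hev : Even (orderOf g) := by
      by_contra hodd
      rw [Nat.not_even_iff_odd] at hodd
      obtain ⟨k, hk⟩ := Lib.Inv.exists_sq_pow_eq_of_odd hodd
      have : g ∈ MulAction.stabilizer G a := by
        rw [← hk]
        exact Subgroup.pow_mem _ (by rw [MulAction.mem_stabilizer_iff, mul_smul, hg1, hg2]) k
      exact hab (this.symm.trans hg1)
    have hs := Lib.Inv.orderOf_pow_half (orderOf_pos g).ne' hev
    obtain ⟨c, hc⟩ := hmove _ (Lib.Inv.ne_one_of_orderOf hs)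
    obtain ⟨t, h1, h2, h3, -⟩ := hconj _ c hs hc
    exact ⟨t, h1, h2, h3⟩
  · have h1 := hle s (Lib.Inv.ne_one_of_orderOf hs)
    have h2 := hmod s hs
    rw [Nat.odd_iff, Nat.even_iff]
    unfold Nat.ModEq at h2
    omega
  · obtain ⟨s, hs1, hs⟩ := Lib.Inv.exists_involution_mem_of_even hev2
    obtain ⟨c, hc⟩ := hmove _ (Lib.Inv.ne_one_of_orderOf hs)
    obtain ⟨t, h1, h2, h3, h4⟩ := hconj _ c hs hc
    refine ⟨t, h1, h2, h3, h4.trans (le_antisymm (hle s (Lib.Inv.ne_one_of_orderOf hs)) ?_)⟩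
    rw [Nat.card_coe_set_eq, Nat.succ_le_iff, Set.one_lt_ncard]
    exact ⟨a, hs1.1, b, hs1.2, hab⟩

end Cfsg.Agent.S0740
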