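import Cfsg.Statements.S0742
import Cfsg.Agent.Lib.Perm.Sharp3

set_option autoImplicit false
open Cfsg

namespace Cfsg.Agent.S0742

/-- A finite Zassenhaus group of degree `n + 1` with two-point stabilisers of even order `d` satisfying `2d ≤ n - 1` has `n = p^f` for an odd prime `p` and is isomorphic to `PSL(2, p^f)`. -/
theorem result {G Ω : Type*} [Group G] [Finite G] [MulAction G Ω] [Fintype Ω] (hZ : Cfsg.IsZassenhausGroup G Ω) {a b : Ω} (hab : a ≠ b) (heven : Even (Nat.card ↥(MulAction.stabilizer G a ⊓ MulAction.stabilizer G b))) (hd : 2 * Nat.card ↥(MulAction.stabilizer G a ⊓ MulAction.stabilizer G b) ≤ Fintype.card Ω - 2) : ∃ (p f : ℕ) (K : Type) (_ : Field K) (_ : Fintype K), p.Prime ∧ p ≠ 2 ∧ Fintype.card K = p ^ f ∧ Fintype.card Ω = p ^ f + 1 ∧ Nonempty (G ≃* Matrix.ProjectiveSpecialLinearGroup (Fin 2) K) := by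
  have h := Lib.Perm.ZT.of_zassenhaus hZ
  have e := h.card_zker a
  rw [Nat.card_eq_fintype_card (α := Ω)] at e
  have h1 := h.large_of_even hab heven
  have h2 := h.two_le_card_zker a
  have hd' : 2 * Nat.card (Lib.Perm.stab2 G a b) + 1 = Nat.card (Lib.Perm.zker G a) := by
    change 2 * Nat.card (Lib.Perm.stab2 G a b) ≤ _ at hd; omega
  obtain ⟨p, hp, hE⟩ := h.elab_of_large hab h1
  have := Fact.mk hp
  obtain ⟨f, hf⟩ := (Lib.PGroup.elemAb_isPGroup hE).exists_card_eq
  have hf0 : f ≠ 0 := by rintro rfl; simp [hf] at h2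
  have hs : ∀ s : G, s • a = b → s • b = a → s * s = 1 := fun s h3 h4 =>
    Lib.Inv.mul_self_of_orderOf (h.swap_of_even_small hab heven (by omega) h3 h4).1
  obtain ⟨s, h4, h5⟩ := h.two a b b a hab hab.symm
  let _ := Fintype.ofFinite (GaloisField p f)
  have hK := GaloisField.card p f hf0
  refine ⟨p, f, GaloisField p f, inferInstance, inferInstance, hp, ?_,
    by rw [← Nat.card_eq_fintype_card, hK], by omega, h.nonempty_equiv_PSL hab h4 h5 (hs s h4 h5)
      (h.inverts_of_forall_swap hs h4 h5) hd' _ (by omega)⟩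
  rintro rfl
  have : Even (2 ^ f) := Nat.even_pow.2 ⟨by decide, hf0⟩
  rw [← hf, ← hd'] at this
  simp at this

end Cfsg.Agent.S0742
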