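import Cfsg.Statements.S0747
import Cfsg.Agent.Lib.Perm.LW2

set_option autoImplicit false
open scoped Pointwise
open Cfsg

namespace Cfsg.Agent.S0747

/-- In a `k`-transitive permutation group with `4 ≤ k < n`, some `(k+1)`-subset `Δ` has the property that every even permutation of `Δ` is induced by an element of the group stabilising `Δ`. -/
theorem result {α : Type*} [Fintype α] [DecidableEq α] (G : Subgroup (Equiv.Perm α)) {k : ℕ} (hk : 4 ≤ k) (hkn : k < Fintype.card α) (hG : MulAction.IsMultiplyPretransitive G α k) : ∃ Δ : Finset α, Δ.card = k + 1 ∧ ∀ σ : Equiv.Perm ↥Δ, σ ∈ alternatingGroup ↥Δ → ∃ g ∈ G, ∀ x : ↥Δ, g (x : α) = σ x := by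
  obtain ⟨x, hx, h⟩ := Lib.Perm.exists_alt_le_ind hk hkn hG
  have hc : (Finset.univ.image x).card = k + 1 := by
    rw [Finset.card_image_of_injective _ hx]; simp
  refine ⟨Finset.univ.image x, hc, fun σ hσ => ?_⟩
  let e : Fin (k + 1) ≃ ↥(Finset.univ.image x) := Equiv.ofBijective (fun i => ⟨x i, by simp⟩)
    ⟨fun i j hij => hx (congrArg Subtype.val hij), fun y => by
      obtain ⟨i, -, hi⟩ := Finset.mem_image.1 y.2
      exact ⟨i, Subtype.ext hi⟩⟩
  obtain ⟨g, hg⟩ := h (x := e.symm.permCongr σ) (by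
    rw [Equiv.Perm.mem_alternatingGroup] at hσ ⊢
    rw [Equiv.Perm.sign_permCongr, hσ])
  refine ⟨g, g.2, fun y => ?_⟩
  obtain ⟨i, rfl⟩ := e.surjective y
  refine (hg i).trans ?_
  change (e _ : α) = _
  simp

end Cfsg.Agent.S0747
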