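import Cfsg.Statements.S0756
import Cfsg.Agent.Lib.Orth.Diag

set_option autoImplicit false
open Cfsg

namespace Cfsg.Agent.S0756

open Cfsg.Lib.Orth QuadraticMap

/-- Classification of symmetric bilinear forms over finite fields of odd characteristic: if B is non-degenerate symmetric on V of dimension n + 1 and α is a fixed non-square of F, there is an orthogonal basis b_0, ..., b_n with B(b_i, b_i) = 1 for i < n and B(b_n, b_n) ∈ {1, α}. -/
theorem result {F V : Type*} [Field F] [Finite F] [AddCommGroup V] [Module F V] [FiniteDimensional F V] (h2 : (2 : F) ≠ 0) (B : LinearMap.BilinForm F V) (hS : B.IsSymm) (hB : B.Nondegenerate) {n : ℕ} (hn : Module.finrank F V = n + 1) (α : F) (hα : ¬ IsSquare α) : ∃ b : Module.Basis (Fin (n + 1)) F V, (∀ i j, i ≠ j → B (b i) (b j) = 0) ∧ (∀ i, i ≠ Fin.last n → B (b i) (b i) = 1) ∧ (B (b (Fin.last n)) (b (Fin.last n)) = 1 ∨ B (b (Fin.last n)) (b (Fin.last n)) = α) := by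
  have hQ := nd_toQuadraticMap h2 hS hB
  obtain ⟨β, hβ, hd⟩ : ∃ β : F, (β = 1 ∨ β = α) ∧
      disc B.toQuadraticMap = sqsign ((2 : F) ^ (n + 1) * β) := by
    have h0 := ne_zero_of_not_isSquare hα
    by_cases h : disc B.toQuadraticMap = sqsign ((2 : F) ^ (n + 1))
    · exact ⟨1, Or.inl rfl, by rw [mul_one, h]⟩
    · refine ⟨α, Or.inr rfl, ?_⟩
      rw [sqsign_mul (pow_ne_zero _ h2) h0, sqsign_of_not_isSquare hα]
      rcases Int.units_eq_one_or (disc B.toQuadraticMap) with h1 | h1 <;>
      rcases Int.units_eq_one_or (sqsign ((2 : F) ^ (n + 1))) with h3 | h3 <;>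
      simp_all
  have hβ0 : β ≠ 0 := by
    rcases hβ with rfl | rfl
    · exact one_ne_zero
    · exact ne_zero_of_not_isSquare hα
  let w : Fin (n + 1) → F := fun i => if i = Fin.last n then β else 1
  have hw : ∀ i, w i ≠ 0 := fun i => by simp only [w]; split_ifs <;> simp [hβ0]
  obtain ⟨e, he⟩ := equivalent_iff.1 (equivalent_of_disc_eq (nd_qDiag h2 hw) hQ h2 (by simp [hn])
    (by rw [hd, disc_qDiag]; simp [w]))
  have h1 : ∀ i, B (e (Pi.single i 1)) (e (Pi.single i 1)) = w i := fun i => by
    simpa [qDiag_single] using he (Pi.single i 1)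
  refine ⟨(Pi.basisFun F _).map e, fun i j hij => ?_, fun i hi => by simp [h1, w, hi],
    by simpa [h1, w] using hβ⟩
  have := polar_of_isom' e he (Pi.single i 1) (Pi.single j 1)
  rw [polar_toQuadraticMap_of_symm hS, polar_qDiag_single] at this
  simpa [h2, Pi.single_apply, hij] using this

end Cfsg.Agent.S0756
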