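import Cfsg.Statements.S0758
import Cfsg.Agent.Lib.Orth.Finite

set_option autoImplicit false
open Cfsg

namespace Cfsg.Agent.S0758

open Cfsg.Lib.Orth QuadraticMap

theorem aux {F : Type*} [Field F] {a : F} (ha : a ≠ 0) :
    (∃ x y : F, (x ≠ 0 ∨ y ≠ 0) ∧ x ^ 2 + a * y ^ 2 = 0) ↔ IsSquare (-a) := by
  constructor
  · rintro ⟨x, y, h0, h⟩
    have hy : y ≠ 0 := by
      rintro rfl
      simp at h h0; exact h0 h
    exact ⟨x / y, by field_simp; linear_combination -h⟩
  · rintro ⟨r, hr⟩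
    exact ⟨r, 1, Or.inr one_ne_zero, by linear_combination -hr⟩

/-- For a finite field F of odd order q and a non-square α: the form x² + y² is isotropic iff q ≡ 1 mod 4, and the form x² + α y² is isotropic iff q ≡ 3 mod 4. -/
theorem result {F : Type*} [Field F] [Fintype F] (h2 : (2 : F) ≠ 0) (α : F) (hα : ¬ IsSquare α) : ((∃ x y : F, (x ≠ 0 ∨ y ≠ 0) ∧ x ^ 2 + y ^ 2 = 0) ↔ Fintype.card F % 4 = 1) ∧ ((∃ x y : F, (x ≠ 0 ∨ y ≠ 0) ∧ x ^ 2 + α * y ^ 2 = 0) ↔ Fintype.card F % 4 = 3) := by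
  have hodd : Fintype.card F % 2 = 1 := Nat.odd_iff.1 (odd_card_iff.2 h2)
  have h0 := ne_zero_of_not_isSquare hα
  constructor
  · have := aux (one_ne_zero (α := F))
    simp only [one_mul] at this
    rw [this, ← sqsign_eq_one_iff, sqsign_neg_one]; omega
  · rw [aux h0, ← sqsign_eq_one_iff, neg_eq_neg_one_mul, sqsign_mul (by simp) h0,
      sqsign_of_not_isSquare hα]
    have := sqsign_neg_one (F := F)
    rcases Int.units_eq_one_or (sqsign (-1 : F)) with h | h <;> simp [h] at this ⊢ <;> omega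

end Cfsg.Agent.S0758
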