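import Cfsg.Statements.S0759
import Cfsg.Agent.Lib.Orth.Diag

set_option autoImplicit false
open Cfsg

namespace Cfsg.Agent.S0759

open Cfsg.Lib.Orth QuadraticMap

/-- Type of the orthonormal form: over a finite field of odd order q and for m ≥ 1, the quadratic form Σ_(i<2m) x_i² on F^(2m) admits an m-dimensional subspace on which it vanishes identically if and only if it is not the case that q ≡ 3 (mod 4) and m is odd. -/
theorem result {F : Type*} [Field F] [Fintype F] (h2 : (2 : F) ≠ 0) (m : ℕ) (hm : 1 ≤ m) : (∃ W : Submodule F (Fin (2 * m) → F), Module.finrank F W = m ∧ ∀ w ∈ W, ∑ i, w i ^ 2 = 0) ↔ ¬ (Fintype.card F % 4 = 3 ∧ Odd m) := by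
  have hQ : ND (qDiag fun _ : Fin (2 * m) => (1 : F)) := nd_qDiag h2 fun _ => one_ne_zero
  have h1 := wittIndex_eq_iff_disc hQ h2 (m := m) (by simp)
  have h3 := two_mul_wittIndex_le hQ
  rw [disc_qDiag] at h1
  simp only [Fintype.card_fin, Finset.prod_const_one, mul_one, Module.finrank_fin_fun] at h1 h3
  rw [show (2 : F) ^ (2 * m) = (2 ^ m) ^ 2 by ring, sqsign_sq, eq_comm (a := (1 : ℤˣ)), sqsign_neg_one_pow h2,
    pow_mod_four_eq_one_iff (odd_card_iff.2 h2)] at h1
  rw [← h1, show (wittIndex (qDiag fun _ : Fin (2 * m) => (1 : F)) = m) ↔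
    m ≤ wittIndex (qDiag fun _ : Fin (2 * m) => (1 : F)) by omega, ← exists_ts_finrank_eq_iff]
  refine exists_congr fun W => and_comm.trans (and_congr_left' ?_)
  simp [TS, qDiag_apply]

end Cfsg.Agent.S0759
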