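import Cfsg.Statements.S0761
import Mathlib

set_option autoImplicit false
open Cfsg

namespace Cfsg.Agent.S0761

/-- Hyperbolic partners: let B be a non-degenerate bilinear form on a finite-dimensional space, either alternating, or symmetric with 2 ≠ 0. If Z is a subspace on which B vanishes, x ∉ Z is isotropic and orthogonal to Z, then there is an isotropic y with B x y = 1 which is orthogonal to Z. -/
theorem result {F V : Type*} [Field F] [AddCommGroup V] [Module F V] [FiniteDimensional F V] (B : LinearMap.BilinForm F V) (hB : B.Nondegenerate) (hform : B.IsAlt ∨ (B.IsSymm ∧ (2 : F) ≠ 0)) (x : V) (Z : Submodule F V) (hxZ : x ∉ Z) (hx : B x x = 0) (hxz : ∀ z ∈ Z, B x z = 0) (hZ : ∀ z ∈ Z, ∀ z' ∈ Z, B z z' = 0) : ∃ y : V, B y y = 0 ∧ B x y = 1 ∧ ∀ z ∈ Z, B z y = 0 := by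
  have hrefl : B.IsRefl := hform.elim (fun h => h.isRefl) fun h => h.1.isRefl
  have h1 : ∃ y ∈ B.orthogonal Z, B x y ≠ 0 := by
    by_contra hc
    push Not at hc
    apply hxZ
    rw [← LinearMap.BilinForm.orthogonal_orthogonal hB hrefl Z]
    intro y hy
    exact hrefl _ _ (hc y hy)
  obtain ⟨y, hy, hxy⟩ := h1
  have hy' : ∀ z ∈ Z, B z y = 0 := fun z hz => hy z hz
  have hxz' : ∀ z ∈ Z, B z x = 0 := fun z hz => hrefl _ _ (hxz z hz)
  rcases hform with hA | ⟨hS, h2⟩
  · refine ⟨(B x y)⁻¹ • y, hA _, by simp [hxy], fun z hz => by simp [hy' z hz]⟩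
  · have hyx : B y x = B x y := hS.eq y x
    refine ⟨(B x y)⁻¹ • y - (B y y / (2 * (B x y) ^ 2)) • x, ?_, ?_, fun z hz => ?_⟩
    · simp [hx, hyx]; field_simp; ring
    · simp [hx, hxy]
    · simp [hy' z hz, hxz' z hz]

end Cfsg.Agent.S0761
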