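import Cfsg.Statements.S0763
import Cfsg.Agent.Lib.Orth.Class

set_option autoImplicit false
open Cfsg

namespace Cfsg.Agent.S0763

open Cfsg.Lib.Orth QuadraticMap

/-- Binary quadratic forms in characteristic two over a finite field: if Q is a quadratic form on a 2-dimensional space whose polar form is non-degenerate, then either there are vectors v, w with Q v = Q w = 0 and polar value 1 (Q is xy in these coordinates), or there are v, w and μ with Q v = 1, Q w = μ, polar value 1 and x² + x + μ without roots in F (Q is x² + xy + μy²). -/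
theorem result {F V : Type*} [Field F] [Finite F] [CharP F 2] [AddCommGroup V] [Module F V] (Q : QuadraticForm F V) (h2 : Module.finrank F V = 2) (hQ : (QuadraticMap.polarBilin Q).Nondegenerate) : (∃ v w : V, LinearIndependent F ![v, w] ∧ Q v = 0 ∧ Q w = 0 ∧ QuadraticMap.polar Q v w = 1) ∨ (∃ (v w : V) (μ : F), LinearIndependent F ![v, w] ∧ (∀ x : F, x ^ 2 + x + μ ≠ 0) ∧ Q v = 1 ∧ Q w = μ ∧ QuadraticMap.polar Q v w = 1) := by
  have : FiniteDimensional F V := Module.finite_of_finrank_eq_succ h2
  by_cases hA : Q.Anisotropic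
  · right
    obtain ⟨ζ, hζ⟩ := exists_aniso_one F
    obtain ⟨e, he⟩ := equivalent_iff.1 (equivalent_qBin hQ h2 hA hζ).symm
    refine ⟨e (Pi.single 0 1), e (Pi.single 1 1), ζ, ?_, aniso_one_iff.1 hζ, by simp [he, qBin_apply],
      by simp [he, qBin_apply], by simp [polar_of_isom' e he, polar_qBin]⟩
    have := ((Pi.basisFun F (Fin 2)).map e).linearIndependent
    convert this using 1
    ext i; fin_cases i <;> simp
  · left
    simp only [Anisotropic, not_forall] at hA
    obtain ⟨e, he, h0⟩ := hA
    obtain ⟨f, h⟩ := exists_isHyp hQ he h0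
    exact ⟨e, f, h.linearIndependent, h.left, h.right, h.polar_eq⟩

end Cfsg.Agent.S0763
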