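import Cfsg.Statements.S0768
import Cfsg.Agent.Lib.Symp.Group

set_option autoImplicit false
open scoped LinearAlgebra.Projectivization
open Cfsg

namespace Cfsg.Agent.S0768

/-- Primitivity: for m ≥ 1 and F finite, the symplectic group of the form sympForm (as a subgroup of the general linear group) acts primitively on the projective space of F^(2m). -/
theorem result {F : Type*} [Field F] [Finite F] (m : ℕ) (hm : 1 ≤ m) : MulAction.IsPreprimitive ↥(Cfsg.spGL m F) (ℙ F (Fin m ⊕ Fin m → F)) := by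
  refine Cfsg.Lib.Symp.isPreprimitive_of_isom (Cfsg.Lib.Symp.bil_isAlt (Fin m) F)
    (Cfsg.Lib.Symp.bil_nondegenerate (Fin m) F) _ fun g hg => ?_
  obtain ⟨A, hA⟩ := Cfsg.Lib.Symp.exists_sp_of_mem_isom hg
  refine ⟨⟨⟨A.1, (A⁻¹).1, ?_, ?_⟩, fun u v => ?_⟩, fun p => ?_⟩
  · rw [← Submonoid.coe_mul, mul_inv_cancel, Submonoid.coe_one]
  · rw [← Submonoid.coe_mul, inv_mul_cancel, Submonoid.coe_one]
  · rw [Cfsg.Lib.Symp.sympForm_eq_bil, Cfsg.Lib.Symp.sympForm_eq_bil]
    exact Cfsg.Lib.Symp.bil_mulVec A u v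
  · induction p using Projectivization.ind with | _ v hv =>
    rw [Subgroup.smul_def, Projectivization.smul_mk, Projectivization.smul_mk]
    congr 1
    exact hA v

end Cfsg.Agent.S0768
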