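import Cfsg.Statements.S0772
import Cfsg.Agent.Lib.Linear.MaxSub

set_option autoImplicit false
open Cfsg

namespace Cfsg.Agent.S0772

/-- Maximal parabolics are maximal: over a finite field, for 0 < k < n the stabiliser in GL_n of the span of the first k coordinate vectors is a maximal proper subgroup. -/
theorem result {F : Type*} [Field F] [Finite F] (n k : ℕ) (hk0 : 0 < k) (hkn : k < n) : IsCoatom (Cfsg.stabilizing (Cfsg.glToMat (Fin n) F) {v : Fin n → F | ∀ i : Fin n, k ≤ (i : ℕ) → v i = 0}) := by
  let W : Submodule F (Fin n → F) :=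
    { carrier := {v | ∀ i : Fin n, k ≤ (i : ℕ) → v i = 0}
      add_mem' := fun ha hb i hi => by simp [ha i hi, hb i hi]
      zero_mem' := fun _ _ => rfl
      smul_mem' := fun c _ ha i hi => by simp [ha i hi] }
  refine Cfsg.Lib.Linear.isCoatom_subspaceStabilizer (W := W) (fun h => ?_) fun h => ?_
  · have h1 : (Pi.single ⟨0, by omega⟩ 1 : Fin n → F) ∈ W := fun i hi =>
      Pi.single_eq_of_ne (by rintro rfl; simp at hi; omega) _
    rw [h, Submodule.mem_bot] at h1
    simpa using congrFun h1 ⟨0, by omega⟩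
  · have h1 : (fun _ => 1 : Fin n → F) ∈ W := h ▸ Submodule.mem_top
    exact one_ne_zero (h1 ⟨k, hkn⟩ le_rfl)

end Cfsg.Agent.S0772
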