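import Cfsg.Statements.S0773
import Cfsg.Agent.Lib.Symp.Levi
import Cfsg.Agent.Lib.Linear.Aut

set_option autoImplicit false
open Cfsg

namespace Cfsg.Agent.S0773

open Cfsg.Lib Cfsg.Lib.Symp Cfsg.Lib.Linear Matrix Module

/-- The stabilisers in GL_n(F), F finite, of the coordinate subspaces of dimensions k and n − k are isomorphic groups, but when 2k ≠ n (and 0 < k < n) no element of GL_n conjugates one onto the other. -/
theorem result {F : Type*} [Field F] [Finite F] (n k : ℕ) (hk0 : 0 < k) (hkn : k < n) (h2 : 2 * k ≠ n) : Nonempty (↥(Cfsg.stabilizing (Cfsg.glToMat (Fin n) F) {v : Fin n → F | ∀ i : Fin n, k ≤ (i : ℕ) → v i = 0}) ≃* ↥(Cfsg.stabilizing (Cfsg.glToMat (Fin n) F) {v : Fin n → F | ∀ i : Fin n, n - k ≤ (i : ℕ) → v i = 0})) ∧ ∀ g : Matrix.GeneralLinearGroup (Fin n) F, (Cfsg.stabilizing (Cfsg.glToMat (Fin n) F) {v : Fin n → F | ∀ i : Fin n, k ≤ (i : ℕ) → v i = 0}).map (MulAut.conj g).toMonoidHom ≠ Cfsg.stabilizing (Cfsg.glToMat (Fin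 n) F) {v : Fin n → F | ∀ i : Fin n, n - k ≤ (i : ℕ) → v i = 0} := by
  have h1 : ∀ (j : ℕ) (g : GL (Fin n) F), g ∈ stabilizing (glToMat (Fin n) F)
      {v : Fin n → F | ∀ i : Fin n, j ≤ (i : ℕ) → v i = 0} ↔
      ∀ a b : Fin n, j ≤ a → ¬ j ≤ b → g.1 a b = 0 := fun j g =>
    mem_stabilizing_coord (fun i : Fin n => j ≤ i) fun _ => Iff.rfl
  let e : GL (Fin n) F ≃* GL (Fin n) F := graphGL.trans (congrGL Fin.revPerm (.refl F))
  refine ⟨⟨(e.subgroupMap _).trans (MulEquiv.subgroupCongr (Subgroup.ext fun g => ?_))⟩, fun g hg => ?_⟩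
  · obtain ⟨g, rfl⟩ := e.surjective g
    refine (Subgroup.mem_map_iff_mem e.injective).trans ?_
    rw [← inv_mem_iff, h1, h1]
    exact ⟨fun h a b ha hb => h b.rev a.rev (by simp; omega) (by simp; omega), fun h a b ha hb => by
      simpa [e, graphGL_coe] using h b.rev a.rev (by simp; omega) (by simp; omega)⟩
  let W : ℕ → Submodule F (Fin n → F) := fun j => .pi {i | j ≤ i} fun _ => ⊥
  have hW : ∀ j ≤ n, finrank F (W j) = j := fun j hj => by
    refine (LinearEquiv.ofBijective ((LinearMap.funLeft F F (Fin.castLE hj)).domRestrict (W j))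
      ⟨(injective_iff_map_eq_zero _).2 fun v hv => Subtype.ext (funext fun i => ?_), fun v =>
        ⟨⟨fun i => if h : i < j then v ⟨i, h⟩ else 0, fun i hi => dif_neg (not_lt.2 hi)⟩,
          funext fun i => dif_pos i.2⟩⟩).finrank_eq.trans (by simp)
    by_cases h : j ≤ i
    · exact v.2 i h
    · exact congrFun hv ⟨i, not_le.1 h⟩
  let U := (W k).map (toLin' g.1)
  have hU : finrank F U = k := (LinearEquiv.finrank_map_eq (toLinearEquiv' g.1 g.invertible) _).trans
    (hW k hkn.le)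
  have h3 : ∀ v ∈ U, ∀ a b : Fin n, v b ≠ 0 → ¬ (n - k ≤ a ∧ (b : ℕ) < n - k) → a ≠ b →
      Pi.single a 1 ∈ U := by
    rintro _ ⟨v, hv, rfl⟩ a b hb h hab
    obtain ⟨x, hx, e⟩ := hg.ge ((h1 _ (SpecialLinearGroup.toGL (.transvection hab 1))).2
      fun c d hc hd => by
        have : c ≠ d := fun e => hd (e ▸ hc)
        show (1 + single a b 1 : Matrix _ _ F) c d = 0
        simp [this, single_apply]; rintro rfl rfl; omega)
    have h4 : transvection a b 1 *ᵥ (g.1 *ᵥ v) = g.1 *ᵥ (x.1 *ᵥ v) := by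
      rw [show transvection a b 1 = (g * x * g⁻¹).1 from (congrArg Units.val e).symm]
      simp [mulVec_mulVec]
    have h5 := U.sub_mem ⟨_, (hx v).1 hv, h4.symm⟩ ⟨v, hv, rfl⟩
    rw [← U.smul_mem_iff hb]
    convert h5 using 1
    ext i; simp [-mulVec_mulVec, transvection, add_mulVec, single_mulVec, Pi.single_apply, Function.update_apply]
  have h4 : ∀ j, ∀ v ∈ U, v ∈ W j → ∀ b, v b ≠ 0 → (∀ a : Fin n, a < j → a ≠ b → Pi.single a 1 ∈ U) →
      W j ≤ U := fun j v hv hj b hb h w hw => by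
    have h5 : ∀ (x : Fin n → F) a, x ∈ W j → a ≠ b → x a • Pi.single a 1 ∈ U := fun x a hx hab => by
      by_cases ha : j ≤ a
      · simp [show x a = 0 from hx a ha]
      · exact U.smul_mem _ (h a (not_le.1 ha) hab)
    rw [pi_eq_sum_univ' w]
    refine U.sum_mem fun a _ => ?_
    by_cases hab : a = b
    · rw [pi_eq_sum_univ' v, ← Finset.add_sum_erase _ _ (Finset.mem_univ b),
        U.add_mem_iff_left (U.sum_mem fun a ha => h5 v a hj (Finset.ne_of_mem_erase ha)),
        U.smul_mem_iff hb] at hv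
      exact U.smul_mem _ (hab ▸ hv)
    · exact h5 w a hw hab
  by_cases h : U ≤ W (n - k)
  · obtain ⟨v, hv, h0⟩ := U.exists_mem_ne_zero_of_ne_bot fun e => by rw [e, finrank_bot] at hU; omega
    obtain ⟨b, hb⟩ := Function.ne_iff.1 h0
    rw [le_antisymm h (h4 _ v hv (h hv) b hb fun a ha => h3 v hv a b hb (by omega)),
      hW _ (by omega)] at hU
    omega
  · obtain ⟨v, hv, h0⟩ := SetLike.not_le_iff_exists.1 h
    obtain ⟨b, hb, h0⟩ : ∃ b : Fin n, n - k ≤ b ∧ v b ≠ 0 := by simpa [W, Submodule.mem_pi] using h0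
    have := Submodule.finrank_mono (h4 n v hv (fun i hi => absurd i.2 (not_lt.2 hi)) b h0
      fun a _ => h3 v hv a b h0 (by omega))
    rw [hW n le_rfl] at this
    omega

end Cfsg.Agent.S0773
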