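import Cfsg.Statements.S0774
import Cfsg.Agent.Lib.Symp.Levi
import Cfsg.Agent.Lib.Linear.Small

set_option autoImplicit false
open Cfsg

namespace Cfsg.Agent.S0774

open Cfsg.Lib Cfsg.Lib.Symp Matrix

/-- Borel subgroup of the symplectic group: the elements of Sp_2m(q) stabilising each of the totally isotropic coordinate subspaces ⟨e_0, ..., e_k⟩ (k < m) form a subgroup of order q^(m²) (q − 1)^m. -/
theorem result {F : Type*} [Field F] [Fintype F] {q : ℕ} (hF : Fintype.card F = q) (m : ℕ) : Nat.card ↥(⨅ k : Fin m, Cfsg.stabilizing (Cfsg.spToMat m F) {v : Fin m ⊕ Fin m → F | (∀ i : Fin m, (k : ℕ) < (i : ℕ) → v (Sum.inl i) = 0) ∧ ∀ i : Fin m, v (Sum.inr i) = 0}) = q ^ (m ^ 2) * (q - 1) ^ m := by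
  subst hF
  have h1 := card_fixer_of_orthogonal_le (bil_isAlt (Fin m) F) (bil_nondegenerate _ F) m
    (lagInl (Fin m) F) (by simp [finrank_lagInl]) fun v hv => mem_lagInl.2 fun i => by
      simpa [bil_single_inl_left] using hv (Pi.single (.inl i) 1) (mem_lagInl.2 (by simp))
  have h2 : m ^ 2 = m * (m - 1) / 2 + m * (m + 1) / 2 := by
    rcases m with _ | k
    · rfl
    · obtain ⟨t, ht⟩ := Nat.even_mul_succ_self k
      rw [Nat.add_sub_cancel, mul_comm (k + 1) k, show (k + 1) * (k + 1 + 1) = k * (k + 1) + (k + 1) * 2 by ring,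
        show (k + 1) ^ 2 = k * (k + 1) + (k + 1) by ring, ht]
      omega
  have hm : ∀ A : symplecticGroup (Fin m) F, A ∈ (⨅ k : Fin m, Cfsg.stabilizing (Cfsg.spToMat m F) {v : Fin m ⊕ Fin m → F | (∀ i : Fin m, (k : ℕ) < (i : ℕ) → v (Sum.inl i) = 0) ∧ ∀ i : Fin m, v (Sum.inr i) = 0}) ↔ A.1.toBlocks₂₁ = 0 ∧ ∀ i j, j < i → A.1 (.inl i) (.inl j) = 0 := fun A => by
    rw [Subgroup.mem_iInf, forall_congr' fun k : Fin m => mem_stabilizing_coord
      (Sum.elim (k < ·) fun _ => True) (by simp)]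
    refine ⟨fun h => ⟨by ext i j; exact h j _ _ trivial (by simp), fun i j hij =>
      h j _ _ hij (by simp)⟩, ?_⟩
    rintro ⟨h1, h2⟩ k (i | i) (j | j) hi hj
    · exact h2 i j ((not_lt.1 hj).trans_lt hi)
    · simp at hj
    · exact congrFun₂ h1 i j
    · simp at hj
  rw [h2, pow_add, mul_right_comm, ← Linear.card_lower_triangular, ← Nat.card_eq_fintype_card, ← h1,
    ← Nat.card_prod]
  have h3 : ∀ n : fixer (bil (Fin m) F) (lagInl (Fin m) F), ∀ i j,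
      ((spEquiv (Fin m) F).symm ⟨n.1, (mem_fixer.1 n.2).1⟩).1 i (.inl j) = Pi.single (M := fun _ => F) (Sum.inl j) 1 i :=
    fun n i j => by
      simpa only [mulVec_single_one, col_apply] using congrFun ((spEquiv_symm_mulVec ⟨n.1, (mem_fixer.1 n.2).1⟩ (Pi.single (.inl j) 1)).trans
        ((mem_fixer.1 n.2).2 _ (mem_lagInl.2 (by simp)))) i
  have h4 : ∀ (X : GL (Fin m) F) (n : fixer (bil (Fin m) F) (lagInl (Fin m) F)), ∀ i j,
      (spLevi F _ X * (spEquiv (Fin m) F).symm ⟨n.1, (mem_fixer.1 n.2).1⟩).1 i (.inl j) = (spLevi F _ X).1 i (.inl j) :=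
    fun X n i j => by simp [mul_apply, h3, Pi.single_apply]
  refine (Nat.card_eq_of_bijective (fun x => ⟨spLevi F _ ⟨x.1.1.1ᵀ, (x.1.1⁻¹).1ᵀ, by
    simp [← transpose_mul], by simp [← transpose_mul]⟩ * (spEquiv (Fin m) F).symm ⟨x.2.1, (mem_fixer.1 x.2.2).1⟩,
    (hm _).2 ⟨by ext i j; exact h4 _ _ _ _, fun i j h => (h4 _ _ _ _).trans (x.1.2 j i h)⟩⟩) ⟨?_, ?_⟩).symm
  · rintro ⟨X, n⟩ ⟨Y, n'⟩ h
    have h5 := congrArg Subtype.val h
    obtain rfl : X = Y := Subtype.ext (Units.ext (Matrix.ext fun i j => (h4 _ n (.inl j) i).symm.trans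
      ((congrArg (fun A : symplecticGroup (Fin m) F => A.1 (.inl j) (.inl i)) h5).trans (h4 _ n' _ _))))
    simpa using h5
  · rintro ⟨A, hA⟩
    obtain ⟨h5, h6⟩ := (hm A).1 hA
    obtain ⟨X, h7, -⟩ := exists_toBlocks₁₁ h5
    refine ⟨⟨⟨⟨X.1ᵀ, (X⁻¹).1ᵀ, by simp [← transpose_mul], by simp [← transpose_mul]⟩, fun i j h =>
      (congrFun₂ h7 j i).trans (h6 j i h)⟩, (spEquiv (Fin m) F ((spLevi F _ X)⁻¹ * A)).1, mem_fixer.2
      ⟨Subtype.prop _, fun v hv => ?_⟩⟩, Subtype.ext ((congrArg (spLevi F _ X * ·)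
        (MulEquiv.symm_apply_apply _ _)).trans (mul_inv_cancel_left (spLevi F _ X) A))⟩
    have : A.1 *ᵥ v = (spLevi F _ X).1 *ᵥ v := by
      rw [← fromBlocks_toBlocks A.1, coe_spLevi, h7, h5, fromBlocks_mulVec, fromBlocks_mulVec,
        show v ∘ Sum.inr = 0 from funext (mem_lagInl.1 hv)]
      simp
    rw [spEquiv_apply, Submonoid.coe_mul, ← mulVec_mulVec, this, inv_mulVec_mulVec]

end Cfsg.Agent.S0774
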