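import Cfsg.Statements.S0775
import Cfsg.Agent.Lib.Symp.Orb

set_option autoImplicit false
open Cfsg

namespace Cfsg.Agent.S0775

open Cfsg.Lib Cfsg.Lib.Symp

/-- Maximal parabolics of the symplectic group: if W is a k-dimensional subspace of F^(2m) on which the symplectic form vanishes identically, its stabiliser in Sp_2m(q) has order q^(k(k+1)/2 + 2k(m−k)) · |Sp_(2m−2k)(q)| · |GL_k(q)|. -/
theorem result {F : Type*} [Field F] [Fintype F] {q : ℕ} (hF : Fintype.card F = q) (m k : ℕ) (hk : k ≤ m) (W : Submodule F (Fin m ⊕ Fin m → F)) (hWk : Module.finrank F W = k) (hW : ∀ u ∈ W, ∀ v ∈ W, Cfsg.sympForm m F u v = 0) : Nat.card ↥(Cfsg.stabilizing (Cfsg.spToMat m F) (W : Set (Fin m ⊕ Fin m → F))) = q ^ (k * (k + 1) / 2 + 2 * k * (m - k)) * (q ^ ((m - k) ^ 2) * ∏ i ∈ Finset.range (m - k), (q ^ (2 * (i + 1)) - 1)) * ∏ i : Fin k, (q ^ k - q ^ (i : ℕ)) := by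
  subst hF
  simp only [sympForm_eq_bil] at hW
  have hA := bil_isAlt (Fin m) F
  have hB := bil_nondegenerate (Fin m) F
  have h4 : isom ((bil (Fin m) F).restrict W) = ⊤ := eq_top_iff.2 fun a _ x y =>
    (hW _ (a x).2 _ (a y).2).trans (hW _ x.2 _ y.2).symm
  have h1 := card_stabilizer hA hB W
  rw [h4, Subgroup.card_top, Unitary.card_linearEquiv hWk,
    card_fixer_isotropic hA hB hW (m := m) (by simp [two_mul]) hWk, Orth.cS] at h1
  have h2 : 2 * m * k - (3 * k ^ 2 - k) / 2 = k * (k + 1) / 2 + 2 * k * (m - k) := by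
    obtain ⟨d, rfl⟩ := Nat.exists_eq_add_of_le hk
    obtain ⟨t, ht⟩ := Nat.even_mul_succ_self k
    have : 3 * k ^ 2 - k = 2 * (2 * k ^ 2 - t) := by
      have : t ≤ 2 * k ^ 2 := by nlinarith
      zify [this, show k ≤ 3 * k ^ 2 by nlinarith] at ht ⊢
      linarith
    rw [this, ht, Nat.add_sub_cancel_left, ← two_mul, Nat.mul_div_cancel_left _ two_pos,
      Nat.mul_div_cancel_left _ two_pos]
    have : t ≤ 2 * k ^ 2 := by nlinarith
    zify [this, show 2 * k ^ 2 - t ≤ 2 * (k + d) * k by nlinarith [Nat.sub_le (2 * k ^ 2) t]]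
    ring
  rw [h2, mul_comm, Nat.card_eq_fintype_card (α := F)] at h1
  exact (Nat.card_congr ((spEquiv _ F).toEquiv.subtypeEquiv fun g =>
    Unitary.mem_subStab_iff_map (g := (spEquiv _ F g).1))).trans h1

end Cfsg.Agent.S0775
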