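import Cfsg.Statements.S0776
import Cfsg.Agent.Lib.Symp.Orb

set_option autoImplicit false
open Cfsg

namespace Cfsg.Agent.S0776

open Cfsg.Lib Cfsg.Lib.Symp Cfsg.Lib.Unitary Module

/-- If W ≤ F^(2m) is a 2k-dimensional subspace on which the symplectic form is non-degenerate, then the stabiliser of W in Sp_2m(F) is isomorphic to Sp_2k(F) × Sp_(2m−2k)(F). -/
theorem result {F : Type*} [Field F] (m k : ℕ) (hk : k ≤ m) (W : Submodule F (Fin m ⊕ Fin m → F)) (hWk : Module.finrank F W = 2 * k) (hW : ∀ u ∈ W, (∀ v ∈ W, Cfsg.sympForm m F u v = 0) → u = 0) : Nonempty (↥(Cfsg.stabilizing (Cfsg.spToMat m F) (W : Set (Fin m ⊕ Fin m → F))) ≃* Matrix.symplecticGroup (Fin k) F × Matrix.symplecticGroup (Fin (m - k)) F) := by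
  simp only [sympForm_eq_bil] at hW
  have hA := bil_isAlt (Fin m) F
  have hB := bil_nondegenerate (Fin m) F
  set B := bil (Fin m) F
  have h1 : (B.restrict W).Nondegenerate := nondegenerate_of_isAlt (fun x => hA x.1) fun x hx =>
    Subtype.ext (hW x x.2 fun v hv => hx ⟨v, hv⟩)
  have hc := B.isCompl_orthogonal_of_restrict_nondegenerate hA.isRefl h1
  obtain ⟨e⟩ := nonempty_isom_equiv (l := Fin k) (B := B.restrict W) (fun x => hA x.1) h1 (by simpa)
  obtain ⟨e'⟩ := nonempty_isom_equiv (l := Fin (m - k)) (B := B.restrict (B.orthogonal W))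
    (fun x => hA x.1) (B.nondegenerate_restrict_of_disjoint_orthogonal hA.isRefl (by
      rw [B.orthogonal_orthogonal hB hA.isRefl]; exact hc.disjoint.symm))
    (by have := Submodule.finrank_add_eq_of_isCompl hc; simp at this ⊢; omega)
  let φ : isom (B.restrict W) × isom (B.restrict (B.orthogonal W)) →* isom B :=
    ((glue hc).comp ((Subgroup.subtype _).prodMap (Subgroup.subtype _))).codRestrict _ fun g u v => by
      obtain ⟨w, w', rfl⟩ := exists_add_of_isCompl hc u
      obtain ⟨x, x', rfl⟩ := exists_add_of_isCompl hc v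
      have e1 : ∀ (a : W) (b : B.orthogonal W), B a b = 0 := fun a b => b.2 a a.2
      have e2 : ∀ (a : W) (b : B.orthogonal W), B b a = 0 := fun a b => hA.isRefl _ _ (e1 a b)
      have e3 : B _ _ = B _ _ := g.1.2 w x
      have e4 : B _ _ = B _ _ := g.2.2 w' x'
      simp [glue_apply_add, e1, e2]
      exact congrArg₂ _ e3 e4
  have hφ : Function.Injective φ := fun a b h => by
    have := glue_injective hc (congrArg Subtype.val h)
    exact Prod.ext (Subtype.ext (congrArg Prod.fst this)) (Subtype.ext (congrArg Prod.snd this))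
  refine ⟨(((spEquiv _ F).subgroupMap _).trans (MulEquiv.subgroupCongr ?_)).trans
    ((MonoidHom.ofInjective hφ).symm.trans (e.prodCongr e'))⟩
  ext g
  refine Subgroup.mem_map_equiv.trans ⟨fun h => ?_, ?_⟩
  · have h2 : g.1 ∈ subStab W := fun v => (h v).trans (by
      rw [show spToMat m F _ = ((spEquiv _ F).symm g).1 from rfl, spEquiv_symm_mulVec]; rfl)
    have h3 : g.1 ∈ subStab (B.orthogonal W) := mem_subStab_of_le fun v hv w hw => by
      have : B _ _ = 0 := hv _ ((h2 (g.1.symm w)).2 (by simpa))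
      rwa [← g.2, LinearEquiv.apply_symm_apply] at this
    exact ⟨(⟨restr _ ⟨_, h2⟩, fun u v => g.2 u v⟩, ⟨restr _ ⟨_, h3⟩, fun u v => g.2 u v⟩),
      Subtype.ext (glue_restr hc h2 h3)⟩
  · rintro ⟨a, rfl⟩ v
    rw [show spToMat m F _ = ((spEquiv _ F).symm (φ a)).1 from rfl, spEquiv_symm_mulVec]
    exact glue_mem_subStab_left hc _ v

end Cfsg.Agent.S0776
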