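import Cfsg.Statements.S0777
import Cfsg.Agent.Lib.Symp.Levi

set_option autoImplicit false
open Cfsg

namespace Cfsg.Agent.S0777

open Cfsg.Lib Cfsg.Lib.Symp Matrix Module

set_option maxHeartbeats 1600000 in
/-- Weyl group of type C_m: for q ≥ 4 the diagonal matrices of Sp_2m(q) form a torus T ≅ (C_(q−1))^m (the elements stabilising every coordinate axis), and the normaliser of T in Sp_2m(q) has order 2^m · m! · (q − 1)^m. -/
theorem result {F : Type*} [Field F] [Fintype F] {q : ℕ} (hF : Fintype.card F = q) (hq : 4 ≤ q) (m : ℕ) : Nat.card ↥(Subgroup.normalizer (⨅ i : Fin m ⊕ Fin m, Cfsg.stabilizing (Cfsg.spToMat m F) ((Submodule.span F {(Pi.single i (1 : F) : Fin m ⊕ Fin m → F)} : Submodule F (Fin m ⊕ Fin m → F)) : Set (Fin m ⊕ Fin m → F)) : Set (Matrix.symplecticGroup (Fin m) F))) = 2 ^ m * Nat.factorial m * (q - 1) ^ m := by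
  subst hF
  rw [Set.iInf_eq_iInter, ← Subgroup.coe_iInf]
  set T := ⨅ i : Fin m ⊕ Fin m, Cfsg.stabilizing (Cfsg.spToMat m F) ((Submodule.span F
    {(Pi.single i (1 : F) : Fin m ⊕ Fin m → F)} : Submodule F (Fin m ⊕ Fin m → F)) : Set (Fin m ⊕ Fin m → F))
  have hT : ∀ t, t ∈ T ↔ ∀ i, ∃ a : F, a • Pi.single i 1 = t.1 *ᵥ Pi.single i 1 := fun t => by
    simp only [T, Subgroup.mem_iInf, mem_stabilizing_iff, Submodule.mem_span_singleton]
    refine forall_congr' fun i => ⟨fun h => h _ ⟨1, one_smul _ _⟩, ?_⟩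
    rintro ⟨a, h⟩ _ ⟨c, rfl⟩
    exact ⟨c * a, by rw [mul_smul, h, mulVec_smul]; rfl⟩
  have hne : ∀ (A : symplecticGroup (Fin m) F) i, A.1 *ᵥ Pi.single i 1 ≠ 0 := fun A i h => by
    simpa [h] using (inv_mulVec_mulVec A (Pi.single i 1)).symm
  obtain ⟨u, hu⟩ : ∃ u : Fˣ, u ≠ u⁻¹ := by
    by_contra! h
    have := (IsCyclic.exponent_eq_card (α := Fˣ)).symm.trans_le (Nat.le_of_dvd two_pos
      (Monoid.exponent_dvd_of_forall_pow_eq_one fun x => by rw [pow_two]; nth_rw 1 [h x]; simp))
    rw [Nat.card_units, Nat.card_eq_fintype_card] at this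
    omega
  have hb : ∀ (X : Fin m ⊕ Fin m → Fin m ⊕ Fin m → F) i j,
      (of X * (J (Fin m) F * (of X)ᵀ)) i j = bil (Fin m) F (X i) (X j) := fun X i j => by
    rw [bil_apply]; rfl
  have hs : ∀ {i j : Fin m ⊕ Fin m} {a b : Fˣ}, Pi.single (M := fun _ => F) i a = Pi.single j b →
      i = j ∧ a = b := fun {i j a b} h => by
    obtain rfl : i = j := by_contra fun e => by simpa [e] using congrFun h i
    exact ⟨rfl, Units.ext (Pi.single_injective _ h)⟩
  obtain ⟨M, hM, hM'⟩ : ∃ M : Equiv.Perm (Fin m) × (Fin m → Bool) × (Fin m → Fˣ) →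
      symplecticGroup (Fin m) F, (∀ x i, (M x).1 *ᵥ Pi.single (.inl i) 1 =
      Pi.single (if x.2.1 i then .inl (x.1 i) else .inr (x.1 i)) (x.2.2 i : F)) ∧
      ∀ x i, (M x).1 *ᵥ Pi.single (.inr i) 1 = Pi.single (if x.2.1 i then .inr (x.1 i) else
      .inl (x.1 i)) (if x.2.1 i then (x.2.2 i : F)⁻¹ else -(x.2.2 i : F)⁻¹) := by
    refine ⟨fun x => ⟨(of (Sum.elim (fun i => Pi.single (if x.2.1 i then .inl (x.1 i) else .inr (x.1 i))
      (x.2.2 i : F)) fun i => Pi.single (if x.2.1 i then .inr (x.1 i) else .inl (x.1 i))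
        (if x.2.1 i then (x.2.2 i : F)⁻¹ else -(x.2.2 i : F)⁻¹)))ᵀ, SymplecticGroup.mem_iff'.2 ?_⟩,
      fun x i => by simp, fun x i => by simp⟩
    rw [Matrix.mul_assoc]
    ext i j
    rw [transpose_transpose, hb]
    clear * -
    rcases i with i | i <;> rcases j with j | j <;> cases h : x.2.1 i <;> cases h' : x.2.1 j <;>
      by_cases e : i = j <;>
      simp_all [J, bil_single_inl_left, bil_single_inr_left, one_apply, Pi.single_apply]
  have hN : ∀ A, A ∈ Subgroup.normalizer (T : Set (symplecticGroup (Fin m) F)) ↔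
      ∀ i, ∃ j, ∃ a : Fˣ, A.1 *ᵥ Pi.single i 1 = Pi.single j a := fun A => by
    refine ⟨fun h i => ?_, fun h => ?_⟩
    · obtain ⟨j, hj⟩ := Function.ne_iff.1 (hne A i)
      refine ⟨j, .mk0 _ hj, funext fun k => (eq_or_ne k j).elim (fun e => by simp [e]) fun hk => ?_⟩
      rw [Pi.single_eq_of_ne hk]
      let t := M (1, fun _ => true, Pi.mulSingle (Sum.elim id id j) u)
      have ht : t.1 = diagonal (Sum.elim (Pi.mulSingle (M := fun _ => F) (Sum.elim id id j) u)
          (Pi.mulSingle (M := fun _ => F) (Sum.elim id id j) u⁻¹)) := by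
        refine ext_of_mulVec_single ?_
        rintro (a | a) <;> simp only [t, hM, hM', diagonal_mulVec_single] <;>
          simp [Pi.mulSingle_apply, apply_ite Units.val, apply_ite Inv.inv]
      obtain ⟨a, ha⟩ := (hT _).1 ((Subgroup.mem_normalizer_iff''.1 h t).1 ((hT t).2 fun i =>
        ⟨_, by rw [ht, diagonal_mulVec_single, ← Pi.single_smul', smul_eq_mul]⟩)) i
      have := congrArg (A.1 *ᵥ ·) ha
      simp only [Submonoid.coe_mul, ← mulVec_mulVec, mulVec_inv_mulVec, mulVec_smul, ht] at this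
      have e1 := congrFun this j
      have e2 := congrFun this k
      rw [Pi.smul_apply, mulVec_diagonal, smul_eq_mul] at e1 e2
      rw [mul_right_cancel₀ hj e1] at e2
      refine (mul_eq_mul_right_iff.1 e2).resolve_left ?_
      have h1 : u ≠ 1 := fun e => hu (by simp [e])
      have h2 : (u : F) ≠ (u : F)⁻¹ := fun e => hu (Units.ext (by simpa using e))
      clear * - h1 h2 hk
      rcases j with j | j <;> rcases k with k | k <;> by_cases e : k = j <;>
        simp_all [Pi.mulSingle_apply, h2.symm]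
    · choose σ a ha using h
      have hσ : Function.Bijective σ := Finite.injective_iff_bijective.1 fun i j e => by_contra fun h => by
        have := congrArg (A⁻¹.1 *ᵥ ·) ((mulVec_smul A.1 (a j : F) (Pi.single i 1)).trans (show _ = A.1 *ᵥ
          ((a i : F) • Pi.single j 1) by rw [mulVec_smul, ha, ha, e, ← Pi.single_smul', ← Pi.single_smul',
          smul_eq_mul, smul_eq_mul, mul_comm]))
        simp only [inv_mulVec_mulVec] at this
        simpa [h] using congrFun this i
      refine Subgroup.mem_normalizer_fintype fun t ht => (hT _).2 fun j => ?_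
      obtain ⟨i, rfl⟩ := hσ.2 j
      obtain ⟨c, hc⟩ := (hT t).1 ht i
      have : Pi.single (σ i) 1 = A.1 *ᵥ (((a i)⁻¹ : Fˣ) • Pi.single i 1) := by
        rw [mulVec_smul, ha, ← Pi.single_smul']; simp [Units.smul_def]
      exact ⟨c, by rw [this, Submonoid.coe_mul, Submonoid.coe_mul, ← mulVec_mulVec, ← mulVec_mulVec,
        inv_mulVec_mulVec, mulVec_smul t.1, ← hc, smul_comm _ c, mulVec_smul _ c]⟩
  refine (Nat.card_eq_of_bijective (fun x => ⟨M x, (hN _).2 (Sum.rec (fun i => ⟨_, _, hM x i⟩) fun i =>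
    ⟨_, if x.2.1 i then (x.2.2 i)⁻¹ else -(x.2.2 i)⁻¹, (hM' x i).trans (congrArg _ (by split_ifs <;> simp))⟩)⟩)
    ⟨?_, ?_⟩).symm.trans (by simp [Fintype.card_perm, mul_comm, mul_left_comm, Nat.card_fun, Nat.card_units])
  · rintro ⟨σ, s, a⟩ ⟨τ, t, b⟩ h
    have := fun i => hs ((hM (σ, s, a) i).symm.trans
      ((congrArg (·.1.1 *ᵥ Pi.single (.inl i) 1) h).trans (hM _ i)))
    have h1 : ∀ i, σ i = τ i ∧ s i = t i := fun i => by
      have := (this i).1
      cases h : s i <;> cases h' : t i <;> simp_all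
    exact Prod.ext (Equiv.ext fun i => (h1 i).1) (Prod.ext (funext fun i => (h1 i).2) (funext fun i => (this i).2))
  · rintro ⟨A, hA⟩
    choose σ a ha using (hN A).1 hA
    have h1 := fun i j => bil_mulVec A (Pi.single i 1) (Pi.single j 1)
    simp only [ha] at h1
    have h2 : ∀ i, σ (.inr i) = (σ (.inl i)).swap ∧ (a (.inr i) : F) =
        if (σ (.inl i)).isLeft then (a (.inl i) : F)⁻¹ else -(a (.inl i) : F)⁻¹ := fun i => by
      have := h1 (.inl i) (.inr i)
      generalize σ (.inl i) = x at this ⊢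
      generalize σ (.inr i) = y at this ⊢
      clear * - this
      rcases x with j | j <;> rcases y with k | k <;> by_cases e : j = k <;>
        simp_all [bil_single_inl_left, bil_single_inr_left]
      · exact eq_inv_of_mul_eq_one_right this
      · field_simp; linear_combination this
    have h3 : Function.Injective fun i => Sum.elim id id (σ (.inl i)) := fun i j e => by_contra fun h => by
      have e1 := h1 (.inl i) (.inl j)
      have e2 := h1 (.inl i) (.inr j)
      rw [(h2 j).1] at e2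
      simp only at e
      generalize σ (.inl i) = x at e1 e2 e
      generalize σ (.inl j) = y at e1 e2 e
      clear * - e e1 e2 h
      rcases x with k | k <;> rcases y with l | l <;>
        simp_all [bil_single_inl_left, bil_single_inr_left]
    refine ⟨(.ofBijective _ (Finite.injective_iff_bijective.1 h3), fun i => (σ (.inl i)).isLeft,
      fun i => a (.inl i)), Subtype.ext (Subtype.ext (ext_of_mulVec_single ?_))⟩
    rintro (i | i)
    · rw [hM, ha]; rcases h : σ (.inl i) with k | k <;> simp [h]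
    · rw [hM', ha, (h2 i).1, (h2 i).2]; rcases h : σ (.inl i) with k | k <;> simp [h]

end Cfsg.Agent.S0777
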