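import Cfsg.Statements.S0778
import Cfsg.Agent.Lib.Symp.Levi

set_option autoImplicit false
open Cfsg

namespace Cfsg.Agent.S0778

open Cfsg.Lib Cfsg.Lib.Symp Matrix

/-- The elements of Sp_2m(F) stabilising both W = ⟨e_1..e_m⟩ and U = ⟨f_1..f_m⟩ form a subgroup isomorphic to GL_m(F) (block-diagonal matrices diag(X, X^(−ᵀ)) up to the sign convention of J), for m ≥ 1 or m = 0 alike. -/
theorem result {F : Type*} [Field F] (m : ℕ) : Nonempty (↥(Cfsg.stabilizing (Cfsg.spToMat m F) {v : Fin m ⊕ Fin m → F | ∀ i : Fin m, v (Sum.inr i) = 0} ⊓ Cfsg.stabilizing (Cfsg.spToMat m F) {v : Fin m ⊕ Fin m → F | ∀ i : Fin m, v (Sum.inl i) = 0}) ≃* Matrix.GeneralLinearGroup (Fin m) F) := by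
  refine ⟨(MulEquiv.subgroupCongr (Subgroup.ext fun A => ?_)).trans
    (MonoidHom.ofInjective spLevi_injective).symm⟩
  rw [Subgroup.mem_inf, mem_stabilizing_coord (·.isRight) (by simp),
    mem_stabilizing_coord (·.isLeft) (by simp)]
  refine ⟨fun h => ?_, by rintro ⟨X, rfl⟩; simp [coe_spLevi]⟩
  have h3 : A.1.toBlocks₂₁ = 0 := by ext i j; exact h.1 _ _ rfl (by simp)
  have h4 : A.1.toBlocks₁₂ = 0 := by ext i j; exact h.2 _ _ rfl (by simp)
  obtain ⟨X, h5, h6⟩ := exists_toBlocks₁₁ h3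
  exact ⟨X, Subtype.ext (by rw [coe_spLevi, h5, h6, ← fromBlocks_toBlocks A.1]; simp [h3, h4])⟩

end Cfsg.Agent.S0778
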