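import Cfsg.Statements.S0779
import Cfsg.Agent.Lib.Unitary.Std

set_option autoImplicit false
open Cfsg

namespace Cfsg.Agent.S0779

/-- Unitary transvections: let |F| = q², h the standard Hermitian form Σ x_i y_i^q and v ≠ 0 with h(v, v) = 0. The linear map x ↦ x + c h(x, v) v is an isometry of h if and only if c = 0 or c^(q−1) = −1. -/
theorem result {F : Type*} [Field F] [Fintype F] {q : ℕ} (hF : Fintype.card F = q ^ 2) (n : ℕ) (v : Fin n → F) (hv : v ≠ 0) (hv0 : Cfsg.hermForm n F q v v = 0) (c : F) : (∀ x y : Fin n → F, Cfsg.hermForm n F q ((Cfsg.unitaryTransvection n q v c).mulVec x) ((Cfsg.unitaryTransvection n q v c).mulVec y) = Cfsg.hermForm n F q x y) ↔ (c = 0 ∨ c ^ (q - 1) = -1) := by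
  obtain ⟨σ, hσ⟩ := Cfsg.Lib.Unitary.exists_isBar hF
  have hB := hσ.isHerm (ι := Fin n)
  have h2 := hσ.two_le
  simp only [hσ.hermForm_eq] at hv0 ⊢
  have key : ∀ x, (Cfsg.unitaryTransvection n q v c).mulVec x =
      x + (c * Cfsg.Lib.Unitary.stdForm σ _ v x) • v := fun x => by
    simp only [Cfsg.unitaryTransvection, Matrix.add_mulVec, Matrix.one_mulVec, Matrix.smul_mulVec,
      Matrix.vecMulVec_mulVec, ← hσ.eq]
    ext i
    simp [Cfsg.Lib.Unitary.stdForm_apply, dotProduct]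
    ring
  have key2 : ∀ x y, Cfsg.Lib.Unitary.stdForm σ _ ((Cfsg.unitaryTransvection n q v c).mulVec y)
      ((Cfsg.unitaryTransvection n q v c).mulVec x) = Cfsg.Lib.Unitary.stdForm σ _ y x +
      (c + σ c) * (Cfsg.Lib.Unitary.stdForm σ _ y v * Cfsg.Lib.Unitary.stdForm σ _ v x) := by
    intro x y
    simp only [key, map_add, map_smul, LinearMap.add_apply, LinearMap.map_smulₛₗ,
      LinearMap.smul_apply, smul_eq_mul, map_mul, hB.symm, hv0]
    ring
  have key3 : c + σ c = 0 ↔ c = 0 ∨ c ^ (q - 1) = -1 := by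
    rw [hσ.eq]
    obtain ⟨r, rfl⟩ : ∃ r, q = r + 1 := ⟨q - 1, by omega⟩
    rw [add_tsub_cancel_right, show c + c ^ (r + 1) = c * (c ^ r + 1) by ring, mul_eq_zero,
      add_eq_zero_iff_eq_neg]
  rw [← key3]
  simp only [key2, add_eq_left]
  constructor
  · intro h
    obtain ⟨x, hx⟩ := hB.exists_eq_one hv
    have := h x x
    rwa [← hB.symm v x, hx, map_one, mul_one, mul_one] at this
  · intro h x y
    rw [h, zero_mul]

end Cfsg.Agent.S0779
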