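import Cfsg.Statements.S0780
import Cfsg.Agent.Lib.Unitary.Simple

set_option autoImplicit false
open Cfsg

namespace Cfsg.Agent.S0780

open Cfsg.Lib.Unitary

/-- Generation of SU_n(q), n ≥ 3, (n, q) ≠ (3, 2), by unitary transvections: the subgroup generated by the elements whose matrix is x ↦ x + c h(x, v) v with v isotropic is all of SU_n(q). -/
theorem result {F : Type*} [Field F] [Fintype F] {q : ℕ} (hF : Fintype.card F = q ^ 2) (n : ℕ) (hn : 3 ≤ n) (h32 : ¬ (n = 3 ∧ q = 2)) : Subgroup.closure {A : ↥(Cfsg.SU n F q) | ∃ (v : Fin n → F) (c : F), Cfsg.hermForm n F q v v = 0 ∧ ((A : Matrix.SpecialLinearGroup (Fin n) F) : Matrix (Fin n) (Fin n) F) = Cfsg.unitaryTransvection n q v c} = ⊤ := by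
  obtain ⟨σ, hσ⟩ := exists_isBar hF
  have := hσ.finite
  have hB := hσ.isHerm (ι := Fin n)
  rw [eq_top_iff]
  intro g _
  have hg := (hB.TG_eq_SUG hσ (by simpa using h32)).ge (hσ.suEquiv n g).2
  set C := Subgroup.closure {A : ↥(Cfsg.SU n F q) | ∃ (v : Fin n → F) (c : F), Cfsg.hermForm n F q v v = 0 ∧ ((A : Matrix.SpecialLinearGroup (Fin n) F) : Matrix (Fin n) (Fin n) F) = Cfsg.unitaryTransvection n q v c}
  have key : TG (stdForm σ (Fin n)) ≤ (C.map (hσ.suEquiv n).toMonoidHom).map (Subgroup.subtype _) :=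
    TG_le fun u c hu hc => by
      refine ⟨⟨_, hB.transv_mem_SUG u c hu hc⟩, ⟨(hσ.suEquiv n).symm ⟨_, hB.transv_mem_SUG u c hu hc⟩,
        Subgroup.subset_closure ⟨u, c, by rw [hσ.hermForm_eq, hu], ?_⟩, by simp⟩, rfl⟩
      apply Matrix.toLin'.injective
      refine LinearMap.ext fun x => ?_
      rw [Matrix.toLin'_apply, Matrix.toLin'_apply, hσ.unitaryTransvection_mulVec,
        hσ.suEquiv_symm_mulVec]
      rfl
  obtain ⟨_, ⟨x, hx, rfl⟩, e⟩ := key hg
  rwa [← (hσ.suEquiv n).injective (Subtype.ext e)]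

end Cfsg.Agent.S0780
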