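import Cfsg.Statements.S0781
import Cfsg.Agent.Lib.Unitary.Simple

set_option autoImplicit false
open Cfsg

namespace Cfsg.Agent.S0781

open Cfsg.Lib.Unitary

/-- In SU_n(q) with n ≥ 4, or n = 3 and q > 2, every element whose matrix is a unitary transvection x ↦ x + c h(x, v) v (v isotropic) is a commutator ⁅B, C⁆ of two elements of SU_n(q). -/
theorem result {F : Type*} [Field F] [Fintype F] {q : ℕ} (hF : Fintype.card F = q ^ 2) (n : ℕ) (hn : 4 ≤ n ∨ (n = 3 ∧ 3 ≤ q)) (A : ↥(Cfsg.SU n F q)) (v : Fin n → F) (c : F) (hv0 : Cfsg.hermForm n F q v v = 0) (hA : ((A : Matrix.SpecialLinearGroup (Fin n) F) : Matrix (Fin n) (Fin n) F) = Cfsg.unitaryTransvection n q v c) : A ∈ commutatorSet ↥(Cfsg.SU n F q) := by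
  obtain ⟨σ, hσ⟩ := exists_isBar hF
  have := hσ.finite
  have hB := hσ.isHerm (ι := Fin n)
  rw [hσ.hermForm_eq] at hv0
  obtain ⟨d, hd, e⟩ := hB.exists_eq_transv (hσ.suEquiv n A).2.1 hv0 (c := c) (fun x => by
    rw [hσ.suEquiv_apply, ← hσ.unitaryTransvection_mulVec, ← hA])
  obtain ⟨a, ha, b, hb, hab⟩ := hB.transv_eq_commutator (by simp; omega) v d hv0 hd
  refine ⟨(hσ.suEquiv n).symm ⟨a, ha⟩, (hσ.suEquiv n).symm ⟨b, hb⟩, (hσ.suEquiv n).injective ?_⟩
  rw [map_commutatorElement, MulEquiv.apply_symm_apply, MulEquiv.apply_symm_apply]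
  exact Subtype.ext (hab.trans e.symm)

end Cfsg.Agent.S0781
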