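import Cfsg.Statements.S0787
import Cfsg.Agent.Lib.Orth.Omega

set_option autoImplicit false
open Cfsg

namespace Cfsg.Agent.S0787

open Cfsg.Lib.Orth QuadraticMap

/-- Existence and uniqueness of Ω: if F is finite, n ≥ 2, Q is a quadratic form on F^n with non-degenerate polar form and (|F|, n) ≠ (2, 4), then the group of isometries of determinant one has a unique subgroup of index 2. -/
theorem result {F : Type*} [Field F] [Fintype F] {n : ℕ} (hn : 2 ≤ n) (Q : QuadraticForm F (Fin n → F)) (hQ : (QuadraticMap.polarBilin Q).Nondegenerate) (h : Fintype.card F ≠ 2 ∨ n ≠ 4) : ∃! H : Subgroup ↥(Cfsg.specialIsometryGroup F ⇑Q), H.index = 2 := by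
  have hE : ¬ Exc Q := not_exc_of_card (by simpa using h)
  have hn' : 2 ≤ Module.finrank F (Fin n → F) := by simpa using hn
  have hm : (Cfsg.specialIsometryGroup F ⇑Q).map (isoEquiv Q : _ →* O Q) = (O.det Q).ker := by
    ext g
    obtain ⟨g, rfl⟩ := (isoEquiv Q).surjective g
    rw [MonoidHom.mem_ker, ← mem_special_iff]
    exact Subgroup.mem_map_iff_mem (isoEquiv Q).injective
  let e : Cfsg.specialIsometryGroup F ⇑Q ≃* (O.det Q).ker :=
    ((isoEquiv Q).subgroupMap _).trans (MulEquiv.subgroupCongr hm)
  refine ⟨((commutator (O Q)).subgroupOf (O.det Q).ker).comap (e : _ →* _), ?_, fun K hK => ?_⟩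
  · show Subgroup.index _ = 2
    rw [Subgroup.index_comap_of_surjective _ e.surjective]
    exact relIndex_commutator_ker_det hQ hE hn'
  · rw [← eq_commutator_of_relIndex_two hQ hE hn' (K := K.map (e : _ →* _))
      (by rw [Subgroup.index_map_of_bijective e.bijective]; exact hK),
      Subgroup.comap_map_eq_self_of_injective e.injective]

end Cfsg.Agent.S0787
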