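import Cfsg.Statements.S0795
import Cfsg.Agent.Lib.Orth.Omega

set_option autoImplicit false
open Cfsg

namespace Cfsg.Agent.S0795

open Cfsg.Lib.Orth QuadraticMap

/-- Generation of Ω by root elements: for q odd, n ≥ 5 and Q with non-degenerate polar form on F^n, the commutator subgroup of the isometry group equals the subgroup generated by the isometries whose matrices are Siegel transformations T_(u,v)(c) with u, v singular and orthogonal. -/
theorem result {F : Type*} [Field F] [Fintype F] (h2 : (2 : F) ≠ 0) {n : ℕ} (hn : 5 ≤ n) (Q : QuadraticForm F (Fin n → F)) (hQ : (QuadraticMap.polarBilin Q).Nondegenerate) : Cfsg.Omega F ⇑Q = Subgroup.closure {g : ↥(Cfsg.isometryGroup F ⇑Q) | ∃ (u v : Fin n → F) (c : F), Q u = 0 ∧ Q v = 0 ∧ QuadraticMap.polar ⇑Q u v = 0 ∧ ((g : Matrix.GeneralLinearGroup (Fin n) F) : Matrix (Fin n) (Fin n) F) = Cfsg.siegelMatrix ⇑Q u v c} := by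
  rw [closure_eq_comap_of_equiv (isoEquiv Q) (t := longSet Q),
    ← commutator_eq_closure_longSet hQ (by simpa using hn), comap_commutator_equiv]
  intro g
  constructor
  · rintro ⟨u, v, c, hu, hv, huv, hg⟩
    rw [coe_eq_siegelMatrix_iff g hu hv huv] at hg
    exact ⟨v, c • u, hv, by rw [Q_smul, hu, mul_zero],
      by rw [polar_smul_right', polar_comm, huv, mul_zero], hg⟩
  · rintro ⟨u, z, hu, hz, huz, hg⟩
    refine ⟨z, u, 1, hz, hu, by rw [polar_comm, huz], ?_⟩
    rw [coe_eq_siegelMatrix_iff g hz hu (by rw [polar_comm, huz]), one_smul, hg]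

end Cfsg.Agent.S0795
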