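import Cfsg.Statements.S0796
import Mathlib

set_option autoImplicit false
open Cfsg

namespace Cfsg.Agent.S0796

/-- If G is finite and acts faithfully and primitively on X, H is the stabiliser of a point, A is a normal subgroup of H whose normal closure in G is G, then for every non-trivial normal subgroup K of G the quotient G ⧸ K is isomorphic to A ⧸ B for some normal subgroup B of A. -/
theorem result {G X : Type*} [Group G] [Finite G] [MulAction G X] [FaithfulSMul G X] (hprim : MulAction.IsPreprimitive G X) (x : X) (A : Subgroup G) (hA : A ≤ MulAction.stabilizer G x) (hAn : (A.subgroupOf (MulAction.stabilizer G x)).Normal) (hgen : Subgroup.normalClosure (A : Set G) = ⊤) (K : Subgroup G) [K.Normal] (hK : K ≠ ⊥) : ∃ (B : Subgroup A) (_ : B.Normal), Nonempty (G ⧸ K ≃* A ⧸ B) := by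
  have hKt : MulAction.IsPretransitive K X := by
    apply hprim.isQuasiPreprimitive.isPretransitive_of_normal
    intro h
    apply hK
    rw [eq_bot_iff]
    intro k hk
    rw [Subgroup.mem_bot]
    apply FaithfulSMul.eq_of_smul_eq_smul (α := X)
    intro y
    rw [one_smul]
    exact Set.eq_univ_iff_forall.1 h y ⟨k, hk⟩
  have hsurj : Function.Surjective ((QuotientGroup.mk' K).comp A.subtype) := by
    rw [← MonoidHom.range_eq_top, MonoidHom.range_comp, Subgroup.range_subtype]
    have hn : (A.map (QuotientGroup.mk' K)).Normal := by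
      refine ⟨?_⟩
      rintro _ ⟨a, ha, rfl⟩ g
      obtain ⟨g, rfl⟩ := QuotientGroup.mk'_surjective K g
      obtain ⟨k, hk⟩ := hKt.exists_smul_eq (g • x) x
      have hs : (k : G) * g ∈ MulAction.stabilizer G x := by
        rw [MulAction.mem_stabilizer_iff, mul_smul]; exact hk
      have := hAn.conj_mem ⟨a, hA ha⟩ ha ⟨_, hs⟩
      refine ⟨_, this, ?_⟩
      have hk1 : (QuotientGroup.mk' K) (k : G) = 1 := (QuotientGroup.eq_one_iff _).2 k.2
      simp only [Subgroup.coe_mul, Subgroup.coe_inv, map_mul, map_inv, hk1, one_mul,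
        Subgroup.coe_subtype]
    rw [eq_top_iff, ← Subgroup.map_top_of_surjective _ (QuotientGroup.mk'_surjective K), ← hgen,
      Subgroup.map_le_iff_le_comap]
    exact Subgroup.normalClosure_le_normal fun a ha => ⟨a, ha, rfl⟩
  exact ⟨_, inferInstance, ⟨(QuotientGroup.quotientKerEquivOfSurjective _ hsurj).symm⟩⟩

end Cfsg.Agent.S0796
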