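import Cfsg.Statements.S0797
import Cfsg.Agent.Lib.Orth.Omega

set_option autoImplicit false
open Cfsg

namespace Cfsg.Agent.S0797

open Cfsg.Lib.Orth QuadraticMap

/-- O^ε_2m(q) ≅ Ω.2² for q odd: if F is finite of odd characteristic, n ≥ 2 is even and Q has non-degenerate polar form on F^n, the isometry group of Q has exactly three subgroups of index 2. -/
theorem result {F : Type*} [Field F] [Fintype F] (h2 : (2 : F) ≠ 0) {n : ℕ} (hn : 2 ≤ n) (heven : Even n) (Q : QuadraticForm F (Fin n → F)) (hQ : (QuadraticMap.polarBilin Q).Nondegenerate) : Nat.card {H : Subgroup ↥(Cfsg.isometryGroup F ⇑Q) // H.index = 2} = 3 := by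
  rw [← card_index_two_of_odd hQ h2 (by simpa using hn)]
  refine Nat.card_congr ((isoEquiv Q).mapSubgroup.toEquiv.subtypeEquiv fun K => ?_)
  have : ((isoEquiv Q).mapSubgroup.toEquiv K).index = K.index :=
    Subgroup.index_map_of_bijective (isoEquiv Q).bijective K
  rw [this]

end Cfsg.Agent.S0797
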