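import Cfsg.Statements.S0798
import Cfsg.Agent.Lib.Orth.ReflClass

set_option autoImplicit false
open Cfsg

namespace Cfsg.Agent.S0798

open Cfsg.Lib.Orth QuadraticMap

/-- For q odd, n ≥ 2 even, Q with non-degenerate polar form (n, |F|) ≠ (4, 3), and a fixed c ≠ 0: the subgroup of the isometry group generated by the reflections r_v with Q(v) ∈ c·(F^×)² has index 2. -/
theorem result {F : Type*} [Field F] [Fintype F] (h2 : (2 : F) ≠ 0) {n : ℕ} (hn : 2 ≤ n) (heven : Even n) (Q : QuadraticForm F (Fin n → F)) (hQ : (QuadraticMap.polarBilin Q).Nondegenerate) (h43 : ¬ (n = 4 ∧ Fintype.card F = 3)) (c : F) (hc : c ≠ 0) : (Subgroup.closure {g : ↥(Cfsg.isometryGroup F ⇑Q) | ∃ (v : Fin n → F) (t : F), t ≠ 0 ∧ Q v = c * t ^ 2 ∧ ((g : Matrix.GeneralLinearGroup (Fin n) F) : Matrix (Fin n) (Fin n) F) = Cfsg.reflectionMatrix ⇑Q v}).index = 2 := by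
  have hn' : Module.finrank F (Fin n → F) = n := by simp
  rw [closure_eq_comap_of_equiv (isoEquiv Q) (t := classSet Q c), closure_classSet hQ h2 (by omega) ?_ hc,
    Subgroup.index_comap_of_surjective _ (isoEquiv Q).surjective, index_ker_classChar hQ h2 (by omega)]
  · rw [hn', Nat.card_eq_fintype_card]
    obtain ⟨k, rfl⟩ := heven
    omega
  · intro g
    simp only [Set.mem_setOf_eq, coe_eq_reflectionMatrix_iff, classSet]
    constructor
    · rintro ⟨v, t, ht, hv, h⟩
      exact ⟨v, by rw [hv]; exact mul_ne_zero hc (pow_ne_zero _ ht), by rw [hv, mul_comm, sqsign_sq_mul ht], h⟩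
    · rintro ⟨v, hv, hs, h⟩
      obtain ⟨t, ht, e⟩ := exists_sq_mul_of_sqsign_eq hc hv hs.symm
      exact ⟨v, t, ht, by rw [e, mul_comm], h⟩

end Cfsg.Agent.S0798
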