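import Cfsg.Statements.S0800
import Cfsg.Agent.Lib.PSL2.SL

set_option autoImplicit false
open Cfsg

namespace Cfsg.Agent.S0800

/-- Tori of SL_2(q): if g ∈ SL_2(q) has order coprime to the characteristic p, then the order of g divides q − 1 or q + 1. -/
theorem result {F : Type*} [Field F] [Fintype F] {q : ℕ} (hF : Fintype.card F = q) (p : ℕ) [Fact p.Prime] [CharP F p] (g : Matrix.SpecialLinearGroup (Fin 2) F) (hg : Nat.Coprime (orderOf g) p) : orderOf g ∣ q - 1 ∨ orderOf g ∣ q + 1 := by
  open Cfsg.Lib.PSL2 in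
  subst hF
  rw [← Nat.card_eq_fintype_card]
  obtain ⟨a, b, m, h1, h2⟩ := exists_mem_torusL_of_coprime (AlgebraicClosure F) p (g := toL g)
    (Nat.Coprime.coprime_dvd_left (orderOf_map_dvd _ g) hg)
  have := h1.orderOf_dvd_sl h2
  rcases h1.eq_or_eq with rfl | rfl
  exacts [Or.inl this, Or.inr this]

end Cfsg.Agent.S0800
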