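import Cfsg.Statements.S0801
import Cfsg.Agent.Lib.PSL2.SmallIso

set_option autoImplicit false
open Cfsg

namespace Cfsg.Agent.S0801

open Cfsg.Lib.PSL2 Cfsg.Lib.Small Matrix MulAction
open scoped MatrixGroups

theorem card_sub_one_dvd {F : Type*} [Field F] [Fintype F] {lam : F}
    (hgen : Subfield.closure ({lam} : Set F) = ⊤) (p n : ℕ) [Fact p.Prime] [CharP F p]
    (h : lam ^ p ^ n = lam) : Nat.card F - 1 ∣ p ^ n - 1 := by
  have h1 : (iterateFrobenius F p n).eqLocusField (RingHom.id F) = ⊤ := by
    rw [eq_top_iff, ← hgen, Subfield.closure_le]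
    rintro _ rfl
    exact h
  rw [Nat.card_eq_fintype_card, ← FiniteField.forall_pow_eq_one_iff]
  intro x
  have h2 : (x : F) ^ p ^ n = x := (h1 ▸ Subfield.mem_top (x : F) :
    (x : F) ∈ (iterateFrobenius F p n).eqLocusField (RingHom.id F))
  have h3 : x ^ p ^ n = x := Units.ext (by simpa using h2)
  have h4 : 1 ≤ p ^ n := Nat.one_le_pow _ _ (Fact.out : p.Prime).pos
  rw [← Nat.sub_add_cancel h4, pow_succ] at h3
  exact mul_eq_right.1 h3

def lower {F : Type*} [Field F] : SL(2, F) := ⟨!![1, 0; 1, 1], by simp [det_fin_two]⟩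

@[simp] theorem coe_lower {F : Type*} [Field F] :
    ((lower : SL(2, F)) : Matrix (Fin 2) (Fin 2) F) = !![1, 0; 1, 1] := rfl

theorem trace_lower_upper {F : Type*} [Field F] (b : F) :
    ((lower * upper b : SL(2, F)) : Matrix (Fin 2) (Fin 2) F).trace = 2 + b := by
  simp [Matrix.trace_fin_two]; ring

theorem alt_five_cases (g : alternatingGroup (Fin 5)) : g ^ 2 = 1 ∨ g ^ 3 = 1 ∨ g ^ 5 = 1 := by
  revert g; decide +kernel


/-- Let F be a finite field of odd characteristic and λ ≠ 0 an element generating F as a field. Then the lower and upper unitriangular matrices with off-diagonal entries 1 and λ generate SL_2(F), unless |F| = 9 and λ² = −1, in which case they generate a subgroup of order 120. -/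
theorem result {F : Type*} [Field F] [Fintype F] (h2 : (2 : F) ≠ 0) (lam : F) (hlam : lam ≠ 0) (hgen : Subfield.closure ({lam} : Set F) = ⊤) : (Subgroup.closure {g : Matrix.SpecialLinearGroup (Fin 2) F | (g : Matrix (Fin 2) (Fin 2) F) = !![1, 0; 1, 1] ∨ (g : Matrix (Fin 2) (Fin 2) F) = !![1, lam; 0, 1]} = ⊤ ∧ ¬ (Fintype.card F = 9 ∧ lam ^ 2 = -1)) ∨ (Fintype.card F = 9 ∧ lam ^ 2 = -1 ∧ Nat.card ↥(Subgroup.closure {g : Matrix.SpecialLinearGroup (Fin 2) F | (g : Matrix (Fin 2) (Fin 2) F) = !![1, 0; 1, 1] ∨ (g : Matrix (Fin 2) (Fin 2) F) = !![1, lam; 0, 1]}) = 120) := by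
  have hS : {g : SL(2, F) | (g : Matrix (Fin 2) (Fin 2) F) = !![1, 0; 1, 1] ∨
      (g : Matrix (Fin 2) (Fin 2) F) = !![1, lam; 0, 1]} = {lower, upper lam} := by
    ext g
    simp only [Set.mem_ofPred_eq, Set.mem_insert_iff, Set.mem_singleton_iff]
    exact or_congr ⟨fun h => Subtype.ext h, fun h => h ▸ rfl⟩ ⟨fun h => Subtype.ext h, fun h => h ▸ rfl⟩
  rw [hS, ← Nat.card_eq_fintype_card]
  set H := Subgroup.closure ({lower, upper lam} : Set SL(2, F)) with hH
  have hu : lower ∈ H := Subgroup.subset_closure (by simp)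
  have hv : upper lam ∈ H := Subgroup.subset_closure (by simp)
  have hv' : upper (-lam) ∈ H := by
    convert inv_mem hv using 1
    rw [eq_inv_iff_mul_eq_one, upper_mul, neg_add_cancel, upper_zero]
  have ho := two_ne_zero_iff_odd.1 h2
  have hp := Fact.mk (CharP.char_is_prime F (ringChar F))
  have hmem : ∀ s ∈ H, toP (toL s) ∈ (H.map toL).map toP := fun s hs => ⟨_, ⟨s, hs, rfl⟩, rfl⟩
  have hneg : Even (Nat.card (H.map toL)) → -1 ∈ H := fun h => neg_one_mem_of_even h2
    ((even_iff_two_dvd.1 h).trans (Subgroup.card_dvd_of_surjective _ (toL.subgroupMap_surjective H)))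
  have hne : ∀ b : F, toP (toL (lower * upper b)) ≠ 1 := fun b h => by
    rw [map_eq_one_iff _ toP_injective, toL_eq_one_iff] at h
    rcases h with h | h <;> simpa using congrArg (fun s : SL(2, F) => s 1 0) h
  have htau : ∀ b : F, tau (toP (toL (lower * upper b))) = (2 + b) ^ 2 := fun b => by
    rw [tau_toL, trace_lower_upper]
  rcases dickson_pgl_unip (AlgebraicClosure F) (ringChar F) ((H.map toL).map toP) (x := inf)
    (fun h => by
      have h1 : toP (toL (upper lam)) ∈ (H.map toL).map toP ⊓ unip inf :=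
        ⟨hmem _ hv, by rw [toP_toL_upper]; exact aff_mem_unip_inf.2 rfl⟩
      rw [h, Subgroup.mem_bot, toP_toL_upper, aff_eq_one_iff] at h1
      exact hlam h1.2) with h | ⟨h, -⟩ | ⟨h, ⟨e⟩⟩ | h
  · have := h (hmem _ hu)
    rw [mem_stabilizer_iff, toP_toL', pgl_mk_smul, gl_smul_inf_eq_inf] at this
    simp at this
  · exact absurd h (ringChar_ne_two_iff_odd.2 ho)
  · right
    have h3 : CharP F 3 := h ▸ inferInstance
    have : Fact (Nat.Prime 3) := ⟨Nat.prime_three⟩
    have t3 : (3 : F) = 0 := by simpa using CharP.cast_eq_zero F 3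
    have hc : Nat.card (H.map toL) = 60 := by
      rw [← card_alt_five, ← Nat.card_congr e.toEquiv, Subgroup.card_map_of_injective toP_injective]
    have hq3 : lam ^ 3 ≠ lam := fun h => by
      have h1 := card_sub_one_dvd hgen 3 1 (by simpa using h)
      have h4 := Nat.le_of_dvd (by norm_num) h1
      have h5 := two_le_card_field F
      have h6 := Subgroup.card_subgroup_dvd_card (H.map toL)
      rw [Nat.odd_iff] at ho
      rw [hc, card_psl_of_eq (q := 3) (n := 12) (by omega) rfl] at h6
      norm_num at h6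
    have key : ∀ b : F, b ≠ 0 → b ^ 3 ≠ b → upper b ∈ H → (b ^ 2 + 1) * (b ^ 2 - b - 1) = 0 :=
      fun b hb hb3 hb' => by
        have h1 := hmem _ (mul_mem hu hb')
        have h4 : ∀ n, e ⟨_, h1⟩ ^ n = 1 → toP (toL (lower * upper b)) ^ n = 1 := fun n h => by
          rw [← map_pow, map_eq_one_iff _ e.injective] at h
          exact congrArg Subtype.val h
        rcases alt_five_cases (e ⟨_, h1⟩) with h | h | h
        · have := (sq_eq_one_iff_tau (hne b)).1 (h4 _ h)
          rw [htau, pow_eq_zero_iff two_ne_zero] at this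
          exact absurd (by linear_combination (b ^ 2 - 2 * b + 3) * this - 2 * t3) hb3
        · have := (pow_three_eq_one_iff_tau (hne b)).1 (h4 _ h)
          rw [htau] at this
          exact absurd (by linear_combination (b - 4) * this + (4 * b + 4) * t3) hb3
        · have := (pow_five_eq_one_iff_tau (hne b)).1 (h4 _ h)
          rw [htau] at this
          linear_combination this - (3 * b ^ 3 + 7 * b ^ 2 + 7 * b + 2) * t3
    have h4 : lam ^ 2 = -1 := by
      by_contra h
      have h5 := (mul_eq_zero.1 (key lam hlam hq3 hv)).resolve_left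
        (fun e => h (by linear_combination e))
      have h6 := (mul_eq_zero.1 (key (-lam) (neg_ne_zero.2 hlam)
        (fun e => hq3 (by linear_combination -e)) hv')).resolve_left
        (fun e => h (by linear_combination e))
      exact mul_ne_zero h2 hlam (by linear_combination h6 - h5)
    refine ⟨?_, h4, by rw [card_of_neg_one_mem h2 (hneg (by rw [hc]; decide)), hc]⟩
    have h5 := card_sub_one_dvd hgen 3 2 (by
      linear_combination (lam ^ 7 - lam ^ 5 + lam ^ 3 - lam) * h4)
    have h6 := char_dvd_card (F := F) 3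
    have h7 := Nat.le_of_dvd (by norm_num) h5
    have h8 : Nat.card F ≠ 3 := fun h => hq3 (h ▸ pow_natCard lam)
    have h9 := two_le_card_field F
    rw [Nat.odd_iff] at ho
    omega
  · left
    obtain ⟨k, c, -, -, hk⟩ := isSubfieldType_iff.1 h
    have h1 : ∀ g ∈ (H.map toL).map toP, tau g ∈ k := fun g hg => by
      obtain ⟨x, rfl⟩ := (le_range_of_subfield hk).2 hg
      rw [tau_subHom]
      exact (tau x).2
    have h3 : k = ⊤ := by
      rw [eq_top_iff, ← hgen, Subfield.closure_le]
      rintro a rfl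
      have h4 := sub_mem (htau _ ▸ h1 _ (hmem _ (mul_mem hu hv))) (htau _ ▸ h1 _ (hmem _ (mul_mem hu hv')))
      have h8 : (2 : F) ^ 3 ∈ k := pow_mem (by exact_mod_cast natCast_mem k 2) 3
      have h9 : ((2 + a) ^ 2 - (2 + -a) ^ 2) / 2 ^ 3 = a := by
        field_simp
        ring
      exact h9 ▸ div_mem h4 h8
    have h4 : H.map toL = ⊤ :=
      eq_top_of_pslSub_le ((pslSub_le_map_subHom h3 c).trans (le_range_of_subfield hk).1)
    have h5 := hneg (by
      rw [h4, even_iff_two_dvd]
      exact Dvd.dvd.trans (by norm_num) (hasA4_psl ho).twelve_dvd)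
    refine ⟨by rw [← comap_map_toL h5, h4, Subgroup.comap_top], ?_⟩
    rintro ⟨h9, hl⟩
    have t3 : (3 : F) = 0 := by
      have : ringChar F = 3 := (Nat.prime_dvd_prime_iff_eq hp.out Nat.prime_three).1
        (hp.out.dvd_of_dvd_pow (n := 2) (h9 ▸ char_dvd_card (F := F) (ringChar F) : _ ∣ 9))
      simpa [this] using CharP.cast_eq_zero F (ringChar F)
    set w := toL (lower * upper lam)
    have w5 : w ^ 5 = 1 := toP_injective (by
      rw [map_pow, map_one, pow_five_eq_one_iff_tau (hne lam), htau]
      linear_combination (lam ^ 2 - lam - 1) * hl + (3 * lam ^ 3 + 7 * lam ^ 2 + 7 * lam + 2) * t3)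
    obtain ⟨-, h6⟩ := card_triangle_5 (x := toL lower) (y := w ^ 2) (by
        rw [← map_pow, toL_eq_one_iff]
        left
        ext i j
        fin_cases i <;> fin_cases j <;> simp [pow_succ]
        linear_combination t3)
      (by rw [← pow_mul, mul_comm, pow_mul, w5, one_pow])
      (toP_injective (by
        rw [map_pow, map_one]
        refine pow_eq_one_of_imp fun h => (sq_eq_one_iff_tau h).2 ?_
        rw [← map_pow, ← map_mul, tau_toL, pow_eq_zero_iff two_ne_zero]
        simp [pow_succ, Matrix.trace_fin_two]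
        linear_combination 2 * hl + 2 * lam * t3))
    have h7 : H.map toL ≤ Subgroup.closure {toL lower, w ^ 2} := by
      have a1 : toL lower ∈ Subgroup.closure {toL lower, w ^ 2} := Subgroup.subset_closure (by simp)
      have a2 : w ∈ Subgroup.closure {toL lower, w ^ 2} := by
        have : (w ^ 2) ^ 3 = w := by rw [← pow_mul, show 2 * 3 = 5 + 1 from rfl, pow_succ, w5, one_mul]
        have a3 : w ^ 2 ∈ Subgroup.closure {toL lower, w ^ 2} := Subgroup.subset_closure (by simp)
        have a4 := pow_mem a3 3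
        rwa [this] at a4
      rw [Subgroup.map_le_iff_le_comap, hH, Subgroup.closure_le]
      rintro _ (rfl | rfl)
      · exact a1
      · simpa [w] using mul_mem (inv_mem a1) a2
    exact ne_top_of_card_le_sixty ((Subgroup.card_le_of_le h7).trans h6) (by omega) h4

end Cfsg.Agent.S0801
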