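import Cfsg.Statements.S0802
import Cfsg.Agent.Lib.PSL2.Classify

set_option autoImplicit false
open Cfsg

namespace Cfsg.Agent.S0802

/-- PSL_2(p^n) has a subgroup isomorphic to A_4 if and only if it is not the case that p = 2 and n is odd. -/
theorem result {F : Type*} [Field F] [Fintype F] (p n : ℕ) [Fact p.Prime] [CharP F p] (hF : Fintype.card F = p ^ n) : (∃ H : Subgroup (Matrix.ProjectiveSpecialLinearGroup (Fin 2) F), Nonempty (H ≃* alternatingGroup (Fin 4))) ↔ ¬ (p = 2 ∧ Odd n) := by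
  open Cfsg.Lib.PSL2 Cfsg.Lib.Small in
  rw [← Nat.card_eq_fintype_card] at *
  constructor
  · rintro ⟨H, h⟩ ⟨rfl, j, rfl⟩
    obtain ⟨t, -, s, -, x, -, e⟩ := hasA4_of_equiv_four (Or.inl h)
    obtain ⟨y, hy⟩ := exists_mem_unipL_of_dvd_orderOf 2 (g := t) (by rw [e.four.orderOf_eq])
    have hs : s ∈ unipL y := by
      rw [← centralizer_of_mem_unipL hy e.four.ne_one, mem_centralizer_singleton_iff_commute]
      exact e.four.comm.symm
    have hs' : s ∈ unipL (x • y) := e.conj ▸ conj_mem_unipL_iff.2 hy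
    have hx : x ∈ MulAction.stabilizer _ y := by
      by_contra h
      exact e.four.ne_one' (Subgroup.mem_bot.1 (unipL_inf_unipL h ▸ ⟨hs', hs⟩))
    have h3 := (Subgroup.orderOf_dvd_natCard _ hx).mul_left (Nat.gcd 2 (Nat.card F - 1))
    rw [card_stabilizerL_mul, e.orderOf_eq, Nat.prime_three.dvd_mul] at h3
    have h4 : Nat.card F % 3 = 2 := by
      rw [hF, pow_succ, pow_mul, Nat.mul_mod, Nat.pow_mod]; simp
    omega
  · intro h
    by_cases hp : p = 2
    · subst hp
      obtain ⟨j, rfl⟩ : Even n := Nat.not_odd_iff_even.1 fun h' => h ⟨rfl, h'⟩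
      have h9 : ∀ j, 2 ^ (j + j) % 5 = 1 ∨ 2 ^ (j + j) % 5 = 4 := fun j => by
        induction j with
        | zero => simp
        | succ j ih => rw [show j + 1 + (j + 1) = j + j + 2 by ring, pow_add]; omega
      obtain ⟨H, ⟨e⟩⟩ := exists_alt_five (F := F) (Or.inr (hF ▸ h9 j))
      obtain ⟨A, -, h⟩ := (hasA4_of_equiv e hasA4_alt_five).exists_equiv
      exact ⟨A, h⟩
    · obtain ⟨A, -, h⟩ := (hasA4_psl (odd_card_of_char_ne_two (F := F) p hp)).exists_equiv
      exact ⟨A, h⟩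

end Cfsg.Agent.S0802
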