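import Cfsg.Statements.S0803
import Cfsg.Agent.Lib.PSL2.SL

set_option autoImplicit false
open Cfsg

namespace Cfsg.Agent.S0803

/-- PSL_2(q) has a subgroup isomorphic to S_4 iff q² ≡ 1 (mod 16). -/
theorem result {F : Type*} [Field F] [Fintype F] {q : ℕ} (hF : Fintype.card F = q) : (∃ H : Subgroup (Matrix.ProjectiveSpecialLinearGroup (Fin 2) F), Nonempty (H ≃* Equiv.Perm (Fin 4))) ↔ q ^ 2 % 16 = 1 := by
  open Cfsg.Lib.PSL2 in
  subst hF
  rw [← Nat.card_eq_fintype_card]
  have h1 : Nat.card F ^ 2 % 16 = 1 ↔ Nat.card F % 8 = 1 ∨ Nat.card F % 8 = 7 := by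
    rw [Nat.pow_mod, ← Nat.mod_mod_of_dvd (Nat.card F) (show 8 ∣ 16 by norm_num)]
    have := Nat.mod_lt (Nat.card F) (show 0 < 16 by norm_num)
    generalize Nat.card F % 16 = r at this ⊢
    interval_cases r <;> simp
  rw [h1]
  constructor
  · rintro ⟨H, ⟨e⟩⟩
    have ho : orderOf ((e.symm (finRotate 4) : H) : Matrix.ProjectiveSpecialLinearGroup (Fin 2) F)
        = 4 := by
      rw [Subgroup.orderOf_coe, MulEquiv.orderOf_eq, orderOf_eq_iff (by norm_num)]
      decide +kernel
    by_cases hq : Odd (Nat.card F)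
    · exact (exists_orderOf_four_psl_iff hq).1 ⟨_, toP_mem _, by
        rw [orderOf_injective _ toP_injective, ho]⟩
    · exfalso
      have h2 := two_le_card_field F
      have h3 := orderOf_psl (ringChar F) ((e.symm (finRotate 4) : H) :
        Matrix.ProjectiveSpecialLinearGroup (Fin 2) F)
      rw [ho, gcd_two_eq_of_even hq] at h3
      rw [Nat.odd_iff] at hq
      rcases h3 with h | h | h
      · exact absurd (h ▸ CharP.char_is_prime F (ringChar F)) (by norm_num)
      all_goals omega
  · intro h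
    obtain ⟨V, hV⟩ := exists_four_psl (F := F) (Nat.odd_iff.2 (by omega))
    exact ⟨_, equiv_normalizer_four_psl_perm h hV⟩

end Cfsg.Agent.S0803
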