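import Cfsg.Statements.S0808
import Cfsg.Agent.Lib.PSL2.Classify

set_option autoImplicit false
open Cfsg

namespace Cfsg.Agent.S0808

/-- Conjugacy classes of four-groups in PSL_2(q), q odd: if q ≡ 3 or 5 (mod 8) all Klein four-subgroups are conjugate; if q ≡ 1 or 7 (mod 8) there are two Klein four-subgroups which are not conjugate, and every Klein four-subgroup is conjugate to one of them. -/
theorem result {F : Type*} [Field F] [Fintype F] {q : ℕ} (hF : Fintype.card F = q) (hodd : Odd q) : ((q % 8 = 3 ∨ q % 8 = 5) → ∀ V W : Subgroup (Matrix.ProjectiveSpecialLinearGroup (Fin 2) F), IsKleinFour V → IsKleinFour W → ∃ g : Matrix.ProjectiveSpecialLinearGroup (Fin 2) F, W = V.map (MulAut.conj g).toMonoidHom) ∧ ((q % 8 = 1 ∨ q % 8 = 7) → ∃ V₁ V₂ : Subgroup (Matrix.ProjectiveSpecialLinearGroup (Fin 2) F), IsKleinFour V₁ ∧ IsKleinFour V₂ ∧ (¬ ∃ g : Matrix.ProjectiveSpecialLinearGroup (Fin 2) F, V₂ = V₁.map (MulAut.conj g).toMonoidHom) ∧ ∀ W : Subgroup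 (Matrix.ProjectiveSpecialLinearGroup (Fin 2) F), IsKleinFour W → (∃ g : Matrix.ProjectiveSpecialLinearGroup (Fin 2) F, W = V₁.map (MulAut.conj g).toMonoidHom) ∨ (∃ g : Matrix.ProjectiveSpecialLinearGroup (Fin 2) F, W = V₂.map (MulAut.conj g).toMonoidHom)) := by
  open Cfsg.Lib.PSL2 Cfsg.Lib.Small in
  subst hF
  rw [← Nat.card_eq_fintype_card] at *
  refine ⟨fun h8 V W hV hW => exists_conj_four_psl h8 hV hW, fun h8 => ?_⟩
  obtain ⟨V, hV⟩ := exists_four_psl hodd
  have h2 := index_pslSub_of_odd hodd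
  obtain ⟨c, -, hc⟩ := SetLike.not_le_iff_exists.1 (show ¬ ⊤ ≤ pslSub F from fun h => by
    rw [top_le_iff.1 h, Subgroup.index_top] at h2; omega)
  refine ⟨V, V.map (conjL c).toMonoidHom, hV, isKleinFour_map (conjL c).injective hV, ?_,
    fun W hW => ?_⟩
  · rintro ⟨g, hg⟩
    have h1 : V.map (conjL (c⁻¹ * toP g)).toMonoidHom = V := by
      rw [map_conjL_mul, conjL_toP, ← hg, ← map_conjL_mul, inv_mul_cancel, map_one]
      exact Subgroup.map_id V
    have h3 := (normalizer_four_le_pslSub_iff hodd (isKleinFour_map toP_injective hV)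
      (map_toP_le V)).2 h8 (map_conjL_eq_iff.1 h1)
    rw [Subgroup.mul_mem_cancel_right _ (toP_mem g), inv_mem_iff] at h3
    exact hc h3
  · obtain ⟨d, rfl⟩ := exists_conjL_four hodd hV hW
    by_cases hd : d ∈ pslSub F
    · obtain ⟨g, rfl⟩ := hd
      exact Or.inl ⟨g, by rw [conjL_toP]⟩
    · obtain ⟨g, hg⟩ := (Subgroup.mul_mem_iff_of_index_two h2).2
        (iff_of_false hd (mt inv_mem_iff.1 hc))
      exact Or.inr ⟨g, by rw [← conjL_toP, hg, ← map_conjL_mul, inv_mul_cancel_right]⟩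

end Cfsg.Agent.S0808
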