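import Cfsg.Statements.S0809
import Cfsg.Agent.Lib.PSL2.SL

set_option autoImplicit false
open Cfsg

namespace Cfsg.Agent.S0809

open Cfsg.Lib.PSL2 in
theorem aux {F : Type*} [Field F] [Finite F] (hq : Odd (Nat.card F))
    (A : Subgroup (Matrix.SpecialLinearGroup (Fin 2) F)) (hA : Nat.card A = 4) :
    -1 ∈ A ∧ ∃ t, orderOf t = 2 ∧ A.map toL = Subgroup.zpowers t := by
  have h2 := two_ne_zero_iff_odd.2 hq
  have h1 : -1 ∈ A := neg_one_mem_of_even h2 (by omega)
  have h3 := card_of_neg_one_mem h2 h1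
  have h4 : Nat.card (A.map toL) = 2 := by omega
  obtain ⟨t, ht⟩ := (Subgroup.isCyclic_iff_exists_zpowers_eq_top _).1
    (isCyclic_of_prime_card (p := 2) h4)
  exact ⟨h1, t, by rw [← Nat.card_zpowers, ht, h4], ht.symm⟩


/-- In SL_2(q), q odd: any two subgroups of order 4 are conjugate, and the normaliser of a subgroup of order 4 has order 2(q − 1) if q ≡ 1 (mod 4) and 2(q + 1) if q ≡ 3 (mod 4); consequently all involutions of PSL_2(q) are conjugate. -/
theorem result {F : Type*} [Field F] [Fintype F] {q : ℕ} (hF : Fintype.card F = q) (hodd : Odd q) (A : Subgroup (Matrix.SpecialLinearGroup (Fin 2) F)) (hA : Nat.card A = 4) : (∀ B : Subgroup (Matrix.SpecialLinearGroup (Fin 2) F), Nat.card B = 4 → ∃ g : Matrix.SpecialLinearGroup (Fin 2) F, B = A.map (MulAut.conj g).toMonoidHom) ∧ (q % 4 = 1 → Nat.card ↥(Subgroup.normalizer (A : Set (Matrix.SpecialLinearGroup (Fin 2) F))) = 2 * (q - 1)) ∧ (q % 4 = 3 → Nat.card ↥(Subgroup.normalizer (A : Set (Matrix.SpecialLinearGroup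 (Fin 2) F))) = 2 * (q + 1)) ∧ (∀ x y : Matrix.ProjectiveSpecialLinearGroup (Fin 2) F, orderOf x = 2 → orderOf y = 2 → IsConj x y) := by
  open Cfsg.Lib.PSL2 in
  subst hF
  rw [← Nat.card_eq_fintype_card] at hodd ⊢
  have h2 := two_ne_zero_iff_odd.2 hodd
  obtain ⟨h1, t, ht, e⟩ := aux hodd A hA
  have t1 : t ≠ 1 := by rintro rfl; simp at ht
  have t2 : t * t = 1 := by rw [← pow_two, orderOf_dvd_iff_pow_eq_one.1 (dvd_of_eq ht)]
  obtain ⟨a, b, m, h3, h4⟩ := exists_mem_torus_of_mul_self (AlgebraicClosure F) hodd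
    (t := toP t) (by rwa [Ne, map_eq_one_iff _ toP_injective]) (by rw [← map_mul, t2, map_one])
  have h5 := h3.four_dvd hodd h4 (toP_mem t) (by rwa [Ne, map_eq_one_iff _ toP_injective])
    (by rw [← map_mul, t2, map_one])
  have h6 : Nat.card (Subgroup.normalizer (A : Set (Matrix.SpecialLinearGroup (Fin 2) F))) =
      2 * m := by
    rw [normalizer_eq_comap_toL h1, card_comap_toL h2, e, normalizer_of_le_torusL h3.1
      (Subgroup.zpowers_le_of_mem h4) (by simpa using t1), ← h3.card_dihL_mul,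
      gcd_two_eq_of_odd hodd]
  have h7 := two_le_card_field F
  refine ⟨fun B hB => ?_, fun h => ?_, fun h => ?_, fun x y => isConj_psl_of_orderOf_two⟩
  · obtain ⟨h1', t', ht', e'⟩ := aux hodd B hB
    obtain ⟨c, rfl⟩ := isConj_iff.1 (isConj_psl_of_orderOf_two ht ht')
    obtain ⟨g, rfl⟩ := toL_surjective c
    refine ⟨g, ?_⟩
    rw [← comap_map_toL h1', ← comap_map_toL (H := A.map _) ⟨-1, h1, by simp⟩, map_conj_map, e, e',
      MonoidHom.map_zpowers]
    rfl
  · rw [h6]; rcases h3.eq_or_eq with rfl | rfl <;> omega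
  · rw [h6]; rcases h3.eq_or_eq with rfl | rfl <;> omega

end Cfsg.Agent.S0809
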