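import Cfsg.Statements.S0823
import Cfsg.Agent.Lib.Orth.SymTwo

set_option autoImplicit false
open Cfsg

namespace Cfsg.Agent.S0823

open Cfsg.Lib Cfsg.Lib.Orth Matrix Module Subgroup

/-- SO_3(3) ≅ S_4: the determinant-one isometries of the form x_0² + x_1y_1 over the field with 3 elements form a group isomorphic to the symmetric group on 4 letters. -/
theorem result {F : Type*} [Field F] [Fintype F] (hF : Fintype.card F = 3) : Nonempty (↥(Cfsg.specialIsometryGroup F (Cfsg.quadFormOdd 1 F)) ≃* Equiv.Perm (Fin 4)) := by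
  have h3 : (3 : F) = 0 := by simpa [hF] using FiniteField.cast_card_eq_zero F
  have h2 : (2 : F) ≠ 0 := fun h => one_ne_zero (α := F) (by linear_combination h3 - h)
  have hQ : ND (qDiag fun _ : Fin 4 => (1 : F)) := nd_qDiag h2 fun _ => one_ne_zero
  let φ : Equiv.Perm (Fin 4) →* O (qDiag fun _ : Fin 4 => (1 : F)) :=
    O.ofMat hQ permMatrixHom fun g v => by
      rw [show permMatrixHom g *ᵥ v = v ∘ ⇑g⁻¹ from permMatrix_mulVec _, qDiag_apply, qDiag_apply]
      exact Equiv.sum_comp g⁻¹ fun i => 1 * v i ^ 2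
  have hw : qDiag (fun _ : Fin 4 => (1 : F)) 1 ≠ 0 := by
    simp [qDiag_apply]; exact fun h => one_ne_zero (α := F) (by linear_combination h - h3)
  have S := isOSum_singleton h2 hw
  obtain ⟨φ', h⟩ := S.exists_hom hQ φ fun x => mem_fixer_span.2 fun v hv =>
    hv ▸ permMatrix_mulVec _
  have hd := finrank_perp_singleton hQ (ne_zero_of_Q_ne_zero hw)
  obtain ⟨e⟩ := nonempty_O_equiv_of_odd (S.nd_right hQ) (nd_qOdd h2 1) ⟨1, by simp at hd; omega⟩
    (by simp at hd ⊢; omega)
  have hφ : Function.Injective (e.toMonoidHom.comp φ') := e.injective.comp fun a b hab => by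
    have h1 : φ a = φ b := by rw [← h, ← h, hab]
    refine Equiv.ext fun i => ?_
    have := (permMatrixHom_single (F := F) a i).symm.trans
      ((congrArg (fun g : O _ => g.1 (Pi.single i 1)) h1).trans (permMatrixHom_single b i))
    simpa [Pi.single_apply] using congrFun this (a i)
  let Z := zpowers (O.neg (qOdd 1 F))
  have hZ : Z ≤ center _ := zpowers_le.2 neg_mem_center
  haveI : Z.Normal := ⟨fun n hn g => by rwa [mem_center_iff.1 (hZ hn) g, mul_inv_cancel_right]⟩
  have ho : orderOf (O.neg (qOdd 1 F)) = 2 := orderOf_eq_prime (by rw [pow_two, Orth.neg_mul_neg])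
    (neg_ne_one h2)
  have hc : Nat.card (O (qOdd 1 F)) = 48 := by simp [card_O_qOdd h2, hF]
  have hc' : Nat.card (O (qOdd 1 F) ⧸ Z) = 24 := by
    have := Z.card_eq_card_quotient_mul_card_subgroup
    rw [hc, Nat.card_zpowers, ho] at this; omega
  obtain ⟨e1⟩ := nonempty_equiv_of_card ⟨(QuotientGroup.mk' Z).comp (e.toMonoidHom.comp φ'),
    (injective_iff_map_eq_one _).2 fun g hg => by
      have h1 : ∀ x, x * g = g * x := fun x => hφ (by
        rw [map_mul, map_mul]; exact mem_center_iff.1 (hZ ((QuotientGroup.eq_one_iff _).1 hg)) _)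
      refine Equiv.ext fun i => by_contra fun hi => ?_
      obtain ⟨k, h3, h4⟩ := Linear.exists_third (by simp) i (g i)
      have := DFunLike.congr_fun (h1 (Equiv.swap (g i) k)) i
      rw [Equiv.Perm.mul_apply, Equiv.Perm.mul_apply, Equiv.swap_apply_left,
        Equiv.swap_apply_of_ne_of_ne (Ne.symm (show g i ≠ i from hi)) h3.symm] at this
      exact h4 this⟩ (by simp [hc', Fintype.card_perm, Nat.factorial])
  obtain ⟨e2⟩ := nonempty_equiv_of_card ⟨(QuotientGroup.mk' Z).comp (O.det (qOdd 1 F)).ker.subtype,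
    (injective_iff_map_eq_one _).2 fun g hg => by
      obtain ⟨k, hk⟩ := (mem_powers_iff_mem_zpowers.2 ((QuotientGroup.eq_one_iff _).1 hg))
      simp only [O.neg_pow] at hk
      split_ifs at hk
      · exact Subtype.ext hk.symm
      · have := g.2
        rw [MonoidHom.mem_ker, ← show _ = g.1 from hk, Orth.det_neg] at this
        exact absurd (congrArg Units.val this) (by simpa using fun h => h2 (by linear_combination -h))⟩
    (by
      have := (O.det (qOdd 1 F)).ker.card_mul_index
      rw [ker_det_eq (nd_qOdd h2 1) h2, index_ker_dickson _ (by simp), hc] at this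
      rw [ker_det_eq (nd_qOdd h2 1) h2]; omega)
  refine ⟨(((isoEquiv (qOdd 1 F)).subgroupMap _).trans (MulEquiv.subgroupCongr ?_)).trans
    (e2.symm.trans e1)⟩
  ext g
  refine mem_map_equiv.trans ((mem_special_iff (Q := qOdd 1 F) _).trans ?_)
  rw [MulEquiv.apply_symm_apply, MonoidHom.mem_ker]

end Cfsg.Agent.S0823
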