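import Cfsg.Statements.S0828
import Cfsg.Agent.Lib.Symp.Orb
import Cfsg.Agent.Lib.Symp.Siegel

set_option autoImplicit false
open Cfsg

namespace Cfsg.Agent.S0828

/-- The symplectic generalised quadrangle over a field with q elements: the number of 2-dimensional subspaces of F^4 on which the symplectic form vanishes is (q + 1)(q² + 1), and every non-zero vector lies in exactly q + 1 of them. -/
theorem result {F : Type*} [Field F] [Fintype F] {q : ℕ} (hF : Fintype.card F = q) : Nat.card {W : Submodule F (Fin 2 ⊕ Fin 2 → F) // Module.finrank F W = 2 ∧ ∀ u ∈ W, ∀ v ∈ W, Cfsg.sympForm 2 F u v = 0} = (q + 1) * (q ^ 2 + 1) ∧ ∀ v : Fin 2 ⊕ Fin 2 → F, v ≠ 0 → Nat.card {W : Submodule F (Fin 2 ⊕ Fin 2 → F) // Module.finrank F W = 2 ∧ v ∈ W ∧ ∀ u ∈ W, ∀ w ∈ W, Cfsg.sympForm 2 F u w = 0} = q + 1 := by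
  open Cfsg.Lib.Symp Cfsg.Lib.Unitary Matrix Module in
  simp only [sympForm_eq_bil]
  have hA := bil_isAlt (Fin 2) F
  have hB := bil_nondegenerate (Fin 2) F
  rw [← Nat.card_eq_fintype_card] at hF
  obtain ⟨q, rfl⟩ : ∃ k, q = k + 2 := ⟨q - 2, by have := Finite.one_lt_card (α := F); omega⟩
  refine ⟨?_, fun v hv => ?_⟩
  · have h1 := card_isotropic_mul hA hB (m := 2) (by simp)
    simp only [Finset.prod_range_succ, Finset.prod_range_zero, Lib.Orth.finrank_bil, hF] at h1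
    refine Nat.eq_of_mul_eq_mul_right (by simp; nlinarith) (h1.trans ?_)
    rw [show (q + 2) ^ (2 * 2 - 0) - (q + 2) ^ 0 = (q + 1) * (q + 3) * ((q + 2) ^ 2 + 1) from
      Nat.sub_eq_of_eq_add (by ring), show (q + 2) ^ (2 * 2 - 1) - (q + 2) ^ 1 =
      (q + 1) * (q + 2) * (q + 3) from Nat.sub_eq_of_eq_add (by ring), show (q + 2) ^ 2 - (q + 2) ^ 0 =
      (q + 1) * (q + 3) from Nat.sub_eq_of_eq_add (by ring), show (q + 2) ^ 2 - (q + 2) ^ 1 =
      (q + 1) * (q + 2) from Nat.sub_eq_of_eq_add (by ring)]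
    ring
  have h1 : ∀ W : Submodule F (Fin 2 ⊕ Fin 2 → F), v ∈ W →
      Nat.card {w // w ∈ W ∧ w ∉ F ∙ v} = (q + 2) ^ finrank F W - (q + 2) := fun W hW => by
    have := Set.ncard_sdiff (SetLike.coe_subset_coe.2 ((Submodule.span_singleton_le_iff_mem _ _).2 hW))
    rwa [ncard_submodule, ncard_submodule, finrank_span_singleton hv, hF, pow_one] at this
  have h2 : ∀ w, w ∉ F ∙ v → finrank F (Submodule.span F {v, w}) = 2 := fun w hw => by
    have := finrank_span_eq_card (linearIndependent_pair_of_notMem hv hw)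
    rwa [range_cons_cons_empty] at this
  let φ : {w // w ∈ LinearMap.ker (bil _ F v) ∧ w ∉ F ∙ v} → {W : Submodule F (Fin 2 ⊕ Fin 2 → F) //
      finrank F W = 2 ∧ v ∈ W ∧ ∀ u ∈ W, ∀ w ∈ W, bil _ F u w = 0} := fun w =>
    ⟨Submodule.span F {v, w.1}, h2 _ w.2.2, Submodule.subset_span (by simp), fun x hx y hy => by
      obtain ⟨a, b, rfl⟩ := Submodule.mem_span_pair.1 hx
      obtain ⟨c, d, rfl⟩ := Submodule.mem_span_pair.1 hy
      simp [hA v, hA w.1, ← hA.neg_eq v w, show bil _ F v w = 0 from w.2.1]⟩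
  have h3 := h1 (LinearMap.ker (bil _ F v)) (hA v)
  cases nonempty_fintype {W : Submodule F (Fin 2 ⊕ Fin 2 → F) //
      finrank F W = 2 ∧ v ∈ W ∧ ∀ u ∈ W, ∀ w ∈ W, bil _ F u w = 0}
  have h4 := Module.Dual.finrank_ker_add_one_of_ne_zero (f := bil _ F v)
    fun h => hv (hB.1 v (by simp [h]))
  rw [← Nat.card_congr (Equiv.sigmaFiberEquiv φ), Nat.card_sigma, Finset.sum_congr rfl
    (g := fun _ => (q + 2) ^ 2 - (q + 2)) fun W _ => ?_, show finrank F (LinearMap.ker (bil _ F v)) = 3 by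
      simpa using h4, Finset.sum_const, Finset.card_univ, ← Nat.card_eq_fintype_card, smul_eq_mul,
      show (q + 2) ^ 2 - (q + 2) = (q + 1) * (q + 2) from Nat.sub_eq_of_eq_add (by ring),
      show (q + 2) ^ 3 - (q + 2) = (q + 3) * ((q + 1) * (q + 2)) from
        Nat.sub_eq_of_eq_add (by ring)] at h3
  · exact Nat.eq_of_mul_eq_mul_right (by positivity) h3
  refine .trans ?_ ((h1 W.1 W.2.2.1).trans (by rw [W.2.1]))
  refine Nat.card_congr ⟨fun w => ⟨w.1.1, SetLike.le_def.1 (congrArg (·.1) w.2).le (Submodule.subset_span (by simp)), w.1.2.2⟩,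
    fun w => ⟨⟨w.1, W.2.2.2 v W.2.2.1 _ w.2.1, w.2.2⟩, Subtype.ext (Submodule.eq_of_le_of_finrank_eq
      (Submodule.span_le.2 (by simp [Set.insert_subset_iff, W.2.2.1, w.2.1])) ((h2 _ w.2.2).trans
        W.2.1.symm))⟩, fun _ => rfl, fun _ => rfl⟩

end Cfsg.Agent.S0828
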