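import Cfsg.Statements.S0829
import Cfsg.Agent.Lib.Unitary.Parab

set_option autoImplicit false
open Cfsg

namespace Cfsg.Agent.S0829

open Cfsg.Lib.Unitary

/-- The unitary quadrangle of PSU_4(q): with |F| = q², the number of 2-dimensional subspaces of F^4 on which the Hermitian form Σ x_i y_i^q vanishes is (q + 1)(q³ + 1). -/
theorem result {F : Type*} [Field F] [Fintype F] {q : ℕ} (hF : Fintype.card F = q ^ 2) : Nat.card {W : Submodule F (Fin 4 → F) // Module.finrank F W = 2 ∧ ∀ u ∈ W, ∀ v ∈ W, Cfsg.hermForm 4 F q u v = 0} = (q + 1) * (q ^ 3 + 1) := by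
  obtain ⟨σ, hσ⟩ := exists_isBar hF
  have hB := hσ.isHerm (ι := Fin 4)
  have h2 := hσ.two_le
  have := hB.card_totIso hσ (k := 2) (m := 0) (by simp)
  rw [Nat.card_congr (Equiv.subtypeEquivRight (q := fun W : Submodule F (Fin 4 → F) =>
    Module.finrank F W = 2 ∧ W ≤ perp (stdForm σ _) W) fun W => by
      simp only [hσ.hermForm_eq]
      exact ⟨fun h => ⟨h.1, fun v hv u hu => h.2 v hv u hu⟩,
        fun h => ⟨h.1, fun v hv u hu => h.2 hv u hu⟩⟩)]
  have h1 : 1 < q ^ 2 := Nat.one_lt_pow (by omega) (by omega)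
  have h3 : q ^ 2 < (q ^ 2) ^ 2 := by nlinarith
  refine Nat.eq_of_mul_eq_mul_right ?_ (this.trans ?_)
  · simp only [guOrder_zero, Fin.prod_univ_two, Fin.val_zero, Fin.val_one]
    have : 0 < (q ^ 2) ^ 2 - (q ^ 2) ^ 0 := by simp; omega
    have : 0 < (q ^ 2) ^ 2 - (q ^ 2) ^ 1 := by simp; omega
    positivity
  · zify
    simp only [guOrder_cast (by omega : 1 ≤ q), Fin.prod_univ_succ, Fin.val_zero, Fin.val_succ,
      Fin.prod_univ_zero]
    rw [Nat.cast_sub (by simp; omega), Nat.cast_sub (by simp; omega)]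
    push_cast
    ring

end Cfsg.Agent.S0829
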