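import Cfsg.Statements.S0831
import Cfsg.Agent.Lib.Orth.Levi

set_option autoImplicit false
open Cfsg

namespace Cfsg.Agent.S0831

open Cfsg.Lib.Orth QuadraticMap

/-- The two families of maximal totally singular subspaces of the hyperbolic quadric: for the form Σ x_i y_i on F^(2m), m ≥ 1, and m-dimensional subspaces U, W, X on which it vanishes, the parities of m − dim(U ∩ W), m − dim(W ∩ X) and m − dim(U ∩ X) sum to an even number (so 'even codimension of the intersection' is an equivalence relation), and there exist two such subspaces meeting in codimension 1 (so there are exactly two classes). -/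
theorem result {F : Type*} [Field F] (m : ℕ) (hm : 1 ≤ m) : (∀ U W X : Submodule F (Fin m ⊕ Fin m → F), (Module.finrank F U = m ∧ ∀ w ∈ U, Cfsg.quadFormPlus m F w = 0) → (Module.finrank F W = m ∧ ∀ w ∈ W, Cfsg.quadFormPlus m F w = 0) → (Module.finrank F X = m ∧ ∀ w ∈ X, Cfsg.quadFormPlus m F w = 0) → Even ((m - Module.finrank F ↥(U ⊓ W)) + (m - Module.finrank F ↥(W ⊓ X)) + (m - Module.finrank F ↥(U ⊓ X)))) ∧ ∃ U W : Submodule F (Fin m ⊕ Fin m → F), (Module.finrank F U = m ∧ ∀ w ∈ U, Cfsg.quadFormPlus m F w = 0) ∧ (Module.finrank F W = m ∧ ∀ w ∈ W, Cfsg.quadFormPlus m F w = 0) ∧ Module.finrank F ↥(U ⊓ W) + 1 = m := by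
  have hQ := nd_qPlus (F := F) m
  refine ⟨fun U W X hU hW hX => ?_, ?_⟩
  · have h1 := (lag_qPlus_iff.2 hU).psign_mul hQ (lag_qPlus_iff.2 hW) (lag_qPlus_iff.2 hX)
    have h2 := psign_eq_one_iff (U := U) (W := W)
    have h3 := psign_eq_one_iff (U := W) (W := X)
    have h4 := psign_eq_one_iff (U := U) (W := X)
    rw [hU.1] at h2 h4
    rw [hW.1] at h3
    rw [Nat.even_add, Nat.even_add, ← h2, ← h3, ← h4, ← h1]
    rcases Int.units_eq_one_or (psign U W) with h | h <;>
    rcases Int.units_eq_one_or (psign W X) with h' | h' <;> simp [h, h']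
  · have : Nontrivial (Fin m ⊕ Fin m → F) :=
      Module.nontrivial_of_finrank_pos (R := F) (by simp; omega)
    obtain ⟨v, hv⟩ := hQ.exists_Q_ne
    exact ⟨_, _, lag_qPlus_iff.1 (lag_lagL m), lag_qPlus_iff.1 ((lag_lagL m).map (refl _ v)),
      ((lag_lagL m).finrank_inf_map_refl hQ hv).trans (finrank_lagL m)⟩

end Cfsg.Agent.S0831
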