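import Cfsg.Statements.S0832
import Cfsg.Agent.Lib.Orth.Levi

set_option autoImplicit false
open Cfsg

namespace Cfsg.Agent.S0832

open Cfsg.Lib.Orth QuadraticMap

/-- For the form Σ x_i y_i on F^(2m) over a finite field, m ≥ 1: an (m−1)-dimensional subspace on which the form vanishes is contained in exactly two m-dimensional subspaces on which it vanishes. -/
theorem result {F : Type*} [Field F] [Finite F] (m : ℕ) (hm : 1 ≤ m) (U : Submodule F (Fin m ⊕ Fin m → F)) (hU : Module.finrank F U + 1 = m ∧ ∀ u ∈ U, Cfsg.quadFormPlus m F u = 0) : Nat.card {W : Submodule F (Fin m ⊕ Fin m → F) // Module.finrank F W = m ∧ (∀ w ∈ W, Cfsg.quadFormPlus m F w = 0) ∧ U ≤ W} = 2 := by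
  have hQ := nd_qPlus (F := F) m
  have hU' : TS (qPlus m F) U := hU.2
  have h0 := hU.1
  obtain ⟨W, hW, hW'⟩ := hU'.exists_le_maxTS
  have hL : Lag (qPlus m F) W := ⟨hW'.1, by rw [hW'.finrank_eq hQ ((lag_lagL m).maxTS hQ), (lag_lagL m).2]⟩
  have hWm := (lag_qPlus_iff.1 hL).1
  obtain ⟨v, hv, hv0⟩ := TS.exists_nonsingular_perp hQ (U := U) (by simp; omega)
  have hL' := hL.map (refl _ v)
  have ha := hL.finrank_inf_map_refl hQ hv0
  have hW2 : U ≤ W.map ((refl (qPlus m F) v).1 : _ →ₗ[F] _) := by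
    rw [← mem_stab.1 (refl_mem_stab_of_perp hv)]; exact Submodule.map_mono hW
  set W' := W.map ((refl (qPlus m F) v).1 : (Fin m ⊕ Fin m → F) →ₗ[F] (Fin m ⊕ Fin m → F))
  have hUW : U = W ⊓ W' := Submodule.eq_of_le_of_finrank_eq (le_inf hW hW2) (by omega)
  have : {X : Submodule F (Fin m ⊕ Fin m → F) | Module.finrank F X = m ∧
      (∀ w ∈ X, Cfsg.quadFormPlus m F w = 0) ∧ U ≤ X} = {W, W'} := by
    ext X
    simp only [Set.mem_setOf_eq, Set.mem_insert_iff, Set.mem_singleton_iff, ← and_assoc,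
      ← lag_qPlus_iff]
    constructor
    · rintro ⟨h1, h2⟩
      have h3 : X ≤ W ⊔ W' := by
        rw [← h1.perp_eq hQ, ← hL.perp_eq hQ, ← hL'.perp_eq hQ, ← perp_inf hQ, ← hUW]
        exact perp_anti h2
      exact (hL.le_or_le hQ hL' ha h1.1 h3).imp
        (fun h => Submodule.eq_of_le_of_finrank_eq h (h1.finrank_eq hL))
        fun h => Submodule.eq_of_le_of_finrank_eq h (h1.finrank_eq hL')
    · rintro (rfl | rfl)
      · exact ⟨hL, hW⟩
      · exact ⟨hL', hW2⟩
  change Nat.card {X : Submodule F (Fin m ⊕ Fin m → F) | Module.finrank F X = m ∧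
      (∀ w ∈ X, Cfsg.quadFormPlus m F w = 0) ∧ U ≤ X} = 2
  rw [this, Nat.card_coe_set_eq, Set.ncard_pair]
  intro h
  rw [← h, inf_idem] at ha
  omega

end Cfsg.Agent.S0832
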