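import Cfsg.Statements.S0833
import Cfsg.Agent.Lib.Orth.Tensor

set_option autoImplicit false
open Cfsg

namespace Cfsg.Agent.S0833

open Cfsg.Lib.Orth QuadraticMap

/-- If B₁, B₂ are non-degenerate alternating forms on U (dim 2k) and W (dim 2l), then B₁ ⊗ B₂ on U ⊗ W is symmetric, non-degenerate, and vanishes identically on some subspace of dimension 2kl (half of dim U ⊗ W). -/
theorem result {F U W : Type*} [Field F] [Fintype F] [AddCommGroup U] [Module F U] [FiniteDimensional F U] [AddCommGroup W] [Module F W] [FiniteDimensional F W] (B₁ : LinearMap.BilinForm F U) (B₂ : LinearMap.BilinForm F W) (h₁ : B₁.Nondegenerate) (h₂ : B₂.Nondegenerate) (hA₁ : B₁.IsAlt) (hA₂ : B₂.IsAlt) (k l : ℕ) (hU : Module.finrank F U = 2 * k) (hW : Module.finrank F W = 2 * l) : (B₁.tmul B₂).IsSymm ∧ (B₁.tmul B₂).Nondegenerate ∧ (∃ X : Submodule F (TensorProduct F U W), Module.finrank F X = 2 * k * l ∧ ∀ x ∈ X, ∀ y ∈ X, (B₁.tmul B₂) x y = 0) := by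
  refine ⟨LinearMap.BilinForm.isSymm_iff.1 ((LinearMap.BilinForm.isSymm_iff_basis
    ((Module.finBasis F U).tensorProduct (Module.finBasis F W))).2 fun i j => ?_),
    nondegenerate_tmul h₁ h₂, ?_⟩
  · simp only [Module.Basis.tensorProduct_apply', tmul_apply_tmul]
    rw [← hA₁.neg_eq, ← hA₂.neg_eq, _root_.neg_mul_neg]
  · obtain ⟨m, b, -, hb, -⟩ := Lib.Symp.exists_symplectic_basis hA₁ h₁
    have hm : m = k := by
      have := Module.finrank_eq_card_basis b
      simp at this; omega
    subst hm
    let c := Module.finBasisOfFinrankEq F W hW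
    let v : Fin m × Fin (2 * l) → TensorProduct F U W := fun p => b.tensorProduct c (.inl p.1, p.2)
    have hv : LinearIndependent F v := (b.tensorProduct c).linearIndependent.comp
      (fun p : Fin m × Fin (2 * l) => (Sum.inl p.1, p.2)) fun p q h => by simpa [Prod.ext_iff] using h
    refine ⟨Submodule.span F (Set.range v), by rw [finrank_span_eq_card hv]; simp; ring,
      bilin_eq_zero_of_span ?_⟩
    rintro _ ⟨p, rfl⟩ _ ⟨q, rfl⟩
    simp only [v, Module.Basis.tensorProduct_apply, tmul_apply_tmul, hb, zero_mul]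

end Cfsg.Agent.S0833
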