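import Cfsg.Statements.S0834
import Cfsg.Agent.Lib.Orth.Tensor

set_option autoImplicit false
open Cfsg

namespace Cfsg.Agent.S0834

open Cfsg.Lib.Orth QuadraticMap

/-- Over a finite field with 2 ≠ 0: if B₁ on U (dim 2k, k ≥ 1) and B₂ on W (dim 2l, l ≥ 1) are non-degenerate symmetric forms admitting no totally isotropic subspaces of dimensions k, resp. l (minus type), then B₁ ⊗ B₂ admits a totally isotropic subspace of dimension 2kl (plus type). -/
theorem result {F U W : Type*} [Field F] [Fintype F] [AddCommGroup U] [Module F U] [FiniteDimensional F U] [AddCommGroup W] [Module F W] [FiniteDimensional F W] (h2 : (2 : F) ≠ 0) (B₁ : LinearMap.BilinForm F U) (B₂ : LinearMap.BilinForm F W) (h₁ : B₁.Nondegenerate) (h₂ : B₂.Nondegenerate) (hS₁ : B₁.IsSymm) (hS₂ : B₂.IsSymm) (k l : ℕ) (hk : 1 ≤ k) (hl : 1 ≤ l) (hU : Module.finrank F U = 2 * k) (hW : Module.finrank F W = 2 * l) (hm₁ : ¬ (∃ X : Submodule F (U), Module.finrank F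 X = k ∧ ∀ x ∈ X, ∀ y ∈ X, (B₁) x y = 0)) (hm₂ : ¬ (∃ X : Submodule F (W), Module.finrank F X = l ∧ ∀ x ∈ X, ∀ y ∈ X, (B₂) x y = 0)) : (∃ X : Submodule F (TensorProduct F U W), Module.finrank F X = 2 * k * l ∧ ∀ x ∈ X, ∀ y ∈ X, (B₁.tmul B₂) x y = 0) := by
  refine (exists_isotropic_iff h2 (isSymm_tmul hS₁ hS₂) (nondegenerate_tmul h₁ h₂)
    (by rw [Module.finrank_tensorProduct, hU, hW]; ring)).2 ?_
  rw [disc_tmul h2 h₁ h₂ hS₁ hS₂, hU, hW]
  simp only [mul_assoc, pow_mul, Int.units_sq, neg_one_sq, one_pow, sqsign_one, one_mul]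

end Cfsg.Agent.S0834
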