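import Cfsg.Statements.S0837
import Cfsg.Agent.Lib.Unitary.Glue

set_option autoImplicit false
open Cfsg

namespace Cfsg.Agent.S0837

/-- If W ≤ F^n (|F| = q²) is a k-dimensional subspace on which the Hermitian form Σ x_i y_i^q is non-degenerate, then the stabiliser of W in GU_n(q) is isomorphic to GU_k(q) × GU_(n−k)(q). -/
theorem result {F : Type*} [Field F] [Fintype F] {q : ℕ} (hF : Fintype.card F = q ^ 2) (n k : ℕ) (hk : k ≤ n) (W : Submodule F (Fin n → F)) (hWk : Module.finrank F W = k) (hW : ∀ u ∈ W, (∀ v ∈ W, Cfsg.hermForm n F q u v = 0) → u = 0) : Nonempty (↥((Cfsg.stabilizing (Cfsg.glToMat (Fin n) F) (W : Set (Fin n → F))).subgroupOf (Cfsg.GU n F q)) ≃* ↥(Cfsg.GU k F q) × ↥(Cfsg.GU (n - k) F q)) := by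
  obtain ⟨σ, hσ⟩ := Cfsg.Lib.Unitary.exists_isBar hF
  have hB := hσ.isHerm (ι := Fin n)
  simp only [hσ.hermForm_eq] at hW
  have hd : Disjoint W (Cfsg.Lib.Unitary.perp (Cfsg.Lib.Unitary.stdForm σ (Fin n)) W) :=
    Submodule.disjoint_def.mpr fun u hu hu' => hW u hu hu'
  obtain ⟨e1⟩ := (hB.restrict hd).nonempty_ug_equiv hσ hWk
  obtain ⟨e2⟩ := (hB.restrict_perp hd).nonempty_ug_equiv (n := n - k) hσ
    (by rw [hB.finrank_perp, hWk]; simp)
  refine ⟨MulEquiv.trans ?_ ((hB.stabEquiv hd).trans (e1.prodCongr e2))⟩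
  exact
    { toFun := fun g => ⟨hσ.guEquiv n g.1, (hσ.guEquiv n g.1).2, g.2⟩
      invFun := fun g => ⟨(hσ.guEquiv n).symm ⟨g.1, g.2.1⟩, fun v =>
        (g.2.2 v).trans (by rw [← hσ.guEquiv_symm_mulVec ⟨g.1, g.2.1⟩]; rfl)⟩
      left_inv := fun g => by ext : 1; simp
      right_inv := fun g => by ext : 1; simp
      map_mul' := fun g g' => by ext : 1; simp }

end Cfsg.Agent.S0837
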