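import Cfsg.Statements.S0839
import Cfsg.Agent.Lib.Linear.Transv

set_option autoImplicit false
open Cfsg

namespace Cfsg.Agent.S0839

/-- Every transvection t ∈ SL_(n+2)(F) (rank(t − 1) = 1, (t − 1)² = 0) is conjugate in SL_(n+2)(F) to 1 + v·e_0ᵀ for some column vector v with v_0 = 0 (the group A of matrices that are the identity except in the first column below the diagonal); the dimension is written n + 2 ≥ 2. -/
theorem result {F : Type*} [Field F] (n : ℕ) (t : Matrix.SpecialLinearGroup (Fin (n + 2)) F) (ht : Cfsg.IsTransvection (t : Matrix (Fin (n + 2)) (Fin (n + 2)) F)) : ∃ (g : Matrix.SpecialLinearGroup (Fin (n + 2)) F) (v : Fin (n + 2) → F), v 0 = 0 ∧ ((g⁻¹ * t * g : Matrix.SpecialLinearGroup (Fin (n + 2)) F) : Matrix (Fin (n + 2)) (Fin (n + 2)) F) = 1 + Matrix.vecMulVec v (Pi.single 0 1) := by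

  obtain ⟨v, φ, h, hA⟩ := Cfsg.Lib.Linear.isTvNil_of_rank_le_one ht.1.le ht.2
  have hne : (t : Matrix (Fin (n + 2)) (Fin (n + 2)) F) - 1 ≠ 0 := fun h0 => by
    have := ht.1
    rw [h0, Matrix.rank_zero] at this
    exact zero_ne_one this
  rw [hA, Ne, Matrix.vecMulVec_eq_zero, not_or] at hne
  have h10 : (1 : Fin (n + 2)) ≠ 0 := by simp
  obtain ⟨g, c, hc, hg⟩ := Cfsg.Lib.Linear.exists_SL_conj_single h10 hne.1 hne.2 h
  refine ⟨g, Pi.single 1 c⁻¹, by simp, ?_⟩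
  have h1 := hg c⁻¹
  rw [mul_inv_cancel₀ hc, one_smul, ← hA] at h1
  have h2 : (t : Matrix (Fin (n + 2)) (Fin (n + 2)) F) = 1 + g.1 * Matrix.single 1 0 c⁻¹ *
      (g⁻¹).1 := by
    rw [h1]; abel
  rw [Matrix.SpecialLinearGroup.coe_mul, Matrix.SpecialLinearGroup.coe_mul, h2,
    ← Cfsg.Lib.Linear.single_eq_vecMulVec, mul_add, add_mul, mul_one,
    Cfsg.Lib.Linear.SL_coe_inv_mul]
  congr 1
  rw [← mul_assoc, ← mul_assoc, Cfsg.Lib.Linear.SL_coe_inv_mul, one_mul, mul_assoc,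
    Cfsg.Lib.Linear.SL_coe_inv_mul, mul_one]

end Cfsg.Agent.S0839
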