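import Cfsg.Statements.S0841
import Mathlib

set_option autoImplicit false
open Cfsg

namespace Cfsg.Agent.S0841

/-- If the commutator subgroup of G lies in the centre, then for all x, y in G and every natural number n one has (x * y) ^ n = x ^ n * y ^ n * c ^ (n * (n - 1) / 2) with c = y⁻¹ * x⁻¹ * y * x. -/
theorem result {G : Type*} [Group G] (hG : commutator G ≤ Subgroup.center G) (x y : G) (n : ℕ) : (x * y) ^ n = x ^ n * y ^ n * (y⁻¹ * x⁻¹ * y * x) ^ (n * (n - 1) / 2) := by
  have hc : y⁻¹ * x⁻¹ * y * x ∈ Subgroup.center G := by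
    apply hG
    have := Subgroup.commutator_mem_commutator (Subgroup.mem_top y⁻¹) (Subgroup.mem_top x⁻¹)
    rw [commutatorElement_def, inv_inv, inv_inv] at this
    exact this
  set c := y⁻¹ * x⁻¹ * y * x with hcdef
  have hcomm : ∀ g : G, Commute c g := fun g => (Subgroup.mem_center_iff.1 hc g).symm
  have h1 : y * x = x * y * c := by rw [hcdef]; group
  have h2 : ∀ k : ℕ, y ^ k * x = x * y ^ k * c ^ k := by
    intro k
    induction k with
    | zero => simp
    | succ k ih =>
      calc y ^ (k + 1) * x = y * (y ^ k * x) := by group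
        _ = (y * x) * y ^ k * c ^ k := by rw [ih]; group
        _ = x * y * (c * y ^ k) * c ^ k := by rw [h1]; group
        _ = x * y * (y ^ k * c) * c ^ k := by rw [(hcomm _).eq]
        _ = _ := by group
  induction n with
  | zero => simp
  | succ n ih =>
    have h3 : (n + 1) * (n + 1 - 1) / 2 = n * (n - 1) / 2 + n := by
      rw [← Nat.choose_two_right, ← Nat.choose_two_right, Nat.choose_succ_succ' n 1]
      simp [add_comm]
    rw [h3, pow_succ, ih]
    calc x ^ n * y ^ n * c ^ (n * (n - 1) / 2) * (x * y)
        = x ^ n * y ^ n * (c ^ (n * (n - 1) / 2) * (x * y)) := by group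
      _ = x ^ n * (y ^ n * x) * y * c ^ (n * (n - 1) / 2) := by
        rw [((hcomm _).pow_left _).eq]; group
      _ = x ^ n * x * y ^ n * (c ^ n * y) * c ^ (n * (n - 1) / 2) := by rw [h2]; group
      _ = x ^ n * x * y ^ n * (y * c ^ n) * c ^ (n * (n - 1) / 2) := by
        rw [((hcomm _).pow_left _).eq]
      _ = _ := by group

end Cfsg.Agent.S0841
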