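import Cfsg.Statements.S0843
import Cfsg.Agent.Lib.Quat.Sixteen

set_option autoImplicit false
open Cfsg

namespace Cfsg.Agent.S0843

/-- Suppose a Sylow 2-subgroup S of the finite group G is generalized quaternion of order at least 16; let D be the commutator subgroup of S and X the set of elements of the centralizer of D whose order is divisible by the order of D. Then D is contained in the cyclic subgroup generated by any element of X; an element of G conjugating some element of X into the centralizer of D normalizes D; and the normalizer of D maps X to itself under conjugation. -/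
theorem result {G : Type*} [Group G] [Finite G] (S : Sylow 2 G) (n : ℕ) (e : (S : Subgroup G) ≃* QuaternionGroup (2 ^ (n + 2))) (D : Subgroup G) (hD : D = ⁅(S : Subgroup G), (S : Subgroup G)⁆) : (∀ y : G, y ∈ Subgroup.centralizer (D : Set G) → Nat.card D ∣ orderOf y → D ≤ Subgroup.zpowers y) ∧ (∀ g y : G, y ∈ Subgroup.centralizer (D : Set G) → Nat.card D ∣ orderOf y → g * y * g⁻¹ ∈ Subgroup.centralizer (D : Set G) → g ∈ Subgroup.normalizer (D : Set G)) ∧ (∀ g y : G, g ∈ Subgroup.normalizer (D : Set G) → y ∈ Subgroup.centralizer (D : Set G) → Nat.card D ∣ orderOf y → g * y * g⁻¹ ∈ Subgroup.centralizer (D : Set G) ∧ Nat.card D ∣ orderOf (g * y * g⁻¹)) := by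
  obtain ⟨a, b, h⟩ := Lib.Quat.exists_qgen (by positivity) e
  have hm : 4 ∣ 2 ^ (n + 2) := ⟨2 ^ n, by ring⟩
  have hm3 : 3 ≤ 2 ^ (n + 2) := le_trans (by norm_num) (Nat.le_of_dvd h.pos hm)
  rw [h.commutator_eq] at hD
  subst hD
  rw [h.card_zpowers_sq]
  exact ⟨fun y hy hd => h.le_zpowers_of_dvd hm3 hy hd,
    fun g y hy hd hg => h.mem_normalizer_of_conj_mem hm3 hy hd hg,
    fun g y hg hy hd => ⟨Lib.Quat.QGen.conj_mem_centralizer hg hy, by
      rwa [Lib.Modular.orderOf_conj_eq]⟩⟩

end Cfsg.Agent.S0843
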