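import Cfsg.Statements.S0848
import Cfsg.Agent.Lib.T2.Dih8

set_option autoImplicit false
open Cfsg

namespace Cfsg.Agent.S0848

/-- If a finite group equals its own commutator subgroup and contains an involution whose centralizer is isomorphic to the dihedral group of order 8, then the group has order 168 or 360. -/
theorem result {G : Type*} [Group G] [Finite G] (hperf : commutator G = ⊤) (t : G) (ht : orderOf t = 2) (e : Subgroup.centralizer ({t} : Set G) ≃* DihedralGroup 4) : Nat.card G = 168 ∨ Nat.card G = 360 := by
  refine Lib.T2.dih8_card ht e (Lib.T2.dih8_one_class ht e (Lib.Inv.pResidual_two_eq_top_iff.2 fun H hH => ?_))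
  have := H.normal_of_index_eq_two hH
  have hc : IsMulCommutative (G ⧸ H) := by
    have : IsCyclic (G ⧸ H) := isCyclic_of_prime_card (p := 2) hH
    infer_instance
  have h1 : commutator G ≤ H := Subgroup.Normal.quotient_commutative_iff_commutator_le.1 hc
  rw [hperf, top_le_iff] at h1
  rw [h1, Subgroup.index_top] at hH
  omega

end Cfsg.Agent.S0848
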