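import Cfsg.Statements.S0849
import Cfsg.Agent.Lib.Induce.Basic

set_option autoImplicit false
open Cfsg

namespace Cfsg.Agent.S0849

/-- Let H be a subgroup of a finite group G and S a subset of H that is mapped to itself under conjugation by H, is disjoint from its conjugate by any element outside H, and is closed under inverses. Let φ be a class function of H vanishing on H away from S, and let u, v be involutions of G. Then the sum of the induced function of φ over all products a * b with a conjugate to u and b conjugate to v equals the index of H times the sum of φ (a * b) over such pairs with a and b in H. -/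
theorem result {G : Type*} [Group G] [Fintype G] (H : Subgroup G) (S : Set G) (hSH : S ⊆ H) (hHS : ∀ h ∈ H, ∀ s ∈ S, h * s * h⁻¹ ∈ S) (hTI : ∀ g : G, g ∉ H → ∀ s ∈ S, g * s * g⁻¹ ∉ S) (hinv : ∀ s ∈ S, s⁻¹ ∈ S) (φ : H → ℂ) (hφ : Cfsg.IsClassFunction H φ) (hφS : ∀ x : H, (x : G) ∉ S → φ x = 0) (u v : G) (hu : orderOf u = 2) (hv : orderOf v = 2) : ∑ᶠ p ∈ {p : G × G | IsConj u p.1 ∧ IsConj v p.2}, Cfsg.indFun H φ (p.1 * p.2) = (H.index : ℂ) * ∑ᶠ p ∈ {p : H × H | IsConj u (p.1 : G) ∧ IsConj v (p.2 : G)}, φ (p.1 * p.2) := by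
  classical
  haveI := Fintype.ofFinite H
  rw [finsum_mem_def, finsum_mem_def, finsum_eq_sum_of_fintype, finsum_eq_sum_of_fintype]
  set T : Set (G × G) := {p : G × G | IsConj u p.1 ∧ IsConj v p.2} with hT
  let F : G × G → ℂ := T.indicator fun p => extendByZero H φ (p.1 * p.2)
  have h1 : ∀ x : G, ∑ p : G × G, T.indicator (fun p => extendByZero H φ (x⁻¹ * (p.1 * p.2) * x)) p =
      ∑ p, F p := by
    intro x
    refine Fintype.sum_equiv ((MulAut.conj x⁻¹).toEquiv.prodCongr (MulAut.conj x⁻¹).toEquiv) _ _ ?_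
    rintro ⟨a, b⟩
    have hmem : ((x⁻¹ * a * x⁻¹⁻¹, x⁻¹ * b * x⁻¹⁻¹) : G × G) ∈ T ↔ (a, b) ∈ T := by
      have : ∀ w c : G, IsConj w (x⁻¹ * c * x⁻¹⁻¹) ↔ IsConj w c := fun w c =>
        ⟨fun h => h.trans (isConj_iff.2 ⟨x⁻¹, rfl⟩).symm, fun h => h.trans (isConj_iff.2 ⟨x⁻¹, rfl⟩)⟩
      simp only [hT, Set.mem_setOf_eq, this]
    show _ = F (x⁻¹ * a * x⁻¹⁻¹, x⁻¹ * b * x⁻¹⁻¹)
    by_cases hab : (a, b) ∈ T
    · simp only [F]
      rw [Set.indicator_of_mem hab, Set.indicator_of_mem (hmem.2 hab)]
      congr 1; group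
    · simp only [F]
      rw [Set.indicator_of_notMem hab, Set.indicator_of_notMem (fun h => hab (hmem.1 h))]
  have h2 : ∑ p : G × G, T.indicator (fun p => indFun H φ (p.1 * p.2)) p =
      (H.index : ℂ) * ∑ p, F p := by
    have : ∀ p : G × G, T.indicator (fun p => indFun H φ (p.1 * p.2)) p = (Nat.card H : ℂ)⁻¹ *
        ∑ x : G, T.indicator (fun p => extendByZero H φ (x⁻¹ * (p.1 * p.2) * x)) p := by
      intro p
      by_cases hp : p ∈ T
      · simp only [Set.indicator_of_mem hp]; rfl
      · simp [Set.indicator_of_notMem hp]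
    simp only [this]
    rw [← Finset.mul_sum, Finset.sum_comm]
    simp only [h1]
    rw [Finset.sum_const, Finset.card_univ, ← Nat.card_eq_fintype_card, ← H.index_mul_card,
      nsmul_eq_mul]
    have := Cfsg.Lib.Induce.natCard_cast_ne_zero H
    push_cast
    field_simp
  rw [h2]
  congr 1
  symm
  refine Finset.sum_of_injOn (fun p : H × H => ((p.1 : G), (p.2 : G))) ?_ (fun _ _ => Finset.mem_univ _) ?_ ?_
  · rintro ⟨a, b⟩ - ⟨c, d⟩ - h
    simp only [Prod.mk.injEq] at h
    exact Prod.ext (Subtype.ext h.1) (Subtype.ext h.2)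
  · rintro ⟨a, b⟩ - hab
    simp only [F]
    by_cases hT' : (a, b) ∈ T
    · rw [Set.indicator_of_mem hT']
      by_cases hm : a * b ∈ H
      · rw [Cfsg.Lib.Induce.extendByZero_of_mem H φ hm]
        refine hφS _ fun hS => hab ?_
        have hord : ∀ w c : G, orderOf w = 2 → IsConj w c → c⁻¹ = c := by
          intro w c hw hc
          obtain ⟨y, rfl⟩ := isConj_iff.1 hc
          have : w⁻¹ = w := by
            rw [inv_eq_iff_mul_eq_one, ← pow_two, ← hw, pow_orderOf_eq_one]
          simp [this, mul_assoc]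
        have ha := hord u a hu hT'.1
        have hb := hord v b hv hT'.2
        have haH : a ∈ H := by
          by_contra haH
          refine hTI a haH _ hS ?_
          have : a * (a * b) * a⁻¹ = (a * b)⁻¹ := by
            rw [mul_inv_rev, hb, ← mul_assoc]
            nth_rewrite 1 [← ha]
            rw [inv_mul_cancel, one_mul]
          exact this ▸ hinv _ hS
        have hbH : b ∈ H := by simpa using H.mul_mem (H.inv_mem haH) hm
        exact ⟨(⟨a, haH⟩, ⟨b, hbH⟩), by simp, rfl⟩
      · exact Cfsg.Lib.Induce.extendByZero_of_not_mem H φ hm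
    · exact Set.indicator_of_notMem hT' _
  · rintro ⟨a, b⟩ -
    simp only [F]
    by_cases hT' : ((a : G), (b : G)) ∈ T
    · rw [Set.indicator_of_mem hT', Set.indicator_of_mem (by exact hT'),
        ← Cfsg.Lib.Induce.extendByZero_coe H φ (a * b)]
      rfl
    · rw [Set.indicator_of_notMem hT', Set.indicator_of_notMem (by exact hT')]

end Cfsg.Agent.S0849
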