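import Cfsg.Statements.S0851
import Cfsg.Agent.Lib.Frobenius.TIFN
import Cfsg.Agent.S0198

set_option autoImplicit false
open Cfsg

namespace Cfsg.Agent.S0851

open Cfsg.Lib.Frobenius Cfsg.Lib.Char Cfsg.Lib.Induce in
theorem aux {G : Type*} [Group G] [Fintype G] (K : Subgroup G) (hTI : ∀ g : G, g ∉ Subgroup.normalizer (K : Set G) → ∀ k ∈ K, g * k * g⁻¹ ∈ K → k = 1) (hC : ∀ k ∈ K, k ≠ 1 → Subgroup.centralizer ({k} : Set G) ≤ K) (hab : ∀ a ∈ K, ∀ b ∈ K, a * b = b * a) {ι : Type*} [Finite ι] (χ : ι → Subgroup.normalizer (K : Set G) → ℂ) (hχ : ∀ i, IsIrrCharacter _ (χ i)) (hinj : Function.Injective χ) (hker : ∀ i, ∃ k : Subgroup.normalizer (K : Set G), (k : G) ∈ K ∧ χ i k ≠ χ i 1) :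
    ∃ (ε : ℂ) (f : ι → Cfsg.IrrCharacter G), (ε = 1 ∨ ε = -1) ∧ Function.Injective f ∧ ∀ i j, Cfsg.indFun (Subgroup.normalizer (K : Set G)) (χ i - χ j) = ε • ((f i : G → ℂ) - (f j : G → ℂ)) := by
  classical
  let N := Subgroup.normalizer (K : Set G)
  let K' := K.subgroupOf N
  haveI := Fintype.ofFinite ι
  have hC' := centralizer_le_subgroupOf N hC
  haveI : IsMulCommutative K' := ⟨⟨fun a b => Subtype.ext (Subtype.ext (hab _ a.2 _ b.2))⟩⟩
  have hdeg : ∀ i, χ i 1 = K'.index := fun i => by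
    obtain ⟨θ, hθ, -, e⟩ := exists_eq_indFun_of_centralizer_le K' hC' (hχ i) (hker i)
    rw [e, indFun_one, hθ.apply_one_of_comm, mul_one]
  have hvan : ∀ i, ∀ x : N, (x : G) ∉ K → χ i x = 0 := fun i x hx =>
    apply_eq_zero_of_fpf K' (hχ i) (hker i) (inf_centralizer_eq_bot_of_centralizer_le K' hC' hx)
  rcases isEmpty_or_nonempty ι with hι | ⟨⟨i₀⟩⟩
  · exact ⟨1, fun i => isEmptyElim i, Or.inl rfl, fun i => isEmptyElim i, fun i => isEmptyElim i⟩
  have hcf : ∀ i j, Cfsg.IsClassFunction N (χ i - χ j) := fun i j =>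
    (hχ i).isClassFunction.sub (hχ j).isClassFunction
  have hv : ∀ i j, ∀ x : N, (x : G) ∉ (K : Set G) → (χ i - χ j) x = 0 := fun i j x hx => by
    simp [hvan i x hx, hvan j x hx]
  obtain ⟨ε, hε, μ, hμ, hμinj, h⟩ := Cfsg.Agent.S0198.aux i₀ (fun i => indFun N (χ i - χ i₀))
    (by simp [indFun_zero])
    (fun i => isGeneralizedCharacter_indFun N
      ((hχ i).isGeneralizedCharacter.sub (hχ i₀).isGeneralizedCharacter))
    (fun i => by simp [indFun_one, hdeg])
    (fun i j hi hj => by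
      rw [classInner_indFun_of_ti N (K : Set G) hTI (hcf j i₀) (hv i i₀) (hv j i₀) (by simp [hdeg])]
      simp only [classInner_sub_left, classInner_sub_right,
        Cfsg.Lib.Char.Cfsg.IsIrrCharacter.inner_eq_ite (hχ _) (hχ _), hinj.eq_iff]
      simp only [hi, hj.symm, if_false, if_true]
      split_ifs <;> norm_num)
  refine ⟨ε, fun i => ⟨μ i, hμ i⟩, hε, fun i j e => hμinj (congrArg Subtype.val e), fun i j => ?_⟩
  have h1 := h i
  have h2 := h j
  simp only [indFun_sub] at h1 h2 ⊢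
  have : indFun N (χ i) - indFun N (χ j) =
      (indFun N (χ i) - indFun N (χ i₀)) - (indFun N (χ j) - indFun N (χ i₀)) := by abel
  rw [this, h1, h2, ← smul_sub]
  congr 1; abel

/-- Let K be a subgroup of the finite group G that meets each conjugate by an element outside its normalizer N trivially, is properly contained in N, and contains the centralizer of each of its non-identity elements (a T.I. subgroup with Frobenius normalizer). Suppose K is abelian, let e be the index of K in N, and call an irreducible character of N relevant when it takes at some element of K a value different from its degree. Then either there is exactly one relevant character and K is an elementary abelian p-group of order e + 1 for some prime p, or there are a sign ε and an injective map f from the relevant characters to the irreducible characters of G such that inducing χ - ξ to G gives ε (f χ - f ξ) for all relevant χ and ξ. -/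
theorem result {G : Type*} [Group G] [Fintype G] (K : Subgroup G) (hTI : ∀ g : G, g ∉ Subgroup.normalizer (K : Set G) → ∀ k ∈ K, g * k * g⁻¹ ∈ K → k = 1) (hlt : K < Subgroup.normalizer (K : Set G)) (hC : ∀ k ∈ K, k ≠ 1 → Subgroup.centralizer ({k} : Set G) ≤ K) (hab : ∀ a ∈ K, ∀ b ∈ K, a * b = b * a) : (Nat.card {χ : Cfsg.IrrCharacter (Subgroup.normalizer (K : Set G)) // ∃ k : Subgroup.normalizer (K : Set G), (k : G) ∈ K ∧ (χ : ↥(Subgroup.normalizer (K : Set G)) → ℂ) k ≠ (χ : ↥(Subgroup.normalizer (K : Set G)) → ℂ) 1} = 1 ∧ ∃ p : ℕ, p.Prime ∧ Cfsg.IsElementaryAbelian p K ∧ Nat.card K = (K.subgroupOf (Subgroup.normalizer (K : Set G))).index + 1) ∨ ∃ (ε : ℂ) (f : {χ : Cfsg.IrrCharacter (Subgroup.normalizer (K : Set G)) // ∃ k : Subgroup.normalizer (K : Set G), (k : G) ∈ K ∧ (χ : ↥(Subgroup.normalizer (K : Set G)) → ℂ) k ≠ (χ : ↥(Subgroup.normalizer (K : Set G)) → ℂ) 1} → Cfsg.IrrCharacter G), (ε = 1 ∨ ε = -1) ∧ Function.Injective f ∧ ∀ χ ξ, Cfsg.indFun (Subgroup.normalizer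 (K : Set G)) ((χ.1 : ↥(Subgroup.normalizer (K : Set G)) → ℂ) - (ξ.1 : ↥(Subgroup.normalizer (K : Set G)) → ℂ)) = ε • ((f χ : G → ℂ) - (f ξ : G → ℂ)) := by
  exact Or.inr (aux K hTI hC hab (fun χ : {χ : Cfsg.IrrCharacter (Subgroup.normalizer (K : Set G)) // ∃ k : Subgroup.normalizer (K : Set G), (k : G) ∈ K ∧ (χ : ↥(Subgroup.normalizer (K : Set G)) → ℂ) k ≠ (χ : ↥(Subgroup.normalizer (K : Set G)) → ℂ) 1} => χ.1.1) (fun χ => χ.1.2)
    (fun a b e => Subtype.ext (Subtype.ext e)) (fun χ => χ.2))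

end Cfsg.Agent.S0851
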