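import Cfsg.Statements.S0855
import Cfsg.Agent.Lib.Clifford.Degree
import Cfsg.Agent.Lib.Char.Elementary
import Cfsg.Agent.Lib.Char.Product

set_option autoImplicit false
open Cfsg

namespace Cfsg.Agent.S0855

open Cfsg.Lib.Char Cfsg.Lib.Induce Cfsg.Lib.Clifford Subgroup

theorem exists_normal_index {G : Type*} [Group G] [Finite G] {p : ℕ} (hp : p.Prime)
    (h : p ∣ (commutator G).index) : ∃ K : Subgroup G, K.Normal ∧ K.index = p := by
  haveI := Fact.mk hp
  haveI : Finite (G →* ℂˣ) := Nat.finite_of_card_ne_zero (by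
    rw [card_hom_units]; exact index_ne_zero_of_finite)
  rw [← card_hom_units] at h
  obtain ⟨lam, hlam⟩ := exists_prime_orderOf_dvd_card' p h
  refine ⟨lam.ker, inferInstance, ?_⟩
  rw [index_ker]
  have h1 : orderOf lam ∣ Nat.card lam.range := by
    rw [← index_ker]; exact orderOf_hom_dvd_index lam _ fun n hn => hn
  have h2 : lam.range ≤ rootsOfUnity p ℂ := by
    rintro _ ⟨g, rfl⟩
    rw [mem_rootsOfUnity, ← hlam, ← MonoidHom.pow_apply, pow_orderOf_eq_one, MonoidHom.one_apply]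
  haveI : NeZero p := ⟨hp.ne_zero⟩
  have h3 := card_dvd_of_le h2
  rw [Complex.card_rootsOfUnity] at h3
  exact Nat.dvd_antisymm h3 (hlam ▸ h1)

universe u

theorem forward {p : ℕ} (hp : p.Prime) (n : ℕ) : ∀ (G : Type u) [Group G] [Finite G] (_ : Nat.card G = n)
    (_ : ∀ χ : G → ℂ, IsIrrCharacter G χ → ∃ k : ℕ, charDegree χ = p ^ k),
    ∃ A : Subgroup G, A.Normal ∧ (∀ a ∈ A, ∀ b ∈ A, a * b = b * a) ∧ Nat.Coprime (Nat.card A) p ∧
      ∃ k : ℕ, A.index = p ^ k := by
  induction n using Nat.strong_induction_on with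
  | _ n ih =>
  intro G _ _ hn h
  classical
  haveI := Fact.mk hp
  by_cases hG : p ∣ Nat.card G
  swap
  · refine ⟨⊤, inferInstance, fun a _ b _ => comm_iff_forall_irr_apply_one.2 (fun χ => ?_) a b,
      by rw [card_top]; exact ((Nat.Prime.coprime_iff_not_dvd hp).2 hG).symm, 0, by simp⟩
    obtain ⟨k, hk⟩ := h χ χ.2
    rcases k with _ | k
    · exact χ.2.isCharacter.charDegree_eq_one_iff.1 (by simpa using hk)
    · exact absurd ((Dvd.intro_left _ (pow_succ p k).symm).trans (hk ▸ χ.2.charDegree_dvd_card)) hG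
  have hc : p ∣ (commutator G).index := by
    have hs := sum_charDegree_sq G
    rw [← Finset.sum_filter_add_sum_filter_not _ (fun χ : IrrCharacter G => (χ : G → ℂ) 1 = 1),
      Finset.sum_congr rfl (fun χ hχ => by
        rw [χ.2.isCharacter.charDegree_eq_one_iff.2 (Finset.mem_filter.1 hχ).2]),
      Finset.sum_const, ← Fintype.card_subtype, ← Nat.card_eq_fintype_card, card_linear_irr] at hs
    simp only [one_pow, smul_eq_mul, mul_one] at hs
    rw [← hs] at hG
    refine (Nat.dvd_add_left (Finset.dvd_sum fun χ hχ => ?_)).1 hG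
    obtain ⟨k, hk⟩ := h χ χ.2
    rcases k with _ | k
    · exact absurd (χ.2.isCharacter.charDegree_eq_one_iff.1 (by simpa using hk)) (Finset.mem_filter.1 hχ).2
    · rw [hk]; exact Dvd.intro_left (p ^ k * p ^ k * p) (by ring)
  obtain ⟨K, hK, hKi⟩ := exists_normal_index hp hc
  haveI := Fintype.ofFinite K
  obtain ⟨A, hA, h1, h2, k, hk⟩ := ih (Nat.card K) (by
    rw [← hn, ← K.index_mul_card, hKi]
    exact lt_mul_left Nat.card_pos hp.one_lt) K rfl (fun θ hθ => by
      obtain ⟨χ, hχ, hne⟩ := exists_irr_above K hθ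
      obtain ⟨k, hk⟩ := h χ hχ
      obtain ⟨j, -, hj⟩ := (Nat.dvd_prime_pow hp).1 (hk ▸ charDegree_dvd_charDegree_of_over K hχ hθ hne)
      exact ⟨j, hj⟩)
  refine ⟨A.map K.subtype, ⟨?_⟩, ?_, by rwa [card_map_of_injective K.subtype_injective], k + 1, ?_⟩
  · rintro _ ⟨a, ha, rfl⟩ g
    refine ⟨⟨g * a * g⁻¹, hK.conj_mem _ a.2 g⟩, mem_of_coprime_orderOf A hk ?_, rfl⟩
    rw [← Subgroup.orderOf_coe]
    show Nat.Coprime (orderOf (MulAut.conj g (a : G))) p
    rw [MulEquiv.orderOf_eq, Subgroup.orderOf_coe]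
    exact Nat.Coprime.coprime_dvd_left (A.orderOf_dvd_natCard ha) h2
  · rintro _ ⟨a, ha, rfl⟩ _ ⟨b, hb, rfl⟩
    exact congrArg Subtype.val (h1 a ha b hb)
  · rw [index_map_subtype, hk, hKi, pow_succ]

/-- For a finite group G and a prime p: every irreducible character of G has degree a power of p if and only if G has an abelian normal subgroup whose order is prime to p and whose index is a power of p. -/
theorem result {G : Type*} [Group G] [Finite G] (p : ℕ) (hp : p.Prime) : (∀ χ : Cfsg.IrrCharacter G, ∃ k : ℕ, (χ : G → ℂ) 1 = (p : ℂ) ^ k) ↔ ∃ A : Subgroup G, A.Normal ∧ (∀ a ∈ A, ∀ b ∈ A, a * b = b * a) ∧ Nat.Coprime (Nat.card A) p ∧ ∃ k : ℕ, A.index = p ^ k := by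
  constructor
  · intro h
    refine forward hp _ G rfl fun χ hχ => ?_
    obtain ⟨k, hk⟩ := h ⟨χ, hχ⟩
    exact ⟨k, charDegree_eq_of_apply_one (by simpa using hk)⟩
  · rintro ⟨A, hA, h1, -, k, hk⟩ χ
    obtain ⟨j, -, hj⟩ := (Nat.dvd_prime_pow hp).1 (hk ▸ charDegree_dvd_index_of_comm A χ.2 h1)
    exact ⟨j, by rw [χ.2.apply_one_eq, hj]; simp⟩

end Cfsg.Agent.S0855
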