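import Cfsg.Statements.S0856
import Cfsg.Agent.Lib.Clifford.Gallagher

set_option autoImplicit false
open Cfsg

namespace Cfsg.Agent.S0856

/-- Let N be a normal subgroup of the finite group G and φ, ϑ irreducible characters of N that are invariant under conjugation by G, such that the pointwise product φ * ϑ is irreducible and ϑ is the restriction of an irreducible character χ of G. Then multiplication by χ is a bijection from the set of irreducible characters of G having nonzero inner product with the function induced from φ onto the set of those having nonzero inner product with the function induced from φ * ϑ. -/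
theorem result {G : Type*} [Group G] [Fintype G] (N : Subgroup G) [hN : N.Normal] (φ ϑ : N → ℂ) (hφ : Cfsg.IsIrrCharacter N φ) (hϑ : Cfsg.IsIrrCharacter N ϑ) (hφinv : ∀ (g : G) (n : N), φ ⟨g * n * g⁻¹, hN.conj_mem (n : G) n.2 g⟩ = φ n) (hϑinv : ∀ (g : G) (n : N), ϑ ⟨g * n * g⁻¹, hN.conj_mem (n : G) n.2 g⟩ = ϑ n) (hprod : Cfsg.IsIrrCharacter N (φ * ϑ)) (χ : G → ℂ) (hχ : Cfsg.IsIrrCharacter G χ) (hext : ∀ n : N, χ n = ϑ n) : Set.BijOn (fun β : G → ℂ => β * χ) {β : G → ℂ | Cfsg.IsIrrCharacter G β ∧ Cfsg.classInner (Cfsg.indFun N φ) β ≠ 0} {ψ : G → ℂ | Cfsg.IsIrrCharacter G ψ ∧ Cfsg.classInner (Cfsg.indFun N (φ * ϑ)) ψ ≠ 0} := by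
  let := Fintype.ofFinite N
  have hres : (fun n : N => φ n * χ n) = φ * ϑ := by
    funext n; simp [hext n]
  have h := Cfsg.Lib.Clifford.bijOn_mul_of_extension N hφ hφinv
    (Cfsg.Lib.Char.Cfsg.IsIrrCharacter.isCharacter hχ) (by rw [hres]; exact hprod)
  rw [hres] at h
  have key : ∀ θ : N → ℂ,
      {β : G → ℂ | Cfsg.IsIrrCharacter G β ∧ Cfsg.classInner (Cfsg.indFun N θ) β ≠ 0} =
      {β : G → ℂ | Cfsg.IsIrrCharacter G β ∧ Cfsg.classInner (fun n : N => β n) θ ≠ 0} := by
    intro θ
    ext β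
    refine and_congr_right fun hβ => ?_
    rw [Cfsg.Lib.Induce.frobenius_reciprocity N θ
      (Cfsg.Lib.Char.Cfsg.IsIrrCharacter.isClassFunction hβ), Ne, Ne,
      Cfsg.Lib.Char.classInner_eq_zero_comm]
  rw [key, key]
  exact h

end Cfsg.Agent.S0856
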