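import Cfsg.Statements.S0857
import Cfsg.Agent.Lib.Clifford.GoingDown
import Cfsg.Agent.Lib.PF.CohBridge

set_option autoImplicit false
open Cfsg

namespace Cfsg.Agent.S0857

open Cfsg.Lib.PF Cfsg.Lib.BG in
theorem aux {G : Type*} [Group G] [Fintype G] (K L : Subgroup G) [hK : K.Normal] [hL : L.Normal] (hLK : L < K) (hchief : ∀ M : Subgroup G, M.Normal → L ≤ M → M ≤ K → M = L ∨ M = K) (hab : ⁅K, K⁆ ≤ L) (ϑ : K → ℂ) (hϑ : Cfsg.IsIrrCharacter K ϑ) (hinv : ∀ (g : G) (n : K), ϑ ⟨g * n * g⁻¹, hK.conj_mem (n : G) n.2 g⟩ = ϑ n) : Cfsg.IsIrrCharacter L (fun x : L => ϑ ⟨(x : G), hLK.le x.2⟩) ∨ (∃ (φ : L → ℂ) (e : ℕ), Cfsg.IsIrrCharacter L φ ∧ (fun x : L => ϑ ⟨(x : G), hLK.le x.2⟩) = (e : ℂ) • φ ∧ e ^ 2 = L.relIndex K) ∨ (∃ F : Finset (L → ℂ), (∀ φ ∈ F, Cfsg.IsIrrCharacter L φ) ∧ F.card = L.relIndex K ∧ (fun x : L => ϑ ⟨(x : G), hLK.le x.2⟩) = ∑ φ ∈ F, φ) := by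
  classical
  have hθ : extendByZero K ϑ ∈ Irr K := extendByZero_mem_Irr.2 hϑ
  have hc : Chief ⊤ L K := ⟨hLK, Nml.top_iff.2 hL, Nml.top_iff.2 hK, fun M hM h1 h2 =>
    hchief M (Nml.top_iff.1 ⟨le_top, hM⟩) h1 h2⟩
  have hI : ⊤ ≤ inertia (extendByZero K ϑ) := fun g _ =>
    mem_inertia_of (Irr.mem_CF hθ) (Subgroup.le_normalizer_of_normal (Subgroup.mem_top g)) fun x hx => by
      rw [Cfsg.Lib.Induce.extendByZero_of_mem K ϑ hx,
        Cfsg.Lib.Induce.extendByZero_of_mem K ϑ (hK.conj_mem x hx g)]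
      exact hinv g ⟨x, hx⟩
  have e0 : (fun x : L => ϑ ⟨(x : G), hLK.le x.2⟩) = fun x : L => res L (extendByZero K ϑ) x := by
    funext x
    rw [res_coe, Cfsg.Lib.Induce.extendByZero_of_mem K ϑ (hLK.le x.2)]
  rw [e0]
  rcases Irr.going_down hc hab hθ hI with h | ⟨φ, hφ, e, h1, h2⟩ | ⟨φ, hφ, h1, h2⟩
  · exact Or.inl (mem_Irr.1 h).2
  · exact Or.inr (Or.inl ⟨fun x => φ x, e, (mem_Irr.1 hφ).2, by rw [h1]; rfl, h2⟩)
  · have hn : K ≤ Subgroup.normalizer (L : Set G) := Subgroup.le_normalizer_of_normal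
    have hT : K ⊓ inertia φ = L := le_antisymm h1 (le_inf hLK.le (CF.le_inertia (Irr.mem_CF hφ)))
    have hinj : Set.InjOn (fun ψ : G → ℂ => fun x : L => ψ x) (cfclass K φ) := fun a ha b hb e =>
      eq_of_coe_eq (mem_Irr.1 (cfclass_subset_Irr hn hφ ha)).1
        (mem_Irr.1 (cfclass_subset_Irr hn hφ hb)).1 e
    refine Or.inr (Or.inr ⟨(cfclass K φ).image (fun ψ : G → ℂ => fun x : L => ψ x), fun ψ hψ => ?_, ?_, ?_⟩)
    · obtain ⟨a, ha, rfl⟩ := Finset.mem_image.1 hψ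
      exact (mem_Irr.1 (cfclass_subset_Irr hn hφ ha)).2
    · rw [Finset.card_image_of_injOn hinj, card_cfclass, ← Subgroup.inf_relIndex_left, hT]
    · rw [Finset.sum_image hinj, ← h2, res_ind_normal hn, ind_eq_smul_sum_cfclass hLK.le hn (Irr.mem_CF hφ),
        hT, Subgroup.relIndex_self, Nat.cast_one, one_smul]
      funext x
      simp only [Finset.sum_apply]

/-- Let L < K be normal subgroups of the finite group G with no normal subgroup of G strictly between them and with K / L abelian (the commutator subgroup of K lies in L). Let ϑ be an irreducible character of K invariant under conjugation by G. Then the restriction of ϑ to L is irreducible; or it equals e times an irreducible character of L with e ^ 2 equal to the index of L in K; or it is the sum of a family of pairwise distinct irreducible characters of L indexed by a set whose size is the index of L in K. -/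
theorem result {G : Type*} [Group G] [Fintype G] (K L : Subgroup G) [hK : K.Normal] [L.Normal] (hLK : L < K) (hchief : ∀ M : Subgroup G, M.Normal → L ≤ M → M ≤ K → M = L ∨ M = K) (hab : ⁅K, K⁆ ≤ L) (ϑ : K → ℂ) (hϑ : Cfsg.IsIrrCharacter K ϑ) (hinv : ∀ (g : G) (n : K), ϑ ⟨g * n * g⁻¹, hK.conj_mem (n : G) n.2 g⟩ = ϑ n) : Cfsg.IsIrrCharacter L (fun x : L => ϑ ⟨(x : G), hLK.le x.2⟩) ∨ (∃ (φ : L → ℂ) (e : ℕ), Cfsg.IsIrrCharacter L φ ∧ (fun x : L => ϑ ⟨(x : G), hLK.le x.2⟩) = (e : ℂ) • φ ∧ e ^ 2 = L.relIndex K) ∨ (∃ F : Finset (L → ℂ), (∀ φ ∈ F, Cfsg.IsIrrCharacter L φ) ∧ F.card = L.relIndex K ∧ (fun x : L => ϑ ⟨(x : G), hLK.le x.2⟩) = ∑ φ ∈ F, φ) := by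
  exact aux K L hLK hchief hab ϑ hϑ hinv

end Cfsg.Agent.S0857
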