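import Cfsg.Statements.S0858
import Cfsg.Agent.Lib.Clifford.GoingDown

set_option autoImplicit false
open Cfsg

namespace Cfsg.Agent.S0858

/-- Let N be a normal subgroup of the finite group G with G / N solvable, and suppose that for every subgroup H containing N and all subgroups L < K between N and H that are normal in H with no subgroup normal in H strictly between them, the index of L in K is not a perfect square. Then every irreducible character χ of G is induced from an irreducible character ψ of some subgroup H containing N such that the restriction of ψ to N is irreducible. -/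
theorem result {G : Type*} [Group G] [Fintype G] (N : Subgroup G) [N.Normal] (hsolv : Group.IsSolvable (G ⧸ N)) (hchief : ∀ (H K L : Subgroup G), N ≤ L → L < K → K ≤ H → (∀ h ∈ H, ∀ k ∈ K, h * k * h⁻¹ ∈ K) → (∀ h ∈ H, ∀ l ∈ L, h * l * h⁻¹ ∈ L) → (∀ M : Subgroup G, L ≤ M → M ≤ K → (∀ h ∈ H, ∀ m ∈ M, h * m * h⁻¹ ∈ M) → M = L ∨ M = K) → ¬ IsSquare (L.relIndex K)) (χ : G → ℂ) (hχ : Cfsg.IsIrrCharacter G χ) : ∃ (H : Subgroup G) (hNH : N ≤ H) (ψ : H → ℂ), Cfsg.IsIrrCharacter H ψ ∧ Cfsg.indFun H ψ = χ ∧ Cfsg.IsIrrCharacter N (fun n : N => ψ ⟨(n : G), hNH n.2⟩) := by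
  open Cfsg.Lib.PF Cfsg.Lib.BG in
  obtain ⟨U, h1, -, ψ, hψ, h2, h3⟩ := Irr.exists_ind_eq_res_mem (N := N) (H := ⊤) hsolv
    (fun H L K hNL hc => hchief H K L hNL hc.lt hc.nmlU.le (le_norm_iff.1 hc.nmlU.norm)
      (le_norm_iff.1 hc.nmlV.norm) fun M h1 h2 h3 => hc.min M (le_norm_iff.2 h3) h1 h2)
    le_top (mem_Irr_top.2 hχ)
  refine ⟨U, h1, fun x => ψ x, (Cfsg.Lib.PF.mem_Irr.1 hψ).2, by rw [← h2, Cfsg.Lib.PF.ind_top], ?_⟩
  simpa using (Cfsg.Lib.PF.mem_Irr.1 h3).2

end Cfsg.Agent.S0858
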