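import Cfsg.Statements.S0859
import Cfsg.Agent.Lib.Clifford.Monomial
import Cfsg.Agent.Lib.Char.Elementary
import Cfsg.Agent.Lib.Core.MinNormal
import Cfsg.Agent.Lib.Induce.TI

set_option autoImplicit false
open Cfsg

namespace Cfsg.Agent.S0859

open Cfsg.Lib.Char Cfsg.Lib.Induce Cfsg.Lib.Clifford Subgroup

theorem exists_induced {G : Type*} [Group G] [Fintype G] [Group.IsSolvable G] (N : Subgroup G) [N.Normal]
    (hab : ∀ p : ℕ, p.Prime → ∀ Q : Subgroup G, Q ≤ N → IsPGroup p Q → ∀ a ∈ Q, ∀ b ∈ Q, a * b = b * a)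
    {ψ : G → ℂ} (hψ : IsIrrCharacter G ψ) (hN : IsIrrCharacter N fun n => ψ n) (h1 : ψ 1 ≠ 1) :
    ∃ (T : Subgroup G) (η : T → ℂ), T ≠ ⊤ ∧ IsIrrCharacter T η ∧ indFun T η = ψ := by
  haveI := hψ.isClassFunction.charCenter_normal
  haveI := hψ.isClassFunction.charKer_normal
  have hlt : N ⊓ charCenter ψ < N := lt_of_le_of_ne inf_le_left fun e => h1
    (apply_one_eq_one_of_commutator (G := N) hN fun a b => hψ.isCharacter.mem_charKer_iff.1
      (hψ.isCharacter.commutator_mem_charKer (inf_eq_left.1 e a.2) b))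
  obtain ⟨B, hB, hBN⟩ := Cfsg.Lib.Core.exists_isChiefFactor_le inferInstance inferInstance hlt
  obtain ⟨q, hq, -, -, k, -, hk⟩ := Cfsg.Lib.Core.exists_prime_of_isChiefFactor hB inferInstance
  haveI := hB.2.1
  haveI := Fact.mk hq
  obtain ⟨S⟩ : Nonempty (Sylow q B) := inferInstance
  have hsup := sup_sylow_eq_top_of_index ((N ⊓ charCenter ψ).subgroupOf B) hk S
  have hS := hab q hq ((S : Subgroup B).map B.subtype) ((map_subtype_le _).trans hBN)
    (S.isPGroup'.map _)
  have hz : ∀ z ∈ charCenter ψ, ∀ g : G, Commute (z : G ⧸ charKer ψ) g := fun z hz g => by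
    have := (QuotientGroup.eq_one_iff _).2 (hψ.isCharacter.commutator_mem_charKer hz g)
    simp only [QuotientGroup.mk_mul, QuotientGroup.mk_inv] at this
    exact commutatorElement_eq_one_iff_commute.1 this
  rcases le_charCenter_or_induced hψ B (fun a ha b hb => by
    obtain ⟨z, hz1, x, hx, e1⟩ := (mem_sup_of_normal_left (x := (⟨a, ha⟩ : B))).1 (hsup ▸ mem_top _)
    obtain ⟨w, hw1, y, hy, e2⟩ := (mem_sup_of_normal_left (x := (⟨b, hb⟩ : B))).1 (hsup ▸ mem_top _)
    obtain rfl : (z : G) * x = a := congrArg Subtype.val e1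
    obtain rfl : (w : G) * y = b := congrArg Subtype.val e2
    have hxy : Commute ((x : G) : G ⧸ charKer ψ) (y : G) :=
      congrArg (QuotientGroup.mk (s := charKer ψ)) (hS x ⟨x, hx, rfl⟩ y ⟨y, hy, rfl⟩)
    rw [← hψ.isCharacter.mem_charKer_iff, ← QuotientGroup.eq_one_iff]
    simp only [QuotientGroup.mk_mul, QuotientGroup.mk_inv]
    exact commutatorElement_eq_one_iff_commute.2
      (((hz _ hz1.2 _).mul_right (hz _ hz1.2 _)).mul_left ((hz _ hw1.2 _).symm.mul_right hxy)))
    with h | ⟨T, η, -, h⟩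
  · exact absurd (le_inf hBN h) hB.1.not_ge
  · exact ⟨T, η, h⟩

theorem sup_eq_top {G : Type*} [Group G] [Fintype G] (N T : Subgroup G) {η : T → ℂ}
    (hη : IsCharacter T η) (hψ : IsIrrCharacter G (indFun T η))
    (hN : IsIrrCharacter N fun n => indFun T η n) : T ⊔ N = ⊤ := by
  classical
  have e := indFun_indFun T (T ⊔ N) le_sup_left η
  have h1 := isIrrCharacter_of_indFun _ (isCharacter_indFun _ (isCharacter_subgroupOf hη)) (e ▸ hψ)
  have h2 : IsIrrCharacter ↥(T ⊔ N) fun x => indFun T η x :=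
    isIrrCharacter_of_comp (inclusion le_sup_right) (hψ.isCharacter.restrict _) hN
  have h3 := h2.eq_of_inner_ne_zero h1 (by
    rw [← frobenius_reciprocity' _ _ hψ.isClassFunction, e, hψ.inner_self]; exact one_ne_zero)
  have h4 := congrFun e 1
  rw [indFun_one, ← h3] at h4
  have h5 : ((T ⊔ N).index : ℂ) = 1 := mul_right_cancel₀ hψ.apply_one_ne_zero (by simpa using h4)
  exact index_eq_one.1 (by exact_mod_cast h5)

universe u

theorem isMonomial (n : ℕ) : ∀ {G : Type u} [Group G] [Fintype G] [Group.IsSolvable G] (N : Subgroup G)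
    [N.Normal] (_ : Nat.card G = n)
    (_ : ∀ p : ℕ, p.Prime → ∀ Q : Subgroup G, Q ≤ N → IsPGroup p Q → ∀ a ∈ Q, ∀ b ∈ Q, a * b = b * a)
    {ψ : G → ℂ} (_ : IsIrrCharacter G ψ) (_ : IsIrrCharacter N fun n => ψ n), IsMonomial ψ := by
  induction n using Nat.strong_induction_on with
  | _ n ih =>
  intro G _ _ _ N _ hn hab ψ hψ hN
  classical
  by_cases h1 : ψ 1 = 1
  · exact isMonomial_of_apply_one hψ.isCharacter h1
  obtain ⟨T, η, hT, hη, rfl⟩ := exists_induced N hab hψ hN h1
  have hs := sup_eq_top N T hη.isCharacter hψ hN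
  rw [indFun_res_normal_of_sup_eq_top T N hη.isClassFunction hs] at hN
  have h2 := isIrrCharacter_of_indFun _ (isCharacter_subgroupOf hη.isCharacter) hN
  refine (ih (Nat.card T) ?_ (N.subgroupOf T) rfl (fun p hp Q hQ hQp a ha b hb => Subtype.ext
    (hab p hp (Q.map T.subtype) (map_le_iff_le_comap.2 hQ) (hQp.map _) a ⟨a, ha, rfl⟩ b ⟨b, hb, rfl⟩))
    hη ?_).indFun
  · rw [← hn]
    exact lt_of_le_of_ne (card_le_card_group T) fun e => hT (card_eq_iff_eq_top T |>.1 e)
  · exact isIrrCharacter_of_comp (((N.subtype.comp (T.subgroupOf N).subtype).codRestrict T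
      (fun x => x.2)).codRestrict (N.subgroupOf T) (fun x => x.1.2)) (hη.isCharacter.restrict _) h2

/-- Let G be a finite solvable group and N a normal subgroup such that for every prime p every Sylow p-subgroup of N is abelian. Suppose every irreducible character of G is induced from an irreducible character of some subgroup containing N whose restriction to N is irreducible. Then every irreducible character of G is induced from a character of degree 1 of some subgroup. -/
theorem result {G : Type*} [Group G] [Fintype G] [Group.IsSolvable G] (N : Subgroup G) [N.Normal] (hab : ∀ (p : ℕ) [Fact p.Prime] (P : Sylow p N), ∀ a ∈ P, ∀ b ∈ P, a * b = b * a) (hrel : ∀ χ : G → ℂ, Cfsg.IsIrrCharacter G χ → ∃ (H : Subgroup G) (hNH : N ≤ H) (ψ : H → ℂ), Cfsg.IsIrrCharacter H ψ ∧ Cfsg.indFun H ψ = χ ∧ Cfsg.IsIrrCharacter N (fun n : N => ψ ⟨(n : G), hNH n.2⟩)) (χ : G → ℂ) (hχ : Cfsg.IsIrrCharacter G χ) : ∃ (U : Subgroup G) (lam : U → ℂ), Cfsg.IsCharacter U lam ∧ lam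 1 = 1 ∧ Cfsg.indFun U lam = χ := by
  classical
  obtain ⟨H, hNH, ψ, hψ, rfl, hN⟩ := hrel χ hχ
  have h := (isMonomial _ (N.subgroupOf H) rfl (fun p hp Q hQ hQp a ha b hb => by
    haveI := Fact.mk hp
    obtain ⟨S, hS⟩ := ((hQp.map H.subtype).comap_subtype (K := N)).exists_le_sylow
    have := hab p S ⟨a, hQ ha⟩ (hS ⟨a, ha, rfl⟩) ⟨b, hQ hb⟩ (hS ⟨b, hb, rfl⟩)
    exact Subtype.ext (congrArg (fun x : N => (x : G)) this)) hψ
    ((isIrrCharacter_res_subgroupOf_iff hNH).2 hN)).indFun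
  obtain ⟨U, lam, e⟩ := h
  exact ⟨U, fun u => lam u, isCharacter_hom lam, by simp, e.symm⟩

end Cfsg.Agent.S0859
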