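import Cfsg.Statements.S0861
import Cfsg.Agent.Lib.Clifford.PElt
import Cfsg.Agent.Lib.Clifford.Degree
import Cfsg.Agent.Lib.Char.Product

set_option autoImplicit false
open Cfsg

namespace Cfsg.Agent.S0861

open Cfsg.Lib.Char Cfsg.Lib.Clifford Subgroup

/-- Let P be a normal abelian Sylow p-subgroup of the finite group G and suppose some element g of P has centralizer exactly P. Then the number of irreducible characters of G is at most the order of P, and if equality holds then G / P is abelian (the commutator subgroup lies in P). -/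
theorem result {G : Type*} [Group G] [Finite G] (p : ℕ) [Fact p.Prime] (P : Sylow p G) [(P : Subgroup G).Normal] (hab : ∀ a ∈ P, ∀ b ∈ P, a * b = b * a) (g : G) (hg : g ∈ P) (hC : Subgroup.centralizer ({g} : Set G) = P) : Nat.card (Cfsg.IrrCharacter G) ≤ Nat.card P ∧ (Nat.card (Cfsg.IrrCharacter G) = Nat.card P → commutator G ≤ P) := by
  classical
  haveI := Fintype.ofFinite G
  let S : Finset G := Finset.univ.filter fun s => s ∈ P ∧ centralizer ({s} : Set G) = P
  have hS : ∀ k : ℕ, k.Coprime (Nat.card G) → ∀ s ∈ S, s ^ k ∈ S := fun k hk s hs => by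
    simp only [S, Finset.mem_filter, Finset.mem_univ, true_and] at hs ⊢
    refine ⟨(P : Subgroup G).pow_mem hs.1 k, ?_⟩
    rw [← hs.2, ← centralizer_closure {s ^ k}, ← zpowers_eq_closure, ← centralizer_closure {s},
      ← zpowers_eq_closure]
    congr 2
    exact le_antisymm (zpowers_le_of_mem (npow_mem_zpowers s k)) (zpowers_le_of_mem
      (mem_zpowers_pow_iff.2 (Nat.Coprime.coprime_dvd_right (orderOf_dvd_natCard s) hk)))
  have hpos : (0 : ℝ) < S.card := by
    exact_mod_cast Finset.card_pos.2 ⟨g, by simp only [S, Finset.mem_filter]; exact ⟨Finset.mem_univ _, hg, hC⟩⟩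
  have h1 : ∀ χ : IrrCharacter G, (S.card : ℝ) ≤ ∑ s ∈ S, ‖(χ : G → ℂ) s‖ ^ 2 := fun χ =>
    χ.2.isGeneralizedCharacter.card_le_sum_norm_sq S hS fun s hs h0 => by
      obtain ⟨k, hk⟩ := P.isPGroup' ⟨s, (Finset.mem_filter.1 hs).2.1⟩
      exact P.not_dvd_index ((dvd_charDegree_of_apply_eq_zero χ.2.isCharacter
        (congrArg Subtype.val hk) h0).trans (charDegree_dvd_index_of_comm _ χ.2 hab))
  have h2 : ∑ χ : IrrCharacter G, ∑ s ∈ S, ‖(χ : G → ℂ) s‖ ^ 2 = S.card * Nat.card P := by
    rw [Finset.sum_comm, Finset.sum_congr rfl fun s hs => by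
      rw [sum_irr_norm_sq, (Finset.mem_filter.1 hs).2.2]]
    simp
  have h3 : ∑ _χ : IrrCharacter G, (S.card : ℝ) = S.card * Nat.card (IrrCharacter G) := by
    simp [mul_comm]
  constructor
  · have := Finset.sum_le_sum fun χ (_ : χ ∈ Finset.univ) => h1 χ
    rw [h2, h3] at this
    exact_mod_cast le_of_mul_le_mul_left this hpos
  · intro e
    have h4 := (Finset.sum_eq_sum_iff_of_le fun χ (_ : χ ∈ Finset.univ) => h1 χ).1 (by rw [h2, h3, e])
    have h5 : ∀ a b : G ⧸ (P : Subgroup G), a * b = b * a := comm_iff_forall_irr_apply_one.2 fun β => by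
      have h6 := h4 ⟨_, β.2.inflate⟩ (Finset.mem_univ _)
      rw [Finset.sum_congr rfl fun s hs => by
        show ‖(β : G ⧸ (P : Subgroup G) → ℂ) s‖ ^ 2 = (charDegree (β : G ⧸ (P : Subgroup G) → ℂ) : ℝ) ^ 2
        rw [(QuotientGroup.eq_one_iff s).2 (Finset.mem_filter.1 hs).2.1, β.2.isCharacter.norm_apply_one],
        Finset.sum_const, nsmul_eq_mul] at h6
      have h7 : (charDegree (β : G ⧸ (P : Subgroup G) → ℂ) : ℝ) ^ 2 = 1 :=
        mul_left_cancel₀ hpos.ne' (by rw [← h6, mul_one])
      rw [← β.2.isCharacter.charDegree_eq_one_iff]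
      exact_mod_cast (pow_eq_one_iff_of_nonneg (Nat.cast_nonneg _) two_ne_zero).1 h7
    rw [_root_.commutator, commutator_le]
    intro a _ b _
    rw [← QuotientGroup.eq_one_iff, ← QuotientGroup.mk'_apply, map_commutatorElement,
      commutatorElement_eq_one_iff_mul_comm]
    exact h5 _ _

end Cfsg.Agent.S0861
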