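import Cfsg.Statements.S0862
import Cfsg.Agent.Lib.Clifford.Extension

set_option autoImplicit false
open Cfsg

namespace Cfsg.Agent.S0862

/-- Let N be a normal subgroup of the finite group G and ϑ an irreducible character of N of degree d coprime to the index of N, which is the restriction of some irreducible character of G. Let μ be a character of G of degree 1 whose restriction to N is the determinantal character of ϑ. Then there is exactly one irreducible character χ of G restricting to ϑ whose determinantal character is μ. -/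
theorem result {G : Type*} [Group G] [Finite G] (N : Subgroup G) [N.Normal] (ϑ : N → ℂ) (hϑ : Cfsg.IsIrrCharacter N ϑ) (d : ℕ) (hd : ϑ 1 = d) (hcop : Nat.Coprime N.index d) (hext : ∃ η : G → ℂ, Cfsg.IsIrrCharacter G η ∧ (∀ n : N, η n = ϑ n)) (μ : G → ℂ) (hμ : Cfsg.IsCharacter G μ ∧ μ 1 = 1) (hμN : ∀ n : N, μ n = Cfsg.detChar ϑ n) : ∃! χ : G → ℂ, Cfsg.IsIrrCharacter G χ ∧ (∀ n : N, χ n = ϑ n) ∧ Cfsg.detChar χ = μ := by
  obtain ⟨η, hη, he⟩ := hext
  obtain ⟨μ, rfl⟩ := Cfsg.Lib.Char.Cfsg.IsCharacter.exists_hom_of_apply_one hμ.1 hμ.2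
  have hηc := Cfsg.Lib.Char.Cfsg.IsIrrCharacter.isCharacter hη
  have hdeg : ∀ χ : G → ℂ, (∀ n : N, χ n = ϑ n) → N.index.Coprime (Cfsg.charDegree χ) :=
    fun χ h => by rwa [Cfsg.Lib.Char.charDegree_eq_of_apply_one ((h 1).trans hd)]
  obtain ⟨χ, h1, h2, h3⟩ := Cfsg.Lib.Clifford.exists_extension_detHom_eq N hη (hdeg η he) μ
    (fun n => by rw [Cfsg.Lib.Clifford.detChar_res_of_extension N hηc he]; exact hμN n)
  have h4 : ∀ n : N, χ n = ϑ n := fun n => (h2 n).trans (he n)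
  refine ⟨χ, ⟨h1, h4, by rw [Cfsg.Lib.Clifford.detChar_eq_detHom, h3]⟩, ?_⟩
  rintro ψ ⟨h5, h6, h7⟩
  refine Cfsg.Lib.Clifford.eq_of_res_eq_of_detHom_eq N
    (Cfsg.Lib.Char.Cfsg.IsIrrCharacter.isCharacter h1) (by rw [funext h4]; exact hϑ)
    (Cfsg.Lib.Char.Cfsg.IsIrrCharacter.isCharacter h5) (fun n => (h6 n).trans (h4 n).symm)
    (hdeg χ h4) ?_
  rw [h3]
  ext g
  rw [Cfsg.Lib.Clifford.detHom_apply, h7]

end Cfsg.Agent.S0862
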