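import Cfsg.Statements.S0868
import Cfsg.Agent.Lib.Clifford.Gallagher
import Cfsg.Agent.Lib.Char.DefectZero

set_option autoImplicit false
open scoped ComplexConjugate
open Cfsg

namespace Cfsg.Agent.S0868

open Cfsg.Lib.Char Cfsg.Lib.Clifford in
theorem sum_mul_eq {G : Type*} [Group G] [Fintype G] (N : Subgroup G) [hN : N.Normal] [Fintype N]
    {ξ : G → ℂ} (hξ : IsIrrCharacter G ξ) (g : G) :
    ∑ n : N, ξ (n * g) = (∑ n : N, ξ n) / ξ 1 * ξ g := by
  classical
  have := hξ.sum_classFun_mul (f := fun x => if x ∈ N then 1 else 0) (fun x y => by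
    have : y * x * y⁻¹ ∈ N ↔ x ∈ N :=
      ⟨fun h => by simpa [mul_assoc] using hN.conj_mem _ h y⁻¹, fun h => hN.conj_mem _ h y⟩
    simp only [this]) g
  simp only [ite_mul, one_mul, zero_mul] at this
  rwa [sum_ite_mem_eq_sum_subgroup N (fun x => ξ (x * g)), sum_ite_mem_eq_sum_subgroup N ξ] at this

open Cfsg.Lib.Char Cfsg.Lib.Clifford in
theorem inner_eta {G : Type*} [Group G] [Fintype G] (N : Subgroup G) [hN : N.Normal] [Fintype N]
    (f : G → ℂ) {ξ : G → ℂ} (hξ : IsIrrCharacter G ξ) :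
    classInner (fun g => (Nat.card N : ℂ)⁻¹ * ∑ n : N, f (n * g)) ξ =
      conj ((Nat.card N : ℂ)⁻¹ * (∑ n : N, ξ n) / ξ 1) * classInner f ξ := by
  have h1 : ∑ g : G, (∑ n : N, f (n * g)) * conj (ξ g) =
      conj ((∑ n : N, ξ n) / ξ 1) * ∑ g : G, f g * conj (ξ g) := by
    simp only [Finset.sum_mul]
    rw [Finset.sum_comm]
    have : ∀ n : N, ∑ g : G, f (n * g) * conj (ξ g) = ∑ g : G, f g * conj (ξ ((n⁻¹ : N) * g)) :=
      fun n => Fintype.sum_equiv (Equiv.mulLeft (n : G)) _ _ (fun g => by simp)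
    simp only [this]
    rw [Finset.sum_comm, Finset.mul_sum]
    refine Finset.sum_congr rfl fun g _ => ?_
    have e : ∑ n : N, ξ ((n⁻¹ : N) * g) = ∑ n : N, ξ (n * g) :=
      Equiv.sum_comp (Equiv.inv N) (fun n : N => ξ (n * g))
    rw [← Finset.mul_sum, ← map_sum, e, sum_mul_eq N hξ, map_mul]
    ring
  simp only [classInner_def, mul_assoc]
  rw [← Finset.mul_sum, h1]
  simp only [map_mul, map_div₀, map_inv₀, map_natCast]
  ring

open Cfsg.Lib.Char Cfsg.Lib.Clifford in
theorem inner_eta' {G : Type*} [Group G] [Fintype G] (N : Subgroup G) [hN : N.Normal] [Fintype N]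
    (f : G → ℂ) {ξ : G → ℂ} (hξ : IsIrrCharacter G ξ) :
    ((∀ n ∈ N, ξ n = ξ 1) →
      classInner (fun g => (Nat.card N : ℂ)⁻¹ * ∑ n : N, f (n * g)) ξ = classInner f ξ) ∧
    (¬ (∀ n ∈ N, ξ n = ξ 1) → classInner (fun g => (Nat.card N : ℂ)⁻¹ * ∑ n : N, f (n * g)) ξ = 0) := by
  rw [inner_eta N f hξ]
  refine ⟨fun h => ?_, fun h => ?_⟩
  · have : ∑ n : N, ξ n = Nat.card N * ξ 1 := by
      rw [Finset.sum_congr rfl fun (n : N) _ => h n n.2]
      simp
    rw [this, ← mul_assoc, inv_mul_cancel₀ (card_ne_zero_complex N), one_mul,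
      div_self hξ.apply_one_ne_zero, map_one, one_mul]
  · rw [← classInner_res_one_ne_zero_iff N hξ, not_not, classInner_one_right] at h
    rw [h]; simp

open Cfsg.Lib.Char Cfsg.Lib.Clifford in
theorem isClassFunction_eta {G : Type*} [Group G] (N : Subgroup G) [hN : N.Normal] [Fintype N]
    {f : G → ℂ} (hf : IsClassFunction G f) :
    IsClassFunction G (fun g => (Nat.card N : ℂ)⁻¹ * ∑ n : N, f (n * g)) := by
  intro g x
  beta_reduce
  congr 1
  symm
  refine Fintype.sum_equiv (MulAut.conjNormal x : MulAut N).toEquiv _ _ fun n => ?_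
  rw [← hf _ x]
  congr 1
  simp [mul_assoc]

open Cfsg.Lib.Char Cfsg.Lib.Clifford in
theorem eta_eq {G : Type*} [Group G] [Fintype G] (N : Subgroup G) [N.Normal] [Fintype N] (χ : G → ℂ)
    (hχ : Cfsg.IsIrrCharacter G χ) (hχN : Cfsg.IsIrrCharacter N (fun n : N => χ n)) {β : G → ℂ}
    (hβ : IsIrrCharacter G β) (hker : ∀ n ∈ N, β n = β 1) :
    (fun g => (Nat.card N : ℂ)⁻¹ * ∑ n : N, (β * χ) ((n : G) * g) * conj (χ ((n : G) * g))) = β := by
  refine (isClassFunction_eta N (f := fun g => (β * χ) g * conj (χ g))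
    ((hβ.isClassFunction.mul hχ.isClassFunction).mul hχ.isClassFunction.conj)).ext_inner_irr
    hβ.isClassFunction fun ξ hξ => ?_
  by_cases h : ∀ n ∈ N, ξ n = ξ 1
  · rw [(inner_eta' N (fun g => (β * χ) g * conj (χ g)) hξ).1 h, ← classInner_mul_right, mul_comm χ ξ]
    by_cases e : β = ξ
    · subst e
      rw [hβ.inner_self, (isIrrCharacter_mul_of_ker N hχ.isCharacter hχN hβ hker).inner_self]
    · rw [hβ.inner_eq_zero_of_ne hξ e,
        (isIrrCharacter_mul_of_ker N hχ.isCharacter hχN hβ hker).inner_eq_zero_of_ne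
          (isIrrCharacter_mul_of_ker N hχ.isCharacter hχN hξ h)
          fun e' => e (eq_of_mul_eq_of_ker N hχ.isCharacter hχN hβ hξ hker h e')]
  · rw [(inner_eta' N (fun g => (β * χ) g * conj (χ g)) hξ).2 h,
      hβ.inner_eq_zero_of_ne hξ fun e => h (e ▸ hker)]

open Cfsg.Lib.Char Cfsg.Lib.Clifford in
theorem eta_eq_zero {G : Type*} [Group G] [Fintype G] (N : Subgroup G) [N.Normal] [Fintype N]
    (χ : G → ℂ) (hχ : Cfsg.IsIrrCharacter G χ) (hχN : Cfsg.IsIrrCharacter N (fun n : N => χ n))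
    {ψ : G → ℂ} (hψ : IsIrrCharacter G ψ)
    (h0 : Cfsg.classInner (fun n : N => ψ n) (fun n : N => χ n) = 0) :
    (fun g => (Nat.card N : ℂ)⁻¹ * ∑ n : N, ψ ((n : G) * g) * conj (χ ((n : G) * g))) = 0 := by
  refine (isClassFunction_eta N (f := fun g => ψ g * conj (χ g))
    (hψ.isClassFunction.mul hχ.isClassFunction.conj)).eq_zero_of_inner_irr fun ξ hξ => ?_
  by_cases h : ∀ n ∈ N, ξ n = ξ 1
  · rw [(inner_eta' N (fun g => ψ g * conj (χ g)) hξ).1 h, ← classInner_mul_right, mul_comm χ ξ]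
    refine hψ.inner_eq_zero_of_ne (isIrrCharacter_mul_of_ker N hχ.isCharacter hχN hξ h) ?_
    rintro rfl
    rw [classInner_res_mul_of_ker N hχN h] at h0
    exact hξ.apply_one_ne_zero h0
  · exact (inner_eta' N (fun g => ψ g * conj (χ g)) hξ).2 h

/-- Let N be a normal subgroup of the finite group G, χ an irreducible character of G whose restriction ϑ to N is irreducible, and ψ an irreducible character of G. Define η on G by η g = (1 / order of N) * Σ over n in N of ψ (n * g) * conj (χ (n * g)). Then: if the restriction of ψ to N has nonzero inner product with ϑ, η is an irreducible character of G; if that inner product is zero, η vanishes identically; and if ψ = χ then η is identically 1. -/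
theorem result {G : Type*} [Group G] [Fintype G] (N : Subgroup G) [N.Normal] [Fintype N] (χ : G → ℂ) (hχ : Cfsg.IsIrrCharacter G χ) (hχN : Cfsg.IsIrrCharacter N (fun n : N => χ n)) (ψ : G → ℂ) (hψ : Cfsg.IsIrrCharacter G ψ) (η : G → ℂ) (hη : η = fun g => (Nat.card N : ℂ)⁻¹ * ∑ n : N, ψ ((n : G) * g) * conj (χ ((n : G) * g))) : (Cfsg.classInner (fun n : N => ψ n) (fun n : N => χ n) ≠ 0 → Cfsg.IsIrrCharacter G η) ∧ (Cfsg.classInner (fun n : N => ψ n) (fun n : N => χ n) = 0 → η = 0) ∧ (ψ = χ → η = fun _ => 1) := by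
  subst hη
  refine ⟨fun h => ?_, fun h => eta_eq_zero N χ hχ hχN hψ h, fun h => ?_⟩
  · obtain ⟨β, hβ, hker, rfl⟩ := Cfsg.Lib.Clifford.exists_mul_eq_of_over N
      (Cfsg.Lib.Char.Cfsg.IsIrrCharacter.isCharacter hχ) hχN hψ h
    rwa [eta_eq N χ hχ hχN hβ hker]
  · subst h
    have := eta_eq N ψ hχ hχN Cfsg.Lib.Char.isIrrCharacter_one (fun _ _ => rfl)
    simpa using this

end Cfsg.Agent.S0868
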