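import Cfsg.Statements.S0875
import Cfsg.Agent.Lib.Char.DefectZero
import Cfsg.Agent.Lib.Char.Column

set_option autoImplicit false
open Cfsg

namespace Cfsg.Agent.S0875

open Cfsg.Lib.Char

/-- Let G be a finite group of order m * n with m and n coprime, and g an element whose order is coprime to m. Every x in G factors uniquely as x = u * v with u, v commuting, the order of u coprime to n and the order of v coprime to m; let ϑ be the function on G equal to n at those x whose factor v is conjugate to g and equal to 0 elsewhere. Then ϑ is a linear combination of the irreducible characters of G with algebraic-integer coefficients. -/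
theorem result {G : Type*} [Group G] [Fintype G] (m n : ℕ) (hmn : Nat.card G = m * n) (hcop : Nat.Coprime m n) (g : G) (hg : Nat.Coprime (orderOf g) m) (ϑ : G → ℂ) (hϑ1 : ∀ x : G, (∃ v : G, IsConj v g ∧ (∃ u : G, x = u * v ∧ Commute u v ∧ Nat.Coprime (orderOf u) n ∧ Nat.Coprime (orderOf v) m)) → ϑ x = n) (hϑ0 : ∀ x : G, (¬ ∃ v : G, IsConj v g ∧ (∃ u : G, x = u * v ∧ Commute u v ∧ Nat.Coprime (orderOf u) n ∧ Nat.Coprime (orderOf v) m)) → ϑ x = 0) : ∃ c : Cfsg.IrrCharacter G → ℂ, (∀ χ, c χ ∈ Cfsg.AlgInt) ∧ ϑ = ∑ᶠ χ : Cfsg.IrrCharacter G, c χ • (χ : G → ℂ) := by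
  classical
  obtain ⟨a, ha1, ha0⟩ := exists_modEq_one_and_dvd hcop
  obtain ⟨b, hb1, hb0⟩ := exists_modEq_one_and_dvd hcop.symm
  have hord : ∀ x : G, orderOf x ∣ m * n := fun x => hmn ▸ orderOf_dvd_natCard x
  have hϑ : ϑ = fun x => n * classIndicator g (x ^ b) := by
    funext x
    by_cases h : IsConj g (x ^ b)
    · rw [classIndicator_of_isConj h, mul_one]
      refine hϑ1 x ⟨x ^ b, h.symm, x ^ a, (pow_mul_pow_eq_self hcop ha1 ha0 hb1 hb0 (hord x)).symm,
        (Commute.refl x).pow_pow a b, hcop.coprime_dvd_left (orderOf_pow_dvd_of_dvd ha0 (hord x)),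
        hcop.symm.coprime_dvd_left (orderOf_pow_dvd_of_dvd hb0 (mul_comm m n ▸ hord x))⟩
    · rw [classIndicator_of_not_isConj h, mul_zero]
      refine hϑ0 x ?_
      rintro ⟨v, hv, u, rfl, huv, hu, hv'⟩
      apply h
      rw [huv.eq, pow_eq_of_commute hb1 hb0 huv.symm (hv'.dvd_of_dvd_mul_left (hord v))
        (hu.dvd_of_dvd_mul_right (hord u))]
      exact hv.symm
  have hcl : IsClassFunction G ϑ :=
    hϑ ▸ ((isClassFunction_classIndicator g).comp_pow b).map (fun z => n * z)
  refine ⟨fun χ => classInner ϑ χ, fun χ => ?_, ?_⟩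
  · rw [hϑ]
    refine isIntegral_classInner_of_section hcop (hmn ▸ dvd_rfl) hb1 hb0
      (isClassFunction_classIndicator g) (fun y => ?_) χ.2.isGeneralizedCharacter
    by_cases h : IsConj g y
    · rw [classIndicator_of_isConj h]; exact isIntegral_one
    · rw [classIndicator_of_not_isConj h]; exact isIntegral_zero
  · rw [finsum_eq_sum_of_fintype]
    exact hcl.eq_sum_irr

end Cfsg.Agent.S0875
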