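import Cfsg.Statements.S0878
import Cfsg.Agent.Lib.Perm.Frob

set_option autoImplicit false
open Cfsg

namespace Cfsg.Agent.S0878

/-- Let G be a Zassenhaus group on the finite set Ω, a a point, and let H be the subgroup of the stabilizer of a consisting of the identity and the elements fixing no point other than a (given here as a subgroup of the stabilizer of order one less than the number of points whose non-identity elements fix only a; it is the Frobenius kernel of the stabilizer). Then an element outside the stabilizer of a conjugates no non-identity element of H into H, and the normalizer of H is exactly the stabilizer of a. -/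
theorem result {G Ω : Type*} [Group G] [Finite G] [MulAction G Ω] [Fintype Ω] (hZ : Cfsg.IsZassenhausGroup G Ω) (a : Ω) (H : Subgroup G) (hHa : H ≤ MulAction.stabilizer G a) (hHcard : Nat.card H + 1 = Fintype.card Ω) (hHfix : ∀ u ∈ H, u ≠ 1 → ∀ c : Ω, u • c = c → c = a) : (∀ g : G, g ∉ MulAction.stabilizer G a → ∀ u ∈ H, g * u * g⁻¹ ∈ H → u = 1) ∧ Subgroup.normalizer (H : Set G) = MulAction.stabilizer G a := by
  have h1 : ∀ g : G, g ∉ MulAction.stabilizer G a → ∀ u ∈ H, g * u * g⁻¹ ∈ H → u = 1 := by
    intro g hg u hu hgu
    by_contra hu1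
    apply hg
    have h1 : (g * u * g⁻¹) • a = a := hHa hgu
    rw [mul_smul, mul_smul, smul_eq_iff_eq_inv_smul] at h1
    have := hHfix u hu hu1 _ h1
    rw [inv_smul_eq_iff] at this
    exact this.symm
  refine ⟨h1, ?_⟩
  obtain ⟨hf, h2, h3, ⟨g, hg1, x, y, hxy, hx, hy⟩, -⟩ := hZ
  classical
  -- `H` is regular on the points other than `a`
  have hreg : ∀ b : Ω, b ≠ a → ∀ c : Ω, c ≠ a → ∃ u ∈ H, u • b = c := by
    intro b hb c hc
    let f : H → {z : Ω // z ≠ a} := fun u => ⟨(u : G) • b, fun e => hb (by
      have : (u : G) • a = a := hHa u.2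
      exact smul_left_cancel (u : G) (e.trans this.symm))⟩
    have hinj : Function.Injective f := by
      intro u v h
      have h' : (u : G) • b = (v : G) • b := congrArg Subtype.val h
      by_contra hne
      apply hb
      refine hHfix (v⁻¹ * u : H) (v⁻¹ * u).2 (by simpa [inv_mul_eq_one, eq_comm] using hne) b ?_
      simp [mul_smul, h']
    have hbij : Function.Bijective f := by
      rw [Nat.bijective_iff_injective_and_card]
      refine ⟨hinj, ?_⟩
      rw [Nat.card_eq_fintype_card (α := {z : Ω // z ≠ a}), Fintype.card_subtype_compl]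
      simp [← hHcard]
    obtain ⟨u, hu⟩ := hbij.2 ⟨c, hc⟩
    exact ⟨u, u.2, congrArg Subtype.val hu⟩
  apply le_antisymm
  · intro n hn
    by_contra hna
    have hbot : H = ⊥ := by
      rw [eq_bot_iff]
      intro u hu
      exact h1 n hna u hu ((Subgroup.mem_normalizer_iff.1 hn u).1 hu)
    rw [hbot] at hHcard
    apply hg1
    refine FaithfulSMul.eq_of_smul_eq_smul (α := Ω) fun z => ?_
    have : (Finset.univ : Finset Ω) = {x, y} := by
      symm
      apply Finset.eq_univ_of_card
      rw [Finset.card_pair hxy, ← hHcard]; simp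
    have hz : z ∈ ({x, y} : Finset Ω) := this ▸ Finset.mem_univ z
    rw [one_smul]
    rcases Finset.mem_insert.1 hz with rfl | hz
    · exact hx
    · rw [Finset.mem_singleton.1 hz]; exact hy
  · have hn : 2 ≤ Fintype.card Ω := by have := Nat.card_pos (α := H); omega
    obtain ⟨b, hb⟩ := Fintype.exists_ne_of_one_lt_card hn a
    have : Nonempty (SubMulAction.ofStabilizer G a) := ⟨⟨b, hb⟩⟩
    have : MulAction.IsPretransitive (MulAction.stabilizer G a) (SubMulAction.ofStabilizer G a) :=
      ⟨fun u v => by
        obtain ⟨g, hg, hguv⟩ := hreg u u.2 v v.2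
        exact ⟨⟨g, hHa hg⟩, Subtype.ext hguv⟩⟩
    have hc := Lib.Perm.card_fpf_add_one (G := MulAction.stabilizer G a)
      (α := SubMulAction.ofStabilizer G a) (fun g u v huv hu hv => Subtype.ext
        (h3 g a u v (fun e => u.2 e.symm) (fun e => huv (Subtype.ext e)) (fun e => v.2 e.symm) g.2
          (congrArg Subtype.val hu) (congrArg Subtype.val hv)))
    have hc2 : Nat.card (SubMulAction.ofStabilizer G a) = Nat.card H := by
      have := SubMulAction.nat_card_ofStabilizer_add_one_eq G a
      rw [Nat.card_eq_fintype_card (α := Ω)] at this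
      omega
    let S : Set G := {g | g • a = a ∧ ∀ c, g • c = c → c = a}
    have hS : S.ncard + 1 = Nat.card H := by
      rw [← hc2, ← hc, ← Nat.card_coe_set_eq]
      congr 1
      exact Nat.card_congr
        { toFun := fun g => ⟨⟨g.1, g.2.1⟩, fun x hx => x.2 (g.2.2 x (congrArg Subtype.val hx))⟩
          invFun := fun g => ⟨g.1.1, g.1.2, fun c hc => by
            by_contra hca
            exact g.2 ⟨c, hca⟩ (Subtype.ext hc)⟩
          left_inv := fun _ => rfl
          right_inv := fun _ => rfl }
    have hsub : (H : Set G) ⊆ insert 1 S := by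
      intro u hu
      by_cases hu1 : u = 1
      · exact Or.inl hu1
      · exact Or.inr ⟨hHa hu, hHfix u hu hu1⟩
    have heq := Set.eq_of_subset_of_ncard_le hsub ((Set.ncard_insert_le _ _).trans hS.le)
    have key : ∀ n : G, n • a = a → ∀ u ∈ H, n * u * n⁻¹ ∈ H := by
      intro n hn u hu
      rcases hsub hu with rfl | hu'
      · simp
      · rw [← SetLike.mem_coe, heq]
        right
        refine ⟨by rw [mul_smul, mul_smul, inv_smul_eq_iff.2 hn.symm, hu'.1, hn], fun c hc => ?_⟩
        rw [mul_smul, mul_smul, smul_eq_iff_eq_inv_smul] at hc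
        have := hu'.2 _ hc
        rw [inv_smul_eq_iff, hn] at this
        exact this
    intro n hn
    rw [Subgroup.mem_normalizer_iff]
    intro u
    refine ⟨key n hn u, fun hu => ?_⟩
    simpa [mul_assoc] using key n⁻¹ ((MulAction.stabilizer G a).inv_mem hn) _ hu

end Cfsg.Agent.S0878
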