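import Cfsg.Statements.S0879
import Cfsg.Agent.Lib.Perm.Basic

set_option autoImplicit false
open Cfsg

namespace Cfsg.Agent.S0879

/-- Let G be a Zassenhaus group on the finite set Ω and E the stabilizer of two distinct points a, b. Then an element outside the normalizer of E conjugates no non-identity element of E into E, and E has index 2 in its normalizer. -/
theorem result {G Ω : Type*} [Group G] [Finite G] [MulAction G Ω] [Fintype Ω] (hZ : Cfsg.IsZassenhausGroup G Ω) {a b : Ω} (hab : a ≠ b) : (∀ g : G, g ∉ Subgroup.normalizer ((MulAction.stabilizer G a ⊓ MulAction.stabilizer G b : Subgroup G) : Set G) → ∀ x ∈ (MulAction.stabilizer G a ⊓ MulAction.stabilizer G b : Subgroup G), g * x * g⁻¹ ∈ (MulAction.stabilizer G a ⊓ MulAction.stabilizer G b : Subgroup G) → x = 1) ∧ ((MulAction.stabilizer G a ⊓ MulAction.stabilizer G b : Subgroup G).subgroupOf (Subgroup.normalizer ((MulAction.stabilizer G a ⊓ MulAction.stabilizer G b : Subgroup G) : Set G))).index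 = 2 := by
  obtain ⟨hf, h2, h3, ⟨g₀, hg1, x, y, hxy, hx, hy⟩, -⟩ := hZ
  set E : Subgroup G := MulAction.stabilizer G a ⊓ MulAction.stabilizer G b with hE
  have hmemE : ∀ g : G, g ∈ E ↔ g • a = a ∧ g • b = b := fun g => Iff.rfl
  have hfix : ∀ g ∈ E, g ≠ 1 → ∀ c, g • c = c → c = a ∨ c = b := by
    intro g hg hg1 c hc
    by_contra h
    push Not at h
    exact hg1 (h3 g a b c hab h.2.symm h.1.symm hg.1 hg.2 hc)
  have hnorm : ∀ g : G, (g • a = a ∧ g • b = b) ∨ (g • a = b ∧ g • b = a) →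
      g ∈ Subgroup.normalizer (E : Set G) := by
    intro g hg
    rw [Subgroup.mem_normalizer_iff'']
    intro h
    simp only [hmemE, mul_smul, inv_smul_eq_iff]
    rcases hg with ⟨h1, h2⟩ | ⟨h1, h2⟩ <;> rw [h1, h2]
    exact and_comm
  have hcases : ∀ g : G, ∀ u ∈ E, u ≠ 1 → g⁻¹ * u * g ∈ E →
      (g • a = a ∧ g • b = b) ∨ (g • a = b ∧ g • b = a) := by
    intro g u hu hu1 h
    simp only [hmemE, mul_smul, inv_smul_eq_iff] at h
    have hne : g • a ≠ g • b := fun e => hab (smul_left_cancel g e)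
    rcases hfix u hu hu1 _ h.1 with h1 | h1 <;> rcases hfix u hu hu1 _ h.2 with h2 | h2
    · exact absurd (h1.trans h2.symm) hne
    · exact Or.inl ⟨h1, h2⟩
    · exact Or.inr ⟨h1, h2⟩
    · exact absurd (h1.trans h2.symm) hne
  constructor
  · intro g hg u hu hgu
    by_contra hu1
    apply hg
    rw [← Subgroup.inv_mem_iff]
    exact hnorm _ (hcases g⁻¹ u hu hu1 (by simpa using hgu))
  · obtain ⟨k, hk1, hk2⟩ := Lib.Perm.two_iff.1 h2 x y a b hxy hab
    have hu : k * g₀ * k⁻¹ ∈ E := by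
      rw [hmemE, ← hk1, ← hk2]; simp [mul_smul, hx, hy]
    have hu1 : k * g₀ * k⁻¹ ≠ 1 := by simpa using hg1
    obtain ⟨s, hs1, hs2⟩ := Lib.Perm.two_iff.1 h2 a b b a hab hab.symm
    rw [Subgroup.index_eq_two_iff]
    refine ⟨⟨s, hnorm s (Or.inr ⟨hs1, hs2⟩)⟩, fun n => ?_⟩
    simp only [Subgroup.mem_subgroupOf, Subgroup.coe_mul, hmemE, mul_smul, hs1, hs2]
    rcases hcases n _ hu hu1 ((Subgroup.mem_normalizer_iff''.1 n.2 _).1 hu) with h | h
    · simp [h.1, h.2, hab, hab.symm]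
    · simp [h.1, h.2, hab, hab.symm]

end Cfsg.Agent.S0879
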