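import Cfsg.Statements.S0881
import Cfsg.Agent.Lib.Perm.Zass5

set_option autoImplicit false
open Cfsg

namespace Cfsg.Agent.S0881

/-- Let G be a finite simple Zassenhaus group on Ω with n points, a ≠ b points with two-point stabilizer E of odd order less than n - 2, and let H be the subgroup of the stabilizer of a consisting of the identity and the elements fixing no point other than a (given here as a subgroup of the stabilizer of order one less than the number of points whose non-identity elements fix only a; it is the Frobenius kernel of the stabilizer). Let μ be a character of degree 1 of the stabilizer of a that is identically 1 on H but not identically 1. Then the function induced from μ to G is an irreducible character of G, and it takes the value 1 at every non-identity element of H. -/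
theorem result {G Ω : Type*} [Group G] [Fintype G] [MulAction G Ω] [Fintype Ω] (hZ : Cfsg.IsZassenhausGroup G Ω) {a b : Ω} (hab : a ≠ b) [IsSimpleGroup G] (hodd : Odd (Nat.card ↥(MulAction.stabilizer G a ⊓ MulAction.stabilizer G b : Subgroup G))) (hlt : Nat.card ↥(MulAction.stabilizer G a ⊓ MulAction.stabilizer G b : Subgroup G) < Fintype.card Ω - 2) (H : Subgroup G) (hHa : H ≤ MulAction.stabilizer G a) (hHcard : Nat.card H + 1 = Fintype.card Ω) (hHfix : ∀ u ∈ H, u ≠ 1 → ∀ c : Ω, u • c = c → c = a) (μ : MulAction.stabilizer G a → ℂ) (hμ : Cfsg.IsCharacter (MulAction.stabilizer G a) μ ∧ μ 1 = 1) (hμH : ∀ u : MulAction.stabilizer G a, (u : G) ∈ H → μ u = 1) (hμne : μ ≠ fun _ => 1) : Cfsg.IsIrrCharacter G (Cfsg.indFun (MulAction.stabilizer G a) μ) ∧ ∀ u ∈ H, u ≠ 1 → Cfsg.indFun (MulAction.stabilizer G a) μ u = 1 := by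
  have hO := Lib.Perm.ZO.of_simple (.of_zassenhaus hZ) hab hodd (Lib.Perm.stab2_ne_bot hZ hab)
  obtain rfl := hO.eq_zker_of_card hHa (by rwa [Nat.card_eq_fintype_card (α := Ω)]) hHfix
  have hc := Lib.PF.isChar_extendByZero.2 hμ.1
  have h1 : extendByZero _ μ 1 = 1 := (congrFun (Lib.PF.coe_extendByZero _ μ) 1).trans hμ.2
  have hi := hc.mem_Irr_of_apply_one h1
  have hu : ∀ u ∈ Lib.Perm.zker G a, extendByZero _ μ u = 1 := fun u hu =>
    (congrFun (Lib.PF.coe_extendByZero _ μ) ⟨u, hHa hu⟩).trans (hμH _ hu)
  have e := Lib.PF.ind_top (H := MulAction.stabilizer G a) (extendByZero _ μ)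
  rw [Lib.PF.coe_extendByZero] at e
  rw [← e]
  exact ⟨Lib.PF.mem_Irr_top.1 (hO.ind_mem_Irr hab hi
    (fun u h => (Lib.PF.Irr.mem_cfker_iff hi).2 ((hu u h).trans h1.symm)) fun e => hμne (by
      rw [← Lib.PF.coe_extendByZero _ μ, e]; ext; simp)),
    fun u h h0 => (hO.ind_apply_zker hab hc.mem_CF h h0).trans (hu u h)⟩

end Cfsg.Agent.S0881
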