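import Cfsg.Statements.S0889
import Cfsg.Agent.S0890
import Cfsg.Agent.Lib.Induce.Inflate
import Cfsg.Agent.Lib.Clifford.Correspondence

set_option autoImplicit false
open Cfsg

namespace Cfsg.Agent.S0889

open Cfsg.Lib.Char Cfsg.Lib.Induce Cfsg.Lib.Clifford Subgroup

theorem irr_of_mul {G : Type*} [Group G] [Finite G] {a b : G → ℂ} (ha : IsCharacter G a)
    (hb : IsCharacter G b) (h : IsIrrCharacter G (a * b)) : IsIrrCharacter G a := by
  haveI := Fintype.ofFinite G
  have ha0 : a ≠ 0 := by rintro rfl; exact h.ne_zero (zero_mul _)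
  have hb0 : b 1 ≠ 0 := fun e => h.apply_one_ne_zero (by simp [e])
  obtain ⟨ψ, φ, hψ, hφ, rfl⟩ := ha.exists_irr_add ha0
  have h1 : IsCharacter G (ψ * b) := hψ.isCharacter.mul hb
  have h10 : ψ * b ≠ 0 := fun e => mul_ne_zero hψ.apply_one_ne_zero hb0 (congrFun e 1)
  obtain ⟨α, β, hα, hβ, e⟩ := h1.exists_irr_add h10
  have h2 : (ψ + φ) * b = α := by
    refine h.eq_of_inner_ne_zero hα ?_
    obtain ⟨n, hn⟩ := (hβ.add (hφ.mul hb)).exists_inner_eq_nat hα.isCharacter
    rw [add_mul, e, add_assoc, classInner_add_left, hα.inner_self, hn]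
    exact_mod_cast (by omega : 1 + n ≠ 0)
  have h3 := congrFun h2 1
  rw [add_mul, e] at h3
  obtain ⟨m, hm⟩ := hβ.exists_apply_one
  obtain ⟨k, hk⟩ := (hφ.mul hb).exists_apply_one
  simp only [Pi.add_apply, hm, hk, add_assoc, add_eq_left] at h3
  have hk0 : k = 0 := by
    have : m + k = 0 := by exact_mod_cast h3
    omega
  rw [hk0, Nat.cast_zero, Pi.mul_apply, mul_eq_zero, or_iff_left hb0] at hk
  rw [hφ.eq_zero_of_apply_one hk, add_zero]
  exact hψ

theorem descend {G G' : Type*} [Group G] [Fintype G] [Group G'] [Fintype G'] (p : G' →* G)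
    (hp : Function.Surjective p) (T : Subgroup G') (hT : p.ker ≤ T) {ρ : T → ℂ}
    (hρ : IsCharacter T ρ) {χ : G → ℂ} (hχ : χ 1 ≠ 0) (h : indFun T ρ = fun g => χ (p g)) :
    ∃ δ : T.map p → ℂ, IsCharacter _ δ ∧ indFun (T.map p) δ = χ := by
  have h0 : ρ 1 ≠ 0 := fun e => hχ (by
    have := congrFun h 1
    rw [indFun_one, e, mul_zero, map_one] at this
    exact this.symm)
  obtain ⟨δ, hδ, e⟩ := hρ.exists_eq_comp_of_surjective (p.subgroupMap T) (p.subgroupMap_surjective T)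
    (fun x hx => by
      have hx' : p x = 1 := congrArg Subtype.val hx
      obtain ⟨_, h1⟩ := (indFun_apply_eq_apply_one_iff T hρ h0 x).1 (by rw [h]; simp [hx']) 1
      simpa using h1)
  refine ⟨δ, hδ, funext fun g => ?_⟩
  obtain ⟨x, rfl⟩ := hp g
  rw [indFun_comp_surjective p hp T (T.map p) (fun g => by
    rw [← mem_comap, comap_map_eq_self hT]) ρ δ (fun h => e h) x, h]

universe u

theorem step {G : Type u} [Group G] [Fintype G] [Group.IsSolvable G] (χ : G → ℂ)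
    (hχ : IsIrrCharacter G χ) (H : Subgroup G) (hH : IsCoatom H) (θ : H → ℂ)
    (hθ : IsIrrCharacter H θ) (hind : indFun H θ = χ) (L K : Subgroup G) [hL : L.Normal] [K.Normal]
    (hHK : H ⊓ K = L) (hsup : H ⊔ K = ⊤) (φ : L → ℂ) (hφ : IsIrrCharacter L φ) (a : ℕ)
    (ha : (fun n : L => χ n) = (a : ℂ) • φ) :
    ∃ T M : Subgroup G, T ≠ ⊤ ∧ M.Normal ∧ L < M ∧ M ≤ T ∧
      ∃ δ : T → ℂ, IsCharacter T δ ∧ indFun T δ = χ := by
  classical
  have hLH : L ≤ H := hHK ▸ inf_le_left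
  have hLK : L ≤ K := hHK ▸ inf_le_right
  have ha0 : (a : ℂ) ≠ 0 := fun e => hχ.apply_one_ne_zero (by simpa [e] using congrFun ha 1)
  have hinv := invariant_of_res_eq_smul L hχ.isClassFunction ha0 ha
  -- `θ` lies over `φ`
  have hθφ : classInner (fun n : L => θ ⟨n, hLH n.2⟩) φ ≠ 0 := by
    obtain ⟨φ', hφ', h1⟩ := (isCharacter_res_le hLH hθ.isCharacter).isClassFunction.exists_irr_inner_ne_zero
      (fun e => hθ.apply_one_ne_zero (congrFun e 1))
    have h2 := inner_comp_ne_zero_of_constituent (inclusion hLH) (hχ.isCharacter.restrict H) hθ (by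
      rw [← frobenius_reciprocity' H θ hχ.isClassFunction, hind, hχ.inner_self]; exact one_ne_zero)
      hφ'.isCharacter h1
    have h3 : classInner ((a : ℂ) • φ) φ' ≠ 0 := by rw [← ha]; exact h2
    rw [classInner_smul_left] at h3
    rwa [hφ.eq_of_inner_ne_zero hφ' (right_ne_zero_of_mul h3)]
  obtain ⟨Γ, _, _, π, ι, ϑ, hπ, hπZ, hπι, hιc, hϑ, hϑι, -, -⟩ := exists_finite_cover (L.subgroupOf H)
    ((isIrrCharacter_subgroupOf_iff hLH).2 hφ) (fun g n => hinv g ⟨(n : H), n.2⟩)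
  haveI := Fintype.ofFinite Γ
  have hιinj : Function.Injective ι := fun x y e => Subtype.ext (by rw [← hπι, e, hπι])
  haveI hN : ι.range.Normal := ⟨by
    rintro _ ⟨n, rfl⟩ x
    exact ⟨_, (hιc x n).symm⟩⟩
  have hϑN : IsIrrCharacter ι.range (fun n => ϑ n) := by
    rw [← isIrrCharacter_comp_equiv_iff (MonoidHom.ofInjective hιinj)]
    simpa [MonoidHom.ofInjective_apply, hϑι] using (isIrrCharacter_subgroupOf_iff hLH).2 hφ
  obtain ⟨β, hβ, hβe⟩ := exists_inflate_mul_eq_of_over ι.range hϑ.isCharacter hϑN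
    (hθ.comp_surjective π hπ) (by
      rw [← classInner_comp_equiv (MonoidHom.ofInjective hιinj)]
      simp only [MonoidHom.ofInjective_apply, hϑι, hπι]
      rwa [classInner_res_subgroupOf hLH θ φ])
  -- the fibre product
  let σ : Γ ⧸ ι.range →* G ⧸ K := QuotientGroup.lift _ ((QuotientGroup.mk' K).comp (H.subtype.comp π)) (by
    rintro _ ⟨n, rfl⟩
    simp only [MonoidHom.mem_ker, MonoidHom.comp_apply, hπι, QuotientGroup.mk'_apply,
      QuotientGroup.eq_one_iff]
    exact hLK n.2)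
  have hσ : ∀ x : Γ, σ (x : Γ ⧸ ι.range) = ((π x : G) : G ⧸ K) := fun x => rfl
  let P : Subgroup (G × (Γ ⧸ ι.range)) :=
    ((QuotientGroup.mk' K).comp (MonoidHom.fst _ _)).eqLocus (σ.comp (MonoidHom.snd _ _))
  have hP : ∀ x : G × (Γ ⧸ ι.range), x ∈ P ↔ (x.1 : G ⧸ K) = σ x.2 := fun x => Iff.rfl
  haveI := Fintype.ofFinite P
  let p : P →* G := (MonoidHom.fst _ _).comp P.subtype
  let r : P →* Γ ⧸ ι.range := (MonoidHom.snd _ _).comp P.subtype
  have hp : Function.Surjective p := fun g => by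
    obtain ⟨h, hh, k, hk, rfl⟩ := Cfsg.Lib.PF.exists_mul_of_sup_eq_top hsup g
    obtain ⟨x, hx⟩ := hπ ⟨h, hh⟩
    refine ⟨⟨(h * k, x), (hP _).2 ?_⟩, rfl⟩
    rw [hσ, hx, QuotientGroup.mk_mul_of_mem _ hk]
  let j₀ : Γ →* P := ((H.subtype.comp π).prod (QuotientGroup.mk' _)).codRestrict P fun x => (hP _).2 rfl
  let j : Γ →* H.comap p := j₀.codRestrict _ fun x => (π x).2
  have hj : Function.Bijective j := by
    constructor
    · rw [injective_iff_map_eq_one]
      intro x hx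
      have h1 : ((π x : H) : G) = 1 := congrArg (fun y : H.comap p => (y.1.1.1 : G)) hx
      have h2 : (x : Γ ⧸ ι.range) = 1 := congrArg (fun y : H.comap p => y.1.1.2) hx
      obtain ⟨n, rfl⟩ := (QuotientGroup.eq_one_iff _).1 h2
      rw [hπι] at h1
      rw [show n = 1 from Subtype.ext (Subtype.ext h1), map_one]
    · rintro ⟨⟨⟨h, y⟩, hy⟩, hh⟩
      obtain ⟨y, rfl⟩ := QuotientGroup.mk_surjective y
      have hh' : h ∈ H := hh
      have h1 : ((π y : H) : G)⁻¹ * h ∈ L := by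
        rw [← hHK]
        exact ⟨H.mul_mem (H.inv_mem (π y).2) hh', QuotientGroup.eq.1 ((hP _).1 hy).symm⟩
      refine ⟨y * ι ⟨⟨_, hLH h1⟩, h1⟩, Subtype.ext (Subtype.ext (Prod.ext ?_ ?_))⟩
      · show ((π (y * ι _) : H) : G) = h
        rw [map_mul, hπι]; simp
      · exact QuotientGroup.mk_mul_of_mem _ ⟨_, rfl⟩
  let e := MulEquiv.ofBijective j hj
  have hpe : ∀ x : Γ, p (e x) = π x := fun x => rfl
  have hre : ∀ x : Γ, r (e x) = x := fun x => rfl
  let ϑ' : H.comap p → ℂ := fun h => ϑ (e.symm h)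
  have hϑ' : IsIrrCharacter _ ϑ' := hϑ.comp_equiv e.symm
  let γ : P → ℂ := fun g => β (r g)
  have hγ : IsCharacter P γ := hβ.isCharacter.comp r
  have hχ' : (fun g => χ (p g)) = indFun (H.comap p) ϑ' * γ := by
    rw [← hind, ← indFun_comap_surjective p hp H θ, ← indFun_mul_res _ _ hγ.isClassFunction]
    congr 1
    funext h
    obtain ⟨x, rfl⟩ := e.surjective h
    have := congrFun hβe x
    simp only [ϑ', γ, hre, MulEquiv.symm_apply_apply]
    rw [mul_comm]
    exact this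
  have hΘ : IsIrrCharacter P (indFun (H.comap p) ϑ') :=
    irr_of_mul (isCharacter_indFun _ hϑ'.isCharacter) hγ (hχ' ▸ hχ.comp_surjective p hp)
  have hLH' : L.comap p ≤ H.comap p := comap_mono hLH
  have hϑL : IsIrrCharacter (L.comap p) (fun x => ϑ' ⟨x, hLH' x.2⟩) := by
    let f : L.subgroupOf H →* L.comap p := (j₀.comp ι).codRestrict _ fun n => by
      show ((π (ι n) : H) : G) ∈ L
      rw [hπι]; exact n.2
    refine isIrrCharacter_of_comp f (isCharacter_res_le hLH' hϑ'.isCharacter) ?_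
    convert (isIrrCharacter_subgroupOf_iff hLH).2 hφ using 2 with n
    rw [← hϑι]
    exact congrArg ϑ (e.symm_apply_apply (ι n))
  have hinvL : ∀ (g : P) (n : L.comap p), (fun x : L.comap p => ϑ' ⟨x, hLH' x.2⟩)
      ⟨g * n * g⁻¹, Normal.conj_mem inferInstance (n : P) n.2 g⟩ = ϑ' ⟨n, hLH' n.2⟩ := by
    intro g n
    obtain ⟨x, hx⟩ := e.surjective ⟨n, hLH' n.2⟩
    have hxn : (e x : P) = n := congrArg Subtype.val hx
    have hxL : ((π x : H) : G) ∈ L := by rw [← hpe, hxn]; exact n.2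
    let l : L.subgroupOf H := ⟨π x, hxL⟩
    let l' : L.subgroupOf H := ⟨⟨p g * π x * (p g)⁻¹, hLH (hL.conj_mem _ hxL _)⟩, hL.conj_mem _ hxL _⟩
    have hz : (ι l)⁻¹ * x ∈ π.ker := by
      rw [MonoidHom.mem_ker, map_mul, map_inv, hπι]; simp [l]
    have hzc := hϑ.center_le_charCenter (hπZ hz)
    have hx' : x = (ι l)⁻¹ * x * ι l := by
      rw [← mem_center_iff.1 (hπZ hz)]; simp
    have h1 : e ((ι l)⁻¹ * x * ι l') =
        ⟨g * n * g⁻¹, hLH' (Normal.conj_mem inferInstance (n : P) n.2 g)⟩ := by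
      refine Subtype.ext (Subtype.ext (Prod.ext ?_ ?_))
      · show p (e _) = p (g * n * g⁻¹)
        rw [hpe, map_mul, MonoidHom.mem_ker.1 hz, hπι, one_mul, map_mul, map_mul, map_inv, ← hxn, hpe]
      · show r (e _) = r (g * n * g⁻¹)
        rw [hre, map_mul, map_mul, map_inv, ← hxn, hre,
          QuotientGroup.mk_mul_of_mem _ (show ι l' ∈ ι.range from ⟨_, rfl⟩)]
        obtain ⟨y, hy⟩ := QuotientGroup.mk_surjective (r g)
        rw [← hy]
        conv_rhs => rw [hx', QuotientGroup.mk_mul_of_mem _ (show ι l ∈ ι.range from ⟨_, rfl⟩),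
          ← QuotientGroup.mk_mul,
          mem_center_iff.1 (hπZ hz) y, QuotientGroup.mk_mul, mul_inv_cancel_right]
    show ϑ (e.symm _) = ϑ (e.symm _)
    rw [← h1, ← hx, e.symm_apply_apply, e.symm_apply_apply]
    conv_rhs => rw [hx']
    rw [Cfsg.IsCharacter.apply_mul_of_mem_charCenter hϑ.apply_one_ne_zero hzc,
      Cfsg.IsCharacter.apply_mul_of_mem_charCenter hϑ.apply_one_ne_zero hzc, hϑι, hϑι]
    congr 1
    exact hinv (p g) ⟨π x, hxL⟩
  obtain ⟨M, hM, hLM, hnot⟩ := Cfsg.Agent.S0890.result (L.comap p) (H.comap p) hLH'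
    (isCoatom_comap_of_surjective hp hH)
    (Group.isSolvable_of_isSolvable_injective (f := QuotientGroup.map (L.comap p) L p le_rfl) (by
      rw [injective_iff_map_eq_one]
      intro x hx
      obtain ⟨x, rfl⟩ := QuotientGroup.mk_surjective x
      rw [QuotientGroup.map_mk, QuotientGroup.eq_one_iff] at hx
      exact (QuotientGroup.eq_one_iff _).2 hx)) ϑ' hϑ' hϑL hΘ
  have hlt : L.comap p < M := lt_of_le_of_ne hLM (by
    rintro rfl
    obtain ⟨b, -, -, hb⟩ := exists_res_eq_smul_of_invariant (L.comap p) hΘ hϑL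
      (inner_comp_ne_zero_of_constituent (inclusion hLH') (hΘ.isCharacter.restrict _) hϑ' (by
        rw [← frobenius_reciprocity' _ ϑ' hΘ.isClassFunction, hΘ.inner_self]; exact one_ne_zero)
        hϑL.isCharacter (by
          change classInner (fun x : L.comap p => ϑ' ⟨x, hLH' x.2⟩) _ ≠ 0
          rw [hϑL.inner_self]; exact one_ne_zero)) hinvL
    exact hnot ⟨_, b, hϑL, hb⟩)
  rcases homogeneous_or_induced M hΘ with ⟨ξ, b, hξ, -, hb⟩ | ⟨T, ψ, hMT, hT, hψ, hψe⟩
  · exact absurd ⟨ξ, b, hξ, hb⟩ hnot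
  have hker : p.ker ≤ L.comap p := ker_le_comap p L
  have hkT : p.ker ≤ T := hker.trans (hLM.trans hMT)
  obtain ⟨δ, hδ, hδe⟩ := descend p hp T hkT (ρ := fun t => ψ t * γ t)
    (hψ.isCharacter.mul (hγ.restrict T)) hχ.apply_one_ne_zero
    (by rw [indFun_mul_res _ _ hγ.isClassFunction, hψe, hχ'])
  refine ⟨T.map p, M.map p, fun e => hT ?_, hM.map p hp, ?_, map_mono hMT, δ, hδ, hδe⟩
  · rw [← comap_map_eq_self hkT, e, comap_top]
  · refine lt_of_le_of_ne ((map_comap_eq_self_of_surjective hp L).ge.trans (map_mono hLM))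
      fun e => hlt.ne ?_
    exact (congrArg (comap p) e).trans (comap_map_eq_self (hker.trans hLM))

/-- Let G be a finite solvable group and χ an irreducible character of G such that for every normal subgroup N the restriction of χ to N is a natural-number multiple of one irreducible character of N. Then χ is not induced from a character of any proper subgroup. -/
theorem result {G : Type*} [Group G] [Fintype G] [Group.IsSolvable G] (χ : G → ℂ) (hχ : Cfsg.IsIrrCharacter G χ) (hqp : ∀ (N : Subgroup G), N.Normal → ∃ (ϑ : N → ℂ) (e : ℕ), Cfsg.IsIrrCharacter N ϑ ∧ (fun n : N => χ n) = (e : ℂ) • ϑ) (K : Subgroup G) (hK : K ≠ ⊤) (ψ : K → ℂ) (hψ : Cfsg.IsCharacter K ψ) : Cfsg.indFun K ψ ≠ χ := by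
  classical
  intro hK'
  obtain ⟨_, ⟨T, ⟨hT, δ, hδ, hδe⟩, rfl⟩, hmax⟩ := (wellFounded_gt (α := Subgroup G)).has_min
    (Subgroup.normalCore '' {T : Subgroup G | T ≠ ⊤ ∧ ∃ δ : T → ℂ, IsCharacter T δ ∧ indFun T δ = χ})
    ⟨_, K, ⟨hK, ψ, hψ, hK'⟩, rfl⟩
  obtain ⟨H, hH, hTH⟩ := (eq_top_or_exists_le_coatom T).resolve_left hT
  have hind := indFun_indFun T H hTH δ
  rw [hδe] at hind
  have hθ := isIrrCharacter_of_indFun H (isCharacter_indFun _ (isCharacter_subgroupOf hδ)) (hind ▸ hχ)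
  obtain ⟨U, hU, -⟩ := Cfsg.Lib.Core.exists_isChiefFactor_le (W := H.normalCore) (V := ⊤)
    inferInstance inferInstance (lt_of_le_of_lt H.normalCore_le hH.1.lt_top)
  obtain ⟨q, -, hab, -⟩ := Cfsg.Lib.Core.exists_prime_of_isChiefFactor hU inferInstance
  haveI := hU.2.1
  have hsup : H ⊔ U = ⊤ := hH.2 _ (lt_of_le_of_ne le_sup_left fun e => hU.1.not_ge
    (normal_le_normalCore.2 (le_sup_right.trans e.ge)))
  have hHU : H ⊓ U = H.normalCore := by
    refine le_antisymm ?_ (le_inf H.normalCore_le hU.1.le)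
    haveI : (H ⊓ U).Normal := by
      rw [← Cfsg.Lib.BG.Nml.top_iff]
      refine ⟨le_top, hsup.ge.trans (sup_le (Cfsg.Lib.BG.norm_inf le_normalizer le_normalizer_of_normal)
        (Cfsg.Lib.BG.norm_of_comm_le_of_le (hab.trans (le_inf H.normalCore_le hU.1.le)) inf_le_right))⟩
    exact normal_le_normalCore.2 inf_le_left
  obtain ⟨φ, a, hφ, ha⟩ := hqp H.normalCore inferInstance
  obtain ⟨T', M, hT', hM, h1, h2, h3⟩ := step χ hχ H hH _ hθ hind _ U hHU hsup φ hφ a ha
  exact hmax _ ⟨T', ⟨hT', h3⟩, rfl⟩ (lt_of_le_of_lt (normalCore_mono hTH)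
    (lt_of_lt_of_le h1 (normal_le_normalCore.2 h2)))

end Cfsg.Agent.S0889
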