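import Cfsg.Statements.S0893
import Cfsg.Agent.Lib.Coprime.LiftIrr
import Cfsg.Agent.Lib.Clifford.Monomial

set_option autoImplicit false
open Cfsg

namespace Cfsg.Agent.S0893

open Cfsg.Lib.Char Cfsg.Lib.Coprime in
open scoped commutatorElement in
theorem vanish {P : Type*} [Group P] [Finite P] {p : ℕ} [hp : Fact p.Prime]
    (hP : Cfsg.IsExtraspecial p P) {χ : P → ℂ} (hχ : IsIrrCharacter P χ)
    (hz : ∃ z ∈ Subgroup.center P, χ z ≠ χ 1) {x : P} (hx : x ∉ Subgroup.center P) : χ x = 0 := by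
  obtain ⟨z, hz, hz1⟩ := hz
  rw [Subgroup.mem_center_iff] at hx
  push Not at hx
  obtain ⟨w, hw⟩ := hx
  have hc : ⁅w, x⁆ ∈ Subgroup.center P := by
    rw [← hP.1.2.2]
    exact Subgroup.commutator_mem_commutator (Subgroup.mem_top _) (Subgroup.mem_top _)
  refine apply_eq_zero_of_commutator hχ.isClassFunction hχ.apply_one_ne_zero (w := w)
    (hχ.center_le_charCenter hc) fun e => hz1 ?_
  have h1 : (⟨⁅w, x⁆, hc⟩ : Subgroup.center P) ≠ 1 := fun h =>
    hw (commutatorElement_eq_one_iff_mul_comm.1 (congrArg Subtype.val h))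
  have h2 := zpowers_eq_top_of_prime_card hP.2 h1
  have h3 : (⟨z, hz⟩ : Subgroup.center P) ∈ Subgroup.zpowers (⟨⁅w, x⁆, hc⟩ : Subgroup.center P) :=
    h2 ▸ Subgroup.mem_top _
  obtain ⟨k, hk⟩ := h3
  have h4 : ⁅w, x⁆ ^ k = z := by simpa using congrArg Subtype.val hk
  rw [← hχ.isCharacter.mem_charKer_iff] at e ⊢
  exact h4 ▸ Subgroup.zpow_mem _ e k

open Cfsg.Lib.Char Cfsg.Lib.Coprime in
theorem degree {P : Type*} [Group P] [Finite P] {p n : ℕ} [hp : Fact p.Prime]
    (hP : Cfsg.IsExtraspecial p P) (hcard : Nat.card P = p ^ (2 * n + 1)) {χ : P → ℂ}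
    (hχ : IsIrrCharacter P χ) (hz : ∃ z ∈ Subgroup.center P, χ z ≠ χ 1) : χ 1 = (p : ℂ) ^ n := by
  classical
  haveI := Fintype.ofFinite P
  have h := hχ.sum_norm_sq
  rw [← Finset.sum_filter_add_sum_filter_not _ (· ∈ Subgroup.center P),
    Finset.sum_eq_zero (s := Finset.univ.filter fun x => ¬ x ∈ Subgroup.center P) (fun x hx => by
      rw [vanish hP hχ hz (Finset.mem_filter.1 hx).2]; simp), add_zero,
    Finset.sum_congr rfl (fun x hx => by
      rw [hχ.isCharacter.mem_charCenter_iff.1 (hχ.center_le_charCenter (Finset.mem_filter.1 hx).2),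
        hχ.isCharacter.norm_apply_one]), Finset.sum_const, ← Fintype.card_subtype,
    ← Nat.card_eq_fintype_card, hP.2, hcard, nsmul_eq_mul] at h
  have h' : p * charDegree χ ^ 2 = p ^ (2 * n + 1) := by exact_mod_cast h
  have h2 : charDegree χ ^ 2 = (p ^ n) ^ 2 := by
    refine Nat.eq_of_mul_eq_mul_left hp.out.pos ?_
    rw [h']; ring
  rw [hχ.apply_one_eq, Nat.pow_left_injective two_ne_zero h2]
  simp

open Cfsg.Lib.Char Cfsg.Lib.Coprime Cfsg.Lib.Induce in
theorem aux {P : Type*} [Group P] [Fintype P] (p n : ℕ) [hp : Fact p.Prime] (hP : Cfsg.IsExtraspecial p P) (hcard : Nat.card P = p ^ (2 * n + 1)) (A : Subgroup P) (hA : Nat.card A = p ^ (n + 1)) (lam : A → ℂ) (hlam : Cfsg.IsCharacter A lam ∧ lam 1 = 1) (hZ : ∃ a : A, (a : P) ∈ Subgroup.center P ∧ lam a ≠ 1) : Cfsg.IsIrrCharacter P (Cfsg.indFun A lam) ∧ ∀ x : P, x ∉ Subgroup.center P → Cfsg.indFun A lam x = 0 := by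
  haveI := Fintype.ofFinite A
  have hl := hlam.1.isIrrCharacter_of_apply_one hlam.2
  obtain ⟨χ, hχ, hne⟩ := exists_irr_above A hl
  obtain ⟨a, ha, ha1⟩ := hZ
  have hz : ∃ z ∈ Subgroup.center P, χ z ≠ χ 1 := by
    refine ⟨a, ha, fun e => ha1 ?_⟩
    have := apply_div_eq_of_inner_ne_zero hχ hl hne ha
    rwa [e, hlam.2, div_one, div_self hχ.apply_one_ne_zero] at this
  have hi : A.index = p ^ n := by
    have := A.index_mul_card
    rw [hA, hcard] at this
    refine Nat.eq_of_mul_eq_mul_right (pow_pos hp.out.pos (n + 1)) ?_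
    rw [this]; ring
  have e : indFun A lam = χ := by
    refine eq_of_constituent_of_apply_one_eq (isCharacter_indFun A hlam.1) hχ ?_ ?_
    · rwa [frobenius_reciprocity A _ hχ.isClassFunction, Ne, classInner_eq_zero_comm]
    · rw [indFun_one, hlam.2, hi, degree hP hcard hχ hz]; simp
  rw [e]
  exact ⟨hχ, fun x hx => vanish hP hχ hz hx⟩

/-- Let P be an extraspecial p-group of order p ^ (2 * n + 1), A an abelian subgroup of order p ^ (n + 1), and λ a character of A of degree 1 that is not identically 1 on the elements of A lying in the centre of P. Then the function induced from λ to P is an irreducible character of P and vanishes at every element outside the centre. -/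
theorem result {P : Type*} [Group P] [Fintype P] (p n : ℕ) [Fact p.Prime] (hP : Cfsg.IsExtraspecial p P) (hcard : Nat.card P = p ^ (2 * n + 1)) (A : Subgroup P) (hab : ∀ a ∈ A, ∀ b ∈ A, a * b = b * a) (hA : Nat.card A = p ^ (n + 1)) (lam : A → ℂ) (hlam : Cfsg.IsCharacter A lam ∧ lam 1 = 1) (hZ : ∃ a : A, (a : P) ∈ Subgroup.center P ∧ lam a ≠ 1) : Cfsg.IsIrrCharacter P (Cfsg.indFun A lam) ∧ ∀ x : P, x ∉ Subgroup.center P → Cfsg.indFun A lam x = 0 := by
  exact aux p n hP hcard A hA lam hlam hZ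

end Cfsg.Agent.S0893
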