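import Cfsg.Statements.S0894
import Cfsg.Agent.S0893

set_option autoImplicit false
open Cfsg

namespace Cfsg.Agent.S0894

open Cfsg.Lib.Char Cfsg.Lib.Clifford in
theorem aux {P : Type*} [Group P] [Finite P] (p n : ℕ) [hp : Fact p.Prime] (hP : Cfsg.IsExtraspecial p P) (hcard : Nat.card P = p ^ (2 * n + 1)) : (∀ χ : Cfsg.IrrCharacter P, (χ : P → ℂ) 1 = 1 ∨ (χ : P → ℂ) 1 = (p : ℂ) ^ n) ∧ Nat.card {χ : Cfsg.IrrCharacter P // (χ : P → ℂ) 1 = (p : ℂ) ^ n} = p - 1 := by
  classical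
  have h1 : ∀ χ : Cfsg.IrrCharacter P, (χ : P → ℂ) 1 = 1 ∨ (χ : P → ℂ) 1 = (p : ℂ) ^ n := by
    intro χ
    by_cases hz : ∃ z ∈ Subgroup.center P, (χ : P → ℂ) z ≠ (χ : P → ℂ) 1
    · exact Or.inr (Cfsg.Agent.S0893.degree hP hcard χ.2 hz)
    · push Not at hz
      refine Or.inl (apply_one_eq_one_of_commutator χ.2 fun a b => hz _ ?_)
      rw [← hP.1.2.2]
      exact Subgroup.commutator_mem_commutator (Subgroup.mem_top _) (Subgroup.mem_top _)
  refine ⟨h1, ?_⟩
  have hn : n ≠ 0 := by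
    rintro rfl
    have hc : Subgroup.center P = ⊤ := by
      rw [← Subgroup.card_eq_iff_eq_top, hP.2, hcard]; simp
    have h2 : commutator P = ⊥ := by
      rw [commutator_eq_bot_iff_center_eq_top, hc]
    have := hP.2
    rw [← hP.1.2.2, h2, Subgroup.card_bot] at this
    exact hp.out.one_lt.ne this
  have hne : (p : ℂ) ^ n ≠ 1 := by
    have := (Nat.one_lt_pow hn hp.out.one_lt).ne'
    exact_mod_cast this
  have hi : (commutator P).index = p ^ (2 * n) := by
    have := (commutator P).index_mul_card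
    rw [hP.1.2.2, hP.2, hcard, ← hP.1.2.2] at this
    exact Nat.eq_of_mul_eq_mul_right hp.out.pos (by rw [this]; ring)
  have hl := card_linear_irr P
  have hs := sum_irr_apply_one_sq P
  rw [← Finset.sum_filter_add_sum_filter_not _ (fun χ : IrrCharacter P => (χ : P → ℂ) 1 = 1),
    Finset.sum_congr rfl (fun χ hχ => by rw [(Finset.mem_filter.1 hχ).2]),
    Finset.sum_congr (s₁ := Finset.univ.filter fun χ : IrrCharacter P => ¬ (χ : P → ℂ) 1 = 1)
      (s₂ := Finset.univ.filter fun χ : IrrCharacter P => (χ : P → ℂ) 1 = (p : ℂ) ^ n)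
      (Finset.filter_congr fun χ _ => ⟨fun h => (h1 χ).resolve_left h, fun h e => hne (h ▸ e)⟩)
      (fun χ hχ => by rw [(Finset.mem_filter.1 hχ).2]), Finset.sum_const, Finset.sum_const,
    ← Fintype.card_subtype, ← Fintype.card_subtype, ← Nat.card_eq_fintype_card,
    ← Nat.card_eq_fintype_card, hl, hi, hcard, nsmul_eq_mul, nsmul_eq_mul] at hs
  have h3 : p ^ (2 * n) * 1 ^ 2 + Nat.card {χ : Cfsg.IrrCharacter P // (χ : P → ℂ) 1 = (p : ℂ) ^ n} *
      (p ^ n) ^ 2 = p ^ (2 * n + 1) := by exact_mod_cast hs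
  have h4 : 1 + Nat.card {χ : Cfsg.IrrCharacter P // (χ : P → ℂ) 1 = (p : ℂ) ^ n} = p := by
    refine Nat.eq_of_mul_eq_mul_left (pow_pos hp.out.pos (2 * n)) ?_
    rw [← pow_succ, ← h3]; ring
  omega

/-- Let P be an extraspecial p-group of order p ^ (2 * n + 1). Then every irreducible character of P has degree 1 or p ^ n, and exactly p - 1 of them have degree p ^ n. -/
theorem result {P : Type*} [Group P] [Finite P] (p n : ℕ) [Fact p.Prime] (hP : Cfsg.IsExtraspecial p P) (hcard : Nat.card P = p ^ (2 * n + 1)) : (∀ χ : Cfsg.IrrCharacter P, (χ : P → ℂ) 1 = 1 ∨ (χ : P → ℂ) 1 = (p : ℂ) ^ n) ∧ Nat.card {χ : Cfsg.IrrCharacter P // (χ : P → ℂ) 1 = (p : ℂ) ^ n} = p - 1 := by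
  exact aux p n hP hcard

end Cfsg.Agent.S0894
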