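import Cfsg.Statements.S0895
import Cfsg.Agent.Lib.Char.FrobSchur
import Cfsg.Agent.Lib.Char.Galois

set_option autoImplicit false
open Cfsg

namespace Cfsg.Agent.S0895

open Cfsg.Lib.Char Matrix in
theorem eq_zero_of_invariant {G : Type*} [Group G] {n : ℕ} (ρ : Representation ℂ G (Fin n → ℂ))
    [ρ.IsIrreducible] (hn : Odd n) (B : Matrix (Fin n) (Fin n) ℂ) (hB : Bᵀ = -B)
    (hinv : ∀ g, (LinearMap.toMatrix' (ρ g))ᵀ * B * LinearMap.toMatrix' (ρ g) = B) : B = 0 := by
  have hdet : B.det = 0 := by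
    have h := Matrix.det_transpose B
    rw [hB, Matrix.det_neg, Fintype.card_fin, hn.neg_one_pow] at h
    linear_combination (-1 / 2 : ℂ) * h
  have hM : ∀ g : G, (LinearMap.toMatrix' (ρ g⁻¹))ᵀ * (LinearMap.toMatrix' (ρ g))ᵀ = 1 := fun g => by
    rw [← Matrix.transpose_mul, ← LinearMap.toMatrix'_mul, ← map_mul, mul_inv_cancel, map_one,
      LinearMap.toMatrix'_one, Matrix.transpose_one]
  rcases eq_bot_or_top_of_isIrreducible ρ (LinearMap.ker (Matrix.toLin' B)) (fun g v hv => by
    rw [LinearMap.mem_ker, Matrix.toLin'_apply] at hv ⊢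
    have h1 : B * LinearMap.toMatrix' (ρ g) = (LinearMap.toMatrix' (ρ g⁻¹))ᵀ * B := by
      conv_rhs => rw [← hinv g, ← mul_assoc, ← mul_assoc, hM, one_mul]
    rw [← LinearMap.toMatrix'_mulVec, Matrix.mulVec_mulVec, h1, ← Matrix.mulVec_mulVec, hv,
      Matrix.mulVec_zero]) with h | h
  · obtain ⟨v, hv0, hv⟩ := Matrix.exists_mulVec_eq_zero_iff.2 hdet
    have : v ∈ LinearMap.ker (Matrix.toLin' B) := by
      rw [LinearMap.mem_ker, Matrix.toLin'_apply, hv]
    rw [h, Submodule.mem_bot] at this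
    exact absurd this hv0
  · rw [LinearMap.ker_eq_top] at h
    exact Matrix.toLin'.injective (by rw [h, map_zero])

open Cfsg.Lib.Char Matrix in
theorem sum_sq_eq {G : Type*} [Group G] [Fintype G] {n : ℕ} (ρ : Representation ℂ G (Fin n → ℂ))
    [ρ.IsIrreducible] (hn : Odd n) :
    ∑ g, ρ.character g * ρ.character g = ∑ g, ρ.character (g * g) := by
  let M : G → Matrix (Fin n) (Fin n) ℂ := fun g => LinearMap.toMatrix' (ρ g)
  have hmul : ∀ g h, M (g * h) = M g * M h := fun g h => by
    simp only [M, map_mul, LinearMap.toMatrix'_mul]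
  have key : ∀ X : Matrix (Fin n) (Fin n) ℂ, ∑ g, (M g)ᵀ * (X - Xᵀ) * M g = 0 := fun X => by
    refine eq_zero_of_invariant ρ hn _ ?_ fun h => ?_
    · rw [Matrix.transpose_sum, ← Finset.sum_neg_distrib]
      refine Finset.sum_congr rfl fun g _ => ?_
      simp only [Matrix.transpose_mul, Matrix.transpose_sub, Matrix.transpose_transpose, mul_sub,
        sub_mul, mul_assoc, neg_sub]
    · rw [Finset.mul_sum, Finset.sum_mul]
      refine Fintype.sum_equiv (Equiv.mulRight h) _ _ fun g => ?_
      simp only [Equiv.coe_mulRight, hmul, Matrix.transpose_mul, mul_assoc, M]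
  have h1 : ∀ i j : Fin n, ∑ g, M g i i * M g j j = ∑ g, M g j i * M g i j := fun i j => by
    have := congrFun (congrFun (key (Matrix.single i j 1)) i) j
    simp only [Matrix.sum_apply, Matrix.transpose_single, mul_sub, sub_mul, Matrix.sub_apply,
      Matrix.zero_apply, Finset.sum_sub_distrib, sub_eq_zero] at this
    simpa [Matrix.mul_apply, Matrix.single_apply, ite_and] using this
  simp only [character_eq_trace_toMatrix']
  change ∑ g, (M g).trace * (M g).trace = ∑ g, (M (g * g)).trace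
  simp only [hmul, Matrix.trace, Matrix.diag, Matrix.mul_apply, Finset.sum_mul_sum]
  rw [Finset.sum_comm, Finset.sum_comm (s := (Finset.univ : Finset G))]
  refine Finset.sum_congr rfl fun i _ => ?_
  rw [Finset.sum_comm, Finset.sum_comm (s := (Finset.univ : Finset G))]
  refine Finset.sum_congr rfl fun j _ => ?_
  rw [h1]
  exact Finset.sum_congr rfl fun g _ => mul_comm _ _

/-- Let χ be a real-valued irreducible character of a finite group G whose degree is an odd natural number. Then the average over s in G of χ (s * s) equals 1. -/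
theorem result {G : Type*} [Group G] [Fintype G] (χ : G → ℂ) (hχ : Cfsg.IsIrrCharacter G χ) (hreal : ∀ g : G, (χ g).im = 0) (d : ℕ) (hd : χ 1 = d) (hodd : Odd d) : (Nat.card G : ℂ)⁻¹ * ∑ s : G, χ (s * s) = 1 := by
  have h1 := Cfsg.Lib.Char.Cfsg.IsIrrCharacter.inner_self hχ
  obtain ⟨n, ρ, hρ, rfl⟩ := hχ
  have hn : n = d := by
    rw [Representation.char_one, Module.finrank_fin_fun] at hd
    exact_mod_cast hd
  rw [← sum_sq_eq ρ (hn ▸ hodd), ← h1, Cfsg.Lib.Char.classInner_def]
  congr 1
  exact Finset.sum_congr rfl fun g _ => by rw [Complex.conj_eq_iff_im.2 (hreal g)]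

end Cfsg.Agent.S0895
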