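import Cfsg.Statements.S0896
import Cfsg.Agent.Lib.Char.DefectZero
import Cfsg.Agent.Lib.CharDeg.OrbitSum

set_option autoImplicit false
open scoped ComplexConjugate
open Cfsg

namespace Cfsg.Agent.S0896

open Cfsg.Lib.Char Cfsg.Lib.Induce Cfsg.Lib.CharDeg

/-- If two characters invariant under a `p`-group of automorphisms have inner product prime to
`p`, then they have an invariant common constituent with multiplicity prime to `p`. -/
theorem exists_fixed_constituent {D P : Type*} [Group D] [Group P] [Fintype D] {p : ℕ}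
    [Fact p.Prime] (hP : IsPGroup p P) (α : P →* MulAut D) {χ ψ : D → ℂ}
    (hχ : IsCharacter D χ) (hψ : IsCharacter D ψ) (hχi : ∀ s x, χ (α s x) = χ x)
    (hψi : ∀ s x, ψ (α s x) = ψ x) {k : ℕ} (hk : classInner χ ψ = k) (hpk : ¬ p ∣ k) :
    ∃ φ, IsIrrCharacter D φ ∧ (∀ s x, φ (α s x) = φ x) ∧
      ∃ m : ℕ, ¬ p ∣ m ∧ classInner ψ φ = m := by
  classical
  choose a ha using fun φ : IrrCharacter D => hχ.exists_inner_eq_nat φ.2.isCharacter
  choose b hb using fun φ : IrrCharacter D => hψ.exists_inner_eq_nat φ.2.isCharacter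
  have hsum : k = ∑ φ, a φ * b φ := by
    have := hχ.isClassFunction.inner_eq_sum_irr ψ
    simp only [hk, ha, hb, map_natCast] at this
    exact_mod_cast this
  have hinv : ∀ θ : D → ℂ, (∀ s x, θ (α s x) = θ x) → ∀ s (φ : IrrCharacter D),
      classInner θ (irrPermAut (α s) φ : IrrCharacter D) = classInner θ φ := by
    intro θ hθ s φ
    rw [← classInner_comp_equiv (α s) θ]
    simp only [hθ, irrPermAut_apply, MulEquiv.symm_apply_apply]
  have h1 := sum_eq_sum_fixed_zmod hP (irrPermAut.comp α)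
    (Subtype.val : {φ // ∀ s, irrPermAut.comp α s φ = φ} → _) Subtype.val_injective
    (fun φ => by simp) (fun φ => ((a φ * b φ : ℕ) : ZMod p)) (fun s φ => by
      have e1 := hinv χ hχi s φ
      have e2 := hinv ψ hψi s φ
      rw [ha, ha] at e1
      rw [hb, hb] at e2
      have e1' : a (irrPermAut (α s) φ) = a φ := by exact_mod_cast e1
      have e2' : b (irrPermAut (α s) φ) = b φ := by exact_mod_cast e2
      simp only [MonoidHom.comp_apply, e1', e2'])
  rw [← Nat.cast_sum, ← hsum] at h1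
  obtain ⟨φ, -, hφ⟩ := Finset.exists_ne_zero_of_sum_ne_zero
    (h1 ▸ fun h => hpk ((ZMod.natCast_eq_zero_iff k p).1 h))
  refine ⟨φ.1, φ.1.2, fun s => (irrPermAut_eq_iff _ _).1 (φ.2 s), b φ.1, fun h => hφ ?_, hb _⟩
  exact (ZMod.natCast_eq_zero_iff _ p).2 (h.mul_left _)

/-- Let N be a normal subgroup of the finite group G with the index of N a power of the prime p, and ϑ an irreducible character of N invariant under conjugation by G. Then there are a p-elementary subgroup E of G with E ⊔ N = ⊤ and an irreducible character φ of the subgroup E ⊓ N, invariant under conjugation by E, such that the inner product of the restriction of ϑ to E ⊓ N with φ is an integer not divisible by p. -/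
theorem result {G : Type*} [Group G] [Fintype G] (p : ℕ) (hp : p.Prime) (N : Subgroup G) [hN : N.Normal] (hind : ∃ k : ℕ, N.index = p ^ k) (ϑ : N → ℂ) (hϑ : Cfsg.IsIrrCharacter N ϑ) (hinv : ∀ (g : G) (n : N), ϑ ⟨g * n * g⁻¹, hN.conj_mem (n : G) n.2 g⟩ = ϑ n) : ∃ (E : Subgroup G) (φ : ↥(E ⊓ N) → ℂ), Cfsg.IsElementary p E ∧ E ⊔ N = ⊤ ∧ Cfsg.IsIrrCharacter ↥(E ⊓ N) φ ∧ (∀ (g : G) (hg : g ∈ E) (x : ↥(E ⊓ N)), φ ⟨g * x * g⁻¹, ⟨(E.mul_mem (E.mul_mem hg x.2.1) (E.inv_mem hg)), hN.conj_mem (x : G) x.2.2 g⟩⟩ = φ x) ∧ ∃ m : ℕ, ¬ p ∣ m ∧ (Nat.card ↥(E ⊓ N) : ℂ)⁻¹ * ∑ᶠ x : ↥(E ⊓ N), ϑ ⟨(x : G), x.2.2⟩ * conj (φ x) = (m : ℂ) := by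
  classical
  haveI := Fact.mk hp
  obtain ⟨k, hk⟩ := hind
  by_contra hcon
  obtain ⟨m, hm, hmem⟩ := exists_const_mem_indSpan (G := G) hp
  let Θ : G → ℂ := extendByZero N (fun n => ϑ n * conj (ϑ n))
  have hΘ : IsClassFunction G Θ := fun g x => by
    by_cases hg : g ∈ N
    · simp only [Θ]
      rw [extendByZero_of_mem N _ hg, extendByZero_of_mem N _ (hN.conj_mem g hg x),
        hinv x ⟨g, hg⟩]
    · simp only [Θ]
      rw [extendByZero_of_not_mem N _ hg, extendByZero_of_not_mem N _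
        (fun h => hg (by simpa [mul_assoc] using hN.conj_mem _ h x⁻¹))]
  let L : (G → ℂ) →+ ℂ := AddMonoidHom.mk' (fun f => (Nat.card N : ℂ)⁻¹ * ∑ g, f g * Θ g)
    (fun f f' => by simp [add_mul, Finset.sum_add_distrib, mul_add])
  have hN0 := card_ne_zero_complex N
  have hLm : L (fun _ => (m : ℂ)) = m := by
    have h1 := card_mul_classInner ϑ ϑ
    rw [hϑ.inner_self, mul_one] at h1
    simp only [L, AddMonoidHom.mk'_apply, Θ]
    rw [← Finset.mul_sum, sum_extendByZero, ← h1]
    field_simp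
  have key := indSpan_le (R := (AddSubgroup.zmultiples (p : ℂ)).comap L) (fun E hE ψ hψ => by
    change L (indFun E ψ) ∈ AddSubgroup.zmultiples (p : ℂ)
    let ιE : ↥(E ⊓ N) →* E := Subgroup.inclusion inf_le_left
    let ιN : ↥(E ⊓ N) →* N := Subgroup.inclusion inf_le_right
    have hc1 := hϑ.isCharacter.comp ιN
    have hc2 := (hψ.isCharacter.comp ιE).mul hc1
    obtain ⟨j, hj⟩ := hc2.exists_inner_eq_nat hc1
    have hL : L (indFun E ψ) = (E ⊔ N).index * j := by
      have h1 := sum_indFun_mul E ψ hΘ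
      have h2 : ∑ e : E, ψ e * Θ e = Nat.card ↥(E ⊓ N) * j := by
        rw [← hj, card_mul_classInner]
        symm
        refine Finset.sum_of_injOn ιE (Subgroup.inclusion_injective _).injOn (by simp) ?_ ?_
        · intro e _ he
          have : (e : G) ∉ N := fun h => he ⟨⟨e, e.2, h⟩, by simp, rfl⟩
          simp only [Θ]
          rw [extendByZero_of_not_mem N _ this, mul_zero]
        · intro d _
          simp only [Θ]
          rw [extendByZero_of_mem N _ (g := ((ιE d : E) : G)) d.2.2, Pi.mul_apply, mul_assoc]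
          rfl
      have h3 := Cfsg.Lib.Core.card_sup_mul_card_inf (H := E) (N := N)
        (by rw [Subgroup.normalizer_eq_top]; exact le_top)
      have h4 := (E ⊔ N).card_mul_index
      have h3' : (Nat.card ↥(E ⊔ N) : ℂ) * Nat.card ↥(E ⊓ N) = Nat.card E * Nat.card N := by
        exact_mod_cast h3
      have h4' : (Nat.card ↥(E ⊔ N) : ℂ) * (E ⊔ N).index = Nat.card G := by exact_mod_cast h4
      have := card_ne_zero_complex G
      have := card_ne_zero_complex E
      have := card_ne_zero_complex ↥(E ⊔ N)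
      rw [h2] at h1
      simp only [L, AddMonoidHom.mk'_apply]
      field_simp at h1 ⊢
      apply mul_left_cancel₀ (card_ne_zero_complex E)
      linear_combination h1 - (Nat.card ↥(E ⊓ N) * j) * h4' + ((E ⊔ N).index * j) * h3'
    rw [hL]
    suffices h : p ∣ (E ⊔ N).index * j by
      obtain ⟨c, hc⟩ := h
      refine ⟨c, ?_⟩
      have : ((E ⊔ N).index * j : ℂ) = p * c := by exact_mod_cast hc
      simp [this, mul_comm]
    by_cases htop : E ⊔ N = ⊤
    · refine Dvd.dvd.mul_left ?_ _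
      by_contra hpj
      apply hcon
      obtain ⟨P⟩ : Nonempty (Sylow p E) := inferInstance
      have hED : E ≤ Subgroup.normalizer ((E ⊓ N : Subgroup G) : Set G) :=
        le_normalizer_of_forall_conj_mem fun s hs g hg =>
          ⟨E.mul_mem (E.mul_mem hs hg.1) (E.inv_mem hs), hN.conj_mem g hg.2 s⟩
      have hϑi : ∀ (s : E) x, ϑ (ιN (conjAut hED s x)) = ϑ (ιN x) := fun s x => hinv s (ιN x)
      have hψi : ∀ (s : E) x, ψ (ιE (conjAut hED s x)) = ψ (ιE x) := fun s x =>
        hψ.isClassFunction (ιE x) s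
      obtain ⟨φ, hφ, hφi, m, hm, hm'⟩ := exists_fixed_constituent P.isPGroup'
        ((conjAut hED).comp (P : Subgroup E).subtype) hc2 hc1
        (fun s x => by simp only [Pi.mul_apply, MonoidHom.comp_apply, hϑi, hψi])
        (fun s x => hϑi _ x) hj hpj
      refine ⟨E, φ, hE, htop, hφ, fun g hg x => ?_, m, hm, ?_⟩
      · obtain ⟨i, -, hi⟩ := (Nat.dvd_prime_pow hp).1
          (hk ▸ Subgroup.relIndex_dvd_index_of_normal N E)
        have hsup := sup_sylow_eq_top_of_index (N.subgroupOf E) hi P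
        obtain ⟨d, hd, s, hs, e⟩ := Subgroup.mem_sup_of_normal_left.1
          (hsup ▸ Subgroup.mem_top (⟨g, hg⟩ : E))
        have e' : (d : G) * s = g := congrArg Subtype.val e
        rw [← hφi ⟨s, hs⟩ x, ← hφ.isClassFunction (((conjAut hED).comp (P : Subgroup E).subtype)
          ⟨s, hs⟩ x) (⟨d, d.2, hd⟩ : ↥(E ⊓ N))]
        congr 1
        apply Subtype.ext
        change g * x * g⁻¹ = d * (s * x * (s : G)⁻¹) * (d : G)⁻¹
        rw [← e']
        group
      · rw [finsum_eq_sum_of_fintype]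
        exact hm'
    · refine Dvd.dvd.mul_right ?_ _
      obtain ⟨i, -, hi⟩ := (Nat.dvd_prime_pow hp).1
        (hk ▸ Subgroup.index_dvd_of_le (le_sup_right : N ≤ E ⊔ N))
      rcases i with _ | i
      · exact absurd (Subgroup.index_eq_one.1 (by simpa using hi)) htop
      · exact Dvd.intro_left _ (by rw [hi, pow_succ])) hmem
  rw [AddSubgroup.mem_comap, hLm] at key
  obtain ⟨c, hc⟩ := key
  refine hm ⟨c, ?_⟩
  apply Int.cast_injective (α := ℂ)
  rw [← hc]
  simp [mul_comm]

end Cfsg.Agent.S0896
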