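import Cfsg.Statements.S0897
import Cfsg.Agent.S0896
import Cfsg.Agent.Lib.Clifford.Degree

set_option autoImplicit false
open Cfsg

namespace Cfsg.Agent.S0897

open Cfsg.Lib.Char Cfsg.Lib.Induce Cfsg.Lib.Clifford Subgroup
open scoped ComplexConjugate Pointwise

theorem ext_comm {A B : Type*} [Group A] [Group B] [Finite B] [IsMulCommutative B] (H : Subgroup B)
    (f : H →* A) (lam : A →* ℂˣ) : ∃ ν : B →* ℂˣ, ∀ h : H, ν h = lam (f h) := by
  letI : CommGroup B := { ‹Group B› with mul_comm := fun a b => mul_comm' a b }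
  haveI : NeZero (Monoid.exponent B : ℂ) := ⟨by exact_mod_cast Monoid.exponent_ne_zero_of_finite⟩
  obtain ⟨ν, h⟩ := MonoidHom.domRestrict_surjective ℂ H (lam.comp f)
  exact ⟨ν, fun x => DFunLike.congr_fun h x⟩

theorem ext_of_mult {G : Type*} [Group G] [Fintype G] {p : ℕ} (hp : p.Prime) (N : Subgroup G) [hN : N.Normal]
    [Fintype N] {k : ℕ} (hind : N.index = p ^ k) {ϑ : N → ℂ} (hϑ : IsIrrCharacter N ϑ)
    (hinv : ∀ (g : G) (n : N), ϑ ⟨g * n * g⁻¹, hN.conj_mem (n : G) n.2 g⟩ = ϑ n)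
    {Ψ : G → ℂ} (hΨ : IsCharacter G Ψ) {m : ℕ} (hm : ¬ p ∣ m) (h : classInner (fun n : N => Ψ n) ϑ = m) :
    ∃ χ : G → ℂ, IsIrrCharacter G χ ∧ ∀ n : N, χ n = ϑ n := by
  by_contra! H
  have key : ∃ j : ℕ, classInner (fun n : N => Ψ n) ϑ = (p * j : ℕ) := by
    refine hΨ.induction_on (P := fun Ψ : G → ℂ => ∃ j : ℕ, classInner (fun n : N => Ψ n) ϑ = (p * j : ℕ))
      ⟨0, by simp [classInner]⟩ ?_
    rintro χ φ hχ - ⟨j, hj⟩
    have e : (fun n : N => (χ + φ) n) = (fun n : N => χ n) + fun n : N => φ n := rfl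
    rw [e, classInner_add_left, hj]
    by_cases h0 : classInner (fun n : N => χ n) ϑ = 0
    · exact ⟨j, by rw [h0, zero_add]⟩
    obtain ⟨e, -, he, he'⟩ := exists_res_eq_smul_of_invariant N hχ hϑ h0 hinv
    obtain ⟨i, -, rfl⟩ := (Nat.dvd_prime_pow hp).1 (hind ▸ dvd_index_of_res_eq_smul N hχ hϑ he')
    rcases i with _ | i
    · obtain ⟨n, hn⟩ := H χ hχ
      exact absurd (by simpa using congrFun he' n) hn
    · exact ⟨p ^ i + j, by rw [he]; push_cast; ring⟩
  obtain ⟨j, hj⟩ := key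
  rw [h] at hj
  exact hm ⟨j, by exact_mod_cast hj⟩

/-- Let N be a normal subgroup of the finite group G with the index of N a power of the prime p, and P a Sylow p-subgroup of G such that P ⊓ N lies in the centre of P and every character of degree 1 of P ⊓ N is the restriction of a character of degree 1 of P. Then every irreducible character of N invariant under conjugation by G is the restriction of an irreducible character of G. -/
theorem result {G : Type*} [Group G] [Fintype G] (p : ℕ) [Fact p.Prime] (N : Subgroup G) [hN : N.Normal] (hind : ∃ k : ℕ, N.index = p ^ k) (P : Sylow p G) (hcent : ∀ x ∈ (P : Subgroup G) ⊓ N, ∀ y ∈ (P : Subgroup G), x * y = y * x) (hlin : ∀ lam : ↥((P : Subgroup G) ⊓ N) → ℂ, Cfsg.IsCharacter ↥((P : Subgroup G) ⊓ N) lam → lam 1 = 1 → ∃ μ : ↥(P : Subgroup G) → ℂ, Cfsg.IsCharacter ↥(P : Subgroup G) μ ∧ μ 1 = 1 ∧ ∀ x : ↥((P : Subgroup G) ⊓ N), μ ⟨(x : G), x.2.1⟩ = lam x) (ϑ : N → ℂ) (hϑ : Cfsg.IsIrrCharacter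 N ϑ) (hinv : ∀ (g : G) (n : N), ϑ ⟨g * n * g⁻¹, hN.conj_mem (n : G) n.2 g⟩ = ϑ n) : ∃ χ : G → ℂ, Cfsg.IsIrrCharacter G χ ∧ ∀ n : N, χ n = ϑ n := by
  classical
  have hp : p.Prime := Fact.out
  obtain ⟨E, φ, hE, htop, hφ, -, m, hm, hm'⟩ := S0896.result p hp N hind ϑ hϑ hinv
  obtain ⟨k₀, hk₀⟩ := hind
  obtain ⟨C, hC, -, hcop, k, hk⟩ := isElementary_iff.1 hE
  haveI := normal_of_le_center' hC
  have hmn : (Nat.card C).Coprime (p ^ k) := hcop.pow_right k
  have hexp : ∀ x : E, orderOf x ∣ Nat.card C * p ^ k := fun x => by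
    rw [← hk, C.card_mul_index]; exact orderOf_dvd_natCard x
  have hexp' : ∀ x : E, orderOf x ∣ p ^ k * Nat.card C := fun x => mul_comm (p ^ k) _ ▸ hexp x
  obtain ⟨a, ha1, ha0⟩ := exists_modEq_one_and_dvd hmn
  obtain ⟨b, hb1, hb0⟩ := exists_modEq_one_and_dvd hmn.symm
  let α := hE.powHom hp hmn hexp ha1 ha0
  let β := hE.powHom hp hmn.symm hexp' hb1 hb0
  have hab : ∀ x : E, α x * β x = x := fun x => pow_mul_pow_eq_self hmn ha1 ha0 hb1 hb0 (hexp x)
  have hαo : ∀ x : E, (orderOf (α x)).Coprime p := fun x =>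
    hcop.coprime_dvd_left (orderOf_pow_dvd_of_dvd ha0 (hexp x))
  have hαC : ∀ x : E, α x ∈ center E := fun x => hC (mem_of_coprime_orderOf C hk (hαo x))
  have hαN : ∀ x : E, (α x : G) ∈ N := fun x =>
    mem_of_coprime_orderOf N hk₀ (by rw [Subgroup.orderOf_coe]; exact hαo x)
  have hQ : IsPGroup p (E.subtype.comp β).range := by
    rintro ⟨_, x, rfl⟩
    refine ⟨k, Subtype.ext ?_⟩
    have := orderOf_dvd_iff_pow_eq_one.1 (orderOf_pow_dvd_of_dvd hb0 (hexp' x))
    exact congrArg (Subtype.val : E → G) this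
  obtain ⟨R, hR⟩ := hQ.exists_le_sylow
  obtain ⟨g, hg⟩ := MulAction.exists_smul_eq G R P
  have hP : ∀ x : E, g * β x * g⁻¹ ∈ (P : Subgroup G) := fun x => by
    rw [← hg, Sylow.coe_subgroup_smul]
    exact smul_mem_pointwise_smul _ (MulAut.conj g) _ (hR ⟨x, rfl⟩)
  have hβN : ∀ x : E, (x : G) ∈ N → (β x : G) ∈ N := fun x hx => N.pow_mem hx b
  haveI : IsMulCommutative ↥(E ⊓ N) := ⟨⟨fun x y => Subtype.ext (by
    let x' : E := ⟨x, x.2.1⟩
    let y' : E := ⟨y, y.2.1⟩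
    have h1 := hcent _ ⟨hP x', hN.conj_mem _ (hβN x' x.2.2) g⟩ _ (hP y')
    have h2 : Commute (β x') (β y') := Subtype.ext (by
      have : (β x' : G) * β y' = g⁻¹ * (g * β x' * g⁻¹ * (g * β y' * g⁻¹)) * g := by group
      rw [Subgroup.coe_mul, Subgroup.coe_mul, this, h1]; group)
    have h3 : Commute x' y' := by
      rw [← hab x', ← hab y']
      exact Commute.mul_left (mem_center_iff.1 (hαC x') _).symm
        (Commute.mul_right (mem_center_iff.1 (hαC y') _) h2)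
    exact congrArg (Subtype.val : E → G) h3)⟩⟩
  haveI : IsMulCommutative ↥((P : Subgroup G) ⊓ N) := ⟨⟨fun x y => Subtype.ext (hcent _ x.2 _ y.2.1)⟩⟩
  obtain ⟨lam, rfl⟩ := hφ.exists_hom_of_comm
  let c : ↥((P : Subgroup G) ⊓ N) →* G := (MulAut.conj g⁻¹).toMonoidHom.comp (Subgroup.subtype _)
  have hc : ∀ u, c u = g⁻¹ * u * g := fun u => by simp [c]
  obtain ⟨ν, hν⟩ := ext_comm (E.comap c) ((c.comp (Subgroup.subtype _)).codRestrict (E ⊓ N) fun u =>
    ⟨u.2, by simpa [hc] using hN.conj_mem _ u.1.2.2 g⁻¹⟩) lam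
  obtain ⟨μ, hμ, hμ1, hμν⟩ := hlin _ (isCharacter_hom ν) (by simp)
  let f : E →* (P : Subgroup G) :=
    ((MulAut.conj g).toMonoidHom.comp (E.subtype.comp β)).codRestrict _ fun x => hP x
  let α' : E →* ↥(E ⊓ N) := (E.subtype.comp α).codRestrict _ fun x => ⟨(α x).2, hαN x⟩
  have hψ : IsCharacter E ((fun x => (lam (α' x) : ℂ)) * fun x => μ (f x)) :=
    ((isCharacter_hom lam).comp α').mul (hμ.comp f)
  set ψ : E → ℂ := (fun x => (lam (α' x) : ℂ)) * fun x => μ (f x) with hψd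
  have hψr : ∀ d : ↥(E ⊓ N), ψ ⟨d, d.2.1⟩ = lam d := fun d => by
    let x : E := ⟨d, d.2.1⟩
    let u : ↥((P : Subgroup G) ⊓ N) := ⟨g * β x * g⁻¹, hP x, hN.conj_mem _ (hβN x d.2.2) g⟩
    have hu : c u = β x := by rw [hc]; simp only [u]; group
    have h1 := hν ⟨u, show c u ∈ E from hu ▸ (β x).2⟩
    have h2 : μ (f x) = ν u := hμν u
    change (lam (α' x) : ℂ) * μ (f x) = _
    rw [h2, h1, ← Units.val_mul, ← map_mul]
    congr 2
    exact Subtype.ext (by
      change (α x : G) * c u = d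
      rw [hu]
      exact congrArg Subtype.val (hab x))
  refine ext_of_mult hp N hk₀ hϑ hinv (isCharacter_indFun E hψ) hm ?_
  rw [← frobenius_reciprocity' N ϑ (isClassFunction_indFun E ψ),
    frobenius_reciprocity E ψ (isClassFunction_indFun N ϑ)]
  have h2 : ∑ e : E, ψ e * conj (indFun N ϑ e) =
      N.index * ∑ d : ↥(E ⊓ N), (lam d : ℂ) * conj (ϑ ⟨d, d.2.2⟩) := by
    rw [Finset.mul_sum]
    symm
    refine Finset.sum_of_injOn (inclusion inf_le_left) (inclusion_injective _).injOn (by simp) ?_ ?_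
    · intro e _ he
      rw [indFun_normal_of_not_mem N ϑ fun h => he ⟨⟨e, e.2, h⟩, by simp, rfl⟩, map_zero, mul_zero]
    · intro d _
      have := indFun_normal_apply_of_invariant N ϑ hinv ⟨d, d.2.2⟩
      erw [this, hψr d]
      rw [map_mul, map_natCast]
      ring
  have h3 : ∑ d : ↥(E ⊓ N), (lam d : ℂ) * conj (ϑ ⟨d, d.2.2⟩) = Nat.card ↥(E ⊓ N) * m := by
    rw [finsum_eq_sum_of_fintype] at hm'
    have := congrArg conj hm'
    rw [map_mul, map_inv₀, map_natCast, map_natCast, map_sum] at this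
    rw [← this, mul_inv_cancel_left₀ (card_ne_zero_complex _)]
    exact Finset.sum_congr rfl fun d _ => by rw [map_mul, Complex.conj_conj, mul_comm]
  have h4 := Cfsg.Lib.Core.card_sup_mul_card_inf (H := E) (N := N)
    (by rw [Subgroup.normalizer_eq_top]; exact le_top)
  rw [htop, card_top, ← N.card_mul_index, mul_assoc, mul_comm (Nat.card E)] at h4
  have h5 : (N.index : ℂ) * Nat.card ↥(E ⊓ N) = Nat.card E := by
    exact_mod_cast Nat.eq_of_mul_eq_mul_left Nat.card_pos h4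
  rw [classInner_def, h2, h3, ← mul_assoc (N.index : ℂ), h5, inv_mul_cancel_left₀ (card_ne_zero_complex _)]

end Cfsg.Agent.S0897
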