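import Cfsg.Statements.S0900
import Cfsg.Agent.Lib.Clifford.Gallagher

set_option autoImplicit false
open Cfsg

namespace Cfsg.Agent.S0900

/-- Let N be a normal subgroup of the finite group G, χ an irreducible character of G and ϑ an irreducible character of N having nonzero inner product with the restriction of χ. Consider: (a) the restriction of χ to N is e • ϑ for a natural number e with e ^ 2 equal to the index of N; (b) χ vanishes outside N and ϑ is invariant under conjugation by G; (c) ϑ is invariant and every irreducible character of G having nonzero inner product with the function induced from ϑ equals χ. Then (a) ↔ (b) and (a) ↔ (c). -/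
theorem result {G : Type*} [Group G] [Fintype G] (N : Subgroup G) [hN : N.Normal] [Fintype N] (χ : G → ℂ) (hχ : Cfsg.IsIrrCharacter G χ) (ϑ : N → ℂ) (hϑ : Cfsg.IsIrrCharacter N ϑ) (hcon : Cfsg.classInner (fun n : N => χ n) ϑ ≠ 0) : ((∃ e : ℕ, (fun n : N => χ n) = (e : ℂ) • ϑ ∧ e ^ 2 = N.index) ↔ ((∀ g : G, g ∉ N → χ g = 0) ∧ ∀ (g : G) (n : N), ϑ ⟨g * n * g⁻¹, hN.conj_mem (n : G) n.2 g⟩ = ϑ n)) ∧ ((∃ e : ℕ, (fun n : N => χ n) = (e : ℂ) • ϑ ∧ e ^ 2 = N.index) ↔ (∀ (g : G) (n : N), ϑ ⟨g * n * g⁻¹, hN.conj_mem (n : G) n.2 g⟩ = ϑ n ∧ ∀ ψ : G → ℂ, Cfsg.IsIrrCharacter G ψ → Cfsg.classInner (Cfsg.indFun N ϑ) ψ ≠ 0 → ψ = χ)) := by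
  have hcf := Cfsg.Lib.Char.Cfsg.IsIrrCharacter.isClassFunction hχ
  have hne : ∀ e : ℕ, e ^ 2 = N.index → (e : ℂ) ≠ 0 := fun e he h0 => by
    rw [Nat.cast_eq_zero.1 h0] at he
    exact Subgroup.index_ne_zero_of_finite (H := N) (by simpa using he.symm)
  have hrec : ∀ ψ : G → ℂ, Cfsg.IsIrrCharacter G ψ →
      (Cfsg.classInner (Cfsg.indFun N ϑ) ψ ≠ 0 ↔ Cfsg.classInner (fun n : N => ψ n) ϑ ≠ 0) := by
    intro ψ hψ
    rw [Cfsg.Lib.Induce.frobenius_reciprocity N ϑ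
      (Cfsg.Lib.Char.Cfsg.IsIrrCharacter.isClassFunction hψ), Ne, Ne,
      Cfsg.Lib.Char.classInner_eq_zero_comm]
  refine ⟨⟨?_, ?_⟩, ⟨?_, ?_⟩⟩
  · rintro ⟨e, h1, h2⟩
    exact ⟨(Cfsg.Lib.Clifford.sq_eq_index_iff_of_res_eq_smul N hχ hϑ h1).1 h2,
      Cfsg.Lib.Clifford.invariant_of_res_eq_smul N hcf (hne e h2) h1⟩
  · rintro ⟨h1, h2⟩
    obtain ⟨e, -, -, he⟩ := Cfsg.Lib.Clifford.exists_res_eq_smul_of_invariant N hχ hϑ hcon h2
    exact ⟨e, he, (Cfsg.Lib.Clifford.sq_eq_index_iff_of_res_eq_smul N hχ hϑ he).2 h1⟩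
  · rintro ⟨e, h1, h2⟩ g n
    exact ⟨Cfsg.Lib.Clifford.invariant_of_res_eq_smul N hcf (hne e h2) h1 g n, fun ψ hψ h =>
      (Cfsg.Lib.Clifford.sq_eq_index_iff_unique N hχ hϑ h1).1 h2 ψ hψ ((hrec ψ hψ).1 h)⟩
  · intro h
    obtain ⟨e, -, -, he⟩ := Cfsg.Lib.Clifford.exists_res_eq_smul_of_invariant N hχ hϑ hcon
      (fun g n => (h g n).1)
    exact ⟨e, he, (Cfsg.Lib.Clifford.sq_eq_index_iff_unique N hχ hϑ he).2
      fun ψ hψ h1 => (h 1 1).2 ψ hψ ((hrec ψ hψ).2 h1)⟩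

end Cfsg.Agent.S0900
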