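import Cfsg.Statements.S0901
import Cfsg.Agent.Lib.Block.Roots

set_option autoImplicit false
open Cfsg

namespace Cfsg.Agent.S0901

open Cfsg.Lib.Block

/-- Let M be a maximal ideal of the ring of algebraic integers containing the prime p, and let U be the set of complex roots of unity of order prime to p. Then reduction modulo M is injective on U, and every algebraic integer not in M is congruent modulo M to an element of U (so U maps bijectively onto the nonzero residues). -/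
theorem result (p : ℕ) [Fact p.Prime] (M : Ideal Cfsg.AlgInt) (hM : Cfsg.IsPModular p M) : (∀ ε₁ ε₂ : Cfsg.AlgInt, (∃ m : ℕ, ¬ p ∣ m ∧ (ε₁ : ℂ) ^ m = 1) → (∃ m : ℕ, ¬ p ∣ m ∧ (ε₂ : ℂ) ^ m = 1) → ε₁ - ε₂ ∈ M → ε₁ = ε₂) ∧ (∀ a : Cfsg.AlgInt, a ∉ M → ∃ ε : Cfsg.AlgInt, (∃ m : ℕ, ¬ p ∣ m ∧ (ε : ℂ) ^ m = 1) ∧ a - ε ∈ M) := by
  have : Modular p M := ⟨hM⟩
  refine ⟨fun a b ⟨m, hm, ha⟩ ⟨n, hn, hb⟩ h => Subtype.ext (eq_of_red_eq (M := M) hm hn ha hb ?_),
    fun a ha => ?_⟩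
  · rw [← sub_eq_zero, ← red_sub (coe_mem_locRing a) (coe_mem_locRing b)]
    exact (red_coe_eq_zero_iff (a - b)).2 h
  · obtain ⟨m, hm, h⟩ := exists_red_pow_eq_one a (fun h => ha ((red_coe_eq_zero_iff a).1 h))
    obtain ⟨z, hz, h1⟩ := exists_root_red_eq (ne_zero_of_not_dvd hm) h
    have hi : IsIntegral ℤ z := IsIntegral.of_pow (Nat.pos_of_ne_zero (ne_zero_of_not_dvd hm))
      (by rw [hz]; exact isIntegral_one)
    refine ⟨⟨z, hi⟩, ⟨m, hm, hz⟩, (red_coe_eq_zero_iff _).1 ?_⟩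
    change red M ((a : ℂ) - z) = 0
    rw [red_sub (coe_mem_locRing a) (mem_locRing_of_isIntegral hi), h1, sub_self]

end Cfsg.Agent.S0901
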