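import Cfsg.Statements.S0902
import Cfsg.Agent.Lib.Block.DefectOrder

set_option autoImplicit false
open Cfsg

namespace Cfsg.Agent.S0902

open Cfsg.Lib.Block Cfsg.Lib.Char MonoidAlgebra

/-- If two irreducible characters of a finite group lie in the same block relative to one maximal ideal M of the algebraic integers containing the prime p, then at every element the difference of their central characters is an algebraic integer lying in every maximal ideal containing p; in particular they lie in the same block relative to any such ideal. -/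
theorem result {G : Type*} [Group G] [Finite G] (p : ℕ) [Fact p.Prime] (M : Ideal Cfsg.AlgInt) (hM : Cfsg.IsPModular p M) (χ ψ : Cfsg.IrrCharacter G) (h : Cfsg.SameBlock M (χ : G → ℂ) (ψ : G → ℂ)) (M' : Ideal Cfsg.AlgInt) (hM' : Cfsg.IsPModular p M') (g : G) : ∃ r : Cfsg.AlgInt, r ∈ M' ∧ (r : ℂ) = Cfsg.centralChar (χ : G → ℂ) g - Cfsg.centralChar (ψ : G → ℂ) g := by
  have key : SameBlock M' (χ : G → ℂ) (ψ : G → ℂ) := by
    have : Modular p M := ⟨hM⟩
    have hB := isPBlock_blockOf (M := M) χ
    obtain ⟨θ, hθ, h0⟩ := exists_height_zero p hB.nonempty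
    have h1 := hB.ev_zreg_ne_zero hθ h0 (mem_blockOf_self χ)
    have h2 := hB.ev_zreg_ne_zero hθ h0 (ψ := ψ) h
    have : Modular p M' := ⟨hM'⟩
    exact sameBlock_trans (sameBlock_symm (sameBlock_of_ev_zreg_ne_zero h1))
      (sameBlock_of_ev_zreg_ne_zero h2)
  have : Modular p M' := ⟨hM'⟩
  refine ⟨⟨_, (isIntegral_centralChar χ.2 g).sub (isIntegral_centralChar ψ.2 g)⟩, ?_, rfl⟩
  rw [← memLocalIdeal_coe_iff]
  exact key g

end Cfsg.Agent.S0902
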