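import Cfsg.Statements.S0903
import Cfsg.Agent.Lib.Block.BrauerHom
import Cfsg.Agent.Lib.Char.Basic

set_option autoImplicit false
open Cfsg

namespace Cfsg.Agent.S0903

open Cfsg.Lib.Block Cfsg.Lib.Char MonoidAlgebra

theorem aux {G : Type*} [Group G] [Finite G] (R : Type*) [CommRing R] (X Y : Set G) (c : G) :
    (ssum R X * ssum R Y).coeff c = (Nat.card {xy : G × G // xy.1 ∈ X ∧ xy.2 ∈ Y ∧ xy.1 * xy.2 = c} : R) := by
  classical
  have := Fintype.ofFinite G
  rw [coeff_mul_left, Nat.card_congr (β := {x : G // x ∈ X ∧ x⁻¹ * c ∈ Y})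
    { toFun := fun xy => ⟨xy.1.1, xy.2.1, (inv_mul_eq_iff_eq_mul.2 xy.2.2.2.symm).symm ▸ xy.2.2.1⟩
      invFun := fun x => ⟨(x.1, x.1⁻¹ * c), x.2.1, x.2.2, mul_inv_cancel_left _ _⟩
      left_inv := fun xy => Subtype.ext (Prod.ext rfl (inv_mul_eq_iff_eq_mul.2 xy.2.2.2.symm))
      right_inv := fun x => rfl }, Nat.card_eq_fintype_card, Fintype.card_subtype,
    Finset.card_filter, Nat.cast_sum]
  refine Finset.sum_congr rfl fun x _ => ?_
  rw [coeff_ssum, coeff_ssum]
  by_cases h1 : x ∈ X <;> by_cases h2 : x⁻¹ * c ∈ Y <;> simp [h1, h2]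

/-- Let P be a p-subgroup of the finite group G, let c centralize P and let g, h ∈ G. The number of pairs (x, y) with x conjugate to g, y conjugate to h and x * y = c is congruent modulo p to the number of such pairs in which x and y both centralize P. (This is why the Brauer map on class sums is multiplicative.) -/
theorem result {G : Type*} [Group G] [Finite G] (p : ℕ) [Fact p.Prime] (P : Subgroup G) (hP : IsPGroup p P) (c : G) (hc : c ∈ Subgroup.centralizer (P : Set G)) (g h : G) : Nat.card {xy : G × G // IsConj g xy.1 ∧ IsConj h xy.2 ∧ xy.1 * xy.2 = c} ≡ Nat.card {xy : G × G // IsConj g xy.1 ∧ IsConj h xy.2 ∧ xy.1 * xy.2 = c ∧ xy.1 ∈ Subgroup.centralizer (P : Set G) ∧ xy.2 ∈ Subgroup.centralizer (P : Set G)} [MOD p] := by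
  have h1 := congrArg (fun a => a.coeff c) (br_mul (R := ZMod p) hP
    (mem_fix_of_top (cls_mem_fix g)) (mem_fix_of_top (cls_mem_fix h)))
  simp only [coeff_trunc_of_mem _ hc, cls, trunc_ssum, aux] at h1
  rw [← ZMod.natCast_eq_natCast_iff]
  refine h1.trans ?_
  congr 1
  refine Nat.card_congr (Equiv.subtypeEquivRight fun xy => ?_)
  simp only [Set.mem_inter_iff, Set.mem_ofPred_eq, SetLike.mem_coe]
  tauto

end Cfsg.Agent.S0903
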