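import Cfsg.Statements.S0905
import Cfsg.Agent.Lib.Block.Radical
import Cfsg.Agent.Lib.Core.PCore
import Cfsg.Agent.Lib.Char.Basic

set_option autoImplicit false
open Cfsg

namespace Cfsg.Agent.S0905

open Cfsg.Lib.Block Cfsg.Lib.Char MonoidAlgebra

/-- Let F be a field of characteristic p and let g be an element of the finite group G no conjugate of which centralizes O_p(G). Then the class sum of g is a nilpotent element of the group algebra F[G]. -/
theorem result {G : Type*} [Group G] [Finite G] (p : ℕ) [Fact p.Prime] (F : Type*) [Field F] [CharP F p] (g : G) (hg : ∀ x : G, IsConj g x → x ∉ Subgroup.centralizer (Cfsg.pCore p G : Set G)) : IsNilpotent (∑ᶠ x ∈ ConjClasses.carrier (ConjClasses.mk g), MonoidAlgebra.single x (1 : F) : MonoidAlgebra F G) := by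
  classical
  have := Fintype.ofFinite G
  have h1 : (∑ᶠ x ∈ ConjClasses.carrier (ConjClasses.mk g), MonoidAlgebra.single x (1 : F) :
      MonoidAlgebra F G) = cls F g := by
    rw [cls, ssum_eq_sum, finsum_mem_eq_finite_toFinset_sum _ (Set.toFinite _)]
    refine Finset.sum_congr ?_ fun _ _ => rfl
    ext x
    simp only [Set.Finite.mem_toFinset, ConjClasses.mem_carrier_iff_mk_eq,
      ConjClasses.mk_eq_mk_iff_isConj, Finset.mem_filter, Finset.mem_univ, true_and,
      Set.mem_ofPred_eq]
    exact isConj_comm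
  rw [h1]
  refine isNilpotent_of_br_eq_zero (Cfsg.Lib.Core.pCore_isPGroup p G)
    (mem_fix_of_top (cls_mem_fix g)) ?_
  by_contra h
  obtain ⟨c, hc, hc'⟩ := br_cls_ne_zero_iff.1 h
  exact hg c hc hc'

end Cfsg.Agent.S0905
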