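import Cfsg.Statements.S0911
import Cfsg.Agent.Lib.Block.Defect

set_option autoImplicit false
open Cfsg

namespace Cfsg.Agent.S0911

open Cfsg.Lib.Block Cfsg.Lib.Char MonoidAlgebra

open Cfsg.Lib.Transfer

/-- The min–max Theorem for defect classes. Let B be a block of the finite group G relative to a maximal ideal M of the algebraic integers containing the prime p, let g represent a defect class of B and let D be a Sylow p-subgroup of the centralizer of g (viewed in G). For any h: (a) if the idempotent coefficient of B at h is a local integer outside the local ideal, then some conjugate of D contains a Sylow p-subgroup of the centralizer of h; (b) if the central character of some member of B at h is outside the local ideal, then some conjugate of D is contained in a Sylow p-subgroup of the centralizer of h. -/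
theorem result {G : Type*} [Group G] [Finite G] (p : ℕ) [Fact p.Prime] (M : Ideal Cfsg.AlgInt) (hM : Cfsg.IsPModular p M) (B : Set (Cfsg.IrrCharacter G)) (hB : Cfsg.IsPBlock M B) (g : G) (hg : Cfsg.IsDefectClass M B g) (D : Sylow p (Subgroup.centralizer ({g} : Set G))) (h : G) : (Cfsg.MemLocalRing M (Cfsg.blockCoeff B h) → ¬ Cfsg.MemLocalIdeal M (Cfsg.blockCoeff B h) → ∃ (x : G) (Q : Sylow p (Subgroup.centralizer ({h} : Set G))), (Q : Subgroup (Subgroup.centralizer ({h} : Set G))).map (Subgroup.centralizer ({h} : Set G)).subtype ≤ ((D : Subgroup (Subgroup.centralizer ({g} : Set G))).map (Subgroup.centralizer ({g} : Set G)).subtype).map (MulAut.conj x).toMonoidHom) ∧ ((∃ χ ∈ B, ¬ Cfsg.MemLocalIdeal M (Cfsg.centralChar (χ : G → ℂ) h)) → ∃ (x : G) (Q : Sylow p (Subgroup.centralizer ({h} : Set G))), ((D : Subgroup (Subgroup.centralizer ({g} : Set G))).map (Subgroup.centralizer ({g} : Set G)).subtype).map (MulAut.conj x).toMonoidHom ≤ (Q : Subgroup (Subgroup.centralizer ({h} : Set G))).map (Subgroup.centralizer ({h} : Set G)).subtype)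 := by
  have : Modular p M := ⟨hM⟩
  have hD : IsDefectGroup p M B _ := ⟨g, hg, D, rfl⟩
  refine ⟨fun h1 h2 => ?_, fun ⟨χ, hχ, h1⟩ => ?_⟩
  · obtain ⟨Q⟩ : Nonempty (Sylow p (Subgroup.centralizer ({h} : Set G))) := inferInstance
    obtain ⟨x, hx⟩ := hB.exists_conj_le_of_coeff hD (h := h)
      (by rwa [coeff_eblk, Ne, red_eq_zero_iff h1]) (Q.isPGroup'.map _) (Subgroup.map_subtype_le _)
    exact ⟨x⁻¹, Q, conj_le_iff_le_inv_conj.1 hx⟩
  · obtain ⟨c, hc, hcD⟩ := hB.exists_isConj_centralizes_defectGroup hD hχ (g := h)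
      (by rwa [lam_cls χ.2, Ne, red_eq_zero_iff (centralChar_mem χ.2 h)])
    obtain ⟨Q⟩ : Nonempty (Sylow p (Subgroup.centralizer ({h} : Set G))) := inferInstance
    obtain ⟨x, hx, -⟩ := exists_conj_le_of_isConj hc hD.isPGroup hcD (not_dvd_relIndex_map_sylow Q)
    exact ⟨x, Q, hx⟩

end Cfsg.Agent.S0911
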