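import Cfsg.Statements.S0916
import Cfsg.Agent.Lib.Block.Induced

set_option autoImplicit false
open Cfsg

namespace Cfsg.Agent.S0916

open Cfsg.Lib.Block Cfsg.Lib.Char MonoidAlgebra

open Cfsg.Lib.Transfer

/-- Let P be a p-subgroup of the finite group G, C its centralizer and N its normalizer. Say that a conjugacy class (of G, or of N) has defect group P when P is a Sylow p-subgroup of the centralizer (in G, respectively in N) of some element of the class. Then: (i) if the class of g in G has defect group P, the elements of that class lying in C form a single N-class, again with defect group P; (ii) every N-class with defect group P arises this way from exactly one G-class with defect group P. -/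
theorem result {G : Type*} [Group G] [Finite G] (p : ℕ) [Fact p.Prime] (P : Subgroup G) (hP : IsPGroup p P) : (∀ g : G, (∃ S : Sylow p (Subgroup.centralizer ({g} : Set G)), (S : Subgroup (Subgroup.centralizer ({g} : Set G))).map (Subgroup.centralizer ({g} : Set G)).subtype = P) → (∃ c : G, IsConj g c ∧ c ∈ Subgroup.centralizer (P : Set G)) ∧ (∀ c₁ c₂ : G, IsConj g c₁ → IsConj g c₂ → c₁ ∈ Subgroup.centralizer (P : Set G) → c₂ ∈ Subgroup.centralizer (P : Set G) → ∃ n ∈ Subgroup.normalizer (P : Set G), n * c₁ * n⁻¹ = c₂)) ∧ (∀ c : G, c ∈ Subgroup.centralizer (P : Set G) → (∃ S : Sylow p (Subgroup.centralizer ({c} : Set G) ⊓ Subgroup.normalizer (P : Set G) : Subgroup G), (S : Subgroup ↥(Subgroup.centralizer ({c} : Set G) ⊓ Subgroup.normalizer (P : Set G))).map (Subgroup.centralizer ({c} : Set G) ⊓ Subgroup.normalizer (P : Set G)).subtype = P) → ∃ S : Sylow p (Subgroup.centralizer ({c} : Set G)), (S : Subgroup (Subgroup.centralizer ({c} : Set G))).map (Subgroup.centralizer ({c} : Set G)).subtype = P) := by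
  refine ⟨fun g hg => ?_, fun c hc h => ?_⟩
  · obtain ⟨h1, -, h3⟩ := exists_sylow_map_eq_iff.1 hg
    refine ⟨⟨g, IsConj.refl g, le_centralizer_singleton_iff.1 h1⟩, fun c₁ c₂ h4 h5 h6 h7 => ?_⟩
    obtain ⟨n, hn, e⟩ := exists_normalizer_conj hP h4 h6 h3
    obtain ⟨m, hm, e'⟩ := exists_normalizer_conj hP h5 h7 h3
    refine ⟨m⁻¹ * n, mul_mem (inv_mem hm) hn, ?_⟩
    calc m⁻¹ * n * c₁ * (m⁻¹ * n)⁻¹ = m⁻¹ * (n * c₁ * n⁻¹) * m := by group
      _ = c₂ := by rw [e, ← e']; group
  · obtain ⟨h1, -, h3⟩ := exists_sylow_map_eq_iff.1 h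
    have h4 := le_centralizer_singleton_iff.2 hc
    exact exists_sylow_map_eq_iff.2 ⟨h4, hP, not_dvd_relIndex_of_maximal_normalizer h4 hP
      fun Q hQ a b c => (eq_of_not_dvd_relIndex_of_le h3 hQ (le_inf b c) a).ge⟩

end Cfsg.Agent.S0916
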