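import Cfsg.Statements.S0918
import Cfsg.Agent.Lib.Block.Induced

set_option autoImplicit false
open Cfsg

namespace Cfsg.Agent.S0918

open Cfsg.Lib.Block Cfsg.Lib.Char MonoidAlgebra

/-- Let P be a p-subgroup of the finite group G and H a subgroup with P·C_G(P) ≤ H ≤ N_G(P); let b be a block of H and B a block of G relative to a maximal ideal M of the algebraic integers containing p. Then b induces B if and only if, for every g ∈ G, every ξ ∈ b and every χ ∈ B, the central character of χ at g is congruent modulo the local ideal at M to the sum of ξ h / ξ 1 over the elements h of H conjugate in G to g and centralizing P. -/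
theorem result {G : Type*} [Group G] [Finite G] (p : ℕ) [Fact p.Prime] (M : Ideal Cfsg.AlgInt) (hM : Cfsg.IsPModular p M) (P H : Subgroup G) (hP : IsPGroup p P) (hPH : P ≤ H) (hCH : Subgroup.centralizer (P : Set G) ≤ H) (hHN : H ≤ Subgroup.normalizer (P : Set G)) (b : Set (Cfsg.IrrCharacter H)) (hb : Cfsg.IsPBlock M b) (B : Set (Cfsg.IrrCharacter G)) (hB : Cfsg.IsPBlock M B) : Cfsg.IsInducedBlock M H b B ↔ ∀ ξ ∈ b, ∀ χ ∈ B, ∀ g : G, Cfsg.MemLocalIdeal M (Cfsg.brauerCentralChar P H (ξ : H → ℂ) g - Cfsg.centralChar (χ : G → ℂ) g) := by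
  have : Modular p M := ⟨hM⟩
  have key : ∀ (ξ : IrrCharacter H) (χ : IrrCharacter G) (g : G),
      MemLocalIdeal M (brauerCentralChar P H (ξ : H → ℂ) g - centralChar (χ : G → ℂ) g) ↔
      MemLocalIdeal M (inducedCentralChar H (ξ : H → ℂ) g - centralChar (χ : G → ℂ) g) := by
    intro ξ χ g
    have h1 : br P (cls ℂ g) ∈ fix ℂ H.subtype.range := by
      rw [Subgroup.range_subtype]; exact br_mem_fix hHN (mem_fix_of_top (cls_mem_fix g))
    have h2 : br P (cls ℂ g) ∈ SG G M := trunc_mem_SG _ (cls_mem_SG g)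
    rw [memLocalIdeal_sub_iff (inducedCentralChar_mem ξ.2 g) (centralChar_mem χ.2 g),
      brauerCentralChar_eq, memLocalIdeal_sub_iff
        (omega_mem ξ.2 (res_mem_fix_top _ h1) (res_mem_SG _ h2)) (centralChar_mem χ.2 g),
      ← lam_res_redA _ ξ.2 h1 h2, redA_trunc, redA_cls, red_inducedCentralChar ξ.2,
      lam_res_br hP hPH hHN ξ.2 (mem_fix_of_top (cls_mem_fix g))]
  simp only [key]
  exact ⟨fun h => h.2.2, fun h => ⟨hb, hB, h⟩⟩

end Cfsg.Agent.S0918
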