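import Cfsg.Statements.S0935
import Cfsg.Agent.Lib.Block.DefectOrder

set_option autoImplicit false
open Cfsg

namespace Cfsg.Agent.S0935

open Cfsg.Lib.Block Cfsg.Lib.Char MonoidAlgebra

/-- Let H be a subgroup of the finite group G and χ an irreducible character of G whose restriction to H is irreducible; fix a maximal ideal M of the algebraic integers containing the prime p and suppose χ and its restriction have height zero in their blocks B and b. If e is a block of H whose induced block is defined, then e induces B if and only if e = b. -/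
theorem result {G : Type*} [Group G] [Finite G] (p : ℕ) [Fact p.Prime] (M : Ideal Cfsg.AlgInt) (hM : Cfsg.IsPModular p M) (H : Subgroup G) (χ : Cfsg.IrrCharacter G) (hres : Cfsg.IsIrrCharacter H (fun h : H => (χ : G → ℂ) h)) (hχ0 : Cfsg.blockHeight p (Cfsg.blockOf M (χ : G → ℂ)) (χ : G → ℂ) = 0) (hψ0 : Cfsg.blockHeight p (Cfsg.blockOf M (fun h : H => (χ : G → ℂ) h)) (fun h : H => (χ : G → ℂ) h) = 0) (e : Set (Cfsg.IrrCharacter H)) (he : Cfsg.InducedBlockDefined M H e) : Cfsg.IsInducedBlock M H e (Cfsg.blockOf M (χ : G → ℂ)) ↔ e = Cfsg.blockOf M (fun h : H => (χ : G → ℂ) h) := by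
  have : Modular p M := ⟨hM⟩
  obtain ⟨B, hB⟩ := he
  obtain ⟨ξ, hξ⟩ := hB.1.nonempty
  obtain ⟨θ, hθ⟩ := hB.2.1.nonempty
  have h1 := hB.lam_zbar hξ hθ χ.2.isClassFunction
  have h2 := (isPBlock_blockOf (M := M) χ).mem_iff_lam_zbar (ψ := θ) (mem_blockOf_self χ) hχ0
  have h3 := (isPBlock_blockOf (M := M) ⟨_, hres⟩).mem_iff_lam_zbar (ψ := ξ) (mem_blockOf_self _) hψ0
  constructor
  · intro h
    exact hB.1.eq_of_mem (isPBlock_blockOf' hres) hξ (h3.2 (h1 ▸ h2.1 (hB.unique h ▸ hθ)))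
  · intro h
    exact hB.2.1.eq_of_mem (isPBlock_blockOf χ) hθ (h2.2 (h1 ▸ h3.1 (h ▸ hξ))) ▸ hB

end Cfsg.Agent.S0935
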