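import Cfsg.Statements.S0940
import Cfsg.Agent.Lib.Block.Principal

set_option autoImplicit false
open Cfsg

namespace Cfsg.Agent.S0940

open Cfsg.Lib.Block Cfsg.Lib.Char MonoidAlgebra

/-- Let G be a finite group and M a maximal ideal of the algebraic integers containing the prime p. For every p-regular g, the idempotent coefficient of the principal block at g (the inverse of the group order times the sum over χ in the principal block of χ 1 * conj (χ g)) is congruent modulo the local ideal at M to N / R, where N is the number of pairs (x, y) with x of p-power order, y of order prime to p and x * y = g, and R is the number of elements of G of order prime to p. -/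
theorem result {G : Type*} [Group G] [Finite G] (p : ℕ) [Fact p.Prime] (M : Ideal Cfsg.AlgInt) (hM : Cfsg.IsPModular p M) (g : G) (hg : ¬ p ∣ orderOf g) : Cfsg.MemLocalIdeal M (Cfsg.blockCoeff (Cfsg.principalBlock M G) g - (Nat.card {xy : G × G // (∃ k : ℕ, orderOf xy.1 = p ^ k) ∧ ¬ p ∣ orderOf xy.2 ∧ xy.1 * xy.2 = g} : ℂ) / (Nat.card {y : G // ¬ p ∣ orderOf y} : ℂ)) := by
  have : Modular p M := ⟨hM⟩
  have h := congrArg (fun a => a.coeff g) (kulshammer (G := G) (p := p) (M := M))
  simp only [coeff_trunc_of_mem (X := regSet p G) _ hg, coeff_ssum_mul_ssum, coeff_smul',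
    coeff_eblk] at h
  have hR : red M (Nat.card (regSet p G) : ℂ) ≠ 0 := by
    rw [Ne, red_natCast_eq_zero_iff]; exact not_dvd_card_regSet M
  refine (memLocalIdeal_sub_iff (isPBlock_principalBlock.blockCoeff_mem g)
    (div_mem_of_red_ne_zero (natCast_mem _ _) hR)).2 ?_
  refine Eq.trans ?_ (red_div (natCast_mem _ _) hR).symm
  rw [red_natCast] at hR ⊢
  rw [red_natCast, eq_div_iff hR, mul_comm]
  exact h.symm

end Cfsg.Agent.S0940
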