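import Cfsg.Statements.S0945
import Cfsg.Agent.Lib.Modular.RankTwo

set_option autoImplicit false
open Cfsg

namespace Cfsg.Agent.S0945

/-- Let P be a Sylow 2-subgroup of the finite group G isomorphic to Z/2^m × Z/2^m with m ≥ 1. Then (i) the index of C_G(P) in N_G(P) is 1 or 3, and (ii) if it is not 1, then for every z ≠ 1 in P, C_G(z) ∩ N_G(P) = C_G(P). -/
theorem result {G : Type*} [Group G] [Finite G] (P : Sylow 2 G) (m : ℕ) (hm : 1 ≤ m) (e : (P : Subgroup G) ≃* Multiplicative (ZMod (2 ^ m) × ZMod (2 ^ m))) : ((Subgroup.centralizer (P : Set G)).relIndex (Subgroup.normalizer (P : Set G)) = 1 ∨ (Subgroup.centralizer (P : Set G)).relIndex (Subgroup.normalizer (P : Set G)) = 3) ∧ ((Subgroup.centralizer (P : Set G)).relIndex (Subgroup.normalizer (P : Set G)) ≠ 1 → ∀ z ∈ (P : Subgroup G), z ≠ 1 → Subgroup.centralizer ({z} : Set G) ⊓ Subgroup.normalizer (P : Set G) = Subgroup.centralizer (P : Set G)) := by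
  have hc := Lib.Modular.isMulCommutative_of_homocyclic e
  have hK := Lib.Modular.isKleinFour_omegaOne_of_homocyclic hm e
  refine ⟨Lib.Modular.relIndex_centralizer_normalizer_of_rankTwo P hc hK, fun _ z hz hz1 => ?_⟩
  apply le_antisymm
  · intro g hg
    exact Lib.Modular.mem_centralizer_of_fixes_of_rankTwo P hc hK hz hz1 hg.2
      (Subgroup.mem_centralizer_singleton_iff.1 hg.1).symm
  · exact le_inf (Subgroup.centralizer_le (Set.singleton_subset_iff.2 hz))
      (Subgroup.centralizer_le_normalizer _)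

end Cfsg.Agent.S0945
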