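import Cfsg.Statements.S0946
import Cfsg.Agent.Lib.Modular.RankTwo

set_option autoImplicit false
open Cfsg

namespace Cfsg.Agent.S0946

/-- Let P be a Sylow 2-subgroup of the finite group G isomorphic to Z/2^m × Z/2^m with m ≥ 1. Then either P has a normal complement in G, or all involutions of G are conjugate. -/
theorem result {G : Type*} [Group G] [Finite G] (P : Sylow 2 G) (m : ℕ) (hm : 1 ≤ m) (e : (P : Subgroup G) ≃* Multiplicative (ZMod (2 ^ m) × ZMod (2 ^ m))) : (∃ N : Subgroup G, N.Normal ∧ Subgroup.IsComplement' N (P : Subgroup G)) ∨ ∀ s t : G, orderOf s = 2 → orderOf t = 2 → IsConj s t := by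
  have hc := Lib.Modular.isMulCommutative_of_homocyclic e
  have hK := Lib.Modular.isKleinFour_omegaOne_of_homocyclic hm e
  by_cases h : HasNormalPComplement 2 G
  · exact Or.inl ((Lib.Transfer.hasNormalPComplement_iff_sylow P).1 h)
  · exact Or.inr fun s t hs ht => Lib.Modular.isConj_involutions_of_rankTwo P hc hK h hs ht

end Cfsg.Agent.S0946
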