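import Cfsg.Statements.S0950
import Cfsg.Agent.Lib.Quat.Eight

set_option autoImplicit false
open Cfsg

namespace Cfsg.Agent.S0950

/-- Let S be a Sylow 2-subgroup of the finite group G that is isomorphic to the quaternion group of order 8, and suppose S has no normal complement in G. Then any two subgroups of order 4 of S are conjugate by an element of the normalizer of S. -/
theorem result {G : Type*} [Group G] [Finite G] (S : Sylow 2 G) (e : (S : Subgroup G) ≃* QuaternionGroup 2) (hnc : ∀ N : Subgroup G, N.Normal → ¬ Subgroup.IsComplement' N (S : Subgroup G)) (A B : Subgroup G) (hA : A ≤ S) (hB : B ≤ S) (hA4 : Nat.card A = 4) (hB4 : Nat.card B = 4) : ∃ n ∈ Subgroup.normalizer ((S : Subgroup G) : Set G), B = A.map (MulAut.conj n).toMonoidHom := by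
  obtain ⟨a, b, h⟩ := Lib.Quat.exists_qgen two_pos e
  have hn : ¬ HasNormalPComplement 2 G := fun hc => by
    obtain ⟨N, hN, hc⟩ := (Lib.Transfer.hasNormalPComplement_iff_sylow S).1 hc
    exact hnc N hN hc
  have key : ∀ A : Subgroup G, A ≤ S → Nat.card A = 4 →
      ∃ x ∈ (S : Subgroup G), x ^ 2 ≠ 1 ∧ A = Subgroup.zpowers x := by
    intro A hA hA4
    have : ∃ x ∈ A, x ^ 2 ≠ 1 := by
      by_contra hcon
      push Not at hcon
      have hle : A ≤ Subgroup.zpowers (a ^ 2) := fun x hx => by
        rcases h.eq_of_sq_eq_one (hA hx) (hcon x hx) with rfl | rfl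
        exacts [one_mem _, Subgroup.mem_zpowers _]
      have := Subgroup.card_le_of_le hle
      rw [hA4, Nat.card_zpowers, h.orderOf_z] at this
      omega
    obtain ⟨x, hx, h2⟩ := this
    refine ⟨x, hA hx, h2, (Subgroup.eq_of_le_of_card_ge (Subgroup.zpowers_le.2 hx) ?_).symm⟩
    rw [hA4, Nat.card_zpowers, h.orderOf_eq_four (hA hx) h2]
  obtain ⟨x, hx, hx2, rfl⟩ := key A hA hA4
  obtain ⟨y, hy, hy2, rfl⟩ := key B hB hB4
  obtain ⟨n, hn, rfl⟩ := h.exists_normalizer_conj hn hx hx2 hy hy2
  exact ⟨n, hn, (Lib.Transfer.conj_zpowers n x).symm⟩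

end Cfsg.Agent.S0950
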