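import Cfsg.Statements.S0957
import Cfsg.Agent.Lib.Block.DefectOrder

set_option autoImplicit false
open Cfsg

namespace Cfsg.Agent.S0957

open Cfsg.Lib.Block Cfsg.Lib.Char Cfsg.Lib.Transfer MonoidAlgebra Subgroup

/-- Let P be a Sylow p-subgroup of the finite group G, let g, h ∈ G and let p ^ d be the order of a Sylow p-subgroup of the centralizer of g. Then the number of pairs (y, z) with y conjugate to g, z conjugate to h and z * y⁻¹ ∈ P is divisible by the order of P divided by p ^ d. -/
theorem result {G : Type*} [Group G] [Finite G] (p : ℕ) [Fact p.Prime] (P : Sylow p G) (g h : G) (S : Sylow p (Subgroup.centralizer ({g} : Set G))) : Nat.card P / Nat.card S ∣ Nat.card {yz : G × G // IsConj g yz.1 ∧ IsConj h yz.2 ∧ yz.2 * yz.1⁻¹ ∈ (P : Subgroup G)} := by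
  classical
  let X := {yz : G × G // IsConj g yz.1 ∧ IsConj h yz.2 ∧ yz.2 * yz.1⁻¹ ∈ (P : Subgroup G)}
  let _ : MulAction P X :=
    { smul := fun u x => ⟨(u * x.1.1 * (u : G)⁻¹, u * x.1.2 * (u : G)⁻¹),
        x.2.1.trans (isConj_iff.2 ⟨u, rfl⟩), x.2.2.1.trans (isConj_iff.2 ⟨u, rfl⟩), by
          have := mul_mem (mul_mem u.2 x.2.2.2) (inv_mem u.2)
          convert this using 1
          group⟩
      one_smul := fun x => Subtype.ext (Prod.ext (by simp [HSMul.hSMul]) (by simp [HSMul.hSMul]))
      mul_smul := fun a b x => Subtype.ext (Prod.ext (by simp [HSMul.hSMul, mul_assoc])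
        (by simp [HSMul.hSMul, mul_assoc])) }
  have := Fintype.ofFinite X
  have := Fintype.ofFinite P
  have := Fintype.ofFinite (Quotient (MulAction.orbitRel P X))
  have := fun x : X => Fintype.ofFinite (MulAction.stabilizer P x)
  change _ ∣ Nat.card X
  rw [Nat.card_eq_fintype_card (α := X), MulAction.card_eq_sum_card_group_div_card_stabilizer P X]
  refine Finset.dvd_sum fun ω _ => ?_
  generalize ω.out = x
  have hp : p.Prime := Fact.out
  rw [← Nat.card_eq_fintype_card, ← Nat.card_eq_fintype_card]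
  obtain ⟨e, he⟩ := (P.isPGroup'.to_subgroup (MulAction.stabilizer P x)).exists_card_eq
  have h1 : Nat.card (MulAction.stabilizer P x) ∣ Nat.card (centralizer ({g} : Set G)) := by
    rw [card_centralizer_eq_of_isConj x.2.1, ← card_map_of_injective (f := P.1.subtype)
      Subtype.val_injective]
    refine card_dvd_of_le ?_
    rintro _ ⟨u, hu, rfl⟩
    have : (u : G) * x.1.1 * (u : G)⁻¹ = x.1.1 := congrArg (fun y : X => y.1.1) hu
    rw [mem_centralizer_singleton_iff]
    exact mul_inv_eq_iff_eq_mul.1 this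
  have h2 : Nat.card (MulAction.stabilizer P x) ∣ Nat.card S := by
    rw [S.card_eq_multiplicity, he]
    exact pow_dvd_pow _ ((hp.pow_dvd_iff_le_factorization Nat.card_pos.ne').1 (he ▸ h1))
  have h3 : Nat.card S ∣ Nat.card P := by
    rw [S.card_eq_multiplicity]
    exact P.pow_dvd_card_of_pow_dvd_card ((Nat.ordProj_dvd _ _).trans (card_subgroup_dvd_card _))
  exact Nat.div_dvd_div_left h3 h2

end Cfsg.Agent.S0957
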