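import Cfsg.Statements.S0962
import Cfsg.Agent.Lib.Modular.ClassDefect

set_option autoImplicit false
open Cfsg

namespace Cfsg.Agent.S0962

open Cfsg.Lib.Block Cfsg.Lib.Char Cfsg.Lib.Transfer MonoidAlgebra Subgroup

/-- Fix a maximal ideal M of the algebraic integers containing the prime p and a natural number d. The number of blocks of the finite group G of defect at least d is at most the number of conjugacy classes of p-regular elements of G of defect at least d, where the defect of a class is the exponent of p in the order of the centralizer of any of its elements. -/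
theorem result {G : Type*} [Group G] [Finite G] (p : ℕ) [Fact p.Prime] (M : Ideal Cfsg.AlgInt) (hM : Cfsg.IsPModular p M) (d : ℕ) : Nat.card {B : Set (Cfsg.IrrCharacter G) // Cfsg.IsPBlock M B ∧ d ≤ Cfsg.blockDefect p B} ≤ Nat.card {C : ConjClasses G // ∃ g : G, ConjClasses.mk g = C ∧ Cfsg.IsPRegular p g ∧ d ≤ (Nat.card (Subgroup.centralizer ({g} : Set G))).factorization p} := by
  classical
  have : Modular p M := ⟨hM⟩
  let X := {B : Set (Cfsg.IrrCharacter G) // Cfsg.IsPBlock M B ∧ d ≤ Cfsg.blockDefect p B}
  let S : ConjClasses G → Prop := fun C => ∃ g : G, ConjClasses.mk g = C ∧ Cfsg.IsPRegular p g ∧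
    d ≤ (Nat.card (Subgroup.centralizer ({g} : Set G))).factorization p
  have := Fintype.ofFinite X
  have := Fintype.ofFinite (ConjClasses G)
  have hli : LinearIndependent (Res M)
      fun (B : X) (C : {C // S C}) => (eblk M B.1).coeff (crep C.1) := by
    refine Fintype.linearIndependent_iff.2 fun c hc B₀ => ?_
    obtain ⟨χ, hχ⟩ := B₀.2.1.nonempty
    have h1 : ∀ B : X, lam M (χ : G → ℂ) (eblk M B.1) = ∑ C : {C // S C},
        (eblk M B.1).coeff (crep C.1) * red M (centralChar (χ : G → ℂ) (crep C.1)) := fun B => by
      rw [lam_apply, ← Finset.sum_subtype (Finset.univ.filter S) (by simp)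
        fun C => (eblk M B.1).coeff (crep C) * red M (centralChar (χ : G → ℂ) (crep C)),
        Finset.sum_filter_of_ne]
      intro C _ h
      refine ⟨crep C, mk_crep C, fun h2 => h ?_, B₀.2.2.trans
        (Lib.Modular.blockDefect_le_factorization_centralizer B₀.2.1 hχ (right_ne_zero_of_mul h))⟩
      rw [coeff_eblk, ← coeff_fblk, coeff_eq_zero_of_dvd (fblk_mem_fix _) B.2.1.fblk_mem_SG
        (fblk_idem _) h2, red_zero, zero_mul]
    have h2 : ∑ B : X, c B * lam M (χ : G → ℂ) (eblk M B.1) = 0 := by
      simp only [h1, Finset.mul_sum, ← mul_assoc]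
      rw [Finset.sum_comm]
      refine Finset.sum_eq_zero fun C _ => ?_
      have := congrFun hc C
      simp only [Finset.sum_apply, Pi.smul_apply, smul_eq_mul, Pi.zero_apply] at this
      rw [← Finset.sum_mul, this, zero_mul]
    rwa [Finset.sum_eq_single B₀, B₀.2.1.lam_eblk_of_mem hχ, mul_one] at h2
    · intro B _ hB
      rw [B.2.1.lam_eblk_of_notMem fun h => hB (Subtype.ext (B.2.1.eq_of_mem B₀.2.1 h hχ)), mul_zero]
    · simp
  have := hli.fintype_card_le_finrank
  rwa [Module.finrank_fintype_fun_eq_card, ← Nat.card_eq_fintype_card,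
    ← Nat.card_eq_fintype_card] at this

end Cfsg.Agent.S0962
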