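import Cfsg.Statements.S0968
import Cfsg.Agent.Lib.Block.Quot
import Cfsg.Agent.Lib.Modular.CentralDefect

set_option autoImplicit false
open Cfsg

namespace Cfsg.Agent.S0968

open Cfsg.Lib.Block Cfsg.Lib.Char Cfsg.Lib.Transfer MonoidAlgebra Subgroup

/-- Let P be a p-subgroup of the finite group G with P ⊔ C_G(P) = G, and let B be a block with defect group P relative to a maximal ideal M of the algebraic integers containing p. Then there is exactly one θ ∈ B with θ x = θ 1 for all x ∈ P; for this θ the exponent of p in θ(1) equals the exponent of p in the index of P; and the number of members of B equals the number of conjugacy classes of P. -/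
theorem result {G : Type*} [Group G] [Finite G] (p : ℕ) [Fact p.Prime] (M : Ideal Cfsg.AlgInt) (hM : Cfsg.IsPModular p M) (P : Subgroup G) (hP : IsPGroup p P) (hG : P ⊔ Subgroup.centralizer (P : Set G) = ⊤) (B : Set (Cfsg.IrrCharacter G)) (hB : Cfsg.IsPBlock M B) (hD : Cfsg.IsDefectGroup p M B P) : (∃! θ : Cfsg.IrrCharacter G, θ ∈ B ∧ ∀ x ∈ P, (θ : G → ℂ) x = (θ : G → ℂ) 1) ∧ (∀ θ ∈ B, (∀ x ∈ P, (θ : G → ℂ) x = (θ : G → ℂ) 1) → (Cfsg.charDegree (θ : G → ℂ)).factorization p = P.index.factorization p) ∧ Nat.card B = Nat.card (ConjClasses P) := by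
  have : Modular p M := ⟨hM⟩
  have := Fintype.ofFinite G
  have := Lib.Modular.normal_of_sup_centralizer hG
  have hc := Lib.Modular.regSet_subset_of_sup_centralizer hP hG
  obtain ⟨χ, hχ⟩ := Lib.Modular.exists_canonical hG hB hD
  obtain ⟨h1, h2⟩ : χ ∈ B ∩ kerSet P := hχ ▸ rfl
  refine ⟨⟨χ, ⟨h1, h2⟩, fun θ hθ => (hχ ▸ hθ : θ ∈ ({χ} : Set _))⟩, fun θ h3 h4 => ?_, ?_⟩
  · have := (hB.eq_of_mem_kerSet hD hc h3 h4 h3 h4).2
    rw [factorization_card_eq_add P] at this
    omega
  · choose f hf hf' using Lib.Modular.exists_mem_eq_secLift hG hB hD h1 h2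
    rw [← card_irr_eq_card_conjClasses]
    refine (Nat.card_eq_of_bijective (fun ζ => (⟨f ζ, hf ζ⟩ : B)) ⟨fun ζ ξ h => ?_, fun θ => ?_⟩).symm
    · have h3 := (hf' ζ).symm.trans ((congrArg (fun θ : B => (θ.1 : G → ℂ)) h).trans (hf' ξ))
      refine Subtype.ext (funext fun y => mul_right_cancel₀ χ.2.apply_one_ne_zero ?_)
      have h4 := Lib.Modular.not_dvd_orderOf_one (G := G) (Fact.out : p.Prime)
      rw [← Lib.Modular.secLift_mul hP hc _ _ y h4, ← Lib.Modular.secLift_mul hP hc _ _ y h4, h3]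
    · obtain ⟨ζ, h⟩ := Lib.Modular.exists_eq_secLift hG hB hD h1 h2 θ.2
      exact ⟨ζ, Subtype.ext (Subtype.ext ((hf' ζ).trans h.symm))⟩

end Cfsg.Agent.S0968
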