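import Cfsg.Statements.S0969
import Cfsg.Agent.Lib.Block.Quot
import Cfsg.Agent.Lib.Modular.CentralDefect

set_option autoImplicit false
open Cfsg

namespace Cfsg.Agent.S0969

open Cfsg.Lib.Block Cfsg.Lib.Char Cfsg.Lib.Transfer MonoidAlgebra Subgroup

/-- Let D be a central p-subgroup of the finite group G and χ an irreducible character with the exponent of p in χ(1) equal to the exponent of p in the index of D; fix a maximal ideal M of the algebraic integers containing p. Then D is a defect group of the block of χ, and χ g = 0 whenever the p-part of g does not lie in D. -/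
theorem result {G : Type*} [Group G] [Finite G] (p : ℕ) [Fact p.Prime] (M : Ideal Cfsg.AlgInt) (hM : Cfsg.IsPModular p M) (D : Subgroup G) (hD : IsPGroup p D) (hDZ : D ≤ Subgroup.center G) (χ : Cfsg.IrrCharacter G) (hdeg : (Cfsg.charDegree (χ : G → ℂ)).factorization p = D.index.factorization p) : Cfsg.IsDefectGroup p M (Cfsg.blockOf M (χ : G → ℂ)) D ∧ ∀ g x : G, Cfsg.IsPPart p g x → x ∉ D → (χ : G → ℂ) g = 0 := by
  have : Modular p M := ⟨hM⟩
  have := Fintype.ofFinite G
  have hp : p.Prime := Fact.out
  classical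
  have : D.Normal := ⟨fun n hn g => by rwa [mem_center_iff.1 (hDZ hn) g, mul_inv_cancel_right]⟩
  have hB := isPBlock_blockOf (M := M) χ
  have hχ := mem_blockOf_self (M := M) χ
  obtain ⟨n, h1, h2⟩ := Lib.Modular.exists_int_regInner (p := p) M χ.2 χ.2.isGeneralizedCharacter
  obtain ⟨k, hk⟩ := IsPGroup.iff_card.1 hD
  have h3 : (Nat.card G).factorization p - (charDegree (χ : G → ℂ)).factorization p = k := by
    rw [factorization_card_eq_add D, hdeg, hk, hp.factorization_pow]; simp
  have h4 : n ≠ 0 := fun h => mul_ne_zero (Lib.Modular.pow_ne_zero_complex (p := p) _)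
    (Lib.Modular.regInner_self_ne_zero χ.2.apply_one_ne_zero) (by rw [h1, h, Int.cast_zero])
  rw [h3, Lib.Modular.regInner_self_eq, ← Nat.cast_pow, ← hk] at h1
  have h5 : Nat.card D * ((Nat.card G : ℝ)⁻¹ * ∑ g : G, ‖pRegularPart p (χ : G → ℂ) g‖ ^ 2) = n := by
    exact_mod_cast h1
  have h6 : Nat.card D * ∑ g : G, ‖pRegularPart p (χ : G → ℂ) g‖ ^ 2 ≤ Nat.card G := by
    have := Fintype.ofFinite D
    rw [← χ.2.sum_norm_sq]
    calc _ = ∑ t ∈ (Finset.univ : Finset D) ×ˢ Finset.univ.filter fun g : G => ¬ p ∣ orderOf g,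
          ‖(χ : G → ℂ) (t.1 * t.2)‖ ^ 2 := by
          rw [Finset.sum_product, Nat.card_eq_fintype_card, ← Finset.card_univ, ← nsmul_eq_mul]
          refine (Finset.sum_eq_card_nsmul fun z _ => ?_).symm
          obtain ⟨ω, h7, h8⟩ := Lib.Modular.exists_scalar_of_mem_center χ.2 (hDZ z.2)
          have h9 := Complex.norm_eq_one_of_pow_eq_one h7 (orderOf_pos _).ne'
          rw [Finset.sum_filter]
          refine Finset.sum_congr rfl fun g _ => ?_
          rw [Lib.Modular.pRegularPart_apply, h8, norm_mul, h9, one_mul]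
          by_cases h : p ∣ orderOf g <;> simp [h]
      _ ≤ _ := by
          rw [← Finset.sum_image (g := fun t : D × G => (t.1 : G) * t.2)
            (f := fun g => ‖(χ : G → ℂ) g‖ ^ 2) fun s hs t ht h => ?_]
          · exact Finset.sum_le_sum_of_subset_of_nonneg (Finset.subset_univ _) fun _ _ _ => by
              positivity
          simp only [Finset.coe_product, Finset.coe_univ, Finset.coe_filter, Finset.mem_univ,
            true_and, Set.mem_prod, Set.mem_univ, Set.mem_ofPred_eq] at hs ht h
          have h7 := fun (u : D × G) (hu : ¬ p ∣ orderOf u.2) => Lib.Modular.regPart_mul hp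
            (Lib.Modular.pElt_of_mem hp hD u.1.2) hu (mem_center_iff.1 (hDZ u.1.2) u.2).symm
          have h8 : s.2 = t.2 := by rw [← h7 s hs, h, h7 t ht]
          exact Prod.ext (Subtype.ext (mul_right_cancel (h.trans (by rw [h8])))) h8
  have h7 : (0 : ℝ) < Nat.card G := by exact_mod_cast Nat.card_pos
  have h8 : (n : ℝ) ≤ 1 := by
    rw [← h5, mul_left_comm, inv_mul_le_iff₀ h7, mul_one]; exact h6
  have h9 : (0 : ℝ) ≤ n := by rw [← h5]; positivity
  have h10 : n = 1 := by
    have : n ≤ 1 := by exact_mod_cast h8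
    have : 0 ≤ n := by exact_mod_cast h9
    omega
  have h11 := (hB.height_zero_iff_lam hχ hχ).2 fun h => hp.not_dvd_one
    (by exact_mod_cast h10 ▸ h2.2 h)
  obtain ⟨E, hE⟩ := hB.exists_isDefectGroup (p := p)
  have h12 := hB.le_defectGroup_of_normal hE hD
  have h13 : D = E := by
    have h14 := (hB.height_zero_iff_index hE hχ).1 h11
    have h15 := factorization_card_eq_add (p := p) D
    have h16 := factorization_card_eq_add (p := p) E
    obtain ⟨l, hl⟩ := IsPGroup.iff_card.1 hE.isPGroup
    refine eq_of_le_of_card_ge h12 ?_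
    rw [hk, hp.factorization_pow, Finsupp.single_eq_same] at h15
    rw [hl, hp.factorization_pow, Finsupp.single_eq_same] at h16
    rw [hk, hl, show l = k by omega]
  subst h13
  refine ⟨hE, fun g x hx hxD => by_contra fun h => hxD ?_⟩
  rw [← (Lib.Modular.isPPart_iff hp).1 hx]
  exact hB.pPart_mem_of_normal hE hχ h

end Cfsg.Agent.S0969
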