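import Cfsg.Statements.S0970
import Cfsg.Agent.Lib.Block.Reynolds

set_option autoImplicit false
open Cfsg

namespace Cfsg.Agent.S0970

open Cfsg.Lib.Block Cfsg.Lib.Char Cfsg.Lib.Transfer MonoidAlgebra Subgroup

/-- Let N be a normal subgroup of the finite group G and fix a maximal ideal M of the algebraic integers containing the prime p. Let b be a block of N that is invariant under conjugation by G, and B a block of G covering b (some χ ∈ B has a constituent in b) whose defect is at least that of every block covering b. If P is a defect group of B, then p does not divide the index of P ⊔ N, the subgroup P ∩ N of N is a defect group of b, and the defect of B equals the defect of b plus the exponent of p in the index of N. -/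
theorem result {G : Type*} [Group G] [Fintype G] (p : ℕ) [Fact p.Prime] (M : Ideal Cfsg.AlgInt) (hM : Cfsg.IsPModular p M) (N : Subgroup G) [hN : N.Normal] [Fintype N] (b : Set (Cfsg.IrrCharacter N)) (hb : Cfsg.IsPBlock M b) (hinv : ∀ g : G, ∀ θ ∈ b, ∀ θ' : Cfsg.IrrCharacter N, (∀ n : N, (θ' : N → ℂ) n = (θ : N → ℂ) ⟨g * n * g⁻¹, hN.conj_mem n n.2 g⟩) → θ' ∈ b) (B : Set (Cfsg.IrrCharacter G)) (hB : Cfsg.IsPBlock M B) (hcov : ∃ χ ∈ B, ∃ θ ∈ b, Cfsg.classInner (fun n : N => (χ : G → ℂ) n) (θ : N → ℂ) ≠ 0) (hmax : ∀ B' : Set (Cfsg.IrrCharacter G), Cfsg.IsPBlock M B' → (∃ χ ∈ B', ∃ θ ∈ b, Cfsg.classInner (fun n : N => (χ : G → ℂ) n) (θ : N → ℂ) ≠ 0) → Cfsg.blockDefect p B' ≤ Cfsg.blockDefect p B) (P : Subgroup G) (hP : Cfsg.IsDefectGroup p M B P) : ¬ p ∣ (P ⊔ N).index ∧ Cfsg.IsDefectGroup p M b ((P ⊓ N).subgroupOf N) ∧ Cfsg.blockDefect p B = Cfsg.blockDefect p b + N.index.factorization p := by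
  have : Modular p M := ⟨hM⟩
  have h0 := le_normalizer_top (N := N)
  have hf : ebl N M b ∈ fix (Res M) ⊤ := fun g _ => hb.mem_stab_iff'.2 (hinv g)
  have hfc : ebl N M b ∈ cen (Res M) ⊤ := mem_cen_top.2 hf
  have h1 := hB.isBlkIdem_top.mul_eq_of_ne_zero hfc hb.ebl_idem fun h =>
    (hB.covers_iff_mul_ebl hb).1 (covers_subtype_iff.2 hcov)
      ((commute_of_fix_top hf _).eq.trans h)
  have hP' := hB.isDefectGroup_iff_isDefIn_top.1 hP
  have h2 := br_ne_zero_of_mul_eq hP'.pgrp (mem_fix_of_top hf) (eblk_mem_fix' _ _) h1 hP'.ne_zero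
  obtain ⟨h3, h4⟩ := hb.isBlkIdem.fong le_top h0 hf hP'.pgrp le_top h2 fun Q _ hQ h => by
    obtain ⟨e, he, h5, h6⟩ := exists_isBlkIdem_of_map_ne_zero (br Q).toAddMonoidHom hfc
      hb.ebl_idem h
    obtain ⟨B', hB', rfl⟩ := isBlkIdem_top_iff.1 he
    obtain ⟨D, hD⟩ := he.exists_isDefIn
    refine (he.card_le hD le_top hQ h6).trans ?_
    rw [hB'.card_defectGroup (hB'.isDefectGroup_iff_isDefIn_top.2 hD), hB.card_defectGroup hP]
    refine Nat.pow_le_pow_right (Fact.out : p.Prime).pos (hmax B' hB' (covers_subtype_iff.1 ?_))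
    rw [hB'.covers_iff_mul_ebl hb, ← (commute_of_fix_top (eblk_mem_fix B') _).eq, h5]
    exact hB'.eblk_ne_zero
  refine ⟨by rwa [relIndex_top_right] at h3, (hb.isDefectGroup_iff_isDefIn inf_le_right).2 h4, ?_⟩
  have h5 := relIndex_eq_pow_factorization hP'.pgrp le_top le_top h0 h3
  have h6 := card_mul_relIndex (inf_le_left : P ⊓ N ≤ P)
  rw [inf_relIndex_left, h5, hb.card_of_isDefIn h4, hB.card_defectGroup hP, ← pow_add,
    relIndex_top_right] at h6
  exact (Nat.pow_right_injective (Fact.out : p.Prime).two_le h6).symm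

end Cfsg.Agent.S0970
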