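import Cfsg.Statements.S0973
import Cfsg.Agent.Lib.Block.Reynolds

set_option autoImplicit false
open Cfsg

namespace Cfsg.Agent.S0973

open Cfsg.Lib.Block Cfsg.Lib.Char Cfsg.Lib.Transfer MonoidAlgebra Subgroup

/-- Let B be a block of the finite group G with defect group P (relative to a maximal ideal M of the algebraic integers containing p), and let L = P ⊔ C_G(P). Then (i) some block b of L with defect group P (viewed in L) induces B, and (ii) if b and b' are blocks of L both inducing B, there is n ∈ N_G(P) carrying b to b': for every θ ∈ b there is θ' ∈ b' with θ' x = θ (n x n⁻¹) for all x ∈ L. -/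
theorem result {G : Type*} [Group G] [Finite G] (p : ℕ) [Fact p.Prime] (M : Ideal Cfsg.AlgInt) (hM : Cfsg.IsPModular p M) (B : Set (Cfsg.IrrCharacter G)) (hB : Cfsg.IsPBlock M B) (P : Subgroup G) (hP : Cfsg.IsDefectGroup p M B P) : (∃ b : Set (Cfsg.IrrCharacter ↥(P ⊔ Subgroup.centralizer (P : Set G))), Cfsg.IsDefectGroup p M b (P.subgroupOf (P ⊔ Subgroup.centralizer (P : Set G))) ∧ Cfsg.IsInducedBlock M (P ⊔ Subgroup.centralizer (P : Set G)) b B) ∧ ∀ b b' : Set (Cfsg.IrrCharacter ↥(P ⊔ Subgroup.centralizer (P : Set G))), Cfsg.IsInducedBlock M (P ⊔ Subgroup.centralizer (P : Set G)) b B → Cfsg.IsInducedBlock M (P ⊔ Subgroup.centralizer (P : Set G)) b' B → ∃ n ∈ Subgroup.normalizer (P : Set G), ∀ θ ∈ b, ∃ θ' ∈ b', ∀ x : ↥(P ⊔ Subgroup.centralizer (P : Set G)), ∀ hx : n * (x : G) * n⁻¹ ∈ P ⊔ Subgroup.centralizer (P : Set G), (θ' : ↥(P ⊔ Subgroup.centralizer (P : Set G)) → ℂ) x = (θ : ↥(P ⊔ Subgroup.centralizer (P : Set G)) → ℂ) ⟨n *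 (x : G) * n⁻¹, hx⟩ := by
  have : Modular p M := ⟨hM⟩
  have hP' := hB.isDefectGroup_iff_isDefIn_top.1 hP
  have hN : P ⊔ centralizer (P : Set G) ≤ normalizer (P : Set G) :=
    sup_le le_normalizer (centralizer_le_normalizer _)
  refine ⟨hB.exists_isInducedBlock_of_defectGroup hP le_sup_left le_sup_right hN,
    fun b b' h h' => ?_⟩
  have hN' : normalizer (P : Set G) ≤ normalizer (P ⊔ centralizer (P : Set G) : Subgroup G) :=
    Lib.Core.le_normalizer_sup le_rfl (normalizer_le_normalizer_centralizer P)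
  have h1 := hB.isBlkIdem_top.br_of_isDefIn hP'
  rw [top_inf_eq] at h1
  obtain ⟨x, hx, h2⟩ := h1.exists_cj_eq hN hN' h.1.isBlkIdem h'.1.isBlkIdem
    ((isInducedBlock_iff_ebl hP'.pgrp le_sup_left le_sup_right hN h.1 hB).1 h)
    ((isInducedBlock_iff_ebl hP'.pgrp le_sup_left le_sup_right hN h'.1 hB).1 h')
  have h3 := conj_eq_self_iff.2 (hN' hx)
  rw [← h.1.cjSet_eq_iff h3 h'.1] at h2
  refine ⟨x⁻¹, inv_mem hx, fun θ hθ => ?_⟩
  obtain ⟨θ', h4, h5⟩ := exists_mem_cjSet h3 hθ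
  exact ⟨θ', h2 ▸ h4, fun y hy => h5 _ _ (by simp [mul_assoc])⟩

end Cfsg.Agent.S0973
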