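import Cfsg.Statements.S0986
import Cfsg.Agent.Lib.Small.SylCount

set_option autoImplicit false
open Cfsg

namespace Cfsg.Agent.S0986

open Subgroup

theorem lt_inf_normalizer {G : Type*} [Group G] [Finite G] {p : ℕ} [Fact p.Prime]
    {A D : Subgroup G} (hA : IsPGroup p A) (h : D < A) : D < A ⊓ normalizer (D : Set G) := by
  haveI := hA.isNilpotent
  have h1 : D.subgroupOf A ≠ ⊤ := fun h2 => h.2 (subgroupOf_eq_top.mp h2)
  have h2 := normalizerCondition_of_isNilpotent (G := A) _ (lt_top_iff_ne_top.mpr h1)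
  obtain ⟨x, hx, hx'⟩ := SetLike.exists_of_lt h2
  rw [← subgroupOf_normalizer_eq h.le] at hx
  exact ⟨le_inf h.le le_normalizer, fun h3 => hx' (h3 ⟨x.2, hx⟩)⟩

theorem card_lt {G : Type*} [Group G] [Finite G] {A B : Subgroup G} (h : A < B) :
    Nat.card A < Nat.card B :=
  lt_of_le_of_ne (card_le_of_le h.le) fun h1 => h.ne (eq_of_le_of_card_ge h.le h1.ge)

/-- Let P and Q be distinct Sylow p-subgroups of a finite group G chosen so that the order of P ∩ Q is as large as possible among intersections of two distinct Sylow p-subgroups, and let N be the normalizer of P ∩ Q. Then N has more than one Sylow p-subgroup, any two distinct Sylow p-subgroups of N intersect exactly in P ∩ Q, and each Sylow p-subgroup of N lies in exactly one Sylow p-subgroup of G. -/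
theorem result {G : Type*} [Group G] [Finite G] (p : ℕ) [Fact p.Prime] (P Q : Sylow p G) (hPQ : P ≠ Q) (hmax : ∀ P' Q' : Sylow p G, P' ≠ Q' → Nat.card ↥((P' : Subgroup G) ⊓ (Q' : Subgroup G)) ≤ Nat.card ↥((P : Subgroup G) ⊓ (Q : Subgroup G))) : 1 < Nat.card (Sylow p ↥(Subgroup.normalizer (((P : Subgroup G) ⊓ (Q : Subgroup G) : Subgroup G) : Set G))) ∧ (∀ S T : Sylow p ↥(Subgroup.normalizer (((P : Subgroup G) ⊓ (Q : Subgroup G) : Subgroup G) : Set G)), S ≠ T → (S : Subgroup _) ⊓ (T : Subgroup _) = ((P : Subgroup G) ⊓ (Q : Subgroup G)).subgroupOf (Subgroup.normalizer (((P : Subgroup G) ⊓ (Q : Subgroup G) : Subgroup G) : Set G))) ∧ ∀ S : Sylow p ↥(Subgroup.normalizer (((P : Subgroup G) ⊓ (Q : Subgroup G) : Subgroup G) : Set G)), ∃! T : Sylow p G, (S : Subgroup _).map (Subgroup.normalizer (((P : Subgroup G) ⊓ (Q : Subgroup G) : Subgroup G) : Set G)).subtype ≤ (T : Subgroup G) := by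
  set D : Subgroup G := (P : Subgroup G) ⊓ (Q : Subgroup G) with hD
  set N := normalizer (D : Set G) with hN
  have key : ∀ (T T' : Sylow p G) (A : Subgroup G), D < A → A ≤ T → A ≤ T' → T = T' := by
    intro T T' A h1 h2 h3
    by_contra h
    exact absurd ((card_lt h1).trans_le (card_le_of_le (le_inf h2 h3))) (hmax T T' h).not_gt
  have hP : D < P := lt_of_le_of_ne inf_le_left fun h =>
    hPQ (Sylow.ext (Q.is_maximal' P.isPGroup' (by
      have := eq_of_le_of_card_ge (H := (P : Subgroup G)) (K := Q) (h ▸ inf_le_right)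
        (Cfsg.Lib.Small.card_sylow_eq_card Q P).le
      exact this.ge)))
  have hQ : D < Q := lt_of_le_of_ne inf_le_right fun h =>
    hPQ (Sylow.ext (P.is_maximal' Q.isPGroup' (by
      have := eq_of_le_of_card_ge (H := (Q : Subgroup G)) (K := P) (h ▸ inf_le_left)
        (Cfsg.Lib.Small.card_sylow_eq_card P Q).le
      exact this.ge)).symm)
  have hP' := lt_inf_normalizer P.isPGroup' hP
  have hQ' := lt_inf_normalizer Q.isPGroup' hQ
  have hDN : D ≤ N := le_normalizer
  haveI : (D.subgroupOf N).Normal := normal_in_normalizer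
  have hDp : IsPGroup p (D.subgroupOf N) :=
    (P.isPGroup'.to_le hP.le).comap_of_injective _ N.subtype_injective
  have hDS : ∀ S : Sylow p N, D.subgroupOf N ≤ S := fun S =>
    hDp.le_sylow_of_normal S
  obtain ⟨S₁, hS₁⟩ := ((P.isPGroup'.to_inf_left (K := N)).comap_of_injective _
    N.subtype_injective).exists_le_sylow
  obtain ⟨S₂, hS₂⟩ := ((Q.isPGroup'.to_inf_left (K := N)).comap_of_injective _
    N.subtype_injective).exists_le_sylow
  have hle : ∀ {A : Subgroup G} {S : Sylow p N}, A ≤ N → A.comap N.subtype ≤ S →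
      A ≤ (S : Subgroup N).map N.subtype := fun {A S} h1 h2 x hx =>
    ⟨⟨x, h1 hx⟩, h2 hx, rfl⟩
  have hlt : ∀ S : Sylow p N, D < (S : Subgroup N).map N.subtype := by
    intro S
    refine lt_of_le_of_ne (hle hDN (hDS S)) fun h => ?_
    have h1 := card_lt (hP'.trans_le (hle inf_le_right hS₁))
    rw [card_subtype, Cfsg.Lib.Small.card_sylow_eq_card S₁ S, ← card_subtype, ← h] at h1
    exact h1.false
  have hex : ∀ S : Sylow p N, ∃ T : Sylow p G, (S : Subgroup N).map N.subtype ≤ T := fun S =>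
    (S.isPGroup'.map _).exists_le_sylow
  refine ⟨?_, fun S S' hS => ?_, fun S => ?_⟩
  · rw [Finite.one_lt_card_iff_nontrivial]
    refine ⟨S₁, S₂, fun h => hPQ ?_⟩
    obtain ⟨T, hT⟩ := hex S₁
    exact (key P T _ hP' inf_le_left ((hle inf_le_right hS₁).trans hT)).trans
      (key T Q _ hQ' ((hle inf_le_right hS₂).trans (h ▸ hT)) inf_le_left)
  · obtain ⟨T, hT⟩ := hex S
    obtain ⟨T', hT'⟩ := hex S'
    have hne : T ≠ T' := by
      rintro rfl
      have h1 := S.is_maximal' (T.isPGroup'.comap_of_injective _ N.subtype_injective)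
        (map_le_iff_le_comap.mp hT)
      have h2 := S'.is_maximal' (T.isPGroup'.comap_of_injective _ N.subtype_injective)
        (map_le_iff_le_comap.mp hT')
      exact hS (Sylow.ext (h1.symm.trans h2))
    refine (eq_of_le_of_card_ge (le_inf (hDS S) (hDS S')) ?_).symm
    rw [Nat.card_congr (subgroupOfEquivOfLe hDN).toEquiv, ← card_subtype]
    exact (card_le_of_le ((map_inf_le _ _ _).trans (inf_le_inf hT hT'))).trans (hmax T T' hne)
  · obtain ⟨T, hT⟩ := hex S
    exact ⟨T, hT, fun T' hT' => key T' T _ (hlt S) hT' hT⟩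

end Cfsg.Agent.S0986
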