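import Cfsg.Statements.S0987
import Cfsg.Agent.Lib.Small.Basic

set_option autoImplicit false
open Cfsg

namespace Cfsg.Agent.S0987

/-- If a finite group has order pqr for primes p < q < r, then its Sylow r-subgroups are normal. -/
theorem result {G : Type*} [Group G] [Finite G] (p q r : ℕ) (hp : p.Prime) (hq : q.Prime) [Fact r.Prime] (hpq : p < q) (hqr : q < r) (hG : Nat.card G = p * q * r) (R : Sylow r G) : (R : Subgroup G).Normal := by
  have hr := (Fact.out : r.Prime)
  haveI : Fact p.Prime := ⟨hp⟩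
  obtain ⟨P⟩ : Nonempty (Sylow p G) := inferInstance
  have hnd : ¬ p ∣ q * r := by
    intro h
    rcases (Nat.Prime.dvd_mul hp).mp h with h | h
    · exact absurd ((Nat.prime_dvd_prime_iff_eq hp hq).mp h) hpq.ne
    · exact absurd ((Nat.prime_dvd_prime_iff_eq hp hr).mp h) (hpq.trans hqr).ne
  obtain ⟨hP, hPi⟩ := Cfsg.Lib.Small.card_sylow_eq p P (k := 1) (m := q * r)
    (by rw [hG]; ring) hnd
  have hcyc : IsCyclic P := isCyclic_of_prime_card (p := p) (by rw [hP, pow_one])
  have hmin : (Nat.card G).minFac = p := by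
    have h1 : Nat.card G ≠ 1 := by
      rw [hG]; intro h
      exact hr.one_lt.ne' (Nat.eq_one_of_mul_eq_one_left h)
    have h2 := Nat.minFac_prime h1
    have h3 : (Nat.card G).minFac ≤ p := Nat.minFac_le_of_dvd hp.two_le (by rw [hG]; exact ⟨q * r, by ring⟩)
    have h4 : (Nat.card G).minFac ∣ p * q * r := hG ▸ Nat.minFac_dvd _
    rcases (Nat.Prime.dvd_mul h2).mp h4 with h | h
    · rcases (Nat.Prime.dvd_mul h2).mp h with h | h
      · exact (Nat.prime_dvd_prime_iff_eq h2 hp).mp h
      · have := (Nat.prime_dvd_prime_iff_eq h2 hq).mp h; omega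
    · have := (Nat.prime_dvd_prime_iff_eq h2 hr).mp h; omega
  have hc := hcyc.isComplement' hmin
  set K := (MonoidHom.transferSylow P (hcyc.normalizer_le_centralizer hmin)).ker with hK
  have hKi : K.index = p := by rw [hc.symm.index_eq_card, hP, pow_one]
  have hKc : Nat.card K = q * r := by rw [← hc.index_eq_card, hPi]
  have hRK : (R : Subgroup G) ≤ K := by
    intro x hx
    obtain ⟨k, hk⟩ := R.isPGroup' ⟨x, hx⟩
    have h1 : x ^ r ^ k = 1 := congrArg Subtype.val hk
    have h2 : x ^ p ∈ K := hKi ▸ K.pow_index_mem x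
    have h3 : (r ^ k).Coprime p :=
      Nat.Coprime.pow_left _ ((Nat.coprime_primes hr hp).mpr (hpq.trans hqr).ne')
    rw [← QuotientGroup.eq_one_iff] at h2 ⊢
    have h4 : ((x : G ⧸ K)) ^ (r ^ k).gcd p = 1 :=
      pow_gcd_eq_one.mpr ⟨by rw [← QuotientGroup.mk_pow, h1, QuotientGroup.mk_one],
        by rw [← QuotientGroup.mk_pow, h2]⟩
    rwa [h3, pow_one] at h4
  have h5 : Nat.card (Sylow r K) = 1 := by
    have h6 := (R.subtype hRK).card_dvd_index
    have h7 := card_sylow_modEq_one r K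
    obtain ⟨-, h8⟩ := Cfsg.Lib.Small.card_sylow_eq r (R.subtype hRK) (k := 1) (m := q)
      (by rw [hKc]; ring) (fun h => absurd (Nat.le_of_dvd hq.pos h) (by omega))
    rw [h8] at h6
    rcases (Nat.dvd_prime hq).mp h6 with h | h
    · exact h
    · rw [h, Nat.ModEq, Nat.mod_eq_of_lt hqr, Nat.mod_eq_of_lt hr.one_lt] at h7
      exact absurd h7 hq.one_lt.ne'
  haveI : Subsingleton (Sylow r K) := (Nat.card_eq_one_iff_unique.mp h5).1
  have h9 := (R.subtype hRK).normal_of_subsingleton
  rw [Sylow.coe_subtype, Subgroup.normal_subgroupOf_iff_le_normalizer hRK] at h9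
  rw [← Subgroup.normalizer_eq_top_iff, ← R.normalizer_sup_eq_top' hRK]
  exact (sup_eq_left.mpr h9).symm

end Cfsg.Agent.S0987
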