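import Cfsg.Statements.S0995
import Cfsg.Agent.Lib.CharDeg.SelfCent
import Cfsg.Agent.Lib.Small.SylCount2

set_option autoImplicit false
open Cfsg

namespace Cfsg.Agent.S0995

/-- Let G be a finite perfect group containing an element z of prime order p whose centralizer is the cyclic group it generates. Let t be the number of conjugacy classes of elements of order p. Then t divides p - 1, the number of Sylow p-subgroups has the form 1 + n * p, and |G| * t = (p - 1) * p * (1 + n * p). -/
theorem result {G : Type*} [Group G] [Finite G] (hperf : commutator G = ⊤) (p : ℕ) [Fact p.Prime] (z : G) (hz : orderOf z = p) (hC : Subgroup.centralizer ({z} : Set G) = Subgroup.zpowers z) : ∃ n t : ℕ, t = Nat.card {c : ConjClasses G // ∃ g : G, ConjClasses.mk g = c ∧ orderOf g = p} ∧ t ∣ p - 1 ∧ Nat.card (Sylow p G) = 1 + n * p ∧ Nat.card G * t = (p - 1) * p * (1 + n * p) := by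
  have hp := (Fact.out : p.Prime)
  have h : Cfsg.Lib.CharDeg.SelfCent p z := ⟨hp, hz, hC⟩
  have h1 := h.card_classes_mul
  obtain ⟨P, hP⟩ := h.exists_sylow
  have h2 := Cfsg.Lib.Small.card_sylow_mul_card_normalizer P
  have h3 : Nat.card (Sylow p G) ≡ 1 [MOD p] := card_sylow_modEq_one p G
  have h4 : Nat.card {c : ConjClasses G // ∃ g : G, ConjClasses.mk g = c ∧ orderOf g = p} =
      Nat.card {C : ConjClasses G // ∃ g ∈ C.carrier, orderOf g = p} := by
    refine Nat.card_congr (Equiv.subtypeEquivRight fun c => ?_)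
    simp only [ConjClasses.mem_carrier_iff_mk_eq]
  have h5 : Nat.card (Sylow p G) = 1 + Nat.card (Sylow p G) / p * p := by
    have := Nat.mod_add_div' (Nat.card (Sylow p G)) p
    rw [h3, Nat.mod_eq_of_lt hp.one_lt] at this
    exact this.symm
  have h6 : Nat.card (Subgroup.normalizer ((P : Subgroup G) : Set G)) =
      p * (Subgroup.zpowers z).relIndex (Subgroup.normalizer (Subgroup.zpowers z : Set G)) := by
    rw [hP, ← h.card_zpowers, ← Subgroup.relIndex_bot_left, ← Subgroup.relIndex_bot_left,
      Subgroup.relIndex_mul_relIndex _ _ _ bot_le Subgroup.le_normalizer]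
  refine ⟨Nat.card (Sylow p G) / p, _, rfl, ?_, h5, ?_⟩
  · rw [h4]; exact Dvd.intro _ h1
  · rw [← h5, h4, ← h1, ← h2, h6]; ring

end Cfsg.Agent.S0995
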