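import Cfsg.Statements.S0997
import Cfsg.Agent.Lib.Cyc.BT

set_option autoImplicit false
open Cfsg

namespace Cfsg.Agent.S0997

/-- Let G be a non-cyclic finite simple group of order p * q^b * g₀, where p and q are distinct primes and g₀ < p - 1. Then either p has the form 2^m + 1 or 2^m - 1 and G is isomorphic to the projective special linear group of dimension 2 over the field with p elements, or p = 2^m + 1 > 3 and G is isomorphic to that group over the field with 2^m elements. -/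
theorem result {G : Type*} [Group G] [Finite G] [IsSimpleGroup G] (hG : ¬ IsCyclic G) (p q b g₀ : ℕ) (hp : p.Prime) (hq : q.Prime) (hpq : p ≠ q) (hG' : Nat.card G = p * q ^ b * g₀) (hg : g₀ < p - 1) : (∃ (m : ℕ) (F : Type) (_ : Field F) (_ : Fintype F), Fintype.card F = p ∧ (p = 2 ^ m + 1 ∨ p = 2 ^ m - 1) ∧ Nonempty (G ≃* Matrix.ProjectiveSpecialLinearGroup (Fin 2) F)) ∨ (∃ (m : ℕ) (F : Type) (_ : Field F) (_ : Fintype F), Fintype.card F = 2 ^ m ∧ p = 2 ^ m + 1 ∧ 3 < p ∧ Nonempty (G ≃* Matrix.ProjectiveSpecialLinearGroup (Fin 2) F)) := by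
  haveI := Fact.mk hp
  obtain ⟨k, g, h1, rfl⟩ := Nat.exists_eq_pow_mul_and_not_dvd (n := g₀)
    (fun e => Nat.card_pos.ne' (by rw [hG', e, mul_zero])) q hq.ne_one
  obtain ⟨h2, m, ⟨h3, h4⟩ | ⟨F, _, _, h3, h4, -, h5⟩⟩ := Cfsg.Lib.Cyc.brauer_tuan
    (fun _ => hG Cfsg.Lib.Small.isCyclic_of_simple) hq hpq (b := b + k) (by rw [hG']; ring)
    ((Nat.le_mul_of_pos_left g (pow_pos hq.pos k)).trans_lt hg) h1
  · exact .inl ⟨m, ZMod p, _, _, ZMod.card p, by omega, h4⟩
  · exact .inr ⟨m, F, _, _, h3, h4, h2, h5⟩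

end Cfsg.Agent.S0997
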