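import Cfsg.Statements.S0999
import Cfsg.Agent.Lib.Cyc.Brauer2

set_option autoImplicit false
open Cfsg

namespace Cfsg.Agent.S0999

/-- Let G be a non-cyclic finite simple group and p a prime divisor of its order with p^3 > |G|. Then p > 3 and G is isomorphic to the projective special linear group of dimension 2 over the field with p elements, or p - 1 is a power of 2 and G is isomorphic to that group over the field with p - 1 elements. -/
theorem result {G : Type*} [Group G] [Finite G] [IsSimpleGroup G] (hG : ¬ IsCyclic G) (p : ℕ) (hp : p.Prime) (hdvd : p ∣ Nat.card G) (hbig : Nat.card G < p ^ 3) : (∃ (F : Type) (_ : Field F) (_ : Fintype F), Fintype.card F = p ∧ 3 < p ∧ Nonempty (G ≃* Matrix.ProjectiveSpecialLinearGroup (Fin 2) F)) ∨ (∃ (m : ℕ) (F : Type) (_ : Field F) (_ : Fintype F), Fintype.card F = 2 ^ m ∧ p = 2 ^ m + 1 ∧ 3 < p ∧ Nonempty (G ≃* Matrix.ProjectiveSpecialLinearGroup (Fin 2) F)) := by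
  have := Fact.mk hp
  have h1 : ¬ IsMulCommutative G := fun _ => hG Lib.Small.isCyclic_of_simple
  obtain ⟨P⟩ : Nonempty (Sylow p G) := inferInstance
  have h2 := Lib.Cyc.brauer_of_lt_cube (Lib.Small.commutator_eq_top_of_simple h1) hbig P fun h =>
    h.eq_bot_or_eq_top.elim (Lib.Small.sylow_ne_bot hdvd P) (Lib.Small.sylow_ne_top h1 P)
  have h3 : pPrimeCore p G = ⊥ := (inferInstance : (pPrimeCore p G).Normal).eq_bot_or_eq_top.resolve_right
    fun e => Lib.Core.coprime_iff_not_dvd.1 (Lib.Core.pPrimeCore_eq_top_iff.1 e) hdvd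
  exact (h2.of_eq_bot h3).psl

end Cfsg.Agent.S0999
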