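import Cfsg.Statements.S1003
import Cfsg.Agent.Lib.Small.O168

set_option autoImplicit false
open Cfsg

namespace Cfsg.Agent.S1003

open Lib.Small Lib.Small.O168

/-- A simple group of order 168 has exactly 21 Sylow 2-subgroups, 28 Sylow 3-subgroups and 8 Sylow 7-subgroups. -/
theorem result {G : Type*} [Group G] [Finite G] [IsSimpleGroup G] (h : Nat.card G = 168) : Nat.card (Sylow 2 G) = 21 ∧ Nat.card (Sylow 3 G) = 28 ∧ Nat.card (Sylow 7 G) = 8 := by
  haveI : Fact (Nat.Prime 3) := ⟨Nat.prime_three⟩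
  haveI : Fact (Nat.Prime 7) := ⟨by norm_num⟩
  refine ⟨?_, ?_, ?_⟩
  · obtain ⟨T⟩ : Nonempty (Sylow 2 G) := inferInstance
    have := card_sylow_mul_card_normalizer T
    rw [normalizer_sylow h T, card_sylow h T] at this
    omega
  · obtain ⟨x, hx⟩ := exists_orderOf h Nat.prime_three (by norm_num)
    obtain ⟨P, hP⟩ := (selfCent h (Or.inl rfl) hx).exists_sylow
    rw [P.card_eq_index_normalizer, ← P.coe_coe, hP, (three h hx).2.1]
  · obtain ⟨x, hx⟩ := exists_orderOf h (p := 7) (by norm_num) (by norm_num)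
    obtain ⟨P, hP⟩ := (selfCent h (Or.inr rfl) hx).exists_sylow
    rw [P.card_eq_index_normalizer, ← P.coe_coe, hP, (seven h hx).2]

end Cfsg.Agent.S1003
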