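import Cfsg.Statements.S1010
import Cfsg.Agent.Lib.Small.SylNum2
import Cfsg.Agent.Lib.Small.Sieve

set_option autoImplicit false
open Cfsg

namespace Cfsg.Agent.S1010

/-- No finite group has exactly twenty-one Sylow 5-subgroups. -/
theorem result {G : Type*} [Group G] [Finite G] : Nat.card (Sylow 5 G) ≠ 21 := by
  open Cfsg.Lib.Small Cfsg.Lib.Cyc Subgroup in
  classical
  intro h
  haveI := Fact.mk (by norm_num : Nat.Prime 5)
  obtain ⟨S, _, _, hS, h4, h5, h6⟩ := exists_simple_of_card_sylow h (by norm_num) (by decide +kernel)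
    fun d h1 h2 => by
      have := Nat.le_of_dvd (by norm_num) h1
      interval_cases d <;> simp_all
  obtain ⟨P⟩ : Nonempty (Sylow 5 S) := inferInstance
  obtain ⟨t, T, Y, a, δ, h7⟩ := exists_pb P (card_sylow_eq_of_lt_sq h4 h5 (by omega) P)
  obtain ⟨x, hx⟩ := h7.exists_orderOf
  obtain ⟨θ, hθ⟩ := h7.nonempty
  obtain ⟨c, hc⟩ : 5 ∣ Nat.card (centralizer ({x} : Set S)) :=
    hx ▸ Nat.card_zpowers x ▸ card_dvd_of_le (zpowers_le.mpr (mem_centralizer_singleton_iff.mpr rfl))
  have h8 := cfg_of_pb h4 h7 hθ hx hc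
  rw [h6] at h8
  generalize relIndex (G := S) _ _ = e at h8
  generalize δ * _ = w at h8
  generalize List.map _ _ = l at h8
  have he : e = 2 ∨ e = 4 := by
    have h1 := h8.two_le
    have h2 := h8.dvd
    have := Nat.le_of_dvd (by norm_num) h2
    interval_cases e <;> simp_all
  by_cases h9 : c = 1
  · have h10 := h8.card
    rcases he with rfl | rfl
    · exact card_ne_of_excl (G := S) (B := 20) (n := 210) (by decide +kernel) (by norm_num) (by norm_num)
        (by omega)
    · exact card_ne_of_excl (G := S) (B := 20) (n := 420) (by decide +kernel) (by norm_num) (by norm_num)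
        (by omega)
  have h10 : ∀ v ∈ w :: l, (7 : ℤ) ∣ v ∨ v.natAbs = 12 ∧ e = 4 := fun v hv => by
    obtain ⟨h1, -, h2, -⟩ := h8.deg v hv
    have h3 := h2.resolve_left h9
    rw [← Int.natAbs_dvd_natAbs]
    generalize v.natAbs = d at h1 h3
    have := Nat.le_of_dvd (by omega) h1
    rcases he with rfl | rfl <;> interval_cases d <;> simp_all
  have h11 : (7 : ℤ) ∣ l.sum := List.dvd_sum fun v hv =>
    (h10 v (List.mem_cons_of_mem _ hv)).resolve_right fun h => by
      have := h8.modl v hv
      omega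
  have h12 := h8.sum
  have h13 := h8.modw
  have := h10 w List.mem_cons_self
  omega

end Cfsg.Agent.S1010
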