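import Cfsg.Statements.S1018
import Cfsg.Agent.Lib.Transfer.SylowIn

set_option autoImplicit false
open Cfsg

namespace Cfsg.Agent.S1018

open Subgroup MulAction Lib.Transfer

/-- Let P be a Sylow p-subgroup of order p of a finite group G, and consider the action of G on the left cosets of the normalizer N of P. Then every element of order p fixes exactly one coset, and an element of N that does not centralize P fixes at most as many cosets as there are orbits of P. -/
theorem result {G : Type*} [Group G] [Finite G] (p : ℕ) [Fact p.Prime] (P : Sylow p G) (hP : Nat.card ↥(P : Subgroup G) = p) : (∀ y : G, orderOf y = p → Nat.card (MulAction.fixedBy (G ⧸ Subgroup.normalizer ((P : Subgroup G) : Set G)) y) = 1) ∧ ∀ x : G, x ∈ Subgroup.normalizer ((P : Subgroup G) : Set G) → x ∉ Subgroup.centralizer ((P : Subgroup G) : Set G) → Nat.card (MulAction.fixedBy (G ⧸ Subgroup.normalizer ((P : Subgroup G) : Set G)) x) ≤ Nat.card (MulAction.orbitRel.Quotient ↥(P : Subgroup G)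 (G ⧸ Subgroup.normalizer ((P : Subgroup G) : Set G))) := by
  have hp := (Fact.out : p.Prime)
  set N := normalizer ((P : Subgroup G) : Set G) with hN
  have hz : ∀ u ∈ (P : Subgroup G), u ≠ 1 → zpowers u = P := fun u hu h1 => by
    refine eq_of_le_of_card_ge (zpowers_le.mpr hu) ?_
    have h2 := orderOf_dvd_natCard _ hu
    rw [hP] at h2
    rw [hP, Nat.card_zpowers,
      ((Nat.dvd_prime hp).mp h2).resolve_left (by rwa [orderOf_eq_one_iff])]
  have hf : ∀ y g : G, (g : G ⧸ N) ∈ fixedBy (G ⧸ N) y ↔ g⁻¹ * y * g ∈ N := fun y g => by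
    rw [mem_fixedBy, Quotient.smul_mk, eq_comm, QuotientGroup.eq, smul_eq_mul, ← mul_assoc]
  refine ⟨fun y hy => ?_, fun x hx hxc => ?_⟩
  · have hyp : IsPGroup p (zpowers y) := IsPGroup.of_card (n := 1) (by rw [Nat.card_zpowers, hy, pow_one])
    have key : ∀ g : G, g⁻¹ * y * g ∈ N → g⁻¹ ⋆ zpowers y = P := fun g hg => by
      have h1 : g⁻¹ ⋆ zpowers y ≤ N := by rwa [conj_zpowers, zpowers_le, inv_inv]
      have h2 := P.is_maximal' (P.isPGroup'.to_sup_of_normal_left' (isPGroup_conj hyp g⁻¹) h1)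
        le_sup_left
      exact eq_of_le_of_card_ge (h2 ▸ le_sup_right) (by rw [card_conj, Nat.card_zpowers, hy, hP])
    rw [Nat.card_eq_one_iff_exists]
    obtain ⟨g, hg⟩ := exists_conj_le_sylow P hyp
    rw [conj_zpowers, zpowers_le] at hg
    have h3 : g⁻¹⁻¹ * y * g⁻¹ ∈ N := by rw [inv_inv]; exact le_normalizer hg
    refine ⟨⟨(g⁻¹ : G), (hf _ _).mpr h3⟩, ?_⟩
    rintro ⟨b, hb⟩
    obtain ⟨c, rfl⟩ := QuotientGroup.mk_surjective b
    refine Subtype.ext (QuotientGroup.eq.mpr ?_)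
    rw [hN, ← conj_eq_self_iff, ← conj_conj]
    nth_rw 1 [← key _ h3]
    rw [conj_inv_conj, key c ((hf _ _).mp hb)]
  · refine Nat.card_le_card_of_injective (fun a => Quotient.mk'' a.1) ?_
    rintro ⟨a, ha⟩ ⟨b, hb⟩ e
    obtain ⟨⟨u, hu⟩, e'⟩ := orbitRel_apply.mp (Quotient.eq''.mp e)
    change u • b = a at e'
    subst e'
    refine Subtype.ext ?_
    change u • b = b
    by_cases h1 : u = 1
    · rw [h1, one_smul]
    have h2 : u⁻¹ * (x * u * x⁻¹) ∈ (P : Subgroup G) :=
      mul_mem (inv_mem hu) ((mem_normalizer_iff.mp hx u).mp hu)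
    have h3 : u⁻¹ * (x * u * x⁻¹) ≠ 1 := fun h3 => hxc (by
      rw [← hz u hu h1, mem_centralizer_iff]
      rintro _ ⟨k, rfl⟩
      rw [inv_mul_eq_one, eq_mul_inv_iff_mul_eq] at h3
      exact (Commute.zpow_left h3 k).eq)
    have h4 : zpowers (u⁻¹ * (x * u * x⁻¹)) ≤ stabilizer G b := by
      rw [zpowers_le, mem_stabilizer_iff, mul_smul, mul_smul, mul_smul,
        inv_smul_eq_iff.mpr (mem_fixedBy.mp hb).symm, mem_fixedBy.mp ha, inv_smul_smul]
    exact h4 (hz _ h2 h3 ▸ hu)

end Cfsg.Agent.S1018
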