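import Cfsg.Statements.S1019
import Cfsg.Agent.Lib.CharDeg.SelfCent
import Cfsg.Agent.Lib.Small.Basic

set_option autoImplicit false
open Cfsg

namespace Cfsg.Agent.S1019

open Subgroup MulAction

/-- Let H be a subgroup of a finite group G and x an element of H. In the action of G on the left cosets of H, the number of cosets fixed by x, multiplied by the size of the conjugacy class of x, equals the index of H multiplied by the number of conjugates of x that lie in H. -/
theorem result {G : Type*} [Group G] [Finite G] (H : Subgroup G) (x : G) (hx : x ∈ H) : Nat.card (MulAction.fixedBy (G ⧸ H) x) * Nat.card {g : G // IsConj x g} = H.index * Nat.card {g : G // IsConj x g ∧ g ∈ H} := by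
  have h1 : Nat.card {g : G // g⁻¹ * x * g ∈ H} =
      Nat.card (fixedBy (G ⧸ H) x) * Nat.card H := by
    refine Lib.CharDeg.card_eq_mul_of_fibers (fun g => ⟨(g.1 : G ⧸ H), ?_⟩) _ ?_
    rotate_left
    · rw [mem_fixedBy, Quotient.smul_mk, eq_comm, QuotientGroup.eq, smul_eq_mul, ← mul_assoc]
      exact g.2
    · rintro ⟨b, hb⟩
      obtain ⟨c, rfl⟩ := QuotientGroup.mk_surjective b
      rw [mem_fixedBy, Quotient.smul_mk, eq_comm, QuotientGroup.eq, smul_eq_mul, ← mul_assoc] at hb
      refine Nat.card_congr ⟨fun a => ⟨c⁻¹ * a.1.1, QuotientGroup.eq.mp (congrArg Subtype.val a.2).symm⟩,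
        fun y => ⟨⟨c * y, ?_⟩, Subtype.ext (QuotientGroup.mk_mul_of_mem c y.2)⟩,
        fun a => by simp, fun y => by simp⟩
      have := H.mul_mem (H.mul_mem (H.inv_mem y.2) hb) y.2
      simpa [mul_assoc] using this
  have h2 : Nat.card {g : G // g⁻¹ * x * g ∈ H} =
      Nat.card {g : G // IsConj x g ∧ g ∈ H} * Nat.card (centralizer ({x} : Set G)) := by
    refine Lib.CharDeg.card_eq_mul_of_fibers
      (fun g => ⟨g.1⁻¹ * x * g.1, isConj_iff.mpr ⟨g.1⁻¹, by simp⟩, g.2⟩) _ ?_
    rintro ⟨b, hb, hb'⟩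
    rw [← Lib.Inv.card_conjugating hb]
    refine Nat.card_congr ⟨fun a => ⟨a.1.1⁻¹, by simpa using congrArg Subtype.val a.2⟩,
      fun y => ⟨⟨y.1⁻¹, by rw [inv_inv, y.2]; exact hb'⟩, Subtype.ext (by simpa using y.2)⟩,
      fun a => by simp, fun y => by simp⟩
  have h3 := Lib.Small.card_isConj_mul_card_centralizer x
  have h4 := H.index_mul_card
  refine Nat.eq_of_mul_eq_mul_right (Nat.card_pos (α := H)) ?_
  rw [mul_right_comm, ← h1, h2, mul_right_comm H.index, h4, ← h3]
  ring

end Cfsg.Agent.S1019
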