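import Cfsg.Statements.S1022
import Cfsg.Agent.Lib.Cyc.Prime
import Cfsg.Agent.Lib.Modular.Values
import Cfsg.Agent.Lib.PGroup.Basic
import Cfsg.Agent.Lib.Small.Basic

set_option autoImplicit false
open Cfsg

namespace Cfsg.Agent.S1022

open Cfsg.Lib Cfsg.Lib.Cyc Cfsg.Lib.Char Cfsg.Lib.Small Subgroup Finset

theorem div_one {n : ℕ} (h : n ∣ 24192) (h1 : n ≡ 1 [MOD 19]) : n = 1 ∨ n = 96 ∨ n = 1008 := by
  have : ∀ d ∈ Nat.divisors 24192, d % 19 = 1 → d = 1 ∨ d = 96 ∨ d = 1008 := by decide +kernel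
  exact this n (Nat.mem_divisors.2 ⟨h, by norm_num⟩) h1

theorem div_six {n : ℕ} {a : ℤ} (h : n ∣ 1728) (h1 : 1 < n) (ha : a = 1 ∨ a = -1) (h2 : (19 : ℤ) ∣ n - a) :
    6 ∣ n := by
  have : ∀ d ∈ Nat.divisors 1728, 1 < d → (d % 19 = 1 ∨ d % 19 = 18) → d % 6 = 0 := by decide +kernel
  exact Nat.dvd_of_mod_eq_zero (this n (Nat.mem_divisors.2 ⟨h, by norm_num⟩) h1 (by omega))

theorem div_val {n : ℕ} {a : ℤ} (h : n ∣ 6048) (h1 : 1 < n) (ha : a = 1 ∨ a = -1) (h2 : (19 : ℤ) ∣ n - a) :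
    a * n = -189 ∨ (2 ∣ n ∧ (a * n = -18 ∨ a * n = -56 ∨ a * n = 96 ∨ a * n = 1008)) := by
  have : ∀ d ∈ Nat.divisors 6048, 1 < d → (d % 19 = 1 ∨ d % 19 = 18) →
      d = 189 ∨ d = 18 ∨ d = 56 ∨ d = 96 ∨ d = 1008 := by decide +kernel
  have := this n (Nat.mem_divisors.2 ⟨h, by norm_num⟩) h1 (by omega)
  rcases ha with rfl | rfl <;> omega

theorem fin_arith {e n : ℕ} {δ w : ℤ} (he : e ∣ 6) (hn : n ∣ 6048) (h1 : 1 < n) (hδ : δ = 1 ∨ δ = -1)
    (hw : w = 0 ∨ w = 171 ∨ w = 133 ∨ w = 285 ∨ w = 1197) (h : e = 1 → w = 0)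
    (f : 190 + w + δ * n = 189 * e) : False := by
  have : ∀ d ∈ Nat.divisors 6048, d ≠ 188 ∧ d ≠ 97 ∧ d ≠ 17 ∧ d ≠ 55 ∧ d ≠ 1009 ∧ d ≠ 377 ∧ d ≠ 92 ∧ d ≠ 206 ∧
      d ≠ 244 ∧ d ≠ 820 ∧ d ≠ 944 ∧ d ≠ 659 ∧ d ≠ 773 ∧ d ≠ 811 ∧ d ≠ 253 := by decide +kernel
  have := this _ (Nat.mem_divisors.2 ⟨hn, by norm_num⟩)
  have := Nat.le_of_dvd (by norm_num) he
  have : e = 1 ∨ e = 2 ∨ e = 3 ∨ e = 6 := by interval_cases e <;> omega
  rcases hδ with rfl | rfl <;> rcases this with rfl | rfl | rfl | rfl <;> omega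

/-- An involution centralizing a Sylow `19`-subgroup with a small centralizer. -/
theorem exists_small {G : Type*} [Group G] [Finite G] [IsSimpleGroup G] [Fact (Nat.Prime 19)]
    (hG : Nat.card G = 459648) (P : Sylow 19 G) (hP : Nat.card P = 19)
    (hn : Nat.card (Sylow 19 G) = 1008) :
    ∃ v ∈ centralizer ((P : Subgroup G) : Set G), orderOf v = 2 ∧
      Nat.card (centralizer ({v} : Set G)) ≤ 456 := by
  have nc := not_isMulCommutative_of_simple (G := G) (by rw [hG]; norm_num)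
  have hN := (normalizer ((P : Subgroup G) : Set G)).card_mul_index
  rw [show (normalizer ((P : Subgroup G) : Set G)).index = 1008 from P.card_eq_index_normalizer.symm.trans hn,
    hG] at hN
  obtain ⟨K, hK⟩ := Sylow.exists_subgroup_card_pow_prime (G := normalizer ((P : Subgroup G) : Set G)) 2
    (n := 3) (by omega)
  have hT : Nat.card (K.map (Subgroup.subtype _)) = 2 ^ 3 := (card_map_of_injective (subtype_injective _)).trans hK
  have TN := map_subtype_le K
  generalize K.map (Subgroup.subtype _) = T at hT TN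
  have : IsCyclic (P : Subgroup G) := isCyclic_of_prime_card hP
  have h1 := Small.inf_centralizer_ne_bot TN (by rw [hT, hP]; decide)
  have pT : IsPGroup 2 T := .of_card hT
  have h2 := PGroup.inf_centralizer_ne_bot (pT.to_le inf_le_left) pT
    ((le_inf le_normalizer (TN.trans (Block.normalizer_le_normalizer_centralizer _))).trans
      (inf_normalizer_le_normalizer_inf)) h1
  obtain ⟨v, ⟨⟨vT, vC⟩, vZ⟩, pv, dv⟩ := exists_mem_prime_orderOf h2
  have ov : orderOf v = 2 := (Nat.prime_dvd_prime_iff_eq pv Nat.prime_two).1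
    (pv.dvd_of_dvd_pow (hT ▸ T.orderOf_dvd_natCard vT))
  refine ⟨v, vC, ov, ?_⟩
  have PH : (P : Subgroup G) ≤ centralizer ({v} : Set G) := fun y hy =>
    mem_centralizer_singleton_iff.2 (vC y hy)
  have TH : T ≤ centralizer ({v} : Set G) := fun y hy => mem_centralizer_singleton_iff.2 (vZ y hy)
  have ne : centralizer ({v} : Set G) ≠ ⊤ := fun e => by
    have : v ∈ center G := mem_center_iff.2 fun g => mem_centralizer_singleton_iff.1 (e ▸ mem_top g)
    rcases (inferInstance : (center G).Normal).eq_bot_or_eq_top with f | f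
    · rw [f, mem_bot] at this; simp [this] at ov
    · exact nc ⟨⟨fun a b => mem_center_iff.1 (f ▸ mem_top b) a⟩⟩
  have hf := two_mul_card_dvd_factorial nc ne
  have hi := (centralizer ({v} : Set G)).card_mul_index
  generalize centralizer ({v} : Set G) = H at *
  have e1 := (normalizer (((P.subtype PH : Sylow 19 H) : Subgroup H) : Set H)).card_mul_index
  rw [show (normalizer (((P.subtype PH : Sylow 19 H) : Subgroup H) : Set H)).index = Nat.card (Sylow 19 H) from
    (P.subtype PH).card_eq_index_normalizer.symm, Sylow.coe_subtype, ← subgroupOf_normalizer_eq PH,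
    ← inf_subgroupOf_right, Nat.card_congr (subgroupOfEquivOfLe inf_le_right).toEquiv] at e1
  have d1 := card_dvd_of_le (le_inf TN TH)
  have d2 := card_dvd_of_le (le_inf (le_normalizer (H := (P : Subgroup G))) PH)
  have d3 := card_dvd_of_le (inf_le_left (a := normalizer ((P : Subgroup G) : Set G)) (b := H))
  have m1 := card_sylow_modEq_one 19 H
  rw [hT] at d1; rw [hP] at d2; rw [hG] at hi hf
  have hN' : Nat.card (normalizer ((P : Subgroup G) : Set G)) = 456 := by omega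
  rw [hN'] at d3
  have le := Nat.le_of_dvd (by norm_num) d3
  obtain ⟨c, hc⟩ : 152 ∣ Nat.card ↥(normalizer ((P : Subgroup G) : Set G) ⊓ H) := by omega
  have : Nat.card (Sylow 19 H) * (c * H.index) = 3024 := by
    rw [← e1, hc] at hi; linarith
  rcases div_one (n := Nat.card (Sylow 19 H)) ((Dvd.intro _ this).trans (by norm_num)) m1 with e | e | e
  · rw [e] at e1; omega
  · rw [e] at this; omega
  · rw [e] at this
    have : H.index ∣ 3 := Dvd.intro_left c (by omega)
    have := Nat.le_of_dvd (by norm_num) this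
    have := Nat.le_of_dvd (Nat.factorial_pos _) (hf.trans (Nat.factorial_dvd_factorial this))
    norm_num [Nat.factorial] at this

/-- No finite simple group has order 459648 = 2^7 * 3^3 * 7 * 19. -/
theorem result {G : Type*} [Group G] [Finite G] [IsSimpleGroup G] : Nat.card G ≠ 459648 := by
  intro hG
  classical
  have : Fact (Nat.Prime 19) := ⟨by norm_num⟩
  obtain ⟨P⟩ : Nonempty (Sylow 19 G) := inferInstance
  obtain ⟨hP, hi⟩ := card_sylow_eq 19 P (k := 1) (m := 24192) (by rw [hG]; norm_num) (by norm_num)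
  rw [pow_one] at hP
  obtain ⟨t, S, Y, a, δ, h⟩ := exists_pb P hP
  generalize (centralizer ((P : Subgroup G) : Set G)).relIndex _ = e at h
  have nc := not_isMulCommutative_of_simple (G := G) (by rw [hG]; norm_num)
  have pf := commutator_eq_top_of_simple nc
  obtain ⟨x, xP, hx⟩ := exists_mem_orderOf_eq_prime (H := (P : Subgroup G)) (p := 19) Fact.out hP.symm.dvd
  obtain ⟨θ, hθ⟩ := h.nonempty
  have ie := h.index_eq hx
  have e18 : e ∣ 18 := Dvd.intro _ h.mul
  have sd := h.sum_deg' hθ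
  have dθ := h.dvdY hθ hx
  have lθ := one_lt_charDegree pf (h.ne_one hθ)
  have dS := fun χ (hχ : χ ∈ S.erase (irrOne G)) => h.dvdS (mem_of_mem_erase hχ) hx
  have lS := fun χ (hχ : χ ∈ S.erase (irrOne G)) => one_lt_charDegree pf (ne_of_mem_erase hχ)
  have sS := fun χ (hχ : χ ∈ S.erase (irrOne G)) => h.signS χ (mem_of_mem_erase hχ)
  have mS := fun χ (hχ : χ ∈ S.erase (irrOne G)) => h.modS (mem_of_mem_erase hχ)
  rw [ie] at dθ dS
  rcases div_one (hi ▸ P.card_dvd_index) (card_sylow_modEq_one 19 G) with n | n | n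
  · exact normalizer_ne_top_of_simple (P := (P : Subgroup G)) (fun f => by simp [f] at hP)
      (fun f => by simp [f] at hi) (index_eq_one.1 (P.card_eq_index_normalizer ▸ n))
  · have d : e * Nat.card (Sylow 19 G) ∣ 1728 := n ▸ mul_dvd_mul_right e18 96
    have h6 : (6 : ℤ) ∣ ∑ χ ∈ S.erase (irrOne G), a χ * charDegree (χ : G → ℂ) :=
      dvd_sum fun χ hχ => Dvd.dvd.mul_left (by
        exact_mod_cast div_six ((dS χ hχ).trans d) (lS χ hχ) (sS χ hχ) (mS χ hχ)) _
    have : ∀ d ∈ Nat.divisors 1728, 1 < d → d % 2 = 0 ∨ d % 3 = 0 := by decide +kernel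
    have := this _ (Nat.mem_divisors.2 ⟨dθ.trans d, by norm_num⟩) lθ
    rcases h.sign with rfl | rfl <;> omega
  · have e6 : e ∣ 6 := by
      have := (centralizer ({x} : Set G)).index_dvd_card
      rw [ie, n, hG] at this
      have : e ∣ 456 := Nat.dvd_of_mul_dvd_mul_right (by norm_num : 0 < 1008) (this.trans (by norm_num))
      simpa using Nat.dvd_gcd e18 this
    have d : e * Nat.card (Sylow 19 G) ∣ 6048 := n ▸ mul_dvd_mul_right e6 1008
    have val := fun χ hχ => div_val ((dS χ hχ).trans d) (lS χ hχ) (sS χ hχ) (mS χ hχ)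
    obtain ⟨v, vC, ov, hv⟩ := exists_small hG P hP n
    have vx : v * x = x * v := (vC x xP).symm
    have v2 : v ^ 2 = 1 := ov ▸ pow_orderOf_eq_one v
    have big : ∀ χ ∈ S.erase (irrOne G), 2 ∣ charDegree (χ : G → ℂ) → 324 ≤ ‖(χ : G → ℂ) v‖ ^ 2 := by
      intro χ hχ h2
      obtain ⟨φ, hφ, hv⟩ := h.exists_iso (mem_of_mem_erase hχ) hx
      obtain ⟨k, hk, -⟩ := Modular.exists_int_apply_of_sq_eq_one hφ
        (u := ⟨v, mem_centralizer_singleton_iff.2 vx⟩) (Subtype.ext v2)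
      obtain ⟨l, hl, hl2⟩ := Modular.exists_int_apply_of_sq_eq_one χ.2.isCharacter v2
      have := hv ⟨v, mem_centralizer_singleton_iff.2 vx⟩ (by rw [ov]; norm_num)
      rw [hk, hl] at this
      have e : 19 * k = l - a χ := by exact_mod_cast this
      have := sS χ hχ
      have : 18 ≤ |l| := by rw [le_abs]; omega
      rw [hl, Complex.norm_intCast, ← Int.cast_abs]
      exact_mod_cast (by nlinarith : 324 ≤ |l| ^ 2)
    have one : ∀ χ ∈ S.erase (irrOne G), ∀ ξ ∈ S.erase (irrOne G), 2 ∣ charDegree (χ : G → ℂ) →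
        2 ∣ charDegree (ξ : G → ℂ) → χ = ξ := by
      intro χ hχ ξ hξ h1 h2
      by_contra ne
      have := sum_le_sum_of_subset_of_nonneg (f := fun χ : IrrCharacter G => ‖(χ : G → ℂ) v‖ ^ 2)
        (subset_univ {χ, ξ}) fun _ _ _ => sq_nonneg _
      rw [sum_pair ne, sum_irr_norm_sq] at this
      have : (Nat.card (centralizer ({v} : Set G)) : ℝ) ≤ 456 := by exact_mod_cast hv
      linarith [big χ hχ h1, big ξ hξ h2]
    have ce := h.card_erase
    have fin : ∀ w : ℤ, w = 0 ∨ w = 171 ∨ w = 133 ∨ w = 285 ∨ w = 1197 → (e = 1 → w = 0) →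
        ∑ χ ∈ S.erase (irrOne G), (a χ * charDegree (χ : G → ℂ) + 189) ≠ w := by
      intro w hw h1 f
      rw [sum_add_distrib, sum_const, nsmul_eq_mul] at f
      exact fin_arith e6 (dθ.trans d) lθ h.sign hw h1 (by omega)
    by_cases ex : ∃ χ ∈ S.erase (irrOne G), 2 ∣ charDegree (χ : G → ℂ)
    · obtain ⟨χ, hχ, h2⟩ := ex
      refine fin _ ?_ (fun f => ?_) (sum_eq_single_of_mem χ hχ fun ξ hξ ne => ?_)
      · have := val χ hχ; omega
      · have := card_pos.2 ⟨χ, hχ⟩; omega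
      · have := (val ξ hξ).resolve_right fun f => ne (one ξ hξ χ hχ f.1 h2); omega
    · refine fin 0 (.inl rfl) (fun _ => rfl) (sum_eq_zero fun ξ hξ => ?_)
      have := (val ξ hξ).resolve_right fun f => ex ⟨ξ, hξ, f.1⟩; omega

end Cfsg.Agent.S1022
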