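import Cfsg.Statements.S1025
import Cfsg.Agent.Lib.Chev.Data

set_option autoImplicit false
open Cfsg

namespace Cfsg.Agent.S1025

open Cfsg.Lib.Chev

/-- Chevalley's commutator formula: for roots `s ≠ ±r`, `x_s(u) x_r(t) = x_r(t) x_s(u) · ∏_{i,j>0} x_{ir+js}(C_{ijrs} (-t)^i u^j)`, the product (in order of increasing `i + j`) and the constants being those of `commWord`. -/
theorem result {F : Type*} [Field F] (D : Cfsg.Lie.ChevalleyDatum) (hD : D ∈ [Cfsg.Lie.chevG2, Cfsg.Lie.chevB2, Cfsg.Lie.chevD4, Cfsg.Lie.chevF4, Cfsg.Lie.chevE6, Cfsg.Lie.chevE7, Cfsg.Lie.chevE8]) (r s : ℕ) (hr : r < D.nroots) (hs : s < D.nroots)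
    (hrs : s ≠ r) (hneg : s ≠ D.neg r) (t u : F) :
    D.x F s u * D.x F r t = D.x F r t * D.x F s u * D.wordMat F (D.commWord F r s t u) := by
  obtain ⟨c, h⟩ := exists_checked hD
  lift r to Fin D.nroots using hr
  lift s to Fin D.nroots using hs
  have h1 : s ≠ r := fun e => hrs (by rw [e])
  have h2 : s ≠ h.R.neg r := fun e => hneg (by rw [e, h.neg_val])
  rw [h.wordMat_commWord F h1 h2, h.x_eq, h.x_eq]
  exact (h.base' F).strongComm_xA r s h1 h2 t u

end Cfsg.Agent.S1025
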