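import Cfsg.Statements.S1026
import Cfsg.Agent.Lib.Chev.Dict

set_option autoImplicit false
open Cfsg

namespace Cfsg.Agent.S1026

open Cfsg.Lib.Chev

/-- Every element of `U` has a unique expression `∏_{r ∈ Φ⁺} x_r(t_r)`, the product over the positive roots in increasing index order (the coefficient family `t`, supported on the positive roots, exists and is unique); and conversely every such ordered product is the matrix of an element of `U`. -/
theorem result {F : Type*} [Field F] (D : Cfsg.Lie.ChevalleyDatum) (hD : D ∈ [Cfsg.Lie.chevG2, Cfsg.Lie.chevB2, Cfsg.Lie.chevD4, Cfsg.Lie.chevF4, Cfsg.Lie.chevE6, Cfsg.Lie.chevE7, Cfsg.Lie.chevE8]) :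
    (∀ g : GL D.Idx F, g ∈ D.posUnipotent F →
      ∃! t : ℕ → F, (∀ r, ¬ D.IsPosRoot r → t r = 0) ∧
        (g : Matrix D.Idx D.Idx F) = D.wordMat F (D.posRoots.map fun r => (r, t r))) ∧
    (∀ t : ℕ → F, ∃ g : GL D.Idx F, g ∈ D.posUnipotent F ∧
      (g : Matrix D.Idx D.Idx F) = D.wordMat F (D.posRoots.map fun r => (r, t r))) := by
  obtain ⟨c, h⟩ := exists_checked hD
  have key : ∀ t : ℕ → F, D.wordMat F (D.posRoots.map fun r => (r, t r)) =
      ((h.sys F).prodL h.posL fun r => t r : GL D.Idx F) := fun t => by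
    rw [h.coe_prodL, h.posRoots_eq]
  simp only [key, Units.val_inj, h.posUnipotent_eq]
  refine ⟨fun g hg => ?_, fun t => ⟨_, (h.sys F).prodL_mem_XS (fun r hr => h.mem_posL.1 hr) _, rfl⟩⟩
  obtain ⟨t, rfl⟩ := (h.sys F).exists_prodL RootSys.isClosed_pos (f := RootSys.htL _)
    (fun _ hr => RootSys.IsPos.ht_pos hr) h.nodup_posL (fun r => h.mem_posL) hg
  refine ⟨fun r => if hr : D.IsPosRoot r then t ⟨r, hr.1⟩ else 0, ⟨fun r hr => dif_neg hr,
    (h.sys F).prodL_congr fun r hr => ?_⟩, fun t' ht' => funext fun r => ?_⟩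
  · simp only [(h.isPosRoot_iff r).2 (h.mem_posL.1 hr), dite_true]
  · split_ifs with hr
    · exact ((h.faithful F).prodL_inj (f := RootSys.htL _) h.nodup_posL
        (fun r hr => (h.mem_posL.1 hr).ht_pos) ht'.2 ⟨r, hr.1⟩
        (h.mem_posL.2 ((h.isPosRoot_iff ⟨r, hr.1⟩).1 hr))).symm
    · exact ht'.1 r hr

end Cfsg.Agent.S1026
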