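import Cfsg.Statements.S1035
import Cfsg.Agent.Lib.Chev.WeylHom

set_option autoImplicit false
open Cfsg

namespace Cfsg.Agent.S1035

open Cfsg.Lib.Chev

/-- `d · |H| = (q - 1)^rank` over a field with `q` elements, with `d = 1` (G₂, F₄, E₈), `gcd(3, q-1)` (E₆), `gcd(2, q-1)` (E₇, B₂), `gcd(2, q-1)²` (D₄). -/
theorem result {F : Type*} [Field F] [Fintype F] {q : ℕ} (hq : Fintype.card F = q)
    (p : Cfsg.Lie.ChevalleyDatum × ℕ)
    (hp : p ∈ [(Cfsg.Lie.chevG2, 1), (Cfsg.Lie.chevF4, 1), (Cfsg.Lie.chevE8, 1), (Cfsg.Lie.chevE6, Nat.gcd 3 (q - 1)),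
      (Cfsg.Lie.chevE7, Nat.gcd 2 (q - 1)), (Cfsg.Lie.chevB2, Nat.gcd 2 (q - 1)), (Cfsg.Lie.chevD4, Nat.gcd 2 (q - 1) ^ 2)]) :
    p.2 * Nat.card (p.1.diagonalSubgroup F) = (q - 1) ^ p.1.rank := by
  simp only [List.mem_cons, List.not_mem_nil, or_false] at hp
  rcases hp with rfl | rfl | rfl | rfl | rfl | rfl | rfl
  · simpa [checkedG2.card_kerChr hq (kerDataG2 _)] using checkedG2.card_diagonal_mul hq
  · simpa [checkedF4.card_kerChr hq (kerDataF4 _)] using checkedF4.card_diagonal_mul hq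
  · simpa [checkedE8.card_kerChr hq (kerDataE8 _)] using checkedE8.card_diagonal_mul hq
  · simpa [checkedE6.card_kerChr hq (kerDataE6 _)] using checkedE6.card_diagonal_mul hq
  · simpa [checkedE7.card_kerChr hq (kerDataE7 _)] using checkedE7.card_diagonal_mul hq
  · simpa [checkedB2.card_kerChr hq (kerDataB2 _)] using checkedB2.card_diagonal_mul hq
  · simpa [checkedD4.card_kerChr hq (kerDataD4 _)] using checkedD4.card_diagonal_mul hq

end Cfsg.Agent.S1035
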