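import Cfsg.Statements.S1036
import Cfsg.Agent.Lib.Chev.Dict

set_option autoImplicit false
open Cfsg

namespace Cfsg.Agent.S1036

open Cfsg.Lib.Chev

/-- `H` normalises `U` and `U ∩ H = 1`; thus `B = UH` is the semidirect product of `U` by `H`. -/
theorem result {F : Type*} [Field F] (D : Cfsg.Lie.ChevalleyDatum) (hD : D ∈ [Cfsg.Lie.chevG2, Cfsg.Lie.chevB2, Cfsg.Lie.chevD4, Cfsg.Lie.chevF4, Cfsg.Lie.chevE6, Cfsg.Lie.chevE7, Cfsg.Lie.chevE8]) :
    D.diagonalSubgroup F ≤ Subgroup.normalizer (D.posUnipotent F : Set (GL D.Idx F)) ∧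
      D.posUnipotent F ⊓ D.diagonalSubgroup F = ⊥ := by
  obtain ⟨c, h⟩ := exists_checked hD
  rw [h.posUnipotent_eq, h.diagonalSubgroup_eq]
  exact ⟨(h.sys F).H_le_normalizer _, (h.faithful F).U_inf_H⟩

end Cfsg.Agent.S1036
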