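import Cfsg.Statements.S1040
import Cfsg.Agent.Lib.Chev.Dict

set_option autoImplicit false
open Cfsg

namespace Cfsg.Agent.S1040

open Cfsg.Lib.Chev

/-- `U ∩ N = 1` and `B ∩ N = UH ∩ N = H`. -/
theorem result {F : Type*} [Field F] (D : Cfsg.Lie.ChevalleyDatum) (hD : D ∈ [Cfsg.Lie.chevG2, Cfsg.Lie.chevB2, Cfsg.Lie.chevD4, Cfsg.Lie.chevF4, Cfsg.Lie.chevE6, Cfsg.Lie.chevE7, Cfsg.Lie.chevE8]) :
    D.posUnipotent F ⊓ D.monomialSubgroup F = ⊥ ∧ D.borelSubgroup F ⊓ D.monomialSubgroup F = D.diagonalSubgroup F := by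
  obtain ⟨c, h⟩ := exists_checked hD
  rw [h.borelSubgroup_eq, h.posUnipotent_eq, h.diagonalSubgroup_eq, h.monomialSubgroup_eq]
  exact ⟨eq_bot_iff.2 fun g hg => (h.faithful F).eq_one_of_U_H hg.1
    ((h.faithful F).mem_H_of_B_N ((h.sys F).U_le_B hg.1) hg.2), (h.faithful F).B_inf_N⟩

end Cfsg.Agent.S1040
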