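import Cfsg.Statements.S1042
import Cfsg.Agent.Lib.Chev.Dict

set_option autoImplicit false
open Cfsg

namespace Cfsg.Agent.S1042

open Cfsg.Lib.Chev

/-- The Chevalley group has a (B,N)-pair with `B = UH`, `N` the monomial subgroup and the `n_p`, `p` fundamental, as representatives of the distinguished involutions of `W = N/H`. -/
theorem result {F : Type*} [Field F] (D : Cfsg.Lie.ChevalleyDatum) (hD : D ∈ [Cfsg.Lie.chevG2, Cfsg.Lie.chevB2, Cfsg.Lie.chevD4, Cfsg.Lie.chevF4, Cfsg.Lie.chevE6, Cfsg.Lie.chevE7, Cfsg.Lie.chevE8]) :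
    ∃ P : Cfsg.BNPair ↥(D.group F),
      P.B = (D.borelSubgroup F).subgroupOf (D.group F) ∧ P.N = (D.monomialSubgroup F).subgroupOf (D.group F) ∧
      P.S = {n : ↥(D.group F) | ∃ i < D.rank, ((n : GL D.Idx F) : Matrix D.Idx D.Idx F) = D.nMat F (D.simple i) 1} := by
  obtain ⟨c, h⟩ := exists_checked hD
  refine ⟨(h.gsys_faithful F).bn (h.gsys_grp F), h.gsys_B F, h.gsys_N F, Set.ext fun n => ?_⟩
  constructor
  · rintro ⟨i, rfl⟩
    exact ⟨i, i.2, h.coe_n_one _⟩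
  · rintro ⟨i, hi, e⟩
    exact ⟨⟨i, hi⟩, ((h.coe_eq_gn_iff (r := h.R.simple ⟨i, hi⟩)).1 e).symm⟩

end Cfsg.Agent.S1042
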