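import Cfsg.Statements.S1053
import Cfsg.Agent.Lib.Chev.Data

set_option autoImplicit false
open Cfsg

namespace Cfsg.Agent.S1053

open Cfsg.Lib.Chev

/-- There is `n₀ ∈ N` with `n₀ U n₀⁻¹ = V` (a representative of the longest element of the Weyl group). -/
theorem result {F : Type*} [Field F] (D : Cfsg.Lie.ChevalleyDatum) (hD : D ∈ [Cfsg.Lie.chevG2, Cfsg.Lie.chevB2, Cfsg.Lie.chevD4, Cfsg.Lie.chevF4, Cfsg.Lie.chevE6, Cfsg.Lie.chevE7, Cfsg.Lie.chevE8]) :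
    ∃ n ∈ D.monomialSubgroup F, (D.posUnipotent F).map (MulAut.conj n).toMonoidHom = D.negUnipotent F := by
  obtain ⟨c, h⟩ := exists_checked hD
  rw [h.posUnipotent_eq, h.negUnipotent_eq, h.monomialSubgroup_eq]
  obtain ⟨w, hw, hw'⟩ := RootSys.exists_W_neg (R := h.R)
  obtain ⟨n, hn⟩ := (h.sys F).exists_nw_of_mem_W hw
  obtain ⟨e, he⟩ := hn.exists_acts
  exact ⟨n, hn.mem_N, he.map_XS fun r => by simp [hw']⟩

end Cfsg.Agent.S1053
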