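import Cfsg.Statements.S1058
import Cfsg.Agent.Lib.Chev.SpinB2
import Cfsg.Agent.Lib.Orth.CharTwo
import Cfsg.Agent.S0247
import Cfsg.Agent.S1060

set_option autoImplicit false
open Cfsg

namespace Cfsg.Agent.S1058

open Cfsg.Lib.Chev Cfsg.Lib.Orth

/-- B₂(2) ≅ S₆. -/
theorem result {F : Type*} [Field F] [Fintype F] (hF : Fintype.card F = 2) :
    Nonempty (↥(Cfsg.Lie.chevB2.group F) ≃* Equiv.Perm (Fin 6)) := by
  have h2 : (2 : F) = 0 := by simpa [hF] using FiniteField.cast_card_eq_zero F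
  let X := repB2.real F
  obtain ⟨φ, hφ⟩ := X.faithful.exists_hom_of_adjoint (X.strongComm' isTab_B2)
    (checkedB2.noA1 (by simp)) X.grp_eq (checkedB2.gsys_strongComm F) (checkedB2.gsys_adjoint F)
  obtain ⟨ρ, -, hρ⟩ := X.exists_spin isSpin_B2 (hypOdd F 2)
  classical
  have : Subsingleton Fˣ := Fintype.card_le_one_iff_subsingleton.1 (by simp [Fintype.card_units, hF])
  have h3 := X.center_eq
  rw [Subsingleton.elim (checkedB2.R.kerChr F) ⊥, Subgroup.map_bot] at h3
  have h4 := (checkedB2.gsys_faithful F).ker_le_center hφ X.grp_eq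
  rw [h3, le_bot_iff, MonoidHom.ker_eq_bot_iff] at hρ h4
  obtain ⟨e⟩ := nonempty_O_qOdd_equiv_sp h2 2
  obtain ⟨e'⟩ := S0247.result hF
  let f := MulEquiv.ofBijective φ ⟨h4, hφ.surjective (checkedB2.gsys_grp F)⟩
  refine ⟨MulEquiv.ofBijective ((e.trans e').toMonoidHom.comp (ρ.comp f.symm.toMonoidHom))
    (((e.trans e').injective.comp (hρ.comp f.symm.injective)).bijective_of_nat_card_le ?_)⟩
  have := S1060.result hF
  rw [Nat.card_perm, Nat.card_fin]
  exact (show Nat.card (Lie.chevB2.group F) = Nat.factorial 6 from (one_mul _).symm.trans this).ge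

end Cfsg.Agent.S1058
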