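import Cfsg.Statements.S1061
import Cfsg.Agent.Lib.Chev.WeylHom

set_option autoImplicit false
open Cfsg

namespace Cfsg.Agent.S1061

open Cfsg.Lib.Chev

/-- `gcd(2, q-1)² · |D₄(q)| = q¹² (q² - 1)(q⁴ - 1)(q⁴ - 1)(q⁶ - 1)`. -/
theorem result {F : Type*} [Field F] [Fintype F] {q : ℕ} (hq : Fintype.card F = q) : Nat.gcd 2 (q - 1) ^ 2 * Nat.card ↥(Cfsg.Lie.chevD4.group F) = q ^ 12 * (q ^ 2 - 1) * (q ^ 4 - 1) * (q ^ 4 - 1) * (q ^ 6 - 1) := by
  have h := checkedD4.card_group_mul hq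
  rw [checkedD4.card_kerChr hq (kerDataD4 _)] at h
  replace h := h.trans (congrArg _ (poinD4 checkedD4 (hq ▸ Fintype.card_pos)))
  simpa [mul_assoc, show Lie.chevD4.nroots / 2 = 12 from rfl] using h

end Cfsg.Agent.S1061
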