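import Cfsg.Statements.S1084
import Cfsg.Agent.Lib.E6C.Gen

set_option autoImplicit false
open Cfsg

namespace Cfsg.Agent.S1084

open Cfsg.Lib.Chev Cfsg.Lib.E6C Cfsg.Lie Matrix

def un : Fin 27 → I27 := ![
  (0, 0, 0), (0, 0, 1), (0, 0, 2), (0, 1, 0), (0, 1, 1), (0, 1, 2), (0, 2, 0), (0, 2, 1), (0, 2,
  2), (1, 0, 0), (1, 0, 1), (1, 0, 2), (1, 1, 0), (1, 1, 1), (1, 1, 2), (1, 2, 0), (1, 2, 1), (1,
  2, 2), (2, 0, 0), (2, 0, 1), (2, 0, 2), (2, 1, 0), (2, 1, 1), (2, 1, 2), (2, 2, 0), (2, 2, 1),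
  (2, 2, 2)]

def eI : Fin 27 ≃ I27 where
  toFun := un
  invFun x := ⟨9 * x.1 + 3 * x.2.1 + x.2.2, by omega⟩
  left_inv := by decide
  right_inv := by decide

theorem cub_eq {F : Type*} [Field F] (v : I27 → F) : cub (v ∘ eI) = cubicT v := by
  simp [cub, ev3, tL, eI, un, cubicT, det_fin_three, mat3, trace, mul_apply, Fin.sum_univ_three]
  ring

theorem nonempty_equiv (F : Type*) [Field F] : Nonempty (funStab F cub ≃* E6univ F) := by
  let e : GL (Fin 27) F ≃* GL I27 F := Units.mapEquiv (reindexAlgEquiv F F eI).toMulEquiv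
  have key : ∀ g : GL (Fin 27) F, e g ∈ E6univ F ↔ g ∈ funStab F cub := fun g => by
    have h : ∀ v : I27 → F, cubicT ((e g : Matrix I27 I27 F) *ᵥ v) =
        cub ((g : Matrix (Fin 27) (Fin 27) F) *ᵥ (v ∘ eI)) := fun v => by
      rw [← cub_eq]
      change cub (((g : Matrix (Fin 27) (Fin 27) F).submatrix eI.symm eI.symm *ᵥ v) ∘ eI) = _
      rw [submatrix_mulVec_equiv, Function.comp_assoc, Equiv.symm_comp_self, Function.comp_id,
        Equiv.symm_symm]
    refine ⟨fun hg v => ?_, fun hg v => (h v).trans ((hg _).trans (cub_eq v))⟩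
    have := (h (v ∘ eI.symm)).symm.trans ((hg _).trans (cub_eq _).symm)
    rwa [Function.comp_assoc, Equiv.symm_comp_self, Function.comp_id] at this
  exact ⟨(e.subgroupMap _).trans (MulEquiv.subgroupCongr (Subgroup.ext fun g => by
    obtain ⟨g, rfl⟩ := e.surjective g
    exact (Subgroup.mem_map_iff_mem e.injective).trans (key g).symm))⟩

/-- The isometry group as a Chevalley group. -/
noncomputable def realE {F : Type*} [Field F] (h2 : ∃ a : F, a ≠ 0 ∧ a ≠ 1) :
    rep.Real F (funStab F (cub (F := F))) where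
  ψ := Subgroup.subtype _
  inj := Subtype.val_injective
  y r t := ⟨rep.xG F r t, xG_mem r t⟩
  hy _ _ := rfl
  top K h := eq_top_iff.2 fun g _ => by
    have : (rep.sys F).grp ≤ K.map (Subgroup.subtype _) :=
      PreSys.XS_le.2 fun r _ t => ⟨_, h r t, rfl⟩
    obtain ⟨k, hk, e⟩ := this (mem_grp h2 g.2)
    exact Subtype.ext e ▸ hk


/-- E₆ via the 27-dimensional cubic form: for a finite field with at least three elements, (isometries of the cubic form) / centre ≅ the Chevalley group E₆(F). -/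
theorem result {F : Type*} [Field F] [Fintype F] (hF : 3 ≤ Fintype.card F) : Nonempty (Cfsg.Lie.E6 F ≃* ↥(Cfsg.Lie.chevE6.group F)) := by
  have h2 : ∃ a : F, a ≠ 0 ∧ a ≠ 1 := by
    classical
    obtain ⟨a, -, ha⟩ := Finset.exists_mem_notMem_of_card_lt_card (s := {0, 1})
      (t := (Finset.univ : Finset F)) (Finset.card_le_two.trans_lt hF)
    exact ⟨a, by simpa using ha⟩
  let X := realE h2
  obtain ⟨φ, hφ, -⟩ := (checkedE6.gsys_faithful F).exists_hom_laced (checkedE6.gsys_strongComm F)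
    (checkedE6.gsys_adjoint F).hMul checkedE6.anti laced (checkedE6.gsys_grp F)
    (X.hMul.ctRels X.strongComm (MinRep.anti _) laced)
    fun K h h' => X.grp_eq ▸ X.sys.grp_le_of_simple h h'
  have := (isSimpleGroup_group' (F := F) (D := Lie.chevE6) (by simp)).1
  have : Nontrivial (funStab F (cub (F := F)) ⧸ Subgroup.center _) :=
    ⟨⟨(X.sys.x (RE.simple 0) 1 : funStab F (cub (F := F))), 1, fun e => one_ne_zero
      (X.faithful.x_eq_one_iff.1 (X.faithful.eq_one_of_U_H (X.sys.x_mem_U (RootSys.isPos_simple 0) 1)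
        ((X.faithful.mem_center_iff X.grp_eq).1 ((QuotientGroup.eq_one_iff _).1 e)).1))⟩⟩
  obtain ⟨e⟩ := nonempty_equiv_of_simple hφ
  obtain ⟨e'⟩ := nonempty_equiv F
  exact ⟨(e.trans (Cfsg.Lib.Linear.centerQuotCongr e')).symm⟩

end Cfsg.Agent.S1084
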