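import Cfsg.Statements.S1095
import Cfsg.Agent.Lib.Chev.Data

set_option autoImplicit false
open Cfsg

namespace Cfsg.Agent.S1095

open Cfsg.Lib.Chev

/-- `n_p` (p = p_{i+1} fundamental) is the signed monomial matrix `h_{p_j} ↦ h_{p_j} - A_{p_j,p} h_p`, `e_s ↦ η_s e_{w_p(s)}`, with `η_s = ±1`, `η_p = η_{-p} = -1`, `η_s η_{w_p(s)} = (-1)^{A_{p,s}}`, `η_s η_{-s} = 1`. -/
theorem result {F : Type*} [Field F] (D : Cfsg.Lie.ChevalleyDatum) (hD : D ∈ [Cfsg.Lie.chevG2, Cfsg.Lie.chevB2, Cfsg.Lie.chevD4, Cfsg.Lie.chevF4, Cfsg.Lie.chevE6, Cfsg.Lie.chevE7, Cfsg.Lie.chevE8]) (i : ℕ) (hi : i < D.rank) :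
    ∃ η : ℕ → ℤ, (∀ s < D.nroots, η s = 1 ∨ η s = -1) ∧ η (D.simple i) = -1 ∧ η (D.neg (D.simple i)) = -1 ∧
      (∀ s < D.nroots, η s * η (D.reflectRoot i s) = (-1) ^ (D.cartan i s).natAbs ∧ η s * η (D.neg s) = 1) ∧
      D.nMat F (D.simple i) 1 = Matrix.of (fun (row col : D.Idx) =>
        Sum.elim
          (fun j' : Fin D.rank => Sum.elim
            (fun j : Fin D.rank => (if j' = j then (1 : F) else 0) - (if (j' : ℕ) = i then ((D.cartan j (D.simple i) : ℤ) : F) else 0))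
            (fun _ => (0 : F)) col)
          (fun s' : Fin D.nroots => Sum.elim
            (fun _ => (0 : F))
            (fun s : Fin D.nroots => if (s' : ℕ) = D.reflectRoot i s then ((η s : ℤ) : F) else 0) col)
          row) := by
  obtain ⟨c, h⟩ := exists_checked hD
  lift i to Fin D.rank using hi
  have key : ∀ s : Fin D.nroots, sg (t1 (eT c i) s) = h.T.η i s := fun _ => rfl
  refine ⟨fun s => sg (t1 (eT c i) s), fun s _ => Int.eq_one_or_neg_one_of_mul_eq_one (sg_sq _),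
    h.T.η_simple i, (h.T.η_neg i _).trans (h.T.η_simple i), fun s hs => ?_, ?_⟩
  · lift s to Fin D.nroots using hs
    rw [h.reflectRoot_eq, ← h.neg_val]
    simp only [key, h.cartan_eq, h.T.η_sref, h.T.η_neg, h.T.η_sq, and_self]
  · rw [← h.simple_val, ← h.coe_n_one]
    refine (congrArg Units.val ((h.base' F).n_simple_one i)).trans ?_
    rw [RootSys.coe_monoG]
    ext (j | u) (k | s) <;>
      simp [RootSys.mono, RootSys.co_sref_simple, Fin.val_inj, h.A_eq, h.simple_val,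
        h.reflectRoot_eq, key]

end Cfsg.Agent.S1095
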