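import Cfsg.Statements.S1096
import Cfsg.Agent.Lib.Chev.Dict

set_option autoImplicit false
open Cfsg

namespace Cfsg.Agent.S1096

open Cfsg.Lib.Chev

/-- `n_p h_{p_j}(t) n_p⁻¹ = h_{w_p(p_j)}(t)` for fundamental `p`, `p_j` and `t ≠ 0`, stated as `n_p h_{p_j}(t) = h_{w_p(p_j)}(t) n_p`. -/
theorem result {F : Type*} [Field F] (D : Cfsg.Lie.ChevalleyDatum) (hD : D ∈ [Cfsg.Lie.chevG2, Cfsg.Lie.chevB2, Cfsg.Lie.chevD4, Cfsg.Lie.chevF4, Cfsg.Lie.chevE6, Cfsg.Lie.chevE7, Cfsg.Lie.chevE8]) (i j : ℕ) (hi : i < D.rank) (hj : j < D.rank) (t : F) (ht : t ≠ 0) :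
    D.nMat F (D.simple i) 1 * D.hMat F (D.simple j) t = D.hMat F (D.reflectRoot i (D.simple j)) t * D.nMat F (D.simple i) 1 := by
  obtain ⟨c, h⟩ := exists_checked hD
  lift i to Fin D.rank using hi
  lift j to Fin D.rank using hj
  lift t to Fˣ using IsUnit.mk0 _ ht
  rw [← h.simple_val, ← h.simple_val, h.reflectRoot_eq, ← h.coe_h, ← h.coe_h, ← h.coe_n_one,
    ← Units.val_mul, ← Units.val_mul, ← (h.adjoint F).hMul.conj_h ((h.sys F).acts_n_simple i),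
    inv_mul_cancel_right]

end Cfsg.Agent.S1096
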