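import Cfsg.Statements.S1101
import Cfsg.Agent.Lib.Twisted.AutG2

set_option autoImplicit false
open Cfsg

namespace Cfsg.Agent.S1101

open Cfsg.Lib.Twisted Cfsg.Lib.Chev

/-- For ²G₂ over `K` with `|K| = 3^(2m+1)`, `θ = 3^m`: `U¹ = G¹ ∩ U` consists exactly of the elements `x_a(t^θ) x_b(t) x_{a+b}(t^{θ+1}+u^θ) x_{2a+b}(t^{2θ+1}+v^θ) x_{3a+b}(u) x_{3a+2b}(v)`, `t, u, v ∈ K`, and it has `|K|³` elements. -/
theorem result {K : Type*} [Field K] [Fintype K] {m : ℕ} (hK : Fintype.card K = 3 ^ (2 * m + 1)) :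
    (∀ g : GL Cfsg.Lie.chevG2.Idx K, g ∈ Cfsg.Lie.chevG2.posUnipotent K ⊓ Cfsg.Lie.twistedG2 K (3 ^ m) ↔
      ∃ t u v : K, (g : Matrix Cfsg.Lie.chevG2.Idx Cfsg.Lie.chevG2.Idx K) = Cfsg.Lie.chevG2.wordMat K (Cfsg.Lie.reeWordU (3 ^ m) t u v)) ∧
    Nat.card ↥(Cfsg.Lie.chevG2.posUnipotent K ⊓ Cfsg.Lie.twistedG2 K (3 ^ m)) = (3 ^ (2 * m + 1)) ^ 3 := by
  obtain ⟨S, φ, ψ, h⟩ := exists_isG2 hK
  refine ⟨fun g => ?_, ?_⟩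
  · rw [← map_inf_eq (Subgroup.subtype_injective _) map_KG2 (map_U checkedG2 K)]
    constructor
    · rintro ⟨g, hg, rfl⟩
      obtain ⟨t, u, v, rfl⟩ := h.mem_U_iff.1 hg
      exact ⟨t, u, v, h.wd_U t u v ▸ coe_wd checkedG2 _⟩
    · rintro ⟨t, u, v, e⟩
      exact ⟨_, h.mem_U_iff.2 ⟨t, u, v, (h.wd_U t u v)⟩, Units.ext ((coe_wd checkedG2 _).trans e.symm)⟩
  · rw [card_inf_eq (Subgroup.subtype_injective _) map_KG2 (map_U checkedG2 K)]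
    exact h.cardU

end Cfsg.Agent.S1101
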