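import Cfsg.Statements.S1108
import Cfsg.Agent.Lib.Twisted.AutE6D4

set_option autoImplicit false
open Cfsg

namespace Cfsg.Agent.S1108

open Cfsg.Lib.Twisted Cfsg.Lib.Chev

/-- ³D₄(q) equals its derived subgroup. -/
theorem result {K : Type*} [Field K] [Fintype K] {q : ℕ} (hq : IsPrimePow q) (hK : Fintype.card K = q ^ 3) : commutator ↥(Cfsg.Lie.twistedD4 K q) = ⊤ := by
  obtain ⟨S, hθ⟩ := exists_twist_D4 hq hK
  exact commutator_map_eq_top (Subgroup.subtype_injective _) map_KD4 (perfect_D4 hK hθ hq.two_le)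

end Cfsg.Agent.S1108
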