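import Cfsg.Statements.S1115
import Cfsg.Agent.Lib.Twisted.AutG2

set_option autoImplicit false
open Cfsg

namespace Cfsg.Agent.S1115

open Cfsg.Lib.Twisted Cfsg.Lib.Chev

/-- `N¹/H¹ ≅ W¹`: a surjective homomorphism from `N¹ = G¹ ∩ N` onto the group of order 2 with kernel `H¹`. -/
theorem result {K : Type*} [Field K] [Fintype K] {m : ℕ} (hK : Fintype.card K = 3 ^ (2 * m + 1)) :
    ∃ φ : ↥(Cfsg.Lie.chevG2.monomialSubgroup K ⊓ Cfsg.Lie.twistedG2 K (3 ^ m)) →* Multiplicative (ZMod 2), Function.Surjective φ ∧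
      φ.ker = (Cfsg.Lie.chevG2.diagonalSubgroup K ⊓ Cfsg.Lie.twistedG2 K (3 ^ m)).subgroupOf (Cfsg.Lie.chevG2.monomialSubgroup K ⊓ Cfsg.Lie.twistedG2 K (3 ^ m)) := by
  obtain ⟨S, φ, ψ, h⟩ := exists_isG2 hK
  exact exists_hom_map (Subgroup.subtype_injective _) map_KG2 (map_H checkedG2 K) (map_N checkedG2 K)
    (h.isTw.exists_hom_of_equiv weyl_G2.some)

end Cfsg.Agent.S1115
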