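import Cfsg.Statements.S1119
import Cfsg.Agent.Lib.Inv.RankOne

set_option autoImplicit false
open Cfsg

namespace Cfsg.Agent.S1119
open Cfsg.Lib.Inv


/-- In the rank-one set-up (`G` finite and doubly transitive on `Ω`, `t` an involution moving `a`, `Q` normal in `G_a` with `G_a = Q D`, `Q ⊓ D = 1` for the two-point stabiliser `D = G_a ⊓ G_{t • a}`, `|Q|` even, `|D|` odd): `Q` acts regularly on `Ω` minus `a`; hence `|Ω| = |Q| + 1`, `|G| = |Q| |D| (|Q| + 1)`, some Sylow 2-subgroup of `G` lies in `Q`, and each `g ∉ G_a` is uniquely `x t y` with `x ∈ G_a`, `y ∈ Q` (canonical form). -/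
theorem result {G Ω : Type*} [Group G] [Finite G] [MulAction G Ω] {a : Ω} {t : G} {Q : Subgroup G}
    (hS : Cfsg.IsRankOneSetup G Ω a t Q) :
    (∀ b c : Ω, b ≠ a → c ≠ a → ∃! x : Q, (x : G) • b = c) ∧
      Nat.card Ω = Nat.card Q + 1 ∧
      Nat.card G = Nat.card Q * Nat.card ↥(MulAction.stabilizer G a ⊓ MulAction.stabilizer G (t • a)) * (Nat.card Q + 1) ∧
      (∃ P : Sylow 2 G, (P : Subgroup G) ≤ Q) ∧
      ∀ g : G, g ∉ MulAction.stabilizer G a → ∃! p : G × G, p.1 ∈ MulAction.stabilizer G a ∧ p.2 ∈ Q ∧ g = p.1 * t * p.2 := by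
  have h := ro_of_setup hS
  have h2 := hS.two_transitive
  have htr : MulAction.IsPretransitive G Ω := by
    rw [MulAction.is_two_pretransitive_iff] at h2
    refine ⟨fun b c => ?_⟩
    by_cases e : b = c
    · exact ⟨1, by rw [e, one_smul]⟩
    · obtain ⟨g, hg, -⟩ := h2 (a := b) (b := c) (c := c) (d := b) e (Ne.symm e)
      exact ⟨g, hg⟩
  have key : ∀ b : Ω, b ≠ a → ∃ q ∈ Q, b = q • t • a := fun b hb => by
    obtain ⟨g, rfl⟩ := htr.exists_smul_eq a b
    obtain ⟨q, hq, x, hx, rfl⟩ := h.canon' hb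
    exact ⟨q, hq, by rw [mul_smul, mul_smul, show x • a = a from hx]⟩
  refine ⟨fun b c hb hc => ?_, ?_, h.card_G, h.exists_sylow_le, fun g hg => ?_⟩
  · obtain ⟨q, hq, rfl⟩ := key b hb
    obtain ⟨q', hq', rfl⟩ := key c hc
    refine ⟨⟨q' * q⁻¹, mul_mem hq' (inv_mem hq)⟩, by simp [mul_smul], fun y hy => Subtype.ext ?_⟩
    have : q'⁻¹ * y * q ∈ Q ⊓ MulAction.stabilizer G (t • a) :=
      ⟨Q.mul_mem (Q.mul_mem (Q.inv_mem hq') y.2) hq, by
        change _ • _ = _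
        rw [mul_smul, mul_smul, hy, inv_smul_smul]⟩
    rw [hS.inf_eq_bot, Subgroup.mem_bot] at this
    change (y : G) = q' * q⁻¹
    calc (y : G) = q' * (q'⁻¹ * y * q) * q⁻¹ := by group
      _ = _ := by rw [this, mul_one]
  · rw [← h.index_H, MulAction.index_stabilizer_of_transitive]
  · obtain ⟨x, hx, q, hq, e⟩ := h.canon g hg
    refine ⟨(x, q), ⟨hx, hq, e⟩, fun p hp => ?_⟩
    obtain ⟨h1, h3⟩ := h.canon_unique hp.1 hx hp.2.1 hq (hp.2.2.symm.trans e)
    exact Prod.ext h1 h3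

end Cfsg.Agent.S1119
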