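import Cfsg.Statements.S1125
import Cfsg.Agent.Lib.Inv.RankOneAct

set_option autoImplicit false
open Cfsg

namespace Cfsg.Agent.S1125
open Cfsg.Lib.Inv


/-- In the rank-one set-up (`G` finite and doubly transitive on `Ω`, `t` an involution moving `a`, `Q` normal in `G_a` with `G_a = Q D`, `Q ⊓ D = 1` for the two-point stabiliser `D = G_a ⊓ G_{t • a}`, `|Q|` even, `|D|` odd), let `X ⊆ D` fix at least three points of `Ω`. Then `C_G(X)` is doubly transitive on the fixed-point set of `X`, `|C_Q(X)|` is even, and `C_{G_a}(X) = C_Q(X) C_D(X)`. -/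
theorem result {G Ω : Type*} [Group G] [Finite G] [MulAction G Ω] {a : Ω} {t : G} {Q : Subgroup G}
    (hS : Cfsg.IsRankOneSetup G Ω a t Q)
    (X : Set G) (hX : X ⊆ ((MulAction.stabilizer G a ⊓ MulAction.stabilizer G (t • a)) : Set G))
    (h3 : ∃ b c d : Ω, b ≠ c ∧ b ≠ d ∧ c ≠ d ∧ ∀ x ∈ X, x • b = b ∧ x • c = c ∧ x • d = d) :
    (∀ b₁ b₂ c₁ c₂ : Ω, (∀ x ∈ X, x • b₁ = b₁ ∧ x • b₂ = b₂ ∧ x • c₁ = c₁ ∧ x • c₂ = c₂) →
        b₁ ≠ b₂ → c₁ ≠ c₂ → ∃ g ∈ Subgroup.centralizer X, g • b₁ = c₁ ∧ g • b₂ = c₂) ∧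
      Even (Nat.card ↥(Subgroup.centralizer X ⊓ Q)) ∧
      (Subgroup.centralizer X ⊓ Q) ⊔ (Subgroup.centralizer X ⊓ (MulAction.stabilizer G a ⊓ MulAction.stabilizer G (t • a))) = Subgroup.centralizer X ⊓ MulAction.stabilizer G a := by
  have h := ro_of_setup hS
  obtain ⟨q, hq, h1, hc⟩ := setup_exists_cent_ne_one hS hX h3
  obtain ⟨b, hb, -, e⟩ := h.exists_conj_V hX hq h1 hc
  have h' := h.conj_D hb
  have hu : (b⁻¹ * t * b) • a = t • a := by
    rw [mul_smul, mul_smul, show b • a = a from hb.1, inv_smul_eq_iff]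
    exact hb.2.symm
  refine ⟨?_, ?_, le_antisymm (sup_le (inf_le_inf_left _ h.QH) (inf_le_inf_left _ h.D_le))
    fun g hg => ?_⟩
  · have key : ∀ b₁ b₂ : Ω, (∀ x ∈ X, x • b₁ = b₁ ∧ x • b₂ = b₂) → b₁ ≠ b₂ →
        ∃ g ∈ Subgroup.centralizer X, g • a = b₁ ∧ g • t • a = b₂ := fun b₁ b₂ hf hne => by
      obtain ⟨g, hg, rfl⟩ : ∃ g ∈ Subgroup.centralizer X, g • a = b₁ := by
        by_cases h2 : b₁ = a
        · exact ⟨1, one_mem _, by rw [h2, one_smul]⟩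
        · obtain ⟨y, -, hy, rfl⟩ := setup_exists_cent hS hX h2 fun x hx => (hf x hx).1
          exact ⟨y * (b⁻¹ * t * b), mul_mem hy e, by rw [mul_smul, hu]⟩
      obtain ⟨y, hyQ, hy, e2⟩ := setup_exists_cent hS hX (b := g⁻¹ • b₂)
        (fun e => hne (by rw [← e, smul_inv_smul])) fun x hx => by
          rw [smul_smul, inv_mem hg x hx, mul_smul, (hf x hx).2]
      exact ⟨g * y, mul_mem hg hy, by rw [mul_smul, show y • a = a from h.QH hyQ],
        by rw [mul_smul, ← e2, smul_inv_smul]⟩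
    intro b₁ b₂ c₁ c₂ hf hb hc
    obtain ⟨g, hg, rfl, rfl⟩ := key b₁ b₂ (fun x hx => ⟨(hf x hx).1, (hf x hx).2.1⟩) hb
    obtain ⟨g', hg', rfl, rfl⟩ := key c₁ c₂ (fun x hx => (hf x hx).2.2) hc
    exact ⟨g' * g⁻¹, mul_mem hg' (inv_mem hg), by simp [mul_smul], by simp [mul_smul]⟩
  · obtain ⟨s, hs, ho, hsc⟩ := h.even_centralizer hX hq h1 hc
    exact even_card_of_involution_mem ho ⟨hsc, hs⟩
  · obtain ⟨y, hy, d, hd, rfl⟩ := h.exists_QD hg.2
    have : y ∈ Subgroup.centralizer X := fun x hx => by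
      have := (h.QD_unique (h.conj_mem_Q (h.D_le (hX hx)) hy) hy (mul_mem (hX hx) hd)
        (mul_mem hd (hX hx)) (by rw [← mul_assoc y, ← hg.1 x hx]; group)).1
      exact mul_inv_eq_iff_eq_mul.1 this
    exact Subgroup.mul_mem_sup ⟨this, hy⟩ ⟨by simpa using mul_mem (inv_mem this) hg.1, hd⟩

end Cfsg.Agent.S1125
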