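import Cfsg.Statements.S1127
import Cfsg.Agent.Lib.Inv.RankOneK

set_option autoImplicit false
open Cfsg

namespace Cfsg.Agent.S1127
open Cfsg.Lib.Inv


/-- In the rank-one set-up (`G` finite and doubly transitive on `Ω`, `t` an involution moving `a`, `Q` normal in `G_a` with `G_a = Q D`, `Q ⊓ D = 1` for the two-point stabiliser `D = G_a ⊓ G_{t • a}`, `|Q|` even, `|D|` odd): if `s` is an involution of `G_a` and `r ∈ Q` satisfy `t s t = r⁻¹ t r`, then `C_D(t) = C_D(s)`; moreover `C_D(t) ⊓ C_D(K) = C_D(I ∩ G_a)`, where `K` is the set of elements of `D` inverted by `t` and `I ∩ G_a` the set of involutions of `G_a`. -/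
theorem result {G Ω : Type*} [Group G] [Finite G] [MulAction G Ω] {a : Ω} {t : G} {Q : Subgroup G}
    (hS : Cfsg.IsRankOneSetup G Ω a t Q) :
    (∀ s r : G, s ∈ Cfsg.involutionsIn (MulAction.stabilizer G a : Set G) → r ∈ Q → t * s * t = r⁻¹ * t * r →
        (MulAction.stabilizer G a ⊓ MulAction.stabilizer G (t • a)) ⊓ Subgroup.centralizer {t} = (MulAction.stabilizer G a ⊓ MulAction.stabilizer G (t • a)) ⊓ Subgroup.centralizer {s}) ∧
      (MulAction.stabilizer G a ⊓ MulAction.stabilizer G (t • a)) ⊓ Subgroup.centralizer {t} ⊓ Subgroup.centralizer (Cfsg.invertedBy (MulAction.stabilizer G a ⊓ MulAction.stabilizer G (t • a)) t) =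
        (MulAction.stabilizer G a ⊓ MulAction.stabilizer G (t • a)) ⊓ Subgroup.centralizer (Cfsg.involutionsIn (MulAction.stabilizer G a : Set G)) := by
  have h := ro_of_setup hS
  refine ⟨fun s r hs hr e => Subgroup.ext fun d => and_congr_right fun hd => ?_,
    Subgroup.ext fun w => ?_⟩
  · exact (Subgroup.mem_centralizer_singleton_iff.trans
      (h.comm_t_iff hs.1 (orderOf_eq_two_iff.2 hs.2) hr e hd)).trans
      Subgroup.mem_centralizer_singleton_iff.symm
  · rw [Subgroup.mem_inf, Subgroup.mem_inf, and_assoc, Subgroup.mem_inf (p := _ ⊓ _)]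
    refine and_congr_right fun hw => ?_
    rw [Subgroup.mem_centralizer_singleton_iff]
    exact ⟨fun e s hs => (h.mem_W_iff hw).1 ⟨e.1, fun k hk ek => e.2 k ⟨hk, ek⟩⟩ s hs.1
      (orderOf_eq_two_iff.2 hs.2), fun e => ((h.mem_W_iff hw).2 fun s hs ho =>
        e s ⟨hs, orderOf_eq_two_iff.1 ho⟩).imp_right fun e k hk => e k hk.1 hk.2⟩

end Cfsg.Agent.S1127
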