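import Cfsg.Statements.S1132
import Cfsg.Agent.Lib.Inv.RankOneS

set_option autoImplicit false
open Cfsg

namespace Cfsg.Agent.S1132
open Cfsg.Lib.Inv

open Subgroup Cfsg.Lib

/-- In the rank-one set-up (`G` finite and doubly transitive on `Ω`, `t` an involution moving `a`, `Q` normal in `G_a` with `G_a = Q D`, `Q ⊓ D = 1` for the two-point stabiliser `D = G_a ⊓ G_{t • a}`, `|Q|` even, `|D|` odd), with the action faithful and `G` containing two distinct commuting involutions: a Sylow 2-subgroup of `Q` is abelian or a Suzuki 2-group. -/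
theorem result {G Ω : Type*} [Group G] [Finite G] [MulAction G Ω] [FaithfulSMul G Ω] {a : Ω} {t : G} {Q : Subgroup G}
    (hS : Cfsg.IsRankOneSetup G Ω a t Q)
    (h2 : ∃ x y : G, x ≠ 1 ∧ y ≠ 1 ∧ x ≠ y ∧ x * x = 1 ∧ y * y = 1 ∧ x * y = y * x)
    (S : Sylow 2 ↥Q) : IsMulCommutative (S : Subgroup ↥Q) ∨ Cfsg.IsSuzukiTwoGroup ↥(S : Subgroup ↥Q) := by
  obtain ⟨Q₀, K, s, r, h⟩ := (ro_of_setup hS).exists_RS h2
  haveI := h.nilQ
  rw [Core.sylow_eq_pCore S]
  let e := (pCore 2 Q).equivMapOfInjective _ Q.subtype_injective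
  refine or_iff_not_imp_left.2 fun hc => suzuki_of_equiv e.symm (h.suzuki
    ((Core.pCore_isPGroup 2 Q).map _) (Core.le_pCoreOf_of_isNilpotent this h.Q0_le h.Q0_isPGroup)
    ((map_subtype_le _).trans h.QH) ((h.K_le_H.trans h.norm).trans
      (Core.normalizer_le_normalizer_pCoreOf 2 Q)) fun hc' => hc ⟨⟨fun x y => e.injective ?_⟩⟩)
  rw [map_mul, map_mul]
  exact hc'.1.1 _ _

end Cfsg.Agent.S1132
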