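import Cfsg.Statements.S1139
import Cfsg.Agent.Lib.Perm.Higman4

set_option autoImplicit false
open Cfsg

namespace Cfsg.Agent.S1139

/-- A Suzuki 2-group `P` with `|P| = |Z(P)|²` is of type A: for some finite field `F` with `|F| = |Z(P)|` and some field automorphism `φ ≠ 1` of odd order, `P` is isomorphic to the group of lower unitriangular matrices with rows `(1,0,0)`, `(x,1,0)`, `(y, φ x, 1)`. -/
theorem result {P : Type*} [Group P] (hP : Cfsg.IsSuzukiTwoGroup P)
    (hcard : Nat.card P = Nat.card (Subgroup.center P) ^ 2) :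
    ∃ (F : Type) (_ : Field F) (_ : Fintype F) (φ : F ≃+* F), Fintype.card F = Nat.card (Subgroup.center P) ∧
      φ ≠ RingEquiv.refl F ∧ Odd (orderOf φ) ∧ Nonempty (P ≃* Cfsg.suzukiTypeA F (φ : F →+* F)) := by
  obtain ⟨X, _, _, Q, K, e, h, hna, hc⟩ := Lib.Perm.exists_suz hP
  have h1 : Nat.card (Subgroup.center P) = Nat.card (Lib.Perm.om Q) := by
    rw [← Lib.BG.subOf_card (Lib.Perm.om_le Q)]
    exact Nat.card_congr (e.toEquiv.subtypeEquiv hc)
  rw [h1, Nat.card_congr e.toEquiv] at hcard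
  obtain ⟨F, _, _, φ, h2, h3, h4, ⟨e'⟩⟩ := h.typeA hna hcard
  exact ⟨F, inferInstance, inferInstance, φ, h1 ▸ h2, h3, h4, ⟨e.trans e'⟩⟩

end Cfsg.Agent.S1139
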