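import Cfsg.Statements.S1142
import Cfsg.Agent.Lib.CharDeg.FeitHigmanBN

set_option autoImplicit false
open Cfsg

namespace Cfsg.Agent.S1142

open Cfsg.Lib.BN Cfsg.Lib.CharDeg.FH

/-- Feit–Higman: if a finite group has a (B,N)-pair of rank 2, its Weyl group `N/(B ⊓ N)` has order 4, 6, 8, 12 or 16. -/
theorem result {G : Type*} [Group G] [Finite G] (P : Cfsg.BNPair G)
    (h2 : P.rank = 2) :
    ((P.B ⊓ P.N).subgroupOf P.N).index ∈ ({4, 6, 8, 12, 16} : Set ℕ) := by
  obtain ⟨i, j, hne, huniv⟩ := Nat.card_eq_two_iff.1 h2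
  have hij : ∀ k, k = i ∨ k = j := fun k => by
    have : k ∈ ({i, j} : Set P.S) := huniv ▸ Set.mem_univ k
    simpa using this
  have hc : ((P.B ⊓ P.N).subgroupOf P.N).index = 2 * orderOf (sW P i * sW P j) :=
    card_dihedral (invGen P) hij (sW_ne_one P)
  rw [hc]
  have h0 : 0 < orderOf (sW P i * sW P j) := orderOf_pos _
  have h1 : orderOf (sW P i * sW P j) ≠ 1 := by
    rw [Ne, orderOf_eq_one_iff, mul_eq_one_iff_eq_inv, (invGen P).inv]
    exact fun h => hne (sW_injective P h)
  by_cases h3 : 3 ≤ orderOf (sW P i * sW P j)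
  · have := feit_higman P hij h3
    simp only [Set.mem_insert_iff, Set.mem_singleton_iff] at this ⊢
    omega
  · simp only [Set.mem_insert_iff, Set.mem_singleton_iff]
    omega

end Cfsg.Agent.S1142
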