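import Cfsg.Statements.S1147
import Cfsg.Agent.Lib.Perm.Zass6

set_option autoImplicit false
open Cfsg

namespace Cfsg.Agent.S1147

open Cfsg.Lib.Perm Subgroup in

/-- Let a finite simple Zassenhaus group `G` on `Ω` have a normal subgroup `U` of `G_a`, regular on `Ω` minus `a`, which is a non-abelian 2-group. Then `|Ω| = 2^(2n) + 1` with `n` odd, `n > 1`, a two-point stabiliser `G_a ⊓ G_b` is cyclic of order `2^n - 1`, and `U` is isomorphic to the type-A group over a field with `2^n` elements for some field automorphism `φ`. -/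
theorem result {G Ω : Type*} [Group G] [Finite G] [MulAction G Ω] [Finite Ω]
    (hZ : Cfsg.IsZassenhausGroup G Ω) [IsSimpleGroup G] {a b : Ω} (hab : a ≠ b)
    (U : Subgroup G) (hUle : U ≤ MulAction.stabilizer G a)
    (hUn : ∀ h ∈ MulAction.stabilizer G a, ∀ u ∈ U, h * u * h⁻¹ ∈ U)
    (hreg : ∀ c d : Ω, c ≠ a → d ≠ a → ∃! u : U, (u : G) • c = d)
    (hU2 : IsPGroup 2 U) (hUna : ∃ u ∈ U, ∃ v ∈ U, u * v ≠ v * u) :
    ∃ n : ℕ, Odd n ∧ 1 < n ∧ Nat.card Ω = 2 ^ (2 * n) + 1 ∧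
      IsCyclic ↥(MulAction.stabilizer G a ⊓ MulAction.stabilizer G b) ∧
      Nat.card ↥(MulAction.stabilizer G a ⊓ MulAction.stabilizer G b) = 2 ^ n - 1 ∧
      ∃ (F : Type) (_ : Field F) (_ : Fintype F) (φ : F ≃+* F), Fintype.card F = 2 ^ n ∧
        Nonempty (U ≃* Cfsg.suzukiTypeA F (φ : F →+* F)) := by
  have h := ZT.of_zassenhaus hZ
  obtain rfl := h.eq_zker_of_reg hUle hreg
  have h0 := stab2_ne_bot hZ hab
  have hna : ¬ IsMulCommutative (zker G a) := fun e =>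
    let ⟨u, hu, v, hv, e'⟩ := hUna; e' (commute_of_ab e hu hv)
  obtain ⟨m, hm, h1, h2⟩ := h.suzuki_card hab h0 hU2 hna
  have hs := h.suz hab h0 hU2
  obtain ⟨F, _, _, φ, h3, -, -, h4⟩ := hs.typeA hna h2
  refine ⟨2 * m + 1, ⟨m, rfl⟩, by omega, by rw [← h.card_zker a, h2, h1, ← pow_mul, mul_comm],
    h.cyclic_of_ab hab le_rfl hs.comm, ?_, F, _, _, φ, h3.trans h1, h4⟩
  rw [← h1, ← hs.card_K, Nat.add_sub_cancel]

end Cfsg.Agent.S1147
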