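import Cfsg.Statements.S1148
import Cfsg.Agent.Lib.U3R.Main
import Cfsg.Agent.Lib.BN.RankOne

set_option autoImplicit false
open Cfsg

namespace Cfsg.Agent.S1148



/-- Let `G` be finite simple with a (B,N)-pair of rank 1, `B = U H` with `U` nilpotent normal in `B`, `H = B ⊓ N`, `U ⊓ H = 1`, where `[G : B] = p^(3n) + 1` for an odd prime `p`, `|U| = p^(3n)` and `H` is cyclic of order `(p^(2n) - 1)/gcd(3, p^n + 1)`. Then `G ≅ PSU₃(p^n)`. -/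
theorem result {G : Type*} [Group G] [Finite G] [IsSimpleGroup G]
    (P : Cfsg.BNPair G) (h1 : P.rank = 1) {p n : ℕ} (hp : p.Prime) (hp2 : p ≠ 2) (hn : 1 ≤ n)
    (U : Subgroup G) (hUB : U ≤ P.B) (hUn : ∀ b ∈ P.B, ∀ u ∈ U, b * u * b⁻¹ ∈ U)
    (hUnil : Group.IsNilpotent U) (hsplit : U ⊔ (P.B ⊓ P.N) = P.B) (hdisj : U ⊓ (P.B ⊓ P.N) = ⊥)
    (hind : P.B.index = p ^ (3 * n) + 1) (hU : Nat.card U = p ^ (3 * n))
    (hHc : IsCyclic ↥(P.B ⊓ P.N))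
    (hH : Nat.gcd 3 (p ^ n + 1) * Nat.card ↥(P.B ⊓ P.N) = p ^ (2 * n) - 1) :
    ∃ (F : Type) (_ : Field F) (_ : Fintype F), Fintype.card F = (p ^ n) ^ 2 ∧
      Nonempty (G ≃* Cfsg.PSU 3 F (p ^ n)) := by
  obtain ⟨-, ⟨⟨s, hs⟩⟩⟩ := Nat.card_eq_one_iff_unique.1 h1
  have hN := P.subset hs
  refine (Cfsg.Lib.U3R.psu_of_subgroups (s := s) hp hp2 hn rfl
    (Cfsg.Lib.BN.two_transitive_of_rank_one P h1) (fun e => P.conj_ne s hs ?_)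
    (fun x hx => by simpa using P.conj_mem _ (inv_mem hN) x hx) hUn hsplit hdisj
    (by rw [hind, ← pow_mul, mul_comm]) hHc (by rw [hU, ← pow_mul, mul_comm])
    (Odd.of_dvd_nat (by decide : Odd 3) (Nat.gcd_dvd_left _ _)) (Nat.gcd_dvd_right _ _)
    (by rw [hH, ← pow_mul, mul_comm])).2
  ext b
  refine ⟨?_, fun hb => ⟨s⁻¹ * b * s⁻¹, mul_mem (mul_mem (inv_mem e) hb) (inv_mem e), by group⟩⟩
  rintro ⟨b, hb, rfl⟩
  exact mul_mem (mul_mem e hb) e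

end Cfsg.Agent.S1148
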