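import Cfsg.Statements.S1151
import Cfsg.Agent.Lib.Ree.Inst
import Cfsg.Agent.Lib.Ree.Borel

set_option autoImplicit false
open Cfsg

namespace Cfsg.Agent.S1151

theorem two_mul_card {H : Type*} [Group H] [Finite H] [IsCyclic H] {k : ℕ} (hk : Odd k)
    (h : Nat.card H = 2 * k) : 2 * Nat.card {x : H // Odd (orderOf x)} = Nat.card H := by
  classical
  have := Fintype.ofFinite H
  have h1 : ∀ x : H, Odd (orderOf x) ↔ x ^ k = 1 := fun x =>
    ⟨fun hx => orderOf_dvd_iff_pow_eq_one.1 ((Nat.coprime_two_right.2 hx).dvd_of_dvd_mul_left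
      (h ▸ orderOf_dvd_natCard x)), fun hx => hk.of_dvd_nat (orderOf_dvd_of_pow_eq_one hx)⟩
  letI : CommGroup H := IsCyclic.commGroup
  rw [Nat.card_congr (Equiv.subtypeEquivRight h1), h]
  congr 1
  exact (IsCyclic.card_powMonoidHom_ker H k).trans (by rw [h, Nat.gcd_mul_left_left])

/-- In the small Ree group ²G₂(q), q = 3^(2m+1), realised as G¹ inside the Chevalley group G₂ over the field with q elements (θ the 3^m-th power map), with H¹ = G¹ ∩ H and U¹ = G¹ ∩ U the intersections with the ambient diagonal and positive unipotent subgroups: `H¹` has exactly `(q - 1)/2` elements of odd order, and each non-identity one centralises no non-identity element of `U¹`. -/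
theorem result {K : Type*} [Field K] [Fintype K] {m : ℕ} (hK : Fintype.card K = 3 ^ (2 * m + 1)) :
    2 * Nat.card {h : ↥(Cfsg.Lie.chevG2.diagonalSubgroup K ⊓ Cfsg.Lie.twistedG2 K (3 ^ m)) // Odd (orderOf h)} = 3 ^ (2 * m + 1) - 1 ∧
      ∀ h ∈ (Cfsg.Lie.chevG2.diagonalSubgroup K ⊓ Cfsg.Lie.twistedG2 K (3 ^ m)), h ≠ 1 → Odd (orderOf h) →
        (Cfsg.Lie.chevG2.posUnipotent K ⊓ Cfsg.Lie.twistedG2 K (3 ^ m)) ⊓ Subgroup.centralizer {h} = ⊥ := by
  obtain ⟨M, hU, h, -⟩ := Lib.Ree.exists_model hK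
  revert M
  generalize Lie.twistedG2 K (3 ^ m) = T
  intro M hU h
  have := M.finite
  have h1 := M.isCyclic_H
  have h2 := M.card_H
  have h3 := M.card_mod
  rw [h] at h1 h2
  have e := Subgroup.subgroupOfEquivOfLe (inf_le_right : Lie.chevG2.diagonalSubgroup K ⊓ T ≤ T)
  rw [Nat.card_congr e.toEquiv] at h2
  have := isCyclic_of_surjective _ e.surjective
  have := Finite.of_equiv _ e.toEquiv
  refine ⟨?_, fun g hg g1 ho => eq_bot_iff.2 fun x hx => ?_⟩
  · rw [two_mul_card (k := (Nat.card K - 1) / 2) (Nat.odd_iff.2 (by omega)) (by omega), h2, ← hK,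
      Nat.card_eq_fintype_card]
  · obtain ⟨l, hl⟩ := h.ge (show (⟨g, hg.2⟩ : T) ∈ _ from hg)
    obtain rfl : (M.h l : GL _ K) = g := congrArg Subtype.val hl
    refine congrArg Subtype.val (M.h_u_eq_self (l := l) ?_ ?_ (x := ⟨x, hx.1.2⟩) (hU.ge hx.1)
      (Subtype.ext (Subgroup.mem_centralizer_singleton_iff.1 hx.2).symm))
    · rintro rfl
      simp at g1
    · rintro rfl
      rw [Subgroup.orderOf_coe, show orderOf (M.h (-1)) = 2 from M.orderOf_a] at ho
      exact absurd ho (by decide)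

end Cfsg.Agent.S1151
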