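import Cfsg.Statements.S1167
import Cfsg.Agent.Lib.BS.Conseq
import Cfsg.Agent.Lib.Perm.Zass

set_option autoImplicit false
open Cfsg

namespace Cfsg.Agent.S1167

open Cfsg.Lib.Inv Cfsg.Lib.Perm Cfsg.Lib.BS Subgroup

/-- Let `G` be a finite simple Zassenhaus group on `Ω`, `U` a normal subgroup of `G_a` regular on `Ω` minus `a` which is an abelian 2-group, and `v` an involution with `v • a ≠ a`. Then there is a unique `u₀ ∈ U`, `u₀ ≠ 1`, with `v u₀ v = u₀ v u₀`. -/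
theorem result {G Ω : Type*} [Group G] [Finite G] [MulAction G Ω] [Finite Ω]
    (hZ : Cfsg.IsZassenhausGroup G Ω) [IsSimpleGroup G] {a : Ω}
    (U : Subgroup G) (hUle : U ≤ MulAction.stabilizer G a)
    (hUn : ∀ h ∈ MulAction.stabilizer G a, ∀ u ∈ U, h * u * h⁻¹ ∈ U)
    (hreg : ∀ c d : Ω, c ≠ a → d ≠ a → ∃! u : U, (u : G) • c = d)
    (hU2 : IsPGroup 2 U) (hUab : ∀ u ∈ U, ∀ u' ∈ U, u * u' = u' * u)
    (v : G) (hv1 : v ≠ 1) (hv2 : v * v = 1) (hva : v • a ≠ a) :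
    ∃! u₀ : G, u₀ ∈ U ∧ u₀ ≠ 1 ∧ v * u₀ * v = u₀ * v * u₀ := by
  have h := ZT.of_zassenhaus hZ
  obtain rfl := h.eq_zker_of_reg hUle hreg
  have hab : a ≠ v • a := hva.symm
  have h2 := h.two_le_card_zker a
  have hev : Even (Nat.card (zker G a)) := by
    obtain ⟨n, hn⟩ := hU2.exists_card_eq
    rw [hn] at h2 ⊢
    rcases n with _ | n
    · simp at h2
    · exact ⟨2 ^ n, by ring⟩
  have hodd : Odd (Nat.card (stab2 G a (v • a))) :=
    Odd.of_dvd_nat (Nat.Even.sub_odd (by omega) hev odd_one) (h.card_stab2_dvd hab)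
  have hS : IsRankOneSetup G Ω a v (zker G a) :=
    ⟨h.mt2, hv2, hv1, hva, hUle, hUn, eq_bot_iff.2 fun u hu =>
      mem_bot.2 (h.eq_one_of_zker_fix hu.1 hva hu.2), h.zker_sup hab, hev, hodd⟩
  have ro := ro_of_setup hS
  obtain ⟨Q₀, K, s, r, rs⟩ := ro.exists_RS (rk2_of_se ro.se)
  have hab' : IsMulCommutative (zker G a) := ⟨⟨fun x y => Subtype.ext (hUab _ x.2 _ y.2)⟩⟩
  rcases (concl rs).2 with ⟨e, h3⟩ | ⟨e, -⟩ | ⟨e, -⟩
  · have hs := rs.ss
    have e3 : v * s * v = s * v * s := by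
      have := pow_orderOf_eq_one (s * v)
      rw [h3, pow_three] at this
      have e4 : s * v * s * (v * s * v) = 1 := by rw [← this]; group
      rw [eq_inv_of_mul_eq_one_left e4, mul_inv_rev, mul_inv_rev, inv_eq_of_mul_self hs,
        inv_eq_of_mul_self hv2, mul_assoc]
    have hi : ∀ x ∈ Q₀, x⁻¹ = x := fun x hx => inv_eq_of_mul_self (rs.Q0_mul_self hx)
    refine ⟨s, ⟨rs.sQ, rs.s_ne_one, e3⟩, fun u ⟨hu, h1, eu⟩ => ?_⟩
    have hu0 : u ∈ Q₀ := e ▸ hu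
    exact (ro.struct_unique (hUle hu) (rs.Q0_ord hu0 h1) hu (by rw [hi u hu0, eu]) rs.sH rs.so
      rs.sQ (by rw [hi s rs.sQ0, e3])).1
  · exact absurd hab' e
  · exact absurd hab' e

end Cfsg.Agent.S1167
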