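import Cfsg.Statements.S1176
import Cfsg.Agent.Lib.Inv.Basic

set_option autoImplicit false
open Cfsg

namespace Cfsg.Agent.S1176
open Cfsg.Lib.Inv
open scoped commutatorElement


/-- Let x₀ be an involution of the finite group G and D its conjugacy class. Assume (a) for each x ∈ D the subgroup W(x) generated by the members of D commuting with x is a 2-group of nilpotency class at most 2, and (b) the product of two distinct commuting members of D again lies in D. Then for all x, y ∈ D, if xy has even order greater than 2, its order is 4. -/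
theorem result {G : Type*} [Group G] [Finite G] (x₀ : G) (hx₀ : orderOf x₀ = 2) (ha : ∀ x : G, IsConj x₀ x → IsPGroup 2 ↥(Subgroup.closure {y : G | IsConj x₀ y ∧ Commute y x}) ∧ ⁅⁅Subgroup.closure {y : G | IsConj x₀ y ∧ Commute y x}, Subgroup.closure {y : G | IsConj x₀ y ∧ Commute y x}⁆, Subgroup.closure {y : G | IsConj x₀ y ∧ Commute y x}⁆ = ⊥) (hb : ∀ x y : G, IsConj x₀ x → IsConj x₀ y → x ≠ y → Commute x y → IsConj x₀ (x * y)) (x y : G) (hx : IsConj x₀ x) (hy : IsConj x₀ y) (heven : Even (orderOf (x * y))) (hgt : 2 < orderOf (x * y)) : orderOf (x * y) = 4 := by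
  have hx2 : x * x = 1 := mul_self_of_orderOf (orderOf_eq_of_isConj hx ▸ hx₀)
  have hy2 : y * y = 1 := mul_self_of_orderOf (orderOf_eq_of_isConj hy ▸ hx₀)
  obtain ⟨hz, hzx, hzy⟩ := half_pow_of_even hx2 hy2 heven
  obtain ⟨m, hm⟩ : ∃ m, m = orderOf (x * y) / 2 := ⟨_, rfl⟩
  rw [← hm] at hz hzx hzy
  have hinv := pair_left_inv hx2 hy2
  have hD : IsConj x₀ ((x * y) ^ m * x) := by
    rcases Nat.even_or_odd' m with ⟨k, hk | hk⟩
    · refine hx.trans (isConj_iff.2 ⟨(x * y) ^ (k : ℤ), ?_⟩)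
      rw [zpow_conj_left hx2 hy2, hk, ← zpow_natCast]; push_cast; rfl
    · refine hy.trans (isConj_iff.2 ⟨(x * y) ^ ((k : ℤ) + 1), ?_⟩)
      have e : y = (x * y) ^ (-1 : ℤ) * x := pair_right_eq hx2 hy2
      have e2 := zpow_conj_left hx2 hy2 ((k : ℤ) + 1)
      generalize x * y = c at e e2 ⊢
      rw [e, hk, ← zpow_natCast]
      calc c ^ ((k : ℤ) + 1) * (c ^ (-1 : ℤ) * x) * (c ^ ((k : ℤ) + 1))⁻¹
          = c ^ (-1 : ℤ) * (c ^ ((k : ℤ) + 1) * x * (c ^ ((k : ℤ) + 1))⁻¹) := by group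
        _ = _ := by rw [e2]; push_cast; group
  have hzD : IsConj x₀ ((x * y) ^ m) := by
    have := hb _ x hD hx (by
      intro h; exact ne_one_of_orderOf hz (by simpa using h)) (hzx.mul_left (Commute.refl x))
    rwa [mul_assoc, hx2, mul_one] at this
  obtain ⟨-, hW⟩ := ha _ hzD
  have hxW : x ∈ Subgroup.closure {w : G | IsConj x₀ w ∧ Commute w ((x * y) ^ m)} :=
    Subgroup.subset_closure ⟨hx, hzx.symm⟩
  have hyW : y ∈ Subgroup.closure {w : G | IsConj x₀ w ∧ Commute w ((x * y) ^ m)} :=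
    Subgroup.subset_closure ⟨hy, hzy.symm⟩
  have h1 := Subgroup.commutator_mem_commutator (Subgroup.commutator_mem_commutator hxW hyW) hxW
  rw [hW, Subgroup.mem_bot] at h1
  have e1 : ⁅x, y⁆ = (x * y) ^ 2 := by
    rw [commutatorElement_def, inv_eq_of_mul_self hx2, inv_eq_of_mul_self hy2, sq]; group
  have h4 : (x * y) ^ 4 = 1 := by
    rw [e1, commutatorElement_def] at h1
    have e3 := conj_pow_of_inv hinv 2
    generalize x * y = c at h1 e3 ⊢
    calc c ^ 4 = c ^ 2 * ((c ^ 2)⁻¹)⁻¹ := by group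
      _ = c ^ 2 * (x * c ^ 2 * x⁻¹)⁻¹ := by rw [e3]
      _ = 1 := by rw [← h1]; group
  have hd : orderOf (x * y) ∣ 4 := orderOf_dvd_of_pow_eq_one h4
  have hle := Nat.le_of_dvd (by norm_num) hd
  generalize orderOf (x * y) = n at hd hle hgt ⊢
  interval_cases n <;> simp_all

end Cfsg.Agent.S1176
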