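import Cfsg.Statements.S1177
import Cfsg.Agent.Lib.Transfer.SylowIn
import Cfsg.Agent.Lib.Inv.Basic

set_option autoImplicit false
open Cfsg

namespace Cfsg.Agent.S1177
open Cfsg.Lib.Inv

open Cfsg.Lib.Transfer

/-- Let A be a nontrivial elementary abelian 2-subgroup of a finite group G which is a T.I. set (each conjugate of A meets A trivially or equals A) and which does not commute elementwise with any conjugate of A other than A itself. Then for every a ∈ A, a ≠ 1, every conjugate of A contained in C_G(a) is equal to A (A is weakly closed in C_G(a)). -/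
theorem result {G : Type*} [Group G] [Finite G] (A : Subgroup G) (hA : Cfsg.IsElementaryAbelian 2 A) (hA1 : A ≠ ⊥) (hTI : ∀ g : G, A.map (MulAut.conj g).toMonoidHom ⊓ A = ⊥ ∨ A.map (MulAut.conj g).toMonoidHom = A) (hb : ∀ g : G, (∀ a ∈ A, ∀ b ∈ A.map (MulAut.conj g).toMonoidHom, a * b = b * a) → A.map (MulAut.conj g).toMonoidHom = A) (a : G) (ha : a ∈ A) (ha1 : a ≠ 1) (g : G) (hg : A.map (MulAut.conj g).toMonoidHom ≤ Subgroup.centralizer ({a} : Set G)) : A.map (MulAut.conj g).toMonoidHom = A := by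
  by_contra hne
  have hd : g ⋆ A ⊓ A = ⊥ := (hTI g).resolve_right hne
  -- elements centralizing a nontrivial element of a conjugate normalize it
  have key : ∀ (h x c : G), c ∈ h ⋆ A → c ≠ 1 → x * c = c * x → x ⋆ (h ⋆ A) = h ⋆ A := by
    intro h x c hc hc1 hx
    rcases hTI (h⁻¹ * x * h) with h0 | h0
    · exfalso
      have h1 : h⁻¹ * c * h ∈ A := mem_conj.1 hc
      have h2 : h⁻¹ * c * h ∈ (h⁻¹ * x * h) ⋆ A := by
        rw [mem_conj]
        have : (h⁻¹ * x * h)⁻¹ * (h⁻¹ * c * h) * (h⁻¹ * x * h) = h⁻¹ * (x⁻¹ * (c * x)) * h := by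
          group
        rw [this, ← hx]
        simpa using h1
      have : h⁻¹ * c * h = 1 := by
        rw [← Subgroup.mem_bot, ← h0]; exact ⟨h2, h1⟩
      apply hc1
      calc c = h * (h⁻¹ * c * h) * h⁻¹ := by group
        _ = 1 := by rw [this]; group
    · calc x ⋆ (h ⋆ A) = h ⋆ ((h⁻¹ * x * h) ⋆ A) := by
            rw [conj_conj, conj_conj]; congr 3; group
        _ = h ⋆ A := by rw [h0]
  have hBA : ∀ b ∈ g ⋆ A, b ⋆ A = A := by
    intro b hb
    have := key 1 b a (by rw [conj_one]; exact ha) ha1 (hg hb a rfl).symm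
    rwa [conj_one] at this
  have hAB : ∀ x ∈ A, x ⋆ (g ⋆ A) = g ⋆ A := by
    intro x hx
    by_cases hx1 : x = 1
    · rw [hx1, conj_one]
    by_contra hc
    let f : ↥(g ⋆ A) → A := fun b => ⟨b * x * (b : G)⁻¹,
      (hBA b b.2).le (conj_mem_conj.2 hx)⟩
    have hf : Function.Injective f := by
      intro b b' hbb
      have e : (b : G) * x * (b : G)⁻¹ = b' * x * (b' : G)⁻¹ := congrArg Subtype.val hbb
      by_contra hn
      apply hc
      refine key g x ((b' : G)⁻¹ * b) (Subgroup.mul_mem _ (Subgroup.inv_mem _ b'.2) b.2) ?_ ?_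
      · intro h0
        exact hn (Subtype.ext (inv_mul_eq_one.1 h0).symm)
      · calc x * ((b' : G)⁻¹ * b) = (b' : G)⁻¹ * (b' * x * (b' : G)⁻¹) * b := by group
          _ = (b' : G)⁻¹ * b * x := by rw [← e]; group
    have hs : Function.Surjective f :=
      ((Nat.bijective_iff_injective_and_card f).2 ⟨hf, card_conj g A⟩).2
    obtain ⟨b, hb⟩ := hs 1
    have e : (b : G) * x * (b : G)⁻¹ = 1 := congrArg Subtype.val hb
    apply hx1
    calc x = (b : G)⁻¹ * (b * x * (b : G)⁻¹) * b := by group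
      _ = 1 := by rw [e]; group
  apply hne
  apply hb
  intro x hx b hb'
  have h1 : x * b * x⁻¹ * b⁻¹ ∈ g ⋆ A :=
    Subgroup.mul_mem _ (by rw [← hAB x hx]; exact conj_mem_conj.2 hb') (Subgroup.inv_mem _ hb')
  have h2 : x * b * x⁻¹ * b⁻¹ ∈ A := by
    have : x * b * x⁻¹ * b⁻¹ = x * (b * x⁻¹ * b⁻¹) := by group
    rw [this]
    exact A.mul_mem hx (by rw [← hBA b hb']; exact conj_mem_conj.2 (A.inv_mem hx))
  have : x * b * x⁻¹ * b⁻¹ = 1 := by rw [← Subgroup.mem_bot, ← hd]; exact ⟨h1, h2⟩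
  calc x * b = (x * b * x⁻¹ * b⁻¹) * (b * x) := by group
    _ = b * x := by rw [this, one_mul]

end Cfsg.Agent.S1177
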