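import Cfsg.Statements.S1178
import Cfsg.Agent.Lib.Transfer.SylowIn

set_option autoImplicit false
open Cfsg

namespace Cfsg.Agent.S1178

open Cfsg.Lib.Transfer

/-- Let A be a subgroup of a Sylow 2-subgroup S of the finite group G which is weakly closed in S. If a conjugate g A g⁻¹ commutes elementwise with A, then g A g⁻¹ = A. -/
theorem result {G : Type*} [Group G] [Finite G] (S : Sylow 2 G) (A : Subgroup G) (hW : Cfsg.IsWeaklyClosed A (S : Subgroup G)) (g : G) (hc : ∀ a ∈ A, ∀ b ∈ A.map (MulAut.conj g).toMonoidHom, a * b = b * a) : A.map (MulAut.conj g).toMonoidHom = A := by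
  have hA : IsPGroup 2 A := S.isPGroup'.to_le hW.1
  have hB : IsPGroup 2 ↥(g ⋆ A) := isPGroup_conj hA g
  have hn : g ⋆ A ≤ Subgroup.normalizer (A : Set G) := by
    refine le_trans ?_ (Subgroup.centralizer_le_normalizer _)
    intro b hb a ha
    exact hc a ha b hb
  have hs : IsPGroup 2 ↥(g ⋆ A ⊔ A) := IsPGroup.to_sup_of_normal_right' hB hA hn
  obtain ⟨h, hh⟩ := exists_conj_le_sylow S hs
  have h1 : h ⋆ A = A := hW.2 h ((conj_mono h le_sup_right).trans hh)
  have h2 : (h * g) ⋆ A = A := hW.2 (h * g) (by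
    rw [← conj_conj]; exact (conj_mono h le_sup_left).trans hh)
  rw [← conj_conj] at h2
  exact conj_inj.1 (h2.trans h1.symm)

end Cfsg.Agent.S1178
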