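import Cfsg.Statements.S1181
import Cfsg.Agent.Lib.ZStar.Isolated

set_option autoImplicit false
open Cfsg

namespace Cfsg.Agent.S1181

/-- Let z be an isolated involution of the finite group G and N a normal subgroup with z ∉ N. Then the centralizer of zN in G/N is the image of C_G(z), and zN is an isolated involution of G/N. -/
theorem result {G : Type*} [Group G] [Finite G] (z : G) (hz : Cfsg.IsIsolatedInvolution z) (N : Subgroup G) [N.Normal] (hzN : z ∉ N) : Subgroup.centralizer ({(QuotientGroup.mk z : G ⧸ N)} : Set (G ⧸ N)) = (Subgroup.centralizer ({z} : Set G)).map (QuotientGroup.mk' N) ∧ Cfsg.IsIsolatedInvolution (QuotientGroup.mk z : G ⧸ N) := by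
  have hz1 : (QuotientGroup.mk' N) z ≠ 1 := by
    intro h
    exact hzN ((QuotientGroup.eq_one_iff z).mp h)
  refine ⟨?_, Lib.ZStar.isolated_map hz (QuotientGroup.mk' N) (QuotientGroup.mk'_surjective N) hz1⟩
  ext x
  obtain ⟨g, rfl⟩ := QuotientGroup.mk'_surjective N x
  rw [Subgroup.mem_centralizer_singleton_iff, Subgroup.mem_map]
  constructor
  · intro h
    obtain ⟨c, hc1, hc2⟩ := Lib.ZStar.exists_commute_of_commute_map hz (QuotientGroup.mk' N)
      (g := g) h
    exact ⟨c, Subgroup.mem_centralizer_singleton_iff.mpr hc1.eq, hc2⟩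
  · rintro ⟨c, hc1, hc2⟩
    rw [← hc2]
    have := Subgroup.mem_centralizer_singleton_iff.mp hc1
    exact (Commute.map this (QuotientGroup.mk' N)).eq

end Cfsg.Agent.S1181
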