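import Cfsg.Statements.S1183
import Cfsg.Agent.Lib.ZStar.Isolated
import Cfsg.Agent.Lib.Transfer.Fusion

set_option autoImplicit false
open Cfsg

namespace Cfsg.Agent.S1183

open Subgroup

/-- Let z be an isolated involution of the finite group G and C = C_G(z). Then the subgroup of G generated by its elements of odd order is all of G if and only if the subgroup of C generated by its elements of odd order is all of C. -/
theorem result {G : Type*} [Group G] [Finite G] (z : G) (hz : Cfsg.IsIsolatedInvolution z) : Cfsg.pResidual 2 G = ⊤ ↔ Cfsg.pResidual 2 ↥(Subgroup.centralizer ({z} : Set G)) = ⊤ := by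
  haveI : Fact (Nat.Prime 2) := ⟨Nat.prime_two⟩
  set C := centralizer ({z} : Set G) with hC
  have hzp : IsPGroup 2 (zpowers z) :=
    IsPGroup.of_card (n := 1) (by rw [Nat.card_zpowers, hz.1]; norm_num)
  obtain ⟨P, hP⟩ := hzp.exists_le_sylow
  have hzP : z ∈ (P : Subgroup G) := hP (mem_zpowers z)
  have hPC : (P : Subgroup G) ≤ C := fun g hg => by
    rw [hC, mem_centralizer_singleton_iff]
    exact (Lib.ZStar.commute_of_mem_twoGroup' hz P.isPGroup' hzP hg).eq
  have hZ : zpowers z ≤ centralizer ((P : Subgroup G) : Set G) := by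
    rw [zpowers_le, mem_centralizer_iff]
    intro g hg
    exact (Lib.ZStar.commute_of_mem_twoGroup' hz P.isPGroup' hzP hg).eq
  have hW : IsWeaklyClosed (zpowers z) (P : Subgroup G) := by
    refine ⟨hP, fun g hg => ?_⟩
    rw [MonoidHom.map_zpowers] at hg ⊢
    have h1 : g * z * g⁻¹ ∈ (P : Subgroup G) := hg (mem_zpowers _)
    have h2 := Lib.ZStar.commute_of_mem_twoGroup hz P.isPGroup' hzP h1
    congr 1
  have hV : normalizer ((zpowers z : Subgroup G) : Set G) ≤ C := by
    intro g hg
    rw [hC, mem_centralizer_singleton_iff]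
    have h1 : g * z * g⁻¹ ∈ zpowers z := (mem_normalizer_iff.1 hg z).1 (mem_zpowers z)
    have h2 := Lib.ZStar.commute_of_mem_twoGroup hz hzp (mem_zpowers z) h1
    rw [← mul_inv_eq_iff_eq_mul, h2]
  have key := Lib.Transfer.gruen_pResidual_inf P hZ hW hV
  constructor
  · intro h
    rw [h, top_inf_eq] at key
    rw [eq_top_iff]
    intro c _
    have : (c : G) ∈ (pResidual 2 C).map C.subtype := key ▸ c.2
    obtain ⟨d, hd, hdc⟩ := this
    have : d = c := Subtype.ext hdc
    exact this ▸ hd
  · intro h
    rw [h, ← MonoidHom.range_eq_map, range_subtype] at key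
    have h1 : C ≤ pResidual 2 G := by rw [← key]; exact inf_le_left
    rw [← Lib.Transfer.pResidual_sup_sylow P, left_eq_sup]
    exact hPC.trans h1

end Cfsg.Agent.S1183
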