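import Cfsg.Statements.S1186
import Cfsg.Agent.Lib.ZStar.Count

set_option autoImplicit false
open Cfsg

namespace Cfsg.Agent.S1186

open Subgroup Cfsg.Lib.ZStar

/-- Let z be an isolated involution of the finite group G, C = C_G(z), K the set of elements of odd order inverted by z, and s an involution of C. Then |G| = |C| · |C_K(sz)| · |C_K(s)|. -/
theorem result {G : Type*} [Group G] [Finite G] (z : G) (hz : Cfsg.IsIsolatedInvolution z) (s : G) (hs : orderOf s = 2) (hsz : Commute s z) : Nat.card G = Nat.card (Subgroup.centralizer ({z} : Set G)) * Nat.card {k : G // Odd (orderOf k) ∧ z * k * z⁻¹ = k⁻¹ ∧ Commute k (s * z)} * Nat.card {k : G // Odd (orderOf k) ∧ z * k * z⁻¹ = k⁻¹ ∧ Commute k s} := by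
  have hz2 := isolated_mul_self hz
  have hs2 := mul_self_of_orderOf_two hs
  rw [card_inverted_commute hz hsz, card_inverted_commute hz (hsz.mul_left (Commute.refl z)),
    ← Lib.Inv.card_class_mul_card_centralizer z]
  by_cases hne : s = z
  · subst hne
    have h1 : Nat.card {t : G // IsConj s t ∧ Commute t s} = 1 := by
      rw [Nat.card_eq_one_iff_exists]
      refine ⟨⟨s, IsConj.refl s, Commute.refl s⟩, ?_⟩
      rintro ⟨t, ht1, ht2⟩
      exact Subtype.ext (eq_of_isConj_of_commute hz ht1 ht2.symm)
    rw [h1, hz2, Lib.Inv.card_subtype_congr (P := fun t => IsConj s t ∧ Commute t 1)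
      (Q := fun t => IsConj s t) (fun t => by simp)]
    ring
  · rw [card_class_eq_mul hz hs2 hsz hne]
    ring

end Cfsg.Agent.S1186
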