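import Cfsg.Statements.S1220
import Cfsg.Agent.Lib.BS.Cor

set_option autoImplicit false
open Cfsg

namespace Cfsg.Agent.S1220

open Subgroup Cfsg.Lib Cfsg.Lib.Inv Cfsg.Lib.BS

/-- Let H be a strongly embedded subgroup of the finite group G. Then either G acts doubly transitively on the cosets of H (H permutes transitively the cosets gH with g ∉ H), or every Sylow 2-subgroup of G is cyclic or generalized quaternion and G = O(G)H. -/
theorem result {G : Type*} [Group G] [Finite G] (H : Subgroup G) (hH : Cfsg.IsStronglyEmbedded H) : (∀ g₁ g₂ : G, g₁ ∉ H → g₂ ∉ H → ∃ h ∈ H, g₂⁻¹ * (h * g₁) ∈ H) ∨ ((∀ S : Sylow 2 G, IsCyclic S ∨ ∃ m : ℕ, 1 ≤ m ∧ Nonempty ((S : Subgroup G) ≃* QuaternionGroup (2 ^ m))) ∧ Cfsg.oddCore G ⊔ H = ⊤) := by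
  by_cases h2 : Rk2 G
  · obtain ⟨Q, D, t, h⟩ := exists_ro_quot hH h2
    refine Or.inl fun g₁ g₂ h₁ h₂ => ?_
    obtain ⟨u, hu, e⟩ := RO.trans h (mt (mem_of_quot hH h2) h₁) (mt (mem_of_quot hH h2) h₂)
    obtain ⟨u, hu', rfl⟩ := h.QH hu
    exact ⟨u, hu', mem_of_quot hH h2 (by simpa using e)⟩
  · refine Or.inr ⟨fun S => ?_, se_sup_of_not_rk2 hH h2⟩
    refine (PGroup.isCyclic_or_quaternion_of_pRankLE_one S.2 (by_contra fun e => h2 ?_)).imp_right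
      fun ⟨_, n, e⟩ => ⟨n + 1, by omega, e⟩
    obtain ⟨U, -, hU⟩ := not_pRankLE_iff.1 e
    exact rk2_iff.2 ⟨U, hU⟩

end Cfsg.Agent.S1220
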