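import Cfsg.Statements.S1223
import Cfsg.Agent.Lib.BS.Cor
import Cfsg.Agent.Lib.Bender.Main

set_option autoImplicit false
open Cfsg

namespace Cfsg.Agent.S1223

open Subgroup MulAction Cfsg.Lib Cfsg.Lib.Inv Cfsg.Lib.Bender Cfsg.Lib.BS

/-- Let H be a strongly embedded subgroup of the finite group G containing no nontrivial normal subgroup of G (so G acts faithfully on the cosets of H), u an involution of G outside H, and j ≠ 1 an element of H ∩ uHu⁻¹ with u j u⁻¹ = j⁻¹. Then C_G(j) has odd order. -/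
theorem result {G : Type*} [Group G] [Finite G] (H : Subgroup G) (hH : Cfsg.IsStronglyEmbedded H) (hcore : H.normalCore = ⊥) (u : G) (hu : orderOf u = 2) (huH : u ∉ H) (j : G) (hj : j ∈ (H ⊓ H.map (MulAut.conj u).toMonoidHom)) (hj1 : j ≠ 1) (hinv : u * j * u⁻¹ = j⁻¹) : Odd (Nat.card (Subgroup.centralizer ({j} : Set G))) := by
  have h1 := one_of_se hH
  have hu2 := mul_self_of_orderOf hu
  have hfix : ∀ g : G, g • ((1 : G) : G ⧸ H) = (1 : G) ↔ g ∈ H := fun g => by rw [Bender.smul_coe_eq_iff]; simp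
  have hne : ((1 : G) : G ⧸ H) ≠ u • ((1 : G) : G ⧸ H) := fun e => huH ((hfix u).1 e.symm)
  have hI := mem_Iv_of_fix rfl ((hfix j).2 hj.1) hinv
  by_contra h
  obtain ⟨v, hv, hv2⟩ := exists_involution_mem_of_even (Nat.not_odd_iff_even.1 h)
  have huj : u ∉ centralizer {j} := fun e => hj1 (h1.eq_one_of_Iv_Vv hne hI (mem_centralizer_singleton_iff.1 e).symm)
  have h2 : Rk2 G := by
    obtain ⟨z1, z2, z3⟩ := half_pow_of_even hu2 (mul_self_of_orderOf hv2) (Nat.not_odd_iff_even.1 fun ho => huj (by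
      obtain ⟨k, hk⟩ := exists_sq_pow_eq_of_odd ho
      rw [← mul_mem_cancel_right hv, ← hk]
      refine pow_mem (mem_centralizer_singleton_iff.2 ?_) k
      have e : u * v * j = j⁻¹ * (u * v) := by
        rw [mul_assoc, mem_centralizer_singleton_iff.1 hv, ← hinv]; group
      rw [mul_assoc, e, ← mul_assoc, mul_inv_eq_iff_eq_mul.2 (show u * v = j * (u * v) * j by
        rw [mul_assoc j, e, mul_inv_cancel_left]), mul_assoc]))
    by_cases e : (u * v) ^ (orderOf (u * v) / 2) = u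
    · exact ⟨u, v, ne_one_of_orderOf hu, ne_one_of_orderOf hv2, fun e => huj (e ▸ hv), hu2, mul_self_of_orderOf hv2,
        (e ▸ z3 : Commute u v)⟩
    · exact ⟨_, u, ne_one_of_orderOf z1, ne_one_of_orderOf hu, e, mul_self_of_orderOf z1, hu2, z2⟩
  obtain ⟨Q, D, t, hr⟩ := exists_ro hH h2 hcore
  obtain ⟨c, hc⟩ := h1.exists_fix hv2
  have hjv := (mem_centralizer_singleton_iff.1 hv).symm
  have hjc := h1.smul_eq_of_comm hc hjv
  have hca : c ≠ (1 : G) := fun e => hj1 (h1.eq_one_of_Iv_comm hu rfl hne (e ▸ hc) hI hjv)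
  have hcb : c ≠ u • ((1 : G) : G ⧸ H) := fun e => hj1 (h1.eq_one_of_Iv_comm hu (smul_swap hu rfl) hne.symm (e ▸ hc)
    (mem_Iv_of_fix (smul_swap hu rfl) hI.1.2 hinv) hjv)
  obtain ⟨g, rfl⟩ := QuotientGroup.mk_surjective c
  obtain ⟨q, hq, e⟩ := RO.trans hr huH (g₂ := g) fun e => hca (QuotientGroup.eq.2 (by simpa using e))
  have hb : u • ((1 : G) : G ⧸ H) = (u : G) := by simp
  replace e := Bender.smul_coe_eq_iff.2 e
  have hjb : j • ((u : G) : G ⧸ H) = u := hb ▸ hI.1.2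
  have hc' : q⁻¹ * (j * q * j⁻¹) = 1 := RO.reg hr huH (mul_mem (inv_mem hq) (hr.conj_mem_Q hj.1 hq))
    (Bender.smul_coe_eq_iff.1 (by rw [mul_smul, mul_smul, inv_smul_eq_iff.2 hjb.symm, mul_smul, e, hjc, ← e, inv_smul_smul]))
  have hjq : Commute j q := mul_inv_eq_iff_eq_mul.1 (inv_mul_eq_one.1 hc').symm
  obtain ⟨k, hk⟩ := IsPGroup.iff_orderOf.1 (RO.isPGroup_Q hr h2) ⟨q, hq⟩
  replace hk : orderOf q = 2 ^ k := (orderOf_coe (⟨q, hq⟩ : Q)).trans hk
  have hs := orderOf_pow_half (orderOf_pos q).ne' (by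
    rcases k with _ | k
    · rw [orderOf_eq_one_iff.1 hk, one_smul] at e
      exact absurd (e.symm.trans hb.symm) hcb
    · exact hk ▸ (Nat.even_pow.2 ⟨even_two, k.succ_ne_zero⟩))
  exact hj1 (h1.eq_one_of_Iv_comm hu rfl hne ⟨hs, (hfix _).2 (hr.QH (pow_mem hq _))⟩ hI (hjq.pow_right _))

end Cfsg.Agent.S1223
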