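import Cfsg.Statements.S1224
import Cfsg.Agent.Lib.Inv.StronglyEmbedded

set_option autoImplicit false
open Cfsg

namespace Cfsg.Agent.S1224
open Cfsg.Lib.Inv


/-- Let H be a strongly embedded subgroup of the finite group G and x ≠ y two cosets in G/H. Then the number of involutions i of G with i • x = y equals the number of involutions lying in H. -/
theorem result {G : Type*} [Group G] [Finite G] (H : Subgroup G) (hH : Cfsg.IsStronglyEmbedded H) (x y : G ⧸ H) (hxy : x ≠ y) : Nat.card {i : G // orderOf i = 2 ∧ i • x = y} = Nat.card {t : G // orderOf t = 2 ∧ t ∈ H} := by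
  induction x using QuotientGroup.induction_on with
  | H a =>
  induction y using QuotientGroup.induction_on with
  | H b =>
  rw [← se_card_coset hH (a⁻¹ * b)]
  refine Nat.card_congr (Equiv.subtypeEquiv (MulAut.conj a⁻¹).toEquiv fun t => ?_)
  rw [MulAction.Quotient.smul_coe, smul_eq_mul, eq_comm (a := ((t * a : G) : G ⧸ H)),
    QuotientGroup.eq]
  have e1 : orderOf ((MulAut.conj a⁻¹).toEquiv t) = orderOf t := by
    simpa using orderOf_conj' a⁻¹ t
  have e2 : (a⁻¹ * b)⁻¹ * ((MulAut.conj a⁻¹).toEquiv t) = b⁻¹ * (t * a) := by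
    simp; group
  rw [e1, e2]

end Cfsg.Agent.S1224
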