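import Cfsg.Statements.S1231
import Cfsg.Agent.Lib.Inv.GenCore
import Cfsg.Agent.Lib.PGroup.Omega

set_option autoImplicit false
open Cfsg

namespace Cfsg.Agent.S1231
open Cfsg.Lib.Inv

open Cfsg.Lib.Transfer Cfsg.Lib.PGroup

/-- Let H be a subgroup of the finite group G, p a prime, k ≥ 1, and P a Sylow p-subgroup of H whose p-rank is at least k. Then N_G(X) ≤ H for every subgroup X of P of p-rank at least k if and only if H ∩ gHg⁻¹ has p-rank less than k for every g ∉ H. -/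
theorem result {G : Type*} [Group G] [Finite G] {p : ℕ} [Fact p.Prime] (k : ℕ) (hk : 1 ≤ k) (H : Subgroup G) (P : Sylow p ↥H) (hP : ¬ Cfsg.PRankLE p (k - 1) ↥(P : Subgroup ↥H)) : (∀ X : Subgroup G, X ≤ (P : Subgroup ↥H).map H.subtype → ¬ Cfsg.PRankLE p (k - 1) ↥X → Subgroup.normalizer (X : Set G) ≤ H) ↔ (∀ g : G, g ∉ H → Cfsg.PRankLE p (k - 1) ↥(H ⊓ H.map (MulAut.conj g).toMonoidHom)) := by
  have hconj : ∀ (g : G) (X : Subgroup G), ¬ PRankLE p (k - 1) X → ¬ PRankLE p (k - 1) ↥(g ⋆ X) :=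
    fun g X h h' => h ((pRankLE_map_iff_of_injective (MulAut.conj g).injective).1 h')
  have hmono : ∀ X Y : Subgroup G, X ≤ Y → ¬ PRankLE p (k - 1) X → ¬ PRankLE p (k - 1) Y :=
    fun X Y hXY h h' => h (pRankLE_of_le hXY h')
  constructor
  · intro h g hg
    by_contra hc
    obtain ⟨A, hA, hAe, hAc⟩ := not_pRankLE_subgroup_iff.1 hc
    have hL : ¬ PRankLE p (k - 1) A := not_pRankLE_subgroup_iff.2 ⟨A, le_rfl, hAe, hAc⟩
    apply hg
    have := mem_of_normalizers_le (p := p) (fun X => ¬ PRankLE p (k - 1) X) hmono hconj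
      (not_dvd_relIndex_map_sylow P) (fun X hX _ hL => h X hX hL) A g⁻¹ (elemAb_isPGroup hAe) hL
      (hA.trans inf_le_left) (le_conj_iff_inv_conj_le.1 (hA.trans inf_le_right))
    simpa using this
  · intro h X hX hL g hg
    by_contra hc
    apply hL
    refine pRankLE_of_le (le_inf ?_ ?_) (h g hc)
    · exact hX.trans (Subgroup.map_subtype_le _)
    · rw [← conj_eq_self_iff.2 hg]
      exact conj_mono g (hX.trans (Subgroup.map_subtype_le _))

end Cfsg.Agent.S1231
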