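import Cfsg.Statements.S1234
import Cfsg.Agent.Lib.SR.Eight4

set_option autoImplicit false
open Cfsg

namespace Cfsg.Agent.S1234

open Subgroup Cfsg.Lib Cfsg.Lib.BG Cfsg.Lib.SR

/-- Let S be a finite 2-group and Q ≤ S a subgroup of order 32 having an elementary abelian subgroup E of order 16 and an involution s ∉ E whose centralizer in E has order 4 (so Q ≅ (Z₂ × Z₂) ≀ Z₂). If C_S(Z(Q)) = Q, then every section of S has 2-rank at most 4. -/
theorem result {S : Type*} [Group S] [Finite S] (hS : IsPGroup 2 S) (Q E : Subgroup S) (hEQ : E ≤ Q) (hE : Cfsg.IsElementaryAbelian 2 E) (hE16 : Nat.card E = 16) (hQ32 : Nat.card Q = 32) (s : S) (hsQ : s ∈ Q) (hsE : s ∉ E) (hs : orderOf s = 2) (hfix : Nat.card ↥(E ⊓ Subgroup.centralizer ({s} : Set S)) = 4) (hC : Subgroup.centralizer (((Subgroup.center Q).map Q.subtype : Subgroup S) : Set S) = Q) : Cfsg.SectionalPRankLE 2 4 S := by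
  have h2 : s * s = 1 := (Inv.ord_two_iff.1 hs).2
  have hF : ∀ e ∈ E ⊓ centralizer ({s} : Set S), e * e = 1 := fun e he => by rw [← sq, hE.2 e he.1]
  have hsF : s ∈ centralizer ((E ⊓ centralizer ({s} : Set S) : Subgroup S) : Set S) := H8.aF
  have hN := cent_le_norm _ hsF
  have h1 : s * s ∈ E ⊓ centralizer ({s} : Set S) := h2 ▸ one_mem _
  have h3 : ∀ q ∈ Q, q ∈ centralizer ({s} : Set S) → q ∈ E ⊓ centralizer ({s} : Set S) ⊔ zpowers s :=
    fun q hq hc => (mem_sup_zp hN h1).2 <| (em (q ∈ E)).imp (⟨·, hc⟩) fun e =>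
      ⟨not_mul hEQ (by omega) hq (inv_mem hsQ) e (by simpa),
        (centralizer _).mul_mem hc (inv_mem (self_mem_cent1 s))⟩
  refine sectional_of_sr' hS (sr_of_self8 hS (sq_sup_zp hF hsF h2)
    (by rw [card_sup_zp hN (fun e => hsE e.1) h1, hfix]) fun g hg => h3 g (hC.le (cent_anti ?_ hg))
      (cent_le_cent1 (mem_sup_right (mem_zpowers s)) hg))
  rintro _ ⟨z, hz, rfl⟩
  exact h3 z z.2 (mem_cent1.2 (congrArg Subtype.val (mem_center_iff.1 hz ⟨s, hsQ⟩)).symm)

end Cfsg.Agent.S1234
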