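import Cfsg.Statements.S1235
import Cfsg.Agent.Lib.FGS.HaradaDB2

set_option autoImplicit false
open Cfsg

namespace Cfsg.Agent.S1235

open Subgroup Cfsg.Lib.BG Cfsg.Lib.FGS Cfsg.Lib.Harada Cfsg.Lib.Inv in
open scoped Cfsg.Lib.Transfer in

/-- Let G be a finite group, x an involution and T ≤ G a Sylow 2-subgroup of C_G(x) (T ≤ C_G(x) with |C_G(x) : T| odd) which is the internal direct product of a subgroup D that is dihedral (of order ≥ 4) or quasi-dihedral and a Klein four-subgroup B. Suppose that for every involution b ∈ B, T ≤ C_G(b) with |C_G(b) : T| odd. Then every section of G has 2-rank at most 4. -/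
theorem result {G : Type*} [Group G] [Finite G] (x : G) (hx : orderOf x = 2) (T D B : Subgroup G) (hT : IsPGroup 2 T) (hTx : T ≤ Subgroup.centralizer ({x} : Set G)) (hTxi : Odd (T.relIndex (Subgroup.centralizer ({x} : Set G)))) (hprod : Cfsg.IsInternalDirectProduct D B T) (hD : (∃ m : ℕ, 2 ≤ m ∧ Nonempty (D ≃* DihedralGroup m)) ∨ Cfsg.IsQuasiDihedral D) (hB : IsKleinFour B) (hTb : ∀ b ∈ B, orderOf b = 2 → T ≤ Subgroup.centralizer ({b} : Set G) ∧ Odd (T.relIndex (Subgroup.centralizer ({b} : Set G)))) : Cfsg.SectionalPRankLE 2 4 G := by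
  obtain ⟨hDT, hBT, hDB, hinf, hsup⟩ := hprod
  obtain ⟨S, hS, hTS⟩ := Syl.exists_ge hT (le_top : T ≤ ⊤)
  have b2 : ∀ b ∈ B, b * b = 1 := fun b hb => congrArg Subtype.val (hB.mul_self ⟨b, hb⟩)
  have hc : D ≤ 𝐂(B) := le_cent_iff.2 hDB
  have hmem : ∀ t ∈ T, ∃ d ∈ D, ∃ b ∈ B, d * b = t := fun t ht =>
    (mem_sup_right_norm (norm_of_cent hc)).1 (hsup ▸ ht)
  have h0 : HB S T B := ⟨hS.pgroup, hTS, hBT, hB.card_four, fun b hb h1 s hs e => by
    obtain ⟨k1, k2⟩ := hTb b hb (orderOf_eq_prime (by rw [sq, b2 b hb]) h1)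
    have := (Syl.mk' k1 hT (Nat.two_dvd_ne_zero.2 (Nat.odd_iff.1 k2))).eq_of_le_pgroup
      (le_inf hTS k1) inf_le_right (pgroup_of_le hS.pgroup inf_le_left)
    exact this ▸ ⟨hs, mem_cent1.2 e⟩⟩
  have hcard : Nat.card T = Nat.card D * 4 := by rw [← hsup, card_sup_of_cent hc hinf, hB.card_four]
  have hBc : ∀ b ∈ B, b * b = 1 ∧ ∀ t ∈ T, t * b = b * t := fun b hb => ⟨b2 b hb, fun t ht => by
    by_cases h1 : b = 1
    · simp [h1]
    · exact mem_cent1.1 ((hTb b hb (orderOf_eq_prime (by rw [sq, b2 b hb]) h1)).1 ht)⟩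
  refine sectional_of_sr hS ?_
  have key : ∀ a b m ε, 1 ≤ m → MC D a b m ε 0 → SR 2 4 S := fun a b m ε hm h => by
    have e := h0.eq_of_small hBc hDT hcard h.z_ord fun d hd h2 hz => by
      obtain ⟨i, rfl | rfl⟩ := h.mem_iff.1 hd
      · by_cases h1 : a ^ i = 1
        · rw [h1]; exact one_mem _
        · rw [h.eq_z (zpow_mem_zpowers a i) h1 h2]; exact mem_zpowers _
      · exfalso
        have h3 := h.refl_conj i 1
        rw [zpow_one, ← hz a h.a_mem, mul_inv_cancel_right, one_mul] at h3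
        have h4 := h.zpow_eq_iff.1 ((zpow_one a).trans h3)
        have h5 : (4 : ℤ) ∣ 2 ^ (m + 1) := by
          obtain ⟨n, rfl⟩ := Nat.exists_eq_add_of_le' hm
          exact ⟨2 ^ n, by ring⟩
        have h6 := dvd_add (h5.trans h4) h.four
        omega
    refine sr_of_index (j := 3) (sr_cyclic a) (h.zpowers_le.trans (hDT.trans hTS)) ?_
    rw [← e, hcard, h.card_eq, Nat.card_zpowers, h.ord]
    exact le_of_eq (by ring)
  rcases hD with ⟨n, hn, ⟨e⟩⟩ | hD
  · obtain ⟨a, b, m, rfl, h⟩ := exists_mc_of_dihedral (pgroup_of_le hT hDT) hn e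
    rcases Nat.eq_zero_or_pos m with rfl | hm
    swap
    · exact key a b m 0 hm h
    have d2 : ∀ d ∈ D, d * d = 1 := fun d hd => congrArg Subtype.val (e.injective (a₁ := ⟨d, hd⟩ * ⟨d, hd⟩)
      (a₂ := 1) (by rw [map_mul, map_one]; exact (by decide : ∀ y : DihedralGroup 2, y * y = 1) _))
    have t2 : ∀ t ∈ T, t * t = 1 := fun t ht => by
      obtain ⟨d, hd, b, hb, rfl⟩ := hmem t ht
      rw [mul_assoc, ← mul_assoc b, ← hDB d hd b hb, mul_assoc, b2 b hb, mul_one, d2 d hd]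
    refine HE.sr (B := B) ⟨h0, fun x hx y hy => ?_, t2, by rw [hcard, h.card_eq]; norm_num⟩
    rw [← inv_eq_of_mul_eq_one_right (t2 _ (mul_mem hx hy)), mul_inv_rev,
      inv_eq_of_mul_eq_one_right (t2 x hx), inv_eq_of_mul_eq_one_right (t2 y hy)]
  · obtain ⟨a, b, n, h⟩ := exists_mc_of_quasiDihedral hD
    exact key a b _ 1 (by omega) h

end Cfsg.Agent.S1235
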