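import Cfsg.Statements.S1236
import Cfsg.Agent.Lib.Inv.Misc
import Cfsg.Agent.Lib.Inv.QDGroup

set_option autoImplicit false
open Cfsg

namespace Cfsg.Agent.S1236
open Cfsg.Lib.Inv

open Subgroup Cfsg.Lib Cfsg.Lib.Transfer

theorem dih {m : ℕ} (hm : 2 ≤ m) {U : Subgroup (DihedralGroup m)} (hU : IsKleinFour U) :
    centralizer (U : Set (DihedralGroup m)) ≤ U := by
  haveI : NeZero m := ⟨by omega⟩
  have hr : ∀ i j : ZMod m, i + i = 0 → j + j = 0 → i ≠ 0 → j ≠ 0 → i = j := fun i j hi hj h1 h2 =>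
    ((ZMod.neg_eq_self_iff i).1 (neg_eq_of_add_eq_zero_left hi)).resolve_left h1 |> fun e1 =>
    ((ZMod.neg_eq_self_iff j).1 (neg_eq_of_add_eq_zero_left hj)).resolve_left h2 |> fun e2 =>
      ZMod.val_injective m (by omega)
  obtain ⟨i, j, hi, hj, hj0⟩ : ∃ i j : ZMod m, .sr i ∈ U ∧ .r j ∈ U ∧ j ≠ 0 := by
    obtain ⟨x, hx, y, hy, hx1, hy1, hxy⟩ := k4_exists hU
    have ex := k4_mul_self hU hx
    have ey := k4_mul_self hU hy
    rcases x with i | i <;> rcases y with j | j
    · simp only [DihedralGroup.r_mul_r, DihedralGroup.one_def, DihedralGroup.r.injEq, ne_eq] at *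
      exact absurd (hr i j ex ey hx1 hy1) hxy
    · exact ⟨j, i, hy, hx, fun e => hx1 (by rw [e]; rfl)⟩
    · exact ⟨i, j, hx, hy, fun e => hy1 (by rw [e]; rfl)⟩
    · exact ⟨i, j - i, hx, mul_mem hx hy, fun e => hxy (by rw [sub_eq_zero.1 e])⟩
  have hjj : j + j = 0 := DihedralGroup.r.inj (k4_mul_self hU hj)
  have key : ∀ k : ZMod m, k + k = 0 → .r k ∈ U := fun k hk => by
    by_cases h0 : k = 0
    · rw [h0]; exact one_mem U
    · rwa [hr k j hk hjj h0 hj0]
  rintro (k | k) hk
  · have := hk _ hi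
    simp only [DihedralGroup.sr_mul_r, DihedralGroup.r_mul_sr, DihedralGroup.sr.injEq] at this
    exact key k (by linear_combination this)
  · have := hk _ hi
    simp only [DihedralGroup.sr_mul_sr, DihedralGroup.r.injEq] at this
    simpa using mul_mem hi (key (k - i) (by linear_combination this))

/-- Let R be a finite group, t a central involution of R such that R ⧸ ⟨t⟩ is dihedral (of order ≥ 4) or quasi-dihedral, and A ≤ R an elementary abelian subgroup of order 8 containing t. Then C_R(A) = A. -/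
theorem result {R : Type*} [Group R] [Finite R] (t : R) (ht : orderOf t = 2) (htz : t ∈ Subgroup.center R) [(Subgroup.zpowers t).Normal] (hq : (∃ m : ℕ, 2 ≤ m ∧ Nonempty (R ⧸ Subgroup.zpowers t ≃* DihedralGroup m)) ∨ Cfsg.IsQuasiDihedral (R ⧸ Subgroup.zpowers t)) (A : Subgroup R) (hA : Cfsg.IsElementaryAbelian 2 A) (hA8 : Nat.card A = 8) (htA : t ∈ A) : Subgroup.centralizer (A : Set R) = A := by
  have hk : (QuotientGroup.mk' (zpowers t)).ker ≤ A := by
    rw [QuotientGroup.ker_mk']; exact zpowers_le.2 htA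
  have hU : IsKleinFour (A.map (QuotientGroup.mk' (zpowers t))) := by
    refine k4_of_elemAb (PGroup.elemAb_map _ hA) ?_
    have := PGroup.card_mul_relIndex hk
    rw [relIndex_ker, QuotientGroup.ker_mk', Nat.card_zpowers, ht, hA8] at this
    omega
  refine le_antisymm (fun c hc => ?_) (PGroup.elemAb_le_centralizer hA)
  rw [← comap_map_eq_self hk]
  have hc' : QuotientGroup.mk' (zpowers t) c ∈
      centralizer ((A.map (QuotientGroup.mk' (zpowers t)) : Subgroup _) : Set _) := by
    rintro _ ⟨a, ha, rfl⟩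
    rw [← map_mul, hc a ha, map_mul]
  rw [mem_comap]
  generalize A.map (QuotientGroup.mk' (zpowers t)) = U at hU hc'
  generalize QuotientGroup.mk' (zpowers t) c = x at hc'
  rcases hq with ⟨m, hm, ⟨e⟩⟩ | hq
  · refine (mem_map_iff_mem (f := e.toMonoidHom) e.injective).1 (dih hm (k4_map hU e.injective) ?_)
    rintro _ ⟨a, ha, rfl⟩
    rw [← map_mul, hc' a ha, map_mul]
  · obtain ⟨S, a, b, n, hS, h⟩ := exists_mc_top_of_quasiDihedral hq
    rw [hS] at h
    exact (h.qd_k4_centralizer le_top hU).le ⟨mem_top x, hc'⟩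

end Cfsg.Agent.S1236
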