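import Cfsg.Statements.S1237
import Cfsg.Agent.Lib.U3.Singer
import Cfsg.Agent.Lib.PGroup.Critical
import Cfsg.Agent.Lib.Linear.FieldAut
import Cfsg.Agent.S1137
import Cfsg.Agent.S1138
import Cfsg.Agent.S1139

set_option autoImplicit false
open Cfsg

namespace Cfsg.Agent.S1237

open Cfsg.Lib Cfsg.Lib.U3 Cfsg.Lib.Unitary Subgroup MulAction
open scoped commutatorElement

theorem nine_dvd {X : Type*} [Finite X] (π : Equiv.Perm X) {a : ℕ} (h : π ^ 3 ^ a = 1) :
    9 ∣ Nat.card {x // (π ^ 3) x ≠ x} := by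
  let S : SubMulAction (zpowers π) X := ⟨{x | (π ^ 3) x ≠ x}, by
    rintro ⟨_, k, rfl⟩ x hx e
    exact hx ((π ^ k).injective (by
      rw [← Equiv.Perm.mul_apply, ((Commute.refl π).zpow_left k).pow_right 3 |>.eq]; exact e))⟩
  have hP : IsPGroup 3 (zpowers π) := IsPGroup.of_card_dvd_pow (by
    rw [Nat.card_zpowers]; exact orderOf_dvd_of_pow_eq_one h)
  have := Fintype.ofFinite (orbitRel.Quotient (zpowers π) S)
  change 9 ∣ Nat.card S
  rw [Nat.card_congr (selfEquivSigmaOrbits (zpowers π) S), Nat.card_sigma]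
  refine Finset.dvd_sum fun ω _ => ?_
  have : Fact (Nat.Prime 3) := ⟨Nat.prime_three⟩
  obtain ⟨n, hn⟩ := hP.card_orbit ω.out
  refine hn ▸ pow_dvd_pow 3 (show 2 ≤ n from not_lt.1 fun h2 => ω.out.2 ?_)
  have h1 := (stabilizer (zpowers π) ω.out).pow_index_mem ⟨π, mem_zpowers π⟩
  rw [index_stabilizer, ← Nat.card_coe_set_eq, hn] at h1
  have h3 := pow_mem h1 (3 ^ (1 - n))
  rw [← pow_mul, ← pow_add, show n + (1 - n) = 1 by omega, pow_one] at h3
  exact congrArg Subtype.val h3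

theorem cube_eq_one {T : Type*} [Group T] [Finite T] (hT : IsPGroup 2 T) {C : Subgroup T}
    (hC : ∀ u, u ∈ C ↔ u * u = 1) (hZ : C ≤ center T) (h4 : Nat.card C = 4) {ψ : MulAut T} {a : ℕ}
    (ha : ψ ^ 3 ^ a = 1) (h3 : ∀ w ∈ C, (ψ ^ 3) w = w)
    (htr : ∀ v ∈ C, ∀ w ∈ C, v ≠ 1 → w ≠ 1 → ∃ k : ℕ, (ψ ^ k) v = w) : ψ ^ 3 = 1 := by
  obtain ⟨H, hH, h1, h2, h5⟩ := PGroup.exists_critical hT
  have hc : ∀ x ∈ H, ∀ y ∈ H, ⁅x, y⁆ ∈ H ⊓ centralizer (H : Set T) := fun x hx y _ =>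
    h2 (commutator_mem_commutator hx (mem_top y))
  let D : Subgroup T :=
    { carrier := {x | x ∈ H ∧ x ^ 4 = 1}
      one_mem' := by simp
      inv_mem' := fun h => ⟨inv_mem h.1, by rw [inv_pow, h.2, inv_one]⟩
      mul_mem' := fun {x y} hx hy => ⟨mul_mem hx.1 hy.1, by
        have e1 := hc _ (inv_mem hx.1) _ hy.1
        have e2 := Perm.comm_sq_left x⁻¹ y
        rw [commutatorElement_eq_one_iff_mul_comm.2 (h1 _ (inv_mem hx.1) y hy.1).symm,
          commutatorElement_eq_one_iff_mul_comm.2 (e1.2 _ (inv_mem hx.1)), one_mul] at e2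
        have c1 : Commute (x ^ 2) ⁅x⁻¹, y⁆ := e1.2 _ (pow_mem hx.1 2)
        have c2 : Commute (x ^ 2 * ⁅x⁻¹, y⁆) (y ^ 2) := h1 y hy.1 _ (mul_mem (pow_mem hx.1 2) e1.1)
        rw [show 4 = 2 * 2 from rfl, pow_mul, Perm.mul_sq_eq, c2.mul_pow, c1.mul_pow, ← e2, ← pow_mul,
          ← pow_mul, hx.2, hy.2, mul_one, mul_one]⟩ }
  have hD : ∀ σ : MulAut T, ∀ x, σ x ∈ D ↔ x ∈ D := fun σ x => and_congr
    (SetLike.ext_iff.1 (hH.fixed σ) x) (by rw [← map_pow, map_eq_one_iff _ σ.injective])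
  have hCD : C ≤ D := fun w hw => ⟨h5 fun y _ => mem_center_iff.1 (hZ hw) y, by
    rw [show 4 = 2 * 2 from rfl, pow_mul, sq w, (hC w).1 hw, one_pow]⟩
  have h6 : Nat.card (C.subgroupOf D) = 4 := by
    rw [Nat.card_congr (subgroupOfEquivOfLe hCD).toEquiv, h4]
  have h7 : Nat.card D = 4 ∨ Nat.card D = 4 ^ 2 ∨ Nat.card D = 4 ^ 3 := by
    by_cases e : C.subgroupOf D = ⊤
    · exact Or.inl (by rw [← h6, e, card_top])
    refine Or.inr (h6 ▸ Perm.card_of_quadratic (hT.to_subgroup D) _ (fun x => by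
      rw [mem_subgroupOf, hC, sq, Subtype.ext_iff]; rfl)
      (fun z hz x => Subtype.ext (mem_center_iff.1 (hZ hz) x).symm)
      (fun x => (hC _).2 (by simpa [← pow_add] using x.2.2)) (fun y hy z hz e1 e2 => ?_) e)
    obtain ⟨k, hk⟩ := htr y hy z hz (by simpa using e1) (by simpa using e2)
    exact ⟨subgroupEquivOf (ψ ^ k) (hD _), Subtype.ext hk⟩
  let π : MulAut D := subgroupEquivOf ψ (hD _)
  have hπ : ∀ (i : ℕ) (x : D), ((π ^ i) x : T) = (ψ ^ i) x := fun i x => by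
    induction i with
    | zero => rfl
    | succ i ih => rw [pow_succ', pow_succ', MulAut.mul_apply, MulAut.mul_apply, ← ih]; rfl
  let E : Subgroup D := (π ^ 3).toMonoidHom.eqLocus (MonoidHom.id _)
  have h8 := nine_dvd (MulAut.toPerm D π) (a := a) (by
    rw [← map_pow]; ext x; exact (hπ _ x).trans (by simp [ha]))
  have h9 : Nat.card E + Nat.card {x // ((MulAut.toPerm D π) ^ 3) x ≠ x} = Nat.card D := by
    classical
    rw [← Nat.card_sum]
    exact Nat.card_congr (Equiv.sumCompl fun x : D => x ∈ E)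
  have h10 : 4 ∣ Nat.card E := h6 ▸ card_dvd_of_le fun w hw => Subtype.ext ((hπ 3 w).trans (h3 w hw))
  have h11 : E = ⊤ := eq_top_of_card_eq _ (by
    obtain ⟨j, hj, e⟩ := (Nat.dvd_prime_pow Nat.prime_two).1
      ((card_subgroup_dvd_card E).trans (show _ ∣ 2 ^ 6 by rcases h7 with e | e | e <;> simp [e]))
    have := card_le_card_group E
    interval_cases j <;> omega)
  have ho : (orderOf (ψ ^ 3)).Coprime 2 := Nat.Coprime.coprime_dvd_left
    ((orderOf_pow_dvd 3).trans (orderOf_dvd_of_pow_eq_one ha)) (Nat.Coprime.pow_left _ (by decide))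
  refine PGroup.mulAut_eq_one_of_fixes_self_centralizing hT h5 ho fun x hx => ?_
  let θ : MulAut H := subgroupEquivOf (ψ ^ 3) (SetLike.ext_iff.1 (hH.fixed _))
  have hθ : ∀ (i : ℕ) (x : H), ((θ ^ i) x : T) = ((ψ ^ 3) ^ i) x := fun i x => by
    induction i with
    | zero => rfl
    | succ i ih => rw [pow_succ', pow_succ' (ψ ^ 3), MulAut.mul_apply, MulAut.mul_apply, ← ih]; rfl
  have := PGroup.mulAut_eq_one_of_fixes_pow_eq_one (Or.inr ⟨rfl, rfl⟩) (hT.to_subgroup H) (a := θ)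
    (ho.coprime_dvd_left (orderOf_dvd_of_pow_eq_one (MulEquiv.ext fun x => Subtype.ext (by
      rw [hθ, pow_orderOf_eq_one]; rfl))))
    fun y hy => Subtype.ext ((hπ 3 ⟨y, y.2, congrArg Subtype.val hy⟩).symm.trans
      (congrArg Subtype.val (show _ ∈ E from h11 ▸ mem_top _)))
  exact congrArg Subtype.val (DFunLike.congr_fun this ⟨x, hx⟩)

/-- Let T be a finite 2-group of 2-rank exactly 2 (it has a Klein four-subgroup but no elementary abelian subgroup of order 8) admitting an automorphism φ such that any two involutions of T are carried to one another by a power of φ. Then T ≅ Z_{2^n} × Z_{2^n} for some n ≥ 1, or T is isomorphic to a Sylow 2-subgroup of PSU(3) over the field with 16 elements. -/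
theorem result {T : Type*} [Group T] [Finite T] (hT : IsPGroup 2 T) (h2 : Cfsg.PRankLE 2 2 T) (h1 : ¬ Cfsg.PRankLE 2 1 T) (φ : MulAut T) (htrans : ∀ s t : T, orderOf s = 2 → orderOf t = 2 → ∃ k : ℕ, (φ ^ k) s = t) {F : Type*} [Field F] [Fintype F] (hF : Fintype.card F = 16) (P : Sylow 2 (Cfsg.PSU 3 F 4)) : (∃ n : ℕ, 1 ≤ n ∧ Nonempty (T ≃* Multiplicative (ZMod (2 ^ n) × ZMod (2 ^ n)))) ∨ Nonempty (T ≃* (P : Subgroup (Cfsg.PSU 3 F 4))) := by
  simp only [PRankLE, not_forall, not_le] at h1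
  obtain ⟨A, -, hA, hA2⟩ := h1
  have : Nontrivial T := Finite.one_lt_card_iff_nontrivial.1 (by have := card_le_card_group A; omega)
  obtain ⟨z, hz, z1, -⟩ := exists_fix (α := 1) hT fun _ => rfl
  obtain ⟨z, hz', z1, z2⟩ := Perm.exists_sq_mem (A := ⊥) (hT.to_subgroup ⊤) (mem_top z) z1
  replace hz := zpowers_le.2 hz hz'
  have ho : ∀ {u : T}, u ≠ 1 → u * u = 1 → orderOf u = 2 := fun h e =>
    orderOf_eq_prime (by rwa [sq]) h
  have hZ : ∀ u : T, u * u = 1 → u ∈ center T := fun u e => by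
    rcases eq_or_ne u 1 with rfl | h
    · exact one_mem _
    obtain ⟨k, rfl⟩ := htrans z u (orderOf_eq_prime z2 z1) (ho h e)
    exact (mem_center_equiv _).2 hz
  let C : Subgroup T :=
    { carrier := {u | u * u = 1}
      one_mem' := mul_one 1
      inv_mem' := fun {u} h => by rw [Set.mem_ofPred, ← mul_inv_rev, h, inv_one]
      mul_mem' := fun {u v} hu hv => by
        rw [Set.mem_ofPred, mul_assoc, ← mul_assoc v, ← mem_center_iff.1 (hZ v hv), mul_assoc, hv,
          mul_one, hu] }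
  have hC : ∀ u, u ∈ C ↔ u * u = 1 := fun _ => Iff.rfl
  have hab : IsMulCommutative C := ⟨⟨fun u v => Subtype.ext (mem_center_iff.1 (hZ _ v.2) _)⟩⟩
  have h4 : Nat.card C = 4 := by
    have e1 := h2 C hab fun u hu => by rwa [sq]
    have e2 := card_le_of_le (show A ≤ C from fun u hu => by rw [hC, ← sq, hA u hu])
    obtain ⟨j, e⟩ := IsPGroup.iff_card.1 (hT.to_subgroup C)
    rw [e] at e1 e2 ⊢
    have := (Nat.pow_le_pow_iff_right one_lt_two).1 e1
    interval_cases j <;> omega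
  have hσ : ∀ σ : MulAut T, ∀ w ∈ C, σ w ∈ C := fun σ w hw => by rw [hC, ← map_mul, hw, map_one]
  have hf : ∀ w ∈ C, φ w = w → w = 1 := fun w hw e => by_contra fun h => by
    have e1 : C ≤ zpowers w := fun v hv => by
      rcases eq_or_ne v 1 with rfl | h'
      · exact one_mem _
      obtain ⟨k, rfl⟩ := htrans w v (ho h hw) (ho h' hv)
      rw [PGroup.apply_eq_of_mem_zpowers (pow_mem (mem_zpowers φ) k) e]
      exact mem_zpowers w
    have := card_le_of_le e1
    rw [Nat.card_zpowers, ho h hw] at this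
    omega
  by_cases hna : IsMulCommutative T
  · obtain ⟨n, hn, ⟨e⟩⟩ := homocyclic hT hna hC h4 hf
    exact Or.inl ⟨n, hn, ⟨e.trans (MulEquiv.prodMultiplicative _ _).symm⟩⟩
  right
  have h3 : ∀ w ∈ C, (φ ^ 3) w = w := fun w hw => by
    have e := sq_apply_of_four h4 (fun _ => id) (hσ φ) hf hw
    change φ (φ (φ w)) = w
    rw [e, map_mul, e, ← mul_assoc, mem_center_iff.1 (hZ w hw), mul_assoc, hσ φ w hw, mul_one]
  obtain ⟨a, m, hm, e⟩ := Nat.exists_eq_pow_mul_and_not_dvd (orderOf_pos φ).ne' 3 (by decide)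
  have hf' : ∀ w ∈ C, (φ ^ m) w = w → w = 1 := fun w hw e => hf w hw (by
    have e1 := PGroup.apply_eq_of_mem_zpowers (pow_mem (mem_zpowers _) (m * m / 3)) (h3 w hw)
    have e2 := PGroup.apply_eq_of_mem_zpowers (pow_mem (mem_zpowers _) m) e
    rw [← pow_mul, show m * m = 1 + 3 * (m * m / 3) by
      have := Nat.mul_mod m m 3
      rcases (show m % 3 = 1 ∨ m % 3 = 2 by omega) with h | h <;> rw [h] at this <;> omega,
      pow_add, pow_mul, pow_one, MulAut.mul_apply, e1] at e2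
    exact e2)
  have htr := trans_of_four h4 (fun _ => id) (hσ _) hf'
  have h5 := cube_eq_one hT hC hZ h4 (ψ := φ ^ m) (a := a)
    (by rw [← pow_mul, mul_comm, ← e, pow_orderOf_eq_one]) (fun w hw => by
      rw [← pow_mul, mul_comm, pow_mul]
      exact PGroup.apply_eq_of_mem_zpowers (pow_mem (mem_zpowers _) m) (h3 w hw)) htr
  generalize φ ^ m = ψ at hf' htr h5
  have hmod : ∀ i : ℕ, ψ ^ i = ψ ^ (i % 3) := fun i => pow_eq_pow_mod i h5
  have hS : IsSuzukiTwoGroup T := by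
    refine ⟨inferInstance, hT, by by_contra! e; exact hna ⟨⟨e⟩⟩, ⟨z, ψ z,
      Ne.symm (mt (hf' z (by rw [hC, ← sq, z2])) z1), z1, by rw [← sq, z2], by simpa using z1,
      by rw [← map_mul, ← sq, z2, map_one]⟩, zpowers ψ, inferInstance, fun x y x1 x2 y1 y2 => ?_⟩
    obtain ⟨k, hk⟩ := htr x x2 y y2 x1 y1
    refine ⟨⟨_, pow_mem (mem_zpowers ψ) k⟩, hk, fun g hg => Subtype.ext ?_⟩
    by_contra hne
    have e1 : (ψ ^ k)⁻¹ * g ∈ zpowers ψ := mul_mem (inv_mem (pow_mem (mem_zpowers ψ) k)) g.2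
    have e2 : ψ ∈ zpowers ((ψ ^ k)⁻¹ * g) := by
      have := mem_zpowers_of_prime_card (G := zpowers ψ) (hp := ⟨Nat.prime_three⟩)
        (by rw [Nat.card_zpowers, orderOf_eq_prime h5 (by rintro rfl; exact x1 (hf' x x2 rfl))])
        (g := ⟨_, e1⟩) (g' := ⟨ψ, mem_zpowers ψ⟩) fun e => hne (inv_mul_eq_one.1 (congrArg Subtype.val e)).symm
      obtain ⟨i, hi⟩ := this
      exact ⟨i, congrArg Subtype.val hi⟩
    exact x1 (hf' x x2 (PGroup.apply_eq_of_mem_zpowers e2 (by simp [hg, ← hk])))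
  have hZC : center T = C := le_antisymm (S1137.result hS).2 hZ
  obtain ⟨s1, s2, s3, -⟩ := S1138.result hS
  rw [hZC] at s1 s2
  rcases s3 with s3 | s3
  · obtain ⟨K, _, _, θ, k1, k2, k3, -⟩ := S1139.result hS s3
    have := Linear.card_ringAut (p := 2) (f := 2) (k1.trans (by rw [hZC, h4]; rfl))
    exact (k2 (orderOf_eq_one_iff.1 (Nat.eq_one_of_dvd_coprimes (Nat.coprime_two_left.2 k3)
      (this ▸ orderOf_dvd_natCard θ) dvd_rfl))).elim
  obtain ⟨K, _, _, f, l, a1, a2, a3, a4, a5, a6, a7, a8, a9⟩ := exists_coord hab (fun _ => id) (hσ ψ) htr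
    (by rintro e; simp [e] at h4)
  have hl : orderOf l = 3 := by omega
  have l3 : l ^ 3 = 1 := hl ▸ pow_orderOf_eq_one l
  have l1 : l ≠ 1 := by rintro rfl; simp at hl
  have l2 : l ^ 2 + l + 1 = 0 := mul_left_cancel₀ (sub_ne_zero.2 l1) (by linear_combination l3)
  have : C.Normal := hZC ▸ inferInstance
  letI : CommGroup (T ⧸ C) := ⟨QuotientGroup.mk_surjective.forall.2 fun u =>
    QuotientGroup.mk_surjective.forall.2 fun v => QuotientGroup.eq.2 (by
      simpa [mul_assoc] using s2 v u)⟩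
  have hq : ∀ u : T, u * ψ u * ψ (ψ u) ∈ C := fun u => by
    have e1 : (u * ψ u * ψ (ψ u))⁻¹ * ψ (u * ψ u * ψ (ψ u)) ∈ C := QuotientGroup.eq.1 (by
      simp only [map_mul, QuotientGroup.mk_mul, show ψ (ψ (ψ u)) = u from DFunLike.congr_fun h5 u]
      rw [mul_assoc, mul_comm])
    generalize u * ψ u * ψ (ψ u) = v at e1
    refine hf' _ (s1 v) ?_
    rw [map_mul, ← mul_inv_cancel_left v (ψ v)]
    generalize v⁻¹ * ψ v = w at e1
    rw [mul_assoc, ← mul_assoc w, ← mem_center_iff.1 (hZ w e1), mul_assoc, e1, mul_one]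
  obtain ⟨x, y, A, B, c, q, -⟩ := exists_QF a1 (fun w hw u => (mem_center_iff.1 (hZ w hw) u).symm) a2 a3 a4
    s1 hna (by rw [s3, hZC, a8]) (fun w hw => ⟨hσ ψ w hw, a5 w hw⟩) a6 a7 (fun i j e => by
      rw [← Units.val_mk0 a6, ← Units.val_pow_eq_pow_val, ← Units.val_pow_eq_pow_val, Units.val_inj,
        pow_eq_pow_iff_modEq, ← orderOf_units, Units.val_mk0, hl] at e
      rw [hmod, e, ← hmod]) fun i j k e u => by
      rw [pow_eq_pow_mod i l3, pow_eq_pow_mod j l3, pow_eq_pow_mod k l3] at e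
      rw [hmod i, hmod j, hmod k, ← QuotientGroup.eq_one_iff]
      have e1 := (QuotientGroup.eq_one_iff _).2 (hq u)
      have hi := Nat.mod_lt i three_pos
      have hj := Nat.mod_lt j three_pos
      have hk := Nat.mod_lt k three_pos
      generalize i % 3 = i at *
      generalize j % 3 = j at *
      generalize k % 3 = k at *
      have e2 : i ≠ j := by rintro rfl; exact pow_ne_zero k a6 (e.symm.trans (a1 _))
      have e3 : i ≠ k := by rintro rfl; simp [a6] at e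
      have e4 : j ≠ k := by rintro rfl; simp [a6] at e
      simp only [QuotientGroup.mk_mul] at e1 ⊢
      interval_cases i <;> interval_cases j <;> interval_cases k <;> first | contradiction |
        (simp only [pow_zero, pow_one, sq, MulAut.one_apply, MulAut.mul_apply]; rw [← e1]; try ac_rfl)
  obtain ⟨σ, b⟩ := exists_isBar (q := 4) hF
  have : CharP F 2 := (CharP.charP_iff_prime_eq_zero Nat.prime_two).mpr
    (eq_zero_of_pow_eq_zero (n := 2) (by have := b.cast_q; push_cast at this ⊢; linear_combination this))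
  obtain ⟨e⟩ := q.heis (fun s t e => by
    obtain ⟨u, rfl, rfl⟩ := q.surj s t
    exact (q.ker u).1 (q.eq_one (s1 u) (by rw [q.sq, e]))) b (a8.trans h4)
  exact (b.nonempty_sylow_PSU_equiv 2 P).map fun e' => e.trans e'.symm

end Cfsg.Agent.S1237
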