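import Cfsg.Statements.S1239
import Cfsg.Agent.Lib.Inv.WreathedCases
import Cfsg.Agent.Lib.Inv.ZStarElt

set_option autoImplicit false
open Cfsg

namespace Cfsg.Agent.S1239
open Cfsg.Lib.Inv

open Subgroup

/-- Let X be a finite group whose Sylow 2-subgroup S is quasi-dihedral or wreathed, and suppose some involution of S is isolated in X. Then the product of the largest normal odd-order subgroup O(X) with the centre of S is normal in X. -/
theorem result {X : Type*} [Group X] [Finite X] (S : Sylow 2 X) (hS : Cfsg.IsQuasiDihedral (S : Subgroup X) ∨ Cfsg.IsWreathed (S : Subgroup X)) (z : X) (hzS : z ∈ S) (hz : Cfsg.IsIsolatedInvolution z) : (Cfsg.oddCore X ⊔ (Subgroup.center (S : Subgroup X)).map (S : Subgroup X).subtype).Normal := by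
  have hc : z ∈ (S : Subgroup X) ⊓ centralizer ((S : Subgroup X) : Set X) :=
    ⟨hzS, fun s hs => Cfsg.Lib.ZStar.commute_of_mem_twoGroup' hz S.isPGroup' hzS hs⟩
  rcases hS with hS | hS
  · obtain ⟨a, b, n, h⟩ := exists_mc_of_quasiDihedral hS
    rw [h.qd_center]
    rcases (mem_zpowers_iff_of_mul_self h.z_mul_self).1 (h.qd_inf_centralizer.le hc) with e | e
    · exact absurd e (ne_one_of_orderOf hz.1)
    · rw [← e]
      exact (isoElt_of_sylow S hzS fun g hg =>
        Cfsg.Lib.ZStar.commute_of_mem_twoGroup hz S.isPGroup' hzS hg).normal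
  · obtain ⟨a, b, t, n, h⟩ := exists_wr hS
    rw [h.center_eq]
    have e := h.eq_zeta (h.inf_centralizer.le hc) (ne_one_of_orderOf hz.1) (mul_self_of_orderOf hz.1)
    refine (isoElt_of_sylow S (h.we_mem _ _) fun g hg => h.conj_eq_of_mem_c (fun hU => ?_)
      (mem_zpowers _) hg).normal
    obtain ⟨k, hk⟩ := isConj_iff.1 (h.isConj_u_zeta hU).symm
    rw [← e] at hk
    exact h.u_ne_zeta (hk ▸ (Cfsg.Lib.ZStar.commute_of_mem_twoGroup hz S.isPGroup' hzS
      (hk ▸ h.we_mem _ _)).trans e)

end Cfsg.Agent.S1239
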