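import Cfsg.Statements.S1242
import Cfsg.Agent.Lib.Transfer.Fusion

set_option autoImplicit false
open Cfsg

namespace Cfsg.Agent.S1242

/-- Let G be a finite group, p a prime and H a subgroup of index prime to p such that any two elements of H of p-power order that are conjugate in G are conjugate in H. Then (O^p(G)·G') ∩ H = O^p(H)·H', where O^p denotes the subgroup generated by the elements of order prime to p. -/
theorem result {G : Type*} [Group G] [Finite G] {p : ℕ} [Fact p.Prime] (H : Subgroup G) (hidx : Nat.Coprime p H.index) (hfus : ∀ g ∈ H, (∃ k : ℕ, orderOf g = p ^ k) → ∀ a : G, a * g * a⁻¹ ∈ H → ∃ h ∈ H, h * g * h⁻¹ = a * g * a⁻¹) : (Cfsg.pResidual p G ⊔ commutator G) ⊓ H = (Cfsg.pResidual p ↥H ⊔ commutator ↥H).map H.subtype := by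
  refine Lib.Transfer.pResidual_sup_commutator_inf_eq
    ((Nat.Prime.coprime_iff_not_dvd Fact.out).1 hidx) fun g hg ⟨k, hk⟩ a ha => ?_
  obtain ⟨j, -, hj⟩ := (Nat.dvd_prime_pow Fact.out).1 (orderOf_dvd_of_pow_eq_one hk)
  obtain ⟨h, hh, e⟩ := hfus g hg ⟨j, hj⟩ a ha
  rw [← e, Subgroup.map_sup, Subgroup.map_subtype_commutator]
  exact Subgroup.mem_sup_right (Subgroup.commutator_mem_commutator hh hg)

end Cfsg.Agent.S1242
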