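import Cfsg.Statements.S1244
import Cfsg.Agent.Lib.Transfer.Criteria
import Cfsg.Agent.Lib.PGroup.Basic

set_option autoImplicit false
open Cfsg

namespace Cfsg.Agent.S1244

open scoped IsMulCommutative in
theorem exists_omega {G : Type*} [Group G] (S : Subgroup G) [IsMulCommutative S] :
    ∃ W : Subgroup S, ∀ x : S, x ∈ W ↔ x ^ 2 = 1 :=
  ⟨(powMonoidHom 2 : S →* S).ker, fun _ => Iff.rfl⟩

/-- Let G be a finite group with no subgroup of index 2 whose Sylow 2-subgroup S is commutative, and let R ≤ S be a subgroup whose 2-rank is exactly one less than the 2-rank r of S. Then every involution of S is conjugate, by an element of N_G(S), to an element of R. -/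
theorem result {G : Type*} [Group G] [Finite G] (hG : ∀ H : Subgroup G, H.index ≠ 2) (S : Sylow 2 G) (hS : IsMulCommutative (S : Subgroup G)) (r : ℕ) (hr1 : 1 ≤ r) (hSr : Cfsg.PRankLE 2 r (S : Subgroup G) ∧ ¬ Cfsg.PRankLE 2 (r - 1) (S : Subgroup G)) (R : Subgroup G) (hRS : R ≤ S) (hRr : Cfsg.PRankLE 2 (r - 1) R ∧ (r = 1 ∨ ¬ Cfsg.PRankLE 2 (r - 2) R)) (t : G) (ht : orderOf t = 2) (htS : t ∈ S) : ∃ n ∈ Subgroup.normalizer ((S : Subgroup G) : Set G), n * t * n⁻¹ ∈ R := by
  by_contra hc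
  push Not at hc
  have hc' : ∀ g : G, g * t * g⁻¹ ∉ R := fun g hg => by
    obtain ⟨n, hn, h⟩ := Lib.Transfer.exists_normalizer_conj_eq_of_abelian S htS (hRS hg)
    exact hc n hn (h ▸ hg)
  have ht2 : t ^ 2 = 1 := ht ▸ pow_orderOf_eq_one t
  have htR : t ∉ R := by simpa using hc' 1
  obtain ⟨A, hAR, hA2, hAc⟩ : ∃ A : Subgroup G, A ≤ R ∧ (∀ a ∈ A, a ^ 2 = 1) ∧ 2 ^ (r - 1) ≤ Nat.card A := by
    rcases hRr.2 with rfl | h
    · exact ⟨⊥, bot_le, by simp, by simp⟩
    · unfold Cfsg.PRankLE at h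
      push Not at h
      obtain ⟨A, -, h2, h3⟩ := h
      refine ⟨A.map R.subtype, Subgroup.map_subtype_le _, ?_, ?_⟩
      · rintro _ ⟨a, ha, rfl⟩
        rw [← map_pow, h2 a ha, map_one]
      · rw [Subgroup.card_map_of_injective R.subtype_injective]
        have hA : IsPGroup 2 A := fun a => ⟨1, Subtype.ext (by simpa using h2 a a.2)⟩
        obtain ⟨k, hk⟩ := hA.exists_card_eq
        rw [hk] at h3 ⊢
        have := (Nat.pow_lt_pow_iff_right (by norm_num)).1 h3
        exact Nat.pow_le_pow_right (by norm_num) (by omega)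
  obtain ⟨W, hW⟩ := exists_omega (S : Subgroup G)
  have hWc : Nat.card (W.map (S : Subgroup G).subtype) ≤ 2 ^ r := by
    rw [Subgroup.card_map_of_injective (Subgroup.subtype_injective _)]
    exact hSr.1 W inferInstance fun a ha => (hW a).1 ha
  have hmem : ∀ x ∈ (S : Subgroup G), x ^ 2 = 1 → x ∈ W.map (S : Subgroup G).subtype := fun x hx h2 =>
    ⟨⟨x, hx⟩, (hW _).2 (Subtype.ext h2), rfl⟩
  have htA : t ∈ Subgroup.normalizer (A : Set G) :=
    Subgroup.centralizer_le_normalizer _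
      (Subgroup.centralizer_le (hAR.trans hRS) (Subgroup.le_centralizer _ htS))
  have hB : A ⊔ Subgroup.zpowers t = W.map (S : Subgroup G).subtype := by
    refine Subgroup.eq_of_le_of_card_ge (sup_le (fun a ha => hmem a (hRS (hAR ha)) (hA2 a ha))
      (Subgroup.zpowers_le.2 (hmem t htS ht2))) (hWc.trans ?_)
    rw [Lib.PGroup.card_sup_zpowers (p := 2) htA (fun h => htR (hAR h)) (by rw [ht2]; exact one_mem _)]
    obtain ⟨s, rfl⟩ : ∃ s, r = s + 1 := ⟨r - 1, by omega⟩
    rw [pow_succ, mul_comm]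
    exact Nat.mul_le_mul_left 2 hAc
  refine Lib.Transfer.not_mem_pResidual_sup_commutator_of_conj_mem_coset S (K := R) ?_ htS htR ht2
    (fun a ha => ?_) (by rw [Lib.Transfer.pResidual_two_eq_top_iff.2 hG, top_sup_eq]; trivial)
  · rw [Subgroup.commutator_eq_bot_iff_le_centralizer.2 (Subgroup.le_centralizer _)]
    exact bot_le
  · have h1 := hmem _ ha (by rw [conj_pow, ht2]; simp)
    rw [← hB, Lib.PGroup.mem_sup_zpowers_iff htA] at h1
    obtain ⟨m, hm, k, h⟩ := h1
    have ht2' : t ^ (2 : ℤ) = 1 := by exact_mod_cast ht2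
    rcases Int.even_or_odd' k with ⟨c, rfl | rfl⟩
    · rw [zpow_mul, ht2', one_zpow, mul_one] at h
      exact absurd (h ▸ hAR hm) (hc' a)
    · rw [zpow_add_one, zpow_mul, ht2', one_zpow, one_mul] at h
      rw [h, mul_inv_cancel_right]
      exact hAR hm

end Cfsg.Agent.S1244
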