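import Cfsg.Statements.S1246
import Cfsg.Agent.Lib.Loc.CharP

set_option autoImplicit false
open Cfsg

namespace Cfsg.Agent.S1246

open Subgroup Cfsg.Lib Cfsg.Lib.Comp Cfsg.Lib.Loc

/-- Let V ≤ U be p-subgroups of the finite group G. If the generalized Fitting subgroup of C_G(V) is a p-group, then so is that of C_G(U). -/
theorem result {G : Type*} [Group G] [Finite G] {p : ℕ} [Fact p.Prime] (U V : Subgroup G) (hVU : V ≤ U) (hU : IsPGroup p U) (hV : IsPGroup p ↥(Cfsg.generalizedFittingSubgroup ↥(Subgroup.centralizer (V : Set G)))) : IsPGroup p ↥(Cfsg.generalizedFittingSubgroup ↥(Subgroup.centralizer (U : Set G))) := by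
  rw [← genFitting_eq_pCore_iff_isPGroup, ← isChP_iff_genFitting] at hV ⊢
  induction' hn : Nat.card G - Nat.card V using Nat.strong_induction_on with n ih generalizing V
  by_cases hVU' : V = U
  · subst hVU'; exact hV
  have hVp : IsPGroup p V := hU.to_le hVU
  have hlt : V < U := lt_of_le_of_ne hVU hVU'
  haveI : Group.IsNilpotent U := hU.isNilpotent
  have hN : V < U ⊓ normalizer (V : Set G) := by
    have h1 : V.subgroupOf U < ⊤ := by
      rw [lt_top_iff_ne_top, Ne, subgroupOf_eq_top]; exact fun h => hVU' (le_antisymm hVU h)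
    have h2 := normalizerCondition_of_isNilpotent (G := U) _ h1
    obtain ⟨x, hx, hxV⟩ := SetLike.exists_of_lt h2
    refine lt_of_le_of_ne (le_inf hVU le_normalizer) fun h => hxV ?_
    rw [mem_subgroupOf, h]
    refine ⟨x.2, ?_⟩
    rw [← subgroupOf_normalizer_eq hVU] at hx
    exact hx
  set W := U ⊓ normalizer (V : Set G) with hW
  have hWp : IsPGroup p W := hU.to_le inf_le_left
  have h1 : IsChP p (normalizer (V : Set G)) := (isChP_normalizer_iff hVp).2 hV
  have h2 := h1.inf_centralizer hWp inf_le_right
  have h3 : normalizer (V : Set G) ⊓ centralizer (W : Set G) = centralizer (W : Set G) :=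
    inf_eq_right.2 ((centralizer_le (SetLike.coe_subset_coe.2 hN.le)).trans (centralizer_le_normalizer _))
  rw [h3] at h2
  refine ih _ ?_ W inf_le_left h2 rfl
  have hc : Nat.card V < Nat.card W := by
    have := Subgroup.card_le_of_le hN.le
    refine lt_of_le_of_ne this fun h => hN.ne (eq_of_le_of_card_ge hN.le h.ge)
  have : Nat.card W ≤ Nat.card G := card_le_card_group W
  omega

end Cfsg.Agent.S1246
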