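import Cfsg.Statements.S1247
import Cfsg.Agent.Lib.Inv.BenderLemma

set_option autoImplicit false
open Cfsg

namespace Cfsg.Agent.S1247
open Cfsg.Lib.Inv

open Subgroup Cfsg.Lib Cfsg.Lib.Inv

/-- Let G be a non-abelian finite simple group, A a maximal subgroup, F = F*(A) its generalized Fitting subgroup (viewed in G), and S ≤ F a subgroup subnormal in F with C_F(S) ≤ S. Let B be any subgroup of G containing S. Then (a) for every prime q not dividing |F(A)|, O_q(B) ∩ A = 1; and (b) for every prime p dividing |F(A)|, O_p(B) commutes elementwise with the subgroup of F generated by its elements of order prime to p. -/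
theorem result {G : Type*} [Group G] [Finite G] [IsSimpleGroup G] (hna : ¬ IsMulCommutative G) (A : Subgroup G) (hA : IsCoatom A) (S : Subgroup G) (hSF : S ≤ (Cfsg.generalizedFittingSubgroup ↥A).map A.subtype) (hSsn : (S.subgroupOf ((Cfsg.generalizedFittingSubgroup ↥A).map A.subtype)).IsSubnormal) (hSC : (Cfsg.generalizedFittingSubgroup ↥A).map A.subtype ⊓ Subgroup.centralizer (S : Set G) ≤ S) (B : Subgroup G) (hSB : S ≤ B) : (∀ q : ℕ, q.Prime → ¬ q ∣ Nat.card (Cfsg.fittingSubgroup ↥A) → (Cfsg.pCore q ↥B).map B.subtype ⊓ A = ⊥) ∧ (∀ p : ℕ, p.Prime → p ∣ Nat.card (Cfsg.fittingSubgroup ↥A) → ∀ x ∈ (Cfsg.pCore p ↥B).map B.subtype, ∀ y ∈ (Cfsg.pResidual p ↥(Cfsg.generalizedFittingSubgroup ↥A)).map ((Cfsg.generalizedFittingSubgroup ↥A).subtype) , x * (A.subtype y) = (A.subtype y) * x) := by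
  refine ⟨fun q hq hd => ?_, fun p hp hd x hx y hy => ?_⟩
  · haveI := Fact.mk hq
    have hQ : IsPGroup q ↥((Cfsg.pCore q B).map B.subtype ⊓ A) :=
      (Core.pCoreOf_isPGroup q B).to_le inf_le_left
    refine eq_bot_of_coprime_fittingOf hSF hSsn hSC inf_le_right (Coprime.isSolvable_of_isPGroup hQ)
      (Coprime.le_normalizer_inf (hSB.trans (Core.le_normalizer_pCoreOf q B))
        ((hSF.trans (map_subtype_le _)).trans le_normalizer)) ?_
    refine (Coprime.coprime_card_of_isPGroup hQ ?_).symm
    rw [Core.fittingOf_def, card_map_of_injective (subtype_injective _)]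
    exact ((Nat.Prime.coprime_iff_not_dvd hq).2 hd).symm
  · haveI := Fact.mk hp
    have h := le_centralizer_layer_sup_of_normalized hSF hSsn hSC hA (p := p)
      (by rwa [Core.fittingOf_def, card_map_of_injective (subtype_injective _)])
      (Core.pCoreOf_isPGroup p B) (hSB.trans (Core.le_normalizer_pCoreOf p B))
    have := (Transfer.map_subtype_pResidual_le_iff (K := (centralizer ({x} : Set G)).comap A.subtype)).2
      (fun g hg hgp => mem_centralizer_singleton_iff.2
        (h hx _ (mem_layer_sup_of_coprime ⟨g, hg, rfl⟩ (by rwa [orderOf_injective _ (subtype_injective _)])))) hy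
    exact (mem_centralizer_singleton_iff.1 this).symm

end Cfsg.Agent.S1247
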