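import Cfsg.Statements.S1254
import Cfsg.Agent.Lib.Inv.DihedralSylow

set_option autoImplicit false
open Cfsg

namespace Cfsg.Agent.S1254
open Cfsg.Lib.Inv

open Cfsg.Lib.Transfer

/-- Let X be a finite group whose Sylow 2-subgroup S is dihedral (of order at least 4). Then X has a normal 2-complement if and only if, for every Klein four-subgroup U ≤ S, the normalizer N_X(U) is generated by C_X(U) and N_S(U). -/
theorem result {X : Type*} [Group X] [Finite X] (S : Sylow 2 X) (m : ℕ) (hm : 2 ≤ m) (eS : (S : Subgroup X) ≃* DihedralGroup m) : Cfsg.HasNormalPComplement 2 X ↔ ∀ U : Subgroup X, U ≤ S → IsKleinFour U → Subgroup.normalizer (U : Set X) = Subgroup.centralizer (U : Set X) ⊔ ((S : Subgroup X) ⊓ Subgroup.normalizer (U : Set X)) := by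
  obtain ⟨a, b, k, -, h⟩ := exists_mc_of_dihedral S.isPGroup' hm eS
  constructor
  · intro hX U hUS hU
    refine le_antisymm (fun x hx => ?_)
      (sup_le (Subgroup.centralizer_le_normalizer _) inf_le_right)
    obtain ⟨n, hn, e⟩ := exists_conj_eq_of_hasNormalPComplement hX S hUS
      (g := x) (by rw [conj_eq_self_iff.2 hx]; exact hUS)
    have hnN : n ∈ Subgroup.normalizer (U : Set X) :=
      mem_normalizer_of_conj_le (conj_le_iff.2 fun t ht => by
        rw [e t ht]; exact conj_mem_of_mem_normalizer hx ht)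
    have hc : n⁻¹ * x ∈ Subgroup.centralizer (U : Set X) := by
      rw [mem_centralizer_iff_conj]
      intro t ht
      calc n⁻¹ * x * t * (n⁻¹ * x)⁻¹ = n⁻¹ * (x * t * x⁻¹) * n := by group
        _ = t := by rw [← e t ht]; group
    have : x = n * (n⁻¹ * x) := by group
    rw [this]
    exact mul_mem (Subgroup.mem_sup_right ⟨hn, hnN⟩) (Subgroup.mem_sup_left hc)
  · intro hX
    refine h.hasNormalPComplement (fun U hUS hU g hg ho => ?_)
      (fun Q hQS hQ => absurd hQ (h.dih_not_q8 hQS))
    rw [hX U hUS hU] at hg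
    obtain ⟨s, hs, c, hc, rfl⟩ := exists_mul_of_mem_sup'
      (inf_le_right.trans (normalizer_le_normalizer_centralizer' U)) hg
    obtain ⟨j, hj⟩ := S.isPGroup' ⟨s, hs.1⟩
    refine mem_centralizer_of_odd_of_conj_eq (s := s)
      (fun t ht => conj_mem_of_mem_normalizer hs.2 ht) (fun t ht => ?_) ho
      (congrArg Subtype.val hj)
    calc s * c * t * (s * c)⁻¹ = s * (c * t * c⁻¹) * s⁻¹ := by group
      _ = _ := by rw [mem_centralizer_iff_conj.1 hc t ht]

end Cfsg.Agent.S1254
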