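import Cfsg.Statements.S1255
import Cfsg.Agent.Lib.Inv.DihedralSylow

set_option autoImplicit false
open Cfsg

namespace Cfsg.Agent.S1255
open Cfsg.Lib.Inv

open Cfsg.Lib.Transfer

/-- Let X be a finite group whose Sylow 2-subgroup S is dihedral of order 2m ≥ 4. Then X has no subgroup of index 2 and no isolated involution if and only if either all involutions of X are conjugate, or for every Klein four-subgroup U ≤ S the index |N_X(U) : C_X(U)| equals 3 when |S| = 4 and equals 6 when |S| > 4. -/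
theorem result {X : Type*} [Group X] [Finite X] (S : Sylow 2 X) (m : ℕ) (hm : 2 ≤ m) (eS : (S : Subgroup X) ≃* DihedralGroup m) : ((∀ H : Subgroup X, H.index ≠ 2) ∧ (∀ z : X, ¬ Cfsg.IsIsolatedInvolution z)) ↔ ((∀ a b : X, orderOf a = 2 → orderOf b = 2 → IsConj a b) ∨ (∀ U : Subgroup X, U ≤ S → IsKleinFour U → (Subgroup.centralizer (U : Set X)).relIndex (Subgroup.normalizer (U : Set X)) = (if Nat.card S = 4 then 3 else 6))) := by
  obtain ⟨a, b, k, -, h⟩ := exists_mc_of_dihedral S.isPGroup' hm eS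
  constructor
  · rintro ⟨h1, -⟩
    exact Or.inl fun x y hx hy =>
      h.isConj_of_pResidual (Lib.Inv.pResidual_two_eq_top_iff.2 h1) hx hy
  · intro hX
    have hc : ∀ x y : X, orderOf x = 2 → orderOf y = 2 → IsConj x y := by
      rcases hX with hX | hX
      · exact hX
      · have key : ∀ x : X, orderOf x = 2 → IsConj x (a ^ ((2 : ℤ) ^ k)) := fun x hx =>
          h.isConj_z_of_k4 (fun U hUS hU x hx hx1 y hy hy1 => k4_isConj_of_three_dvd hU
            (by rw [hX U hUS hU]; split_ifs <;> decide) hx hx1 hy hy1) hx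
        exact fun x y hx hy => (key x hx).trans (key y hy).symm
    refine ⟨h.dih_index_ne_two hc, fun z hz => ?_⟩
    have hb : orderOf (a ^ (0 : ℤ) * b) = 2 := ord_two_iff.2 ⟨h.refl_ne_one 0, h.dih_refl_sq 0⟩
    obtain ⟨g, hg⟩ := isConj_iff.1 (hc _ _ h.z_ord hz.1)
    obtain ⟨g', hg'⟩ := isConj_iff.1 (hc z (g * (a ^ (0 : ℤ) * b) * g⁻¹) hz.1
      (by rw [orderOf_conj', hb]))
    have := hz.2 g' (by
      rw [hg', ← hg]
      have := h.z_comm (h.refl_mem 0)
      calc g * a ^ ((2 : ℤ) ^ k) * g⁻¹ * (g * (a ^ (0 : ℤ) * b) * g⁻¹)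
          = g * (a ^ ((2 : ℤ) ^ k) * (a ^ (0 : ℤ) * b)) * g⁻¹ := by group
        _ = _ := by rw [← this]; group)
    rw [hg', ← hg] at this
    exact h.refl_ne 0 _ (by simpa using this)

end Cfsg.Agent.S1255
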