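import Cfsg.Statements.S1256
import Cfsg.Agent.Lib.Inv.DihedralSylow

set_option autoImplicit false
open Cfsg

namespace Cfsg.Agent.S1256
open Cfsg.Lib.Inv

open Cfsg.Lib.Transfer

/-- Let X be a finite group whose Sylow 2-subgroup S is dihedral of order 2m ≥ 4. If |S| = 4, any two Klein four-subgroups of X are conjugate; if |S| > 4, there are Klein four-subgroups U₁, U₂ of X that are not conjugate, and every Klein four-subgroup of X is conjugate to U₁ or to U₂. -/
theorem result {X : Type*} [Group X] [Finite X] (S : Sylow 2 X) (m : ℕ) (hm : 2 ≤ m) (eS : (S : Subgroup X) ≃* DihedralGroup m) : (Nat.card S = 4 → ∀ U V : Subgroup X, IsKleinFour U → IsKleinFour V → (∃ x : X, U.map (MulAut.conj x).toMonoidHom = V)) ∧ (4 < Nat.card S → ∃ U₁ U₂ : Subgroup X, IsKleinFour U₁ ∧ IsKleinFour U₂ ∧ ¬ (∃ x : X, U₁.map (MulAut.conj x).toMonoidHom = U₂) ∧ ∀ V : Subgroup X, IsKleinFour V → (∃ x : X, V.map (MulAut.conj x).toMonoidHom = U₁) ∨ (∃ x : X, V.map (MulAut.conj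 x).toMonoidHom = U₂)) := by
  obtain ⟨a, b, k, -, h⟩ := exists_mc_of_dihedral S.isPGroup' hm eS
  constructor
  · intro h4 U V hU hV
    obtain ⟨g, hg⟩ := exists_conj_le_sylow S (k4_isPGroup hU)
    obtain ⟨g', hg'⟩ := exists_conj_le_sylow S (k4_isPGroup hV)
    have e1 : g ⋆ U = S := Subgroup.eq_of_le_of_card_ge hg
      (by rw [card_conj, hU.card_four]; exact h4.le)
    have e2 : g' ⋆ V = S := Subgroup.eq_of_le_of_card_ge hg'
      (by rw [card_conj, hV.card_four]; exact h4.le)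
    exact ⟨g'⁻¹ * g, by rw [← conj_conj, e1, ← e2, inv_conj_conj]⟩
  · intro h4
    have hk : 1 ≤ k := by
      rcases k with _ | k
      · exact absurd h.card_eq (ne_of_gt h4)
      · omega
    have hle : ∀ i : ℤ, Subgroup.zpowers (a ^ ((2 : ℤ) ^ k)) ⊔ Subgroup.zpowers (a ^ i * b) ≤ S :=
      fun i => sup_le (Subgroup.zpowers_le.2 (h.zpow_mem _)) (Subgroup.zpowers_le.2 (h.refl_mem i))
    refine ⟨_, _, h.k4_refl (h.dih_refl_sq 0), h.k4_refl (h.dih_refl_sq 1), ?_, ?_⟩
    · rintro ⟨x, hx⟩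
      obtain ⟨s, hs, e⟩ := h.dih_k4_fusion (h.k4_refl (h.dih_refl_sq 0)) (hle 0) (g := x)
        (by rw [hx]; exact hle 1)
      rw [hx] at e
      have h1 : s * (a ^ (0 : ℤ) * b) * s⁻¹ ∈
          Subgroup.zpowers (a ^ ((2 : ℤ) ^ k)) ⊔ Subgroup.zpowers (a ^ (1 : ℤ) * b) := by
        rw [← e, conj_mem_conj]; exact Subgroup.mem_sup_right (Subgroup.mem_zpowers _)
      rw [k4_mem_iff (h.k4_refl (h.dih_refl_sq 1))
        (Subgroup.mem_sup_left (Subgroup.mem_zpowers _))
        (Subgroup.mem_sup_right (Subgroup.mem_zpowers _)) h.z_ne_one (h.refl_ne_one 1)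
        (h.refl_ne 1 _).symm] at h1
      rcases h1 with h1 | h1 | h1 | h1
      · exact conj_ne_one (h.refl_ne_one 0) h1
      · rw [← h.conj_z hs] at h1
        exact h.refl_ne 0 _ (by simpa using h1)
      · have := h.parity_of_conj hs h1
        omega
      · rw [← mul_assoc (a ^ ((2 : ℤ) ^ k)), ← zpow_add] at h1
        have := h.parity_of_conj hs h1
        obtain ⟨k', rfl⟩ : ∃ k', k = k' + 1 := ⟨k - 1, by omega⟩
        rw [pow_succ] at this
        omega
    · intro V hV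
      obtain ⟨g, hg⟩ := exists_conj_le_sylow S (k4_isPGroup hV)
      obtain ⟨hz, i, hi⟩ := h.k4_form hg (k4_conj hV g)
      have e := h.k4_eq (k4_conj hV g) hz hi
      have key : ∀ j : ℤ, 2 ∣ j - i → ∃ x : X, x ⋆ V =
          Subgroup.zpowers (a ^ ((2 : ℤ) ^ k)) ⊔ Subgroup.zpowers (a ^ j * b) := by
        intro j hj
        obtain ⟨l, hl⟩ := h.exists_conj_refl hj
        exact ⟨a ^ l * g, by
          rw [← conj_conj, e, conj_sup, conj_zpowers, conj_zpowers, hl, h.conj_z (h.zpow_mem l)]⟩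
      by_cases hi2 : 2 ∣ i
      · exact Or.inl (key 0 (by omega))
      · exact Or.inr (key 1 (by omega))

end Cfsg.Agent.S1256
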