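import Cfsg.Statements.S1271
import Cfsg.Agent.Lib.Comp.Balance

set_option autoImplicit false
open Cfsg

namespace Cfsg.Agent.S1271

open Subgroup

/-- Let G be finite with O_{p'}(G) = 1. Suppose that for every component L of G and every subgroup H ≥ L in which L is normal, the quotient H / C_H(L) is balanced for the prime p. Then G is balanced for p. -/
theorem result {G : Type*} [Group G] [Finite G] (p : ℕ) [Fact p.Prime] (hO : Cfsg.pPrimeCore p G = ⊥) (h : ∀ L : Subgroup G, Cfsg.IsComponent L → ∀ H : Subgroup G, L ≤ H → (L.subgroupOf H).Normal → ∀ [((Subgroup.centralizer (L : Set G)).subgroupOf H).Normal], Cfsg.IsBalancedFor p (↥H ⧸ (Subgroup.centralizer (L : Set G)).subgroupOf H)) : Cfsg.IsBalancedFor p G := by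
  intro x hx
  have hz := Lib.Comp.isPGroup_zpowers_of_orderOf_eq hx
  rw [hO, le_bot_iff]
  refine Lib.Comp.eq_bot_of_centralizes_layer_pCore hO (Lib.Core.pPrimeCoreOf_coprime p _) ?_
    (Lib.Comp.centralizerPPrimeCore_le_centralizer_pCore hz)
  rw [le_centralizer_iff]
  refine Lib.Comp.layer_le fun K hK => ?_
  by_cases hne : ⁅K, zpowers x⁆ = K
  swap
  · exact commutator_eq_bot_iff_le_centralizer.1
      (Lib.Comp.commutator_centralizerPPrimeCore_eq_bot hO hx hK hne)
  have hxK : x ∈ normalizer (K : Set G) := by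
    rw [← hne]
    exact normalizer_commutator_ge_right _ _ (mem_zpowers x)
  have hDK := Lib.Comp.centralizerPPrimeCore_le_normalizer_component hO hz hK
  set D := centralizerPPrimeCore p x
  have hH : K ⊔ (D ⊔ zpowers x) ≤ normalizer (K : Set G) :=
    sup_le le_normalizer (sup_le hDK (zpowers_le.2 hxK))
  set H := K ⊔ (D ⊔ zpowers x)
  have hxH : x ∈ H := mem_sup_right (mem_sup_right (mem_zpowers x))
  haveI : ((centralizer (K : Set G)).subgroupOf H).Normal :=
    normal_subgroupOf_of_le_normalizer (Lib.Core.le_normalizer_centralizer hH)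
  have h1 := h K hK H le_sup_left (normal_subgroupOf_of_le_normalizer hH)
  have hker := QuotientGroup.ker_mk' ((centralizer (K : Set G)).subgroupOf H)
  have h2 := Lib.Comp.map_le_centralizerPPrimeCore hO hK hz hxH le_sup_left (B := D ⊔ zpowers x)
    (D := D) (sup_le (map_subtype_le _) (zpowers_le.2 (mem_centralizer_singleton_iff.2 rfl)))
    (sup_le hDK (zpowers_le.2 hxK)) le_rfl le_rfl (QuotientGroup.mk'_surjective _) hker.le hxK
  have h3 := h1 (QuotientGroup.mk' _ ⟨x, hxH⟩) (by
    refine orderOf_eq_prime ?_ fun h4 => ?_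
    · rw [← map_pow, show (⟨x, hxH⟩ : H) ^ p = 1 from Subtype.ext (by
        simpa using hx ▸ pow_orderOf_eq_one x), map_one]
    · have h5 : x ∈ centralizer (K : Set G) := 
        (QuotientGroup.eq_one_iff (⟨x, hxH⟩ : H)).1 h4
      rw [commutator_comm, commutator_eq_bot_iff_le_centralizer.2 (zpowers_le.2 h5)] at hne
      exact Lib.Comp.isComponent_ne_bot hK hne.symm)
  rw [Lib.Comp.pPrimeCore_eq_bot_of_ker_le hO hK le_sup_left (QuotientGroup.mk'_surjective _)
    hker] at h3
  have h4 := (Lib.Core.map_mk'_eq_bot_iff _ _).1 (le_bot_iff.1 (h2.trans h3))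
  rw [le_centralizer_iff]
  exact fun y hy => h4 (x := ⟨y, mem_sup_right (mem_sup_left hy)⟩) hy

end Cfsg.Agent.S1271
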