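import Cfsg.Statements.S1279
import Cfsg.Agent.Lib.Sig.Basic
import Cfsg.Agent.Lib.Comp.Local

set_option autoImplicit false
open Cfsg

namespace Cfsg.Agent.S1279

/-- Let A be a noncyclic elementary abelian p-subgroup of the finite group G such that C_G(a) is solvable for every non-identity a ∈ A. Then a ↦ O_{p'}(C_G(a)) is a solvable A-signalizer functor on G. -/
theorem result {G : Type*} [Group G] [Finite G] (p : ℕ) [Fact p.Prime] (A : Subgroup G) (hA : Cfsg.IsElementaryAbelian p A) (hA2 : p ^ 2 ≤ Nat.card ↥A) (hsolv : ∀ a ∈ A, a ≠ 1 → Group.IsSolvable ↥(Subgroup.centralizer ({a} : Set G))) : Cfsg.IsSolvableSignalizerFunctor p A (fun a => Cfsg.centralizerPPrimeCore p a) := by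
  have hc : ∀ a : G, ¬ p ∣ Nat.card (Cfsg.centralizerPPrimeCore p a) := fun a =>
    (Fact.out : p.Prime).coprime_iff_not_dvd.1 (Lib.Core.pPrimeCoreOf_coprime p _).symm
  refine ⟨⟨fun a _ _ => Lib.Core.pPrimeCoreOf_le p _, fun a _ _ => hc a, fun a ha _ => ?_,
    fun a ha h1 b hb h2 => ?_⟩, fun a ha h1 =>
      Lib.Core.isSolvable_of_le (Lib.Core.pPrimeCoreOf_le p _) (hsolv a ha h1)⟩
  · exact Lib.Sig.le_normalizer_iff_conj_mem.1
      ((Lib.Sig.elemAb_le_normalizer_centralizer_elt hA ha).trans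
        (Lib.Core.normalizer_le_normalizer_pPrimeCoreOf p _))
  · have h := Lib.Comp.map_pPrimeCore_inf_centralizer_le (p := p)
      (Lib.Comp.pLayer_eq_bot_of_isSolvable (hsolv b hb h2))
      (P := Subgroup.zpowers a)
      (Lib.Comp.isPGroup_zpowers_of_orderOf_eq (Lib.PGroup.elemAb_orderOf hA ha h1))
      (Subgroup.zpowers_le.2 (Subgroup.mem_centralizer_singleton_iff.2
        (Lib.PGroup.elemAb_comm hA ha hb)))
    rw [Lib.Core.centralizer_zpowers] at h
    refine le_trans ?_ h
    refine le_trans ?_ (Lib.Core.pPrimeCoreOf_inf_le (H := Subgroup.centralizer {a}) inf_le_right)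
    exact le_inf inf_le_left (le_inf inf_le_right
      (inf_le_left.trans (Lib.Core.pPrimeCoreOf_le p _)))

end Cfsg.Agent.S1279
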