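import Cfsg.Statements.S1286
import Cfsg.Agent.Lib.HH.Misc

set_option autoImplicit false
open Cfsg

namespace Cfsg.Agent.S1286

open Subgroup Cfsg.Lib Cfsg.Lib.BG Equiv

abbrev X := Perm (Fin 5)
def a : X := swap 3 4
def b : X := swap 0 1
def x : X := swap 0 1 * swap 1 2
def y : X := swap 2 3 * swap 3 4

/-- The subgroup with a given finite carrier. -/
def sub (s : Finset X) (h1 : 1 ∈ s) (h2 : ∀ u ∈ s, ∀ v ∈ s, u * v ∈ s) (h3 : ∀ u ∈ s, u⁻¹ ∈ s) :
    Subgroup X where
  carrier := s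
  one_mem' := h1
  mul_mem' := fun hu hv => h2 _ hu _ hv
  inv_mem' := fun hu => h3 _ hu

theorem mem_sub {s : Finset X} {h1 h2 h3} {g : X} : g ∈ sub s h1 h2 h3 ↔ g ∈ s := Iff.rfl

theorem card_sub {s : Finset X} {h1 h2 h3} : Nat.card (sub s h1 h2 h3) = s.card := by
  change Nat.card (s : Set X) = _
  simp

def sA : Finset X := {1, a, b, a * b}
def sθ (g : X) : Finset X := if g = a then {1, x, x * x} else if g = b then {1, y, y * y} else {1}

def A : Subgroup X := sub sA (by decide +kernel) (by decide +kernel) (by decide +kernel)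

theorem sθ_cases (g : X) : sθ g = {1, x, x * x} ∨ sθ g = {1, y, y * y} ∨ sθ g = {1} := by
  unfold sθ; split_ifs <;> simp

def θ (g : X) : Subgroup X := sub (sθ g)
  (by rcases sθ_cases g with h | h | h <;> rw [h] <;> decide +kernel)
  (by rcases sθ_cases g with h | h | h <;> rw [h] <;> decide +kernel)
  (by rcases sθ_cases g with h | h | h <;> rw [h] <;> decide +kernel)

theorem sf : IsSignalizerFunctor 2 A θ := by
  refine ⟨fun g hg h1 u hu => ?_, fun g hg h1 => ?_, fun g hg h1 c hc u hu => ?_,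
    fun g hg h1 c hc h2 u hu => ?_⟩
  · rw [mem_cent1]
    exact (by decide +kernel : ∀ g ∈ sA, ∀ u ∈ sθ g, u * g = g * u) g hg u hu
  · rw [θ, card_sub]
    exact (by decide +kernel : ∀ g ∈ sA, ¬ 2 ∣ (sθ g).card) g hg
  · exact (by decide +kernel : ∀ g ∈ sA, ∀ c ∈ sA, ∀ u ∈ sθ g, c * u * c⁻¹ ∈ sθ g) g hg c hc u hu
  · exact (by decide +kernel : ∀ g ∈ sA, ∀ c ∈ sA, c ≠ 1 → ∀ u ∈ sθ g, u * c = c * u → u ∈ sθ c)
      g hg c hc h2 u hu.1 (mem_cent1.1 hu.2)


/-- There exist a finite group X, an elementary abelian subgroup A of order 4 and a solvable A-signalizer functor θ on X for the prime 2 which is not complete. -/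
theorem result : ∃ (X : Type) (_ : Group X) (_ : Finite X) (A : Subgroup X) (θ : X → Subgroup X), Cfsg.IsElementaryAbelian 2 A ∧ Nat.card ↥A = 4 ∧ Cfsg.IsSolvableSignalizerFunctor 2 A θ ∧ ¬ Cfsg.IsCompleteSignalizerFunctor 2 A θ := by
  refine ⟨X, inferInstance, inferInstance, A, θ, ⟨abelian_iff.2 (le_cent_iff.2 ?_), ?_⟩, ?_,
    ⟨sf, fun g _ _ => abelian_sol (abelian_iff.2 (le_cent_iff.2 ?_))⟩, ?_⟩
  · exact (by decide +kernel : ∀ g ∈ sA, ∀ c ∈ sA, g * c = c * g)
  · exact (by decide +kernel : ∀ g ∈ sA, g ^ 2 = 1)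
  · rw [A, card_sub]; decide +kernel
  · change ∀ u ∈ sθ g, ∀ v ∈ sθ g, u * v = v * u
    rcases sθ_cases g with h | h | h <;> rw [h] <;> decide +kernel
  · rintro ⟨-, Y, -, hY, h⟩
    have hx : x ∈ Y := by
      have := (h a (show a ∈ sA by decide +kernel) (by decide +kernel)).ge (show x ∈ sθ a by decide +kernel)
      exact this.1
    have hy : y ∈ Y := by
      have := (h b (show b ∈ sA by decide +kernel) (by decide +kernel)).ge (show y ∈ sθ b by decide +kernel)
      exact this.1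
    have hz : x * y * x * y⁻¹ ∈ Y := mul_mem (mul_mem (mul_mem hx hy) hx) (inv_mem hy)
    have ho : orderOf (x * y * x * y⁻¹) = 2 := orderOf_eq_prime (by decide +kernel) (by decide +kernel)
    exact hY (ho ▸ orderOf_dvd_natCard Y hz)

end Cfsg.Agent.S1286
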