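import Cfsg.Statements.S1287
import Cfsg.Agent.Lib.Coprime.Lift
import Cfsg.Agent.Lib.Coprime.Sylow
import Cfsg.Agent.Lib.Coprime.Nilpotent
import Cfsg.Agent.Lib.PGroup.Omega

set_option autoImplicit false
open scoped Pointwise
open Cfsg

namespace Cfsg.Agent.S1287

open Subgroup Cfsg.Lib
open scoped Pointwise

variable {G : Type*} [Group G] [Finite G]

theorem exists_fun (ℓ : ℕ) (hl : ℓ.Prime) {M V : Subgroup G} (hM : M ≤ normalizer (V : Set G))
    (hcop : (Nat.card M).Coprime (Nat.card V)) (hs : Group.IsSolvable M) :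
    ∃ χ : M → ℂ, ∀ (H : Subgroup G) (hH : H ≤ M) [Fintype H],
      ∑ h : H, χ ⟨h, hH h.2⟩ =
        Nat.card H * (Nat.card ↥(V ⊓ centralizer (H : Set G))).factorization ℓ := by
  have := Fact.mk hl
  obtain ⟨P, h1, h2, h3, h4⟩ := Coprime.exists_invariant_sylowIn ℓ hM hcop (Or.inl hs)
  obtain ⟨χ, -, h⟩ := Coprime.exists_character_fixed' ℓ h4
    (hcop.coprime_dvd_right (card_dvd_of_le h1)) (Coprime.isSolvable_of_isPGroup h2)
  refine ⟨χ, fun H hH _ => ?_⟩
  have h5 := Coprime.not_dvd_relIndex_centralizer_of_invariant (hH.trans hM)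
    (hcop.coprime_dvd_left (card_dvd_of_le hH)) (Or.inl (Coprime.isSolvable_of_le hH hs))
    h1 h2 h3 (hH.trans h4)
  have h6 : P.relIndex (V ⊓ centralizer (H : Set G)) ≠ 0 := fun e => h5 (e ▸ dvd_zero _)
  rw [h H hH, ← Core.card_inf_mul_relIndex P (V ⊓ centralizer (H : Set G)),
    Nat.factorization_mul Nat.card_pos.ne' h6, Finsupp.add_apply,
    Nat.factorization_eq_zero_of_not_dvd h5, add_zero, ← inf_assoc, inf_of_le_left h1]

theorem card_of_mul {K X Y : Subgroup G} (hX : X ≤ K) (hY : Y ≤ K)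
    (h : ∀ k ∈ K, ∃ x ∈ X, ∃ y ∈ Y, k = x * y) :
    Nat.card K * Nat.card ↥(X ⊓ Y) = Nat.card X * Nat.card Y := by
  have h1 : Y.relIndex X = Y.relIndex K := by
    refine Nat.card_congr (Equiv.ofBijective (quotientSubgroupOfEmbeddingOfLE Y hX)
      ⟨Function.Embedding.injective _, fun q => ?_⟩)
    obtain ⟨⟨k, hk⟩, rfl⟩ := QuotientGroup.mk_surjective q
    obtain ⟨x, hx, y, hy, rfl⟩ := h k hk
    refine ⟨QuotientGroup.mk ⟨x, hx⟩, ?_⟩
    rw [quotientSubgroupOfEmbeddingOfLE_apply_mk, QuotientGroup.eq, mem_subgroupOf]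
    simpa using hy
  rw [← Core.card_mul_relIndex hY, ← h1, ← Core.card_inf_mul_relIndex Y X, inf_comm]
  ring

theorem eq_zero_of_sums {A : Type*} [CommGroup A] [Fintype A] {p : ℕ} [hp : Fact p.Prime]
    (he : ∀ a : A, a ^ p = 1) (hc : p < Fintype.card A) (δ : A → ℂ) (h0 : ∑ a, δ a = 0)
    (h1 : ∀ a : A, a ≠ 1 → ∑ k ∈ Finset.range p, δ (a ^ k) = 0) : δ 1 = 0 := by
  classical
  have h2 : ∑ a : A, ∑ k ∈ Finset.range p, δ (a ^ k) = p * δ 1 := by
    rw [Finset.sum_eq_single 1 (fun a _ ha => h1 a ha) (by simp)]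
    simp
  rw [Finset.sum_comm, Finset.sum_eq_single 0 (fun k hk k0 => ?_)
    (fun h => absurd (Finset.mem_range.2 hp.out.pos) h)] at h2
  · simp only [pow_zero, Finset.sum_const, Finset.card_univ, nsmul_eq_mul] at h2
    by_contra h
    exact hc.ne' (Nat.cast_injective (R := ℂ) (mul_right_cancel₀ h h2))
  · have hk' : (Nat.card A).Coprime k := by
      have hA : IsPGroup p A := fun a => ⟨1, by rw [pow_one, he]⟩
      exact (Coprime.coprime_card_of_isPGroup hA (Nat.coprime_of_lt_prime k0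
        (Finset.mem_range.1 hk) hp.out).symm).symm
    rw [← h0]
    exact (powCoprime hk').sum_comp δ

/-- Let A be a noncyclic elementary abelian p-subgroup of a finite group H normalizing a subgroup K of order prime to p, and X, Y ≤ K subgroups normalized by A with C_K(a) = C_X(a) C_Y(a) (as sets) for every non-identity a ∈ A, where X is also normalized by C_K(A). Then K = XY as sets. -/
theorem result {H : Type*} [Group H] [Finite H] (p : ℕ) [Fact p.Prime] (A K X Y : Subgroup H) (hA : Cfsg.IsElementaryAbelian p A) (hA2 : p ^ 2 ≤ Nat.card ↥A) (hK : ¬ p ∣ Nat.card ↥K) (hAK : A ≤ Subgroup.normalizer (K : Set H)) (hX : X ≤ K) (hY : Y ≤ K) (hAX : A ≤ Subgroup.normalizer (X : Set H)) (hAY : A ≤ Subgroup.normalizer (Y : Set H)) (hCX : K ⊓ Subgroup.centralizer (A : Set H) ≤ Subgroup.normalizer (X : Set H)) (hfac : ∀ a ∈ A, a ≠ 1 → ((K ⊓ Subgroup.centralizer {a} : Subgroup H) : Set H) = ((X ⊓ Subgroup.centralizer {a} : Subgroup H) : Set H) * ((Y ⊓ Subgroup.centralizer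 {a} : Subgroup H) : Set H)) : (K : Set H) = (X : Set H) * (Y : Set H) := by
  classical
  have hp : p.Prime := Fact.out
  have hAp := PGroup.elemAb_isPGroup hA
  have hs := Coprime.isSolvable_of_isPGroup hAp
  have hcop : (Nat.card A).Coprime (Nat.card K) :=
    (Coprime.coprime_card_of_isPGroup hAp (hp.coprime_iff_not_dvd.2 hK).symm).symm
  have hfac' : ∀ B ≤ A, B ≠ ⊥ →
      Nat.card ↥(K ⊓ centralizer (B : Set H)) * Nat.card ↥(X ⊓ Y ⊓ centralizer (B : Set H)) =
      Nat.card ↥(X ⊓ centralizer (B : Set H)) * Nat.card ↥(Y ⊓ centralizer (B : Set H)) := by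
    intro B hB h1
    obtain ⟨⟨a, ha⟩, a1⟩ := ne_bot_iff_exists_ne_one.1 h1
    rw [← card_of_mul (inf_le_inf_right _ hX) (inf_le_inf_right _ hY) fun k hk => ?_,
      inf_inf_distrib_right]
    have h2 : k ∈ ((K ⊓ centralizer {a} : Subgroup H) : Set H) :=
      ⟨hk.1, mem_centralizer_singleton_iff.2 (hk.2 a ha).symm⟩
    rw [hfac a (hB ha) fun h => a1 (Subtype.ext h)] at h2
    obtain ⟨x, hx, y, hy, rfl⟩ := h2
    exact Coprime.exists_centralizer_mul_centralizer (hcop.coprime_dvd_left (card_dvd_of_le hB))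
      (Or.inl (Coprime.isSolvable_of_le hB hs)) hX (hB.trans hAX) (hB.trans hAY) hx.1 hy.1 hk.2
  have hcard : Nat.card K * Nat.card ↥(X ⊓ Y) = Nat.card X * Nat.card Y := by
    refine Nat.eq_of_factorization_eq' (mul_ne_zero Nat.card_pos.ne' Nat.card_pos.ne')
      (mul_ne_zero Nat.card_pos.ne' Nat.card_pos.ne') (Finsupp.ext fun ℓ => ?_)
    by_cases hl : ℓ.Prime
    swap
    · rw [Nat.factorization_eq_zero_of_not_prime _ hl, Nat.factorization_eq_zero_of_not_prime _ hl]
    obtain ⟨c1, h1⟩ := exists_fun ℓ hl hAK hcop hs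
    obtain ⟨c2, h2⟩ := exists_fun ℓ hl (Coprime.le_normalizer_inf hAX hAY)
      (hcop.coprime_dvd_right (card_dvd_of_le (inf_le_left.trans hX))) hs
    obtain ⟨c3, h3⟩ := exists_fun ℓ hl hAX (hcop.coprime_dvd_right (card_dvd_of_le hX)) hs
    obtain ⟨c4, h4⟩ := exists_fun ℓ hl hAY (hcop.coprime_dvd_right (card_dvd_of_le hY)) hs
    have := Fintype.ofFinite H
    have h5 : ∀ (B : Subgroup H) (hB : B ≤ A), B ≠ ⊥ →
        ∑ h : B, (c1 + c2 - c3 - c4) ⟨h, hB h.2⟩ = 0 := fun B hB b1 => by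
      have h6 := congrArg (fun n => ((n.factorization ℓ : ℕ) : ℂ)) (hfac' B hB b1)
      simp only [Nat.factorization_mul Nat.card_pos.ne' Nat.card_pos.ne', Finsupp.add_apply,
        Nat.cast_add] at h6
      simp only [Pi.sub_apply, Pi.add_apply, Finset.sum_sub_distrib, Finset.sum_add_distrib,
        h1 B hB, h2 B hB, h3 B hB, h4 B hB]
      linear_combination (Nat.card B : ℂ) * h6
    have hlt : p < Nat.card A := lt_of_lt_of_le (by nlinarith [hp.one_lt]) hA2
    have := hA.1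
    have h6 := @eq_zero_of_sums A (open scoped IsMulCommutative in inferInstance) _ p _
      (fun a => Subtype.ext (hA.2 a a.2)) (by rwa [← Nat.card_eq_fintype_card])
      (c1 + c2 - c3 - c4) (h5 A le_rfl fun h => by
        rw [h, card_bot] at hlt; exact absurd hp.one_lt (by omega)) fun a a1 => by
        have a1' : (a : H) ≠ 1 := fun h => a1 (Subtype.ext h)
        have ho := PGroup.elemAb_orderOf hA a.2 a1'
        rw [← h5 (zpowers (a : H)) (zpowers_le.2 a.2) (by simpa using a1'), Finset.sum_range,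
          ← (finEquivZPowers (isOfFinOrder_of_finite (a : H))).sum_comp, ← ho]
        rfl
    have h7 : ∀ (V : Subgroup H) (c : A → ℂ), (∀ (B : Subgroup H) (hB : B ≤ A) [Fintype B],
        ∑ h : B, c ⟨h, hB h.2⟩ =
          Nat.card B * (Nat.card ↥(V ⊓ centralizer (B : Set H))).factorization ℓ) →
        c 1 = (Nat.card V).factorization ℓ := fun V c h => by
      have h3 := h ⊥ bot_le
      rwa [Fintype.sum_unique, card_bot, inf_of_le_left (le_centralizer_iff.mp bot_le),
        Nat.cast_one, one_mul] at h3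
    simp only [Pi.sub_apply, Pi.add_apply, h7 _ _ h1, h7 _ _ h2, h7 _ _ h3, h7 _ _ h4] at h6
    simp only [Nat.factorization_mul Nat.card_pos.ne' Nat.card_pos.ne', Finsupp.add_apply]
    apply Nat.cast_injective (R := ℂ)
    push_cast
    linear_combination h6
  refine Set.Subset.antisymm (fun k hk => ?_) ?_
  · have h1 : Y.relIndex K ≤ Y.relIndex X := by
      rw [← Core.card_mul_relIndex hY, ← Core.card_inf_mul_relIndex Y X, inf_comm Y X] at hcard
      refine (Nat.eq_of_mul_eq_mul_left (Nat.mul_pos (Nat.card_pos (α := Y))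
        (Nat.card_pos (α := ↥(X ⊓ Y)))) ?_).le
      linear_combination hcard
    obtain ⟨x, hx, h2⟩ := Coprime.exists_inv_mul_mem_of_relIndex_eq hX h1 hk
    exact ⟨x, hx, _, h2, by simp⟩
  · rintro _ ⟨x, hx, y, hy, rfl⟩
    exact K.mul_mem (hX hx) (hY hy)

end Cfsg.Agent.S1287
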