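import Cfsg.Statements.S1288
import Cfsg.Agent.Lib.Sig.Basic
import Cfsg.Agent.Lib.Coprime.Constraint
import Cfsg.Agent.Lib.Core.PPrimeCore

set_option autoImplicit false
open Cfsg

namespace Cfsg.Agent.S1288

open scoped commutatorElement

/-- Let A be a noncyclic elementary abelian p-subgroup of a finite group H normalizing a solvable subgroup K of order prime to p, q a prime dividing |K|, and U ≤ K a subgroup of order prime to q such that ⁅U, C_K(B)⁆ has order prime to q for every subgroup B of index p in A. Then U ≤ O_{q'}(K). -/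
theorem result {H : Type*} [Group H] [Finite H] (p : ℕ) [Fact p.Prime] (A K : Subgroup H) (hA : Cfsg.IsElementaryAbelian p A) (hA2 : p ^ 2 ≤ Nat.card ↥A) (hK : ¬ p ∣ Nat.card ↥K) (hKs : Group.IsSolvable ↥K) (hAK : A ≤ Subgroup.normalizer (K : Set H)) (q : ℕ) [Fact q.Prime] (hqK : q ∣ Nat.card ↥K) (U : Subgroup H) (hU : U ≤ K) (hUq : ¬ q ∣ Nat.card ↥U) (hcomm : ∀ B : Subgroup H, B ≤ A → B.relIndex A = p → ¬ q ∣ Nat.card ↥⁅U, K ⊓ Subgroup.centralizer (B : Set H)⁆) : U ≤ (Cfsg.pPrimeCore q ↥K).map K.subtype := by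
  have hA1 := Lib.Sig.ne_bot_of_sq_le hA2
  have hq : q.Prime := Fact.out
  rw [Lib.Core.le_map_subtype_iff hU]
  refine Lib.Coprime.le_pPrimeCore_of_map_le_centralizer
    (Lib.Coprime.centralizer_pCore_quotient_le hKs)
    (by rw [Lib.Core.card_subgroupOf_of_le hU]; exact (hq.coprime_iff_not_dvd.2 hUq).symm) ?_
  rw [Subgroup.le_centralizer_iff, ← Lib.Core.map_pPrimePCore_mk', Subgroup.map_le_iff_le_comap]
  have hle : (Cfsg.pPrimePCore q K).map K.subtype ≤ K := Subgroup.map_subtype_le _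
  rw [← Subgroup.map_le_map_iff_of_injective K.subtype_injective]
  refine Lib.Coprime.le_of_forall_hyperplane' hA hA1
    (hAK.trans (Lib.Core.normalizer_le_normalizer_map_subtype _))
    (Lib.Sig.coprime_of_not_dvd (Lib.PGroup.elemAb_isPGroup hA)
      fun hd => hK (hd.trans (Subgroup.card_dvd_of_le hle))) ?_
  rintro B hB hi _ ⟨⟨x, hx, rfl⟩, hc⟩
  refine ⟨x, ?_, rfl⟩
  rintro _ ⟨u, hu, rfl⟩
  have h1 : ⁅(u : H), (x : H)⁆ ∈ ⁅U, K ⊓ Subgroup.centralizer (B : Set H)⁆ :=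
    Subgroup.commutator_mem_commutator hu ⟨x.2, hc⟩
  have h2 : QuotientGroup.mk' (Cfsg.pPrimeCore q K) ⁅u, x⁆ ∈
      Cfsg.pCore q (K ⧸ Cfsg.pPrimeCore q K) := by
    have hn := Lib.Core.pPrimePCore_normal q K
    have : ⁅u, x⁆ ∈ Cfsg.pPrimePCore q K := by
      rw [commutatorElement_def, mul_assoc]
      have := hn.conj_mem _ hx u
      rw [← mul_assoc]
      exact Subgroup.mul_mem _ this (Subgroup.inv_mem _ hx)
    exact this
  obtain ⟨k, hk⟩ := Lib.Core.isPGroup_subgroup_iff.1 (Lib.Core.pCore_isPGroup q _) _ h2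
  have h3 := orderOf_dvd_of_pow_eq_one hk
  have h4 : orderOf (QuotientGroup.mk' (Cfsg.pPrimeCore q K) ⁅u, x⁆) ∣
      Nat.card ↥⁅U, K ⊓ Subgroup.centralizer (B : Set H)⁆ := by
    refine (orderOf_map_dvd _ _).trans ?_
    rw [← Subgroup.orderOf_coe]
    exact Subgroup.orderOf_dvd_natCard _ h1
  have h5 : orderOf (QuotientGroup.mk' (Cfsg.pPrimeCore q K) ⁅u, x⁆) = 1 :=
    Nat.eq_one_of_dvd_coprimes (Nat.Coprime.pow_left k
      (hq.coprime_iff_not_dvd.2 (hcomm B hB hi))) h3 h4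
  rw [orderOf_eq_one_iff, map_commutatorElement, commutatorElement_eq_one_iff_mul_comm] at h5
  exact h5

end Cfsg.Agent.S1288
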