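import Cfsg.Statements.S1303
import Cfsg.Agent.Lib.HH.Misc
import Cfsg.Agent.Lib.Frobenius.Binary
import Cfsg.Agent.Lib.Comp.Local
import Cfsg.Agent.Lib.Char.Burnside
import Cfsg.Agent.Lib.PSL2.SL

set_option autoImplicit false
open Cfsg

namespace Cfsg.Agent.S1303

open Subgroup Cfsg.Lib Cfsg.Lib.BG


/-- The group X = SL(2, 3): it is 2-constrained, O_{2'}(X) = 1, its centre A = Z(X) contains every involution of X = C_X(A), and X has a subgroup of order 3 (normalized by A) not contained in O_{2'}(X). -/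
theorem result : Cfsg.IsPConstrained 2 (Matrix.SpecialLinearGroup (Fin 2) (ZMod 3)) ∧ Cfsg.pPrimeCore 2 (Matrix.SpecialLinearGroup (Fin 2) (ZMod 3)) = ⊥ ∧ (∀ t : Matrix.SpecialLinearGroup (Fin 2) (ZMod 3), orderOf t = 2 → t ∈ Subgroup.center (Matrix.SpecialLinearGroup (Fin 2) (ZMod 3))) ∧ ∃ Q : Subgroup (Matrix.SpecialLinearGroup (Fin 2) (ZMod 3)), Nat.card ↥Q = 3 ∧ ¬ (Q ≤ Cfsg.pPrimeCore 2 (Matrix.SpecialLinearGroup (Fin 2) (ZMod 3))) := by
  have hc := Frobenius.card_sl_two_three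
  have h2 : (2 : ZMod 3) ≠ 0 := by decide
  have h0 : pPrimeCore 2 (Matrix.SpecialLinearGroup (Fin 2) (ZMod 3)) = ⊥ := by
    set N := pPrimeCore 2 (Matrix.SpecialLinearGroup (Fin 2) (ZMod 3))
    have := Frobenius.injective_of_sl_two_three (QuotientGroup.mk' N) (fun e => by
      have h1 : -1 ∈ N := (QuotientGroup.eq_one_iff _).1 e
      have h3 := orderOf_dvd_natCard N h1
      rw [PSL2.orderOf_neg_one_sl h2] at h3
      exact Core.not_dvd_card_pPrimeCore 2 _ h3)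
    rwa [← MonoidHom.ker_eq_bot_iff, QuotientGroup.ker_mk'] at this
  refine ⟨Comp.isPConstrained_of_isSolvable (Char.isSolvable_of_card_dvd_pow_mul_pow _ (a := 3) (b := 1)
    Nat.prime_two Nat.prime_three (by rw [hc]; norm_num)), h0, fun t ht => ?_, ?_⟩
  · exact PSL2.mem_center_SL2_iff.2 (Or.inr (PSL2.eq_neg_one_of_orderOf_two h2 ht))
  · obtain ⟨Q, -, hQ⟩ := exists_card_eq_prime (A := (⊤ : Subgroup (Matrix.SpecialLinearGroup (Fin 2) (ZMod 3))))
      Nat.prime_three (by rw [card_top, hc]; norm_num)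
    refine ⟨Q, hQ, fun h => ?_⟩
    rw [h0, le_bot_iff] at h
    simp [h] at hQ

end Cfsg.Agent.S1303
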