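import Cfsg.Statements.S1305
import Cfsg.Agent.Lib.Comp.PumpTwo

set_option autoImplicit false
open Cfsg

namespace Cfsg.Agent.S1305

open Subgroup Cfsg.Lib Cfsg.Lib.BG Cfsg.Lib.Core Cfsg.Lib.Comp
open scoped Cfsg.Lib.Transfer commutatorElement

/-- Let G be a finite group of component type with the B-property and no nontrivial normal subgroup of odd order. Let a be an involution and K a component of C_G(a) such that (a) |K| is maximal among the orders of components of centralizers of involutions of G, (b) subject to (a) the 2-rank of the centralizer of K in C_G(a) is as large as possible, and (c) K has 2-rank at least 2. If B is an elementary abelian 2-subgroup of that centralizer of the largest possible order, then K is a component of C_G(b) for every non-identity b ∈ B. -/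
theorem result {G : Type*} [Group G] [Finite G] (hO : Cfsg.oddCore G = ⊥) (hB : Cfsg.HasBProperty G) (hct : Cfsg.IsComponentType G) (a : G) (ha : orderOf a = 2) (K : Subgroup G) (hKa : K ≤ Subgroup.centralizer ({a} : Set G)) (hK : Cfsg.IsComponent (K.subgroupOf (Subgroup.centralizer ({a} : Set G)))) (hmax : ∀ y : G, orderOf y = 2 → ∀ K' : Subgroup G, K' ≤ Subgroup.centralizer ({y} : Set G) → Cfsg.IsComponent (K'.subgroupOf (Subgroup.centralizer ({y} : Set G))) → Nat.card ↥K' ≤ Nat.card ↥K ∧ (Nat.card ↥K' = Nat.card ↥K → ∀ k : ℕ, Cfsg.PRankLE 2 k ↥(Subgroup.centralizer ({a} : Set G) ⊓ Subgroup.centralizer (K : Set G)) → Cfsg.PRankLE 2 k ↥(Subgroup.centralizer ({y} : Set G) ⊓ Subgroup.centralizer (K' : Set G)))) (hrk : ¬ Cfsg.PRankLE 2 1 ↥K) (B : Subgroup G) (hBle : B ≤ Subgroup.centralizer ({a} : Set G) ⊓ Subgroup.centralizer (K : Set G)) (hBel : Cfsg.IsElementaryAbelian 2 B) (hBmax : ∀ B' : Subgroup G, B' ≤ Subgroup.centralizer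 ({a} : Set G) ⊓ Subgroup.centralizer (K : Set G) → Cfsg.IsElementaryAbelian 2 B' → Nat.card ↥B' ≤ Nat.card ↥B) (b : G) (hb : b ∈ B) (hb1 : b ≠ 1) : K ≤ Subgroup.centralizer ({b} : Set G) ∧ Cfsg.IsComponent (K.subgroupOf (Subgroup.centralizer ({b} : Set G))) := by
  have hK' : Cmp K 𝐂[a] := cmp_iff.2 ⟨hKa, hK⟩
  have hb2 : orderOf b = 2 := PGroup.elemAb_orderOf hBel hb hb1
  have hKb : K ≤ 𝐂[b] := le_cent1_iff.2 (hBle hb).2
  have haB : a ∈ B := by
    have h1 := hBmax (B ⊔ zpowers a) (sup_le hBle (zpowers_le.2 ⟨self_mem_cent1 a,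
      le_cent1_iff.1 hKa⟩)) (PGroup.elemAb_sup_zpowers hBel
        (le_cent1_iff.1 (hBle.trans inf_le_left)) (sq_eq_one ha))
    exact (eq_of_le_of_card_le le_sup_left h1).ge (mem_sup_right (mem_zpowers a))
  have hBb : B ≤ 𝐂[b] := fun c hc => mem_cent1.2 (PGroup.elemAb_comm hBel hc hb)
  have hL : 𝐋(2, 𝐂[b]) ≤ 𝐄(𝐂[b]) := pLayer_le_of_pcmp fun J hJ => by
    refine (hJ.cmp_of_cent (cent_mono (comm_eq_bot_iff.1 ?_) hJ.le_pLayer le_rfl)).le_layer
    have := hB b hb2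
    rwa [hO, le_bot_iff, map_commutator, show (oddCore 𝐂[b]).map 𝐂[b].subtype = 𝐎({2}ᶜ, 𝐂[b]) from
      (pcore_p'_eq 2 _).symm] at this
  obtain ⟨J, hJ, h⟩ := (hK'.mono (le_inf hKb hKa) inf_le_right).pcmp2.trich_inv hL ha (hBb haB)
  obtain ⟨h1, h2⟩ := hmax b hb2 J hJ.le hJ.isComp
  rcases h with h | h | ⟨hn, hc, e⟩
  · exact cmp_iff.1 (h ▸ hJ)
  · exact absurd h1 (Transfer.card_lt_of_lt h.1).not_ge
  exfalso
  have hbij : Function.Bijective hc.diag.rangeRestrict :=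
    (Nat.bijective_iff_surjective_and_card _).2 ⟨hc.diag.rangeRestrict_surjective,
      le_antisymm (e ▸ h1) (Nat.card_le_card_of_surjective _ hc.diag.rangeRestrict_surjective)⟩
  obtain ⟨k, hk⟩ := PGroup.elemAb_card hBel
  have h3 := h2 (by rw [e]; exact Nat.card_congr (Equiv.ofBijective _ hbij)) k fun A h4 h5 => by
    rw [← hk, ← card_map_of_injective (Subgroup.subtype_injective _)]
    exact hBmax _ (map_subtype_le _) (PGroup.elemAb_map _ ⟨h4, h5⟩)
  have hJ' := hJ.conj_mem (hBb haB)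
  have hne : a ⋆ J ≠ J := fun e => hn (norm_of_conj_eq e)
  obtain ⟨E, hE, hE2, hE4⟩ : ∃ E ≤ a ⋆ J, IsElementaryAbelian 2 E ∧ 2 < Nat.card E := by
    by_contra h4
    push Not at h4
    refine hrk fun A h5 h6 => ?_
    let f : K ≃* ↥(a ⋆ J) := ((MulEquiv.subgroupCongr e).trans
      (MulEquiv.ofBijective _ hbij).symm).trans (Transfer.conjEquiv a J)
    have := h4 ((A.map f.toMonoidHom).map (a ⋆ J).subtype) (map_subtype_le _)
      (PGroup.elemAb_map _ (PGroup.elemAb_map _ ⟨h5, h6⟩))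
    rwa [card_map_of_injective (Subgroup.subtype_injective _), card_map_of_injective f.injective]
      at this
  have hBK : B ≤ 𝐂(hc.diag.range) := e ▸ hBle.trans inf_le_right
  have h4 : B ⊓ 𝐍(J) ≤ 𝐂(J) := hJ.cent_of_comm_le
    (hc.comm_le_cent inf_le_right (inf_le_left.trans hBK))
  have hBa : B ≤ 𝐂[a] := hBle.trans inf_le_left
  have h5 : B ⊓ 𝐍(J) ≤ 𝐂(a ⋆ J) := by
    have := Transfer.conj_mono a h4
    rwa [Transfer.conj_centralizer, conj_eq_of_cent (le_cent1_iff.1 (inf_le_left.trans hBa))] at this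
  have h6 : Nat.card B ≤ 2 * Nat.card ↥(B ⊓ 𝐍(J)) := by
    rw [← PGroup.card_sup_zpowers (cent_le_norm _ (le_cent1_iff.1 (inf_le_left.trans hBa)))
      (fun h => hn h.2) (sq_eq_one ha ▸ one_mem _)]
    refine card_le_of_le fun r hr => ?_
    by_cases h7 : r ⋆ J = J
    · exact mem_sup_left ⟨hr, norm_of_conj_eq h7⟩
    by_cases h8 : r ⋆ J = a ⋆ J
    · simpa using mul_mem (mem_sup_right (mem_zpowers a)) (mem_sup_left (T := zpowers a)
        (mem_inf.2 ⟨mul_mem (inv_mem haB) hr, norm_of_conj_eq (by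
          rw [← Transfer.conj_conj, h8, Transfer.inv_conj_conj])⟩))
    have h9 := Transfer.conj_mono r⁻¹ (cent_symm (cent_mono (le_cent_sup
      ((hJ.conj_mem (hBb hr)).cent_of_ne hJ h7) ((hJ.conj_mem (hBb hr)).cent_of_ne hJ' h8))
      le_rfl (hc.range_le_ncl.trans hc.ncl_two.le)))
    rw [Transfer.conj_centralizer, Transfer.inv_conj_conj, conj_eq_of_cent (inv_mem (hBK hr))] at h9
    exact (hc.not_cent hJ.not_cent (one_mem _) (by rwa [Transfer.conj_one])).elim
  have h7 : (B ⊓ 𝐍(J)) ⊓ E = ⊥ := by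
    rw [eq_bot_iff]
    intro z hz
    have h8 : a * z * a⁻¹ = z := mul_inv_eq_iff_eq_mul.2 (mem_cent1.1 (hBa hz.1.1)).symm
    have h9 : z ∈ J := Transfer.conj_mem_conj.1 (h8.symm ▸ hE hz.2)
    have : hc.diag.rangeRestrict ⟨z, h9⟩ = hc.diag.rangeRestrict 1 := by
      apply Subtype.ext
      rw [MonoidHom.coe_rangeRestrict, MonoidHom.coe_rangeRestrict, map_one, hc.diag_two, h8, ← sq]
      exact hBel.2 z hz.1.1
    exact congrArg Subtype.val (hbij.1 this)
  have h8 := PGroup.card_sup_mul_card_inf (H := B ⊓ 𝐍(J)) (K := E)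
    (norm_of_cent (cent_symm (cent_mono h5 le_rfl hE)))
  rw [h7, card_bot, mul_one] at h8
  have hle : B ⊓ 𝐍(J) ⊔ E ≤ 𝐂[b] ⊓ 𝐂(J) := sup_le (le_inf (inf_le_left.trans hBb) h4)
    (hE.trans (le_inf hJ'.le (hJ'.cent_of_ne hJ hne)))
  have h9 := PGroup.elemAb_subgroupOf (PGroup.elemAb_sup (PGroup.elemAb_of_le hBel inf_le_left) hE2
    (cent_mono h5 le_rfl hE)) (𝐂[b] ⊓ 𝐂(J))
  have h10 := h3 _ h9.1 h9.2
  rw [subOf_card hle, h8, ← hk] at h10
  have : 0 < Nat.card ↥(B ⊓ 𝐍(J)) := Nat.card_pos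
  nlinarith

end Cfsg.Agent.S1305
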