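import Cfsg.Statements.S1307
import Cfsg.Agent.Lib.Comp.PumpTwo
import Cfsg.Agent.Lib.Comp.PumpP
import Cfsg.Agent.Lib.ZStar.Main
import Cfsg.Agent.Lib.PGroup.RankOne

set_option autoImplicit false
open Cfsg

namespace Cfsg.Agent.S1307

open Subgroup Cfsg.Lib Cfsg.Lib.BG Cfsg.Lib.Core Cfsg.Lib.Comp
open scoped Cfsg.Lib.Transfer commutatorElement

/-- Let G be finite, x an involution and L ≤ C_G(x) a component of C_G(x) of even order and 2-rank 1, such that L is a component of C_G(y) for every involution y ∈ C_G(L). Then some involution of L is a classical involution of G. -/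
theorem result {G : Type*} [Group G] [Finite G] (x : G) (hx : orderOf x = 2) (L : Subgroup G) (hLx : L ≤ Subgroup.centralizer ({x} : Set G)) (hL : Cfsg.IsComponent (L.subgroupOf (Subgroup.centralizer ({x} : Set G)))) (heven : Even (Nat.card ↥L)) (hrk : Cfsg.PRankLE 2 1 ↥L) (hne : ∀ y : G, orderOf y = 2 → y ∈ Subgroup.centralizer (L : Set G) → L ≤ Subgroup.centralizer ({y} : Set G) ∧ Cfsg.IsComponent (L.subgroupOf (Subgroup.centralizer ({y} : Set G)))) : ∃ t ∈ L, Cfsg.IsClassicalInvolution t := by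
  have h1 : Cmp L 𝐂[x] := cmp_iff.2 ⟨hLx, hL⟩
  obtain ⟨t, ht, ht2⟩ := exists_inv_of_even (qs_not_odd h1.qs)
  have ht2' : orderOf (⟨t, ht⟩ : L) = 2 := by rw [← ht2, orderOf_mk]
  have hiso : IsIsolatedInvolution (⟨t, ht⟩ : L) := by
    refine ⟨ht2', fun g hg => ?_⟩
    set s : L := ⟨t, ht⟩
    have hs : orderOf (g * s * g⁻¹) = 2 := ht2' ▸ (MulAut.conj g).orderOf_eq s
    have hab : IsMulCommutative ↥(zpowers s ⊔ zpowers (g * s * g⁻¹)) :=
      abelian_sup inferInstance inferInstance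
        (by rw [cent_zpowers]; exact zpowers_le.2 (mem_cent1.2 hg))
    have h2 := hrk _ hab (fun a ha => by
      obtain ⟨b, hb, c, hc, rfl⟩ := (mem_sup_left_norm ((le_sup_right.trans
        (abelian_norm hab le_sup_left)))).1 ha
      rw [Commute.mul_pow (abelian_cent' hab le_sup_right le_sup_left hc b hb),
        orderOf_dvd_iff_pow_eq_one.1 (ht2' ▸ orderOf_dvd_of_mem_zpowers hb),
        orderOf_dvd_iff_pow_eq_one.1 (hs ▸ orderOf_dvd_of_mem_zpowers hc), mul_one])
    have h3 := eq_of_le_of_card_le (le_sup_left : zpowers s ≤ zpowers s ⊔ zpowers (g * s * g⁻¹))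
      (by rwa [Nat.card_zpowers, ht2'])
    have h4 : g * s * g⁻¹ ∈ zpowers s := h3 ▸ mem_sup_right (mem_zpowers _)
    obtain ⟨k, e⟩ := mem_powers_iff_mem_zpowers.2 h4
    have e2 : s ^ k = g * s * g⁻¹ := e
    rw [← pow_mod_orderOf, ht2'] at e2
    rcases Nat.mod_two_eq_zero_or_one k with h | h <;> rw [h] at e2
    · rw [← e2, pow_zero, orderOf_one] at hs; omega
    · rw [← e2, pow_one]
  have hO : oddCore L ≤ center L := by
    refine (isQuasisimple_normal h1.qs _ (hN := pPrimeCore_normal 2 L)).resolve_left fun e => ?_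
    have := Core.pPrimeCore_coprime 2 L
    rw [show pPrimeCore 2 L = ⊤ from e, card_top] at this
    exact Core.coprime_iff_not_dvd.1 this (even_iff_two_dvd.1 heven)
  have hc : t ∈ 𝐂(L) := by
    have := eq_self_of_perfect_of_central (isQuasisimple_commutator_eq_top h1.qs)
      (MulAut.conj (⟨t, ht⟩ : L)).toMonoidHom fun g => hO (ZStar.zstar hiso g)
    intro g hg
    have h2 := congrArg Subtype.val (this ⟨g, hg⟩)
    exact (mul_inv_eq_iff_eq_mul.1 h2).symm
  obtain ⟨h2, h3⟩ := hne t ht2 hc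
  obtain ⟨S⟩ : Nonempty (Sylow 2 L) := inferInstance
  refine ⟨t, ht, ht2, L, h2, ht, h3.1, S, ?_⟩
  refine ((PGroup.isCyclic_or_quaternion_of_pRankLE_one S.isPGroup' fun A h4 h5 => ?_).resolve_left
    fun h4 => odd_of_perf_of_cyclic (isQuasisimple_commutator_eq_top h1.qs) S h4
      (even_iff_two_dvd.1 heven)).2
  rw [← card_map_of_injective (S : Subgroup L).subtype_injective]
  refine hrk _ (abelian_map _ h4) ?_
  rintro _ ⟨a, ha, rfl⟩
  rw [← map_pow, h5 a ha, map_one]

end Cfsg.Agent.S1307
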