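import Cfsg.Statements.S1314
import Cfsg.Agent.Lib.Comp.Pump

set_option autoImplicit false
open Cfsg

namespace Cfsg.Agent.S1314

open Subgroup Cfsg.Lib Cfsg.Lib.BG Cfsg.Lib.Core Cfsg.Lib.Comp
open scoped Cfsg.Lib.Transfer commutatorElement

/-- Let x be an involution of a group G and L a perfect subgroup with ⁅L, x L x⁻¹⁆ = 1. Then l ↦ l (x l x⁻¹) is a group homomorphism π from L to G whose kernel is central in L and whose image lies in C_G(x); and the commutator subgroup of C_{L ⊔ xLx⁻¹}(x) equals the image of π. -/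
theorem result {G : Type*} [Group G] [Finite G] (x : G) (hx : orderOf x = 2) (L : Subgroup G) (hperf : ⁅L, L⁆ = L) (hcomm : ⁅L, L.map (MulAut.conj x).toMonoidHom⁆ = ⊥) : ∃ π : ↥L →* G, (∀ l : ↥L, π l = (l : G) * (x * (l : G) * x⁻¹)) ∧ π.ker ≤ Subgroup.center ↥L ∧ π.range ≤ Subgroup.centralizer ({x} : Set G) ∧ ⁅(L ⊔ L.map (MulAut.conj x).toMonoidHom) ⊓ Subgroup.centralizer ({x} : Set G), (L ⊔ L.map (MulAut.conj x).toMonoidHom) ⊓ Subgroup.centralizer ({x} : Set G)⁆ = π.range := by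
  have hx2 : x ^ 2 = 1 := hx ▸ pow_orderOf_eq_one x
  have hc : Cyc 2 x L := ⟨two_pos, fun k h0 hk => by
    obtain rfl : k = 1 := by omega
    rw [pow_one]; exact comm_eq_bot_iff'.1 hcomm, hx2 ▸ one_mem _⟩
  have e : ncl L (zpowers x) = L ⊔ x ⋆ L := by
    refine le_antisymm (ncl_le fun g hg => ?_) (sup_le (le_ncl _ _) (conj_le_ncl (mem_zpowers x)))
    obtain ⟨k, hk, e⟩ := hc.conj_cases hg
    rw [e]
    interval_cases k
    · rw [pow_zero, Transfer.conj_one]; exact le_sup_left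
    · rw [pow_one]; exact le_sup_right
  refine ⟨hc.diag, fun l => ?_, hc.ker_le, hc.range_cent, ?_⟩
  · rw [hc.diag_apply, dprod_succ, dprod_succ, dprod_zero]; group
  · rw [← e]
    exact le_antisymm hc.der_le_range ((hc.range_perf hperf).ge.trans
      (der_mono (le_inf hc.range_le_ncl hc.range_cent)))

end Cfsg.Agent.S1314
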