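import Cfsg.Statements.S1315
import Cfsg.Agent.Lib.ClsI.C

set_option autoImplicit false
open Cfsg

namespace Cfsg.Agent.S1315

open Cfsg.Lib

/-- Let G be finite and J ≠ K subgroups, each containing exactly one involution, z(J) resp. z(K), each a 2-component of the centralizer of its involution, with J / O(J) and K / O(K) both isomorphic to SL(2, F) for one finite field F of odd order, or both non-split double covers of A7. Then (i) every 2-element of K of order at least 4 centralizing z(J) normalizes J; (ii) if z(J) normalizes K then z(K) normalizes J. -/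
theorem result {G : Type*} [Group G] [Finite G] (J K : Subgroup G) (hJK : J ≠ K) (zJ zK : G) (hzJ : zJ ∈ J ∧ orderOf zJ = 2 ∧ ∀ t ∈ J, orderOf t = 2 → t = zJ) (hzK : zK ∈ K ∧ orderOf zK = 2 ∧ ∀ t ∈ K, orderOf t = 2 → t = zK) (hJ : J ≤ Subgroup.centralizer ({zJ} : Set G) ∧ Cfsg.IsPComponent 2 (J.subgroupOf (Subgroup.centralizer ({zJ} : Set G)))) (hK : K ≤ Subgroup.centralizer ({zK} : Set G) ∧ Cfsg.IsPComponent 2 (K.subgroupOf (Subgroup.centralizer ({zK} : Set G)))) (htype : (∃ (F : Type) (_ : Field F) (_ : Fintype F), Odd (Fintype.card F) ∧ Nonempty (↥J ⧸ Cfsg.oddCore ↥J ≃* Matrix.SpecialLinearGroup (Fin 2) F) ∧ Nonempty (↥K ⧸ Cfsg.oddCore ↥K ≃* Matrix.SpecialLinearGroup (Fin 2) F)) ∨ (Cfsg.IsNonsplitDoubleCover (↥J ⧸ Cfsg.oddCore ↥J) ↥(alternatingGroup (Fin 7)) ∧ Cfsg.IsNonsplitDoubleCover (↥K ⧸ Cfsg.oddCore ↥K) ↥(alternatingGroup (Fin 7)))) : (∀ y ∈ K, IsPGroup 2 ↥(Subgroup.zpowers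 y) → 4 ≤ orderOf y → y * zJ = zJ * y → y ∈ Subgroup.normalizer (J : Set G)) ∧ (zJ ∈ Subgroup.normalizer (K : Set G) → zK ∈ Subgroup.normalizer (J : Set G)) := by
  have hty : ClsI.Ty (↥J ⧸ Cfsg.oddCore ↥J) ∧ ClsI.Ty (↥K ⧸ Cfsg.oddCore ↥K) := by
    rcases htype with ⟨F, _, _, hF, ⟨e1⟩, ⟨e2⟩⟩ | ⟨h1, h2⟩
    · exact ⟨(ClsI.ty_sl hF).of_equiv e1, (ClsI.ty_sl hF).of_equiv e2⟩
    · exact ⟨ClsI.ty_a7 h1, ClsI.ty_a7 h2⟩
  have nJ := ClsI.Nc.of_ty (Comp.pcmp_iff.2 hJ) hzJ.1 hzJ.2.1 hzJ.2.2 hty.1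
  have nK := ClsI.Nc.of_ty (Comp.pcmp_iff.2 hK) hzK.1 hzK.2.1 hzK.2.2 hty.2
  refine ⟨fun y hy h1 h2 h3 => ClsI.norm_of nJ nK hy h1 (fun e => ?_) h3, ClsI.norm_of_norm nJ nK⟩
  have := orderOf_le_of_pow_eq_one (x := y) (n := 2) (by decide) (by rw [sq, e])
  omega

end Cfsg.Agent.S1315
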