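import Cfsg.Statements.S1316
import Cfsg.Agent.Lib.Comp.GenFitting

set_option autoImplicit false
open Cfsg

namespace Cfsg.Agent.S1316

/-- For a finite group X, E(X) equals the intersection of the derived series of F*(X) (its last term). -/
theorem result {X : Type*} [Group X] [Finite X] : (⨅ n : ℕ, (derivedSeries ↥(Cfsg.generalizedFittingSubgroup X) n).map (Cfsg.generalizedFittingSubgroup X).subtype) = Cfsg.layer X := by
  open Cfsg.Lib.Comp Subgroup in
  have hsolv : Group.IsSolvable (generalizedFittingSubgroup X ⧸
      (layer X).subgroupOf (generalizedFittingSubgroup X)) := by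
    refine Group.isSolvable_of_surjective (G := fittingSubgroup X)
      (f := (QuotientGroup.mk' _).comp (inclusion fitting_le_genFitting)) ?_
    rw [← MonoidHom.range_eq_top, MonoidHom.range_comp, Cfsg.Lib.Core.map_mk'_eq_top_iff,
      inclusion_range, ← subgroupOf_sup fitting_le_genFitting layer_le_genFitting, sup_comm,
      ← genFitting_def, subgroupOf_self]
  apply le_antisymm
  · obtain ⟨n, hn⟩ := hsolv.solvable
    refine (iInf_le _ n).trans ?_
    rw [Cfsg.Lib.Core.map_subtype_le_iff, ← Cfsg.Lib.Core.map_mk'_eq_bot_iff,
      map_derivedSeries_eq (QuotientGroup.mk'_surjective _), hn]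
  · refine le_iInf fun n => ?_
    induction n with
    | zero =>
      rw [derivedSeries_zero, Cfsg.Lib.Core.map_subtype_top]
      exact Cfsg.Lib.Comp.layer_le_genFitting
    | succ n ih =>
      rw [derivedSeries_succ, Subgroup.map_commutator, ← Cfsg.Lib.Comp.commutator_layer_self]
      exact Subgroup.commutator_mono ih ih

end Cfsg.Agent.S1316
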