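import Cfsg.Statements.S1328
import Cfsg.Agent.Lib.Comp.Balance
import Cfsg.Agent.Lib.Core.Subnormal

set_option autoImplicit false
open Cfsg

namespace Cfsg.Agent.S1328

open Subgroup

theorem aux {G : Type*} [Group G] [Finite G] {p : ℕ} [Fact p.Prime] (hO : pPrimeCore p G = ⊥)
    {t : G} (ht : orderOf t = p) {Y : Subgroup G} (hY1 : Y ≠ ⊥)
    (hY : Y ≤ centralizerPPrimeCore p t) : ∃ L : Subgroup G, IsComponent L ∧
      t ∈ normalizer (L : Set G) ∧ Y ≤ normalizer (L : Set G) ∧
      t ∉ centralizer (L : Set G) ∧ ¬ Y ≤ centralizer (L : Set G) := by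
  have hz := Lib.Comp.isPGroup_zpowers_of_orderOf_eq ht
  obtain ⟨L, hL, hn⟩ : ∃ L : Subgroup G, IsComponent L ∧ ¬ Y ≤ centralizer (L : Set G) := by
    by_contra h
    push Not at h
    refine hY1 (Lib.Comp.eq_bot_of_centralizes_layer_pCore hO
      (Lib.Core.coprime_of_le hY (Lib.Core.pPrimeCoreOf_coprime p _)) ?_
      (hY.trans (Lib.Comp.centralizerPPrimeCore_le_centralizer_pCore hz)))
    rw [le_centralizer_iff]
    exact Lib.Comp.layer_le fun K hK => le_centralizer_iff.1 (h K hK)
  have hne : ⁅L, zpowers t⁆ = L := by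
    by_contra hne
    have := Lib.Comp.commutator_centralizerPPrimeCore_eq_bot hO ht hL hne
    rw [commutator_comm, commutator_eq_bot_iff_le_centralizer] at this
    exact hn (hY.trans this)
  refine ⟨L, hL, ?_, hY.trans (Lib.Comp.centralizerPPrimeCore_le_normalizer_component hO hz hL),
    fun h => ?_, hn⟩
  · rw [← hne]
    exact normalizer_commutator_ge_right _ _ (mem_zpowers t)
  · rw [commutator_comm, commutator_eq_bot_iff_le_centralizer.2 (zpowers_le.2 h)] at hne
    exact Lib.Comp.isComponent_ne_bot hL hne.symm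

/-- Let G be finite, H ≤ G with O(H) = 1, t an involution of G normalizing H, and Y a nontrivial subgroup of O(C_H(t)). Then some component E of H is normalized by t and by Y and centralized by neither t nor Y. -/
theorem result {G : Type*} [Group G] [Finite G] (H : Subgroup G) (hO : Cfsg.oddCore ↥H = ⊥) (t : G) (ht : orderOf t = 2) (htH : t ∈ Subgroup.normalizer (H : Set G)) (Y : Subgroup G) (hY1 : Y ≠ ⊥) (hY : Y ≤ (Cfsg.oddCore ↥(H ⊓ Subgroup.centralizer ({t} : Set G))).map (H ⊓ Subgroup.centralizer ({t} : Set G)).subtype) : ∃ E : Subgroup ↥H, Cfsg.IsComponent E ∧ (E.map H.subtype).map (MulAut.conj t).toMonoidHom = E.map H.subtype ∧ Y ≤ Subgroup.normalizer ((E.map H.subtype : Subgroup G) : Set G) ∧ ¬ (t ∈ Subgroup.centralizer ((E.map H.subtype : Subgroup G) : Set G)) ∧ ¬ (Y ≤ Subgroup.centralizer ((E.map H.subtype : Subgroup G) : Set G)) := by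
  have hXN : H ⊔ zpowers t ≤ normalizer (H : Set G) := sup_le le_normalizer (zpowers_le.2 htH)
  have hidx : H.relIndex (H ⊔ zpowers t) ∣ 2 := by
    rw [sup_comm, Lib.Core.relIndex_sup_of_le_normalizer (zpowers_le.2 htH), ← ht,
      ← Nat.card_zpowers]
    exact relIndex_dvd_card _ _
  have htX : t ∈ H ⊔ zpowers t := mem_sup_right (mem_zpowers t)
  have hHX : H ≤ H ⊔ zpowers t := le_sup_left
  set X := H ⊔ zpowers t
  have hYH : Y ≤ H := hY.trans ((map_subtype_le _).trans inf_le_left)
  have hOX : pPrimeCore 2 X = ⊥ := by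
    rw [← Lib.Core.pPrimeCoreOf_eq_bot_iff, eq_bot_iff,
      ← (Lib.Core.pPrimeCoreOf_eq_bot_iff (p := 2)).2 hO]
    exact Lib.Core.le_pPrimeCoreOf ((Lib.Core.SubnormalIn.of_le_normalizer hHX hXN).le_of_coprime
      (map_subtype_le _) ((Lib.Core.pPrimeCoreOf_coprime 2 X).coprime_dvd_right hidx))
      (hHX.trans (Lib.Core.le_normalizer_pPrimeCoreOf 2 X)) (Lib.Core.pPrimeCoreOf_coprime 2 X)
  obtain ⟨L, hL, h1, h2, h3, h4⟩ := aux hOX (t := ⟨t, htX⟩) (Y := Y.subgroupOf X)
    (by rw [← orderOf_coe]; exact ht)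
    (fun h => hY1 (by
      rw [subgroupOf_eq_bot] at h
      exact h.eq_bot_of_le (hYH.trans hHX)))
    (by
      refine le_trans (fun x hx => hY hx) (Lib.Core.le_pPrimeCoreOf (K := Subgroup.subgroupOf
        ((oddCore ↥(H ⊓ centralizer ({t} : Set G))).map
          (H ⊓ centralizer ({t} : Set G)).subtype) X) (fun x hx => ?_) (fun y hy => ?_)
        (Lib.Core.coprime_subgroupOf _ (Lib.Core.pPrimeCoreOf_coprime 2 _)))
      · exact mem_centralizer_singleton_iff.2 (Subtype.ext
          (mem_centralizer_singleton_iff.1 (map_subtype_le _ hx).2))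
      · have hy' : (y : G) ∈ centralizer ({t} : Set G) := mem_centralizer_singleton_iff.2
          (congrArg Subtype.val (mem_centralizer_singleton_iff.1 hy))
        have h5 : (y : G) ∈ normalizer ((H ⊓ centralizer ({t} : Set G) : Subgroup G) : Set G) :=
          Lib.Core.le_normalizer_inf (A := zpowers (y : G)) (zpowers_le.2 (hXN y.2))
            (zpowers_le.2 (le_normalizer hy')) (mem_zpowers _)
        rw [mem_normalizer_iff]
        exact fun x => mem_normalizer_iff.1
          (Lib.Core.normalizer_le_normalizer_pPrimeCoreOf 2 _ h5) x)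
  have hLH : L.map X.subtype ≤ H := by
    haveI : (H.subgroupOf X).Normal := normal_subgroupOf_of_le_normalizer hXN
    rcases Lib.Comp.isComponent_le_or_commutator_eq_bot_of_normal hL (H.subgroupOf X) with h | h
    · exact Lib.Core.map_subtype_le_iff.2 h
    · rw [commutator_comm, commutator_eq_bot_iff_le_centralizer] at h
      exact absurd (le_trans (fun x hx => hYH hx) h) h4
  have hN := Lib.Core.map_subtype_normalizer L
  have hC := Lib.Core.map_subtype_centralizer L
  have e : ((L.map X.subtype).subgroupOf H).map H.subtype = L.map X.subtype := by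
    rw [subgroupOf_map_subtype, inf_eq_left.2 hLH]
  refine ⟨(L.map X.subtype).subgroupOf H, Lib.Comp.isComponent_subgroupOf_of_le hLH hHX
    (by rwa [Lib.Core.subgroupOf_map_subtype_self]), ?_, ?_, ?_, ?_⟩
  · rw [e, Lib.Core.map_conj_eq_iff]
    exact (hN.le ⟨_, h1, rfl⟩).2
  · rw [e]
    exact fun y hy => (hN.le ⟨⟨y, hHX (hYH hy)⟩, h2 hy, rfl⟩).2
  · rw [e]
    intro h
    obtain ⟨y, hy, e⟩ := hC.ge ⟨htX, h⟩
    exact h3 (by rwa [show (⟨t, htX⟩ : X) = y from Subtype.ext e.symm])
  · rw [e]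
    intro h
    refine h4 fun x hx => ?_
    obtain ⟨y, hy, e⟩ := hC.ge ⟨x.2, h hx⟩
    rwa [show x = y from Subtype.ext e.symm]

end Cfsg.Agent.S1328
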