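import Cfsg.Statements.S1329
import Cfsg.Agent.Lib.Coprime.CocycGen
import Cfsg.Agent.Lib.Coprime.FT

set_option autoImplicit false
open Cfsg

namespace Cfsg.Agent.S1329

open Subgroup Cfsg.Lib

/-- Let A be an abelian 2-subgroup of the finite group G, B ≤ A, and Y a subgroup of odd order normalized by A with ⁅Y, A⁆ = Y. Then Y ∩ C_G(B) is generated by the subgroups Y ∩ C_G(B) ∩ ⁅Y ∩ C_G(B₀), A⁆, B₀ ranging over the subgroups of B with B / B₀ cyclic. -/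
theorem result {G : Type*} [Group G] [Finite G] (A B Y : Subgroup G) (hA2 : IsPGroup 2 ↥A) (hAc : IsMulCommutative ↥A) (hB : B ≤ A) (hYodd : Odd (Nat.card ↥Y)) (hAY : A ≤ Subgroup.normalizer (Y : Set G)) (hYA : ⁅Y, A⁆ = Y) : Y ⊓ Subgroup.centralizer (B : Set G) = ⨆ B₀ : {B₀ : Subgroup G // B₀ ≤ B ∧ ∀ [(B₀.subgroupOf B).Normal], IsCyclic (↥B ⧸ B₀.subgroupOf B)}, Y ⊓ Subgroup.centralizer (B : Set G) ⊓ ⁅Y ⊓ Subgroup.centralizer ((B₀ : Subgroup G) : Set G), A⁆ := by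
  have : Fact (Nat.Prime 2) := ⟨Nat.prime_two⟩
  refine le_antisymm (Coprime.inf_cent_le_of_cocyc hAc hB hAY
    (Coprime.isSolvable_of_not_two_dvd (Nat.two_dvd_ne_zero.2 (Nat.odd_iff.1 hYodd)))
    (Coprime.coprime_card_of_isPGroup hA2 (Nat.coprime_two_right.2 hYodd)).symm hYA
    fun B₀ h => ?_) (iSup_le fun _ => inf_le_left)
  refine le_iSup_of_le ⟨B₀, h.1, ?_⟩ le_rfl
  intro hn
  obtain ⟨b, hb, e⟩ := h.2
  refine ⟨QuotientGroup.mk ⟨b, hb⟩, fun q => ?_⟩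
  obtain ⟨⟨x, hx⟩, rfl⟩ := QuotientGroup.mk_surjective q
  have h1 : zpowers b ≤ normalizer (B₀ : Set G) := ((zpowers_le.2 (hB hb)).trans
    ((le_centralizer_iff_isMulCommutative.2 hAc).trans (centralizer_le (h.1.trans hB)))).trans
      (centralizer_le_normalizer _)
  obtain ⟨_, ⟨k, rfl⟩, y, hy, e2⟩ := (Coprime.mem_sup_right_of_le_normalizer h1).1
    (sup_comm B₀ _ ▸ e ▸ hx : x ∈ zpowers b ⊔ B₀)
  refine ⟨k, ?_⟩
  change (QuotientGroup.mk (⟨b, hb⟩ : B) : B ⧸ B₀.subgroupOf B) ^ k = _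
  rw [← QuotientGroup.mk_zpow, QuotientGroup.eq, mem_subgroupOf]
  simp [← e2, hy]

end Cfsg.Agent.S1329
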