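import Cfsg.Statements.S1330
import Cfsg.Agent.Lib.Coprime.CocycGen
import Cfsg.Agent.Lib.Coprime.FT
import Cfsg.Agent.Lib.Comp.Balance

set_option autoImplicit false
open Cfsg

namespace Cfsg.Agent.S1330

open Subgroup Cfsg.Lib
open scoped commutatorElement

local notation "OC(" S ")" => Subgroup.map (Subgroup.subtype (centralizer S))
  (pPrimeCore 2 (centralizer S))

variable {G : Type*} [Group G] [Finite G]

omit [Finite G] in
theorem comm_cent {W A K : Subgroup G} (h1 : W ≤ normalizer (K : Set G))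
    (h2 : K ≤ centralizer (A : Set G)) : ⁅W, A⁆ ≤ centralizer (K : Set G) := by
  rw [commutator_comm]
  exact (commutator_mono (le_centralizer_iff.1 h2) le_rfl).trans
    (Coprime.commutator_le_of_le_normalizer (Coprime.le_normalizer_centralizer h1))

theorem eq_bot_of (hO : pPrimeCore 2 G = ⊥) {a : G} (ha : orderOf a = 2) {X : Subgroup G}
    (hX : X ≤ centralizerPPrimeCore 2 a)
    (h : ∀ K : Subgroup G, IsComponent K → X ≤ centralizer (K : Set G)) : X = ⊥ := by
  refine Comp.eq_bot_of_centralizes_layer_pCore hO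
    (Core.coprime_of_le hX (Core.pPrimeCoreOf_coprime 2 _)) ?_
    (hX.trans (Comp.centralizerPPrimeCore_le_centralizer_pCore
      (Comp.isPGroup_zpowers_of_orderOf_eq ha)))
  rw [le_centralizer_iff]
  exact Comp.layer_le fun K hK => le_centralizer_iff.1 (h K hK)

theorem Q1 (hO : pPrimeCore 2 G = ⊥) {A₁ A₂ W : Subgroup G} {a₁ a₂ : G}
    (ha : orderOf (a₁ * a₂) = 2) (h2 : a₂ ∈ A₂) (hc : Commute a₁ a₂)
    (hW : W ≤ centralizerPPrimeCore 2 (a₁ * a₂)) (hn : A₁ ≤ normalizer (W : Set G))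
    (hs : ∀ K : Subgroup G, IsComponent K →
      K ≤ centralizer (A₁ : Set G) ∨ K ≤ centralizer (A₂ : Set G))
    (h : a₁ ∈ center G ∨ ∀ x ∈ A₁, x ∈ center G ∨ a₁⁻¹ * x ∈ center G) : ⁅W, A₁⁆ = ⊥ := by
  have h1 := Coprime.commutator_le_of_le_normalizer hn
  refine eq_bot_of hO ha (h1.trans hW) fun K hK => ?_
  have hWK := hW.trans (Comp.centralizerPPrimeCore_le_normalizer_component hO
    (Comp.isPGroup_zpowers_of_orderOf_eq ha) hK)
  rcases hs K hK with h3 | h3
  · exact comm_cent hWK h3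
  rcases h with h | h
  · refine (h1.trans hW).trans (le_centralizer_iff.1 (commutator_eq_bot_iff_le_centralizer.1
      (Comp.commutator_centralizerPPrimeCore_eq_bot hO ha hK fun e => Comp.isComponent_ne_bot hK ?_)))
    rw [← e, commutator_comm, commutator_eq_bot_iff_le_centralizer, zpowers_le]
    exact mul_mem (center_le_centralizer _ h) (le_centralizer_iff.1 h3 h2)
  · rw [commutator_le]
    intro w hw x hx
    rcases h x hx with h4 | h4
    · rw [commutatorElement_eq_one_iff_mul_comm.2 (mem_center_iff.1 h4 w)]; exact one_mem _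
    have h5 : w * (a₁ * a₂) = a₁ * a₂ * w :=
      mem_centralizer_singleton_iff.1 (Core.pPrimeCoreOf_le 2 _ (hW hw))
    have h6 := comm_cent hWK h3 (commutator_mem_commutator hw (inv_mem h2))
    have h7 := mem_center_iff.1 h4
    have h8 : Commute (a₁ * a₂) ⁅w, a₂⁻¹⁆ := by
      have h9 : Commute (a₁ * a₂) w := h5.symm
      have h10 : Commute (a₁ * a₂) a₂ := hc.mul_left (Commute.refl _)
      exact ((h9.mul_right h10.inv_right).mul_right h9.inv_right).mul_right h10.inv_right.inv_right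
    have : ⁅w, x⁆ = ⁅w, a₂⁻¹⁆ :=
      calc ⁅w, x⁆ = w * a₁ * (a₁⁻¹ * x) * w⁻¹ * (a₁⁻¹ * x)⁻¹ * a₁⁻¹ := by
            rw [commutatorElement_def]; group
        _ = w * (a₁ * a₂) * a₂⁻¹ * w⁻¹ * a₁⁻¹ := by rw [mul_assoc (w * a₁), ← h7]; group
        _ = a₁ * a₂ * ⁅w, a₂⁻¹⁆ * (a₁ * a₂)⁻¹ := by rw [h5, commutatorElement_def]; group
        _ = _ := by rw [h8.eq]; group
    rwa [this]

theorem Q2 (hO : pPrimeCore 2 G = ⊥) {A₁ A₂ X : Subgroup G} {a : G} (ha : orderOf a = 2)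
    (hX : X ≤ centralizerPPrimeCore 2 a) (p1 : IsPGroup 2 A₁) (p2 : IsPGroup 2 A₂)
    (h1 : X ≤ ⁅X, A₁⁆ ⊔ OC((A₁ : Set G))) (h2 : X ≤ ⁅X, A₂⁆ ⊔ OC((A₂ : Set G)))
    (hs : ∀ K : Subgroup G, IsComponent K →
      K ≤ centralizer (A₁ : Set G) ∨ K ≤ centralizer (A₂ : Set G)) : X = ⊥ := by
  refine eq_bot_of hO ha hX fun K hK => ?_
  have hXK := hX.trans (Comp.centralizerPPrimeCore_le_normalizer_component hO
    (Comp.isPGroup_zpowers_of_orderOf_eq ha) hK)
  have key : ∀ A : Subgroup G, IsPGroup 2 A → K ≤ centralizer (A : Set G) →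
      ⁅X, A⁆ ⊔ OC((A : Set G)) ≤ centralizer (K : Set G) := fun A hA h =>
    sup_le (comm_cent hXK h) (le_centralizer_iff.1 (commutator_eq_bot_iff_le_centralizer.1
      (Comp.commutator_eq_bot_of_normalizes_mod hO hK (Core.pPrimeCoreOf_coprime 2 _)
        (Comp.map_pPrimeCore_centralizer_le_normalizer_component hO hA hK) fun l hl =>
          ⟨1, one_mem _, by rw [mul_one]; exact Core.le_normalizer_pPrimeCoreOf 2 _ (h hl)⟩)))
  rcases hs K hK with h | h
  exacts [h1.trans (key _ p1 h), h2.trans (key _ p2 h)]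

/-- The image in `C / O(C)`. -/
abbrev bar (X C : Subgroup G) : Subgroup (C ⧸ pPrimeCore 2 C) :=
  (X.subgroupOf C).map (QuotientGroup.mk' (pPrimeCore 2 C))

theorem bar_OC {P X C : Subgroup G} (hP : IsPGroup 2 P) (hX : X ≤ OC((P : Set G))) (hC : P ≤ C) :
    bar X C ≤ OC((bar P C : Set (C ⧸ pPrimeCore 2 C))) := by
  have hP' : IsPGroup 2 (P.subgroupOf C) := hP.comap_subtype
  rw [Coprime.centralizer_map_of_surjective _ (QuotientGroup.mk'_surjective _)
    (Core.coprime_card_of_isPGroup hP' (by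
      rw [QuotientGroup.ker_mk']; exact Core.pPrimeCore_coprime 2 C))
    (Or.inl (Core.isSolvable_of_isPGroup hP'))]
  refine le_trans (map_mono ((comap_mono hX).trans ?_)) (Core.map_pPrimeCoreOf_le _ _)
  refine Core.le_pPrimeCoreOf (fun x hx y hy => Subtype.ext (Core.pPrimeCoreOf_le 2 _ hx y hy))
    (fun y hy => ?_) (Core.coprime_subgroupOf _ (Core.pPrimeCoreOf_coprime 2 _))
  have hy' : (y : G) ∈ centralizer (P : Set G) := fun z hz =>
    congrArg Subtype.val (hy ⟨z, hC hz⟩ hz)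
  rw [mem_normalizer_iff]
  exact fun x => mem_normalizer_iff.1 (Core.le_normalizer_pPrimeCoreOf 2 _ hy') x

theorem bar_core {X C : Subgroup G} {a : G} (ha : orderOf a = 2) (haC : a ∈ C)
    (hX : X ≤ centralizerPPrimeCore 2 a) :
    orderOf (QuotientGroup.mk' (pPrimeCore 2 C) ⟨a, haC⟩) = 2 ∧
    bar X C ≤ centralizerPPrimeCore 2 (QuotientGroup.mk' (pPrimeCore 2 C) ⟨a, haC⟩) := by
  have ha' : orderOf (⟨a, haC⟩ : C) = 2 := by rw [← ha, ← Subgroup.orderOf_coe]
  refine ⟨orderOf_eq_prime (by rw [← map_pow, ← ha', pow_orderOf_eq_one, map_one]) fun h => ?_,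
    (map_mono ((comap_mono hX).trans (Comp.centralizerPPrimeCore_subgroupOf_le haC))).trans
      (Comp.map_centralizerPPrimeCore_le (QuotientGroup.mk'_surjective _)
        (by rw [QuotientGroup.ker_mk']; exact Core.pPrimeCore_coprime 2 C)
        (Comp.isPGroup_zpowers_of_orderOf_eq ha'))⟩
  have h1 := orderOf_dvd_natCard _ ((QuotientGroup.eq_one_iff _).1 h)
  rw [ha'] at h1
  exact absurd ((Core.pPrimeCore_coprime 2 C).coprime_dvd_left h1) (by decide)

omit [Finite G] in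
theorem bar_comm {X Y C : Subgroup G} (hX : X ≤ C) (hY : Y ≤ C) :
    bar ⁅X, Y⁆ C = ⁅bar X C, bar Y C⁆ := by
  rw [← map_commutator]
  refine congrArg (Subgroup.map _) ?_
  apply map_injective C.subtype_injective
  rw [map_commutator, map_subgroupOf_eq_of_le hX, map_subgroupOf_eq_of_le hY,
    map_subgroupOf_eq_of_le ((commutator_le_sup _ _).trans (sup_le hX hY))]

omit [Finite G] in
theorem le_of_bar {X C : Subgroup G} (hX : X ≤ C) (h : bar X C = ⊥) :
    X ≤ (pPrimeCore 2 C).map C.subtype := by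
  rwa [Core.le_map_subtype_iff hX, ← Core.map_mk'_eq_bot_iff]

variable {A₁ A₂ : Subgroup G}

omit [Finite G] in
theorem sym (h : IsCoreSeparated A₁ A₂) : IsCoreSeparated A₂ A₁ := by
  obtain ⟨h1, h2, h3, h4, h5, h6, h7, h8⟩ := h
  exact ⟨h2, h1, h4, h3, h5.symm, inf_comm A₁ A₂ ▸ h6, fun x hx y hy => (h7 y hy x hx).symm,
    fun a ha a1 E hE => (h8 a (sup_comm A₂ A₁ ▸ ha) a1 E hE).symm⟩

omit [Finite G] in
theorem eab (h : IsCoreSeparated A₁ A₂) : IsElementaryAbelian 2 (A₁ ⊔ A₂) :=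
  PGroup.elemAb_sup h.1 h.2.1 fun x hx y hy => (h.2.2.2.2.2.2.1 x hx y hy).symm

omit [Finite G] in
theorem leC (h : IsCoreSeparated A₁ A₂) {b : G} (hb : b ∈ A₁ ⊔ A₂) :
    A₁ ⊔ A₂ ≤ centralizer ({b} : Set G) := fun _ hx =>
  mem_centralizer_singleton_iff.2 (PGroup.elemAb_comm (eab h) hx hb)

theorem sep (h : IsCoreSeparated A₁ A₂) {b : G} (hb : b ∈ A₁ ⊔ A₂) (b1 : b ≠ 1)
    (K : Subgroup (centralizer ({b} : Set G) ⧸ pPrimeCore 2 (centralizer ({b} : Set G))))
    (hK : IsComponent K) : K ≤ centralizer (bar A₁ (centralizer {b}) : Set _) ∨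
      K ≤ centralizer (bar A₂ (centralizer {b}) : Set _) := by
  obtain ⟨E, hE, rfl⟩ := Comp.exists_isPComponent_map_eq hK
  have key : ∀ A : Subgroup G, A ≤ centralizer ({b} : Set G) →
      ⁅E.map (centralizer ({b} : Set G)).subtype, A⁆ ≤ centralizerPPrimeCore 2 b →
      E.map (QuotientGroup.mk' (pPrimeCore 2 _)) ≤
        centralizer (bar A (centralizer {b}) : Set _) := fun A hA h1 => by
    rw [← commutator_eq_bot_iff_le_centralizer, ← map_commutator, Core.map_mk'_eq_bot_iff,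
      ← map_le_map_iff_of_injective (centralizer ({b} : Set G)).subtype_injective, map_commutator,
      map_subgroupOf_eq_of_le hA]
    exact h1
  exact (h.2.2.2.2.2.2.2 b hb b1 E hE).imp (key _ (le_sup_left.trans (leC h hb)))
    (key _ (le_sup_right.trans (leC h hb)))

theorem normY (h : IsCoreSeparated A₁ A₂) {a : G} (ha : a ∈ A₁ ⊔ A₂) :
    A₁ ⊔ A₂ ≤ normalizer (centralizerPPrimeCore 2 a : Set G) :=
  (leC h ha).trans (Core.le_normalizer_pPrimeCoreOf 2 _)

theorem K1 (h : IsCoreSeparated A₁ A₂) {a e : G} (ha : a ∈ A₁ ⊔ A₂) (a1 : a ≠ 1) (he : e ∈ A₁)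
    (e1 : e ≠ 1) : ⁅centralizerPPrimeCore 2 a ⊓ centralizer {e}, A₁⁆ ≤ centralizerPPrimeCore 2 e := by
  have he' : e ∈ A₁ ⊔ A₂ := mem_sup_left he
  have hC := leC h he'
  have h1 := le_sup_left.trans hC
  have h2 := le_sup_right.trans hC
  obtain ⟨a₁, ha₁, a₂, ha₂, rfl⟩ := (Coprime.mem_sup_left_of_le_normalizer ((le_sup_right.trans
    ((PGroup.elemAb_le_centralizer (eab h)).trans (centralizer_le (le_sup_left : A₁ ≤ A₁ ⊔ A₂)))).trans
      (centralizer_le_normalizer _))).1 ha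
  refine le_of_bar ((commutator_le_sup _ _).trans (sup_le inf_le_right h1)) ?_
  obtain ⟨h3, h4⟩ := bar_core (PGroup.elemAb_orderOf (eab h) ha a1) (hC ha)
    (inf_le_left : centralizerPPrimeCore 2 (a₁ * a₂) ⊓ centralizer {e} ≤ _)
  rw [bar_comm inf_le_right h1]
  have hz : ∀ (x : G) (hx : x ∈ A₁), x = 1 ∨ x = e →
      QuotientGroup.mk' (pPrimeCore 2 (centralizer ({e} : Set G))) ⟨x, h1 hx⟩ ∈ center _ := by
    intro x hx h5
    refine Comp.map_center_le_center_of_surjective (QuotientGroup.mk'_surjective _)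
      (mem_map_of_mem _ (mem_center_iff.2 fun y => Subtype.ext ?_))
    rcases h5 with rfl | rfl
    · simp
    · exact mem_centralizer_singleton_iff.1 y.2
  refine Q1 (Core.pPrimeCore_quotient_pPrimeCore 2 _) (A₂ := bar A₂ _)
    (a₁ := QuotientGroup.mk' _ ⟨a₁, h1 ha₁⟩) (a₂ := QuotientGroup.mk' _ ⟨a₂, h2 ha₂⟩) h3
    (mem_map_of_mem _ ha₂) (Commute.map (Subtype.ext (h.2.2.2.2.2.2.1 _ ha₁ _ ha₂)) _) h4
    ((map_mono fun x hx => ?_).trans (le_normalizer_map _)) (sep h he' e1) ?_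
  · have h5 : (x : G) ∈ normalizer ((centralizerPPrimeCore 2 (a₁ * a₂) ⊓ centralizer {e} :
        Subgroup G) : Set G) := Coprime.le_normalizer_inf (le_sup_left.trans (normY h ha))
          (h1.trans le_normalizer) hx
    rw [mem_normalizer_iff]
    exact fun y => mem_normalizer_iff.1 h5 y
  · by_cases h5 : a₁ = 1 ∨ a₁ = e
    · exact Or.inl (hz _ ha₁ h5)
    refine Or.inr ?_
    rintro _ ⟨⟨x, hxC⟩, hx, rfl⟩
    by_cases h6 : x = 1 ∨ x = e
    · exact Or.inl (hz _ hx h6)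
    refine Or.inr ?_
    rw [← map_inv, ← map_mul]
    refine hz _ (mul_mem (inv_mem ha₁) hx) ?_
    rw [not_or] at h5 h6
    by_cases h7 : x = a₁
    · left; simp [h7]
    right
    have hK := PGroup.isKleinFour_iff.2 ⟨h.1, h.2.2.1⟩
    have := congrArg Subtype.val (IsKleinFour.eq_mul_of_ne_all (x := (⟨a₁, ha₁⟩ : A₁))
      (y := ⟨e, he⟩) (z := ⟨x, hx⟩) (by simpa using h5.1) (by simpa using e1)
      (by simpa using h5.2) (fun h => h6.1 (congrArg Subtype.val h))
      (fun h => h7 (congrArg Subtype.val h)) (fun h => h6.2 (congrArg Subtype.val h)))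
    change x = a₁ * e at this
    change a₁⁻¹ * x = e
    rw [this, inv_mul_cancel_left]

theorem copY {A X : Subgroup G} {a : G} (hA : IsPGroup 2 A) (hX : X ≤ centralizerPPrimeCore 2 a) :
    (Nat.card A).Coprime (Nat.card X) :=
  Core.coprime_card_of_isPGroup hA (Core.coprime_of_le hX (Core.pPrimeCoreOf_coprime 2 _))

theorem K2 (h : IsCoreSeparated A₁ A₂) {a : G} (ha : a ∈ A₁ ⊔ A₂) (a1 : a ≠ 1) :
    ⁅centralizerPPrimeCore 2 a, A₁⁆ ⊓ centralizer (A₁ : Set G) ≤ OC((A₁ : Set G)) := by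
  have hn := le_sup_left.trans (normY h ha)
  have hle := Coprime.commutator_le_of_le_normalizer hn
  have p1 := PGroup.elemAb_isPGroup h.1
  refine Coprime.inf_cent_le_of_cocyc h.1.1 le_rfl (normalizer_commutator_ge_right _ _)
    (Coprime.isSolvable_of_not_two_dvd (Nat.prime_two.coprime_iff_not_dvd.1
      (Core.coprime_of_le hle (Core.pPrimeCoreOf_coprime 2 _)).symm)) (copY p1 hle)
    (Coprime.commutator_commutator_eq' hn (copY p1 le_rfl)) fun B₀ hB => ?_
  have h1 : B₀ ≠ ⊥ := by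
    rintro rfl
    obtain ⟨b, -, e⟩ := hB.2
    rw [bot_sup_eq] at e
    exact PGroup.elemAb_not_isCyclic h.1 (by rw [h.2.2.1]; rfl) (e ▸ inferInstance)
  obtain ⟨⟨e, he⟩, e1⟩ := ne_bot_iff_exists_ne_one.1 h1
  have e1 : e ≠ 1 := fun h => e1 (Subtype.ext h)
  refine le_trans (fun x hx => ?_) (Core.pPrimeCoreOf_inf_le (p := 2)
    (H := centralizer ({e} : Set G)) (centralizer_le (by simpa using hB.1 he)))
  exact ⟨K1 h ha a1 (hB.1 he) e1 (commutator_mono (inf_le_inf hle (centralizer_le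
    (by simpa using he))) le_rfl hx.2), hx.1.2⟩

/-- One factor of Goldschmidt's functor. -/
abbrev th (A : Subgroup G) (a : G) : Subgroup G :=
  ⁅centralizerPPrimeCore 2 a, A⁆ ⊔ (centralizerPPrimeCore 2 a ⊓ OC((A : Set G)))

theorem th_le (h : IsCoreSeparated A₁ A₂) {a : G} (ha : a ∈ A₁ ⊔ A₂) :
    th A₁ a ≤ centralizerPPrimeCore 2 a :=
  sup_le (Coprime.commutator_le_of_le_normalizer (le_sup_left.trans (normY h ha))) inf_le_left

theorem th_norm (h : IsCoreSeparated A₁ A₂) {a : G} (ha : a ∈ A₁ ⊔ A₂) :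
    A₁ ⊔ A₂ ≤ normalizer (th A₁ a : Set G) := by
  have h1 : A₁ ⊔ A₂ ≤ centralizer (A₁ : Set G) :=
    (PGroup.elemAb_le_centralizer (eab h)).trans (centralizer_le (le_sup_left : A₁ ≤ A₁ ⊔ A₂))
  exact Coprime.le_normalizer_sup (Coprime.le_normalizer_commutator (normY h ha)
    (h1.trans (centralizer_le_normalizer _))) (Coprime.le_normalizer_inf (normY h ha)
      (h1.trans (Core.le_normalizer_pPrimeCoreOf 2 _)))

theorem K3 (h : IsCoreSeparated A₁ A₂) {a : G} (ha : a ∈ A₁ ⊔ A₂) (a1 : a ≠ 1) {X : Subgroup G}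
    (hX : X ≤ th A₁ a) (hn : A₁ ≤ normalizer (X : Set G)) :
    X ≤ ⁅X, A₁⁆ ⊔ X ⊓ OC((A₁ : Set G)) := by
  have p1 := PGroup.elemAb_isPGroup h.1
  conv_lhs => rw [← Coprime.commutator_sup_centralizer hn (copY p1 (hX.trans (th_le h ha)))
    (Or.inl (Core.isSolvable_of_isPGroup p1))]
  refine sup_le_sup_left (le_inf inf_le_left fun x hx => ?_) _
  obtain ⟨y, hy, w, hw, rfl⟩ := (Coprime.mem_sup_left_of_le_normalizer (inf_le_left.trans
    (normalizer_commutator_ge_left _ _))).1 (hX hx.1)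
  refine mul_mem (K2 h ha a1 ⟨hy, ?_⟩) hw.2
  simpa using (centralizer (A₁ : Set G)).mul_mem hx.2 ((centralizer _).inv_mem
    (Core.pPrimeCoreOf_le 2 _ hw.2))

/-- Let A₁, A₂ be core-separated four-subgroups of the finite group G and A = A₁A₂. For a ∈ G put O_a = O(C_G(a)) and θ a = ⋂_{i=1,2} ( ⁅O_a, A_i⁆ · (O_a ∩ O(C_G(A_i))) ). Then θ is an A-signalizer functor for the prime 2. -/
theorem result {G : Type*} [Group G] [Finite G] (A₁ A₂ : Subgroup G) (hcs : Cfsg.IsCoreSeparated A₁ A₂) : Cfsg.IsSignalizerFunctor 2 (A₁ ⊔ A₂) (fun a => (⁅Cfsg.centralizerPPrimeCore 2 a, A₁⁆ ⊔ (Cfsg.centralizerPPrimeCore 2 a ⊓ ((Cfsg.oddCore ↥(Subgroup.centralizer ((A₁ : Subgroup G) : Set G))).map (Subgroup.centralizer ((A₁ : Subgroup G) : Set G)).subtype))) ⊓ (⁅Cfsg.centralizerPPrimeCore 2 a, A₂⁆ ⊔ (Cfsg.centralizerPPrimeCore 2 a ⊓ ((Cfsg.oddCore ↥(Subgroup.centralizer ((A₂ : Subgroup G) : Set G))).map (Subgroup.centralizer ((A₂ : Subgroup G) : Set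 G)).subtype)))) := by
  have hs := sym hcs
  have e : A₂ ⊔ A₁ = A₁ ⊔ A₂ := sup_comm _ _
  have hn : ∀ a ∈ A₁ ⊔ A₂, A₁ ⊔ A₂ ≤ normalizer ((th A₁ a ⊓ th A₂ a : Subgroup G) : Set G) :=
    fun a ha => Coprime.le_normalizer_inf (th_norm hcs ha) (e ▸ th_norm hs (e ▸ ha))
  refine ⟨fun a ha _ => (inf_le_left.trans (th_le hcs ha)).trans (map_subtype_le _),
    fun a ha _ => Nat.prime_two.coprime_iff_not_dvd.1 (Core.coprime_of_le
      (inf_le_left.trans (th_le hcs ha)) (Core.pPrimeCoreOf_coprime 2 _)).symm,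
    fun a ha _ b hb x hx => (mem_normalizer_iff.1 (hn a ha hb) x).1 hx, fun a ha a1 b hb b1 => ?_⟩
  change th A₁ a ⊓ th A₂ a ⊓ centralizer {b} ≤ th A₁ b ⊓ th A₂ b
  set X := th A₁ a ⊓ th A₂ a ⊓ centralizer {b}
  have hC := leC hcs hb
  have hXn : A₁ ⊔ A₂ ≤ normalizer (X : Set G) :=
    Coprime.le_normalizer_inf (hn a ha) (hC.trans le_normalizer)
  have h1 := K3 hcs ha a1 (X := X) (inf_le_left.trans inf_le_left) (le_sup_left.trans hXn)
  have h2 := K3 hs (e ▸ ha) a1 (X := X) (inf_le_left.trans inf_le_right) (le_sup_right.trans hXn)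
  have hXb : X ≤ centralizerPPrimeCore 2 b := by
    refine le_of_bar inf_le_right ?_
    obtain ⟨h3, h4⟩ := bar_core (PGroup.elemAb_orderOf (eab hcs) ha a1) (hC ha)
      ((inf_le_left.trans inf_le_left).trans (th_le hcs ha) : X ≤ _)
    have key : ∀ A : Subgroup G, IsPGroup 2 A → A ≤ centralizer ({b} : Set G) →
        X ≤ ⁅X, A⁆ ⊔ X ⊓ OC((A : Set G)) → bar X (centralizer {b}) ≤
          ⁅bar X (centralizer {b}), bar A (centralizer {b})⁆ ⊔
            OC((bar A (centralizer {b}) : Set (centralizer ({b} : Set G) ⧸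
              pPrimeCore 2 (centralizer ({b} : Set G))))) := fun A hA hAC h5 => by
      have h6 : ⁅X, A⁆ ≤ centralizer ({b} : Set G) :=
        (commutator_le_sup _ _).trans (sup_le inf_le_right hAC)
      refine (map_mono (comap_mono h5)).trans ?_
      rw [← bar_comm inf_le_right hAC, ← subgroupOf,
        subgroupOf_sup h6 (inf_le_left.trans inf_le_right), Subgroup.map_sup]
      exact sup_le_sup_left (bar_OC hA inf_le_right hAC) _
    have p1 := PGroup.elemAb_isPGroup hcs.1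
    have p2 := PGroup.elemAb_isPGroup hcs.2.1
    exact Q2 (Core.pPrimeCore_quotient_pPrimeCore 2 _) h3 h4 (p1.comap_subtype.map _)
      (p2.comap_subtype.map _) (key _ p1 (le_sup_left.trans hC) h1)
      (key _ p2 (le_sup_right.trans hC) h2) (sep hcs hb b1)
  exact le_inf (h1.trans (sup_le_sup (commutator_mono hXb le_rfl) (inf_le_inf_right _ hXb)))
    (h2.trans (sup_le_sup (commutator_mono hXb le_rfl) (inf_le_inf_right _ hXb)))

end Cfsg.Agent.S1330
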