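import Cfsg.Statements.S1335
import Cfsg.Agent.Lib.Transfer.SylowIn
import Cfsg.Agent.Lib.PGroup.Omega
import Cfsg.Agent.Lib.PGroup.Basic

set_option autoImplicit false
open Cfsg

namespace Cfsg.Agent.S1335

/-- Let H be a subgroup of the finite group G, p a prime, k ≥ 1, P a Sylow p-subgroup of H of p-rank at least k, and suppose N_G(X) ≤ H for every subgroup X ≤ P of p-rank at least k. Then P is a Sylow p-subgroup of G. -/
theorem result {G : Type*} [Group G] [Finite G] {p : ℕ} [Fact p.Prime] (k : ℕ) (hk : 1 ≤ k) (H : Subgroup G) (P : Sylow p ↥H) (hP : ¬ Cfsg.PRankLE p (k - 1) ↥(P : Subgroup ↥H)) (hΓ : (∀ X : Subgroup G, X ≤ (P : Subgroup ↥H).map H.subtype → ¬ Cfsg.PRankLE p (k - 1) ↥X → Subgroup.normalizer (X : Set G) ≤ H)) : ∃ Q : Sylow p G, (Q : Subgroup G) = (P : Subgroup ↥H).map H.subtype := by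
  set T := (P : Subgroup H).map H.subtype with hT
  obtain ⟨hTH, hTp, hTi⟩ := Lib.Transfer.exists_sylow_map_eq_iff.1 ⟨P, hT.symm⟩
  have hN : Subgroup.normalizer (T : Set G) ≤ H := hΓ T le_rfl (by
    rwa [hT, Lib.PGroup.pRankLE_map_iff_of_injective H.subtype_injective])
  obtain ⟨Q, hQ⟩ := hTp.exists_le_sylow
  refine ⟨Q, ?_⟩
  by_contra hne
  have hlt := Lib.PGroup.lt_inf_normalizer Q.isPGroup' (lt_of_le_of_ne hQ (Ne.symm hne))
  exact hlt.ne (Lib.Transfer.eq_of_not_dvd_relIndex_of_le hTi Q.isPGroup'.to_inf_left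
    (inf_le_right.trans hN) hlt.le)

end Cfsg.Agent.S1335
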