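import Cfsg.Statements.S1336
import Cfsg.Agent.Lib.Loc.StronglyEmbedded
import Cfsg.Agent.Lib.PGroup.Omega
import Cfsg.Agent.Lib.Sig.Graph

set_option autoImplicit false
open Cfsg

namespace Cfsg.Agent.S1336

open Subgroup Cfsg.Lib.Transfer

/-- Let G be finite and p prime. Then G has a proper subgroup H with p ∣ |H| and p ∤ |H ∩ gHg⁻¹| for every g ∉ H (a strongly p-embedded subgroup) if and only if G is not 1-connected for p. -/
theorem result {G : Type*} [Group G] [Finite G] (p : ℕ) [Fact p.Prime] : (∃ H : Subgroup G, H ≠ ⊤ ∧ p ∣ Nat.card ↥H ∧ ∀ g : G, g ∉ H → ¬ p ∣ Nat.card ↥(H ⊓ H.map (MulAut.conj g).toMonoidHom)) ↔ ¬ Cfsg.IsKConnected p 1 G := by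
  have hp : p.Prime := Fact.out
  constructor
  · rintro ⟨H, h1, h2, h3⟩ hcon
    have hH := Lib.Loc.spe_of_forall_dvd h1 h2 h3
    obtain ⟨x, hx⟩ := exists_prime_orderOf_dvd_card' p h2
    have hx' : orderOf (x : G) = p := by rw [orderOf_coe, hx]
    have hxp : (x : G) ^ p = 1 := hx' ▸ pow_orderOf_eq_one _
    obtain ⟨g, hg⟩ : ∃ g, g ∉ H := by
      by_contra h
      push Not at h
      exact h1 (eq_top_iff.2 fun g _ => h g)
    have hE := Lib.PGroup.elemAb_zpowers hxp
    have hc : Nat.card (zpowers (x : G)) = p := by rw [Nat.card_zpowers, hx']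
    have key : ∀ B, Relation.ReflTransGen (fun A B : Subgroup G => IsElementaryAbelian p A ∧
        p ^ 1 ≤ Nat.card A ∧ IsElementaryAbelian p B ∧ p ^ 1 ≤ Nat.card B ∧
          ∀ a ∈ A, ∀ b ∈ B, a * b = b * a) (zpowers (x : G)) B → B ≤ H := by
      intro B hB
      induction hB with
      | refl => exact zpowers_le.2 x.2
      | tail _ h ih =>
        refine le_trans (b := centralizer _) (fun b hb a ha => h.2.2.2.2 a ha b hb)
          (Lib.Loc.spe_centralizer_le' hH ih ?_)
        obtain ⟨k, hk⟩ := Lib.PGroup.elemAb_card h.1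
        have := h.2.1
        rw [hk] at this ⊢
        refine dvd_pow_self p ?_
        rintro rfl
        have := hp.two_le
        simp at *
        omega
    have := key _ (hcon _ (g ⋆ zpowers (x : G)) hE (by simp [hc]) (Lib.PGroup.elemAb_map _ hE)
      (by rw [Lib.Core.card_map_conj]; simp [hc]))
    exact hg (Lib.Loc.spe_mem_of_conj_le hH (zpowers_le.2 x.2) (by rw [hc]) this)
  · intro h
    unfold IsKConnected at h
    push Not at h
    obtain ⟨E, E', hE, cE, hE', cE', hn⟩ := h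
    set r := fun A B : Subgroup G => IsElementaryAbelian p A ∧
        p ^ 1 ≤ Nat.card A ∧ IsElementaryAbelian p B ∧ p ^ 1 ≤ Nat.card B ∧
          ∀ a ∈ A, ∀ b ∈ B, a * b = b * a with hr
    have hs : ∀ A B, r A B → r B A := fun A B h =>
      ⟨h.2.2.1, h.2.2.2.1, h.1, h.2.1, fun a ha b hb => (h.2.2.2.2 b hb a ha).symm⟩
    have hc : ∀ (g : G) A B, r A B → r (g ⋆ A) (g ⋆ B) := by
      intro g A B h
      refine ⟨Lib.PGroup.elemAb_map _ h.1, by rw [Lib.Core.card_map_conj]; exact h.2.1,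
        Lib.PGroup.elemAb_map _ h.2.2.1, by rw [Lib.Core.card_map_conj]; exact h.2.2.2.1, ?_⟩
      rintro _ ⟨a, ha, rfl⟩ _ ⟨b, hb, rfl⟩
      rw [← map_mul, ← map_mul, h.2.2.2.2 a ha b hb]
    have hbot : ∀ A : Subgroup G, p ^ 1 ≤ Nat.card A → A ≠ ⊥ := by
      rintro A hA rfl
      have := hp.two_le
      simp at hA
      omega
    have hconn : ∀ P : Subgroup G, IsPGroup p P → ∀ A B : Subgroup G, A ≤ P → B ≤ P →
        IsElementaryAbelian p A → p ^ 1 ≤ Nat.card A → IsElementaryAbelian p B →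
        p ^ 1 ≤ Nat.card B → Relation.ReflTransGen r A B := by
      intro P hP A B hA hB eA cA eB cB
      obtain ⟨z, hz, hzc, ho⟩ := Lib.PGroup.exists_mem_centralizer_orderOf_eq hP hP le_normalizer
        (fun h => hbot A cA (le_bot_iff.1 (h ▸ hA)))
      have eZ := Lib.PGroup.elemAb_zpowers (ho ▸ pow_orderOf_eq_one z : z ^ p = 1)
      have cZ : p ^ 1 ≤ Nat.card (zpowers z) := by rw [Nat.card_zpowers, ho]; simp
      have hZ : zpowers z ≤ centralizer (P : Set G) := zpowers_le.2 hzc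
      exact (Relation.ReflTransGen.single (show r A (zpowers z) from
        ⟨eA, cA, eZ, cZ, fun a ha b hb => hZ hb a (hA ha)⟩)).tail
          ⟨eZ, cZ, eB, cB, fun a ha b hb => (hZ ha b (hB hb)).symm⟩
    obtain ⟨P, hP⟩ := (Lib.PGroup.elemAb_isPGroup hE).exists_le_sylow
    refine ⟨Lib.Sig.compStab r hs hc E, Lib.Loc.spe_iff_dvd.1 (Lib.Loc.spe_of_sylow ?_ P
      (fun h => hbot E cE (le_bot_iff.1 (h ▸ hP))) ?_)⟩
    · intro htop
      obtain ⟨g, hg⟩ := exists_conj_le_sylow P (Lib.PGroup.elemAb_isPGroup hE')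
      have h1 := hconn P P.isPGroup' E (g ⋆ E') hP hg hE cE (Lib.PGroup.elemAb_map _ hE')
        (by rw [Lib.Core.card_map_conj]; exact cE')
      have h2 := Lib.Sig.rtg_conj hc g⁻¹ h1
      simp only [inv_conj_conj] at h2
      have h3 : g⁻¹ ∈ Lib.Sig.compStab r hs hc E := htop ▸ mem_top _
      exact hn (Relation.ReflTransGen.trans h3 h2)
    · intro A hA hA1 n hnA
      have hAp := P.isPGroup'.to_le hA
      set V := omegaOne p (A ⊓ centralizer (A : Set G))
      have eV : IsElementaryAbelian p V :=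
        Lib.PGroup.isElementaryAbelian_omegaOne (Lib.PGroup.isMulCommutative_inf_centralizer A)
      have hV1 : V ≠ ⊥ := Lib.PGroup.omegaOne_ne_bot hAp.to_inf_left
        (Lib.PGroup.inf_centralizer_ne_bot hAp hAp le_normalizer hA1)
      have cV : p ^ 1 ≤ Nat.card V := by
        obtain ⟨k, hk⟩ := Lib.PGroup.elemAb_card eV
        rw [hk]
        refine Nat.pow_le_pow_right hp.pos (Nat.pos_of_ne_zero ?_)
        rintro rfl
        exact hV1 (card_eq_one.1 (by simpa using hk))
      have hVn : n ⋆ V = V := Lib.Core.map_conj_eq_iff.2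
        (Lib.PGroup.normalizer_le_normalizer_omegaOne _ (Lib.Core.le_normalizer_inf le_rfl
          (Lib.Core.normalizer_le_normalizer_centralizer A) hnA))
      have h1 := hconn P P.isPGroup' E V hP
        ((Lib.PGroup.omegaOne_le _).trans (inf_le_left.trans hA)) hE cE eV cV
      have h2 := Lib.Sig.rtg_conj hc n h1
      simp only [hVn] at h2
      exact h1.trans (Lib.Sig.rtg_symm hs h2)

end Cfsg.Agent.S1336
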