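import Cfsg.Statements.S1337
import Cfsg.Agent.Lib.BG.Hall
import Cfsg.Agent.Lib.PGroup.Alperin
import Cfsg.Agent.Lib.PGroup.RankOne

set_option autoImplicit false
open Cfsg

namespace Cfsg.Agent.S1337

/-- Let P be a finite p-group of p-rank greater than 2. Then P has a normal elementary abelian subgroup U of order p², and for every elementary abelian X ≤ P with |X| ≥ p²: X is joined to U by a chain of pairwise commuting elementary abelian subgroups of order ≥ p² if and only if C_P(X) has p-rank greater than 2. -/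
theorem result {P : Type*} [Group P] [Finite P] (p : ℕ) [Fact p.Prime] (hP : IsPGroup p P) (hrk : ¬ Cfsg.PRankLE p 2 P) : ∃ U : Subgroup P, U.Normal ∧ Cfsg.IsElementaryAbelian p U ∧ Nat.card ↥U = p ^ 2 ∧ ∀ X : Subgroup P, Cfsg.IsElementaryAbelian p X → p ^ 2 ≤ Nat.card ↥X → (Relation.ReflTransGen (fun A B : Subgroup P => Cfsg.IsElementaryAbelian p A ∧ p ^ 2 ≤ Nat.card ↥A ∧ Cfsg.IsElementaryAbelian p B ∧ p ^ 2 ≤ Nat.card ↥B ∧ ∀ a ∈ A, ∀ b ∈ B, a * b = b * a) X U ↔ ¬ Cfsg.PRankLE p 2 ↥(Subgroup.centralizer (X : Set P))) := by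
  open Subgroup Cfsg.Lib Cfsg.Lib.BG Cfsg.Lib.Transfer in
  open Cfsg.Lib.PGroup in
  have hp1 := (Fact.out : p.Prime).one_lt
  obtain ⟨B, hB, hB3⟩ := not_pRankLE_iff.1 hrk
  obtain ⟨U, hUn, hU, hU2⟩ : ∃ U : Subgroup P, U.Normal ∧ IsElementaryAbelian p U ∧ Nat.card U = p ^ 2 := by
    by_contra! h
    rcases isCyclic_or_of_no_normal_rank_two hP h with h1 | ⟨rfl, a, b, m, -, ha, hc, -⟩
    · exact hrk (pRankLE_mono one_le_two pRankLE_one_of_isCyclic)
    · have h1 := (zpowers a).card_mul_index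
      rw [Nat.card_zpowers, ha, hc, pow_succ] at h1
      have h2 := Nat.eq_of_mul_eq_mul_left (by positivity) h1
      have h3 := card_inf_mul_relIndex (zpowers a) B
      have h4 := elemAb_card_le_of_isCyclic (elemAb_of_le hB (inf_le_right (a := zpowers a))) (isCyclic_of_le inf_le_left)
      have h5 : (zpowers a).relIndex B ≤ 2 := (relIndex_le_of_le_right le_top index_ne_zero_of_finite).trans_eq ((relIndex_top_right _).trans h2)
      have := Nat.mul_le_mul h4 h5
      omega
  have key : ∀ A : Subgroup P, Nat.card A = p ^ 3 → p ^ 2 ≤ Nat.card ↥(A ⊓ centralizer (U : Set P)) := fun A hA => by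
    have := card_le_mul_card_inf_centralizer_sq (hP.to_subgroup A) (by simp [normalizer_eq_top]) hU2
    rw [hA, pow_succ'] at this
    exact Nat.le_of_mul_le_mul_left this (by omega)
  refine ⟨U, hUn, hU, hU2, fun X hX hX2 => ⟨fun h hr => ?_, fun h => ?_⟩⟩
  · have h1 : ∀ Y : Subgroup P, IsElementaryAbelian p Y → p ^ 2 ≤ Nat.card Y → Y ≤ centralizer (X : Set P) → Y = X :=
      fun Y hY hY2 h => by
        have := pRankLE_subgroup_iff.1 hr _ (sup_le h (elemAb_le_centralizer hX)) (elemAb_sup hY hX h)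
        exact (eq_of_le_of_card_ge le_sup_left (this.trans hY2)).trans (eq_of_le_of_card_ge le_sup_right (this.trans hX2)).symm
    have h2 : U = X := by
      clear key hU2 hU hUn
      induction h with
      | refl => rfl
      | tail _ h ih => subst ih; exact h1 _ h.2.2.1 h.2.2.2.1 fun b hb a ha => h.2.2.2.2 a ha b hb
    subst h2
    have h3 := h1 _ (elemAb_of_le hB inf_le_left) (key B hB3) inf_le_right
    have := pRankLE_subgroup_iff.1 hr B (fun b hb a ha => elemAb_comm hB (h3.ge ha).1 hb) hB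
    exact this.not_gt (hB3 ▸ Nat.pow_lt_pow_right hp1 (by omega))
  · obtain ⟨A, hAX, hA, hA3⟩ := not_pRankLE_subgroup_iff.1 h
    have h1 := elemAb_of_le hA (inf_le_left (b := centralizer (U : Set P)))
    exact .tail (.single ⟨hX, hX2, h1, key A hA3, fun a ha b hb => hAX hb.1 a ha⟩)
      ⟨h1, key A hA3, hU, hU2.ge, fun a ha b hb => (ha.2 b hb).symm⟩

end Cfsg.Agent.S1337
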