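import Cfsg.Statements.S1338
import Cfsg.Agent.Lib.BG.Hall
import Cfsg.Agent.S1337

set_option autoImplicit false
open Cfsg

namespace Cfsg.Agent.S1338

section
open Subgroup Cfsg.Lib Cfsg.Lib.BG Cfsg.Lib.Transfer
open Cfsg.Lib.PGroup

theorem card_comap_le {A : Type*} [Group A] [Finite A] (f : A →* A) (H : Subgroup A) :
    Nat.card (H.comap f) ≤ Nat.card f.ker * Nat.card H := by
  rw [← card_inf_mul_relIndex f.ker, relIndex_ker]
  exact Nat.mul_le_mul (card_le_of_le inf_le_left) (card_le_of_le (map_comap_le f H))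

theorem cube {A : Type*} [CommGroup A] [Finite A] (hA : ∀ a : A, a ^ 3 = 1) (σ : A →* A)
    (h : ∀ a, σ (σ (σ a)) = a) : Nat.card A ≤ Nat.card (σ / MonoidHom.id A).ker ^ 3 := by
  set f := σ / MonoidHom.id A with hf
  have h1 : (f.ker.comap f).comap f = ⊤ := eq_top_iff.2 fun a _ => by
    have e1 := hA (σ a)
    have e2 := hA (σ (σ a))
    simp only [mem_comap, MonoidHom.mem_ker, hf, MonoidHom.div_apply, MonoidHom.id_apply, map_div, h]
    apply Additive.ofMul.injective
    have e1 := congrArg Additive.ofMul e1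
    have e2 := congrArg Additive.ofMul e2
    simp only [ofMul_div, ofMul_pow, ofMul_one] at e1 e2 ⊢
    linear_combination (norm := abel1) e1 - e2
  have h2 := card_comap_le f (f.ker.comap f)
  rw [h1, card_top] at h2
  calc _ ≤ _ := h2
    _ ≤ _ := Nat.mul_le_mul_left _ (card_comap_le f f.ker)
    _ = _ := by ring

end

/-- A finite 3-group of 3-rank at least 4 is 2-connected for the prime 3: its commuting graph on elementary abelian subgroups of order ≥ 9 is connected. -/
theorem result {P : Type*} [Group P] [Finite P] (hP : IsPGroup 3 P) (hrk : ¬ Cfsg.PRankLE 3 3 P) : Cfsg.IsKConnected 3 2 P := by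
  open Subgroup Cfsg.Lib Cfsg.Lib.BG Cfsg.Lib.Transfer in
  open Cfsg.Lib.PGroup in
  obtain ⟨U, -, -, -, hU⟩ := S1337.result 3 hP fun h => hrk (pRankLE_mono (by omega) h)
  obtain ⟨E, hE, hE4⟩ := not_pRankLE_iff.1 hrk
  obtain ⟨A, -, hAn, hA, hA4⟩ := exists_invariant_elemAb_four (by omega) (hP.to_subgroup ⊤) le_top hE hE4
  haveI : A.Normal := normalizer_eq_top_iff.1 (top_le_iff.1 hAn)
  have key : ∀ X : Subgroup P, IsElementaryAbelian 3 X → 3 ^ 2 ≤ Nat.card X → ¬ PRankLE 3 2 (centralizer (X : Set P)) := by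
    intro X hX hX2 hr
    have h0 := pRankLE_subgroup_iff.1 hr
    have h1 : A ⊓ centralizer (X : Set P) ≤ X := by
      have := h0 _ (sup_le inf_le_right (elemAb_le_centralizer hX)) (elemAb_sup (elemAb_of_le hA inf_le_left) hX inf_le_right)
      exact le_sup_left.trans (eq_of_le_of_card_ge le_sup_right (this.trans hX2)).ge
    obtain ⟨x, hx, hxA⟩ : ∃ x ∈ X, x ∉ A := by
      by_contra! h
      have := h0 A (fun a ha y hy => elemAb_comm hA (h y hy) ha) hA
      omega
    have h2 : A ⊓ centralizer (X : Set P) ≠ ⊥ := inf_centralizer_ne_bot (elemAb_isPGroup hA) (elemAb_isPGroup hX)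
      (by simp [normalizer_eq_top]) ((one_lt_card_iff_ne_bot _).1 (by omega))
    have h3 := card_sup_zpowers (p := 3) (M := A ⊓ centralizer (X : Set P)) (centralizer_le_normalizer _
      (le_centralizer_iff.1 inf_le_right hx)) (fun h => hxA h.1) (by rw [hX.2 x hx]; exact one_mem _)
    have h4 := card_le_of_le (sup_le h1 (zpowers_le.2 hx))
    have h5 := h0 X (elemAb_le_centralizer hX) hX
    have h6 := mul_card_le_of_lt (elemAb_isPGroup (elemAb_of_le hA (inf_le_left (b := centralizer (X : Set P))))) (bot_lt_iff_ne_bot.2 h2)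
    rw [card_bot] at h6
    have h7 := eq_of_le_of_card_ge (sup_le h1 (zpowers_le.2 hx)) (by omega)
    haveI := hA.1
    letI : CommGroup A := IsMulCommutative.instCommGroup
    have h8 := cube (A := A) (fun a => Subtype.ext (hA.2 a a.2)) (MulAut.conjNormal x).toMonoidHom fun a => Subtype.ext (by
      have : x * (x * (x * (a : P) * x⁻¹) * x⁻¹) * x⁻¹ = x ^ 3 * a * (x ^ 3)⁻¹ := by simp [pow_succ, mul_assoc]
      simpa [hX.2 x hx] using this)
    have h9 : ((MulAut.conjNormal x : MulAut A).toMonoidHom / MonoidHom.id A).ker ≤ (centralizer (X : Set P)).subgroupOf A := fun a ha => by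
      rw [mem_subgroupOf, ← h7]
      refine le_centralizer_iff.1 (sup_le (fun b hb c hc => ?_) (zpowers_le.2 fun c hc => ?_)) (mem_zpowers (a : P))
      · exact elemAb_comm hA (zpowers_le.2 a.2 hc) hb.1
      · have : x * a * x⁻¹ = a := congrArg Subtype.val (div_eq_one.1 ha)
        obtain ⟨i, rfl⟩ := hc
        exact (Commute.zpow_right (mul_inv_eq_iff_eq_mul.1 this) i).eq.symm
    have h10 := card_le_of_le h9
    rw [← inf_subgroupOf_left, Nat.card_congr (subgroupOfEquivOfLe inf_le_left).toEquiv] at h10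
    have := Nat.pow_le_pow_left (h10.trans (show _ ≤ 3 by omega)) 3
    omega
  intro X Y hX hX2 hY hY2
  refine ((hU X hX hX2).2 (key X hX hX2)).trans (Relation.ReflTransGen.mono ?_ _ _ ((hU Y hY hY2).2 (key Y hY hY2)).swap)
  exact fun A B h => ⟨h.2.2.1, h.2.2.2.1, h.1, h.2.1, fun a ha b hb => (h.2.2.2.2 b hb a ha).symm⟩

end Cfsg.Agent.S1338
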