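import Cfsg.Statements.S1343
import Cfsg.Agent.Lib.Comp.Extended

set_option autoImplicit false
open Cfsg

namespace Cfsg.Agent.S1343

open Subgroup

/-- Let X be finite. Then L*_{2'}(X) = L_{2'}(X) ⊔ F for some subgroup F of odd order normalized by a Sylow 2-subgroup of X. -/
theorem result {X : Type*} [Group X] [Finite X] : ∃ F : Subgroup X, Odd (Nat.card ↥F) ∧ (∃ S : Sylow 2 X, (S : Subgroup X) ≤ Subgroup.normalizer (F : Set X)) ∧ Cfsg.extendedTwoLayer X = Cfsg.pLayer 2 X ⊔ F := by
  obtain ⟨S⟩ : Nonempty (Sylow 2 X) := inferInstance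
  have hN := Lib.Core.pPrimePCore_normal 2 X
  set T := (S : Subgroup X) ⊓ (pLayer 2 X ⊔ pPrimePCore 2 X)
  refine ⟨(oddCore (centralizer (T : Set X))).map (centralizer (T : Set X)).subtype ⊔ oddCore X,
    ?_, ⟨S, ?_⟩, ?_⟩
  · exact Nat.coprime_two_right.1
      (Lib.Core.coprime_sup_pPrimeCore (Lib.Core.pPrimeCoreOf_coprime 2 _))
  · exact Lib.Core.le_normalizer_sup ((Lib.Core.le_normalizer_centralizer
      (Lib.Core.le_normalizer_inf le_normalizer le_normalizer_of_normal)).trans
        (Lib.Core.normalizer_le_normalizer_pPrimeCoreOf 2 _)) le_normalizer_of_normal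
  · rw [Lib.Comp.extendedTwoLayer_eq (T := T) inf_le_right S.isPGroup'.to_inf_left
      (by rw [inf_relIndex_right]; exact Lib.Transfer.sylow_not_dvd_relIndex_normal S _),
      sup_assoc, sup_comm (oddCore X)]

end Cfsg.Agent.S1343
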