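import Cfsg.Statements.S1345
import Cfsg.Agent.Lib.KS.CoreBal

set_option autoImplicit false
open Cfsg

namespace Cfsg.Agent.S1345

open Cfsg.Lib.BG Cfsg.Lib.KS

/-- Core balance: for a finite group X whose non-abelian composition factors are known simple groups and a 2-subgroup R ≤ X, O(C_X(R)) ≤ L*_{2'}(X). -/
theorem result {X : Type*} [Group X] [Finite X] (hK : Cfsg.IsCompositionKGroup X) (R : Subgroup X) (hR : IsPGroup 2 ↥R) : (Cfsg.oddCore ↥(Subgroup.centralizer (R : Set X))).map (Subgroup.centralizer (R : Set X)).subtype ≤ Cfsg.extendedTwoLayer X := by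
  rw [← pcore_p'_eq]
  exact core_le_extTwo hR

end Cfsg.Agent.S1345
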