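import Cfsg.Statements.S1346
import Cfsg.Agent.Lib.KS.CoreBal
import Cfsg.Agent.Lib.Comp.PumpTwo

set_option autoImplicit false
open Cfsg

namespace Cfsg.Agent.S1346

open Subgroup Cfsg.Lib.BG Cfsg.Lib.KS Cfsg.Lib.Comp

/-- Let G be a finite group all of whose 2-local subgroups have known non-abelian composition factors, and x, y commuting involutions. Then the extended 2-layer of L*_{2'}(C_G(x)) ∩ C_G(y) (as a group) is contained in L*_{2'}(C_G(y)). -/
theorem result {G : Type*} [Group G] [Finite G] (hK : ∀ T : Subgroup G, IsPGroup 2 ↥T → T ≠ ⊥ → Cfsg.IsCompositionKGroup ↥(Subgroup.normalizer (T : Set G))) (x y : G) (hx : orderOf x = 2) (hy : orderOf y = 2) (hxy : x * y = y * x) : (Cfsg.extendedTwoLayer ↥((Cfsg.extendedTwoLayer ↥(Subgroup.centralizer ({x} : Set G))).map (Subgroup.centralizer ({x} : Set G)).subtype ⊓ Subgroup.centralizer ({y} : Set G))).map ((Cfsg.extendedTwoLayer ↥(Subgroup.centralizer ({x} : Set G))).map (Subgroup.centralizer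 ({x} : Set G)).subtype ⊓ Subgroup.centralizer ({y} : Set G)).subtype ≤ (Cfsg.extendedTwoLayer ↥(Subgroup.centralizer ({y} : Set G))).map (Subgroup.centralizer ({y} : Set G)).subtype := by
  set A := (extendedTwoLayer 𝐂[x]).map 𝐂[x].subtype ⊓ 𝐂[y]
  have hxy' : x ∈ 𝐂[y] := mem_cent1.2 hxy
  have hA : Nml A (𝐂[y] ⊓ 𝐂[x]) := by
    have := (Nml.of_normal 𝐂[x] (extendedTwoLayer 𝐂[x])).inf_right
      (inf_le_right : 𝐂[y] ⊓ 𝐂[x] ≤ 𝐂[x])
    rwa [← inf_assoc, inf_eq_left.2 (inf_le_left.trans (map_subtype_le _))] at this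
  have key : ∀ R : Subgroup G, IsPGroup 2 R → R ≤ 𝐂[y] →
      𝐎({2}ᶜ, 𝐂[y] ⊓ 𝐂(R)) ≤ (extendedTwoLayer 𝐂[y]).map 𝐂[y].subtype := fun R hR h =>
    core_inf_le (f := fun X _ => extendedTwoLayer X) (core_le_extTwo hR.comap_subtype) h
  obtain ⟨T, hT⟩ := Syl.exists 2 (pLayer 2 A ⊔ pPrimePCore 2 A)
  rw [extendedTwoLayer_eq hT.le hT.pgroup hT.not_dvd', Subgroup.map_sup, Subgroup.map_sup]
  refine sup_le (sup_le ?_ ?_) ?_
  · refine ((sn_pLayer_le (sn_of_nml hA)).trans (l_bal_inv hx hxy')).trans (map_mono ?_)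
    exact le_sup_left.trans le_sup_left
  · rw [← pcore_p'_eq]
    refine (hA.pcore_le _).trans ?_
    rw [← cent_zpowers x]
    exact key _ (pgroup_inv hx) (zpowers_le.2 hxy')
  · have hTA : T.map A.subtype ≤ A := map_subtype_le _
    have h1 := key (T.map A.subtype ⊔ zpowers x) (pgroup_sup (hT.pgroup.map _) (pgroup_inv hx)
      (norm_of_cent (cent_symm ((hTA.trans (hA.le.trans inf_le_right)).trans
        (cent_zpowers x).ge)))) (sup_le (hTA.trans inf_le_right) (zpowers_le.2 hxy'))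
    refine le_trans ?_ h1
    rw [← pcore_p'_eq, map_pcore_of_injective A.subtype_injective, cent_sup, cent_zpowers,
      inf_comm 𝐂(T.map A.subtype), ← inf_assoc]
    have h2 : 𝐂(T).map A.subtype = A ⊓ 𝐂(T.map A.subtype) := by
      conv_lhs => rw [← comap_map_eq_self_of_injective A.subtype_injective T]
      exact (congrArg _ (subOf_cent hTA)).trans (subgroupOf_map_subtype _ _ |>.trans (inf_comm _ _))
    rw [h2]
    have h3 := hA.inf_right (inf_le_left : (𝐂[y] ⊓ 𝐂[x]) ⊓ 𝐂(T.map A.subtype) ≤ _)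
    rw [← inf_assoc, inf_eq_left.2 hA.le] at h3
    exact h3.pcore_le _

end Cfsg.Agent.S1346
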