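import Cfsg.Statements.S1348
import Cfsg.Agent.Lib.Comp.GenFitting
import Cfsg.Agent.Lib.Linear.Simple

set_option autoImplicit false
open Cfsg

namespace Cfsg.Agent.S1348

open Matrix Cfsg.Lib Subgroup
open scoped commutatorElement

set_option linter.unusedSectionVars false

theorem std {G : Type*} [Group G] [Finite G] (t : G) (ht : orderOf t = 2) (L : Subgroup G)
    (hq : IsQuasisimple L) (hLC : L ≤ centralizer ({t} : Set G))
    (hcomm : ⁅centralizer ({t} : Set G), centralizer ({t} : Set G)⁆ ≤ L)
    (hK : ∀ x ∈ centralizer (L : Set G), ∀ y ∈ centralizer (L : Set G), x * y = y * x)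
    (hu : ∀ x ∈ centralizer (L : Set G), orderOf x = 2 → x = t) :
    IsStandardSubgroup ((layer (centralizer ({t} : Set G))).map
      (centralizer ({t} : Set G)).subtype) := by
  set C := centralizer ({t} : Set G) with hC
  have hn : C ≤ normalizer (L : Set G) := by
    intro c hc
    have key : ∀ c ∈ C, ∀ l ∈ L, c * l * c⁻¹ ∈ L := fun c hc l hl => by
      have := L.mul_mem (hcomm (commutator_mem_commutator hc (hLC hl))) hl
      simpa [commutatorElement_def] using this
    refine mem_normalizer_iff.2 fun l => ⟨key c hc l, fun h => ?_⟩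
    simpa [mul_assoc] using key c⁻¹ (C.inv_mem hc) _ h
  have hE : (layer C).map C.subtype = L := by
    apply le_antisymm
    · rw [← Comp.commutator_layer_self, map_commutator]
      exact (commutator_mono (map_subtype_le _) (map_subtype_le _)).trans hcomm
    · have h1 : IsComponent (L.subgroupOf C) :=
        ⟨Comp.isSubnormal_subgroupOf_of_le_normalizer hn,
          (Comp.isQuasisimple_subgroupOf_iff hLC).2 hq⟩
      have := map_mono (f := C.subtype) (Comp.le_layer h1)
      rwa [subgroupOf_map_subtype, inf_eq_left.2 hLC] at this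
  rw [hE]
  have htK : t ∈ centralizer (L : Set G) := fun l hl =>
    mem_centralizer_singleton_iff.1 (hLC hl)
  have hNK : normalizer (L : Set G) ≤ normalizer (centralizer (L : Set G) : Set G) :=
    fun g hg => by
      have key : ∀ g ∈ normalizer (L : Set G), ∀ x ∈ centralizer (L : Set G),
          g * x * g⁻¹ ∈ centralizer (L : Set G) := fun g hg x hx l hl => by
        have := hx _ ((mem_normalizer_iff.1 (inv_mem hg) l).1 hl)
        calc l * (g * x * g⁻¹) = g * (g⁻¹ * l * g⁻¹⁻¹ * x) * g⁻¹ := by group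
          _ = g * x * g⁻¹ * l := by rw [this]; group
      refine mem_normalizer_iff.2 fun l => ⟨key g hg l, fun h => ?_⟩
      simpa [mul_assoc] using key g⁻¹ (inv_mem hg) _ h
  have orderOf_conj_eq : ∀ g x : G, orderOf (g * x * g⁻¹) = orderOf x := fun g x =>
    (MulAut.conj g).orderOf_eq x
  have hKC : ∀ g : G, g * t * g⁻¹ ∈ centralizer (L : Set G) → g ∈ C := fun g hg => by
    have := hu _ hg (by rw [← ht]; exact orderOf_conj_eq g t)
    rw [mem_centralizer_singleton_iff]
    exact mul_inv_eq_iff_eq_mul.1 this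
  refine ⟨hq, ⟨?_, fun g hg => ?_⟩, fun g _ h => ?_, le_antisymm hNK fun g hg => ?_⟩
  · rw [even_iff_two_dvd, ← ht]
    exact orderOf_dvd_natCard _ htK
  · rw [← Nat.not_even_iff_odd, even_iff_two_dvd]
    intro h2
    have : Fact (Nat.Prime 2) := ⟨Nat.prime_two⟩
    obtain ⟨x, hx⟩ := exists_prime_orderOf_dvd_card' 2 h2
    rw [← Subgroup.orderOf_coe] at hx
    obtain ⟨x, hx1, y, hy, rfl⟩ := x
    have h1 := hu _ hx1 hx
    have h3 : y = t := hu y hy (by
      rw [← hx]; exact (orderOf_conj_eq g y).symm)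
    subst h3
    exact hg (hNK (hn (hKC g hx1)))
  · have h1 : L.map (MulAut.conj g).toMonoidHom ≤ centralizer (L : Set G) := by
      rw [commutator_comm] at h
      exact commutator_eq_bot_iff_le_centralizer.1 h
    have h2 := (Comp.isQuasisimple_map_conj_iff g).2 hq
    exact Comp.qs_not_le_centralizer h2 fun x hx y hy => hK y (h1 hy) x (h1 hx)
  · exact hn (hKC g ((mem_normalizer_iff.1 hg t).1 htK))

section
variable {F : Type*} [Field F] [Fintype F] [DecidableEq F] {k : ℕ}
  {H : Type*} [Group H] [Finite H] (φ : H →* Matrix (Fin k ⊕ Unit) (Fin k ⊕ Unit) F)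

theorem core (h2 : (2 : F) ≠ 0) (hk : 3 ≤ k) (hev : Even k) (hφ : Function.Injective φ)
    (hdet : ∀ c, (φ c).det = 1) (hsur : ∀ M : Matrix (Fin k ⊕ Unit) (Fin k ⊕ Unit) F,
      M.det = 1 → ∃ c, φ c = M) (t : H) (ht : φ t = fromBlocks (-1) 0 0 1) :
    IsStandardSubgroup ((layer (centralizer ({t} : Set H))).map
      (centralizer ({t} : Set H)).subtype) := by
  have : Nontrivial (Fin k) := Fin.nontrivial_iff_two_le.2 (by omega)
  have hex : ∀ A : SpecialLinearGroup (Fin k) F, ∃ c, φ c = fromBlocks (A : Matrix _ _ F) 0 0 1 :=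
    fun A => hsur _ (by rw [det_fromBlocks_zero₂₁, A.2, det_one, one_mul])
  choose f hf using hex
  let ψ : SpecialLinearGroup (Fin k) F →* H := MonoidHom.mk' f fun A B => hφ (by
    rw [map_mul, hf, hf, hf, fromBlocks_multiply]; simp)
  have hψ : ∀ A, φ (ψ A) = fromBlocks (A : Matrix _ _ F) 0 0 1 := hf
  have hψi : Function.Injective ψ := fun A B h => by
    have := congrArg φ h
    rw [hψ, hψ, fromBlocks_inj] at this
    exact Subtype.ext this.1
  have hne : (-1 : F) ≠ 1 := fun h => h2 (by linear_combination -h)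
  have ht2 : orderOf t = 2 := by
    have : Fact (Nat.Prime 2) := ⟨Nat.prime_two⟩
    apply orderOf_eq_prime
    · apply hφ
      rw [pow_two, map_mul, ht, fromBlocks_multiply, map_one]
      simp
    · intro h
      rw [h, map_one] at ht
      have := congrFun (congrFun ht (Sum.inl ⟨0, by omega⟩)) (Sum.inl ⟨0, by omega⟩)
      simp at this
      exact hne this.symm
  have hblk : ∀ c ∈ centralizer ({t} : Set H), ∃ P S, φ c = fromBlocks P 0 0 S := by
    intro c hc
    have h1 := congrArg φ (mem_centralizer_singleton_iff.1 hc)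
    rw [map_mul, map_mul, ht, ← fromBlocks_toBlocks (φ c), fromBlocks_multiply,
      fromBlocks_multiply, fromBlocks_inj] at h1
    obtain ⟨-, h3, h4, -⟩ := h1
    simp only [Matrix.mul_zero, Matrix.mul_one, zero_add, Matrix.neg_mul, Matrix.one_mul,
      Matrix.zero_mul, add_zero, Matrix.mul_neg] at h3 h4
    have h5 : (φ c).toBlocks₁₂ = 0 := by
      ext a b
      have := congrFun (congrFun h3 a) b
      rw [Matrix.neg_apply] at this
      exact (mul_eq_zero.1 (by linear_combination this : 2 * (φ c).toBlocks₁₂ a b = 0)).resolve_left h2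
    have h6 : (φ c).toBlocks₂₁ = 0 := by
      ext a b
      have := congrFun (congrFun h4 a) b
      rw [Matrix.neg_apply] at this
      exact (mul_eq_zero.1 (by linear_combination -this : 2 * (φ c).toBlocks₂₁ a b = 0)).resolve_left h2
    exact ⟨(φ c).toBlocks₁₁, (φ c).toBlocks₂₂, by rw [← h5, ← h6, fromBlocks_toBlocks]⟩
  have hdiag : ∀ x ∈ centralizer (ψ.range : Set H), ∃ l m : F,
      φ x = diagonal (Sum.elim (fun _ => l) (fun _ => m)) := by
    intro x hx
    have cm : ∀ a b : Fin k, a ≠ b → φ x * single (Sum.inl a) (Sum.inl b) (1 : F) =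
        single (Sum.inl a) (Sum.inl b) (1 : F) * φ x := by
      intro a b hab
      let s : SpecialLinearGroup (Fin k) F := ⟨transvection a b 1, det_transvection_of_ne a b hab 1⟩
      have h1 := congrArg φ (hx (ψ s) ⟨s, rfl⟩)
      have hs : φ (ψ s) = 1 + single (Sum.inl a) (Sum.inl b) (1 : F) := by
        rw [hψ]
        ext (c | c) (d | d) <;> simp [s, transvection, single_apply, one_apply]
      simp only [map_mul, hs, mul_add, add_mul, mul_one, one_mul] at h1
      exact (add_left_cancel h1).symm
    have e1 : ∀ a c, c ≠ Sum.inl a → φ x c (Sum.inl a) = 0 := by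
      intro a c hc
      obtain ⟨b, hb⟩ := exists_ne a
      have := congrFun (congrFun (cm a b hb.symm) c) (Sum.inl b)
      rwa [mul_single_apply_same, single_mul_apply_of_ne _ _ _ _ _ hc, mul_one] at this
    have e2 : ∀ b d, d ≠ Sum.inl b → φ x (Sum.inl b) d = 0 := by
      intro b d hd
      obtain ⟨a, ha⟩ := exists_ne b
      have := congrFun (congrFun (cm a b ha) (Sum.inl a)) d
      rw [mul_single_apply_of_ne _ _ _ _ _ hd, single_mul_apply_same, one_mul] at this
      exact this.symm
    have e3 : ∀ a b, φ x (Sum.inl a) (Sum.inl a) = φ x (Sum.inl b) (Sum.inl b) := by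
      intro a b
      by_cases hab : a = b
      · rw [hab]
      have := congrFun (congrFun (cm a b hab) (Sum.inl a)) (Sum.inl b)
      rwa [mul_single_apply_same, single_mul_apply_same, one_mul, mul_one] at this
    refine ⟨φ x (Sum.inl ⟨0, by omega⟩) (Sum.inl ⟨0, by omega⟩),
      φ x (Sum.inr ()) (Sum.inr ()), ?_⟩
    ext (c | c) (d | d)
    · by_cases h : c = d
      · rw [h, diagonal_apply_eq]; exact e3 _ _
      · rw [diagonal_apply_ne _ (by simpa using h)]; exact e1 _ _ (by simpa using h)
    · rw [diagonal_apply_ne _ (by simp)]; exact e2 _ _ (by simp)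
    · rw [diagonal_apply_ne _ (by simp)]; exact e1 _ _ (by simp)
    · rw [diagonal_apply_eq]; rfl
  refine std t ht2 ψ.range ?_ ?_ ?_ ?_ ?_
  · have h3 : 3 ≤ Fintype.card (Fin k) ∨ ∃ x : F, x ≠ 0 ∧ x ^ 2 ≠ 1 := Or.inl (by simpa using hk)
    exact Comp.isQuasisimple_of_mulEquiv
      ⟨⟨Linear.commutator_SL_eq_top h3⟩, Linear.isSimpleGroup_PSL h3⟩ (MonoidHom.ofInjective hψi)
  · rintro _ ⟨A, rfl⟩
    rw [mem_centralizer_singleton_iff]
    apply hφ
    rw [map_mul, map_mul, ht, hψ, fromBlocks_multiply, fromBlocks_multiply]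
    simp
  · rw [commutator_le]
    intro a ha b hb
    obtain ⟨P, S, h1⟩ := hblk a ha
    obtain ⟨Q, T, h3⟩ := hblk b hb
    obtain ⟨R, U, h4⟩ := hblk ⁅a, b⁆ (by
        rw [commutatorElement_def]
        exact mul_mem (mul_mem (mul_mem ha hb) (inv_mem ha)) (inv_mem hb))
    have h5 : φ ⁅a, b⁆ * (φ b * φ a) = φ a * φ b := by
      rw [← map_mul, ← map_mul, ← map_mul]; congr 1; rw [commutatorElement_def]; group
    rw [h1, h3, h4, fromBlocks_multiply, fromBlocks_multiply, fromBlocks_multiply,
      fromBlocks_inj] at h5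
    have h6 := congrFun (congrFun h5.2.2.2 ()) ()
    simp [mul_apply] at h6
    have hS : S () () ≠ 0 := fun h => by
      have := hdet a
      rw [h1, det_fromBlocks_zero₂₁, det_unique S] at this
      simp [h] at this
    have hT : T () () ≠ 0 := fun h => by
      have := hdet b
      rw [h3, det_fromBlocks_zero₂₁, det_unique T] at this
      simp [h] at this
    have hU : U = 1 := by
      ext c d
      rw [one_apply_eq]
      have : U () () * (T () () * S () ()) = 1 * (T () () * S () ()) := by
        linear_combination h6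
      exact mul_right_cancel₀ (mul_ne_zero hT hS) this
    have hR : R.det = 1 := by
      have := hdet ⁅a, b⁆
      rwa [h4, hU, det_fromBlocks_zero₂₁, det_one, mul_one] at this
    exact ⟨⟨R, hR⟩, hφ ((hψ _).trans (by rw [h4, hU]))⟩
  · intro x hx y hy
    obtain ⟨l, m, h1⟩ := hdiag x hx
    obtain ⟨l', m', h3⟩ := hdiag y hy
    apply hφ
    rw [map_mul, map_mul, h1, h3, diagonal_mul_diagonal, diagonal_mul_diagonal]
    simp only [mul_comm]
  · intro x hx ho
    obtain ⟨l, m, h1⟩ := hdiag x hx
    have h3 : φ x * φ x = 1 := by rw [← map_mul, ← pow_two, ← ho, pow_orderOf_eq_one, map_one]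
    rw [h1, diagonal_mul_diagonal] at h3
    have hl := congrFun (congrFun h3 (Sum.inl ⟨0, by omega⟩)) (Sum.inl ⟨0, by omega⟩)
    simp at hl
    have hd := hdet x
    rw [h1, det_diagonal] at hd
    simp at hd
    obtain ⟨r, hr⟩ := hev
    have hlk : l ^ k = 1 := by rw [hr, pow_add, ← mul_pow, hl, one_pow]
    rw [hlk, one_mul] at hd
    rcases mul_self_eq_one_iff.1 hl with h | h
    · exfalso
      have : x = 1 := hφ (by
        rw [h1, map_one, h, hd, ← diagonal_one]; congr 1; ext (c | c) <;> rfl)
      rw [this, orderOf_one] at ho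
      omega
    · apply hφ
      rw [h1, ht, h, hd]
      ext (c | c) (d | d) <;> simp [diagonal_apply, one_apply]
      split_ifs <;> simp

end

/-- Let F be a finite field of odd order, n ≥ 7 odd, and t ∈ SL(n, F) the diagonal matrix with entries −1, …, −1, 1. Then E(C(t)) is a standard subgroup of SL(n, F). -/
theorem result {F : Type*} [Field F] [Fintype F] [DecidableEq F] (hF : Odd (Fintype.card F)) (n : ℕ) (hn : 7 ≤ n) (hodd : Odd n) (t : Matrix.SpecialLinearGroup (Fin n) F) (ht : (t : Matrix (Fin n) (Fin n) F) = Matrix.diagonal (fun i : Fin n => if (i : ℕ) + 1 = n then (1 : F) else -1)) : Cfsg.IsStandardSubgroup ((Cfsg.layer ↥(Subgroup.centralizer ({t} : Set (Matrix.SpecialLinearGroup (Fin n) F)))).map (Subgroup.centralizer ({t} : Set (Matrix.SpecialLinearGroup (Fin n) F))).subtype) := by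
  obtain ⟨k, rfl⟩ : ∃ k, n = k + 1 := ⟨n - 1, by omega⟩
  let e : Fin k ⊕ Unit ≃ Fin (k + 1) :=
    (Equiv.sumCongr (Equiv.refl _) (Equiv.equivPUnit.{1, 1} (Fin 1)).symm).trans finSumFinEquiv
  have h2 : (2 : F) ≠ 0 := by
    apply Ring.two_ne_zero
    intro h
    have := FiniteField.even_card_of_char_two h
    rw [Nat.odd_iff] at hF
    omega
  refine core (((reindexAlgEquiv F F e.symm).toMonoidHom).comp SpecialLinearGroup.coeMonoidHom) h2
    (by omega) ?_ ((reindexAlgEquiv F F e.symm).injective.comp
      SpecialLinearGroup.coeMonoidHom_injective) (fun c => ?_) (fun M hM => ?_) t ?_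
  · rcases Nat.even_or_odd k with h | h
    · exact h
    · exact absurd hodd (Nat.not_odd_iff_even.2 h.add_one)
  · change (reindex e.symm e.symm c.1).det = 1
    rw [det_reindex_self, c.2]
  · refine ⟨⟨reindex e e M, by rw [det_reindex_self, hM]⟩, ?_⟩
    change reindex e.symm e.symm (reindex e e M) = M
    simp
  · change reindex e.symm e.symm t.1 = _
    rw [ht]
    have he1 : ∀ c, (e (Sum.inl c) : ℕ) = c := fun c => rfl
    have he2 : ∀ c, (e (Sum.inr c) : ℕ) = k := fun c => rfl
    ext (c | c) (d | d) <;> simp [diagonal_apply, one_apply, he1, he2]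
    have := c.2
    split_ifs <;> first | omega | simp_all

end Cfsg.Agent.S1348
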