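import Cfsg.Statements.S1351
import Cfsg.Agent.Lib.BG.T16_2
-- import your own Cfsg.Agent.* helpers here

set_option autoImplicit false
open Cfsg

namespace Cfsg.Agent.S1351

open Cfsg.Lib.BG Subgroup
open scoped Cfsg.Lib.Transfer

/-- Let G be a minimal simple group of odd order and M a maximal subgroup. Then M possesses a Hall κ(M)-subgroup, and every Hall κ(M)-subgroup of M is cyclic. -/
theorem result {G : Type*} [Group G] [Finite G] (hG : Cfsg.IsMinSimpleOddOrder G)
    (M : Subgroup G) (hM : IsCoatom M) :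
    (∃ K : Subgroup G, Cfsg.IsPiHallOf (Cfsg.kappa M) K M) ∧
      ∀ K : Subgroup G, Cfsg.IsPiHallOf (Cfsg.kappa M) K M → IsCyclic K := by
  haveI : MinOdd G := ⟨hG⟩
  exact ⟨Hall.exists (kappa M) (mmax_sol hM), fun K hK => kappa_Hall_cyclic hM hK⟩

end Cfsg.Agent.S1351
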