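import Cfsg.Statements.S1352
import Cfsg.Agent.Lib.BG.T16_2
-- import your own Cfsg.Agent.* helpers here

set_option autoImplicit false
open Cfsg

namespace Cfsg.Agent.S1352

open Cfsg.Lib.BG Subgroup
open scoped Cfsg.Lib.Transfer

/-- Let G be a minimal simple group of odd order, M a maximal subgroup and K a cyclic Hall κ(M)-subgroup of M. Then there is a subgroup U of M, normalized by K, with U ∩ K M_σ = 1 and M = U K M_σ; moreover U M_σ is normal in M for any such U. -/
theorem result {G : Type*} [Group G] [Finite G] (hG : Cfsg.IsMinSimpleOddOrder G)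
    (M : Subgroup G) (hM : IsCoatom M) (K : Subgroup G)
    (hKc : IsCyclic K) (hK : Cfsg.IsPiHallOf (Cfsg.kappa M) K M) :
    (∃ U : Subgroup G, Cfsg.IsSigmaDecomposition M K U) ∧
      ∀ U : Subgroup G, Cfsg.IsSigmaDecomposition M K U → M ≤ Subgroup.normalizer ((U ⊔ Cfsg.sigmaCore M : Subgroup G) : Set G) := by
  haveI : MinOdd G := ⟨hG⟩
  refine ⟨?_, fun U h => ?_⟩
  · obtain ⟨U, h⟩ := ex_kappa_compl hM hK
    obtain ⟨h1, h2, h3⟩ := h.sd hM
    obtain ⟨-, h4, h5, -⟩ := kappa_compl_context hM h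
    refine ⟨U, hKc, hK, ⟨h.hallU.le, sup_le h.hallK.le (Msigma_le M), ?_, fun m hm => ?_⟩, h.norm⟩
    · refine h.hallU.pi.inf_eq_bot ?_
      rw [compl_compl]
      exact (h.hallK.pi.mono Set.subset_union_right).sup' ((Msigma_pi M).mono Set.subset_union_left)
        (norm_Msigma h.hallK.le)
    · obtain ⟨y, hy, s, hs, rfl⟩ := h4.mem' hm
      obtain ⟨u, hu, k, hk, rfl⟩ := h5.mem hy
      exact ⟨u, hu, k * s, mul_mem_sup hk hs, mul_assoc _ _ _⟩
  · rw [sup_comm]
    exact (S14.kappaCompl_sd hM (S14.kappaCompl_of_decomp hM h)).1.nml.norm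

end Cfsg.Agent.S1352
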