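import Cfsg.Statements.S1355
import Cfsg.Agent.Lib.BG.T16_2
-- import your own Cfsg.Agent.* helpers here

set_option autoImplicit false
open Cfsg

namespace Cfsg.Agent.S1355

open Cfsg.Lib.BG Subgroup
open scoped Cfsg.Lib.Transfer

/-- Let G be a minimal simple group of odd order and M a maximal subgroup. Then the largest normal nilpotent Hall subgroup M_F of M is nontrivial and contained in M_σ, M_σ is contained in the derived subgroup M', M' is proper in M, and the image of M' in M/M_F is nilpotent. -/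
theorem result {G : Type*} [Group G] [Finite G] (hG : Cfsg.IsMinSimpleOddOrder G)
    (M : Subgroup G) (hM : IsCoatom M) :
    Cfsg.fittingHallOf M ≠ ⊥ ∧ Cfsg.fittingHallOf M ≤ Cfsg.sigmaCore M ∧ Cfsg.sigmaCore M ≤ ⁅M, M⁆ ∧ ⁅M, M⁆ < M ∧
      Group.IsNilpotent ↥((commutator ↥M).map (QuotientGroup.mk' (Cfsg.fittingHall ↥M))) := by
  haveI : MinOdd G := ⟨hG⟩
  obtain ⟨-, -, ⟨hF, hnil⟩, -⟩ := Fitting_structure hM
  refine ⟨Fcore_ne_bot hM, Fcore_sub_Msigma hM, Msigma_der1 hM, S14.der_lt hM, ?_⟩
  obtain ⟨V, hV, -⟩ := ((Fcore_Hall M).of_le hF (der_le M)).exists_compl (norm_Fcore (der_le M))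
  have hVM : V ≤ M := hV.right_le.trans (der_le M)
  haveI := hnil V hV.right_le (by rw [inf_comm, hV.inf])
  have e : (commutator M).map (QuotientGroup.mk' (fittingHall M)) =
      ((QuotientGroup.mk' (fittingHall M)).comp (inclusion hVM)).range := by
    refine le_antisymm ?_ ?_
    · rintro _ ⟨x, hx, rfl⟩
      have hx' : (x : G) ∈ ⁅M, M⁆ := by
        rw [← map_subtype_commutator]; exact mem_map_of_mem _ hx
      obtain ⟨v, hv, k, hk, e⟩ := hV.mem' hx'
      refine ⟨⟨v, hv⟩, QuotientGroup.eq.2 ?_⟩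
      rw [← Fcore_subgroupOf, mem_subgroupOf]
      convert hk using 1
      simp [← e]
    · rintro _ ⟨v, rfl⟩
      refine mem_map_of_mem _ ?_
      have := hV.right_le v.2
      rw [← map_subtype_commutator] at this
      obtain ⟨y, hy, e⟩ := this
      exact (Subtype.ext e : y = inclusion hVM v) ▸ hy
  rw [e]
  exact Group.nilpotent_of_surjective _ (MonoidHom.rangeRestrict_surjective _)

end Cfsg.Agent.S1355
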