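import Cfsg.Statements.S1358
import Cfsg.Agent.Lib.BG.T16_2
-- import your own Cfsg.Agent.* helpers here

set_option autoImplicit false
open Cfsg

namespace Cfsg.Agent.S1358

open Cfsg.Lib.BG Subgroup
open scoped Cfsg.Lib.Transfer

/-- Let G be a minimal simple group of odd order and M a maximal subgroup with standard factorisation M = K U M_σ. Then for every prime p, every Sylow p-subgroup of U is abelian and has no elementary abelian subgroup of order p ^ 3. -/
theorem result {G : Type*} [Group G] [Finite G] (hG : Cfsg.IsMinSimpleOddOrder G)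
    (M : Subgroup G) (hM : IsCoatom M) (K U : Subgroup G) (hKU : Cfsg.IsSigmaDecomposition M K U) :
    ∀ (p : ℕ), p.Prime → ∀ P : Sylow p U, IsMulCommutative (P : Subgroup U) ∧ Cfsg.PRankLE p 2 (P : Subgroup U) := by
  haveI : MinOdd G := ⟨hG⟩
  intro p hp P
  haveI := Fact.mk hp
  have h := S14.kappaCompl_of_decomp hM hKU
  have hP := Syl.of_sylow P
  obtain ⟨h1, h2⟩ := sigma'_pgroup_facts hM hP.pgroup (hP.le.trans h.hallU.le) (h.sigma'.of_le hP.le)
  rw [rk_map_of_injective U.subtype_injective, rk_le_iff] at h2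
  refine ⟨abelian_iff.2 (le_cent_iff.2 fun a ha b hb => Subtype.ext ?_), h2⟩
  exact le_cent_iff.1 (abelian_cent h1) a (mem_map_of_mem _ ha) b (mem_map_of_mem _ hb)

end Cfsg.Agent.S1358
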