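import Cfsg.Statements.S1359
import Cfsg.Agent.Lib.BG.T16_2
-- import your own Cfsg.Agent.* helpers here

set_option autoImplicit false
open Cfsg

namespace Cfsg.Agent.S1359

open Cfsg.Lib.BG Subgroup
open scoped Cfsg.Lib.Transfer

/-- Let G be a minimal simple group of odd order and M a maximal subgroup with standard factorisation M = K U M_σ. Then the subgroup generated by those elements of U which centralize some non-identity element of M_σ is abelian. -/
theorem result {G : Type*} [Group G] [Finite G] (hG : Cfsg.IsMinSimpleOddOrder G)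
    (M : Subgroup G) (hM : IsCoatom M) (K U : Subgroup G) (hKU : Cfsg.IsSigmaDecomposition M K U) :
    IsMulCommutative (Subgroup.closure ((U : Set G) ∩ Cfsg.sigmaHat M)) := by
  haveI : MinOdd G := ⟨hG⟩
  obtain ⟨-, -, -, ⟨A, -, hab, hc⟩, -⟩ := kappa_structure hM (S14.kappaCompl_of_decomp hM hKU)
  refine abelian_of_le hab ((closure_le _).2 ?_)
  rintro a ⟨ha, -, y, hy, hy1, e⟩
  exact hc y hy hy1 ⟨ha, mem_cent1.2 e⟩

end Cfsg.Agent.S1359
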