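import Cfsg.Statements.S1360
import Cfsg.Agent.Lib.BG.T16_2
-- import your own Cfsg.Agent.* helpers here

set_option autoImplicit false
open Cfsg

namespace Cfsg.Agent.S1360

open Cfsg.Lib.BG Subgroup
open scoped Cfsg.Lib.Transfer

/-- Let G be a minimal simple group of odd order and M a maximal subgroup with standard factorisation M = K U M_σ. Then U contains a subgroup U₀ with the same exponent as U such that no non-identity element of U₀ centralizes a non-identity element of M_σ. -/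
theorem result {G : Type*} [Group G] [Finite G] (hG : Cfsg.IsMinSimpleOddOrder G)
    (M : Subgroup G) (hM : IsCoatom M) (K U : Subgroup G) (hKU : Cfsg.IsSigmaDecomposition M K U) :
    ∃ U₀ : Subgroup G, U₀ ≤ U ∧ Monoid.exponent U₀ = Monoid.exponent U ∧ ∀ u ∈ U₀, u ∈ Cfsg.sigmaHat M → u = 1 := by
  haveI : MinOdd G := ⟨hG⟩
  obtain ⟨-, -, -, -, U₀, h₀, he, hreg⟩ := kappa_structure hM (S14.kappaCompl_of_decomp hM hKU)
  refine ⟨U₀, h₀, he, fun u hu ⟨_, y, hy, hy1, e⟩ => by_contra fun h1 => hy1 ?_⟩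
  exact mem_bot.1 (hreg u hu h1 ▸ (⟨hy, mem_cent1.2 e.symm⟩ : y ∈ sigmaCore M ⊓ 𝐂[u]))

end Cfsg.Agent.S1360
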