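import Cfsg.Statements.S1362
import Cfsg.Agent.Lib.BG.T16_2
-- import your own Cfsg.Agent.* helpers here

set_option autoImplicit false
open Cfsg

namespace Cfsg.Agent.S1362

open Cfsg.Lib.BG Subgroup
open scoped Cfsg.Lib.Transfer

/-- Let G be a minimal simple group of odd order and M a maximal subgroup with standard factorisation M = K U M_σ, and let A(M) be the set of elements of U M_σ centralizing some non-identity element of M_σ. Then A(M) with M_σ removed is a TI-subset of G. -/
theorem result {G : Type*} [Group G] [Finite G] (hG : Cfsg.IsMinSimpleOddOrder G)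
    (M : Subgroup G) (hM : IsCoatom M) (K U : Subgroup G) (hKU : Cfsg.IsSigmaDecomposition M K U) :
    Cfsg.IsTISubset (Cfsg.sigmaA M U \ (Cfsg.sigmaCore M : Set G)) := by
  haveI : MinOdd G := ⟨hG⟩
  have e : sigmaA M U \ (sigmaCore M : Set G) = hatA M \ (sigmaCore M : Set G) := by
    ext a
    rw [Set.mem_sdiff, (S14.kappaCompl_of_decomp hM hKU).mem_sigmaA_iff hM]
    exact ⟨fun h => ⟨⟨h.1.1, fun e => h.2 (e ▸ one_mem _), h.1.2⟩, h.2⟩, fun h => ⟨⟨h.1.1, h.1.2.2⟩, h.2⟩⟩
  rw [e]
  exact isTISubset_of_conj_iff fun a ha g => hatA_diff_conj_iff hM ha g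

end Cfsg.Agent.S1362
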