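import Cfsg.Statements.S1365
import Cfsg.Agent.Lib.BG.T16_2
-- import your own Cfsg.Agent.* helpers here

set_option autoImplicit false
open Cfsg

namespace Cfsg.Agent.S1365

open Cfsg.Lib.BG Subgroup
open scoped Cfsg.Lib.Transfer

/-- Let G be a minimal simple group of odd order and M a maximal subgroup with standard factorisation M = K U M_σ and K ≠ 1. Then the derived subgroup of M is generated by U and M_σ, and M_σ ∩ C_G(K) is contained in the second derived subgroup of M. -/
theorem result {G : Type*} [Group G] [Finite G] (hG : Cfsg.IsMinSimpleOddOrder G)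
    (M : Subgroup G) (hM : IsCoatom M) (K U : Subgroup G) (hKU : Cfsg.IsSigmaDecomposition M K U) (hK1 : K ≠ ⊥) :
    ⁅M, M⁆ = U ⊔ Cfsg.sigmaCore M ∧ (Cfsg.sigmaCore M ⊓ Subgroup.centralizer (K : Set G)) ≤ ⁅⁅M, M⁆, ⁅M, M⁆⁆ := by
  haveI : MinOdd G := ⟨hG⟩
  exact ⟨by rw [sup_comm, ((kappa_structure hM (S14.kappaCompl_of_decomp hM hKU)).2.1 hK1).1],
    (Ptype_cyclics ((nontriv_kappa hM hKU.hall).1 hK1) hKU.hall).2.2.1⟩

end Cfsg.Agent.S1365
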