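import Cfsg.Statements.S1366
import Cfsg.Agent.Lib.BG.T14_7

set_option autoImplicit false
open Cfsg

namespace Cfsg.Agent.S1366

/-- Let G be a minimal simple group of odd order, M a maximal subgroup with standard factorisation M = K U M_σ, K ≠ 1, and K* = M_σ ∩ C_G(K). Then there is exactly one maximal subgroup M* of G such that K = M*_σ ∩ C_G(K*) and K* is a Hall κ(M*)-subgroup of M* (in particular κ(M*) is nonempty). -/
theorem result {G : Type*} [Group G] [Finite G] (hG : Cfsg.IsMinSimpleOddOrder G)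
    (M : Subgroup G) (hM : IsCoatom M) (K U : Subgroup G) (hKU : Cfsg.IsSigmaDecomposition M K U) (hK1 : K ≠ ⊥) :
    ∃! Mstar : Subgroup G, IsCoatom Mstar ∧ K = Cfsg.sigmaCore Mstar ⊓ Subgroup.centralizer ((Cfsg.sigmaCore M ⊓ Subgroup.centralizer (K : Set G)) : Set G) ∧
        Cfsg.IsPiHallOf (Cfsg.kappa Mstar) (Cfsg.sigmaCore M ⊓ Subgroup.centralizer (K : Set G)) Mstar := by
  haveI : Cfsg.Lib.BG.MinOdd G := ⟨hG⟩
  obtain ⟨Ms, h⟩ := Cfsg.Lib.BG.S14.exists_dual ((Cfsg.Lib.BG.nontriv_kappa hM hKU.hall).1 hK1) hKU.hall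
  exact ⟨Ms, ⟨h.Ps.1, h.eqs.symm, h.halls⟩, fun L hL =>
    h.unique (Cfsg.Lib.BG.S14.dual_of_decomp hM hKU hK1 hL.1 hL.2.1 hL.2.2)⟩

end Cfsg.Agent.S1366
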