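import Cfsg.Statements.S1370
import Cfsg.Agent.Lib.BG.T14_7

set_option autoImplicit false
open Cfsg

namespace Cfsg.Agent.S1370

/-- Let G be a minimal simple group of odd order, M a maximal subgroup with standard factorisation M = K U M_σ, K ≠ 1, K* = M_σ ∩ C_G(K) and Z the subgroup generated by K and K*. Then the set of elements of Z lying in neither K nor K* is a TI-subset of G, and its set-normalizer in G is exactly Z. -/
theorem result {G : Type*} [Group G] [Finite G] (hG : Cfsg.IsMinSimpleOddOrder G)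
    (M : Subgroup G) (hM : IsCoatom M) (K U : Subgroup G) (hKU : Cfsg.IsSigmaDecomposition M K U) (hK1 : K ≠ ⊥) :
    Cfsg.IsTISubset ((↑(K ⊔ (Cfsg.sigmaCore M ⊓ Subgroup.centralizer (K : Set G))) : Set G) \ ((K : Set G) ∪ ↑(Cfsg.sigmaCore M ⊓ Subgroup.centralizer (K : Set G)))) ∧ Subgroup.normalizer ((↑(K ⊔ (Cfsg.sigmaCore M ⊓ Subgroup.centralizer (K : Set G))) : Set G) \ ((K : Set G) ∪ ↑(Cfsg.sigmaCore M ⊓ Subgroup.centralizer (K : Set G)))) = K ⊔ (Cfsg.sigmaCore M ⊓ Subgroup.centralizer (K : Set G)) := by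
  haveI : Cfsg.Lib.BG.MinOdd G := ⟨hG⟩
  obtain ⟨Ms, h⟩ := Cfsg.Lib.BG.S14.exists_dual ((Cfsg.Lib.BG.nontriv_kappa hM hKU.hall).1 hK1) hKU.hall
  obtain ⟨⟨a, ha⟩, h1⟩ := h.normedTI
  have e : Subgroup.normalizer (Cfsg.Lib.BG.zhat K (Cfsg.sigmaCore M ⊓ Subgroup.centralizer (K : Set G))) =
      K ⊔ (Cfsg.sigmaCore M ⊓ Subgroup.centralizer (K : Set G)) := by
    ext g
    refine ⟨fun hg => (h1 a ha g).1 ((Subgroup.mem_set_normalizer_iff.1 hg a).1 ha), fun hg =>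
      Subgroup.mem_set_normalizer_iff.2 fun b => ⟨fun hb => (h1 b hb g).2 hg, fun hb => ?_⟩⟩
    simpa [mul_assoc] using (h1 _ hb g⁻¹).2 (inv_mem hg)
  exact ⟨fun g hg x hx hx' => absurd (e.symm ▸ (h1 x hx g).1 hx') hg, e⟩

end Cfsg.Agent.S1370
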