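import Cfsg.Statements.S1372
import Cfsg.Agent.Lib.BG.T16_2
-- import your own Cfsg.Agent.* helpers here

set_option autoImplicit false
open Cfsg

namespace Cfsg.Agent.S1372

open Cfsg.Lib.BG Subgroup
open scoped Cfsg.Lib.Transfer

/-- Let G be a minimal simple group of odd order and M a maximal subgroup with standard factorisation M = K U M_σ, K ≠ 1 and U ≠ 1. Then K has prime order, and the Fitting subgroup F(M) contains M_σ and is a TI-subset of G. -/
theorem result {G : Type*} [Group G] [Finite G] (hG : Cfsg.IsMinSimpleOddOrder G)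
    (M : Subgroup G) (hM : IsCoatom M) (K U : Subgroup G) (hKU : Cfsg.IsSigmaDecomposition M K U) (hK1 : K ≠ ⊥) (hU1 : U ≠ ⊥) :
    (Nat.card K).Prime ∧ Cfsg.IsTISubset (Cfsg.fittingOf M : Set G) ∧ Cfsg.sigmaCore M ≤ Cfsg.fittingOf M := by
  haveI : MinOdd G := ⟨hG⟩
  have h2 := (typeP2_iff hM (S14.kappaCompl_of_decomp hM hKU)).2 ⟨hK1, hU1⟩
  exact ⟨(Ptype_structure_g h2 hKU.hall).2.1, (isTISubset_iff_normedTI (norm_Fitting_eq hM)
    (mmax_Fitting_ne_bot hM)).2 (Fitting_TI_of_P2 h2),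
    Fcore_eq_of_notP1 (Or.inr h2) ▸ Fcore_sub_Fitting M⟩

end Cfsg.Agent.S1372
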