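import Cfsg.Statements.S1374
import Cfsg.Agent.Lib.BG.T14_4

set_option autoImplicit false
open Cfsg

namespace Cfsg.Agent.S1374

open Cfsg.Lib.BG Cfsg.Lib.BG.S14 in
theorem aux {G : Type*} [Group G] [Finite G] [MinOdd G] {M : Subgroup G} {x : G} (hM : SigMax x M) (hx1 : x ≠ 1) :
    SD (sigR x) (M ⊓ 𝐂[x]) 𝐂[x] := by
  by_cases h : SigMany x
  · have := (FT_signalizer_context_mmax hx1 h hM).1
    rwa [inf_assoc, inf_eq_right.2 (sigBase_spec hx1 h).1.le] at this
  · rw [sigR_bot h, inf_eq_right.2 (not_not.1 (mt (sigMany_iff hx1 hM).2 h))]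
    exact ⟨(Nml.bot _).norm, by simp, by simp⟩

/-- Let G be a minimal simple group of odd order, M a maximal subgroup and x a non-identity element of M_σ. Then C_M(x) has order coprime to its index in C_G(x), and C_G(x) has a normal subgroup R complementing C_M(x) such that for every conjugate gMg⁻¹ containing x there is exactly one r ∈ R with rMr⁻¹ = gMg⁻¹. -/
theorem result {G : Type*} [Group G] [Finite G] (hG : Cfsg.IsMinSimpleOddOrder G)
    (M : Subgroup G) (hM : IsCoatom M) (x : G) (hx : x ∈ Cfsg.sigmaCore M) (hx1 : x ≠ 1) :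
    (Nat.card ↥(M ⊓ Subgroup.centralizer ({x} : Set G))).Coprime ((M ⊓ Subgroup.centralizer ({x} : Set G)).relIndex (Subgroup.centralizer ({x} : Set G))) ∧
      ∃ R : Subgroup G, Subgroup.centralizer ({x} : Set G) ≤ Subgroup.normalizer (R : Set G) ∧ Cfsg.IsComplIn (M ⊓ Subgroup.centralizer ({x} : Set G)) R (Subgroup.centralizer ({x} : Set G)) ∧
        ∀ g : G, x ∈ M.map (MulAut.conj g).toMonoidHom → ∃! r : G, r ∈ R ∧ M.map (MulAut.conj r).toMonoidHom = M.map (MulAut.conj g).toMonoidHom := by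
  haveI : Cfsg.Lib.BG.MinOdd G := ⟨hG⟩
  have hs : Cfsg.Lib.BG.SigMax x M := ⟨hM, hx⟩
  have h := aux hs hx1
  obtain ⟨h1, h2, h3⟩ := Cfsg.Lib.BG.FT_signalizer_trans ⟨hx1, M, hs⟩
  refine ⟨?_, _, h2.norm, h.isComplIn', fun g hg => ?_⟩
  · rw [h.relIndex_right, ← h.relIndex_left]; exact h3.symm
  · simpa only [eq_comm] using h1 M _ hs (Cfsg.Lib.BG.S14.sigMax_of_cj hs (Cfsg.Lib.BG.Cj.conj M g) hg)

end Cfsg.Agent.S1374
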