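import Cfsg.Statements.S1375
import Cfsg.Agent.Lib.BG.T14_4

set_option autoImplicit false
open Cfsg

namespace Cfsg.Agent.S1375

/-- Let G be a minimal simple group of odd order, M a maximal subgroup, x ≠ 1 in M_σ with C_G(x) not contained in M. Then exactly one maximal subgroup N contains C_G(x); for it N_σ = N_F, C_{N_σ}(x) is a normal subgroup of C_G(x) complementing C_M(x), M ∩ N is a complement to N_σ in N, and for every standard factorisation N = K' U' N_σ one has U' ≠ 1 and x ∈ A(N) with x ∉ N_σ. -/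
theorem result {G : Type*} [Group G] [Finite G] (hG : Cfsg.IsMinSimpleOddOrder G)
    (M : Subgroup G) (hM : IsCoatom M) (x : G) (hx : x ∈ Cfsg.sigmaCore M) (hx1 : x ≠ 1) (hxM : ¬ Subgroup.centralizer ({x} : Set G) ≤ M) :
    ∃ N : Subgroup G, (IsCoatom N ∧ Subgroup.centralizer ({x} : Set G) ≤ N) ∧ (∀ L : Subgroup G, IsCoatom L → Subgroup.centralizer ({x} : Set G) ≤ L → L = N) ∧
        Cfsg.sigmaCore N = Cfsg.fittingHallOf N ∧
        Subgroup.centralizer ({x} : Set G) ≤ Subgroup.normalizer ((Cfsg.sigmaCore N ⊓ Subgroup.centralizer ({x} : Set G) : Subgroup G) : Set G) ∧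
        Cfsg.IsComplIn (M ⊓ Subgroup.centralizer ({x} : Set G)) (Cfsg.sigmaCore N ⊓ Subgroup.centralizer ({x} : Set G)) (Subgroup.centralizer ({x} : Set G)) ∧
        Cfsg.IsComplIn (M ⊓ N) (Cfsg.sigmaCore N) N ∧
        ∀ K' U' : Subgroup G, Cfsg.IsSigmaDecomposition N K' U' → U' ≠ ⊥ ∧ x ∈ Cfsg.sigmaA N U' ∧ x ∉ Cfsg.sigmaCore N := by
  haveI : Cfsg.Lib.BG.MinOdd G := ⟨hG⟩
  have hs : Cfsg.Lib.BG.SigMax x M := ⟨hM, hx⟩
  have hm := (Cfsg.Lib.BG.sigMany_iff hx1 hs).2 hxM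
  obtain ⟨h1, h2, h3, h4, -⟩ := Cfsg.Lib.BG.S14.sigBase_spec hx1 hm
  obtain ⟨h5, h6, -⟩ := Cfsg.Lib.BG.FT_signalizer_context_mmax hx1 hm hs
  rw [inf_assoc, inf_eq_right.2 h1.le] at h5
  have hxN := h1.le (Cfsg.Lib.BG.self_mem_cent1 x)
  refine ⟨_, ⟨h1.max, h1.le⟩, h1.uniq,
    (Cfsg.Lib.BG.S14.fittingHall_eq_Ms h1.max (Cfsg.Lib.BG.notP1type_Msigma_nil h4)).symm, h5.nml.norm,
    h5.isComplIn', h6.isComplIn', fun K U hd => ?_⟩
  have hc := Cfsg.Lib.BG.S14.kappaCompl_of_decomp h1.max hd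
  obtain ⟨h7, h8⟩ := Cfsg.Lib.BG.S14.kappaCompl_sd h1.max hc
  obtain ⟨y, hy, hy1⟩ := Cfsg.Lib.BG.exists_ne_one h2
  refine ⟨fun h => (Cfsg.Lib.BG.S14.notP1_iff h1.max).1 h4 ((Cfsg.Lib.BG.trivg_kappa_compl h1.max hc).1 h),
    ⟨⟨hxN, y, hy.1, hy1, (Cfsg.Lib.BG.mem_cent1.1 hy.2).symm⟩, ?_⟩, fun h => hx1 ?_⟩
  · rw [sup_comm]
    exact h8.mem_of_normal h7.nml.norm hxN (h3.mono fun q hq hk =>
      Cfsg.Lib.BG.S14.tau13_tau2' (Cfsg.Lib.BG.kappa_tau13 h1.max hk) hq)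
  · exact ((Cfsg.Lib.BG.S14.Ms_pi _).elt h).eq_one (h3.mono fun q hq => Cfsg.Lib.BG.S14.tau2_sigma' hq)

end Cfsg.Agent.S1375
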