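import Cfsg.Statements.S1376
import Cfsg.Agent.Lib.BG.T16_2
-- import your own Cfsg.Agent.* helpers here

set_option autoImplicit false
open Cfsg

namespace Cfsg.Agent.S1376

open Cfsg.Lib.BG Subgroup
open scoped Cfsg.Lib.Transfer

/-- Let G be a minimal simple group of odd order, M a maximal subgroup, x ≠ 1 in M_σ with C_G(x) not contained in M, and N a maximal subgroup containing C_G(x) with κ(N) nonempty. Then κ(M) is empty, M has a cyclic Frobenius complement (M is a Frobenius group), and M_F is not a TI-subset of G. -/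
theorem result {G : Type*} [Group G] [Finite G] (hG : Cfsg.IsMinSimpleOddOrder G)
    (M : Subgroup G) (hM : IsCoatom M) (x : G) (hx : x ∈ Cfsg.sigmaCore M) (hx1 : x ≠ 1) (hxM : ¬ Subgroup.centralizer ({x} : Set G) ≤ M)
    (N : Subgroup G) (hN : IsCoatom N) (hxN : Subgroup.centralizer ({x} : Set G) ≤ N) (hkN : (Cfsg.kappa N).Nonempty) :
    Cfsg.kappa M = ∅ ∧ (∃ E : Subgroup ↥M, Cfsg.IsFrobeniusComplement E ∧ IsCyclic E) ∧ ¬ Cfsg.IsTISubset (Cfsg.fittingHallOf M : Set G) := by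
  haveI : MinOdd G := ⟨hG⟩
  obtain ⟨L, hu, -, -, -, -, -, -, -, -, h⟩ := signalizer_facts hM hx hx1 hxM
  obtain rfl := hu.eq hN hxN
  obtain ⟨hF, E, hc, hE⟩ := h fun h => h.not_typeP ⟨hN, hkN⟩
  refine ⟨hF.2, ⟨E.subgroupOf M, hE.isFrobeniusComplement.1,
    (subgroupOfEquivOfLe hE.sd.right_le).isCyclic.2 hc⟩, fun hTI => hxM fun g hg => by_contra fun hg' => ?_⟩
  rw [← Fcore_eq_of_notP1 (Or.inl hF)] at hx
  exact hx1 (hTI g (by rwa [norm_Fcore_eq hM]) x hx ((S14.conj_eq_of_mem_cent1 hg).symm ▸ hx))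

end Cfsg.Agent.S1376
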