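import Cfsg.Statements.S1383
import Cfsg.Agent.Lib.BG.T16_2
-- import your own Cfsg.Agent.* helpers here

set_option autoImplicit false
open Cfsg

namespace Cfsg.Agent.S1383

open Cfsg.Lib.BG Subgroup
open scoped Cfsg.Lib.Transfer

/-- Let G be a minimal simple group of odd order and M a maximal subgroup with standard factorisation M = K U M_σ. Then M is of Type V if and only if K ≠ 1, U = 1 and M_F = M_σ. -/
theorem result {G : Type*} [Group G] [Finite G] (hG : Cfsg.IsMinSimpleOddOrder G)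
    (M : Subgroup G) (hM : IsCoatom M) (K U : Subgroup G) (hKU : Cfsg.IsSigmaDecomposition M K U) :
    Cfsg.IsOfTypeV M ↔ (K ≠ ⊥ ∧ U = ⊥ ∧ Cfsg.fittingHallOf M = Cfsg.sigmaCore M) := by
  haveI : MinOdd G := ⟨hG⟩
  rw [isOfTypeV_iff hM, trivg_kappa_compl hM (S14.kappaCompl_of_decomp hM hKU)]
  exact ⟨fun h => ⟨(nontriv_kappa hM hKU.hall).2 h.1.1, h⟩, fun h => h.2⟩

end Cfsg.Agent.S1383
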