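import Cfsg.Statements.S1386
import Cfsg.Agent.Lib.PF.Sec8Fcore
-- import your own Cfsg.Agent.* helpers here

set_option autoImplicit false
open Cfsg

namespace Cfsg.Agent.S1386

open Cfsg.Lib.BG Cfsg.Lib.PF Subgroup
open scoped Cfsg.Lib.Transfer

/-- Let G be a finite group, W₁, W₂ subgroups forming a self-normalizing cyclic pair, S a subgroup with W₂ ≤ S and W₁ a complement to S' in S, and (W₁, U, W₂') type-P data for S. Then W₂' = W₂ (that is, C_{S'}(W₁) = W₂). -/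
theorem result {G : Type*} [Group G] [Finite G] (W₁ W₂ S U W₂' : Subgroup G) (hW : Cfsg.IsSelfNormalizingCyclic W₁ W₂)
    (hSW : Cfsg.IsComplIn ⁅S, S⁆ W₁ S) (hW₂S : W₂ ≤ S) (hP : Cfsg.IsTypePWith S W₁ U W₂') :
    W₂' = W₂ := by
  have hd : DP W₁ W₂ (W₁ ⊔ W₂) := ⟨le_cent_iff.2 hW.2.2.2.1, hW.2.2.1, rfl⟩
  have hW' := hP.selfNormalizing
  have hd' : DP W₁ W₂' (W₁ ⊔ W₂') := ⟨le_cent_iff.2 hW'.2.2.2.1, hW'.2.2.1, rfl⟩
  have h1 : W₂ ≤ W₁ ⊔ W₂' := fun w hw => by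
    obtain ⟨y, hy, k, hk, e⟩ := (TypeP.sd_der hP).mem' (hW₂S hw)
    have : k ∈ W₂' := by
      rw [← TypeP.cent_der hP]
      refine ⟨hk, ?_⟩
      rw [show k = y⁻¹ * w by rw [← e]; group]
      exact 𝐂(W₁).mul_mem (𝐂(W₁).inv_mem (abelian_cent (abelian_of_cyclic hP.W₁_cyclic) hy))
        (cent_symm hd.cent hw)
    exact e ▸ mul_mem_sup hy this
  have h2 : W₁ ⊔ W₂ ≤ W₁ ⊔ W₂' := sup_le le_sup_left h1
  obtain ⟨a, ha, ha1⟩ := exists_ne_one hW.1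
  obtain ⟨b, hb, hb1⟩ := exists_ne_one hW.2.1
  have hv : a * b ∈ (↑(W₁ ⊔ W₂) : Set G) \ (↑W₁ ∪ ↑W₂) := by
    refine ⟨mul_mem_sup ha hb, ?_⟩
    rintro (h | h)
    · exact hb1 (mem_bot.1 (hd.inf ▸ (⟨(W₁.mul_mem_cancel_left ha).1 h, hb⟩ : b ∈ W₁ ⊓ W₂)))
    · exact ha1 (mem_bot.1 (hd.inf ▸ (⟨ha, (W₂.mul_mem_cancel_right hb).1 h⟩ : a ∈ W₁ ⊓ W₂)))
  have h3 : W₁ ⊔ W₂' ≤ W₁ ⊔ W₂ := by
    rw [← hW.2.2.2.2.2 {a * b} (Set.singleton_subset_iff.2 hv) (Set.singleton_nonempty _)]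
    intro g hg
    have hc : g ∈ 𝐂[a * b] := cent_le_cent1 (h2 hv.1) (abelian_cent (abelian_of_cyclic hW'.2.2.2.2.1) hg)
    refine mem_set_normalizer_iff.2 fun x => ⟨fun hx => ?_, fun hx => ?_⟩
    · rw [Set.mem_singleton_iff.1 hx]; exact S14.conj_eq_of_mem_cent1 hc
    · have := (Set.mem_singleton_iff.1 hx).trans (S14.conj_eq_of_mem_cent1 hc).symm
      exact mul_left_cancel (mul_right_cancel this)
  refine cyclic_eq_of_card hW'.2.2.2.2.1 le_sup_right h1 ?_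
  have := hd'.card
  rw [le_antisymm h3 h2, ← hd.card] at this
  exact Nat.eq_of_mul_eq_mul_left Nat.card_pos this

end Cfsg.Agent.S1386
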