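import Cfsg.Statements.S1390
import Cfsg.Agent.Lib.PF.Sec8Type
-- import your own Cfsg.Agent.* helpers here

set_option autoImplicit false
open Cfsg

namespace Cfsg.Agent.S1390

open Cfsg.Lib.BG Cfsg.Lib.PF Subgroup
open scoped Cfsg.Lib.Transfer

/-- Let G be a minimal simple group of odd order, M a maximal subgroup and H = M_F; suppose M is of Type I and U is a complement to H in M, or M is of Type II and U is a complement to H in M'. Then every Sylow subgroup of U is abelian with no elementary abelian subgroup of order p ^ 3; for every nonempty set X of non-identity elements of U centralizing a non-identity element of H, C_G(X) ≤ M and M is the unique maximal subgroup containing C_G(X); and A(M) with A₁(M) removed is a TI-subset of G. -/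
theorem result {G : Type*} [Group G] [Finite G] (hG : Cfsg.IsMinSimpleOddOrder G)
    (M : Subgroup G) (hM : IsCoatom M) (U : Subgroup G)
    (hU : (Cfsg.IsOfTypeI M ∧ Cfsg.IsComplIn (Cfsg.fittingHallOf M) U M) ∨ (Cfsg.IsOfTypeII M ∧ Cfsg.IsComplIn (Cfsg.fittingHallOf M) U ⁅M, M⁆)) :
    (∀ (p : ℕ), p.Prime → ∀ P : Sylow p U, IsMulCommutative (P : Subgroup U) ∧ Cfsg.PRankLE p 2 (P : Subgroup U)) ∧
      (∀ X : Set G, X ⊆ (U : Set G) \ {1} → X.Nonempty → Cfsg.fittingHallOf M ⊓ Subgroup.centralizer X ≠ ⊥ →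
        Subgroup.centralizer X ≤ M ∧ ∀ L : Subgroup G, IsCoatom L → Subgroup.centralizer X ≤ L → L = M) ∧
      Cfsg.IsTISubset (Cfsg.typeA M \ Cfsg.typeA1 M) := by
  haveI : MinOdd G := ⟨hG⟩
  have hI : IsOfTypeI M → TypeI M := fun h ⟨_, _, _, h'⟩ => TypeP.not_typeF h' h.1
  have hU' : (TypeI M ∧ SD 𝐇(M) U M) ∨ (IsOfTypeII M ∧ SD 𝐇(M) U ⁅M, M⁆) :=
    hU.imp (fun h => ⟨hI h.1, SD.of_isComplIn h.2 (MF_nml M).norm⟩)
      fun h => ⟨h.1, SD.of_isComplIn h.2 (norm_Fcore (der_le M))⟩
  obtain ⟨h1, h2⟩ := typeI_II_facts hM hU'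
  refine ⟨fun p hp P => ?_, fun X a b c => ⟨(h2 X a b c).le, (h2 X a b c).uniq⟩, ?_⟩
  · haveI := Fact.mk hp
    have hP := Syl.of_sylow P
    obtain ⟨h1, h2⟩ := h1 p _ hp hP.pgroup hP.le
    rw [rk_map_of_injective U.subtype_injective, rk_le_iff] at h2
    refine ⟨abelian_iff.2 (le_cent_iff.2 fun a ha b hb => Subtype.ext ?_), h2⟩
    exact le_cent_iff.1 (abelian_cent h1) a (mem_map_of_mem _ ha) b (mem_map_of_mem _ hb)
  · have e : typeA M = ftA M := by
      rw [typeA, ftA]
      rcases hU with h | h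
      · rw [if_pos h.1, if_neg (hI h.1)]
      · rw [if_neg fun h' => not_typeI_of_typeII h.1 (hI h'), if_pos (not_not.1 (not_typeI_of_typeII h.1))]
    rw [e]
    exact isTISubset_of_conj_iff fun a ha g =>
      (normedTI_ftA_diff hM (hU'.imp And.left And.left) ⟨a, ha⟩).conj_mem_iff a ha g trivial

end Cfsg.Agent.S1390
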