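import Cfsg.Statements.S1397
import Cfsg.Agent.Lib.BG.T08_1
-- import your own Cfsg.Agent.* helpers here

set_option autoImplicit false
open Cfsg

namespace Cfsg.Agent.S1397
open Cfsg.Lib Cfsg.Lib.BG Subgroup
open scoped Cfsg.Lib.Transfer

/-- Let G be a minimal simple group of odd order, M a maximal subgroup, p a prime and A₀ an elementary abelian p-subgroup of F(M) of order at least p ^ 3 that is maximal among elementary abelian p-subgroups of F(M). (a) If F(M) is not a p-group, then F(M) ∩ C_G(A₀) lies in exactly one maximal subgroup of G. (b) If F(M) is a p-group and P is a Sylow p-subgroup of M, then p does not divide the index of P in G, and every normal self-centralizing subgroup A of P containing an elementary abelian subgroup of order p ^ 3 is contained in F(M) and lies in exactly one maximal subgroup of G. -/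
theorem result {G : Type*} [Group G] [Finite G] (hG : Cfsg.IsMinSimpleOddOrder G)
    (M : Subgroup G) (hM : IsCoatom M) (p : ℕ) [Fact p.Prime] (A₀ : Subgroup G)
    (hA₀ : A₀ ≤ Cfsg.fittingOf M) (hA₀e : Cfsg.IsElementaryAbelian p A₀) (hA₀3 : p ^ 3 ≤ Nat.card A₀)
    (hA₀max : ∀ B : Subgroup G, B ≤ Cfsg.fittingOf M → Cfsg.IsElementaryAbelian p B → A₀ ≤ B → B = A₀) :
    (¬ IsPGroup p ↥(Cfsg.fittingOf M) → Cfsg.InUniqueMaximal (Cfsg.fittingOf M ⊓ Subgroup.centralizer (A₀ : Set G))) ∧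
      (IsPGroup p ↥(Cfsg.fittingOf M) → ∀ P : Sylow p M,
        ¬ p ∣ ((P : Subgroup M).map M.subtype).index ∧
        ∀ A : Subgroup G, Cfsg.IsSCN ((P : Subgroup M).map M.subtype) A → ¬ Cfsg.PRankLE p 2 ↥A →
          A ≤ Cfsg.fittingOf M ∧ Cfsg.InUniqueMaximal A) := by
  haveI : MinOdd G := ⟨hG⟩
  have h3 : 3 ≤ rk p A₀ := by
    obtain ⟨n, hn⟩ := Elem.of_elab hA₀e hA₀
    rw [hn.rk_eq]
    exact (Nat.pow_le_pow_iff_right (Fact.out : p.Prime).one_lt).1 (hn.card ▸ hA₀3)
  refine ⟨fun h => Uniq.iff_inUniqueMaximal.1 (non_pcore_Fitting_Uniqueness hM h ⟨hA₀, hA₀e, hA₀max⟩ h3),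
    fun h P => ⟨?_, fun A hA hr => ?_⟩⟩
  · have hP := Syl.of_sylow P
    have hle := hP.ge_of_nml (Fitting_nml M) (PiGrp.p_iff.2 h)
    obtain ⟨A, hA, hA3⟩ := rank3_SCN3 (mFT_rk_ne_two (H := A₀) (by omega)) hP.pgroup (h3.trans (rk_mono (hA₀.trans hle) p))
    have := (SCN_Fitting_Uniqueness hM h hP (h3.trans (rk_mono hA₀ p)) hA hA3).1.not_dvd'
    rwa [relIndex_top_right] at this
  · obtain ⟨-, h1, h2⟩ := SCN_Fitting_Uniqueness hM h (Syl.of_sylow P) (h3.trans (rk_mono hA₀ p)) hA (lt_rk_iff.2 hr)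
    exact ⟨h1, Uniq.iff_inUniqueMaximal.1 h2⟩

end Cfsg.Agent.S1397
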