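import Cfsg.Statements.S1401
import Cfsg.Agent.Lib.BG.T09_2

set_option autoImplicit false
open Cfsg

namespace Cfsg.Agent.S1401

open Lib.BG

/-- Let G be a minimal simple group of odd order, p a prime, and M a maximal subgroup whose Fitting subgroup contains an elementary abelian subgroup of order p ^ 3. Then every abelian p-subgroup of G containing an elementary abelian subgroup of order p ^ 3 lies in exactly one maximal subgroup of G. -/
theorem result {G : Type*} [Group G] [Finite G] (hG : Cfsg.IsMinSimpleOddOrder G)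
    (M : Subgroup G) (hM : IsCoatom M) (p : ℕ) [Fact p.Prime] (hF : ¬ Cfsg.PRankLE p 2 ↥(Cfsg.fittingOf M))
    (A : Subgroup G) (hAp : IsPGroup p A) (hAc : IsMulCommutative A) (hA3 : ¬ Cfsg.PRankLE p 2 ↥A) :
    Cfsg.InUniqueMaximal A := by
  haveI : MinOdd G := ⟨hG⟩
  exact Uniq.iff_inUniqueMaximal.mp (any_rank3_Fitting_Uniqueness hM (lt_rk_iff.mpr hF) hAp (lt_rk_iff.mpr hA3))

end Cfsg.Agent.S1401
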