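import Cfsg.Statements.S1405
import Cfsg.Agent.Lib.BG.T10_2

set_option autoImplicit false
open Cfsg

namespace Cfsg.Agent.S1405

open Lib.BG

/-- Let G be a minimal simple group of odd order and M a maximal subgroup, α(M) the set of primes p with M of p-rank at least 3, and M_α = O_{α(M)}(M). Then M_α is a Hall α(M)-subgroup of M and of G, M_α ≤ M_σ, the quotient M/M_α has no elementary abelian subgroup of order p ^ 3 for any prime p, and the image of M' in M/M_α is nilpotent. -/
theorem result {G : Type*} [Group G] [Finite G] (hG : Cfsg.IsMinSimpleOddOrder G)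
    (M : Subgroup G) (hM : IsCoatom M) :
    Cfsg.IsPiHallOf (Cfsg.alpha M) (Cfsg.alphaCore M) M ∧ Cfsg.IsPiHall (Cfsg.alpha M) (Cfsg.alphaCore M) ∧
      Cfsg.alphaCore M ≤ Cfsg.sigmaCore M ∧ Cfsg.RankLE 2 (↥M ⧸ Cfsg.piCore (Cfsg.alpha M) ↥M) ∧
      Group.IsNilpotent ↥((commutator ↥M).map (QuotientGroup.mk' (Cfsg.piCore (Cfsg.alpha M) ↥M))) := by
  haveI : MinOdd G := ⟨hG⟩
  have hMa := Malpha_Hall hM
  have hker : PiGrp (alpha M) (QuotientGroup.mk' (piCore (alpha M) M)).ker := by
    rw [QuotientGroup.ker_mk']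
    exact Lib.Core.piCore_isPiSubgroup _ M
  have htop : (⊤ : Subgroup M).map (QuotientGroup.mk' (piCore (alpha M) M)) = ⊤ :=
    Subgroup.map_top_of_surjective _ (QuotientGroup.mk'_surjective _)
  refine ⟨hMa, Hall.top_iff.mp (Malpha_Hall_G hM), Malpha_sub_Msigma hM, fun p hp => ?_, ?_⟩
  · haveI := Fact.mk hp
    rw [← Lib.PGroup.pRankLE_top_iff, ← A10.rk_le_iff]
    by_cases hα : p ∈ alpha M
    · by_contra h
      have hd := A10.dvd_card_of_rk_pos (p := p) (H := (⊤ : Subgroup (M ⧸ piCore (alpha M) M))) (by omega)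
      rw [Subgroup.card_top, ← Subgroup.index_eq_card, ← Lib.Core.relIndex_map_subtype] at hd
      exact hMa.not_dvd hp hα hd
    · rw [← htop]
      refine (A10.rk_map_le _ ((hker.p'_of_not_mem hα).of_le inf_le_right)).trans ?_
      rw [A10.rk_le_iff, Lib.PGroup.pRankLE_top_iff]
      by_contra h
      exact hα ⟨hp, h⟩
  · obtain ⟨W, hW, hW'⟩ := (hMa.of_le ((Malpha_sub_Msigma hM).trans (Msigma_der1 hM))
      (der_le M)).exists_compl ((der_le M).trans (pcore_nml _ M).norm)
    have hn := alpha'_der1_nil hM hW'.pi hW'.le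
    have e : commutator M = W.subgroupOf M ⊔ piCore (alpha M) M := by
      apply Subgroup.map_injective M.subtype_injective
      rw [Subgroup.map_subtype_commutator, Subgroup.map_sup, Subgroup.subgroupOf_map_subtype,
        inf_eq_left.mpr (hW'.le.trans (der_le M)), ← hW.sup, sup_comm]
      rfl
    rw [e, Lib.Core.map_mk'_sup]
    exact Lib.Core.isNilpotent_map _ (Lib.Core.isNilpotent_subgroupOf M hn)

end Cfsg.Agent.S1405
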