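import Cfsg.Statements.S1407
import Cfsg.Agent.Lib.BG.T10_4

set_option autoImplicit false
open Cfsg

namespace Cfsg.Agent.S1407

open Lib.BG

/-- Let G be a minimal simple group of odd order, M a maximal subgroup with M_α ≠ 1, p a prime dividing the order of M but not in σ(M), and P a Sylow p-subgroup of M. Then there is an element x of order p in the centre of P such that M_α ∩ C_G(x) has all Sylow subgroups cyclic and M is not the unique maximal subgroup of G containing C_G(x). -/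
theorem result {G : Type*} [Group G] [Finite G] (hG : Cfsg.IsMinSimpleOddOrder G)
    (M : Subgroup G) (hM : IsCoatom M) (hMα : Cfsg.alphaCore M ≠ ⊥) (p : ℕ) [Fact p.Prime] (hpM : p ∣ Nat.card M) (hp : p ∉ Cfsg.sigma M) (P : Sylow p M) :
    ∃ x : G, x ∈ ((Subgroup.center ↥(P : Subgroup M)).map (P : Subgroup M).subtype).map M.subtype ∧ orderOf x = p ∧
        IsZGroup ↥(Cfsg.alphaCore M ⊓ Subgroup.centralizer ({x} : Set G)) ∧
        ¬ (Subgroup.centralizer ({x} : Set G) ≤ M ∧ ∀ L : Subgroup G, IsCoatom L → Subgroup.centralizer ({x} : Set G) ≤ L → L = M) := by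
  haveI : MinOdd G := ⟨hG⟩
  obtain ⟨x, hx, ho, hu, hZ⟩ := cent1_sigma'_Zgroup hM hp (Syl.of_sylow P) ((Syl.of_sylow P).ne_bot' hpM)
  refine ⟨x, ?_, ho, hZ, fun h => hu ⟨hM, h.1, h.2⟩⟩
  obtain ⟨⟨y, hy, rfl⟩, hc⟩ := hx
  refine ⟨y, ⟨⟨y, hy⟩, Subgroup.mem_center_iff.mpr fun z => ?_, rfl⟩, rfl⟩
  exact Subtype.ext (Subtype.ext (hc _ ⟨z.1, z.2, rfl⟩))

end Cfsg.Agent.S1407
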