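import Cfsg.Statements.S1410
import Cfsg.Agent.Lib.BG.T10_6

set_option autoImplicit false
open Cfsg

namespace Cfsg.Agent.S1410

/-- Let G be a minimal simple group of odd order. Then for every prime p and every proper subgroup H of G, H = O_{p',p,p'}(H). -/
theorem result {G : Type*} [Group G] [Finite G] (hG : Cfsg.IsMinSimpleOddOrder G) (p : ℕ) [Fact p.Prime] (H : Subgroup G) (hH : H ≠ ⊤) :
    Cfsg.PLengthLE p 1 H := by
  haveI : Lib.BG.MinOdd G := ⟨hG⟩
  exact Lib.BG.mFT_proper_plength1 p hH

end Cfsg.Agent.S1410
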