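import Cfsg.Statements.S1412
import Cfsg.Agent.Lib.BG.T10_7

set_option autoImplicit false
open Cfsg

namespace Cfsg.Agent.S1412

open Lib.BG

/-- Let G be a minimal simple group of odd order, p a prime and P a Sylow p-subgroup of G with no elementary abelian subgroup of order p ^ 3. Then either P is abelian, or P is generated by two elementwise-commuting subgroups P₁, P₂ with P₁ nonabelian of order p ^ 3 and exponent p, P₂ cyclic, and the elements of P₂ of order dividing p generating exactly the centre of P₁. -/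
theorem result {G : Type*} [Group G] [Finite G] (hG : Cfsg.IsMinSimpleOddOrder G) (p : ℕ) [Fact p.Prime] (P : Sylow p G) (hr : Cfsg.PRankLE p 2 (P : Subgroup G)) :
    IsMulCommutative (P : Subgroup G) ∨ ∃ P₁ P₂ : Subgroup G, P₁ ⊔ P₂ = (P : Subgroup G) ∧ (∀ a ∈ P₁, ∀ b ∈ P₂, a * b = b * a) ∧
        ¬ IsMulCommutative P₁ ∧ Nat.card P₁ = p ^ 3 ∧ Monoid.exponent P₁ = p ∧ IsCyclic P₂ ∧
        Subgroup.closure {x : G | x ∈ P₂ ∧ x ^ p = 1} = P₁ ⊓ Subgroup.centralizer (P₁ : Set G) := by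
  haveI : MinOdd G := ⟨hG⟩
  refine (em _).imp_right fun hab => ?_
  obtain ⟨S, C, h₁, h₂, h₃, h₄, h₅, h₆, h₇⟩ := mFT_rank2_Sylow_cprod (Syl.of_sylow_top P) (A10.rk_le_iff.mpr hr) hab
  refine ⟨S, C, h₆, le_cent_iff.mp h₅, h₁, h₂, ?_, h₄, h₇⟩
  refine ((Nat.dvd_prime Fact.out).mp (Monoid.exponent_dvd_of_forall_pow_eq_one fun x =>
    Subtype.ext (h₃ x x.2))).resolve_left fun h => h₁ ?_
  haveI := Monoid.exp_eq_one_iff.mp h
  infer_instance

end Cfsg.Agent.S1412
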