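import Cfsg.Statements.S1428
import Cfsg.Agent.Lib.BG.T13_4

set_option autoImplicit false
open Cfsg

namespace Cfsg.Agent.S1428

open Cfsg.Lib.BG

/-- Let G be a minimal simple group of odd order, M a maximal subgroup, E a complement to M_σ in M, p ∈ τ₁(M), P ≤ E a subgroup of order p, and R a subgroup of prime order of E ∩ C_G(P). Then M_σ ∩ C_G(P) ≤ M_σ ∩ C_G(R). -/
theorem result {G : Type*} [Group G] [Finite G] (hG : Cfsg.IsMinSimpleOddOrder G)
    (M : Subgroup G) (hM : IsCoatom M) (E : Subgroup G) (hE : Cfsg.IsComplIn E (Cfsg.sigmaCore M) M) (p : ℕ) (hp : p ∈ Cfsg.tau1 M) (P : Subgroup G) (hPE : P ≤ E) (hP : Nat.card P = p)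
    (R : Subgroup G) (hRE : R ≤ E ⊓ Subgroup.centralizer (P : Set G)) (hR : (Nat.card R).Prime) :
    Cfsg.sigmaCore M ⊓ Subgroup.centralizer (P : Set G) ≤ Cfsg.sigmaCore M ⊓ Subgroup.centralizer (R : Set G) := by
  haveI : MinOdd G := ⟨hG⟩
  haveI := Fact.mk (tau1_prime hp)
  haveI := Fact.mk hR
  exact le_inf inf_le_left (cent_tau1Elem_Msigma hM (sigma_compl_Hall hM (SD.of_isComplIn' hE (Msigma_nml M).norm))
    hp (Elem.of_card hPE hP) (Elem.of_card hRE rfl))

end Cfsg.Agent.S1428
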