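import Cfsg.Statements.S1433
import Cfsg.Agent.Lib.BG.T14_5

set_option autoImplicit false
open Cfsg

namespace Cfsg.Agent.S1433

/-- Let G be a minimal simple group of odd order, M and N maximal subgroups, x ≠ 1 in M_σ and y ≠ 1 in N_σ with x ≠ y, where R(x) = 1 if C_G(x) ≤ M and R(x) = C_{L_F}(x) for the unique maximal L containing C_G(x) otherwise (and likewise R(y) relative to N). Then no element lies in both x R(x) and y R(y). -/
theorem result {G : Type*} [Group G] [Finite G] (hG : Cfsg.IsMinSimpleOddOrder G)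
    (M N : Subgroup G) (hM : IsCoatom M) (hN : IsCoatom N) (x y : G) (hx : x ∈ Cfsg.sigmaCore M) (hy : y ∈ Cfsg.sigmaCore N)
    (hx1 : x ≠ 1) (hy1 : y ≠ 1) (hxy : x ≠ y) :
    ∀ r ∈ Cfsg.supportR M x, ∀ s ∈ Cfsg.supportR N y, x * r ≠ y * s := by
  haveI : Cfsg.Lib.BG.MinOdd G := ⟨hG⟩
  rw [Cfsg.Lib.BG.supportR_eq_sigR hx1 ⟨hM, hx⟩, Cfsg.Lib.BG.supportR_eq_sigR hy1 ⟨hN, hy⟩]
  exact Cfsg.Lib.BG.sigma_cover_disjoint ⟨hx1, M, hM, hx⟩ ⟨hy1, N, hN, hy⟩ hxy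

end Cfsg.Agent.S1433
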