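import Cfsg.Statements.S1437
import Cfsg.Agent.Lib.BG.T16_2
-- import your own Cfsg.Agent.* helpers here

set_option autoImplicit false
open Cfsg

namespace Cfsg.Agent.S1437

open Cfsg.Lib.BG Subgroup
open scoped Cfsg.Lib.Transfer

/-- Let G be a minimal simple group of odd order and M a maximal subgroup with standard factorisation M = K U M_σ such that M_F ≠ M_σ; put K* = M_σ ∩ C_G(K), p = #K, q = #K*. Then U = 1 and M_σ = M'; p and q are prime, q divides #M_F and q ∈ β(M); M_σ has a Sylow q-subgroup Q normal in M and contained in M_F; every complement D of Q in M_σ is nilpotent, and Q₀ = Q ∩ C_G(D) is normal in M; Q₀ < Q with #Q = #Q₀ · q ^ p, every element of Q has its q-th power and all its commutators with Q in Q₀, and every subgroup strictly between Q₀ and Q fails to be normal in M. -/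
theorem result {G : Type*} [Group G] [Finite G] (hG : Cfsg.IsMinSimpleOddOrder G)
    (M : Subgroup G) (hM : IsCoatom M) (K U : Subgroup G) (hKU : Cfsg.IsSigmaDecomposition M K U) (hne : Cfsg.fittingHallOf M ≠ Cfsg.sigmaCore M) :
    U = ⊥ ∧ Cfsg.sigmaCore M = ⁅M, M⁆ ∧ (Nat.card K).Prime ∧ (Nat.card ↥(Cfsg.sigmaCore M ⊓ Subgroup.centralizer (K : Set G))).Prime ∧
      Nat.card ↥(Cfsg.sigmaCore M ⊓ Subgroup.centralizer (K : Set G)) ∣ Nat.card (Cfsg.fittingHallOf M) ∧ Nat.card ↥(Cfsg.sigmaCore M ⊓ Subgroup.centralizer (K : Set G)) ∈ Cfsg.beta M ∧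
      ∃ Q : Subgroup G, Q ≤ Cfsg.fittingHallOf M ∧ M ≤ Subgroup.normalizer (Q : Set G) ∧ IsPGroup (Nat.card ↥(Cfsg.sigmaCore M ⊓ Subgroup.centralizer (K : Set G))) Q ∧
        ¬ Nat.card ↥(Cfsg.sigmaCore M ⊓ Subgroup.centralizer (K : Set G)) ∣ Q.relIndex (Cfsg.sigmaCore M) ∧
        ∀ D : Subgroup G, Cfsg.IsComplIn Q D (Cfsg.sigmaCore M) →
          Group.IsNilpotent D ∧ M ≤ Subgroup.normalizer ((Q ⊓ Subgroup.centralizer (D : Set G) : Subgroup G) : Set G) ∧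
          Q ⊓ Subgroup.centralizer (D : Set G) < Q ∧
          Nat.card Q = Nat.card ↥(Q ⊓ Subgroup.centralizer (D : Set G)) * Nat.card ↥(Cfsg.sigmaCore M ⊓ Subgroup.centralizer (K : Set G)) ^ Nat.card K ∧
          (∀ a ∈ Q, ∀ b ∈ Q, a ^ Nat.card ↥(Cfsg.sigmaCore M ⊓ Subgroup.centralizer (K : Set G)) ∈ Q ⊓ Subgroup.centralizer (D : Set G) ∧
            a * b * a⁻¹ * b⁻¹ ∈ Q ⊓ Subgroup.centralizer (D : Set G)) ∧
          ∀ N : Subgroup G, Q ⊓ Subgroup.centralizer (D : Set G) < N → N < Q → ¬ M ≤ Subgroup.normalizer (N : Set G) := by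
  haveI : MinOdd G := ⟨hG⟩
  obtain ⟨⟨h1, -, h2⟩, ⟨h3, h4, h5, h6⟩, h7⟩ := Fcore_structure_abc hM hKU.hall hne
  haveI := Fact.mk h4
  have hQ := (Fcore_structure_Kstar hM hKU.hall hne).2
  have hS := h7.of_le (hQ.trans (Fcore_sub_Msigma hM)) (Msigma_le M)
  refine ⟨(trivg_kappa_compl hM (S14.kappaCompl_of_decomp hM hKU)).2 h1, h2, h3, h4, h5, h6, _, hQ,
    (pcore_nml _ M).norm, h7.pgroup, Syl.not_dvd' hS, fun D hD => ?_⟩
  have hsd := SD.of_isComplIn hD ((Msigma_le M).trans (pcore_nml _ M).norm)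
  obtain ⟨a, b, ⟨c, d, e, f⟩, -⟩ := Fcore_structure hM hKU.hall hne rfl
    (Hall.of_sd_right hsd (by rw [compl_compl]; exact hS))
  refine ⟨a, b.norm, c.lt, f, fun x hx y hy => ⟨⟨pow_mem hx _, e x hx⟩,
    ⟨der_le _ (comm_mem_comm hx hy), d (comm_mem_comm hx hy)⟩⟩,
    fun N h₁ h₂ hn => ?_⟩
  rcases c.min N hn h₁.le h₂.le with h | h
  · exact h₁.ne' h
  · exact h₂.ne h

end Cfsg.Agent.S1437
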