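import Cfsg.Statements.S1439
import Cfsg.Agent.Lib.BG.T16_2
-- import your own Cfsg.Agent.* helpers here

set_option autoImplicit false
open Cfsg

namespace Cfsg.Agent.S1439

open Cfsg.Lib.BG Subgroup
open scoped Cfsg.Lib.Transfer

/-- Let G be a minimal simple group of odd order and M a maximal subgroup, and let Y be the largest normal subgroup of F(M) involving no prime of σ(M). Then Y is cyclic, every prime divisor of its order lies in τ₂(M), and F(M) is generated by F(M_σ) and Y (a direct product, the orders being coprime). -/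
theorem result {G : Type*} [Group G] [Finite G] (hG : Cfsg.IsMinSimpleOddOrder G)
    (M : Subgroup G) (hM : IsCoatom M) :
    IsCyclic ↥(Cfsg.piCoreOf {q | q.Prime ∧ q ∉ Cfsg.sigma M} (Cfsg.fittingOf M)) ∧
      (∀ p : ℕ, p.Prime → p ∣ Nat.card ↥(Cfsg.piCoreOf {q | q.Prime ∧ q ∉ Cfsg.sigma M} (Cfsg.fittingOf M)) → p ∈ Cfsg.tau2 M) ∧
      Cfsg.fittingOf M = Cfsg.fittingOf (Cfsg.sigmaCore M) ⊔ Cfsg.piCoreOf {q | q.Prime ∧ q ∉ Cfsg.sigma M} (Cfsg.fittingOf M) := by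
  haveI : MinOdd G := ⟨hG⟩
  have e : piCoreOf {q | q.Prime ∧ q ∉ sigma M} (fittingOf M) = 𝐎((sigma M)ᶜ, 𝐅(M)) :=
    pcore_congr fun q hq _ => ⟨fun h => h.2, fun h => ⟨hq, h⟩⟩
  obtain ⟨⟨h1, h2⟩, ⟨-, -, h3⟩, -⟩ := Fitting_structure hM
  rw [e]
  exact ⟨h1, h2, h3.sup.symm⟩

end Cfsg.Agent.S1439
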