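import Cfsg.Statements.S1441
import Cfsg.Agent.Lib.Coprime.Nilpotent

set_option autoImplicit false
open Cfsg

namespace Cfsg.Agent.S1441

/-- Let G be a finite group, H a solvable subgroup and A a subgroup normalizing H. Suppose there is a chain H = H₀ ≥ H₁ ≥ ⋯ ≥ H_n = 1 of subgroups normal in H and normalized by A such that A acts trivially on each factor H_{i-1}/H_i (that is, [H_{i-1}, A] ≤ H_i). Then every prime dividing the index of C_A(H) in A divides the order of H. -/
theorem result {G : Type*} [Group G] [Finite G] (H A : Subgroup G) (hH : Group.IsSolvable H) (hA : (A ≤ Subgroup.normalizer (H : Set G)))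
    (n : ℕ) (c : Fin (n + 1) → Subgroup G) (hc0 : c 0 = H) (hcn : c (Fin.last n) = ⊥) (hanti : Antitone c)
    (hcN : ∀ i, H ≤ Subgroup.normalizer ((c i : Subgroup G) : Set G)) (hcA : ∀ i, A ≤ Subgroup.normalizer ((c i : Subgroup G) : Set G))
    (htriv : ∀ i : Fin n, ⁅c i.castSucc, A⁆ ≤ c i.succ) :
    ∀ p : ℕ, p.Prime → p ∣ (A ⊓ Subgroup.centralizer (H : Set G)).relIndex A → p ∣ Nat.card H := by
  intro p hp hd
  by_contra hnd
  have := Fact.mk hp
  obtain ⟨P, -, h1, h2, h3⟩ := Lib.Transfer.exists_sylowIn_ge (p := p) (H := A) IsPGroup.of_bot bot_le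
  refine h3 (hd.trans (Subgroup.relIndex_dvd_of_le_left _ (le_inf h1 ?_)))
  have hcop : (Nat.card H).Coprime p := (hp.coprime_iff_not_dvd.mpr hnd).symm
  have key : ∀ i, P ≤ Subgroup.centralizer (c i : Set G) := by
    intro i
    induction i using Fin.reverseInduction with
    | last => rw [hcn, Subgroup.le_centralizer_iff]; exact bot_le
    | cast i ih =>
      refine Lib.Coprime.le_centralizer_of_commutator_le
        ((Subgroup.commutator_mono le_rfl h1).trans (htriv i)) ih ?_
      exact (Lib.Coprime.coprime_card_of_isPGroup h2 hcop).symm.coprime_dvd_right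
        (Subgroup.card_dvd_of_le (hc0 ▸ hanti (Fin.zero_le _)))
  exact hc0 ▸ key 0

end Cfsg.Agent.S1441
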