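import Cfsg.Statements.S1455
import Cfsg.Agent.Lib.BG.Narrow

set_option autoImplicit false
open Cfsg

namespace Cfsg.Agent.S1455

/-- Let G be a solvable group of odd order, p a prime dividing its order, and S a Sylow p-subgroup of G that is narrow; if S has an elementary abelian subgroup of order p ^ 3 assume also G = O_{p',p,p'}(G). Then every prime dividing the index of O_{p'}(G) is at most p; if p = 3 or p is the smallest prime divisor of #G then G has a normal p-complement; G' has a normal p-complement; every subgroup of G' of order coprime to p lies in O_{p'}(G'); and G' ≤ O_{p',p}(G) with the index of O_{p',p}(G) coprime to p. -/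
theorem result {G : Type*} [Group G] [Finite G] [Group.IsSolvable G] (hodd : Odd (Nat.card G)) (p : ℕ) [Fact p.Prime] (hpG : p ∣ Nat.card G) (S : Sylow p G) (hS : Cfsg.IsNarrow p ↥(S : Subgroup G))
    (hpl : ¬ Cfsg.PRankLE p 2 ↥(S : Subgroup G) → Cfsg.PLengthLE p 1 G) :
    (∀ q : ℕ, q.Prime → q ∣ (Cfsg.pPrimeCore p G).index → q ≤ p) ∧
      ((p = 3 ∨ ∀ q : ℕ, q.Prime → q ∣ Nat.card G → p ≤ q) → Cfsg.HasNormalPComplement p G) ∧
      Cfsg.HasNormalPComplement p ↥(commutator G) ∧
      (∀ L : Subgroup ↥(commutator G), (Nat.card L).Coprime p → L ≤ Cfsg.pPrimeCore p ↥(commutator G)) ∧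
      commutator G ≤ Cfsg.pPrimePCore p G ∧ ((Cfsg.pPrimePCore p G).index).Coprime p := by
  have hodd' : Odd (Nat.card (⊤ : Subgroup G)) := by rwa [Subgroup.card_top]
  have hs : Group.IsSolvable (⊤ : Subgroup G) := inferInstance
  have hp2 : p ≠ 2 := by
    rintro rfl
    exact hodd.not_two_dvd_nat hpG
  obtain ⟨⟨h1, h2, h3⟩, h4, h5⟩ := Lib.BG.narrow_quo_der1 hs hodd' (Lib.BG.narrow_quo_of_Syl hodd'
    (Lib.BG.Syl.of_sylow_top S) ((Lib.BG.narrow_iff hp2 S.isPGroup').mpr hS)
    fun h => Lib.Core.pLengthLE_top_iff.mpr (hpl (Lib.BG.lt_rk_iff.mp h)))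
  have e1 : Lib.BG.O2 p (⊤ : Subgroup G) = pPrimePCore p G :=
    Lib.Core.map_pPrimePCore_equiv Subgroup.topEquiv
  rw [e1] at h2 h3
  rw [Subgroup.relIndex_top_right] at h3
  rw [Lib.BG.pcore_p'_eq, Lib.Core.pPrimeCoreOf_top, Subgroup.relIndex_top_right] at h4
  rw [Subgroup.card_top] at h5
  have h6 : HasNormalPComplement p (commutator G) := Lib.BG.hasNormalPComplement_iff.mpr h1
  refine ⟨h4, fun h => Lib.Transfer.hasNormalPComplement_top_iff.mp
    (Lib.BG.hasNormalPComplement_iff.mpr (h5 h)), h6, fun L hL x hx => ?_, h2,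
    Lib.Core.coprime_iff_not_dvd.mpr h3⟩
  rw [← Lib.Transfer.pResidual_eq_pPrimeCore h6]
  exact Lib.Transfer.mem_pResidual_of_coprime
    (hL.coprime_dvd_left (Subgroup.orderOf_dvd_natCard L hx))

end Cfsg.Agent.S1455
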