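import Cfsg.Statements.S1451
import Cfsg.Agent.Lib.BG.T04_18

set_option autoImplicit false
open Cfsg

namespace Cfsg.Agent.S1451

/-- Let G be a solvable group of odd order such that G, or its Fitting subgroup, has no elementary abelian subgroup of order q ^ 3 for any prime q. Then G' is nilpotent; for every Sylow subgroup S of G, every characteristic subgroup T of S with T ≤ [S, S] is normal in G; and for every prime p, G has a characteristic subgroup that is a Hall subgroup for the set of primes greater than p. -/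
theorem result {G : Type*} [Group G] [Finite G] [Group.IsSolvable G] (hodd : Odd (Nat.card G)) (hr : Cfsg.RankLE 2 G ∨ Cfsg.RankLE 2 (Cfsg.fittingSubgroup G)) :
    Group.IsNilpotent ↥(commutator G) ∧
      (∀ (q : ℕ) [Fact q.Prime] (S : Sylow q G) (T : Subgroup ↥(S : Subgroup G)), T.Characteristic → T.map (S : Subgroup G).subtype ≤ ⁅(S : Subgroup G), (S : Subgroup G)⁆ →
        (T.map (S : Subgroup G).subtype).Normal) ∧
      ∀ p : ℕ, ∃ N : Subgroup G, N.Characteristic ∧ Cfsg.IsPiHall {q | q.Prime ∧ p < q} N := by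
  have hodd' : Odd (Nat.card (⊤ : Subgroup G)) := by rwa [Subgroup.card_top]
  have hs : Group.IsSolvable (⊤ : Subgroup G) := inferInstance
  have h2 : Lib.BG.rank (fittingOf (⊤ : Subgroup G)) ≤ 2 := by
    rw [Lib.Core.fittingOf_top, Lib.BG.rank_le_iff]
    exact hr.elim (fun h => Lib.PGroup.rankLE_subgroup h _) id
  refine ⟨Lib.BG.nil_of_le (Lib.BG.Fitting_nil ⊤) (Lib.BG.rank2_der1_sub_Fitting hs hodd' h2),
    fun q _ S T hT hTS => Lib.BG.Nml.top_iff.mp (Lib.BG.rank2_char_Sylow_normal hs hodd' h2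
      (Lib.BG.Syl.of_sylow_top S) (Lib.Core.normalizer_le_normalizer_map_subtype T) hTS),
    fun p => ⟨piCore {q | p + 1 ≤ q} G, Lib.Core.piCore_characteristic _ _, ?_⟩⟩
  have h := (Lib.BG.rank2_ge_pcore_Hall (p + 1) hs hodd' h2).congr (ρ := {q | q.Prime ∧ p < q})
    fun q hq _ => ⟨fun h => ⟨hq, h⟩, fun h => h.2⟩
  rw [Lib.Core.piCoreOf_top] at h
  exact Lib.BG.Hall.top_iff.mp h

end Cfsg.Agent.S1451
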