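import Cfsg.Statements.S1453
import Cfsg.Agent.Lib.BG.T05_3

set_option autoImplicit false
open Cfsg

namespace Cfsg.Agent.S1453

/-- Let p be an odd prime and R a finite p-group with an elementary abelian subgroup of order p ^ 3 and an elementary abelian subgroup E of order p ^ 2 contained in no larger elementary abelian subgroup. Let Z₂ be the second centre of R, W the subgroup generated by the elements of Z₂ of order dividing p, and T = C_R(W). Then E is not contained in T; the elements of order dividing p of the centre of R generate a group of order p; W is elementary abelian of order p ^ 2; and T is characteristic in R of index p. -/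
theorem result {R : Type*} [Group R] [Finite R] (p : ℕ) [Fact p.Prime] (hp : p ≠ 2) (hR : IsPGroup p R) (hr : ¬ Cfsg.PRankLE p 2 R)
    (E : Subgroup R) (hE : Cfsg.IsElementaryAbelian p E) (hE2 : Nat.card E = p ^ 2)
    (hEmax : ∀ B : Subgroup R, Cfsg.IsElementaryAbelian p B → E ≤ B → B = E) :
    ¬ E ≤ Subgroup.centralizer ((Subgroup.closure {x : R | x ∈ Subgroup.upperCentralSeries R 2 ∧ x ^ p = 1} : Subgroup R) : Set R) ∧
      Nat.card ↥(Subgroup.closure {x : R | x ∈ Subgroup.center R ∧ x ^ p = 1}) = p ∧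
      (Cfsg.IsElementaryAbelian p (Subgroup.closure {x : R | x ∈ Subgroup.upperCentralSeries R 2 ∧ x ^ p = 1}) ∧
        Nat.card ↥(Subgroup.closure {x : R | x ∈ Subgroup.upperCentralSeries R 2 ∧ x ^ p = 1}) = p ^ 2) ∧
      (Subgroup.centralizer ((Subgroup.closure {x : R | x ∈ Subgroup.upperCentralSeries R 2 ∧ x ^ p = 1} : Subgroup R) : Set R)).Characteristic ∧
      (Subgroup.centralizer ((Subgroup.closure {x : R | x ∈ Subgroup.upperCentralSeries R 2 ∧ x ^ p = 1} : Subgroup R) : Set R)).index = p := by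
  have hZ : (⊤ : Subgroup R) ⊓ Subgroup.centralizer ((⊤ : Subgroup R) : Set R) = Subgroup.center R := by
    rw [top_inf_eq, Subgroup.coe_top, Subgroup.centralizer_univ]
  have hW : Lib.BG.OhmZ2 p (⊤ : Subgroup R) = omegaOne p (Subgroup.upperCentralSeries R 2) := by
    rw [Lib.BG.OhmZ2, hZ, top_inf_eq]
    congr 1
    ext x
    rw [Lib.PGroup.mem_commStab, Subgroup.mem_upperCentralSeries_succ_iff,
      Subgroup.upperCentralSeries_one]
    exact ⟨fun h y => h.2 y trivial,
      fun h => ⟨Subgroup.le_normalizer_of_normal (Subgroup.mem_top x), fun y _ => h y⟩⟩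
  obtain ⟨h1, h2, h3, h4⟩ := Lib.BG.narrow_OhmZ2 hp (Lib.Core.isPGroup_top_iff.mpr hR)
    (Lib.BG.lt_rk_iff.mpr fun h => hr (Lib.PGroup.pRankLE_top_iff.mp h)) ⟨le_top, hE, hE2⟩
    ⟨le_top, hE, fun B _ => hEmax B⟩
  rw [hW] at h2 h3 h4
  rw [hZ] at h1
  have := Lib.PGroup.omegaOne_characteristic (p := p) (Subgroup.upperCentralSeries R 2)
  exact ⟨h3, h1.card_one, ⟨h2.elem, h2.card⟩, Subgroup.characteristic_centralizer (hH := this),
    (Subgroup.relIndex_top_right _).symm.trans h4⟩

end Cfsg.Agent.S1453
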