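import Cfsg.Statements.S1454
import Cfsg.Agent.Lib.BG.T05_5

set_option autoImplicit false
open Cfsg

namespace Cfsg.Agent.S1454

/-- Let G be a finite group, p an odd prime, R a narrow p-subgroup and A a solvable subgroup of odd order normalizing R with A ∩ C_G(R) = 1. Then [A, A] ≤ O_p(A) and the index of O_p(A) in A is coprime to p; if R has an elementary abelian subgroup of order p ^ 3 then the order of every element of A of order coprime to p divides p − 1; and if the order of A is a prime not dividing p(p − 1), then 2·#A divides p + 1, and if in addition [R, A] = R and R is non-abelian then #R = p ^ 3. -/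
theorem result {G : Type*} [Group G] [Finite G] (p : ℕ) [Fact p.Prime] (hp : p ≠ 2) (R A : Subgroup G) (hR : IsPGroup p R) (hRn : Cfsg.IsNarrow p R)
    (hA : (A ≤ Subgroup.normalizer (R : Set G))) (hAs : Group.IsSolvable A) (hAodd : Odd (Nat.card A)) (hfaith : A ⊓ Subgroup.centralizer (R : Set G) = ⊥) :
    (commutator ↥A ≤ Cfsg.pCore p ↥A ∧ ((Cfsg.pCore p ↥A).index).Coprime p) ∧
      (¬ Cfsg.PRankLE p 2 R → ∀ a ∈ A, (orderOf a).Coprime p → orderOf a ∣ p - 1) ∧
      ((Nat.card A).Prime → ¬ Nat.card A ∣ p * (p - 1) →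
        2 * Nat.card A ∣ p + 1 ∧ (⁅R, A⁆ = R → ¬ IsMulCommutative R → Nat.card R = p ^ 3)) := by
  have hn := (Lib.BG.narrow_iff hp hR).mpr hRn
  have hC : ∀ a ∈ A, a ∈ Subgroup.centralizer (R : Set G) → a = 1 := fun a ha h =>
    Subgroup.mem_bot.mp (hfaith.le ⟨ha, h⟩)
  refine ⟨?_, fun h3 a ha hap => orderOf_dvd_of_pow_eq_one (hC _ (pow_mem ha _)
    (Lib.BG.narrow_pow_mem_cent hp hR hn (Lib.BG.lt_rk_iff.mpr h3) (hA ha) hap)), fun hq hd =>
    Lib.BG.Aut_narrow_c hp hR hn hA hq hAodd (fun h => Lib.BG.ne_bot_of_prime hq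
      (hfaith ▸ (inf_eq_left.mpr h).symm)) hd⟩
  have h1 : Lib.BG.PiNat {p} ((⊥ : Subgroup G).relIndex ⁅A, A⁆) :=
    Lib.BG.PiNat.of_forall_mem fun a ha hap => hC a (Lib.BG.der_le A ha)
      (Lib.BG.narrow_mem_cent_of_mem_der hp hR hn hA hAodd ha hap)
  rw [Subgroup.relIndex_bot_left] at h1
  have h2 := Lib.BG.pcore_max h1 (Lib.BG.Nml.der_self A)
  have h3 := (Lib.BG.Syl_pcore_of_der_le h2).not_dvd'
  rw [Lib.BG.pcore_p_eq, Lib.Core.relIndex_map_subtype] at h3
  rw [Lib.BG.pcore_p_eq, ← Subgroup.map_subtype_commutator, Subgroup.map_subtype_le_map_subtype] at h2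
  exact ⟨h2, Lib.Core.coprime_iff_not_dvd.mpr h3⟩

end Cfsg.Agent.S1454
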