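import Cfsg.Statements.S1461
import Cfsg.Agent.Lib.Coprime.PLengthOne

set_option autoImplicit false
open Cfsg

namespace Cfsg.Agent.S1461

/-- Let G be a finite solvable group, p a prime with G = O_{p',p,p'}(G), and S a Sylow p-subgroup. Then: if S ≤ G' then S ≤ [N_G(S), N_G(S)]; if Y ⊆ S and xYx⁻¹ ⊆ S then x = g c for some g ∈ N_G(S) and c centralizing Y; and for every p-subgroup Q there is x ∈ C_G(Q ∩ S) with xQx⁻¹ ≤ S. -/
theorem result {G : Type*} [Group G] [Finite G] [Group.IsSolvable G] (p : ℕ) [Fact p.Prime] (hpl : Cfsg.PLengthLE p 1 G) (S : Sylow p G) :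
    ((S : Subgroup G) ≤ commutator G → (S : Subgroup G) ≤ ⁅Subgroup.normalizer ((S : Subgroup G) : Set G), Subgroup.normalizer ((S : Subgroup G) : Set G)⁆) ∧
      (∀ (Y : Set G) (x : G), Y ⊆ (S : Subgroup G) → (fun y => x * y * x⁻¹) '' Y ⊆ (S : Subgroup G) →
        ∃ g ∈ Subgroup.normalizer ((S : Subgroup G) : Set G), ∃ c ∈ Subgroup.centralizer Y, g * c = x) ∧
      ∀ Q : Subgroup G, IsPGroup p Q → ∃ x ∈ Subgroup.centralizer ((Q ⊓ (S : Subgroup G) : Subgroup G) : Set G), Q.map (MulAut.conj x).toMonoidHom ≤ (S : Subgroup G) := by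
  have hK := Cfsg.Lib.Core.pPrimeCore_coprime p G
  have hn := (Cfsg.Lib.Coprime.pLengthLE_one_iff_normal S).mp hpl
  refine ⟨fun h => ?_, fun Y x hY hx => ?_, fun Q hQ => ?_⟩
  · have h1 := Cfsg.Lib.Coprime.inf_commutator_eq_of_normal_sup (M := ⊤) hK S.isPGroup' le_top
      le_top Subgroup.le_normalizer_of_normal Subgroup.le_normalizer_of_normal
    rw [top_inf_eq, ← commutator_def, inf_of_le_left h] at h1
    exact h1.le.trans inf_le_right
  · obtain ⟨u, hu, c, hc, rfl⟩ := Cfsg.Lib.Coprime.exists_normalizer_mul_centralizer_of_normal_sup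
      (M := ⊤) hK S.isPGroup' le_top le_top Subgroup.le_normalizer_of_normal
      Subgroup.le_normalizer_of_normal ((Subgroup.closure_le _).mpr hY) (Subgroup.mem_top x) (by
        rw [MonoidHom.map_closure, Subgroup.closure_le]
        exact hx)
    exact ⟨u, hu.2, c, Subgroup.centralizer_le Subgroup.subset_closure hc.2, rfl⟩
  · obtain ⟨c, hc, h⟩ := Cfsg.Lib.Coprime.exists_centralizer_inf_conj_le hK S.isPGroup'
      Subgroup.le_normalizer_of_normal hQ (by
        rw [(Cfsg.Lib.Coprime.pLengthLE_one_iff_sup S).mp hpl]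
        exact Cfsg.Lib.Coprime.le_pPrimePCore_of_pLengthLE_one hpl hQ)
    exact ⟨c, hc.2, h⟩

end Cfsg.Agent.S1461
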