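import Cfsg.Statements.S1463
import Cfsg.Agent.Lib.PLocal.TwoDimCor

set_option autoImplicit false
open scoped MatrixGroups
open Cfsg

namespace Cfsg.Agent.S1463

/-- Let F be a field of odd characteristic p and H a finite subgroup of odd order of GL(2, F) that leaves no 1-dimensional subspace of F² invariant. Then p does not divide the order of H. -/
theorem result {F : Type*} [Field F] (p : ℕ) [Fact p.Prime] [CharP F p] (hp : p ≠ 2)
    (H : Subgroup (GL (Fin 2) F)) [Finite H] (hodd : Odd (Nat.card H))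
    (hirr : ∀ v : Fin 2 → F, v ≠ 0 → ∃ g ∈ H, (g : Matrix (Fin 2) (Fin 2) F).mulVec v ∉ Submodule.span F {v}) :
    ¬ p ∣ Nat.card H := by
  intro hd
  obtain ⟨t, ht⟩ := exists_prime_orderOf_dvd_card' p hd
  let ψ : H →* Matrix (Fin 2) (Fin 2) F := (Units.coeHom _).comp H.subtype
  have hψ : Function.Injective ψ := Units.val_injective.comp Subtype.val_injective
  have h1 : ψ t ≠ 1 := fun h => by
    have : t = 1 := hψ (h.trans (map_one _).symm)
    rw [this, orderOf_one] at ht
    exact (Fact.out : p.Prime).one_lt.ne ht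
  have h2 : ψ t ^ p ^ 1 = 1 := by rw [pow_one, ← map_pow, ← ht, pow_orderOf_eq_one, map_one]
  obtain ⟨v, hv, h⟩ := Cfsg.Lib.PLocal.exists_common_eig_of_odd_of_unipotent hodd ψ h1
    (Cfsg.Lib.PLocal.sub_one_sq_eq_zero_of_pow_char_pow p h2)
  obtain ⟨g, hg, hg'⟩ := hirr v hv
  obtain ⟨c, hc⟩ := h ⟨g, hg⟩
  exact hg' (Submodule.mem_span_singleton.mpr ⟨c, hc.symm⟩)

end Cfsg.Agent.S1463
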