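import Cfsg.Statements.S1466
import Cfsg.Agent.Lib.PLocal.Puig

set_option autoImplicit false
open Cfsg

set_option linter.unusedVariables false
open Cfsg.Lib

namespace Cfsg.Agent.S1466

/-- Let p be a prime and R a nontrivial finite p-group. Then for every i > 0, Z(R) ≤ C_R(L_i(R)) ≤ L_i(R); likewise Z(R) ≤ C_R(L_*(R)) ≤ L_*(R) and Z(R) ≤ C_R(L(R)) ≤ L(R); and L(R) ≠ 1, L_*(R) ≠ 1. -/
theorem result {R : Type*} [Group R] [Finite R] (p : ℕ) [Fact p.Prime] (hR : IsPGroup p R) [Nontrivial R] :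
    (∀ i : ℕ, 0 < i → Subgroup.center R ≤ Subgroup.centralizer ((Cfsg.puigSeq R i : Subgroup R) : Set R) ∧
        Subgroup.centralizer ((Cfsg.puigSeq R i : Subgroup R) : Set R) ≤ Cfsg.puigSeq R i) ∧
      (Subgroup.center R ≤ Subgroup.centralizer ((Cfsg.puigLower R : Subgroup R) : Set R) ∧ Subgroup.centralizer ((Cfsg.puigLower R : Subgroup R) : Set R) ≤ Cfsg.puigLower R) ∧
      (Subgroup.center R ≤ Subgroup.centralizer ((Cfsg.puigSubgroup R : Subgroup R) : Set R) ∧ Subgroup.centralizer ((Cfsg.puigSubgroup R : Subgroup R) : Set R) ≤ Cfsg.puigSubgroup R) ∧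
      Cfsg.puigSubgroup R ≠ ⊥ ∧ Cfsg.puigLower R ≠ ⊥ := by
  have hR' := Core.isPGroup_top_iff.mpr hR
  have h1 := PLocal.inf_centralizer_puigLowIn_le hR'
  have h2 := PLocal.inf_centralizer_puigIn_le hR'
  rw [top_inf_eq, PLocal.puigLowIn_top] at h1
  rw [top_inf_eq, PLocal.puigIn_top] at h2
  have h0 : ∀ L : Subgroup R, Subgroup.centralizer (L : Set R) ≤ L → L ≠ ⊥ := by
    rintro _ h rfl
    obtain ⟨x, hx⟩ := exists_ne (1 : R)
    exact hx (h fun y hy => by rw [show y = 1 from hy, one_mul, mul_one])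
  refine ⟨fun i hi => ⟨Subgroup.center_le_centralizer _, ?_⟩, ⟨Subgroup.center_le_centralizer _, h1⟩,
    ⟨Subgroup.center_le_centralizer _, h2⟩, h0 _ h2, h0 _ h1⟩
  obtain ⟨i, rfl⟩ := Nat.exists_eq_succ_of_ne_zero hi.ne'
  have h3 := PLocal.inf_centralizer_puigSeqIn_le hR' i
  rwa [top_inf_eq, PLocal.puigSeqIn_top] at h3

end Cfsg.Agent.S1466
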