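import Cfsg.Statements.S1468
import Cfsg.Agent.Lib.PLocal.Puig

set_option autoImplicit false
open Cfsg

set_option linter.unusedVariables false
open Cfsg.Lib

namespace Cfsg.Agent.S1468

/-- Let p be an odd prime, G a solvable group of odd order with O_{p'}(G) = 1, S a Sylow p-subgroup and T = O_p(G). Then, viewing the Puig subgroups of S and of T inside G, L_*(S) ≤ L_*(T) ≤ L(T) ≤ L(S). -/
theorem result {G : Type*} [Group G] [Finite G] [Group.IsSolvable G] (hodd : Odd (Nat.card G)) (p : ℕ) [Fact p.Prime] (hp : p ≠ 2) (hO : Cfsg.pPrimeCore p G = ⊥) (S : Sylow p G) :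
    (Cfsg.puigLower ↥(S : Subgroup G)).map (S : Subgroup G).subtype ≤ (Cfsg.puigLower ↥(Cfsg.pCore p G)).map (Cfsg.pCore p G).subtype ∧
      (Cfsg.puigLower ↥(Cfsg.pCore p G)).map (Cfsg.pCore p G).subtype ≤ (Cfsg.puigSubgroup ↥(Cfsg.pCore p G)).map (Cfsg.pCore p G).subtype ∧
      (Cfsg.puigSubgroup ↥(Cfsg.pCore p G)).map (Cfsg.pCore p G).subtype ≤ (Cfsg.puigSubgroup ↥(S : Subgroup G)).map (S : Subgroup G).subtype := by
  have hst := (PLocal.secStable_of_odd hp hodd).normalStable
  have hc := Core.centralizer_pCore_le_of_isPSolvable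
    (Core.isPSolvable_of_isSolvable (G := G) (p := p) inferInstance) hO
  simp only [PLocal.map_subtype_puigLower, PLocal.map_subtype_puigSubgroup]
  exact ⟨iSup_mono (PLocal.puigSeqIn_sylow_le hst hc S), PLocal.puigLowIn_le_puigIn _,
    PLocal.puigIn_pCore_le hst hc S⟩

end Cfsg.Agent.S1468
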