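import Cfsg.Statements.S1470
import Cfsg.Agent.Lib.AppC.Field

set_option autoImplicit false
open Cfsg

namespace Cfsg.Agent.S1470

open Cfsg.Lib.AppC

/-- Let p and q be odd primes with (p^q − 1)/(p − 1) coprime to p − 1, and let E be the set of elements a of the field with p ^ q elements whose norm to the prime field is 1 and for which 2 − a also has norm 1. If a⁻¹ ∈ E for every a ∈ E and E has at least two elements, then p ≤ q. -/
theorem result (p q : ℕ) [Fact p.Prime] [Fact q.Prime] (hp : p ≠ 2) (hq : q ≠ 2) (hA : Nat.Coprime ((p ^ q - 1) / (p - 1)) (p - 1))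
    (hinv : ∀ a ∈ {a : GaloisField p q | Algebra.norm (ZMod p) a = 1 ∧ Algebra.norm (ZMod p) (2 - a) = 1}, a⁻¹ ∈ {a : GaloisField p q | Algebra.norm (ZMod p) a = 1 ∧ Algebra.norm (ZMod p) (2 - a) = 1})
    (h2 : 2 ≤ Set.ncard {a : GaloisField p q | Algebra.norm (ZMod p) a = 1 ∧ Algebra.norm (ZMod p) (2 - a) = 1}) :
    p ≤ q := by
  have hq0 : q ≠ 0 := (Fact.out : q.Prime).ne_zero
  rw [setOf_norm_eq hq0] at hinv h2
  obtain ⟨a, ha, b, hb, hab⟩ := (Set.one_lt_ncard (Set.toFinite _)).1 h2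
  by_cases ha1 : a = 1
  · exact le_of_inv_mem hq0 hinv hb fun h => hab (ha1.trans h.symm)
  · exact le_of_inv_mem hq0 hinv ha ha1

end Cfsg.Agent.S1470
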