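import Cfsg.Statements.S1476
import Cfsg.Agent.Lib.Frobenius.CN

set_option autoImplicit false
open Cfsg

namespace Cfsg.Agent.S1476

/-- Let G be a finite solvable group in which every non-identity element has nilpotent centralizer. Then either G is nilpotent; or G has a normal subgroup K with a Frobenius complement E (K E = G, K ∩ E = 1, E meets its conjugates by outside elements trivially) such that E is cyclic or E is generated by two elementwise-commuting subgroups, one cyclic of odd order and one isomorphic to a generalized quaternion group; or G is a three-step group with respect to some prime p. -/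
theorem result {G : Type*} [Group G] [Finite G] [Group.IsSolvable G] (hCN : Cfsg.IsCNGroup G) :
    Group.IsNilpotent G ∨
      (∃ K E : Subgroup G, K.Normal ∧ Subgroup.IsComplement' K E ∧ Cfsg.IsFrobeniusComplement E ∧
        (IsCyclic E ∨ ∃ C Q : Subgroup G, C ⊔ Q = E ∧ (∀ a ∈ C, ∀ b ∈ Q, a * b = b * a) ∧ IsCyclic C ∧ Odd (Nat.card C) ∧
          ∃ n : ℕ, Nonempty (↥Q ≃* QuaternionGroup (2 ^ n)))) ∨
      ∃ p : ℕ, p.Prime ∧ Cfsg.IsThreeStepGroup p G := by
  by_cases hnn : Group.IsNilpotent G
  · exact Or.inl hnn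
  right
  by_cases hns : ∃ (p : ℕ) (_ : Fact p.Prime) (P : Sylow p G), (P : Subgroup G).Normal ∧
      (P : Subgroup G) ≠ ⊥
  · obtain ⟨p, _, P, hPn, hP1⟩ := hns
    obtain ⟨h1, h2, E, h3, h4, h5, h6⟩ :=
      Cfsg.Lib.Frobenius.cn_frobenius_of_normal_sylow hCN hnn P hP1 hPn
    refine Or.inl ⟨_, E, inferInstance, h3, h4, ?_⟩
    rcases Cfsg.Lib.Frobenius.nil_semiReg_structure h1 Subgroup.le_normalizer_of_normal h5 h6 with
      h | ⟨C, Q, a1, a2, a3, a4, n, a5⟩
    · exact Or.inl h
    · exact Or.inr ⟨C, Q, a1, a2, a3, a4, n + 1, a5⟩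
  · right
    haveI : Nontrivial G := by
      by_contra h
      haveI := not_nontrivial_iff_subsingleton.1 h
      exact hnn inferInstance
    refine Cfsg.Lib.Frobenius.cn_threeStep hCN fun p _ P hP => ?_
    by_contra h
    exact hns ⟨p, inferInstance, P, hP, h⟩

end Cfsg.Agent.S1476
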