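import Cfsg.Statements.S1477
import Cfsg.Agent.Lib.Frobenius.CN

set_option autoImplicit false
open Cfsg

namespace Cfsg.Agent.S1477

/-- Let G be a finite group in which every non-identity element has nilpotent centralizer, and H a nilpotent subgroup not properly contained in any nilpotent subgroup. Then the order of H is coprime to its index; if the order of H is not a prime power then H ∩ gHg⁻¹ = 1 whenever gHg⁻¹ ≠ H; and if H ∩ gHg⁻¹ = 1 whenever gHg⁻¹ ≠ H, then C_G(x) ≤ H for every non-identity x ∈ H. -/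
theorem result {G : Type*} [Group G] [Finite G] (hCN : Cfsg.IsCNGroup G) (H : Subgroup G) (hH : Group.IsNilpotent H)
    (hmax : ∀ L : Subgroup G, Group.IsNilpotent L → H ≤ L → L = H) :
    (Nat.card H).Coprime H.index ∧
      (¬ IsPrimePow (Nat.card H) → Nat.card H ≠ 1 → ∀ g : G, H.map (MulAut.conj g).toMonoidHom ≠ H → H ⊓ H.map (MulAut.conj g).toMonoidHom = ⊥) ∧
      ((∀ g : G, H.map (MulAut.conj g).toMonoidHom ≠ H → H ⊓ H.map (MulAut.conj g).toMonoidHom = ⊥) → ∀ x ∈ H, x ≠ 1 → Subgroup.centralizer ({x} : Set G) ≤ H) := by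
  refine ⟨Cfsg.Lib.Frobenius.cn_maxnil_coprime hCN hH hmax, fun h1 h2 g hg => ?_,
    fun h x hx x1 => Cfsg.Lib.Frobenius.cn_maxnil_cent_le hCN hH hmax hx x1 fun c hc => ?_⟩
  · by_contra hne
    have hpp : ∀ p : ℕ, p.Prime → ¬ IsPGroup p H := by
      intro p hp hP
      haveI := Fact.mk hp
      obtain ⟨n, hn⟩ := hP.exists_card_eq
      refine h1 ⟨p, n, hp.prime, Nat.pos_of_ne_zero ?_, hn.symm⟩
      rintro rfl
      exact h2 (by simpa using hn)
    refine hg (Subgroup.eq_of_le_of_card_ge (Cfsg.Lib.Frobenius.cn_maxnil_eq hCN hH hmax hpp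
      ((Cfsg.Lib.BG.nil_conj g).2 hH) (fun p hp hP => hpp p hp ?_) hne) ?_)
    · exact (Cfsg.Lib.Core.isPGroup_map_iff (MulAut.conj g).injective).1 hP
    · exact (Subgroup.card_map_of_injective (MulAut.conj g).injective).ge
  · by_contra hn
    have := h c (fun e => hn (Subgroup.mem_normalizer_iff_map_conj_eq.2 e))
    have hx' : x ∈ H ⊓ H.map (MulAut.conj c).toMonoidHom := by
      refine ⟨hx, x, hx, ?_⟩
      have := Subgroup.mem_centralizer_singleton_iff.1 hc
      simp [this]
    rw [this] at hx'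
    exact x1 hx'

end Cfsg.Agent.S1477
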