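import Cfsg.Statements.S1481
import Cfsg.Agent.Lib.BG.T08_0
-- import your own Cfsg.Agent.* helpers here

set_option autoImplicit false
open Cfsg

namespace Cfsg.Agent.S1481
open Cfsg.Lib Cfsg.Lib.BG Subgroup
open scoped Cfsg.Lib.Transfer

/-- Let G be a finite group and H a local subgroup (the normalizer of a nontrivial subgroup of prime-power order) not properly contained in any local subgroup; let F = F(H), suppose at least two primes divide #F, put X = H ∩ C_G(F), let M ≤ F with F ∩ C_G(M) ≤ M, and let R be a solvable subgroup normalized by M and by X. Then for every prime q not dividing #F there is exactly one maximal M-invariant q-subgroup of R, and it is a Sylow q-subgroup of the largest normal subgroup of R of order coprime to #F. -/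
theorem result {G : Type*} [Group G] [Finite G] (H : Subgroup G) (hH : Cfsg.IsLocalSubgroup H) (hHmax : ∀ L : Subgroup G, Cfsg.IsLocalSubgroup L → H ≤ L → L = H)
    (hF2 : 2 ≤ (Nat.card (Cfsg.fittingOf H)).primeFactors.card)
    (M : Subgroup G) (hM : M ≤ Cfsg.fittingOf H) (hCM : Cfsg.fittingOf H ⊓ Subgroup.centralizer (M : Set G) ≤ M)
    (R : Subgroup G) (hR : Group.IsSolvable R) (hMR : M ≤ Subgroup.normalizer (R : Set G))
    (hXR : H ⊓ Subgroup.centralizer (Cfsg.fittingOf H : Set G) ≤ Subgroup.normalizer (R : Set G))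
    (q : ℕ) [Fact q.Prime] (hq : ¬ q ∣ Nat.card (Cfsg.fittingOf H)) :
    ∃! Q : Subgroup G, Q ∈ Cfsg.maxInvSubgroups R M {q} ∧
      (∀ Q' : Subgroup G, Q' ∈ Cfsg.maxInvSubgroups R M {q} →
        Q' ≤ Cfsg.piCoreOf (Cfsg.primesNotDvd (Nat.card (Cfsg.fittingOf H))) R ∧
        ¬ q ∣ Q'.relIndex (Cfsg.piCoreOf (Cfsg.primesNotDvd (Nat.card (Cfsg.fittingOf H))) R)) := by
  have h : BenderHyp H M := ⟨hM, (inf_le_inf_left _ (cent_anti hM)).trans hCM, exists_prime_ne_of_two_le hF2,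
    fun r hr hd => by
      haveI := Fact.mk hr
      exact (cent_le_norm _).trans (hHmax _ ⟨r, _, hr, pcore_pgroup r _, nil_pcore_center_ne_bot (Fitting_nil H) hd, rfl⟩
        ((Fitting_nml H).center.pcore _).norm).le⟩
  simp only [pcore_primesNotDvd]
  set π : Set ℕ := {r | r ∣ Nat.card 𝐅(H)} with hπ
  have hq' : ({q} : Set ℕ) ⊆ πᶜ := fun r hr => hr ▸ hq
  have πM : PiGrp π M := (PiGrp.self _).of_le hM
  have hC : ∀ Y : Subgroup G, Y ≤ R → PiGrp πᶜ Y → Y ⊓ 𝐂(M) = ⊥ := fun Y hYR hY => by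
    have h1 := h.le_cent_Fitting hCM (hY.of_le inf_le_left) (inf_le_right : Y ⊓ 𝐂(M) ≤ _)
    have n1 : Nml (H ⊓ 𝐂(𝐅(H))) H := Nml.cent (Fitting_nml H).norm
    have n2 : Nml (R ⊓ (H ⊓ 𝐂(𝐅(H)))) (H ⊓ 𝐂(𝐅(H))) := ⟨inf_le_right, norm_inf hXR (le_norm _)⟩
    have h2 : 𝐅(R ⊓ (H ⊓ 𝐂(𝐅(H)))) ≤ 𝐅(H) := n2.Fitting_le.trans n1.Fitting_le
    have h3 : R ⊓ (H ⊓ 𝐂(𝐅(H))) ≤ 𝐅(H) :=
      ((le_inf le_rfl ((inf_le_right.trans inf_le_right).trans (cent_anti h2))).trans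
        (cent_sub_Fitting (sol_of_le hR inf_le_left))).trans h2
    exact ((PiGrp.self _).of_le ((le_inf (inf_le_left.trans hYR) h1).trans h3)).eq_bot (hY.of_le inf_le_left)
  have sX : Group.IsSolvable ↥(R ⊔ M) := by
    rw [← copre_quo hMR]; exact sol_copre hR (sol_quo (nil_sol h.nil) R)
  have nL : M ≤ 𝐍(𝐎(πᶜ, R)) := norm_pcore hMR _
  have cL := πM.coprime (pcore_pi πᶜ R)
  have syl : ∀ Q ∈ maxInvSubgroups R M {q}, Syl q Q 𝐎(πᶜ, R) := fun Q hQ => by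
    have pQ := (maxInv_pi hQ).mono hq'
    have h1 : Q ≤ 𝐎(πᶜ, R) := (le_inf (h.inv_le_pcore sX le_sup_right ((maxInv_le hQ).trans le_sup_left) pQ
      (maxInv_norm hQ) (hC Q (maxInv_le hQ) pQ)) (maxInv_le hQ)).trans (pcore_inf_le le_sup_left)
    obtain ⟨S, hS, hle, hn⟩ := Syl.exists_inv_ge nL cL (Or.inl (nil_sol h.nil)) (maxInv_pi hQ).pgroup h1 (maxInv_norm hQ)
    rwa [maxInv_max hQ (hS.le.trans (pcore_le _ _)) hS.pi hn hle] at hS
  obtain ⟨Q, hQ, -⟩ := maxInv_exists (H := R) (A := M) (π := {q}) bot_le PiGrp.bot (by rw [norm_bot]; exact le_top)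
  refine ⟨Q, ⟨hQ, fun Q' hQ' => ⟨(syl Q' hQ').le, (syl Q' hQ').not_dvd'⟩⟩, fun Q' hQ' => ?_⟩
  obtain ⟨c, hc, e⟩ := (syl Q hQ).inv_trans (syl Q' hQ'.1) nL cL (Or.inl (nil_sol h.nil)) (maxInv_norm hQ)
    (maxInv_norm hQ'.1)
  rw [hC _ (pcore_le _ _) (pcore_pi _ _), mem_bot] at hc
  rw [e, hc, Transfer.conj_one]

end Cfsg.Agent.S1481
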