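import Cfsg.Statements.S1485
import Cfsg.Agent.Lib.Clifford.Basic

set_option autoImplicit false
open Cfsg

namespace Cfsg.Agent.S1485

/-- Let H be a normal subgroup of the finite group G and θ an irreducible character of H. On H, the function induced from θ equals r times the sum of the distinct G-conjugates of θ, where r is the number of elements of G fixing θ under conjugation divided by the order of H (the index of H in the inertia group). -/
theorem result {G : Type*} [Group G] [Fintype G] (H : Subgroup G) [hN : H.Normal] (θ : H → ℂ) (hθ : Cfsg.IsIrrCharacter H θ) : (fun h : H => Cfsg.indFun H θ h) = ((Nat.card {g : G // ∀ h : H, θ ⟨g * h * g⁻¹, hN.conj_mem h h.2 g⟩ = θ h} : ℂ) / (Nat.card H : ℂ)) • ∑ᶠ ψ ∈ {ψ : H → ℂ | ∃ g : G, ψ = fun h : H => θ ⟨g * h * g⁻¹, hN.conj_mem h h.2 g⟩}, ψ := by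
  classical
  let := Fintype.ofFinite (G ⧸ Cfsg.Lib.Clifford.inertia H θ)
  rw [Cfsg.Lib.Clifford.res_indFun, Cfsg.Lib.Clifford.sum_conjChar_eq, smul_smul]
  have h1 : Nat.card {g : G // ∀ h : H, θ ⟨g * h * g⁻¹, hN.conj_mem h h.2 g⟩ = θ h} =
      Nat.card (Cfsg.Lib.Clifford.inertia H θ) :=
    Nat.card_congr (Equiv.subtypeEquivRight fun g => (Cfsg.Lib.Clifford.mem_inertia_iff H).symm)
  have h2 : {ψ : H → ℂ | ∃ g : G, ψ = fun h : H => θ ⟨g * h * g⁻¹, hN.conj_mem h h.2 g⟩} =
      ↑(Finset.univ.image (fun q : G ⧸ Cfsg.Lib.Clifford.inertia H θ =>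
        Cfsg.Lib.Clifford.conjChar H q.out⁻¹ θ)) := by
    ext ψ
    simp only [Set.mem_setOf_eq, Finset.coe_image, Finset.coe_univ, Set.image_univ, Set.mem_range]
    constructor
    · rintro ⟨g, rfl⟩
      exact Cfsg.Lib.Clifford.exists_conjChar_eq_out H θ g
    · rintro ⟨q, rfl⟩
      exact ⟨_, rfl⟩
  rw [h1, h2, finsum_mem_coe_finset, Finset.sum_image
    (fun a _ b _ h => Cfsg.Lib.Clifford.conjChar_out_injective H θ h), div_eq_inv_mul]

end Cfsg.Agent.S1485
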