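import Cfsg.Statements.S1490
import Cfsg.Agent.Lib.Clifford.Gallagher

set_option autoImplicit false
open Cfsg

namespace Cfsg.Agent.S1490

/-- Let H be a normal subgroup of the finite group G, θ an irreducible character of H with inertia group T, and suppose the commutator of any two elements of T lies in H (T/H abelian). Then there are a positive integer e and a finite set C of irreducible characters of G with e ^ 2 * |C| * |H| = |T|, such that the function induced from θ is e times the sum of the members of C and every member of C has degree [G:T] * e * θ(1). -/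
theorem result {G : Type*} [Group G] [Fintype G] (H T : Subgroup G) [hN : H.Normal] (θ : H → ℂ) (hθ : Cfsg.IsIrrCharacter H θ) (hT : ∀ g : G, g ∈ T ↔ ∀ h : H, θ ⟨g * h * g⁻¹, hN.conj_mem h h.2 g⟩ = θ h) (hab : ∀ x ∈ T, ∀ y ∈ T, x * y * x⁻¹ * y⁻¹ ∈ H) : ∃ (e : ℕ) (C : Finset (G → ℂ)), 0 < e ∧ (∀ χ ∈ C, Cfsg.IsIrrCharacter G χ) ∧ e ^ 2 * C.card * Nat.card H = Nat.card T ∧ Cfsg.indFun H θ = (e : ℂ) • ∑ χ ∈ C, χ ∧ ∀ χ ∈ C, χ 1 = (T.index : ℂ) * e * θ 1 := by
  let := Fintype.ofFinite H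
  obtain rfl : T = Cfsg.Lib.Clifford.inertia H θ :=
    Subgroup.ext fun g => (hT g).trans (Cfsg.Lib.Clifford.mem_inertia_iff H).symm
  obtain ⟨e, C, he, h1, h2, h3, h4⟩ :=
    Cfsg.Lib.Clifford.indFun_eq_smul_sum_of_abelian_inertia H hθ hab
  refine ⟨e, C, he, fun χ hχ => ((h1 χ).1 hχ).1, ?_, h3, h4⟩
  rw [h2, mul_comm]
  exact Cfsg.Lib.Core.card_mul_relIndex (Cfsg.Lib.Clifford.le_inertia H
    (Cfsg.Lib.Char.Cfsg.IsIrrCharacter.isClassFunction hθ))

end Cfsg.Agent.S1490
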