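import Cfsg.Statements.S1491
import Cfsg.Agent.Lib.Clifford.Extension

set_option autoImplicit false
open Cfsg

namespace Cfsg.Agent.S1491

/-- Let H be a normal subgroup of the finite group G and θ an irreducible character of H with inertia group T, where T/H is abelian (commutators of T lie in H) and the index of H in T is coprime to the order of H. Then the function induced from θ is the sum of a set of exactly [T:H] irreducible characters of G, each of degree [G:T] * θ(1). -/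
theorem result {G : Type*} [Group G] [Fintype G] (H T : Subgroup G) [hN : H.Normal] (θ : H → ℂ) (hθ : Cfsg.IsIrrCharacter H θ) (hT : ∀ g : G, g ∈ T ↔ ∀ h : H, θ ⟨g * h * g⁻¹, hN.conj_mem h h.2 g⟩ = θ h) (hab : ∀ x ∈ T, ∀ y ∈ T, x * y * x⁻¹ * y⁻¹ ∈ H) (hcop : Nat.Coprime (Nat.card H) (H.relIndex T)) : ∃ C : Finset (G → ℂ), (∀ χ ∈ C, Cfsg.IsIrrCharacter G χ) ∧ C.card = H.relIndex T ∧ Cfsg.indFun H θ = ∑ χ ∈ C, χ ∧ ∀ χ ∈ C, χ 1 = (T.index : ℂ) * θ 1 := by
  let := Fintype.ofFinite H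
  obtain rfl : T = Cfsg.Lib.Clifford.inertia H θ :=
    Subgroup.ext fun g => (hT g).trans (Cfsg.Lib.Clifford.mem_inertia_iff H).symm
  obtain ⟨η, hη, he⟩ := Cfsg.Lib.Clifford.exists_extension_le_of_coprime H
    (Cfsg.Lib.Clifford.le_inertia H (Cfsg.Lib.Char.Cfsg.IsIrrCharacter.isClassFunction hθ))
    hθ le_rfl hcop
  obtain ⟨C, h1, h2⟩ := Cfsg.Lib.Clifford.indFun_eq_sum_of_abelian_inertia_of_extends H hθ hab
    (Cfsg.Lib.Char.Cfsg.IsIrrCharacter.isCharacter hη) he
  exact ⟨C, fun χ hχ => ((h1 χ).1 hχ).1, h2⟩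

end Cfsg.Agent.S1491
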