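import Cfsg.Statements.S1492
import Cfsg.Agent.Lib.PF.Sec1Clifford

set_option autoImplicit false
open Cfsg

namespace Cfsg.Agent.S1492

/-- Let ψ be an irreducible character of the finite group G and B ≤ D ≤ C subgroups with B normal in C, every commutator of an element of D with an element of C lying in B (so D/B is central in C/B), and ψ constant equal to ψ 1 on B. Then ψ(1) ^ 2 * |C| * |D| ≤ |G| ^ 2. -/
theorem result {G : Type*} [Group G] [Finite G] (ψ : G → ℂ) (hψ : Cfsg.IsIrrCharacter G ψ) (B C D : Subgroup G) (hBD : B ≤ D) (hDC : D ≤ C) (hBn : ∀ c ∈ C, ∀ b ∈ B, c * b * c⁻¹ ∈ B) (hcent : ∀ d ∈ D, ∀ c ∈ C, d * c * d⁻¹ * c⁻¹ ∈ B) (hker : ∀ b ∈ B, ψ b = ψ 1) : ‖ψ 1‖ ^ 2 * (Nat.card C : ℝ) * (Nat.card D : ℝ) ≤ (Nat.card G : ℝ) ^ 2 := by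
  have h1 := Cfsg.Lib.PF.mem_Irr_top.2 hψ
  have h2 := Cfsg.Lib.PF.Irr.deg_sq_le (B := B) (C := C) (D := D) h1
    (fun b hb => (Cfsg.Lib.PF.Irr.mem_cfker_iff h1).2 (hker b hb)) hDC le_top (hBD.trans hDC)
    fun d hd c hc => by simpa [mul_assoc] using B.inv_mem (hcent d hd c hc)
  rw [Cfsg.Lib.PF.Irr.apply_one h1, Complex.norm_natCast, ← Subgroup.card_mul_index C,
    ← Cfsg.Lib.PF.card_mul_relIndex' hDC]
  rw [Subgroup.relIndex_top_right] at h2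
  have h3 : (Cfsg.Lib.PF.deg ψ : ℝ) ^ 2 ≤ (C.index : ℝ) ^ 2 * D.relIndex C := by exact_mod_cast h2
  push_cast
  calc (Cfsg.Lib.PF.deg ψ : ℝ) ^ 2 * (Nat.card D * D.relIndex C) * Nat.card D
      ≤ (C.index : ℝ) ^ 2 * D.relIndex C * (Nat.card D * D.relIndex C) * Nat.card D := by gcongr
    _ = _ := by ring

end Cfsg.Agent.S1492
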