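import Cfsg.Statements.S1497
import Cfsg.Agent.Lib.PF.Sec2Dade

set_option autoImplicit false
open Cfsg

namespace Cfsg.Agent.S1497

open Cfsg.Lib.PF in

/-- Let A be a nonempty subset of the finite group G not containing 1 and L a subgroup. Then A is a TI-subset whose normaliser is L if and only if the Dade hypothesis holds for A, L and the constant choice H(a) = ⊥. -/
theorem result {G : Type*} [Group G] [Finite G] (A : Set G) (hA : A.Nonempty) (h1 : (1 : G) ∉ A) (L : Subgroup G) : (Cfsg.IsTISubset A ∧ Subgroup.normalizer A = L) ↔ Cfsg.DadeHypothesis A L (fun _ => ⊥) := by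
  constructor
  · intro h
    exact Dade.of_normedTI ((normedTI_top_iff h1).2 ⟨hA, h⟩) h1
  · intro h
    exact ((normedTI_top_iff h1).1 (Dade.normedTI_of_eq_bot h hA fun _ _ => rfl)).2

end Cfsg.Agent.S1497
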