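import Cfsg.Statements.S1499
import Cfsg.Agent.Lib.PF.Sec2Dade

set_option autoImplicit false
open Cfsg

namespace Cfsg.Agent.S1499

open Cfsg.Lib.PF in

/-- Under the Dade hypothesis for (A, L, H), let a, b ∈ A. If an element of the coset a·H(a) is conjugate in G to an element of b·H(b), then a and b are conjugate by an element of L. Moreover the set normaliser of the coset a·H(a) is the centraliser of a. -/
theorem result {G : Type*} [Group G] [Finite G] (A : Set G) (L : Subgroup G) (H : G → Subgroup G) (hD : Cfsg.DadeHypothesis A L H) (a b : G) (ha : a ∈ A) (hb : b ∈ A) : ((∃ u ∈ H a, ∃ v ∈ H b, ∃ g : G, g * (a * u) * g⁻¹ = b * v) → ∃ x ∈ L, x * a * x⁻¹ = b) ∧ Subgroup.normalizer ((fun u : G => a * u) '' (H a : Set G)) = Subgroup.centralizer ({a} : Set G) := by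
  refine ⟨fun ⟨u, hu, v, hv, g, h⟩ => Dade.conj_of_conj_mul hD ha hb hu hv h, ?_⟩
  ext g
  constructor
  · intro hg
    obtain ⟨v, hv, e⟩ := (hg (a * 1)).1 ⟨1, one_mem _, rfl⟩
    have := Dade.conj_eq_of_conj_mul hD ha ha (one_mem _) hv e.symm
    exact Subgroup.mem_centralizer_singleton_iff.2 (mul_inv_eq_iff_eq_mul.1 this)
  · intro hg
    have key : ∀ g ∈ Subgroup.centralizer ({a} : Set G), ∀ y ∈ (fun u : G => a * u) '' (H a : Set G),
        g * y * g⁻¹ ∈ (fun u : G => a * u) '' (H a : Set G) := by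
      rintro g hg _ ⟨u, hu, rfl⟩
      refine ⟨g * u * g⁻¹, hD.conj_mem_H a ha g hg u hu, ?_⟩
      simp only [← mul_assoc, Subgroup.mem_centralizer_singleton_iff.1 hg]
    exact fun y => ⟨key g hg y, fun h => by simpa [mul_assoc] using key g⁻¹ (inv_mem hg) _ h⟩

end Cfsg.Agent.S1499
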