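import Cfsg.Statements.S1504
import Cfsg.Agent.Lib.Char.Orthogonality

set_option autoImplicit false
open Cfsg

namespace Cfsg.Agent.S1504

open Cfsg.Lib.Char

/-- Let W₁, W₂ be subgroups of a finite group with W₁ ⊓ W₂ = ⊥ whose elements commute, and W = W₁ ⊔ W₂. For linear characters φ, ψ of W with φ trivial on W₂ and ψ trivial on W₁, the function (1 − φ)(1 − ψ) vanishes on W₁ ∪ W₂; and the family of these functions, indexed by pairs (φ, ψ) with φ ≠ 1 ≠ ψ, is linearly independent over ℂ. -/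
theorem result {G : Type*} [Group G] [Finite G] (W₁ W₂ : Subgroup G) (hdisj : W₁ ⊓ W₂ = ⊥) (hcomm : ∀ a ∈ W₁, ∀ b ∈ W₂, a * b = b * a) : (∀ φ ψ : ↥(W₁ ⊔ W₂) →* ℂˣ, (∀ w : ↥(W₁ ⊔ W₂), (w : G) ∈ W₂ → φ w = 1) → (∀ w : ↥(W₁ ⊔ W₂), (w : G) ∈ W₁ → ψ w = 1) → ∀ w : ↥(W₁ ⊔ W₂), ((w : G) ∈ W₁ ∨ (w : G) ∈ W₂) → (1 - (φ w : ℂ) - (ψ w : ℂ) + (φ w : ℂ) * (ψ w : ℂ)) = 0) ∧ LinearIndependent ℂ (fun p : {p : (↥(W₁ ⊔ W₂) →* ℂˣ) × (↥(W₁ ⊔ W₂) →* ℂˣ) // p.1 ≠ 1 ∧ p.2 ≠ 1 ∧ (∀ w : ↥(W₁ ⊔ W₂), (w : G) ∈ W₂ → p.1 w = 1) ∧ (∀ w : ↥(W₁ ⊔ W₂), (w : G) ∈ W₁ → p.2 w = 1)} => fun w : ↥(W₁ ⊔ W₂) => 1 - (p.1.1 w : ℂ) - (p.1.2 w : ℂ) + (p.1.1 w : ℂ) * (p.1.2 w : ℂ)) := by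
  classical
  refine ⟨fun φ ψ h1 h2 w hw => ?_, ?_⟩
  · rcases hw with hw | hw
    · simp [h2 w hw]
    · simp [h1 w hw]
  haveI : Fintype ↥(W₁ ⊔ W₂) := Fintype.ofFinite _
  have ext : ∀ φ ψ : ↥(W₁ ⊔ W₂) →* ℂˣ, (∀ w : ↥(W₁ ⊔ W₂), (w : G) ∈ W₁ → φ w = ψ w) →
      (∀ w : ↥(W₁ ⊔ W₂), (w : G) ∈ W₂ → φ w = ψ w) → φ = ψ := fun φ ψ h1 h2 => by
    refine MonoidHom.ext fun w => ?_
    have : W₁ ⊔ W₂ ≤ (φ.eqLocus ψ).map (W₁ ⊔ W₂).subtype :=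
      sup_le (fun a ha => ⟨⟨a, Subgroup.mem_sup_left ha⟩, h1 _ ha, rfl⟩)
        (fun a ha => ⟨⟨a, Subgroup.mem_sup_right ha⟩, h2 _ ha, rfl⟩)
    obtain ⟨w', hw', e⟩ := this w.2
    rwa [show w' = w from Subtype.ext e] at hw'
  have inn : ∀ φ ψ : ↥(W₁ ⊔ W₂) →* ℂˣ, classInner (fun w => (φ w : ℂ)) (fun w => (ψ w : ℂ)) =
      if φ = ψ then 1 else 0 := fun φ ψ => by
    rw [(isIrrCharacter_hom φ).inner_eq_ite (isIrrCharacter_hom ψ)]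
    refine if_congr ⟨fun e => MonoidHom.ext fun w => Units.ext (congrFun e w), fun e => by rw [e]⟩
      rfl rfl
  have key : ∀ φ ψ φ' ψ' : ↥(W₁ ⊔ W₂) →* ℂˣ, φ' ≠ 1 → ψ' ≠ 1 →
      (∀ w : ↥(W₁ ⊔ W₂), (w : G) ∈ W₂ → φ w = 1) → (∀ w : ↥(W₁ ⊔ W₂), (w : G) ∈ W₁ → ψ w = 1) →
      (∀ w : ↥(W₁ ⊔ W₂), (w : G) ∈ W₂ → φ' w = 1) → (∀ w : ↥(W₁ ⊔ W₂), (w : G) ∈ W₁ → ψ' w = 1) →
      classInner (fun w => 1 - (φ w : ℂ) - (ψ w : ℂ) + (φ w : ℂ) * (ψ w : ℂ))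
        (fun w => ((φ' * ψ') w : ℂ)) = if φ = φ' ∧ ψ = ψ' then 1 else 0 := by
    intro φ ψ φ' ψ' n1 n2 h1 h2 h1' h2'
    have res : ∀ a b : ↥(W₁ ⊔ W₂) →* ℂˣ, (∀ w : ↥(W₁ ⊔ W₂), (w : G) ∈ W₂ → a w = 1) →
        (∀ w : ↥(W₁ ⊔ W₂), (w : G) ∈ W₁ → b w = 1) → (a * b = φ' * ψ' ↔ a = φ' ∧ b = ψ') := by
      refine fun a b ha hb => ⟨fun e => ⟨ext _ _ (fun w hw => ?_) fun w hw => by rw [ha w hw, h1' w hw],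
        ext _ _ (fun w hw => by rw [hb w hw, h2' w hw]) fun w hw => ?_⟩, fun e => by rw [e.1, e.2]⟩
      · simpa [hb w hw, h2' w hw] using DFunLike.congr_fun e w
      · simpa [ha w hw, h1' w hw] using DFunLike.congr_fun e w
    have e : (fun w => 1 - (φ w : ℂ) - (ψ w : ℂ) + (φ w : ℂ) * (ψ w : ℂ)) =
        (fun w => (((1 : ↥(W₁ ⊔ W₂) →* ℂˣ) * (1 : ↥(W₁ ⊔ W₂) →* ℂˣ)) w : ℂ)) -
        (fun w => ((φ * (1 : ↥(W₁ ⊔ W₂) →* ℂˣ)) w : ℂ)) -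
        (fun w => (((1 : ↥(W₁ ⊔ W₂) →* ℂˣ) * ψ) w : ℂ)) + fun w => ((φ * ψ) w : ℂ) := by
      funext w; simp
    rw [e, classInner_add_left, classInner_sub_left, classInner_sub_left, inn, inn, inn, inn]
    simp only [res _ _ h1 h2, res φ 1 h1 (fun _ _ => rfl), res 1 ψ (fun _ _ => rfl) h2,
      res 1 1 (fun _ _ => rfl) (fun _ _ => rfl)]
    simp [n1.symm, n2.symm]
  rw [linearIndependent_iff']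
  intro s g hs p hp
  have h := congrArg (fun f => classInner f (fun w => ((p.1.1 * p.1.2) w : ℂ))) hs
  simp only [classInner_sum_left, classInner_smul_left] at h
  rw [Finset.sum_eq_single p] at h
  · rw [key _ _ _ _ p.2.1 p.2.2.1 p.2.2.2.1 p.2.2.2.2 p.2.2.2.1 p.2.2.2.2] at h
    simpa [classInner_def] using h
  · intro q _ hq
    rw [key _ _ _ _ p.2.1 p.2.2.1 q.2.2.2.1 q.2.2.2.2 p.2.2.2.1 p.2.2.2.2, if_neg, mul_zero]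
    exact fun e => hq (Subtype.ext (Prod.ext e.1 e.2))
  · exact fun h' => absurd hp h'

end Cfsg.Agent.S1504
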