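import Cfsg.Statements.S1505
import Cfsg.Agent.Lib.PF.Sec3Bridge

set_option autoImplicit false
open Cfsg

namespace Cfsg.Agent.S1505

open Cfsg.Lib.PF

open Classical in
/-- Let W₁, W₂ ≤ G form a self-normalising cyclic subgroup W = W₁ ⊔ W₂. For nontrivial linear characters φ, φ' of W trivial on W₂ and ψ, ψ' trivial on W₁, put α = (1 − φ)(1 − ψ) and α' = (1 − φ')(1 − ψ'). Then the function induced from α to G has inner product 1 with the principal character, and the inner product of the functions induced from α and α' is 1 + a + b + ab where a = 1 if φ = φ' (else 0) and b = 1 if ψ = ψ' (else 0). -/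
theorem result {G : Type*} [Group G] [Fintype G] (W₁ W₂ : Subgroup G) (hW : Cfsg.IsSelfNormalizingCyclic W₁ W₂) (φ φ' ψ ψ' : ↥(W₁ ⊔ W₂) →* ℂˣ) (hφ : φ ≠ 1) (hφ' : φ' ≠ 1) (hψ : ψ ≠ 1) (hψ' : ψ' ≠ 1) (hφ₂ : ∀ w : ↥(W₁ ⊔ W₂), (w : G) ∈ W₂ → φ w = 1 ∧ φ' w = 1) (hψ₁ : ∀ w : ↥(W₁ ⊔ W₂), (w : G) ∈ W₁ → ψ w = 1 ∧ ψ' w = 1) : Cfsg.classInner (Cfsg.indFun (W₁ ⊔ W₂) (fun w => 1 - (φ w : ℂ) - (ψ w : ℂ) + (φ w : ℂ) * (ψ w : ℂ))) (fun _ => 1) = 1 ∧ Cfsg.classInner (Cfsg.indFun (W₁ ⊔ W₂) (fun w => 1 - (φ w : ℂ) - (ψ w : ℂ) + (φ w : ℂ) * (ψ w : ℂ))) (Cfsg.indFun (W₁ ⊔ W₂) (fun w => 1 - (φ' w : ℂ) - (ψ' w : ℂ) + (φ' w : ℂ) * (ψ' w : ℂ))) = 1 + (if φ = φ' then 1 else 0) + (if ψ = ψ' then 1 else 0) + (if φ = φ' then 1 else 0) * (if ψ = ψ' then 1 else 0) := by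
  have h := commProd_of_isSelfNormalizingCyclic hW
  have hTI := normedTI_of_isSelfNormalizingCyclic hW
  have a1 : resR φ = 1 := resR_eq_one_iff.2 fun w hw => (hφ₂ w hw).1
  have a2 : resR φ' = 1 := resR_eq_one_iff.2 fun w hw => (hφ₂ w hw).2
  have b1 : resL ψ = 1 := resL_eq_one_iff.2 fun w hw => (hψ₁ w hw).1
  have b2 : resL ψ' = 1 := resL_eq_one_iff.2 fun w hw => (hψ₁ w hw).2
  have c1 : resL φ ≠ 1 := fun e => hφ (h.res_inj.2 ⟨e, a1⟩)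
  have c2 : resL φ' ≠ 1 := fun e => hφ' (h.res_inj.2 ⟨e, a2⟩)
  have d1 : resR ψ ≠ 1 := fun e => hψ (h.res_inj.2 ⟨b1, e⟩)
  have d2 : resR ψ' ≠ 1 := fun e => hψ' (h.res_inj.2 ⟨b2, e⟩)
  have e1 : resL φ = resL φ' ↔ φ = φ' := by rw [h.res_inj, a1, a2]; simp
  have e2 : resR ψ = resR ψ' ↔ ψ = ψ' := by rw [h.res_inj, b1, b2]; simp
  rw [← h.coe_alpha a1 b1, ← h.coe_alpha a2 b2, ← ind_top, ← ind_top, ← cfdot_top, ← cfdot_top,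
    ← cf1_top, cfdot_ind_left le_top _ (cf1_mem_CF _), h.cfdot_alpha_cf1 le_top c1 d1,
    hTI.cfdot_ind (h.alpha_mem_CFon _ _) (h.alpha_mem_CFon _ _), h.cfdot_alpha c1 c2 d1 d2]
  refine ⟨rfl, ?_⟩
  simp only [e1, e2]
  split_ifs <;> norm_num

end Cfsg.Agent.S1505
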