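import Cfsg.Statements.S1507
import Cfsg.Agent.Lib.PF.Sec3Bridge

set_option autoImplicit false
open Cfsg

namespace Cfsg.Agent.S1507

open Cfsg.Lib.PF

open Classical in
/-- Let W₁, W₂ ≤ G form a self-normalising cyclic subgroup W = W₁ ⊔ W₂ of odd order with Nat.card W₁ < Nat.card W₂, and χ an orthonormal family of irreducible characters of G up to sign, indexed by the linear characters ω of W, with χ_1 = 1, χ_ω = ω on W outside W₁ ∪ W₂, and the induction identity for (1 − φ)(1 − ψ). Let θ be a class function of G vanishing on W outside W₁ ∪ W₂, and suppose fewer than 2 · Nat.card W₁ linear characters ω of W have ⟨θ, χ ω⟩ ≠ 0. Then one of: all ⟨θ, χ ω⟩ vanish; or there are ψ₀ and a with ⟨θ, χ ω⟩ = a when ω ψ₀⁻¹ is trivial on W₂ and 0 otherwise; or there are φ₀ and a with ⟨θ, χ ω⟩ = a when ω φ₀⁻¹ is trivial on W₁ and 0 otherwise. -/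
theorem result {G : Type*} [Group G] [Fintype G] (W₁ W₂ : Subgroup G) (hW : Cfsg.IsSelfNormalizingCyclic W₁ W₂) (hodd : Odd (Nat.card ↥(W₁ ⊔ W₂))) (χ : (↥(W₁ ⊔ W₂) →* ℂˣ) → (G → ℂ)) (hχ : Cfsg.IsCyclicTIFamily W₁ W₂ χ) (hlt : Nat.card W₁ < Nat.card W₂) (θ : G → ℂ) (hθ : Cfsg.IsClassFunction G θ) (hθV : ∀ w : ↥(W₁ ⊔ W₂), (w : G) ∉ W₁ → (w : G) ∉ W₂ → θ w = 0) (hfew : Nat.card {ω : ↥(W₁ ⊔ W₂) →* ℂˣ // Cfsg.classInner θ (χ ω) ≠ 0} < 2 * Nat.card W₁) : (∀ ω, Cfsg.classInner θ (χ ω) = 0) ∨ (∃ (ψ₀ : ↥(W₁ ⊔ W₂) →* ℂˣ) (a : ℂ), ∀ ω, Cfsg.classInner θ (χ ω) = if (∀ w : ↥(W₁ ⊔ W₂), (w : G) ∈ W₂ → (ω * ψ₀⁻¹) w = 1) then a else 0) ∨ (∃ (φ₀ : ↥(W₁ ⊔ W₂) →* ℂˣ) (a : ℂ), ∀ ω, Cfsg.classInner θ (χ ω) = if (∀ w : ↥(W₁ ⊔ W₂), (w : G) ∈ W₁ → (ω * φ₀⁻¹) w = 1) then a else 0) := by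
  have h := CycTI.of_isSelfNormalizingCyclic hW hodd
  by_cases h0 : ∀ ω, Cfsg.classInner θ (χ ω) = 0
  · exact Or.inl h0
  right
  push Not at h0
  obtain ⟨ω₀, h0⟩ := h0
  simp only [h.family_eq hχ, ← cfdot_top] at h0 hfew ⊢
  have hNC : cycNC ⊤ W₁ W₂ θ < 2 * min (Nat.card W₁) (Nat.card W₂) := by
    rw [min_eq_left hlt.le]
    refine lt_of_eq_of_lt ?_ hfew
    unfold cycNC
    rw [← Fintype.card_subtype, ← Nat.card_eq_fintype_card]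
    exact Nat.card_congr (h.commProd.lcharEquiv.subtypeEquiv fun _ => Iff.rfl).symm
  rcases h.small_cycNC _ _ (mem_CF_top.2 hθ)
    (fun v hv => hθV ⟨v, (mem_cycV.1 hv).1⟩ (mem_cycV.1 hv).2.1 (mem_cycV.1 hv).2.2) hNC h0 with e | e
  · refine Or.inl ⟨ω₀, cfdot ⊤ θ (eta ⊤ W₁ W₂ (resL ω₀) (resR ω₀)), fun ω => (e _ _).trans ?_⟩
    simp only [← resR_eq_one_iff, resR_mul, resR_inv, LChar.mul_inv_eq_one]
    congr
  · refine Or.inr ⟨ω₀, cfdot ⊤ θ (eta ⊤ W₁ W₂ (resL ω₀) (resR ω₀)), fun ω => (e _ _).trans ?_⟩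
    simp only [← resL_eq_one_iff, resL_mul, resL_inv, LChar.mul_inv_eq_one]
    congr

end Cfsg.Agent.S1507
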