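import Cfsg.Statements.S1512
import Cfsg.Agent.S1496

set_option autoImplicit false
open Cfsg

namespace Cfsg.Agent.S1512

/-- Let K be a normal subgroup of the finite group L and x a non-identity element whose order is coprime to the order of K, such that K ⊓ C_L(y) = W₂ for every non-identity element y of the cyclic group generated by x. Then the number of conjugacy classes of K mapped to themselves by conjugation by x is at most Nat.card W₂. -/
theorem result {L : Type*} [Group L] [Finite L] (K W₂ : Subgroup L) [hK : K.Normal] (x : L) (hx1 : x ≠ 1) (hx : Nat.Coprime (orderOf x) (Nat.card K)) (hC : ∀ y ∈ Subgroup.zpowers x, y ≠ 1 → K ⊓ Subgroup.centralizer ({y} : Set L) = W₂) : Nat.card {C : ConjClasses K // ConjClasses.map (MulEquiv.toMonoidHom ((MulAut.conjNormal x : MulAut K))) C = C} ≤ Nat.card W₂ := by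
  have key : ∀ C : {C : ConjClasses K // ConjClasses.map
      (MulEquiv.toMonoidHom ((MulAut.conjNormal x : MulAut K))) C = C},
      ∃ w : W₂, ∃ hw : (w : L) ∈ K, ConjClasses.mk (⟨w, hw⟩ : K) = C.1 := by
    rintro ⟨C, hC'⟩
    obtain ⟨y, rfl⟩ := ConjClasses.mk_surjective C
    have h1 : IsConj y (MulAut.conjNormal x y) :=
      (ConjClasses.mk_eq_mk_iff_isConj.1 hC').symm
    obtain ⟨k, hk⟩ := isConj_iff.1 h1
    have e : (k : L) * y * (k : L)⁻¹ = x * y * x⁻¹ := by simpa using congrArg Subtype.val hk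
    obtain ⟨u, hu, c, hc, h2, e'⟩ := Cfsg.Agent.S1496.result K x
      (Subgroup.le_normalizer_of_normal (Subgroup.mem_top x)) hx (k : L)⁻¹ (K.inv_mem k.2)
    have h3 : Commute (u * y * u⁻¹) (c * x) := by
      rw [← e']
      have h3 : (y : L) * ((k : L)⁻¹ * x) = (k : L)⁻¹ * x * y := by
        calc (y : L) * ((k : L)⁻¹ * x) = (k : L)⁻¹ * (x * y * x⁻¹) * k * ((k : L)⁻¹ * x) := by
              rw [← e]; group
          _ = (k : L)⁻¹ * x * y := by group
      calc u * y * u⁻¹ * (u * ((k : L)⁻¹ * x) * u⁻¹) = u * (y * ((k : L)⁻¹ * x)) * u⁻¹ := by group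
        _ = u * ((k : L)⁻¹ * x) * u⁻¹ * (u * y * u⁻¹) := by rw [h3]; group
    obtain ⟨m, m1, m2⟩ := Nat.chineseRemainder hx 1 0
    have h4 := h3.pow_right m
    have h5 : c ^ Nat.card K = 1 := congrArg Subtype.val (pow_card_eq_one' (x := (⟨c, hc⟩ : K)))
    rw [Commute.mul_pow h2, pow_eq_pow_of_modEq m1 (pow_orderOf_eq_one x),
      pow_eq_pow_of_modEq m2 h5, pow_zero, pow_one, one_mul] at h4
    have h6 : u * y * u⁻¹ ∈ K := hK.conj_mem _ y.2 u
    refine ⟨⟨u * y * u⁻¹, ?_⟩, h6, ?_⟩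
    · rw [← hC x (Subgroup.mem_zpowers x) hx1]
      exact ⟨h6, Subgroup.mem_centralizer_singleton_iff.2 h4⟩
    · exact (ConjClasses.mk_eq_mk_iff_isConj.2 (isConj_iff.2 ⟨(⟨u, hu⟩ : K), rfl⟩)).symm
  choose f hf hf' using key
  refine Nat.card_le_card_of_injective f fun C D e => Subtype.ext ?_
  rw [← hf' C, ← hf' D]
  simp only [e]

end Cfsg.Agent.S1512
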