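import Cfsg.Statements.S1513
import Cfsg.Agent.Lib.PF.Sec4Bridge

set_option autoImplicit false
open Cfsg

namespace Cfsg.Agent.S1513

open Cfsg.Lib.PF in

/-- Let L be a finite group with K normal with complement W₁ ≠ 1 a cyclic Hall subgroup, and W₂ ≠ 1 a cyclic subgroup of K equal to C_K(x) for every non-identity x ∈ W₁, with W₁W₂ of odd order. For an irreducible character θ of K: if θ is not fixed under conjugation by some element of W₁, then the function induced from θ to L is an irreducible character of L; and the irreducible characters of K fixed by all of W₁ are exactly Nat.card W₂ in number, each inducing to the sum of Nat.card W₁ pairwise distinct irreducible characters of L. -/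
theorem result {L : Type*} [Group L] [Fintype L] (K W₁ W₂ : Subgroup L) [hK : K.Normal] (hKW₁ : K ⊓ W₁ = ⊥) (hKW₁' : K ⊔ W₁ = ⊤) (hW₁ : W₁ ≠ ⊥) (hW₁c : IsCyclic W₁) (hHall : Nat.Coprime (Nat.card W₁) W₁.index) (hW₂ : W₂ ≠ ⊥) (hW₂c : IsCyclic W₂) (hW₂K : W₂ ≤ K) (hC : ∀ x ∈ W₁, x ≠ 1 → K ⊓ Subgroup.centralizer ({x} : Set L) = W₂) (hodd : Odd (Nat.card ↥(W₁ ⊔ W₂))) : (∀ θ : K → ℂ, Cfsg.IsIrrCharacter K θ → (∃ x ∈ W₁, (fun k : K => θ ⟨x * k * x⁻¹, hK.conj_mem (k : L) k.2 x⟩) ≠ θ) → Cfsg.IsIrrCharacter L (Cfsg.indFun K θ)) ∧ Nat.card {θ : Cfsg.IrrCharacter K // ∀ x ∈ W₁, (fun k : K => (θ : K → ℂ) ⟨x * k * x⁻¹, hK.conj_mem (k : L) k.2 x⟩) = θ} = Nat.card W₂ ∧ (∀ θ : K → ℂ, Cfsg.IsIrrCharacter K θ → (∀ x ∈ W₁, (fun k : K => θ ⟨x * k * x⁻¹, hK.conj_mem (k : L) k.2 x⟩) = θ) → ∃ C : Finset (L → ℂ), C.card = Nat.card W₁ ∧ (∀ μ ∈ C, Cfsg.IsIrrCharacter L μ) ∧ Cfsg.indFun K θ = ∑ μ ∈ C, μ) := by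
  classical
  have h := PrimeTI.of_normal hKW₁ hKW₁' hW₁ hW₁c hHall hW₂ hW₂c hC hodd
  obtain ⟨x, hx, hx1⟩ := (Subgroup.bot_or_exists_ne_one W₁).resolve_left hW₁
  have key : ∀ θ : K → ℂ, Cfsg.IsIrrCharacter K θ → ((∀ x ∈ W₁,
      (fun k : K => θ ⟨x * k * x⁻¹, hK.conj_mem (k : L) k.2 x⟩) = θ) ↔
      ∃ j, extendByZero K θ = chij ⊤ K W₁ W₂ j) := fun θ hθ => by
    have h1 := extendByZero_mem_Irr.2 hθ
    constructor
    · intro h2
      refine h.exists_eq_chij_of_mem_inertia h1 hx hx1 (mem_inertia_of (Irr.mem_CF h1)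
        (Subgroup.le_normalizer_of_normal (Subgroup.mem_top x)) fun k hk => ?_)
      rw [Cfsg.Lib.Induce.extendByZero_of_mem K _ hk,
        Cfsg.Lib.Induce.extendByZero_of_mem K _ (hK.conj_mem k hk x)]
      exact congrFun (h2 x hx) ⟨k, hk⟩
    · rintro ⟨j, e⟩ y _
      funext k
      have h2 := mem_inertia_iff.1 (h.le_inertia_chij j (Subgroup.mem_top y)) k
      rwa [← e, Cfsg.Lib.Induce.extendByZero_of_mem K _ k.2,
        Cfsg.Lib.Induce.extendByZero_of_mem K _ (hK.conj_mem k k.2 y)] at h2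
  have hind : ∀ θ : K → ℂ, ind K ⊤ (extendByZero K θ) = Cfsg.indFun K θ := fun θ => by
    rw [ind_top, coe_extendByZero]
  refine ⟨fun θ hθ ⟨y, hy, hne⟩ => ?_, ?_, fun θ hθ hinv => ?_⟩
  · rcases h.eq_chij_or_ind_mem_Irr (extendByZero_mem_Irr.2 hθ) with h1 | h1
    · exact (hne ((key θ hθ).2 h1 y hy)).elim
    · rw [← hind]; exact mem_Irr_top.1 h1.1
  · rw [← h.cycTI.card_LChar₂, ← Nat.card_eq_fintype_card]
    symm
    have h0 : ∀ j, extendByZero K (fun k : K => chij ⊤ K W₁ W₂ j k) = chij ⊤ K W₁ W₂ j :=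
      fun j => extendByZero_coe_eq (mem_Irr.1 (h.chij_mem_Irr j)).1
    refine Nat.card_congr (Equiv.ofBijective (fun j => ⟨⟨fun k => chij ⊤ K W₁ W₂ j k,
      (mem_Irr.1 (h.chij_mem_Irr j)).2⟩,
      (key _ (mem_Irr.1 (h.chij_mem_Irr j)).2).2 ⟨j, h0 j⟩⟩) ⟨fun j j' e => ?_, fun θ => ?_⟩)
    · have e1 : (fun k : K => chij ⊤ K W₁ W₂ j k) = fun k : K => chij ⊤ K W₁ W₂ j' k :=
        congrArg (fun t => t.1.1) e
      rw [← h.chij_inj, ← h0 j, ← h0 j', e1]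
    · obtain ⟨j, e⟩ := (key θ.1.1 θ.1.2).1 θ.2
      refine ⟨j, Subtype.ext (Subtype.ext ?_)⟩
      simp only [← e, coe_extendByZero]
  · obtain ⟨j, e⟩ := (key θ hθ).1 hinv
    have hinj : Function.Injective fun i => mu2 ⊤ W₁ W₂ i j :=
      fun i i' e => ((h.mu2_inj i i' j j).1 e).1
    refine ⟨Finset.univ.image (fun i => mu2 ⊤ W₁ W₂ i j), ?_, fun μ hμ => ?_, ?_⟩
    · rw [Finset.card_image_of_injective _ hinj, Finset.card_univ, h.cycTI.card_LChar₁]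
    · obtain ⟨i, -, rfl⟩ := Finset.mem_image.1 hμ
      exact mem_Irr_top.1 (h.mu2_mem_Irr i j)
    · rw [← hind, e, h.ind_chij, Finset.sum_image fun i _ i' _ e => hinj e, muj]

end Cfsg.Agent.S1513
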