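import Cfsg.Statements.S1514
import Cfsg.Agent.Lib.PF.CohBridge

set_option autoImplicit false
open Cfsg

namespace Cfsg.Agent.S1514

open Cfsg.Lib.PF in

/-- Let S be a nonempty set of irreducible characters of the finite group L, closed under complex conjugation and containing no real-valued member, and τ a linear isometry on the integer combinations of S vanishing at 1, with values virtual characters of G vanishing at 1. Then there is a choice R making (S, τ, R) a coherence system. -/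
theorem result {L : Type*} [Group L] [Fintype L] {G : Type*} [Group G] [Fintype G] (S : Set (L → ℂ)) (hS : S.Nonempty) (hirr : ∀ χ ∈ S, Cfsg.IsIrrCharacter L χ) (hconj : ∀ χ ∈ S, Cfsg.conjFun χ ∈ S ∧ Cfsg.conjFun χ ≠ χ) (τ : (L → ℂ) → (G → ℂ)) (hτ : Cfsg.IsLinearIsometryOn (Cfsg.zspanOn S {1}ᶜ) τ) (hτ1 : ∀ α ∈ Cfsg.zspanOn S {1}ᶜ, τ α 1 = 0) : ∃ R : (L → ℂ) → Finset (G → ℂ), Cfsg.IsCoherenceSystem S τ R := by
  lift S to Finset (L → ℂ) using finite_of_irr hirr
  obtain ⟨τ', he, h1, h2⟩ := exists_linear_of_isometryOn hτ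
  obtain ⟨R, hR⟩ := exists_subcoherent_of_irr (fun χ hχ => mem_Irr_top.2 (hirr χ hχ))
    (fun χ hχ => (hconj χ hχ).1) (fun χ hχ => (hconj χ hχ).2) h1 h2
    fun α hα => he α hα ▸ hτ1 α (mem_zspanOn_iff.2 hα)
  exact ⟨R, hR.isCoherenceSystem hτ he hS⟩

end Cfsg.Agent.S1514
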