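import Cfsg.Statements.S1515
import Cfsg.Agent.Lib.PF.CohBridge

set_option autoImplicit false
open Cfsg

namespace Cfsg.Agent.S1515

open Cfsg.Lib.PF in

/-- Let (S, τ, R) be a coherence system from L to G, χ ∈ S, and ψ an integer combination of S with ⟨χ, ψ⟩ = ⟨conj χ, ψ⟩ = 0. Let τ₁ be a linear isometry on the integer combinations of χ − ψ and χ − conj χ, with virtual-character values, agreeing with τ on integer multiples of χ − conj χ. Then the sum over α ∈ R χ of the squared absolute values of ⟨τ₁(χ − ψ), α⟩ is at least ⟨χ, χ⟩; and if ⟨τ₁(χ − ψ), τ₁(χ − ψ)⟩ minus that sum is at least ⟨ψ, ψ⟩, then the sum equals ⟨χ, χ⟩ and every ⟨τ₁(χ − ψ), α⟩ with α ∈ R χ is 0 or 1. -/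
theorem result {L : Type*} [Group L] [Fintype L] {G : Type*} [Group G] [Fintype G] (S : Set (L → ℂ)) (τ : (L → ℂ) → (G → ℂ)) (R : (L → ℂ) → Finset (G → ℂ)) (hS : Cfsg.IsCoherenceSystem S τ R) (χ : L → ℂ) (hχ : χ ∈ S) (ψ : L → ℂ) (hψ : ψ ∈ Cfsg.zspan S) (h1 : Cfsg.classInner χ ψ = 0) (h2 : Cfsg.classInner (Cfsg.conjFun χ) ψ = 0) (τ₁ : (L → ℂ) → (G → ℂ)) (hτ₁ : Cfsg.IsLinearIsometryOn (Cfsg.zspan {χ - ψ, χ - Cfsg.conjFun χ}) τ₁) (hagree : ∀ n : ℤ, τ₁ (n • (χ - Cfsg.conjFun χ)) = τ (n • (χ - Cfsg.conjFun χ))) : (Cfsg.classInner χ χ).re ≤ ∑ α ∈ R χ, ‖Cfsg.classInner (τ₁ (χ - ψ)) α‖ ^ 2 ∧ ((Cfsg.classInner ψ ψ).re ≤ (Cfsg.classInner (τ₁ (χ - ψ)) (τ₁ (χ - ψ))).re - ∑ α ∈ R χ, ‖Cfsg.classInner (τ₁ (χ - ψ)) α‖ ^ 2 → (∑ α ∈ R χ, ‖Cfsg.classInner (τ₁ (χ - ψ)) α‖ ^ 2 = (Cfsg.classInner χ χ).re ∧ ∀ α ∈ R χ, Cfsg.classInner (τ₁ (χ -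 ψ)) α = 0 ∨ Cfsg.classInner (τ₁ (χ - ψ)) α = 1)) := by
  classical
  lift S to Finset (L → ℂ) using finite_of_isCoherenceSystem hS
  obtain ⟨τ', h, he⟩ := exists_subcoherent_of_isCoherenceSystem hS
  have m1 : χ - ψ ∈ zspan {χ - ψ, χ - conjFun χ} := Submodule.subset_span (by simp)
  have m2 : χ - conjFun χ ∈ zspan {χ - ψ, χ - conjFun χ} := Submodule.subset_span (by simp)
  have hω := mem_ZI_top.2 (hτ₁.2.2.2 _ m1)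
  have i1 := hτ₁.2.2.1 _ m1 _ m1
  have i2 := hτ₁.2.2.1 _ m1 _ m2
  have e0 := hagree 1
  rw [one_smul] at e0
  rw [e0, conjFun_eq_star, ← he _ (h.sub_star_mem_Z0 hχ)] at i2
  simp only [← cfdot_top, conjFun_eq_star] at *
  generalize τ₁ (χ - ψ) = ω at *
  obtain ⟨ζ, hζ, e, ho, hn⟩ := ZI.exists_split hω (h.R_dirr χ hχ) (h.R_orth χ hχ)
  have hm : ∑ α ∈ R χ, zdot ⊤ ω α • α ∈ ZS (R χ) := mem_ZS_iff.2 ⟨_, rfl⟩
  set ξ := ∑ α ∈ R χ, zdot ⊤ ω α • α with hξ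
  have ho' : cfdot ⊤ ξ ζ = 0 := cfdot_symm_zero (ZS.cfdot_right_eq_zero ho hm)
  have e1 : ∑ α ∈ R χ, ‖cfdot ⊤ ω α‖ ^ 2 = cfnorm ⊤ ξ := by
    have e2 : cfnorm ⊤ ω = cfnorm ⊤ ξ + cfnorm ⊤ ζ := by rw [← cfnorm_add_of_orth ho', ← e]
    rw [Finset.sum_congr rfl (g := fun α => (zdot ⊤ ω α : ℝ) ^ 2) fun α hα => by
      rw [← ZI.zdot_cast hω (h.R_dirr χ hχ α hα).mem_ZI, Complex.norm_intCast, sq_abs]]
    linarith
  have e2 : ξ - -ζ = ω := by rw [sub_neg_eq_add, ← e]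
  have key := h.norm_le (ξ := ξ) (ζ := -ζ) hχ h1 h2 (e2 ▸ hω)
    (by rw [e2, cfnorm_eq_re, i1, cfnorm_eq_re]) (by rw [e2, i2]) (by simp [ho'])
    (fun α hα => by simp [ho α hα])
    (ZI.mem_CF (ZS.mem_ZI (fun α hα => (h.R_dirr χ hχ α hα).mem_ZI) hm))
  simp only [← cfnorm_eq_re, e1]
  refine ⟨key.1, fun hle => ?_⟩
  obtain ⟨h3, -, E, hE, h4⟩ := key.2 (by
    rw [e, cfnorm_add_of_orth ho', add_sub_cancel_left] at hle; rwa [cfnorm_neg])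
  refine ⟨h3, fun α hα => ?_⟩
  rw [e, cfdot_add_left, ho α hα, add_zero, h4,
    cfdot_sum_dirr (h.R_dirr χ hχ) (h.R_orth χ hχ) hα E hE]
  split_ifs <;> simp

end Cfsg.Agent.S1515
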