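import Cfsg.Statements.S1516
import Cfsg.Agent.Lib.PF.CohBridge

set_option autoImplicit false
open Cfsg

namespace Cfsg.Agent.S1516

open Cfsg.Lib.PF in

/-- Let (S, τ, R) be a coherence system from L to G with degrees φ 1 = d φ and squared norms ⟨φ, φ⟩ = n φ for φ ∈ S. Let S₁ ⊆ S be a finite subset closed under complex conjugation such that (S₁, L minus 1, τ) is coherent, let χ ∈ S with χ ∉ S₁ and conj χ ∉ S₁, and let χ₁ ∈ S₁ with d χ₁ dividing d χ and 2 d χ d χ₁ < Σ_{φ ∈ S₁} (d φ)² / n φ. Then S₁ together with χ and conj χ is coherent. -/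
theorem result {L : Type*} [Group L] [Fintype L] {G : Type*} [Group G] [Fintype G] (S : Set (L → ℂ)) (τ : (L → ℂ) → (G → ℂ)) (R : (L → ℂ) → Finset (G → ℂ)) (hS : Cfsg.IsCoherenceSystem S τ R) (d n : (L → ℂ) → ℕ) (hd : ∀ φ ∈ S, φ 1 = (d φ : ℂ)) (hn : ∀ φ ∈ S, Cfsg.classInner φ φ = (n φ : ℂ)) (S₁ : Finset (L → ℂ)) (hS₁ : ↑S₁ ⊆ S) (hS₁c : ∀ φ ∈ S₁, Cfsg.conjFun φ ∈ S₁) (hcoh : Cfsg.IsCoherent (↑S₁ : Set (L → ℂ)) {1}ᶜ τ) (χ : L → ℂ) (hχ : χ ∈ S) (hχ₁ : χ ∉ S₁) (hχ₂ : Cfsg.conjFun χ ∉ S₁) (χ₁ : L → ℂ) (hχ₁S : χ₁ ∈ S₁) (hdvd : d χ₁ ∣ d χ) (hineq : (2 * d χ * d χ₁ : ℝ) < ∑ φ ∈ S₁, ((d φ : ℝ) ^ 2 / (n φ : ℝ))) : Cfsg.IsCoherent (↑S₁ ∪ {χ, Cfsg.conjFun χ} : Set (L → ℂ)) {1}ᶜ τ := by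
  classical
  lift S to Finset (L → ℂ) using finite_of_isCoherenceSystem hS
  obtain ⟨τ', h, he⟩ := exists_subcoherent_of_isCoherenceSystem hS
  have h1 : ConjSub S₁ S := ⟨hS₁, hS₁c⟩
  have h2 := h.extend h1 (coherent_of_isCoherent hcoh fun α hα => he α (Z0_mono hS₁ hα)) hχ₁S hχ
    hχ₁ (by rwa [deg_of_eq (hd _ hχ), deg_of_eq (hd _ (hS₁ hχ₁S))]) (by
      rw [deg_of_eq (hd _ hχ), deg_of_eq (hd _ (hS₁ hχ₁S))]
      convert hineq using 2 with φ hφ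
      rw [deg_of_eq (hd _ (hS₁ hφ)), cfnorm_of_cfdot (r := n φ)
        (by rw [cfdot_top, hn φ (hS₁ hφ)]; simp)])
  have h3 : insert χ (insert (star χ) S₁) ⊆ S :=
    Finset.insert_subset hχ (Finset.insert_subset (h.star_mem χ hχ) hS₁)
  have h4 := h2.isCoherent (fun α hα => he α (Z0_mono (by convert h3) hα))
    ⟨χ - star χ, sub_mem_Z0 (mem_ZS_of_mem (by simp)) (mem_ZS_of_mem (by simp))
      (h.isChar χ hχ).conj_apply_one.symm, sub_ne_zero.2 (h.star_ne χ hχ).symm⟩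
  convert h4 using 1
  ext φ
  simp only [conjFun_eq_star, Set.mem_union, Finset.mem_coe, Set.mem_insert_iff,
    Set.mem_singleton_iff, Finset.coe_insert]
  tauto

end Cfsg.Agent.S1516
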