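import Cfsg.Statements.S1518
import Cfsg.Agent.Lib.PF.CohBridge
import Cfsg.Agent.Lib.PF.Sec5Dade

set_option autoImplicit false
open Cfsg

namespace Cfsg.Agent.S1518

open Cfsg.Lib.PF in

/-- Under the Dade hypothesis for (A, L, H): if χ is an irreducible character of L vanishing at every non-identity element of L outside A, then the Dade image of χ − conj χ equals μ − conj μ for some irreducible character μ of G. -/
theorem result {G : Type*} [Group G] [Fintype G] (A : Set G) (L : Subgroup G) [Fintype L] (H : G → Subgroup G) (hD : Cfsg.DadeHypothesis A L H) (χ : L → ℂ) (hχ : Cfsg.IsIrrCharacter L χ) (hsupp : ∀ x : L, x ≠ 1 → (x : G) ∉ A → χ x = 0) : ∃ μ : G → ℂ, Cfsg.IsIrrCharacter G μ ∧ Cfsg.dadeIsometry A L H (χ - Cfsg.conjFun χ) = μ - Cfsg.conjFun μ := by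
  have h1 := extendByZero_mem_Irr.2 hχ
  obtain ⟨μ, hμ, e⟩ := Dade.exists_sub_star hD h1 (mem_CFon_of (Irr.mem_CF h1) fun x hx hxA => by
    rw [Set.mem_insert_iff, not_or] at hxA
    rw [Lib.Induce.extendByZero_of_mem L χ hx]
    exact hsupp ⟨x, hx⟩ (fun e => hxA.1 (congrArg Subtype.val e)) hxA.2)
  refine ⟨μ, mem_Irr_top.1 hμ, ?_⟩
  rw [← extendByZero_star, ← extendByZero_sub, dade_extendByZero] at e
  exact e

end Cfsg.Agent.S1518
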