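import Cfsg.Statements.S1520
import Cfsg.Agent.Lib.PF.SeqBridge
import Cfsg.Agent.Lib.PF.Sec6Coh

set_option autoImplicit false
open Cfsg

namespace Cfsg.Agent.S1520

open Cfsg.Lib.PF in

/-- Let K be a solvable normal subgroup of the finite group L and (S, τ, R) a coherence system from L to G with S the functions induced from non-principal irreducible characters of K; S(A) the members of S induced from characters whose kernel contains A. Let M ≤ H₁ ≤ H ≤ K be normal subgroups of L such that every term of the lower central series of H eventually lies in M (H/M nilpotent), S(H₁) is coherent and [H:H₁] > 4 * [L:K]^2 + 1. Then S(M) is coherent. -/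
theorem result {L : Type*} [Group L] [Fintype L] {G : Type*} [Group G] [Fintype G] (K : Subgroup L) [hK : K.Normal] (hsolv : Group.IsSolvable K) (τ : (L → ℂ) → (G → ℂ)) (R : (L → ℂ) → Finset (G → ℂ)) (hS : Cfsg.IsCoherenceSystem (Cfsg.inducedIrrAbove K ⊥) τ R) (M H₁ H : Subgroup L) [M.Normal] [H₁.Normal] [H.Normal] (hMH₁ : M ≤ H₁) (hH₁H : H₁ ≤ H) (hHK : H ≤ K) [(M.subgroupOf H).Normal] (hnil : Group.IsNilpotent (↥H ⧸ M.subgroupOf H)) (hcoh : Cfsg.IsCoherent (Cfsg.inducedIrrAbove K H₁) {1}ᶜ τ) (hbig : 4 * K.index ^ 2 + 1 < H₁.relIndex H) : Cfsg.IsCoherent (Cfsg.inducedIrrAbove K M) {1}ᶜ τ := by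
  obtain ⟨τ', h, h1, h2⟩ := exists_subcoherent_seqIndD hS
  have hlt : H₁ < H := lt_of_le_of_ne hH₁H fun e => by
    rw [e, Subgroup.relIndex_self] at hbig; omega
  rw [← coe_seqIndD_top (hH₁H.trans hHK)] at hcoh
  rw [← coe_seqIndD_top ((hMH₁.trans hH₁H).trans hHK)]
  refine h2 _ (SeqInd.conjSub le_rfl bot_le) (SeqInd.nonempty le_top (top_le_normalizer K) le_rfl
    ((hMH₁.trans_lt hlt).trans_le hHK) (le_top.trans (top_le_normalizer M))) ?_
  exact bounded_seqIndD_coherence le_top (top_le_normalizer K) hsolv h (top_le_normalizer M)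
    (top_le_normalizer H) (top_le_normalizer H₁) hMH₁ hH₁H hHK
    ((isNilpotent_quotient_iff (hMH₁.trans hH₁H)).1 hnil) (h1 _ (SeqInd.mono le_rfl bot_le) hcoh)
    (by rwa [Subgroup.relIndex_top_right])

end Cfsg.Agent.S1520
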