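import Cfsg.Statements.S1522
import Cfsg.Agent.Lib.PF.SeqBridge
import Cfsg.Agent.Lib.PF.Sec6Coh
import Cfsg.Agent.Lib.PF.Sec6Sibley

set_option autoImplicit false
open Cfsg

namespace Cfsg.Agent.S1522

open Cfsg.Lib.PF in

/-- Let K be a nilpotent normal subgroup of the finite group L of odd order with [K,K] < K < L and L/[K,K] a Frobenius group with kernel K/[K,K] (elements of K outside [K,K] are centralised modulo [K,K] only from inside K); let (S, τ, R) be a coherence system from L to G with S the functions induced from non-principal irreducible characters of K. Let Z be a nontrivial normal subgroup of L contained in the centre of K, and suppose every member of S outside S(Z) is an irreducible character of L. Then S minus S(Z) is the set of irreducible characters χ of L with χ z ≠ χ 1 for some z ∈ Z, and it is coherent. -/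
theorem result {L : Type*} [Group L] [Fintype L] {G : Type*} [Group G] [Fintype G] (K : Subgroup L) [hK : K.Normal] (hsolv : Group.IsSolvable K) (τ : (L → ℂ) → (G → ℂ)) (R : (L → ℂ) → Finset (G → ℂ)) (hS : Cfsg.IsCoherenceSystem (Cfsg.inducedIrrAbove K ⊥) τ R) (hodd : Odd (Nat.card L)) (hnil : Group.IsNilpotent K) (hH₁K : ⁅K, K⁆ < K) (hKL : K < ⊤) (hfrob : ∀ k ∈ K, k ∉ ⁅K, K⁆ → ∀ x : L, x * k * x⁻¹ * k⁻¹ ∈ ⁅K, K⁆ → x ∈ K) (Z : Subgroup L) [Z.Normal] (hZ1 : Z ≠ ⊥) (hZK : Z ≤ K) (hZc : ∀ z ∈ Z, ∀ k ∈ K, z * k = k * z) (hirr : ∀ χ ∈ Cfsg.inducedIrrAbove K ⊥ \ Cfsg.inducedIrrAbove K Z, Cfsg.IsIrrCharacter L χ) : Cfsg.inducedIrrAbove K ⊥ \ Cfsg.inducedIrrAbove K Z = {χ | Cfsg.IsIrrCharacter L χ ∧ ∃ z ∈ Z, χ z ≠ χ 1} ∧ Cfsg.IsCoherent (Cfsg.inducedIrrAbove K ⊥ \ Cfsg.inducedIrrAbove K Z) {1}ᶜ τ := by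
  obtain ⟨τ', h, h1, h2⟩ := exists_subcoherent_seqIndD hS
  have hK1 : K ≠ ⊥ := fun e => hZ1 (le_bot_iff.1 (e ▸ hZK))
  have e : Cfsg.inducedIrrAbove K ⊥ \ Cfsg.inducedIrrAbove K Z =
      (seqIndD K ⊤ Z ⊥ : Set (L → ℂ)) := by
    rw [← coe_seqIndD_top bot_le, ← coe_seqIndD_top hZK]
    ext φ
    simp only [Set.mem_diff, Finset.mem_coe]
    constructor
    · rintro ⟨h3, h4⟩
      obtain ⟨θ, hθ, -, h5, rfl⟩ := mem_seqIndD.1 h3
      exact SeqInd.ind_mem hθ bot_le fun hk => h4 (SeqInd.ind_mem hθ hk h5)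
    · intro h3
      exact ⟨SeqInd.mono hZK le_rfl h3, fun h4 => SeqInd.not_le_cfker le_top hZK
        (top_le_normalizer Z) h3 (SeqInd.le_cfker le_top hZK (top_le_normalizer Z) h4)⟩
  rw [e] at hirr ⊢
  obtain ⟨a1, a2⟩ := seqIndD_irr_coherence (top_le_normalizer K) h
    (oddFrobQuot_bot (by rwa [Subgroup.card_top]) hnil hK1 hKL fun k hk hk' x _ => hfrob k hk hk' x)
    (top_le_normalizer Z) hZ1 hZK hZc (fun χ hχ => mem_Irr_top.2 (hirr χ hχ))
  refine ⟨?_, h2 _ (SeqInd.conjSub hZK le_rfl) (SeqInd.nonempty le_top (top_le_normalizer K) hZK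
    (bot_lt_iff_ne_bot.2 hZ1) (le_normalizer_bot K)) a2⟩
  ext χ
  rw [Finset.mem_coe, a1, Set.mem_setOf_eq, ← mem_Irr_top]
  refine and_congr_right fun hχ => ?_
  rw [(Irr.isChar hχ).le_cfker_iff le_top]
  push Not
  rfl

end Cfsg.Agent.S1522
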