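import Cfsg.Statements.S1524
import Cfsg.Agent.Lib.PF.SeqBridge
import Cfsg.Agent.Lib.PF.Sec6Sibley
import Cfsg.Agent.Lib.PF.Sec8Fcore

set_option autoImplicit false
open Cfsg

namespace Cfsg.Agent.S1524

open Cfsg.Lib.PF in

/-- Let G be a finite group and H ≤ L subgroups with L of odd order, H ≠ ⊥ nilpotent and normal in L with a nontrivial complement W₁ in L (H ⊓ W₁ = ⊥, H ⊔ W₁ = L) acting on H without non-identity fixed points (L is a Frobenius group with kernel H), and suppose the underlying set of H is a TI-subset of G whose normaliser is L. Let S be the set of functions on L induced from the non-principal irreducible characters of H. Then (S, L minus 1, induction to G) is coherent. -/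
theorem result {G : Type*} [Group G] [Fintype G] (H L W₁ : Subgroup G) [Fintype L] (hodd : Odd (Nat.card L)) (hHL : H ≤ L) (hW₁L : W₁ ≤ L) (hH1 : H ≠ ⊥) (hW1 : W₁ ≠ ⊥) (hnil : Group.IsNilpotent H) (hHn : ∀ x ∈ L, ∀ h ∈ H, x * h * x⁻¹ ∈ H) (hinf : H ⊓ W₁ = ⊥) (hsup : H ⊔ W₁ = L) (hfpf : ∀ w ∈ W₁, w ≠ 1 → ∀ h ∈ H, w * h = h * w → h = 1) (hTI : Cfsg.IsTISubset (H : Set G)) (hN : Subgroup.normalizer (H : Set G) = L) : Cfsg.IsCoherent (Cfsg.inducedIrrAbove (H.subgroupOf L) ⊥) {1}ᶜ (fun α : L → ℂ => Cfsg.indFun L α) := by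
  have hn : L ≤ Subgroup.normalizer (H : Set G) := hN.ge
  have hF : FrobKer L H := frobKer_of_frob (E := W₁) ⟨⟨hW₁L.trans hn, hinf, hsup⟩, hH1, hW1,
    fun w hw h1 => eq_bot_iff.2 fun h hh => hfpf w hw h1 h hh.1 (Cfsg.Lib.BG.mem_cent1.1 hh.2).symm⟩
  rw [← image_coe_seqIndD hHL]
  refine (sibley_coherence_frob hodd hnil (hN ▸ normedTI_sharp_of_isTISubset hH1 hTI)
    hF).isCoherent_ind (fun χ hχ => SeqInd.mem_CF hχ) ?_
  obtain ⟨χ, hχ⟩ := SeqInd.nonempty hHL hn le_rfl (bot_lt_iff_ne_bot.2 hH1) (le_normalizer_bot H)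
  exact ⟨χ - star χ, sub_mem_Z0 (mem_ZS_of_mem hχ) (mem_ZS_of_mem (SeqInd.star_mem hχ))
    (SeqInd.isChar hHL hχ).conj_apply_one.symm,
    sub_ne_zero.2 (SeqInd.star_ne hHL hn hodd le_rfl hχ).symm⟩

end Cfsg.Agent.S1524
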