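import Cfsg.Statements.S1525
import Cfsg.Agent.Lib.PF.CohBridge

set_option autoImplicit false
open Cfsg

namespace Cfsg.Agent.S1525

open Cfsg.Lib.PF in

/-- Under the Dade hypothesis for (A, L, H), let χ be a class function of G and let ψ be a function on L whose value at each a ∈ A is the average of χ over the coset a·H(a). Then (1/|G|) Σ |χ g|² over the elements g of G conjugate into some coset a·H(a) with a ∈ A is at least (1/|L|) Σ_{a ∈ A ∩ L} |ψ a|². -/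
theorem result {G : Type*} [Group G] [Fintype G] (A : Set G) (L : Subgroup G) [Fintype L] (H : G → Subgroup G) (hD : Cfsg.DadeHypothesis A L H) (χ : G → ℂ) (hχ : Cfsg.IsClassFunction G χ) (ψ : L → ℂ) (hψ : ∀ a : L, (a : G) ∈ A → ψ a = (Nat.card (H a) : ℂ)⁻¹ * ∑ᶠ u ∈ (H a : Set G), χ (a * u)) : (Nat.card L : ℝ)⁻¹ * ∑ᶠ a ∈ {a : L | (a : G) ∈ A}, ‖ψ a‖ ^ 2 ≤ (Nat.card G : ℝ)⁻¹ * ∑ᶠ g ∈ {g : G | ∃ a ∈ A, ∃ u ∈ H a, ∃ x : G, x * g * x⁻¹ = a * u}, ‖χ g‖ ^ 2 := by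
  have h := Dade.cfnorm_invDade_le_sum hD (mem_CF_top.2 hχ)
  rw [finsum_mem_eq_sum_fs, finsum_mem_eq_sum_fs]
  refine le_trans (le_of_eq ?_) h
  rw [cfnorm_def, sum_fs_subset hD.subset fun x _ hx => by rw [invDade_of_not_mem H χ hx]; simp,
    ← sum_fs_bij (A := {a : L | (a : G) ∈ A}) (B := A) Subtype.val
      ⟨fun _ h => h, Subtype.val_injective.injOn, fun x hx => ⟨⟨x, hD.subset hx⟩, hx, rfl⟩⟩]
  congr 1
  exact sum_fs_congr fun a ha => by rw [invDade_of_mem (A := A) H χ ha, hψ a ha, finsum_mem_eq_sum_fs]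

end Cfsg.Agent.S1525
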