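import Cfsg.Statements.S1527
import Cfsg.Agent.Lib.PF.Sec1Vchar

set_option autoImplicit false
open Cfsg

namespace Cfsg.Agent.S1527

open Cfsg.Lib.PF in

/-- Let G be a finite group and H i (i in a finite index type) subgroups of pairwise coprime orders, each of whose underlying sets is a TI-subset of G, such that every non-identity element of G is conjugate to an element of some H i. Then Nat.card G − 1 = Σ_i [G : N_G(H i)] · (Nat.card (H i) − 1). -/
theorem result {G : Type*} [Group G] [Finite G] {ι : Type*} [Fintype ι] (H : ι → Subgroup G) (hcop : ∀ i j, i ≠ j → Nat.Coprime (Nat.card (H i)) (Nat.card (H j))) (hTI : ∀ i, Cfsg.IsTISubset (H i : Set G)) (hcover : ∀ g : G, g ≠ 1 → ∃ i, ∃ x : G, x * g * x⁻¹ ∈ H i) : Nat.card G - 1 = ∑ i, (Subgroup.normalizer (H i : Set G)).index * (Nat.card (H i) - 1) := by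
  classical
  have h1 : ∀ i, (classSupp (sharp (H i)) ⊤).ncard =
      (Subgroup.normalizer (H i : Set G)).index * (Nat.card (H i) - 1) := fun i => by
    have e : (sharp (H i)).ncard = Nat.card (H i) - 1 := by
      rw [Set.ncard_diff_singleton_of_mem (H i).one_mem]; rfl
    rcases (sharp (H i)).eq_empty_or_nonempty with h0 | h0
    · rw [← e, h0]; simp [classSupp]
    · rw [NormedTI.ncard_classSupp (L := Subgroup.normalizer (H i : Set G)) ⟨h0, le_top,
        fun a ha g _ => ⟨fun h => by_contra fun hg => ha.2 (hTI i g hg a ha.1 h.1),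
          fun h => ⟨(h a).1 ha.1, fun e => ha.2 (by simpa using e)⟩⟩⟩, Subgroup.relIndex_top_right, e]
  have h2 : fs (sharp (⊤ : Subgroup G)) =
      Finset.univ.biUnion fun i => fs (classSupp (sharp (H i)) ⊤) := by
    ext g
    simp only [mem_fs, Finset.mem_biUnion, Finset.mem_univ, true_and, mem_classSupp, mem_sharp,
      Subgroup.mem_top]
    constructor
    · intro hg
      obtain ⟨i, x, h⟩ := hcover g hg
      exact ⟨i, _, ⟨h, by simpa using hg⟩, x⁻¹, by group⟩
    · rintro ⟨i, a, ha, x, rfl⟩
      simpa using ha.2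
  have h3 := congrArg Finset.card h2
  rw [Finset.card_biUnion, card_fs, Set.ncard_diff_singleton_of_mem (Subgroup.one_mem ⊤),
    Subgroup.coe_top, Set.ncard_univ] at h3
  · simpa only [card_fs, h1] using h3
  · intro i _ j _ hij
    rw [Function.onFun, Finset.disjoint_left]
    intro g hi hj
    obtain ⟨a, ha, x, -, rfl⟩ := mem_fs.1 hi
    obtain ⟨b, hb, y, -, e⟩ := mem_fs.1 hj
    have e1 : orderOf (x * a * x⁻¹) = orderOf a := (MulAut.conj x).orderOf_eq a
    have e2 : orderOf (y * b * y⁻¹) = orderOf b := (MulAut.conj y).orderOf_eq b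
    rw [e, e2] at e1
    exact ha.2 (orderOf_eq_one_iff.1 (Nat.eq_one_of_dvd_coprimes (hcop i j hij)
      ((H i).orderOf_dvd_natCard ha.1) (e1 ▸ (H j).orderOf_dvd_natCard hb.1)))

end Cfsg.Agent.S1527
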