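import Cfsg.Statements.S1529
import Cfsg.Agent.Lib.PF.CohBridge

set_option autoImplicit false
open Cfsg

namespace Cfsg.Agent.S1529

open Cfsg.Lib.PF in

/-- Let N be a subgroup of the finite group G, S a set of irreducible characters of N with at least two members, and τ₁ a linear isometry on the integer combinations of S with virtual-character values such that τ₁ α vanishes at 1 whenever α ∈ ℤ[S] does. Then there is ε ∈ {1, −1} such that ε • τ₁ χ is an irreducible character of G for every χ ∈ S, and distinct members of S give distinct characters. -/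
theorem result {G : Type*} [Group G] [Fintype G] (N : Subgroup G) [Fintype N] (S : Set (N → ℂ)) (hirr : ∀ χ ∈ S, Cfsg.IsIrrCharacter N χ) (htwo : ∃ χ ∈ S, ∃ ψ ∈ S, χ ≠ ψ) (τ₁ : (N → ℂ) → (G → ℂ)) (hτ₁ : Cfsg.IsLinearIsometryOn (Cfsg.zspan S) τ₁) (h0 : ∀ α ∈ Cfsg.zspan S, α 1 = 0 → τ₁ α 1 = 0) : ∃ ε : ℂ, (ε = 1 ∨ ε = -1) ∧ (∀ χ ∈ S, Cfsg.IsIrrCharacter G (ε • τ₁ χ)) ∧ (∀ χ ∈ S, ∀ ψ ∈ S, τ₁ χ = τ₁ ψ → χ = ψ) := by
  lift S to Finset (N → ℂ) using finite_of_irr hirr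
  have hi : ∀ χ ∈ S, χ ∈ Irr (⊤ : Subgroup N) := fun χ hχ => mem_Irr_top.2 (hirr χ hχ)
  obtain ⟨τ', he⟩ := exists_linear_of_isometry _ τ₁ hτ₁.2.2.1
  have iso : ∀ χ ∈ S, ∀ ψ ∈ S, cfdot ⊤ (τ₁ χ) (τ₁ ψ) = cfdot ⊤ χ ψ := fun χ hχ ψ hψ => by
    rw [cfdot_top, cfdot_top, hτ₁.2.2.1 χ (mem_ZS_of_mem hχ) ψ (mem_ZS_of_mem hψ)]
  have hd : ∀ χ ∈ S, IsDirr ⊤ (τ₁ χ) := fun χ hχ => ZI.isDirr_of_cfdot
    (mem_ZI_top.2 (hτ₁.2.2.2 χ (mem_ZS_of_mem hχ))) (by rw [iso χ hχ χ hχ, Irr.cfdot_self (hi χ hχ)])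
  obtain ⟨φ, hφ, -⟩ := htwo
  obtain ⟨ε, μ, hε, hμ, e⟩ := (hd φ hφ).exists_sign
  refine ⟨ε, by rcases hε with rfl | rfl <;> simp, fun χ hχ => ?_, fun χ hχ ψ hψ e => ?_⟩
  · have hdeg : ∀ ψ ∈ S, ψ 1 = ((deg ψ : ℤ) : ℂ) := fun ψ hψ => by
      rw [Irr.apply_one (hi ψ hψ), Int.cast_natCast]
    have h1 := cross_mem_Z0 (mem_ZS_of_mem hχ) (mem_ZS_of_mem hφ) (hdeg φ hφ) (hdeg χ hχ)
    have h2 := h0 _ h1.1 h1.2
    rw [← he _ h1.1, map_sub, map_smul, map_smul, he _ (mem_ZS_of_mem hχ),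
      he _ (mem_ZS_of_mem hφ), e, ← Int.cast_smul_eq_zsmul ℂ] at h2
    simp only [Pi.sub_apply, Pi.smul_apply, smul_eq_mul, Irr.apply_one hμ,
      Irr.apply_one (hi φ hφ), Irr.apply_one (hi χ hχ)] at h2
    have h3 : IsDirr ⊤ ((ε : ℂ) • τ₁ χ) := by
      rcases hε with rfl | rfl
      · simpa using hd χ hχ
      · simpa using (hd χ hχ).neg
    refine mem_Irr_top.1 (h3.mem_Irr_of_re_pos ?_)
    have h4 : (deg φ : ℂ) ≠ 0 := by exact_mod_cast (Irr.deg_pos (hi φ hφ)).ne'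
    have h5 : ((ε : ℂ) • τ₁ χ) 1 = ((deg χ * deg μ / deg φ : ℝ) : ℂ) := by
      have h6 : (ε : ℂ) * ε = 1 := by rcases hε with rfl | rfl <;> simp
      push_cast
      rw [eq_div_iff h4, Pi.smul_apply, smul_eq_mul]
      linear_combination ε * h2 + deg χ * deg μ * h6
    rw [h5, Complex.ofReal_re]
    positivity
  · refine Irr.eq_of_cfdot_ne_zero (hi χ hχ) (hi ψ hψ) ?_
    rw [← iso χ hχ ψ hψ, e, (hd ψ hψ).cfdot_self]
    exact one_ne_zero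

end Cfsg.Agent.S1529
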