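import Cfsg.Statements.S1531
import Cfsg.Agent.Lib.PF.CohIrr

set_option autoImplicit false
open Cfsg

namespace Cfsg.Agent.S1531

open Cfsg.Lib.PF in

/-- Let N be a subgroup of the finite group G, S a set of irreducible characters of N, and α a linear isometry on the integer combinations of S vanishing at 1 with values virtual characters of G vanishing at 1. Let X, Y ⊆ S be disjoint, each with at least two members, and σ, τ linear isometries on ℤ[X], ℤ[Y] into virtual characters agreeing with α on the members vanishing at 1. Then ⟨σ χ, τ η⟩ = 0 for χ ∈ X, η ∈ Y; and if for some χ₀ ∈ X, η₀ ∈ Y with degrees c = χ₀ 1, e = η₀ 1 one has α (c • η₀ − e • χ₀) = c • τ η₀ − e • σ χ₀, then (X ∪ Y, N minus 1, α) is coherent. -/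
theorem result {G : Type*} [Group G] [Fintype G] (N : Subgroup G) [Fintype N] (S X Y : Set (N → ℂ)) (hirr : ∀ ξ ∈ S, Cfsg.IsIrrCharacter N ξ) (hXS : X ⊆ S) (hYS : Y ⊆ S) (hXY : Disjoint X Y) (hX2 : ∃ a ∈ X, ∃ b ∈ X, a ≠ b) (hY2 : ∃ a ∈ Y, ∃ b ∈ Y, a ≠ b) (α : (N → ℂ) → (G → ℂ)) (hα : Cfsg.IsLinearIsometryOn (Cfsg.zspanOn S {1}ᶜ) α) (hα1 : ∀ θ ∈ Cfsg.zspanOn S {1}ᶜ, α θ 1 = 0) (σ τ : (N → ℂ) → (G → ℂ)) (hσ : Cfsg.IsLinearIsometryOn (Cfsg.zspan X) σ) (hσα : ∀ θ ∈ Cfsg.zspanOn X {1}ᶜ, σ θ = α θ) (hτ : Cfsg.IsLinearIsometryOn (Cfsg.zspan Y) τ) (hτα : ∀ θ ∈ Cfsg.zspanOn Y {1}ᶜ, τ θ = α θ) : (∀ χ ∈ X, ∀ η ∈ Y, Cfsg.classInner (σ χ) (τ η) = 0) ∧ ((∃ χ₀ ∈ X, ∃ η₀ ∈ Y, α (χ₀ 1 • η₀ - η₀ 1 • χ₀) = χ₀ 1 • τ η₀ - η₀ 1 • σ χ₀) → Cfsg.IsCoherent (X ∪ Y) {1}ᶜ α) := by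
  classical
  have fin := finite_of_irr hirr
  lift X to Finset (N → ℂ) using fin.subset hXS
  lift Y to Finset (N → ℂ) using fin.subset hYS
  lift S to Finset (N → ℂ) using fin
  have hS : S ⊆ Irr ⊤ := fun ξ hξ => mem_Irr_top.2 (hirr ξ hξ)
  obtain ⟨α', he, h1, -⟩ := exists_linear_of_isometryOn hα
  obtain ⟨σ', c₁, e₁⟩ := exists_coherentWith_of_isometryOn hσ hσα
    fun θ hθ => he θ (Z0_mono hXS hθ)
  obtain ⟨τ', c₂, e₂⟩ := exists_coherentWith_of_isometryOn hτ hτα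
    fun θ hθ => he θ (Z0_mono hYS hθ)
  have hd : Disjoint X Y := Finset.disjoint_coe.1 hXY
  have ho : ∀ a ∈ X, ∀ b ∈ Y, cfdot ⊤ (σ' a) (τ' b) = 0 := fun a ha b hb =>
    cfdot_map_map_of_irr hS hXS hYS hd h1 (fun θ hθ => he θ hθ ▸ hα1 θ (mem_zspanOn_iff.2 hθ))
      c₁ c₂ (Finset.one_lt_card.2 hX2) (Finset.one_lt_card.2 hY2) ha hb
  refine ⟨fun a ha b hb => ?_, fun ⟨a, ha, b, hb, e⟩ => ?_⟩
  · rw [← cfdot_top, ← e₁ a (mem_ZS_of_mem ha), ← e₂ b (mem_ZS_of_mem hb), ho a ha b hb]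
  · have hU : X ∪ Y ⊆ S := Finset.union_subset hXS hYS
    have h3 := coherent_union_of_irr (fun _ h => hS (hXS h)) (fun _ h => hS (hYS h)) hd c₁ c₂ ho
      ha hb (by rw [he _ (Irr.cross_mem_Z0 hS (hYS hb) (hXS ha)), e, e₁ a (mem_ZS_of_mem ha),
        e₂ b (mem_ZS_of_mem hb)])
    rw [← Finset.coe_union]
    refine Coherent.isCoherent (by convert h3) (fun θ hθ => he θ (Z0_mono hU hθ))
      ⟨_, Irr.cross_mem_Z0 (hU.trans hS) (Finset.mem_union_left _ ha) (Finset.mem_union_right _ hb),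
        Irr.cross_ne_zero (hS (hXS ha)) (hS (hYS hb)) fun e => Finset.disjoint_left.1 hd ha (e ▸ hb)⟩

end Cfsg.Agent.S1531
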