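import Cfsg.Statements.S1532
import Cfsg.Agent.Lib.PF.FeitCoh2

set_option autoImplicit false
open Cfsg

namespace Cfsg.Agent.S1532

open Cfsg.Lib Cfsg.Lib.PF Subgroup in

/-- Let G be a finite group, p an odd prime and P a Sylow p-subgroup that is non-abelian, whose underlying set is a TI-subset of G, with P properly contained in its set normaliser N and C_G(x) ≤ P for every non-identity x ∈ P. Let Z be a nontrivial subgroup of the centre of P normalised by N. Then the set of irreducible characters χ of N with χ z ≠ χ 1 for some z ∈ Z is coherent for the map induced by induction from N to G. -/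
theorem result {G : Type*} [Group G] [Fintype G] (p : ℕ) [Fact p.Prime] (hp : p ≠ 2) (P : Sylow p G) (hna : ¬ IsMulCommutative (P : Subgroup G)) (hTI : Cfsg.IsTISubset ((P : Subgroup G) : Set G)) (hlt : (P : Subgroup G) < Subgroup.normalizer ((P : Subgroup G) : Set G)) (hC : ∀ k ∈ (P : Subgroup G), k ≠ 1 → Subgroup.centralizer ({k} : Set G) ≤ (P : Subgroup G)) [Fintype ↥(Subgroup.normalizer ((P : Subgroup G) : Set G))] (Z : Subgroup G) (hZ1 : Z ≠ ⊥) (hZP : ∀ z ∈ Z, z ∈ (P : Subgroup G) ∧ ∀ y ∈ (P : Subgroup G), z * y = y * z) (hZn : ∀ x ∈ Subgroup.normalizer ((P : Subgroup G) : Set G), ∀ z ∈ Z, x * z * x⁻¹ ∈ Z) : Cfsg.IsCoherent {χ : ↥(Subgroup.normalizer ((P : Subgroup G) : Set G)) → ℂ | Cfsg.IsIrrCharacter ↥(Subgroup.normalizer ((P : Subgroup G) : Set G)) χ ∧ ∃ z : ↥(Subgroup.normalizer ((P : Subgroup G) : Set G)), (z : G) ∈ Z ∧ χ z ≠ χ 1} {1}ᶜ (fun α => Cfsg.indFun (Subgroup.normalizer ((P : Subgroup G) : Set G)) α) := by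
  classical
  have hZ : Z ≤ P := fun z hz => (hZP z hz).1
  have hP1 : (P : Subgroup G) ≠ ⊥ := fun e => hZ1 (eq_bot_iff.2 (e ▸ hZ))
  have hF := frobKer_normalizer hP1 hlt hC
  obtain ⟨m, hm⟩ := IsPGroup.iff_card.1 P.isPGroup'
  have hodd : Odd (Nat.card (normalizer ((P : Subgroup G) : Set G))) := by
    rw [← Core.card_mul_relIndex hF.lt.le, hm]
    exact ((Fact.out : p.Prime).odd_of_ne_two hp).pow.mul (Nat.not_even_iff_odd.1 fun e =>
      hna (commutator_self_eq_bot_iff.1 (hF.der_eq_bot_of_even e)))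
  have hn : normalizer ((P : Subgroup G) : Set G) ≤ normalizer (Z : Set G) := le_normalizer_iff.2 hZn
  have e : ((Irr (normalizer ((P : Subgroup G) : Set G))).filter fun φ => ¬ Z ≤ cfker φ) =
      seqIndD P (normalizer ((P : Subgroup G) : Set G)) Z ⊥ := by
    ext φ
    rw [Finset.mem_filter]
    refine ⟨fun h => ?_, fun h => ⟨hF.seqIndD_sub (SeqInd.mono hZ le_rfl h),
      SeqInd.not_le_cfker hlt.le hZ hn h⟩⟩
    obtain ⟨θ, hθ, -, rfl⟩ := hF.exists_eq_ind h.1 fun e => h.2 (hZ.trans e)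
    exact SeqInd.ind_mem hθ bot_le fun e => h.2 (le_cfker_ind hZ (hZ.trans hlt.le) hn e)
  rw [← image_coe_filter (hZ.trans hlt.le), e]
  refine ((sibley_coherence_frob hodd hF.isNilpotent (normedTI_sharp_of_isTISubset hP1 hTI) hF).mono
    (SeqInd.mono hZ le_rfl)).isCoherent_ind (fun χ hχ => SeqInd.mem_CF hχ) ?_
  obtain ⟨χ, hχ⟩ := SeqInd.nonempty hlt.le le_rfl hZ (bot_lt_iff_ne_bot.2 hZ1) (le_normalizer_bot _)
  exact ⟨χ - star χ, sub_mem_Z0 (mem_ZS_of_mem hχ) (mem_ZS_of_mem (SeqInd.star_mem hχ))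
    (SeqInd.isChar hlt.le hχ).conj_apply_one.symm,
    sub_ne_zero.2 (SeqInd.star_ne hlt.le le_rfl hodd hZ hχ).symm⟩

end Cfsg.Agent.S1532
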