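import Cfsg.Statements.S1536
import Cfsg.Agent.Lib.PF.Sec1Brauer
import Cfsg.Agent.Lib.Frobenius.Char

set_option autoImplicit false
open Cfsg

namespace Cfsg.Agent.S1536

/-- Let H be a normal subgroup of the finite group M whose order is coprime to its index. For x ∈ M: some non-principal irreducible character of H is unchanged under h ↦ θ(x h x⁻¹) if and only if some non-identity element of H commutes with x. -/
theorem result {M : Type*} [Group M] [Finite M] (H : Subgroup M) [hN : H.Normal] (hHall : Nat.Coprime (Nat.card H) H.index) (x : M) : (∃ θ : H → ℂ, Cfsg.IsIrrCharacter H θ ∧ θ ≠ (fun _ => 1) ∧ (fun h : H => θ ⟨x * h * x⁻¹, hN.conj_mem h h.2 x⟩) = θ) ↔ ∃ h ∈ H, h ≠ 1 ∧ x * h = h * x := by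
  constructor
  · rintro ⟨θ, hθ, h1, e⟩
    by_contra hne
    push Not at hne
    refine h1 (Cfsg.Lib.Frobenius.eq_one_of_conjChar_eq_of_fpf H (g := x) ?_ hθ e)
    refine eq_bot_iff.2 fun h hh => ?_
    by_contra h1
    exact hne h hh.1 h1 (Subgroup.mem_centralizer_singleton_iff.1 hh.2).symm
  · rintro ⟨h, hh, h1, hc⟩
    obtain ⟨θ, hθ, h2, h3⟩ := Cfsg.Lib.PF.exists_invariant_Irr
      (Subgroup.le_normalizer_of_normal (Subgroup.mem_top x)) hh h1 hc
    refine ⟨fun k => θ k, (Cfsg.Lib.PF.mem_Irr.1 hθ).2, fun e => h2 ?_,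
      funext fun k => Cfsg.Lib.PF.mem_inertia_iff.1 h3 k⟩
    exact (Cfsg.Lib.PF.eq_cf1_iff (Cfsg.Lib.PF.Irr.mem_CF hθ)).2 fun k hk => congrFun e ⟨k, hk⟩

end Cfsg.Agent.S1536
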