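import Cfsg.Statements.S1552
import Cfsg.Agent.Lib.Mathieu.Orb1

set_option autoImplicit false
open scoped Pointwise
open Cfsg

namespace Cfsg.Agent.S1552

/-- A sextet stabiliser has four orbits on the 1771 sextets, of sizes 1, 90, 240, 1440; and the stabiliser is a maximal proper subgroup. -/
theorem result (S : Finset (Finset Cfsg.GolayPt)) (hS : S ∈ Cfsg.sextets) : ∃ X₁ ∈ Cfsg.sextets, ∃ X₂ ∈ Cfsg.sextets, ∃ X₃ ∈ Cfsg.sextets, (MulAction.orbit ↥(MulAction.stabilizer Cfsg.M24 S) X₁).ncard = 90 ∧ (MulAction.orbit ↥(MulAction.stabilizer Cfsg.M24 S) X₂).ncard = 240 ∧ (MulAction.orbit ↥(MulAction.stabilizer Cfsg.M24 S) X₃).ncard = 1440 ∧ Cfsg.sextets = {S} ∪ MulAction.orbit ↥(MulAction.stabilizer Cfsg.M24 S) X₁ ∪ MulAction.orbit ↥(MulAction.stabilizer Cfsg.M24 S) X₂ ∪ MulAction.orbit ↥(MulAction.stabilizer Cfsg.M24 S) X₃ ∧ IsCoatom (MulAction.stabilizer Cfsg.M24 S) := by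
  obtain ⟨h, e⟩ := Lib.Mathieu.cls_sext_sext hS
  obtain ⟨x, a, y, b, z, c, h1, h2, h3, h4⟩ := h.one_three hS (fun _ h => h) e
  exact ⟨x, a, y, b, z, c, h1, h2, h3, h4, h.isCoatom (Lib.Mathieu.orbit_sextet hS) Lib.Mathieu.ncard_sextets
    (by norm_num) (by decide) (by decide)⟩

end Cfsg.Agent.S1552
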