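import Cfsg.Statements.S1553
import Cfsg.Agent.Lib.Mathieu.Struct

set_option autoImplicit false
open scoped Pointwise
open Cfsg

namespace Cfsg.Agent.S1553

open Cfsg.Lib.Golay Cfsg.Lib.Calc Cfsg.Lib.Grp Cfsg.Lib.Mathieu MulAction

set_option maxRecDepth 100000
set_option maxHeartbeats 400000


/-- The stabiliser of an octad in the group of the length-24 code induces on the octad exactly its alternating group. -/
theorem result (o : Finset Cfsg.GolayPt) (ho : o ∈ Cfsg.octads) : {e : Equiv.Perm ↥o | ∃ g : Equiv.Perm Cfsg.GolayPt, g ∈ Cfsg.M24 ∧ ∃ h : (∀ x, g x ∈ o ↔ x ∈ o), g.subtypePerm h = e} = (alternatingGroup ↥o : Set (Equiv.Perm ↥o)) := by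
  rw [← range_octad ho]
  ext e
  rw [SetLike.mem_coe, mem_range_indPerm]
  constructor
  · rintro ⟨g, hg, h, rfl⟩
    refine ⟨⟨g, hg⟩, Finset.eq_of_subset_of_card_le (fun x hx => ?_) (Finset.card_smul_finset g o).ge, fun _ => rfl⟩
    obtain ⟨y, hy, rfl⟩ := Finset.mem_smul_finset.1 hx
    exact (h y).2 hy
  · rintro ⟨g, hg, h⟩
    exact ⟨g, g.2, fun _ => apply_mem_iff hg, Equiv.ext fun t => Subtype.ext (h t)⟩

end Cfsg.Agent.S1553
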