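import Cfsg.Statements.S1554
import Cfsg.Agent.Lib.Mathieu.Struct

set_option autoImplicit false
open scoped Pointwise
open Cfsg

namespace Cfsg.Agent.S1554

open Cfsg.Lib Cfsg.Lib.Golay Cfsg.Lib.Calc Cfsg.Lib.Grp Cfsg.Lib.Mathieu MulAction

set_option maxRecDepth 100000
set_option maxHeartbeats 400000


/-- An octad stabiliser is a split extension: the joint stabiliser of the octad and a point outside it is a complement to the pointwise stabiliser of the octad, and is isomorphic to the alternating group of degree 8. -/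
theorem result (o : Finset Cfsg.GolayPt) (ho : o ∈ Cfsg.octads) (p : Cfsg.GolayPt) (hp : p ∉ o) : (Cfsg.M24 ⊓ fixingSubgroup (Equiv.Perm Cfsg.GolayPt) (o : Set Cfsg.GolayPt)) ⊓ (Cfsg.M24 ⊓ MulAction.stabilizer (Equiv.Perm Cfsg.GolayPt) o ⊓ MulAction.stabilizer (Equiv.Perm Cfsg.GolayPt) p) = ⊥ ∧ (Cfsg.M24 ⊓ fixingSubgroup (Equiv.Perm Cfsg.GolayPt) (o : Set Cfsg.GolayPt)) ⊔ (Cfsg.M24 ⊓ MulAction.stabilizer (Equiv.Perm Cfsg.GolayPt) o ⊓ MulAction.stabilizer (Equiv.Perm Cfsg.GolayPt) p) = (Cfsg.M24 ⊓ MulAction.stabilizer (Equiv.Perm Cfsg.GolayPt) o) ∧ Nonempty (↥(Cfsg.M24 ⊓ MulAction.stabilizer (Equiv.Perm Cfsg.GolayPt) o ⊓ MulAction.stabilizer (Equiv.Perm Cfsg.GolayPt) p) ≃* alternatingGroup (Fin 8)) := by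
  refine ⟨eq_bot_iff.2 fun g hg => congrArg Subtype.val (eq_one_of_fix_octad ho (x := ⟨g, hg.1.1⟩) hg.1.2 hp hg.2.2),
    le_antisymm (sup_le (fun g hg => ⟨hg.1, smul_eq_of_fix fun x hx => hg.2 ⟨x, hx⟩⟩) inf_le_left) fun g hg => ?_, ?_⟩
  · obtain ⟨e, h1, h2⟩ := exists_fix_octad ho hp (q := g p) fun e => hp ((apply_mem_iff hg.2).1 e)
    have h3 : (e : P24) • o = o := smul_eq_of_fix (mem_fixS.1 h1)
    rw [← mul_inv_cancel_left (e : P24) g]
    refine Subgroup.mul_mem_sup ⟨e.2, h1⟩ ⟨Subgroup.mul_mem _ (Subgroup.inv_mem _ ⟨e.2, h3⟩) hg, ?_⟩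
    exact mem_stabilizer_iff.2 ((mul_smul _ _ _).trans (inv_smul_eq_iff.2 h2.symm))
  · let K := stabilizer M24 o ⊓ stabilizer M24 p
    let f := (indPerm _ o (smul_mem_of_stab o)).comp (Subgroup.inclusion (inf_le_left : K ≤ _))
    have h1 : f.range = alternatingGroup o := by
      refine le_antisymm (range_octad ho ▸ fun _ ⟨g, h⟩ => ⟨_, h⟩) (range_octad ho ▸ fun _ ⟨g, h⟩ => ?_)
      obtain ⟨e, h1, h2⟩ := exists_fix_octad ho (p := (g : P24)⁻¹ p) (q := p)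
        (fun e => hp ((apply_mem_iff (inv_smul_eq_iff.2 (Eq.symm g.2))).1 e)) hp
      have h3 : e⁻¹ ∈ fixS o := Subgroup.inv_mem _ h1
      refine ⟨⟨g * e⁻¹, Subgroup.mul_mem _ g.2 (smul_eq_of_fix (mem_fixS.1 h3)), ?_⟩,
        Eq.trans (b := indPerm _ o (smul_mem_of_stab o) g)
          (Equiv.ext fun t => Subtype.ext (congrArg (g : P24) (mem_fixS.1 h3 t t.2))) h⟩
      exact mem_stabilizer_iff.2 ((mul_smul _ _ _).trans
        (smul_eq_iff_eq_inv_smul _ |>.2 (inv_smul_eq_iff.2 h2.symm)))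
    have h2 : Function.Injective f := (injective_iff_map_eq_one f).2 fun g hg =>
      Subtype.ext (eq_one_of_fix_octad ho (mem_fixS.2 (mem_ker_indPerm.1
        (show Subgroup.inclusion inf_le_left g ∈ (indPerm _ o (smul_mem_of_stab o)).ker from hg))) hp g.2.2)
    exact ⟨(subEquiv (K := K) (inf_le_left.trans inf_le_left) fun x =>
      ⟨fun h => ⟨⟨x.2, h.1⟩, h.2⟩, fun h => ⟨h.1.2, h.2⟩⟩).symm.trans ((MonoidHom.ofInjective h2).trans
      ((MulEquiv.subgroupCongr h1).trans (Finset.equivFinOfCardEq ho.2).altCongrHom))⟩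

end Cfsg.Agent.S1554
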