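import Cfsg.Statements.S1555
import Cfsg.Agent.Lib.Golay.Code

set_option autoImplicit false
open scoped Pointwise
open Cfsg

namespace Cfsg.Agent.S1555

/-- Bottom row of the Leech triangle: an octad is met in a prescribed pair of its points by exactly 16 octads and in a prescribed 4-subset by exactly 4 octads. -/
theorem result (o : Finset Cfsg.GolayPt) (ho : o ∈ Cfsg.octads) (s : Finset Cfsg.GolayPt) (hs : s ⊆ o) : (s.card = 2 → {o' : Finset Cfsg.GolayPt | o' ∈ Cfsg.octads ∧ o ∩ o' = s}.ncard = 16) ∧ (s.card = 4 → {o' : Finset Cfsg.GolayPt | o' ∈ Cfsg.octads ∧ o ∩ o' = s}.ncard = 4) := by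
  have h := Lib.Golay.ncard_inter_eq_tri o Lib.Golay.lam24
    (Lib.Golay.cnt24_block Lib.Golay.card_golayPt Lib.Golay.octads_steiner ho) hs
  rw [ho.2] at h
  refine ⟨fun h2 => ?_, fun h2 => ?_⟩ <;> rw [h, h2] <;> decide

end Cfsg.Agent.S1555
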