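import Cfsg.Statements.S1562
import Cfsg.Agent.Lib.Mathieu.Orb2

set_option autoImplicit false
open scoped Pointwise
open Cfsg

namespace Cfsg.Agent.S1562

/-- Orbits of a triad stabiliser on the triads disjoint from it: the 210 triads inside a common octad with it form one orbit and the remaining 1120 another. -/
theorem result (T : Finset Cfsg.GolayPt) (hT : T.card = 3) : {U : Finset Cfsg.GolayPt | U.card = 3 ∧ Disjoint T U ∧ (∃ o ∈ Cfsg.octads, T ∪ U ⊆ o)}.ncard = 210 ∧ {U : Finset Cfsg.GolayPt | U.card = 3 ∧ Disjoint T U ∧ ¬ (∃ o ∈ Cfsg.octads, T ∪ U ⊆ o)}.ncard = 1120 ∧ ∀ U U' : Finset Cfsg.GolayPt, U.card = 3 → U'.card = 3 → Disjoint T U → Disjoint T U' → ((∃ o ∈ Cfsg.octads, T ∪ U ⊆ o) ↔ (∃ o ∈ Cfsg.octads, T ∪ U' ⊆ o)) → ∃ g : Equiv.Perm Cfsg.GolayPt, g ∈ Cfsg.M24 ∧ g • T = T ∧ g • U = U' := by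
  have h := Lib.Mathieu.cls_triad hT
  have key : ∀ U : Finset GolayPt, (T ∩ U).card < 4 := fun U =>
    Nat.lt_succ_of_le (hT ▸ Finset.card_le_card Finset.inter_subset_left)
  refine ⟨Eq.trans ?_ (h.ncard (v := 4) (by simp)), Eq.trans ?_ (h.ncard (v := 0) (by simp)),
    fun U U' h1 h2 h3 h4 h5 => ?_⟩
  · congr 1
    ext U
    have := key U
    have := Lib.Mathieu.inOct_le (T ∪ U)
    simp only [Set.mem_ofPred_eq, Finset.disjoint_iff_inter_eq_empty, ← Finset.card_eq_zero,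
      ← Lib.Mathieu.inOct_eq_one]
    omega
  · congr 1
    ext U
    simp only [Set.mem_ofPred_eq, Finset.disjoint_iff_inter_eq_empty, ← Finset.card_eq_zero,
      ← Lib.Mathieu.inOct_eq_zero]
    omega
  · obtain ⟨g, a, b⟩ := h.exists_smul (y := U) (y' := U') h1 h2 (by
      have := Lib.Mathieu.inOct_le (T ∪ U)
      have := Lib.Mathieu.inOct_le (T ∪ U')
      simp only [Finset.disjoint_iff_inter_eq_empty, ← Finset.card_eq_zero, ← Lib.Mathieu.inOct_eq_one] at h3 h4 h5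
      omega)
    exact ⟨g, g.2, a, b⟩

end Cfsg.Agent.S1562
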