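import Cfsg.Statements.S1567
import Cfsg.Agent.Lib.Leech.Cross
import Cfsg.Prelude.Def_Spor_Conway

set_option autoImplicit false
open Cfsg

namespace Cfsg.Agent.S1567

open Cfsg.Lib.Leech Cfsg.Lib.Calc Finset in
theorem bas_mem (i : ℕ) (hi : i < 24) : (bas i : Cfsg.GolayPt → ℤ) ∈
    AddSubgroup.closure {x : Cfsg.GolayPt → ℤ | x ∈ Cfsg.leechLattice ∧ Cfsg.sqNorm x = 32} := by
  rcases Nat.lt_succ_iff_lt_or_eq.1 hi with h | rfl
  · refine AddSubgroup.subset_closure ⟨(bas i).2, ?_⟩
    have : allLt 23 (fun i => dotV (get 192 basP i) (get 192 basP i) 32 0) = true := by decide +kernel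
    rw [coe_bas hi, sqNorm_eq_dot, dotV_iff.1 (of_allLt this h)]; rfl
  · have e : (bas 23 : Cfsg.GolayPt → ℤ) = Cfsg.Spor.vecU + Cfsg.Spor.vecU' := by
      rw [coe_bas hi]; decide +kernel
    rw [e]
    exact AddSubgroup.add_mem _
      (AddSubgroup.subset_closure ⟨Cfsg.Spor.leechU.2, by decide +kernel⟩)
      (AddSubgroup.subset_closure ⟨Cfsg.Spor.leechU'.2, by decide +kernel⟩)

/-- The rank-24 lattice is the additive subgroup generated by its 196560 minimal vectors. -/
theorem result : AddSubgroup.closure {x : Cfsg.GolayPt → ℤ | x ∈ Cfsg.leechLattice ∧ Cfsg.sqNorm x = 32} = Cfsg.leechLattice := by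
  refine le_antisymm ((AddSubgroup.closure_le _).2 fun x hx => hx.1) fun x hx => ?_
  have := congrArg Subtype.val (Cfsg.Lib.Leech.sum_coord ⟨x, hx⟩)
  rw [AddSubmonoidClass.coe_finsetSum] at this
  change _ = x at this
  rw [← this]
  exact sum_mem fun i hi => AddSubgroup.zsmul_mem _ (bas_mem i (Finset.mem_range.1 hi)) _

end Cfsg.Agent.S1567
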