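import Cfsg.Statements.S1568
import Cfsg.Agent.Lib.Leech.Count2

set_option autoImplicit false
open Cfsg

namespace Cfsg.Agent.S1568

/-- Shape census of the lattice vectors of sum of squares 48 (customary norm 6): the four families (2^12, 0^12), (±3^3, ±1^21), (±4, ±2^8, 0^15) and (±5, ±1^23) have 5275648, 8290304, 3108864 and 98304 members. -/
theorem result : {x : Cfsg.GolayPt → ℤ | x ∈ Cfsg.leechLattice ∧ Cfsg.sqNorm x = 48 ∧ ∀ i, x i = 0 ∨ x i = 2 ∨ x i = -2}.ncard = 5275648 ∧ {x : Cfsg.GolayPt → ℤ | x ∈ Cfsg.leechLattice ∧ Cfsg.sqNorm x = 48 ∧ ∃ i j k, i ≠ j ∧ j ≠ k ∧ i ≠ k ∧ |x i| = 3 ∧ |x j| = 3 ∧ |x k| = 3}.ncard = 8290304 ∧ {x : Cfsg.GolayPt → ℤ | x ∈ Cfsg.leechLattice ∧ Cfsg.sqNorm x = 48 ∧ ∃ i, |x i| = 4}.ncard = 3108864 ∧ {x : Cfsg.GolayPt → ℤ | x ∈ Cfsg.leechLattice ∧ Cfsg.sqNorm x = 48 ∧ ∃ i, |x i| = 5}.ncard = 98304 := by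
  have habs : ∀ a b : ℤ, 0 ≤ b → (|a| = b ↔ (a == b || a == -b) = true) := by
    intro a b hb
    rw [abs_eq hb]; simp
  refine ⟨?_, ?_, ?_, ?_⟩
  · refine Eq.trans ?_ ((Cfsg.Lib.Leech.leech_count (fun a => !(a == 0 || a == 2 || a == -2)) (· == 0) 6
      (by norm_num)).trans (by decide +kernel))
    congr 1
    ext x
    simp only [Set.mem_ofPred_eq, beq_iff_eq, Finset.card_eq_zero, Finset.filter_eq_empty_iff]
    refine and_congr Iff.rfl (and_congr (by norm_num) (forall_congr' fun i => ?_))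
    simp; tauto
  · refine Eq.trans ?_ ((Cfsg.Lib.Leech.leech_count (fun a => a == 3 || a == -3) (fun k => decide (2 < k)) 6
      (by norm_num)).trans (by decide +kernel))
    congr 1
    ext x
    simp only [Set.mem_ofPred_eq, decide_eq_true_eq]
    refine and_congr Iff.rfl (and_congr (by norm_num) ?_)
    rw [Finset.two_lt_card]
    simp only [habs _ 3 (by norm_num)]
    constructor
    · rintro ⟨i, j, k, h1, h2, h3, h4, h5, h6⟩
      exact ⟨i, Finset.mem_filter.2 ⟨Finset.mem_univ _, h4⟩, j, Finset.mem_filter.2 ⟨Finset.mem_univ _, h5⟩,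
        k, Finset.mem_filter.2 ⟨Finset.mem_univ _, h6⟩, h1, h3, h2⟩
    · rintro ⟨i, h4, j, h5, k, h6, h1, h3, h2⟩
      exact ⟨i, j, k, h1, h2, h3, (Finset.mem_filter.1 h4).2, (Finset.mem_filter.1 h5).2,
        (Finset.mem_filter.1 h6).2⟩
  · refine Eq.trans ?_ ((Cfsg.Lib.Leech.leech_count (fun a => a == 4 || a == -4) (fun k => decide (0 < k)) 6
      (by norm_num)).trans (by decide +kernel))
    congr 1
    ext x
    simp only [Set.mem_ofPred_eq, decide_eq_true_eq, Finset.card_pos, Finset.Nonempty, Finset.mem_filter,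
      Finset.mem_univ, true_and, habs _ 4 (by norm_num)]
    exact and_congr Iff.rfl (and_congr (by norm_num) Iff.rfl)
  · refine Eq.trans ?_ ((Cfsg.Lib.Leech.leech_count (fun a => a == 5 || a == -5) (fun k => decide (0 < k)) 6
      (by norm_num)).trans (by decide +kernel))
    congr 1
    ext x
    simp only [Set.mem_ofPred_eq, decide_eq_true_eq, Finset.card_pos, Finset.Nonempty, Finset.mem_filter,
      Finset.mem_univ, true_and, habs _ 5 (by norm_num)]
    exact and_congr Iff.rfl (and_congr (by norm_num) Iff.rfl)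

end Cfsg.Agent.S1568
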