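import Cfsg.Statements.S1569
import Cfsg.Agent.Lib.Leech.Cross

set_option autoImplicit false
open scoped Pointwise
open Cfsg

namespace Cfsg.Agent.S1569

/-- The cross through a lattice vector of customary norm 8 has exactly 48 members. -/
theorem result (x : Cfsg.GolayPt → ℤ) (hx : x ∈ Cfsg.leechLattice) (hxn : Cfsg.sqNorm x = 64) : (Cfsg.cross x).ncard = 48 := by
  rw [← Cfsg.Lib.Leech.leech_classes.1 ⟨x, hx⟩ hxn, Cfsg.cross, Cfsg.Lib.Leech.ncard_coe]
  congr 1
  ext y
  simp only [Set.mem_setOf_eq, hxn]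
  rw [eq_comm (a := Cfsg.Lib.Leech.code y), Cfsg.Lib.Leech.code_eq_iff]

end Cfsg.Agent.S1569
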