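import Cfsg.Statements.S1573
import Cfsg.Agent.Lib.Leech.Orbits

set_option autoImplicit false
open Cfsg

namespace Cfsg.Agent.S1573

open Cfsg.Lib.Leech in
theorem aux {v : Cfsg.leechLattice} (hv : nm(v) = 32) {k : ℤ} {y : Cfsg.leechLattice} {n : ℕ}
    (h : (k, y, n) ∈ co2_L) : {w : Cfsg.GolayPt → ℤ | w ∈ Cfsg.leechLattice ∧ Cfsg.sqNorm w = 32 ∧
      Cfsg.dotInt (v : Cfsg.GolayPt → ℤ) w = k}.ncard = n := by
  rw [ncard_coe]; exact ncard_T1_32 h hv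

/-- Census of minimal vectors by inner product with a fixed minimal vector: 4600 have customary inner product −2, 47104 have −1, and 93150 are orthogonal. -/
theorem result (v : Cfsg.GolayPt → ℤ) (hv : v ∈ Cfsg.leechLattice) (hvn : Cfsg.sqNorm v = 32) : {w : Cfsg.GolayPt → ℤ | w ∈ Cfsg.leechLattice ∧ Cfsg.sqNorm w = 32 ∧ Cfsg.dotInt v w = -16}.ncard = 4600 ∧ {w : Cfsg.GolayPt → ℤ | w ∈ Cfsg.leechLattice ∧ Cfsg.sqNorm w = 32 ∧ Cfsg.dotInt v w = -8}.ncard = 47104 ∧ {w : Cfsg.GolayPt → ℤ | w ∈ Cfsg.leechLattice ∧ Cfsg.sqNorm w = 32 ∧ Cfsg.dotInt v w = 0}.ncard = 93150 := by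
  open Cfsg.Lib.Leech in
  exact ⟨aux (v := ⟨v, hv⟩) hvn (y := -vXA) (by simp [co2_L]), aux (v := ⟨v, hv⟩) hvn (y := vW) (by simp [co2_L]),
    aux (v := ⟨v, hv⟩) hvn (y := Cfsg.Spor.leechU') (by simp [co2_L])⟩

end Cfsg.Agent.S1573
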