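import Cfsg.Statements.S1579
import Cfsg.Agent.Lib.Leech.Config

set_option autoImplicit false
open Cfsg

namespace Cfsg.Agent.S1579

/-- The stabiliser of a vector of customary norm 6 is transitive on the 552 minimal vectors that complete it to a sum of two minimal vectors. -/
theorem result (u v v' : ↥Cfsg.leechLattice) (hu : Cfsg.sqNorm (u : Cfsg.GolayPt → ℤ) = 48) (hv : Cfsg.sqNorm (v : Cfsg.GolayPt → ℤ) = 32 ∧ Cfsg.sqNorm ((u - v) : Cfsg.GolayPt → ℤ) = 32) (hv' : Cfsg.sqNorm (v' : Cfsg.GolayPt → ℤ) = 32 ∧ Cfsg.sqNorm ((u - v') : Cfsg.GolayPt → ℤ) = 32) : ∃ g : ↥Cfsg.Co0, g • u = u ∧ g • v = v' := by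
  open Cfsg.Lib.Leech in
  obtain ⟨g, rfl, rfl⟩ := exists_smul_V_negU hu ⟨hv.1, (norm_sub_iff hu hv.1).1 hv.2⟩
  open Cfsg.Lib.Leech in
  obtain ⟨h, h1, rfl⟩ := exists_smul_V_negU hu ⟨hv'.1, (norm_sub_iff hu hv'.1).1 hv'.2⟩
  exact ⟨h * g⁻¹, by rw [mul_smul, inv_smul_smul, h1], by rw [mul_smul, inv_smul_smul]⟩

end Cfsg.Agent.S1579
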