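import Cfsg.Statements.S1580
import Cfsg.Agent.Lib.Leech.Config

set_option autoImplicit false
open Cfsg

namespace Cfsg.Agent.S1580

open Cfsg.Lib.Leech

/-- The McLaughlin configuration: for u of customary norm 6 and v minimal with u − v minimal, there are 275 further such summands x of customary inner product 2 with v, permuted transitively by the stabiliser of u and v. -/
theorem result (u v : ↥Cfsg.leechLattice) (hu : Cfsg.sqNorm (u : Cfsg.GolayPt → ℤ) = 48) (hv : Cfsg.sqNorm (v : Cfsg.GolayPt → ℤ) = 32 ∧ Cfsg.sqNorm ((u - v) : Cfsg.GolayPt → ℤ) = 32) : {x : ↥Cfsg.leechLattice | Cfsg.sqNorm (x : Cfsg.GolayPt → ℤ) = 32 ∧ Cfsg.sqNorm ((u - x) : Cfsg.GolayPt → ℤ) = 32 ∧ Cfsg.dotInt (v : Cfsg.GolayPt → ℤ) (x : Cfsg.GolayPt → ℤ) = 16}.ncard = 275 ∧ ∀ x ∈ {x : ↥Cfsg.leechLattice | Cfsg.sqNorm (x : Cfsg.GolayPt → ℤ) = 32 ∧ Cfsg.sqNorm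 ((u - x) : Cfsg.GolayPt → ℤ) = 32 ∧ Cfsg.dotInt (v : Cfsg.GolayPt → ℤ) (x : Cfsg.GolayPt → ℤ) = 16}, ∀ x' ∈ {x : ↥Cfsg.leechLattice | Cfsg.sqNorm (x : Cfsg.GolayPt → ℤ) = 32 ∧ Cfsg.sqNorm ((u - x) : Cfsg.GolayPt → ℤ) = 32 ∧ Cfsg.dotInt (v : Cfsg.GolayPt → ℤ) (x : Cfsg.GolayPt → ℤ) = 16}, ∃ g : ↥Cfsg.Co0, g • u = u ∧ g • v = v ∧ g • x = x' := by
  have hv' : v ∈ T1 u 24 := ⟨hv.1, (norm_sub_iff hu hv.1).1 hv.2⟩
  rw [set275_eq hu]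
  refine ⟨?_, fun x hx x' hx' => ?_⟩
  · obtain ⟨g, rfl, rfl⟩ := exists_smul_V_negU hu hv'
    rw [← smul_T2, Set.ncard_smul_set, T2_neg, orbit_mcl_XA.2]
  · obtain ⟨g, rfl, rfl, rfl⟩ := exists_smul_275 hu hv' hx
    obtain ⟨h, h1, h2, rfl⟩ := exists_smul_275 hu hv' hx'
    exact ⟨h * g⁻¹, by rw [mul_smul, inv_smul_smul, h1], by rw [mul_smul, inv_smul_smul, h2],
      by rw [mul_smul, inv_smul_smul]⟩

end Cfsg.Agent.S1580
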