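import Cfsg.Statements.S1581
import Cfsg.Agent.Lib.Leech.Config

set_option autoImplicit false
open Cfsg

namespace Cfsg.Agent.S1581

open Cfsg.Lib.Leech Cfsg.Lib.F2 Cfsg.Spor MulAction
open scoped Pointwise

theorem T3_eq (k : ℤ) : T3 leechV 24 (-leechU) 16 (-vXA) k = T3 leechV 24 leechU (-16) vXA (-k) := by
  ext x
  simp only [Set.mem_setOf_eq, AddSubgroup.coe_neg, dot_neg_left, neg_eq_iff_eq_neg]

/-- The McLaughlin group acts with rank 3 and subdegrees 1, 112, 162 on its 275 points: the point stabiliser has two orbits on the remaining points, distinguished by customary inner product 1 or 2 with the fixed point. -/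
theorem result (u v x : ↥Cfsg.leechLattice) (hu : Cfsg.sqNorm (u : Cfsg.GolayPt → ℤ) = 48) (hv : Cfsg.sqNorm (v : Cfsg.GolayPt → ℤ) = 32 ∧ Cfsg.sqNorm ((u - v) : Cfsg.GolayPt → ℤ) = 32) (hx : x ∈ {x : ↥Cfsg.leechLattice | Cfsg.sqNorm (x : Cfsg.GolayPt → ℤ) = 32 ∧ Cfsg.sqNorm ((u - x) : Cfsg.GolayPt → ℤ) = 32 ∧ Cfsg.dotInt (v : Cfsg.GolayPt → ℤ) (x : Cfsg.GolayPt → ℤ) = 16}) : {y : ↥Cfsg.leechLattice | y ∈ {x : ↥Cfsg.leechLattice | Cfsg.sqNorm (x : Cfsg.GolayPt → ℤ) = 32 ∧ Cfsg.sqNorm ((u - x) : Cfsg.GolayPt → ℤ) = 32 ∧ Cfsg.dotInt (v : Cfsg.GolayPt → ℤ) (x : Cfsg.GolayPt → ℤ) = 16} ∧ Cfsg.dotInt (x : Cfsg.GolayPt → ℤ) (y : Cfsg.GolayPt → ℤ) = 8}.ncard = 112 ∧ {y : ↥Cfsg.leechLattice | y ∈ {x : ↥Cfsg.leechLattice | Cfsg.sqNorm (x : Cfsg.GolayPt → ℤ) = 32 ∧ Cfsg.sqNorm ((u - x) : Cfsg.GolayPt → ℤ) = 32 ∧ Cfsg.dotInt (v : Cfsg.GolayPt → ℤ)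 (x : Cfsg.GolayPt → ℤ) = 16} ∧ y ≠ x ∧ Cfsg.dotInt (x : Cfsg.GolayPt → ℤ) (y : Cfsg.GolayPt → ℤ) = 16}.ncard = 162 ∧ ∀ y ∈ {x : ↥Cfsg.leechLattice | Cfsg.sqNorm (x : Cfsg.GolayPt → ℤ) = 32 ∧ Cfsg.sqNorm ((u - x) : Cfsg.GolayPt → ℤ) = 32 ∧ Cfsg.dotInt (v : Cfsg.GolayPt → ℤ) (x : Cfsg.GolayPt → ℤ) = 16}, ∀ y' ∈ {x : ↥Cfsg.leechLattice | Cfsg.sqNorm (x : Cfsg.GolayPt → ℤ) = 32 ∧ Cfsg.sqNorm ((u - x) : Cfsg.GolayPt → ℤ) = 32 ∧ Cfsg.dotInt (v : Cfsg.GolayPt → ℤ) (x : Cfsg.GolayPt → ℤ) = 16}, y ≠ x → y' ≠ x → Cfsg.dotInt (x : Cfsg.GolayPt → ℤ) (y : Cfsg.GolayPt → ℤ) = Cfsg.dotInt (x : Cfsg.GolayPt → ℤ) (y' : Cfsg.GolayPt → ℤ) → ∃ g : ↥Cfsg.Co0, g • u = u ∧ g • v = v ∧ g • x = x ∧ g • y = y' := by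
  have hv' : v ∈ T1 u 24 := ⟨hv.1, (norm_sub_iff hu hv.1).1 hv.2⟩
  rw [set275_eq hu] at hx ⊢
  obtain ⟨g, rfl, rfl, rfl⟩ := exists_smul_275 hu hv' hx
  have h := u43_a_orbits
  simp only [u43_a_L, List.forall_mem_cons, List.not_mem_nil, false_imp_iff, implies_true, and_true,
    List.mem_cons, or_false, exists_eq_or_imp, exists_eq_left, forall_eq_or_imp, forall_eq] at h
  obtain ⟨⟨h0, h1, h2⟩, h3⟩ := h
  refine ⟨?_, ?_, fun y hy y' hy' n n' e => ?_⟩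
  · change (T3 _ _ _ _ _ _).ncard = _
    rw [← smul_T3, Set.ncard_smul_set, T3_eq, h1.2]
  · rw [← h2.2, ← T3_eq 16, ← Set.ncard_smul_set g (T3 _ _ _ _ _ _), smul_T3]
    congr 1
    ext y
    refine and_congr_right fun hy => and_iff_right_of_imp fun e n => ?_
    rw [n, ← sqNorm_eq_dot, hx.1.1] at e
    omega
  · have key : ∀ k r, orbit u43 r = T3 leechV 24 leechU (-16) vXA (-k) → dt(g • -vXA, y') = k →
        ∃ a : Co0, a • g • leechV = g • leechV ∧ a • g • -leechU = g • -leechU ∧ a • g • -vXA = g • -vXA ∧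
          a • y = y' := fun k r hr hk => by
      obtain ⟨a, ha, e'⟩ := exists_conj_of_smul_orbit (H := u43) (g := g) (r := r) (y := y) (y' := y')
        (by rw [hr, ← T3_eq, smul_T3]; exact ⟨hy, e.trans hk⟩) (by rw [hr, ← T3_eq, smul_T3]; exact ⟨hy', hk⟩)
      exact ⟨_, conj_smul_fix ha.1.1, conj_smul_fix (by rw [smul_neg, mem_stabilizer_iff.1 ha.1.2]),
        conj_smul_fix (by rw [smul_neg, mem_stabilizer_iff.1 ha.2]), e'⟩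
    have h4 := h3 (g⁻¹ • y') (by rw [← T2_neg, ← Set.mem_smul_set_iff_inv_smul_mem, smul_T2]; exact hy')
    have h5 : dt(g • -vXA, y') = -dt(vXA, g⁻¹ • y') := by
      rw [dt_inv_smul, smul_neg, AddSubgroup.coe_neg, dot_neg_left]
    rcases h4 with h4 | h4 | h4 <;> rw [h4] at h5
    · exact absurd (eq_of_dt_eq_32 hx.1.1 hy'.1.1 h5) n'
    · exact key 8 _ h1.1 h5
    · exact key 16 _ h2.1 h5

end Cfsg.Agent.S1581
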