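import Cfsg.Statements.S1584
import Cfsg.Agent.Lib.Leech.Config

set_option autoImplicit false
open Cfsg

namespace Cfsg.Agent.S1584

open Cfsg.Lib.Leech Cfsg.Lib.F2 Cfsg.Spor MulAction
open scoped Pointwise

theorem T2_eq : T2 leechV 24 vW' (-24) = T2 leechV 24 leechU' 0 := T2_W' _ _

theorem T3_eq (k : ℤ) : T3 leechV 24 vW' (-24) (-leechU) k = T3 leechV 24 leechU' 0 leechU (-k) := by
  ext x
  change x ∈ T2 _ _ _ _ ∧ _ ↔ x ∈ T2 _ _ _ _ ∧ _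
  rw [T2_eq, AddSubgroup.coe_neg, dot_neg_left, neg_eq_iff_eq_neg]

/-- The Higman–Sims group acts with rank 3 and subdegrees 1, 22, 77 on its 100 points, the orbits of a point stabiliser being distinguished by customary inner product 1 with the fixed point. -/
theorem result (v w x : ↥Cfsg.leechLattice) (hv : Cfsg.sqNorm (v : Cfsg.GolayPt → ℤ) = 48) (hw : Cfsg.sqNorm (w : Cfsg.GolayPt → ℤ) = 48) (hvw : Cfsg.dotInt (v : Cfsg.GolayPt → ℤ) (w : Cfsg.GolayPt → ℤ) = -32) (hx : x ∈ {x : ↥Cfsg.leechLattice | Cfsg.sqNorm (x : Cfsg.GolayPt → ℤ) = 32 ∧ Cfsg.dotInt (v : Cfsg.GolayPt → ℤ) (x : Cfsg.GolayPt → ℤ) = 24 ∧ Cfsg.dotInt (w : Cfsg.GolayPt → ℤ) (x : Cfsg.GolayPt → ℤ) = -24}) : {y : ↥Cfsg.leechLattice | y ∈ {x : ↥Cfsg.leechLattice | Cfsg.sqNorm (x : Cfsg.GolayPt → ℤ) = 32 ∧ Cfsg.dotInt (v : Cfsg.GolayPt → ℤ) (x : Cfsg.GolayPt → ℤ) = 24 ∧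 Cfsg.dotInt (w : Cfsg.GolayPt → ℤ) (x : Cfsg.GolayPt → ℤ) = -24} ∧ Cfsg.dotInt (x : Cfsg.GolayPt → ℤ) (y : Cfsg.GolayPt → ℤ) = 8}.ncard = 22 ∧ {y : ↥Cfsg.leechLattice | y ∈ {x : ↥Cfsg.leechLattice | Cfsg.sqNorm (x : Cfsg.GolayPt → ℤ) = 32 ∧ Cfsg.dotInt (v : Cfsg.GolayPt → ℤ) (x : Cfsg.GolayPt → ℤ) = 24 ∧ Cfsg.dotInt (w : Cfsg.GolayPt → ℤ) (x : Cfsg.GolayPt → ℤ) = -24} ∧ y ≠ x ∧ Cfsg.dotInt (x : Cfsg.GolayPt → ℤ) (y : Cfsg.GolayPt → ℤ) ≠ 8}.ncard = 77 ∧ ∀ y ∈ {x : ↥Cfsg.leechLattice | Cfsg.sqNorm (x : Cfsg.GolayPt → ℤ) = 32 ∧ Cfsg.dotInt (v : Cfsg.GolayPt → ℤ) (x : Cfsg.GolayPt → ℤ) = 24 ∧ Cfsg.dotInt (w : Cfsg.GolayPt → ℤ) (x : Cfsg.GolayPt → ℤ) = -24}, ∀ y' ∈ {x : ↥Cfsg.leechLattice | Cfsg.sqNorm (x : Cfsg.GolayPt → ℤ) = 32 ∧ Cfsg.dotInt (v : Cfsg.GolayPt → ℤ) (x : Cfsg.GolayPt → ℤ) = 24 ∧ Cfsg.dotInt (w : Cfsg.GolayPt → ℤ) (x : Cfsg.GolayPt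 → ℤ) = -24}, y ≠ x → y' ≠ x → (Cfsg.dotInt (x : Cfsg.GolayPt → ℤ) (y : Cfsg.GolayPt → ℤ) = 8 ↔ Cfsg.dotInt (x : Cfsg.GolayPt → ℤ) (y' : Cfsg.GolayPt → ℤ) = 8) → ∃ g : ↥Cfsg.Co0, g • v = v ∧ g • w = w ∧ g • x = x ∧ g • y = y' := by
  rw [setT2_eq] at hx ⊢
  obtain ⟨g, rfl, rfl, rfl⟩ := exists_smul_100 hv hw hvw hx
  have h := m22_b_orbits
  simp only [m22_b_L, List.forall_mem_cons, List.not_mem_nil, false_imp_iff, implies_true, and_true,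
    List.mem_cons, or_false, exists_eq_or_imp, exists_eq_left, forall_eq_or_imp, forall_eq] at h
  obtain ⟨⟨h0, h1, h2⟩, h3⟩ := h
  have h6 : ∀ y ∈ T2 (g • leechV) 24 (g • vW') (-24), y ≠ g • -leechU →
      dt(g • -leechU, y) = 8 ∨ dt(g • -leechU, y) = 16 := fun y hy n => by
    have h4 := h3 (g⁻¹ • y) (by rw [← T2_eq, ← Set.mem_smul_set_iff_inv_smul_mem, smul_T2]; exact hy)
    have h5 : dt(g • -leechU, y) = -dt(leechU, g⁻¹ • y) := by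
      rw [dt_inv_smul, smul_neg, AddSubgroup.coe_neg, dot_neg_left]
    rcases h4 with h4 | h4 | h4 <;> rw [h4] at h5
    · exact absurd (eq_of_dt_eq_32 hx.1.1 hy.1.1 h5) n
    · exact Or.inl h5
    · exact Or.inr h5
  refine ⟨?_, ?_, fun y hy y' hy' n n' e => ?_⟩
  · change (T3 _ _ _ _ _ _).ncard = _
    rw [← smul_T3, Set.ncard_smul_set, T3_eq, h1.2]
  · rw [← h2.2, ← T3_eq 16, ← Set.ncard_smul_set g (T3 _ _ _ _ _ _), smul_T3]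
    congr 1
    ext y
    refine and_congr_right fun hy => ⟨fun e => (h6 y hy e.1).resolve_left e.2, fun e => ⟨fun n => ?_, by omega⟩⟩
    rw [n, ← sqNorm_eq_dot, hx.1.1] at e
    omega
  · have key : ∀ k r, orbit m22 r = T3 leechV 24 leechU' 0 leechU (-k) → dt(g • -leechU, y) = k →
        dt(g • -leechU, y') = k →
        ∃ a : Co0, a • g • leechV = g • leechV ∧ a • g • vW' = g • vW' ∧ a • g • -leechU = g • -leechU ∧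
          a • y = y' := fun k r hr hk hk' => by
      obtain ⟨a, ha, e'⟩ := exists_conj_of_smul_orbit (H := m22) (g := g) (r := r) (y := y) (y' := y')
        (by rw [hr, ← T3_eq, smul_T3]; exact ⟨hy, hk⟩) (by rw [hr, ← T3_eq, smul_T3]; exact ⟨hy', hk'⟩)
      exact ⟨_, conj_smul_fix ha.1.1, conj_smul_fix (fix_W' ha.1),
        conj_smul_fix (by rw [smul_neg, mem_stabilizer_iff.1 ha.2]), e'⟩
    rcases h6 y hy n with a | a <;> rcases h6 y' hy' n' with b | b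
    · exact key 8 _ h1.1 a b
    · omega
    · omega
    · exact key 16 _ h2.1 a b

end Cfsg.Agent.S1584
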