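import Cfsg.Statements.S1589
import Cfsg.Agent.Lib.Mathieu.Index2

set_option autoImplicit false
open scoped Pointwise
open Cfsg

namespace Cfsg.Agent.S1589

open Cfsg.Lib Cfsg.Lib.Golay Cfsg.Lib.Calc Cfsg.Lib.Grp Cfsg.Lib.Mathieu MulAction Subgroup

set_option maxRecDepth 100000

theorem in_append {K : Subgroup M24} {l l' : List ℕ} (h : In 24 5 G.pt K l) (h' : In 24 5 G.pt K l') :
    In 24 5 G.pt K (l ++ l') := fun c hc => (List.mem_append.1 hc).elim (h c) (h' c)

theorem odd1 {H : Subgroup M24} (h : sT ≤ H) : H ≤ oct0 ∨ Nat.card H = 24 * Nat.card ↥(H ⊓ m23) := by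
  obtain ⟨m, a, b, c, d⟩ := exists_orbit_mask (In.mono in_sT h) (i := 23) (by decide) (le_stab_zero H) (by decide) (k := 4)
    (t := fun m => Nat.beq m 8536111 || Nat.beq (pc m) 24) (rs := [4]) (by decide +kernel)
  simp only [Bool.or_eq_true, Nat.beq_eq] at b
  rcases b with b | b
  · rw [b] at c
    exact .inl c
  · rw [b] at d
    exact .inr d

theorem in7 {K M : Subgroup M24} (h : K ≤ M) (e : Nat.card M = 3 * Nat.card K) {t : ℕ → Bool} (ht : Mem M t) {l : List ℕ}
    (hl : Calc.allL l (fun c => band (tOK t c) (Nat.beq (powT c 7) id24)) = true) : In 24 5 G.pt K l := fun c hc => by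
  have := band_eq_true.1 (Calc.allL_iff.1 hl c hc)
  obtain ⟨g, a, b⟩ := ht.exists this.1
  exact ⟨g, pow_six_mem h e a ((b.pow_eq_one_iff 7).2 (Nat.eq_of_beq_eq_true this.2)), b⟩

theorem i759 {H : Subgroup M24} (h : sT ≤ H) (e : Nat.card H = 322560) : H = oct0 := by
  rcases odd1 h with a | a
  · exact eq_of_le_of_card_ge a ((card_stabilizer_octad oct0_mem).trans e.symm).le
  have c : Nat.card ↥(H ⊓ m23) = 13440 := by omega
  exfalso
  rcases le_oct_or_duad (inf_le_inf_right _ h) inf_le_right (by rw [c]; norm_num) (by rw [c]; norm_num)
    (by rw [c]; norm_num) with b | b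
  · have := le_card_of_surOK inj_pt faithful_M24 (by decide +kernel : surOK 24 5 [975390808099244067444293955373010082, 984569259476130917632616853370091682]
      40320 [982003544628803649656943665144300992, 968742716667713169947703936972524608, 982125159837735215462638102907488704, 969962635889578251610160686887897120, 980504394422866046962412236452235296, 970009298914829006943054687459444896, 971500344358742438031324842327902368, 979620524885551344968935166850468384, 972606645568131968584696805283956768]
    [0, 0, 58376, 249095, 1027590, 253999881, 274436, 49895827466, 1256660231179, 7931616855051, 250627]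
    [(0, [0, 1], 7), (2, [2, 3], 6), (3, [4, 5], 5), (4, [6, 7, 8], 16), (1, [7, 9], 4), (5, [10], 3)] = true)
      (in7 b (by rw [card_m23_oct, c]) (mem23.inf (Mem.set (by decide))) (by decide +kernel))
    omega
  · have := le_card_of_surOK inj_pt faithful_M24 (by decide +kernel : surOK 24 5 [964919698593678281746328967776092180, 971773868135134134838365968723723977]
      20160 [981873041659867674219729637838528064, 981687740596360746593895738189793632, 980302473935521344151444501883339808, 984612433975788477772650319843509280, 971710489191060819570070520927962144, 976448692869377735270425038196672544, 971592882964418941354553515258775584, 972512676110088067912772961567868960, 968708902336673183175954409307867168]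
    [0, 0, 4872, 20741, 175621, 270038281, 1432873381645, 20720390, 93699, 83141382, 165288106128652]
    [(0, [0, 1], 21), (1, [2, 3], 20), (2, [4, 5, 6], 3), (4, [7, 8, 9, 10], 16)] = true)
      (in7 b (by rw [card_m23_duad, c]) (mem23.inf (Mem.set (by decide))) (by decide +kernel))
    omega

theorem i253 {H : Subgroup M24} (h : sT ≤ H) : Nat.card H ≠ 967680 := fun e => by
  rcases odd1 h with a | a
  · have := card_le_of_le a
    rw [card_stabilizer_octad oct0_mem] at this
    omega
  have c : Nat.card ↥(H ⊓ m23) = 40320 := by omega
  rcases le_oct_or_duad (inf_le_inf_right _ h) inf_le_right (by rw [c]; norm_num) (by rw [c]; norm_num)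
    (by rw [c]; norm_num) with b | b
  · have b := (eq_of_le_of_card_ge b (card_m23_oct.trans c.symm).le).ge
    have := le_card_of_surOK inj_pt faithful_M24 (by decide +kernel : surOK 24 5 (gsT ++ [975390808099244067444293955373010082, 984569259476130917632616853370091682])
      322560 [233190235916033229591991187748406336, 135861071017414243901712105586362080, 971778955879258824647391309045729440, 594981325463338234613621744505423968, 70275189725323172405438118182881824, 592380006640023600238759116057708576, 592219358679616463955581781453932576, 592380006640023600238759116057708576, 727474559357872943061820065548699680, 590072960059042287979885064796342304, 725895487971383339971559185675552800]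
    [0, 0, 0, 0, 0, 0, 44221038091, 1059006031117, 15874, 5043172140925710, 2531583741181197, 3995095303, 15850075517450, 1124770054, 2189321719607378190, 28480554114274060, 4259176198]
    [(0, [0, 1, 2, 3, 4, 5], 8), (2, [6, 7], 7), (3, [8, 9], 6), (1, [10, 11], 5), (4, [12, 13, 14], 16), (5, [13, 15], 4), (6, [16], 3)] = true) (P := H ⊓ oct0)
      (in_append (Tst.list memO (In.mono in_sT h) (by decide +kernel))
        (In.mono ((mem23.inf memO).list (by decide +kernel)) (le_inf (b.trans inf_le_left) inf_le_right)))
    have f := inf_eq_right.1 (eq_of_le_of_card_ge inf_le_right ((card_stabilizer_octad oct0_mem).trans_le this))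
    rcases ((cls_oct_oct oct0_mem).isCoatom orbit_oct0 ncard_octads (by decide) (by decide) (by decide)).le_iff.1 f
      with r | r
    · rw [r, card_top, card_M24] at e
      omega
    · rw [r, card_stabilizer_octad oct0_mem] at e
      omega
  · have b := (eq_of_le_of_card_ge b (card_m23_duad.trans c.symm).le).ge
    have := le_card_of_surOK inj_pt faithful_M24 (by decide +kernel : surOK 24 5 (gsT ++ [964919698593678281746328967776092180, 971773868135134134838365968723723977])
      244823040 [773794662742169589957253274859259072, 963721886883755259286232606933354528, 354965041895599374496647565588859072, 963721886883755259286232606933354528, 725914313247542535007444216708728864, 548738236815520051634629801562703904, 645971039647582928216486911676614688, 645971039647582928216486911676614688, 399377704341898151808080305612490784, 894746484934289125327969612694915104, 725895487971383339971559185675552800]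
    [0, 0, 0, 0, 0, 0, 55761037837, 4098, 235676759818, 163075, 2275529671367181, 8027127545631245, 24710017502926349, 94441477, 4880435971849, 125874554560266, 957205045000]
    [(0, [0, 1, 2, 3, 4, 5], 24), (2, [6, 7], 23), (1, [7, 8], 22), (3, [9, 10], 21), (4, [11, 12], 20), (5, [13, 14, 15], 16), (6, [16], 3)] = true) (P := H)
      (in_append (In.mono in_sT h) (In.mono ((mem23.inf (Mem.set (by decide))).list (by decide +kernel))
        (b.trans inf_le_left)))
    omega

theorem i1771 {H : Subgroup M24} (h : sT ≤ H) (e : Nat.card H = 138240) : H = stabilizer M24 (decS 6 11346418110422547019603405933566122482728975) := by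
  rcases odd1 h with a | a
  · have := card_dvd_of_le a
    rw [card_stabilizer_octad oct0_mem, e] at this
    norm_num at this
  have c : Nat.card ↥(H ⊓ m23) = 5760 := by omega
  obtain ⟨m, a, b, k, d⟩ := exists_orbit_mask (In.mono in_sT1 (inf_le_inf_right _ h)) (i := 0) (by decide)
    (inf_le_right.trans (stab_pt_le (by decide))) (by decide) (k := 4)
    (t := fun m => Nat.beq m 16431 || Nat.beq m 8241119 || !Nat.beq (5760 % pc m) 0 ||
      Nat.blt (ordCh 24 5 (tSet m) (keepM m) L24.tail []) 5760) (rs := [17, 5, 4]) (by decide +kernel)
  have k := le_inf inf_le_right k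
  simp only [Bool.or_eq_true, Nat.beq_eq, Nat.blt_eq] at b
  rcases b with ((b | b) | b) | b
  · rw [b] at k
    have k := (eq_of_le_of_card_ge k (by rw [c, ch23.card_stab (by decide)]; decide +kernel)).ge
    have := le_card_of_surOK inj_pt faithful_M24 (by decide +kernel : surOK 24 5 (gsT ++ [972649912914445780123147552629915749])
      322560 [91408510940456283963798353202611648, 972879181315408606590486266873690144, 216105993648558189382915346592271072, 592580015112486601857691448404641952, 234551188820480508994430147103524896, 148365443047239872887229718818687008, 968708902336673183175954409307867168, 595352368750207674055713569656375328, 718626549155524520284223048539801632, 592380006640023600238759116057708576, 590072960059042287979885064796342304, 725895487971383339971559185675552800]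
    [0, 0, 0, 0, 0, 126011091981, 51835912, 3598085, 896516, 5197695284500750, 224995273673740, 30722, 4380164, 172779575304, 22845526791, 396059879428929549, 280302449590026]
    [(0, [0, 1, 2, 3, 4], 8), (2, [5, 6], 7), (1, [7, 8], 6), (3, [9, 10], 5), (4, [11, 12, 13], 16), (5, [14, 15], 4), (6, [16], 3)] = true) (P := H)
      (in_append (In.mono in_sT h) (In.mono ((mem23.inf (Mem.set (by decide))).list (by decide +kernel))
        (k.trans inf_le_left)))
    omega
  · rw [b] at k
    have k := (eq_of_le_of_card_ge k (by
      rw [c, ch23.card_stab' mem23 (c := 971270982066956895625376443978459785) (by decide +kernel)]; decide +kernel)).ge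
    have := le_card_of_surOK inj_pt faithful_M24 (by decide +kernel : surOK 24 5 (gsT ++ [979407313841385893987831007340602571])
      138240 [972930957489177573782895074600848448, 319924173653914958352553181315140640, 920634628442281178578221778850580576, 361036334538613488121321721131272224, 272136084888047589238262405544314976, 849847670871825776943761462759884832, 883144510895580712301554330679412832, 608167165260361641911015062699608096, 967739223789245171407146504132003936]
    [0, 0, 0, 0, 0, 57331189260, 204996323596, 421860452363, 7040517, 88159477001, 2275299529927181, 68854608299827982, 58349061, 385267280947979]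
    [(0, [0, 1, 2, 3, 4], 24), (2, [5, 6], 3), (4, [7, 8], 20), (5, [9, 10, 11], 16), (1, [12, 13], 2), (6, [12], 3)] = true) (P := H ⊓ stabilizer M24 (decS 6 11346418110422547019603405933566122482728975))
      (Tst.list (Mem.fam _ _) (in_append (In.mono in_sT h)
        (In.mono ((mem23.inf (Mem.set (by decide))).list (by decide +kernel)) (k.trans inf_le_left))) (by decide +kernel))
    exact (eq_of_le_of_card_ge inf_le_left (e.trans_le this)).symm.trans (eq_of_le_of_card_ge inf_le_right
      ((card_stabilizer_sextet (mem_sextets_of_isSext (by decide +kernel))).trans_le this))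
  · rw [c] at d
    simp [d] at b
  · have := card_le_of_le k
    rw [ch23.card_stab a] at this
    omega

theorem i276 {H : Subgroup M24} (e : Nat.card H = 887040) : ∃ s : Finset GolayPt, s.card = 2 ∧ H = stabilizer M24 s := by
  haveI : Fact (Nat.Prime 11) := ⟨by norm_num⟩
  haveI : Fact (Nat.Prime 7) := ⟨by norm_num⟩
  obtain ⟨s11, ca, -, a2⟩ := ch24.selfC Mem.top (p := 11) (c := 980268404012014943844631864112844160) (by decide +kernel) (by decide +kernel)
  obtain ⟨s7, -⟩ := ch22.selfC mem22 (p := 7) (c := 971164916016273419483032762762910336) (by decide +kernel) (by decide +kernel)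
  obtain ⟨g, g1, K, g2, g3, g4⟩ := exists_cj_le (p := 11) (k := 1) le_top (le_top (a := H)) ca
    (by rw [card_top, card_M24]; norm_num) (by rw [e]; norm_num)
  rw [g2.card] at e
  have b2 := mk_rep (c := 6779897140305105587033951722480247) (by decide +kernel)
  have hb := inf_normalizer_le_selfC s11 g3 g4 ca (by rw [e, card_top, card_M24])
    ⟨trivial, b2.mem_normalizer a2 (k := 8) (by decide +kernel)⟩
  have ha := g3 (mem_zpowers _)
  obtain ⟨m, a, b, c, d⟩ := exists_orbit_mask (K := K) (gs := [980268404012014943844631864112844160, 6779897140305105587033951722480247]) (by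
      simp only [List.forall_mem_cons]
      exact ⟨⟨_, ha, a2⟩, ⟨_, hb, b2⟩, by simp⟩) (i := 23) (by decide) (le_stab_zero K) (by decide) (k := 11)
    (t := fun m => Nat.beq m 8388609 || Nat.beq (pc m) 24) (rs := [1]) (by decide +kernel)
  simp only [Bool.or_eq_true, Nat.beq_eq] at b
  rcases b with b | b
  · rw [b] at c
    refine ⟨g • G.toF 8388609, by rw [Finset.card_smul_finset]; decide +kernel, (g2.eq_inf_stab g1
      (eq_of_le_of_card_ge (le_inf le_top c) ?_)).trans (top_inf_eq _)⟩
    rw [e, ch24.card_stab (by decide)]
    decide +kernel
  have c : Nat.card ↥(K ⊓ m23) = 36960 := by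
    rw [b, e] at d
    exact (Nat.eq_of_mul_eq_mul_left (by norm_num : 0 < 24) (d.symm.trans (by norm_num)))
  obtain ⟨m, a, b, k, d⟩ := exists_orbit_mask (K := K ⊓ m23) (gs := [980268404012014943844631864112844160]) (by
      simp only [List.forall_mem_cons]
      exact ⟨⟨_, ⟨ha, (mem23 _ _ a2).2 (by decide +kernel)⟩, a2⟩, by simp⟩) (i := 0) (by decide)
    (inf_le_right.trans (stab_pt_le (by decide))) (by decide) (k := 11)
    (t := fun m => Nat.beq (pc m) 1 || Nat.beq (pc m) 12 || Nat.beq (pc m) 23) (rs := [1, 4]) (by decide +kernel)
  have := pc_mod_seven (by rw [c]; norm_num) a k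
  simp only [Bool.or_eq_true, Nat.beq_eq] at b
  rcases b with (b | b) | b
  · rw [b, one_mul] at d
    have f : K ⊓ m23 ≤ m22 := le_inf inf_le_right (inf_eq_left.1 (eq_of_le_of_card_ge inf_le_left d.le))
    have := s7.dvd (H := (K ⊓ m23).subgroupOf m22)
    rw [Nat.card_congr (subgroupOfEquivOfLe f).toEquiv, c, card_m22] at this
    norm_num at this
  · omega
  · rw [b] at d
    omega

theorem red {H : Subgroup M24} {n k : ℕ} (h : H.index = n) (e : n * k = 244823040) (hn : 0 < n) : Nat.card H = k := by
  have := H.index_mul_card
  rw [h, card_M24, ← e] at this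
  exact Nat.eq_of_mul_eq_mul_left hn this

theorem red2 {H : Subgroup M24} (h : 2 ^ 10 ∣ Nat.card H) : ∃ g K, Cj g K H ∧ sT ≤ K :=
  haveI : Fact (Nat.Prime 2) := ⟨by norm_num⟩
  let ⟨g, _, K, a, b, _⟩ := exists_cj_le le_top (le_top (a := H)) card_sT (by rw [card_top, card_M24]; norm_num) h
  ⟨g, K, a, b⟩

/-- Subgroups of the group of the length-24 code of index 759, 276 and 1771 are exactly the octad, duad and sextet stabilisers, and no subgroup has index 253. -/
theorem result : (∀ H : Subgroup ↥Cfsg.M24, H.index = 759 → ∃ o ∈ Cfsg.octads, H = MulAction.stabilizer Cfsg.M24 o) ∧ (∀ H : Subgroup ↥Cfsg.M24, H.index = 276 → ∃ s : Finset Cfsg.GolayPt, s.card = 2 ∧ H = MulAction.stabilizer Cfsg.M24 s) ∧ (∀ H : Subgroup ↥Cfsg.M24, H.index = 1771 → ∃ S ∈ Cfsg.sextets, H = MulAction.stabilizer Cfsg.M24 S) ∧ ∀ H : Subgroup ↥Cfsg.M24, H.index ≠ 253 := by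
  refine ⟨fun H h => ?_, fun H h => i276 (red h (by norm_num) (by norm_num)), fun H h => ?_, fun H h => ?_⟩
  · have c := red h (k := 322560) (by norm_num) (by norm_num)
    obtain ⟨g, K, a, b⟩ := red2 (H := H) (by rw [c]; norm_num)
    exact ⟨g • G.toF 8536111, (smul_mem_octads g.2).2 oct0_mem,
      a.eq_smul.trans (i759 b (a.card.symm.trans c) ▸ (Cj.stab rfl).eq_smul.symm)⟩
  · have c := red h (k := 138240) (by norm_num) (by norm_num)
    obtain ⟨g, K, a, b⟩ := red2 (H := H) (by rw [c]; norm_num)
    have e := i1771 b (a.card.symm.trans c)
    have f := mem_sextets_of_isSext (c := 11346418110422547019603405933566122482728975) (by decide +kernel)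
    generalize decS 6 11346418110422547019603405933566122482728975 = S at e f
    exact ⟨g • S, (smul_mem_sextets g.2).2 f, a.eq_smul.trans (e ▸ (Cj.stab rfl).eq_smul.symm)⟩
  · have c := red h (k := 967680) (by norm_num) (by norm_num)
    obtain ⟨g, K, a, b⟩ := red2 (H := H) (by rw [c]; norm_num)
    exact i253 b (a.card.symm.trans c)

end Cfsg.Agent.S1589
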