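import Cfsg.Statements.S1594
import Cfsg.Agent.Lib.Golay.Ternary2
import Cfsg.Agent.Lib.Mathieu.Aut2
import Cfsg.Agent.Lib.Mathieu.Sub
import Cfsg.Agent.Lib.Grp.Hom

set_option autoImplicit false
open Cfsg

namespace Cfsg.Agent.S1594

open Cfsg.Lib.Golay Cfsg.Lib.Calc Cfsg.Lib.Grp Cfsg.Lib.Mathieu Equiv
open scoped Pointwise

/-- the monomial map preserves the code -/
def Pres (σ : Perm Cfsg.ArrayPt) (c : Cfsg.ArrayPt → (ZMod 3)ˣ) : Prop :=
  ∀ x ∈ Cfsg.ternaryGolayCode, Cfsg.monomialMap σ c x ∈ Cfsg.ternaryGolayCode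

theorem mono_mul (σ τ : Perm Cfsg.ArrayPt) (c d : Cfsg.ArrayPt → (ZMod 3)ˣ) (x : Cfsg.ArrayPt → ZMod 3) :
    Cfsg.monomialMap (σ * τ) (fun i => c i * d (σ.symm i)) x = Cfsg.monomialMap σ c (Cfsg.monomialMap τ d x) := by
  funext i
  simp [Cfsg.monomialMap, mul_assoc, Perm.mul_def]

theorem Pres.mul {σ τ : Perm Cfsg.ArrayPt} {c d : Cfsg.ArrayPt → (ZMod 3)ˣ} (h : Pres σ c) (h' : Pres τ d) :
    Pres (σ * τ) (fun i => c i * d (σ.symm i)) := fun x hx => by
  rw [mono_mul]; exact h _ (h' x hx)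

theorem mono_inj (σ : Perm Cfsg.ArrayPt) (c : Cfsg.ArrayPt → (ZMod 3)ˣ) :
    Function.Injective (Cfsg.monomialMap σ c) := fun x y h => by
  funext i
  have := congrFun h (σ i)
  simpa [Cfsg.monomialMap] using this

theorem Pres.inv {σ : Perm Cfsg.ArrayPt} {c : Cfsg.ArrayPt → (ZMod 3)ˣ} (h : Pres σ c) :
    Pres σ⁻¹ (fun i => (c (σ i))⁻¹) := fun x hx => by
  have hs : Function.Surjective (fun y : Cfsg.ternaryGolayCode => (⟨_, h y y.2⟩ : Cfsg.ternaryGolayCode)) :=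
    Finite.injective_iff_surjective.1 fun y z e => Subtype.ext (mono_inj σ c (congrArg Subtype.val e))
  obtain ⟨y, hy⟩ := hs ⟨x, hx⟩
  have e : Cfsg.monomialMap σ c y = x := congrArg Subtype.val hy
  have : Cfsg.monomialMap σ⁻¹ (fun i => (c (σ i))⁻¹) x = y := by
    funext i
    rw [← e]
    change (((c (σ i))⁻¹ : (ZMod 3)ˣ) : ZMod 3) * (c (σ i) * y.1 (σ.symm (σ i))) = y.1 i
    rw [symm_apply_apply, Units.inv_mul_cancel_left]
  rw [this]
  exact y.2

theorem pres_scalar (a : (ZMod 3)ˣ) : Pres 1 (fun _ => a) := fun x hx => by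
  have : Cfsg.monomialMap 1 (fun _ => a) x = (a : ZMod 3) • x := by
    funext i
    simp [Cfsg.monomialMap, Perm.one_def]
  rw [this]
  exact Submodule.smul_mem _ _ hx

/-- the permutation parts -/
def P : Subgroup (Perm Cfsg.ArrayPt) where
  carrier := {σ | ∃ c, Pres σ c}
  one_mem' := ⟨_, pres_scalar 1⟩
  mul_mem' := fun ⟨_, h⟩ ⟨_, h'⟩ => ⟨_, h.mul h'⟩
  inv_mem' := fun ⟨_, h⟩ => ⟨_, h.inv⟩

theorem supp_mono (σ : Perm Cfsg.ArrayPt) (c : Cfsg.ArrayPt → (ZMod 3)ˣ) (x : Cfsg.ArrayPt → ZMod 3) :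
    Cfsg.ternarySupport (Cfsg.monomialMap σ c x) = σ • Cfsg.ternarySupport x := by
  ext p
  rw [← Finset.inv_smul_mem_iff]
  simp [Cfsg.ternarySupport, Cfsg.monomialMap, Perm.inv_def]

theorem smul_hex {σ : Perm Cfsg.ArrayPt} (h : σ ∈ P) {b : Finset Cfsg.ArrayPt} (hb : b ∈ ternHexads) :
    σ • b ∈ ternHexads := by
  obtain ⟨c, hc⟩ := h
  obtain ⟨x, hx, rfl, h6⟩ := hb
  exact ⟨_, hc x hx, supp_mono σ c x, by rw [Finset.card_smul_finset, h6]⟩

theorem P_le : P ≤ Cfsg.setSystemAut ternHexads := fun _ h =>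
  mem_setSystemAut_of_mapsTo fun _ hb => smul_hex h hb

/-- a permutation from its table and the table of its inverse -/
def pm (c d : ℕ) (h : ∀ p, A12.pt (get 4 d (A12.idx (A12.pt (get 4 c (A12.idx p))))) = p ∧
    A12.pt (get 4 c (A12.idx (A12.pt (get 4 d (A12.idx p))))) = p) : Perm Cfsg.ArrayPt :=
  ⟨fun p => A12.pt (get 4 c (A12.idx p)), fun p => A12.pt (get 4 d (A12.idx p)), fun p => (h p).1, fun p => (h p).2⟩

/-- signs from a mask -/
def sg (m : ℕ) (p : Cfsg.ArrayPt) : (ZMod 3)ˣ := if m.testBit (A12.idx p) then -1 else 1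

theorem pres_of {σ : Perm Cfsg.ArrayPt} {c : Cfsg.ArrayPt → (ZMod 3)ˣ}
    (h : ∀ a b d e f g : ZMod 3, ∀ y, y = Cfsg.monomialMap σ c (tenc a b d e f g) →
      ∀ p, y p = tenc (y (0, 0)) (y (0, 1)) (y (0, 2)) (y (1, 0)) (y (1, 1)) (y (2, 0)) p) : Pres σ c := fun x hx => by
  rw [eq_tenc hx, funext (h _ _ _ _ _ _ _ rfl)]
  exact tenc_mem _ _ _ _ _ _

/-- first generator -/
def g1 : Perm Cfsg.ArrayPt := pm 182193471643761 170854128841986 (by decide +kernel)
/-- second generator -/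
def g2 : Perm Cfsg.ArrayPt := pm 196291364865801 201249960184401 (by decide +kernel)

theorem g1_mem : g1 ∈ P := ⟨sg 867, pres_of (by
  intro a b d e f g y hy
  subst hy
  revert a b d e f g
  decide +kernel)⟩

theorem g2_mem : g2 ∈ P := ⟨sg 1093, pres_of (by
  intro a b d e f g y hy
  subst hy
  revert a b d e f g
  decide +kernel)⟩

theorem card_aut : Nat.card (Cfsg.setSystemAut ternHexads) = 95040 :=
  (autEq12 card_arrayPt ternHexads_steiner).card.trans card_m12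

theorem le_card : 95040 ≤ Nat.card P := by
  refine le_card_of_surOK (n := 12) (w := 4) (pt := A12.pt) (fun i hi j hj e => ?_) (fun g h => ?_)
    (cs := [182193471643761, 196291364865801]) (show surOK 12 4 _ 95040 [47704646646096, 107153718482976, 43548343051536, 147650870977296, 95285065495056, 96304787325456, 183942805598736]
    [0, 0, 1544206, 1703433, 63278411278, 858869999886, 3343525325837, 6922151433, 4219336200]
    [(0, [0, 1], 12), (1, [2, 3], 11), (2, [4, 5], 10), (3, [6, 7], 9), (4, [6, 8], 8)] = true by decide +kernel) ?_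
  · rw [← A12.idx_pt i hi, e, A12.idx_pt j hj]
  · refine Equiv.ext fun p => ?_
    have := h _ (A12.idx_lt p)
    rwa [A12.pt_idx] at this
  · simp only [List.mem_cons, List.not_mem_nil, or_false, forall_eq_or_imp, forall_eq]
    exact ⟨⟨g1, g1_mem, Rep.of_tabOK (by decide +kernel) (by decide +kernel)⟩,
      ⟨g2, g2_mem, Rep.of_tabOK (by decide +kernel) (by decide +kernel)⟩⟩

theorem P_eq : P = Cfsg.setSystemAut ternHexads :=
  Subgroup.eq_of_le_of_card_ge P_le (card_aut ▸ le_card)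

/-- The monomial automorphism group of the length-12 ternary code has order 190080 and its permutation parts are exactly the automorphisms of its hexad system. -/
theorem result : Nat.card {f : Equiv.Perm Cfsg.ArrayPt × (Cfsg.ArrayPt → (ZMod 3)ˣ) // (∀ x ∈ Cfsg.ternaryGolayCode, Cfsg.monomialMap f.1 f.2 x ∈ Cfsg.ternaryGolayCode)} = 190080 ∧ {σ : Equiv.Perm Cfsg.ArrayPt | ∃ c : Cfsg.ArrayPt → (ZMod 3)ˣ, (∀ x ∈ Cfsg.ternaryGolayCode, Cfsg.monomialMap σ c x ∈ Cfsg.ternaryGolayCode)} = (Cfsg.setSystemAut {h : Finset Cfsg.ArrayPt | ∃ x ∈ Cfsg.ternaryGolayCode, Cfsg.ternarySupport x = h ∧ h.card = 6} : Set (Equiv.Perm Cfsg.ArrayPt)) := by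
  refine ⟨?_, congrArg SetLike.coe P_eq⟩
  choose L hL using fun σ : P => σ.2
  have e : (P × (ZMod 3)ˣ) ≃ {f : Perm Cfsg.ArrayPt × (Cfsg.ArrayPt → (ZMod 3)ˣ) // Pres f.1 f.2} :=
    Equiv.ofBijective (fun q => ⟨(q.1, fun i => q.2 * L q.1 i), by
      have := (pres_scalar q.2).mul (hL q.1)
      rwa [one_mul] at this⟩) ⟨?_, ?_⟩
  · refine (Nat.card_congr e).symm.trans ?_
    rw [Nat.card_prod, P_eq, card_aut, Nat.card_units, Nat.card_zmod]
  · rintro ⟨σ, a⟩ ⟨τ, b⟩ h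
    have h' := congrArg Subtype.val h
    simp only [Prod.mk.injEq] at h'
    obtain rfl : σ = τ := Subtype.ext h'.1
    have := congrFun h'.2 (0, 0)
    simp only [mul_left_inj] at this
    rw [this]
  · rintro ⟨⟨σ, c⟩, hc⟩
    let s : P := ⟨σ, c, hc⟩
    have h := hc.mul (hL s).inv
    have h1 : σ * (s : Perm Cfsg.ArrayPt)⁻¹ = 1 := mul_inv_cancel σ
    rw [h1] at h
    have k : ∀ i, c (0, 0) * (L s (0, 0))⁻¹ = c i * (L s i)⁻¹ := fun i => by
      rcases ternary_diag h with k | k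
      · have := (k (0, 0)).trans (k i).symm
        simpa only [s, apply_symm_apply] using this
      · have := (k (0, 0)).trans (k i).symm
        simpa only [s, apply_symm_apply] using this
    refine ⟨(s, c (0, 0) * (L s (0, 0))⁻¹), Subtype.ext (Prod.ext rfl (funext fun i => ?_))⟩
    change c (0, 0) * (L s (0, 0))⁻¹ * L s i = c i
    rw [k i, inv_mul_cancel_right]

end Cfsg.Agent.S1594
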