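import Cfsg.Statements.S1600
import Cfsg.Agent.Lib.Mathieu.Struct

set_option autoImplicit false
open scoped Pointwise
open Cfsg

namespace Cfsg.Agent.S1600

open Cfsg.Lib Cfsg.Lib.Golay Cfsg.Lib.Calc Cfsg.Lib.Grp Cfsg.Lib.Mathieu MulAction

set_option maxRecDepth 100000
set_option maxHeartbeats 400000

theorem cj9 {d : Finset GolayPt} (hd : d ∈ dodecads) {p q r : GolayPt} (hp : p ∈ d) (hq : q ∈ d) (hr : r ∈ d)
    (hpq : p ≠ q) (hpr : p ≠ r) (hqr : q ≠ r) : ∃ g : M24, (g : P24) • G.toF 340831 = d ∧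
      Cj g m9 (stabilizer M24 d ⊓ stabilizer M24 p ⊓ stabilizer M24 q ⊓ stabilizer M24 r) := by
  obtain ⟨g, h1, h2⟩ := exists_map_dodecad hd (l := [G.pt 0, G.pt 1, G.pt 2]) (l' := [p, q, r]) (by decide)
    (by simp [*]) rfl (by simp) (List.forall_mem_cons.2 ⟨pt_mem (by decide), List.forall_mem_cons.2
      ⟨pt_mem (by decide), List.forall_mem_singleton.2 (pt_mem (by decide))⟩⟩) (by simp [*])
  simp only [List.map_cons, List.cons.injEq] at h2
  exact ⟨g, h1, (((cjSt h1).inf (cjPt h2.1)).inf (cjPt h2.2.1)).inf (cjPt h2.2.2.1)⟩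

theorem mem9 : Mem m9 (tAnd (tAnd (tAnd (tSet 340831) (tPt 0)) (tPt 1)) (tPt 2)) :=
  (mem11.inf (Mem.pt (by norm_num))).inf (Mem.pt (by norm_num))


/-- The pointwise stabiliser of three points of a dodecad inside the dodecad stabiliser (order 72) is transitive on the complementary dodecad. -/
theorem result (d : Finset Cfsg.GolayPt) (hd : d ∈ Cfsg.dodecads) (p q r : Cfsg.GolayPt) (hp : p ∈ d) (hq : q ∈ d) (hr : r ∈ d) (hpq : p ≠ q) (hpr : p ≠ r) (hqr : q ≠ r) : Nat.card ↥(MulAction.stabilizer Cfsg.M24 d ⊓ MulAction.stabilizer Cfsg.M24 p ⊓ MulAction.stabilizer Cfsg.M24 q ⊓ MulAction.stabilizer Cfsg.M24 r) = 72 ∧ ∀ x ∉ d, ∀ y ∉ d, ∃ g ∈ (MulAction.stabilizer Cfsg.M24 d ⊓ MulAction.stabilizer Cfsg.M24 p ⊓ MulAction.stabilizer Cfsg.M24 q ⊓ MulAction.stabilizer Cfsg.M24 r), ((g : ↥Cfsg.M24) : Equiv.Perm Cfsg.GolayPt) x = y := by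
  obtain ⟨g, rfl, h⟩ := cj9 hd hp hq hr hpq hpr hqr
  refine ⟨h.card.trans card_m9, fun x hx y hy => ?_⟩
  have key : ∀ x, x ∉ (g : P24) • G.toF 340831 → (g : P24)⁻¹ x ∈ G.toF 16436384 := fun x hx => by
    rw [← sdiff_toF (a := 16777215) (b := 340831) (by decide +kernel), toF_full]
    exact Finset.mem_sdiff.2 ⟨Finset.mem_univ _, fun e => hx (Finset.inv_smul_mem_iff.1 e)⟩
  obtain ⟨k, a, b⟩ := exists_map_mask_list (mem9.wChain (L := [(23, [984818244535754528103549039458486304, 796025918939784314627536738561984544, 898742143189044893377746329054414880, 715872302521680643580706198532491296, 227866200190482962309748417481934880, 629994123837064240816195434993748000, 313451266620471430272303061907212320, 486073779993727295785104656607348768, 609271311764373893382231684089481248, 858934107515357207598970770041374752, 438228640608320839931147656307705888, 928952864966028496604741530750814240])]) (by decide +kernel)) (m := 16436384)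
    (fun _ h => smul_toF_compl h.1.1.1 (by decide +kernel)) (l := [(g : P24)⁻¹ x]) (l' := [(g : P24)⁻¹ y])
    (by decide +kernel : covOK 5 _ 1 _ = true) (by simp) (by simp) rfl
    (List.forall_mem_singleton.2 (key _ hx)) (List.forall_mem_singleton.2 (key _ hy))
  exact ⟨_, h.mem a, by simpa using congrArg (g : P24) (List.cons.inj b).1⟩

end Cfsg.Agent.S1600
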