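import Cfsg.Statements.S1604
import Cfsg.Agent.Lib.Mathieu.Orb2

set_option autoImplicit false
open scoped Pointwise
open Cfsg

namespace Cfsg.Agent.S1604

/-- A hexad stabiliser in the two-point stabiliser has orbits of sizes 1, 16, 60 on the 77 hexads: the 16 hexads disjoint from it and the 60 meeting it in two points. -/
theorem result (p q : Cfsg.GolayPt) (hpq : p ≠ q) (o o' o'' : Finset Cfsg.GolayPt) (ho : o ∈ Cfsg.octads) (ho' : o' ∈ Cfsg.octads) (ho'' : o'' ∈ Cfsg.octads) (hp : p ∈ o ∧ p ∈ o' ∧ p ∈ o'') (hq : q ∈ o ∧ q ∈ o' ∧ q ∈ o'') (h : (o ∩ o').card = (o ∩ o'').card) : {x : Finset Cfsg.GolayPt | x ∈ Cfsg.octads ∧ p ∈ x ∧ q ∈ x ∧ (o ∩ x).card = 2}.ncard = 16 ∧ {x : Finset Cfsg.GolayPt | x ∈ Cfsg.octads ∧ p ∈ x ∧ q ∈ x ∧ (o ∩ x).card = 4}.ncard = 60 ∧ ∃ g : Equiv.Perm Cfsg.GolayPt, g ∈ Cfsg.M24 ∧ g p = p ∧ g q = q ∧ g • o =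 o ∧ g • o' = o'' := by
  have k := Lib.Mathieu.cls_m22_hexad hpq ho hp.1 hq.1
  obtain ⟨g, a, b⟩ := k.exists_smul (y := o') (y' := o'') ⟨ho', hp.2.1, hq.2.1⟩ ⟨ho'', hp.2.2, hq.2.2⟩ h
  refine ⟨Eq.trans ?_ (k.ncard (v := 2) (by simp)), Eq.trans ?_ (k.ncard (v := 4) (by simp)),
    g, g.2, a.1.1, a.1.2, a.2, b⟩ <;> simp only [Set.mem_ofPred_eq, and_assoc]

end Cfsg.Agent.S1604
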