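import Cfsg.Statements.S1605
import Cfsg.Agent.Lib.Mathieu.Orb2

set_option autoImplicit false
open scoped Pointwise
open Cfsg

namespace Cfsg.Agent.S1605

/-- The two-point stabiliser acts on the 176 octads through the first point avoiding the second with rank 3 and subdegrees 1, 70, 105 (intersections 8, 2, 4). -/
theorem result (p q : Cfsg.GolayPt) (hpq : p ≠ q) : {x : Finset Cfsg.GolayPt | (x ∈ Cfsg.octads ∧ p ∈ x ∧ q ∉ x)}.ncard = 176 ∧ (∀ o o' : Finset Cfsg.GolayPt, (o ∈ Cfsg.octads ∧ p ∈ o ∧ q ∉ o) → (o' ∈ Cfsg.octads ∧ p ∈ o' ∧ q ∉ o') → ∃ g : Equiv.Perm Cfsg.GolayPt, g ∈ Cfsg.M24 ∧ g p = p ∧ g q = q ∧ g • o = o') ∧ ∀ o : Finset Cfsg.GolayPt, (o ∈ Cfsg.octads ∧ p ∈ o ∧ q ∉ o) → {x : Finset Cfsg.GolayPt | (x ∈ Cfsg.octads ∧ p ∈ x ∧ q ∉ x) ∧ (o ∩ x).card = 2}.ncard = 70 ∧ {x : Finset Cfsg.GolayPt | (x ∈ Cfsg.octads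 ∧ p ∈ x ∧ q ∉ x) ∧ (o ∩ x).card = 4}.ncard = 105 ∧ ∀ o' o'' : Finset Cfsg.GolayPt, (o' ∈ Cfsg.octads ∧ p ∈ o' ∧ q ∉ o') → (o'' ∈ Cfsg.octads ∧ p ∈ o'' ∧ q ∉ o'') → (o ∩ o').card = (o ∩ o'').card → ∃ g : Equiv.Perm Cfsg.GolayPt, g ∈ Cfsg.M24 ∧ g p = p ∧ g q = q ∧ g • o = o ∧ g • o' = o'' := by
  have k := Lib.Mathieu.cls_m22_heptads hpq
  refine ⟨Eq.trans ?_ (k.ncard (v := 0) (by simp)), fun o o' h1 h2 => ?_, fun o ho => ?_⟩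
  · simp only [Set.mem_ofPred_eq, and_true]
  · obtain ⟨g, a, b⟩ := k.exists_smul (y := o) (y' := o') h1 h2 rfl
    exact ⟨g, g.2, a.1, a.2, b⟩
  · have k := Lib.Mathieu.cls_m22_heptad hpq ho.1 ho.2.1 ho.2.2
    refine ⟨k.ncard (by simp), k.ncard (by simp), fun o' o'' h1 h2 h => ?_⟩
    obtain ⟨g, a, b⟩ := k.exists_smul (y := o') (y' := o'') h1 h2 h
    exact ⟨g, g.2, a.1.1, a.1.2, a.2, b⟩

end Cfsg.Agent.S1605
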