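import Cfsg.Statements.S1606
import Cfsg.Agent.Lib.Mathieu.Index2

set_option autoImplicit false
open scoped Pointwise
open Cfsg

namespace Cfsg.Agent.S1606

open Cfsg.Lib Cfsg.Lib.Golay Cfsg.Lib.Calc Cfsg.Lib.Grp Cfsg.Lib.Mathieu MulAction Subgroup

set_option maxRecDepth 100000

theorem main {H : Subgroup M24} (h : H ≤ m22) : Nat.card H ≠ 7920 ∧ Nat.card H ≠ 2112 := by
  haveI : Fact (Nat.Prime 11) := ⟨by norm_num⟩
  haveI : Fact (Nat.Prime 5) := ⟨by norm_num⟩
  obtain ⟨s11, ca, a1, a2⟩ := ch22.selfC mem22 (p := 11) (c := 972994744935015757786501866360943296) (by decide +kernel) (by decide +kernel)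
  obtain ⟨s5, cb, b1, b2⟩ := ch22.selfC mem22 (p := 5) (c := 960026279339787149879062820457828384) (by decide +kernel) (by decide +kernel)
  obtain ⟨c1, c2⟩ := mem22.mk_mem (c := 963918593699186423824638373116623392) (by decide +kernel)
  refine ⟨fun e => ?_, fun e => ?_⟩
  · obtain ⟨g, -, K, g2, g3, g4⟩ := exists_cj_le (p := 11) (k := 1) (zpowers_le.2 a1) h ca (by rw [card_m22]; norm_num)
      (by rw [e]; norm_num)
    rw [g2.card] at e
    have hb := inf_normalizer_le_selfC s11 g3 g4 ca (by rw [e, card_m22]) ⟨b1, b2.mem_normalizer a2 (k := 9) (by decide +kernel)⟩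
    have hc := inf_normalizer_le_selfC s5 (zpowers_le.2 hb) g4 cb (by rw [e, card_m22])
      ⟨c1, c2.mem_normalizer b2 (k := 2) (by decide +kernel)⟩
    have := le_card_of_surOK inj_pt faithful_M24 (by decide +kernel : surOK 24 5 [972994744935015757786501866360943296, 960026279339787149879062820457828384, 963918593699186423824638373116623392]
      443520 [968981490175956680602442005795129376, 973929156326740366392912363040475168, 982769631805873051938917216028067872, 969836898326968551397880902883313696, 967738580936480664927891663448279072, 982125237077252311731715764534741024, 972606645568131968584696805283956768]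
    [0, 0, 0, 11525, 95493, 13319943, 69615623, 60045640202, 77059, 142595]
    [(1, [0, 1, 2], 22), (2, [1, 3], 21), (3, [4, 5], 20), (4, [6, 7, 8], 16), (5, [9], 3)] = true) (P := K) (by
      simp only [List.forall_mem_cons]
      exact ⟨⟨_, g3 (mem_zpowers _), a2⟩, ⟨_, hb, b2⟩, ⟨_, hc, c2⟩, by simp⟩)
    omega
  · obtain ⟨X, hX⟩ := Sylow.exists_subgroup_card_pow_prime 11 (G := H) (n := 1) (by rw [e]; norm_num)
    have := card_subgroup_dvd_card (normalizer (X : Set H))
    rw [(selfC_of_le s11 h).card_normalizer hX, e] at this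
    norm_num at this

/-- The stabiliser of two points in the group of the length-24 code has no subgroups of index 56 or 210. -/
theorem result (p q : Cfsg.GolayPt) (hpq : p ≠ q) (H : Subgroup ↥(MulAction.stabilizer Cfsg.M24 p ⊓ MulAction.stabilizer Cfsg.M24 q)) : H.index ≠ 56 ∧ H.index ≠ 210 := by
  obtain ⟨a, ha⟩ := cj22 hpq
  have c := H.index_mul_card
  have := main (map_subtype_le (H.comap ha.equiv.toMonoidHom))
  rw [card_map_of_injective (subtype_injective _), comap_equiv_eq_map_symm', card_map_of_injective ha.equiv.symm.injective] at this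
  rw [ha.card, card_m22] at c
  constructor <;> intro e <;> rw [e] at c <;> omega

end Cfsg.Agent.S1606
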