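import Cfsg.Statements.S1607
import Cfsg.Agent.Lib.Mathieu.Orb2

set_option autoImplicit false
open scoped Pointwise
open Cfsg

namespace Cfsg.Agent.S1607

/-- The point stabiliser acts on the 253 heptads of its S(4, 7, 23) with rank 3 and subdegrees 1, 112, 140 (intersections 8, 2, 4). -/
theorem result (x : Cfsg.GolayPt) (o : Finset Cfsg.GolayPt) (ho : o ∈ Cfsg.octads) (hx : x ∈ o) : {o' : Finset Cfsg.GolayPt | o' ∈ Cfsg.octads ∧ x ∈ o' ∧ (o ∩ o').card = 2}.ncard = 112 ∧ {o' : Finset Cfsg.GolayPt | o' ∈ Cfsg.octads ∧ x ∈ o' ∧ (o ∩ o').card = 4}.ncard = 140 ∧ ∀ o' o'' : Finset Cfsg.GolayPt, o' ∈ Cfsg.octads → o'' ∈ Cfsg.octads → x ∈ o' → x ∈ o'' → (o ∩ o').card = (o ∩ o'').card → ∃ g : Equiv.Perm Cfsg.GolayPt, g ∈ Cfsg.M24 ∧ g x = x ∧ g • o = o ∧ g • o' = o'' := by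
  have k := Lib.Mathieu.cls_m23_heptad ho hx
  refine ⟨Eq.trans ?_ (k.ncard (v := 2) (by simp)), Eq.trans ?_ (k.ncard (v := 4) (by simp)),
    fun o' o'' h1 h2 h3 h4 h => ?_⟩
  · simp only [Set.mem_ofPred_eq, and_assoc]
  · simp only [Set.mem_ofPred_eq, and_assoc]
  · obtain ⟨g, a, b⟩ := k.exists_smul (y := o') (y' := o'') ⟨h1, h3⟩ ⟨h2, h4⟩ h
    exact ⟨g, g.2, a.1, a.2, b⟩

end Cfsg.Agent.S1607
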