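import Cfsg.Statements.S1608
import Cfsg.Agent.Lib.Mathieu.Orb2

set_option autoImplicit false
open scoped Pointwise
open Cfsg

namespace Cfsg.Agent.S1608

/-- The point stabiliser acts on the 506 octads avoiding the point with rank 4 and subdegrees 1, 15, 210, 280, the suborbits being given by intersection size with the fixed octad. -/
theorem result (x : Cfsg.GolayPt) (o : Finset Cfsg.GolayPt) (ho : o ∈ Cfsg.octads) (hx : x ∉ o) : {o' : Finset Cfsg.GolayPt | o' ∈ Cfsg.octads ∧ x ∉ o' ∧ (o ∩ o').card = 0}.ncard = 15 ∧ {o' : Finset Cfsg.GolayPt | o' ∈ Cfsg.octads ∧ x ∉ o' ∧ (o ∩ o').card = 4}.ncard = 210 ∧ {o' : Finset Cfsg.GolayPt | o' ∈ Cfsg.octads ∧ x ∉ o' ∧ (o ∩ o').card = 2}.ncard = 280 ∧ ∀ o' o'' : Finset Cfsg.GolayPt, o' ∈ Cfsg.octads → o'' ∈ Cfsg.octads → x ∉ o' → x ∉ o'' → (o ∩ o').card = (o ∩ o'').card → ∃ g : Equiv.Perm Cfsg.GolayPt, g ∈ Cfsg.M24 ∧ g x = x ∧ g • o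 = o ∧ g • o' = o'' := by
  have k := Lib.Mathieu.cls_m23_octad ho hx
  refine ⟨Eq.trans ?_ (k.ncard (v := 0) (by simp)), Eq.trans ?_ (k.ncard (v := 4) (by simp)),
    Eq.trans ?_ (k.ncard (v := 2) (by simp)), fun o' o'' h1 h2 h3 h4 h => ?_⟩
  · simp only [Set.mem_ofPred_eq, and_assoc]
  · simp only [Set.mem_ofPred_eq, and_assoc]
  · simp only [Set.mem_ofPred_eq, and_assoc]
  · obtain ⟨g, a, b⟩ := k.exists_smul (y := o') (y' := o'') ⟨h1, h3⟩ ⟨h2, h4⟩ h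
    exact ⟨g, g.2, a.1, a.2, b⟩

end Cfsg.Agent.S1608
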