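import Cfsg.Statements.S1609
import Cfsg.Agent.Lib.Mathieu.Index
import Cfsg.Agent.Lib.Mathieu.Orb2

set_option autoImplicit false
open scoped Pointwise
open Cfsg

namespace Cfsg.Agent.S1609

open Cfsg.Lib Cfsg.Lib.Golay Cfsg.Lib.Calc Cfsg.Lib.Grp Cfsg.Lib.Mathieu MulAction Subgroup

/-- Subgroups of index 253 in the Mathieu group of degree 23 are exactly the duad stabilisers and the heptad stabilisers. -/
theorem result (x : Cfsg.GolayPt) (H : Subgroup ↥(MulAction.stabilizer Cfsg.M24 x)) (hH : H.index = 253) : (∃ s : Finset Cfsg.GolayPt, s.card = 2 ∧ x ∉ s ∧ H = (MulAction.stabilizer Cfsg.M24 s).subgroupOf (MulAction.stabilizer Cfsg.M24 x)) ∨ ∃ o ∈ Cfsg.octads, x ∈ o ∧ H = (MulAction.stabilizer Cfsg.M24 o).subgroupOf (MulAction.stabilizer Cfsg.M24 x) := by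
  haveI : Fact (Nat.Prime 2) := ⟨by norm_num⟩
  obtain ⟨a, a1, a2⟩ := cj23 x
  have c : Nat.card (H.map (Subgroup.subtype _)) = 40320 := by
    have := H.index_mul_card
    rw [hH, a2.card, card_m23] at this
    rw [card_map_of_injective (subtype_injective _)]
    omega
  have c1 : Cj a ((H.map (Subgroup.subtype _)).comap (MulAut.conj a).toMonoidHom) (H.map (Subgroup.subtype _)) :=
    fun _ => Iff.rfl
  generalize (H.map (Subgroup.subtype _)).comap (MulAut.conj a).toMonoidHom = K at c1
  have k : K ≤ m23 := fun y hy => (a2 y).2 (map_subtype_le H (c1.mem hy))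
  obtain ⟨g, g1, J, g2, g3, g4⟩ := exists_cj_le (p := 2) inf_le_right k card_sT1 (by rw [card_m23]; norm_num)
    (by rw [← c1.card, c]; norm_num)
  have cJ : Nat.card J = 40320 := by rw [← g2.card, ← c1.card, c]
  have fin : ∀ s : Finset GolayPt, J = m23 ⊓ stabilizer M24 s →
      H = (stabilizer M24 (a • g • s)).subgroupOf (stabilizer M24 x) := fun s e => by
    have := c1.eq_smul.trans (g2.eq_inf_stab g1 e ▸ (a2.inf (Cj.stab rfl)).eq_smul.symm)
    rw [← inf_subgroupOf_left, ← this]
    exact (comap_map_eq_self_of_injective (subtype_injective _) _).symm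
  have mem : ∀ s : Finset GolayPt, x ∈ a • g • s ↔ G.pt 23 ∈ s := fun s => by
    rw [← a1]
    exact (apply_mem_smul_iff _).trans (mem_smul_of_fix g1)
  rcases le_oct_or_duad g3 g4 (by rw [cJ]; norm_num) (by rw [cJ]; norm_num) (by rw [cJ]; norm_num) with h | h
  · exact .inr ⟨_, (smul_mem_octads a.2).2 ((smul_mem_octads g.2).2 oct0_mem), (mem _).2 (pt_mem (by decide +kernel)),
      fin _ (eq_of_le_of_card_ge h (card_m23_oct.trans cJ.symm).le)⟩
  · exact .inl ⟨_, by rw [Finset.card_smul_finset, Finset.card_smul_finset]; decide +kernel,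
      (mem _).not.2 (pt_notMem (by decide +kernel)), fin _ (eq_of_le_of_card_ge h (card_m23_duad.trans cJ.symm).le)⟩

end Cfsg.Agent.S1609
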