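import Cfsg.Statements.S1610
import Cfsg.Agent.Lib.Asch.TF

set_option autoImplicit false
open Cfsg

namespace Cfsg.Agent.S1610

theorem two_eq {F : Type*} [Field F] [Fintype F] (hF : Fintype.card F = 4) : (2 : F) = 0 := by
  have := FiniteField.cast_card_eq_zero F
  rw [hF, show ((4 : ℕ) : F) = 2 * 2 by norm_num] at this
  exact mul_self_eq_zero.1 this

theorem mem_hexa {F : Type*} [Field F] (h2 : (2 : F) = 0) {ω : F} (hω : ω ^ 2 + ω + 1 = 0) (x : Fin 6 → F) :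
    x ∈ Cfsg.hexacode F ω ↔ x 3 = x 0 + x 1 + x 2 ∧ x 4 = ω ^ 2 * x 0 + ω * x 1 + x 2 ∧
      x 5 = ω * x 0 + ω ^ 2 * x 1 + x 2 := by
  unfold Cfsg.hexacode
  rw [Submodule.mem_span_triple]
  constructor
  · rintro ⟨a, b, c, rfl⟩
    simp only [Pi.add_apply, Pi.smul_apply, smul_eq_mul, Matrix.cons_val]
    refine ⟨?_, ?_, ?_⟩ <;> grind
  · rintro ⟨h3, h4, h5⟩
    refine ⟨ω * x 0 + ω ^ 2 * x 1, ω ^ 2 * x 0 + ω ^ 2 * x 1 + x 2, x 1 + x 2, ?_⟩
    funext i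
    fin_cases i <;> simp only [Pi.add_apply, Pi.smul_apply, smul_eq_mul, Matrix.cons_val, Fin.reduceFinMk,
      Fin.zero_eta, Fin.mk_one] <;> grind

/-- the codeword with given first three coordinates -/
def enc {F : Type*} [Field F] (ω : F) (p : F × F × F) : Fin 6 → F :=
  ![p.1, p.2.1, p.2.2, p.1 + p.2.1 + p.2.2, ω ^ 2 * p.1 + ω * p.2.1 + p.2.2, ω * p.1 + ω ^ 2 * p.2.1 + p.2.2]

theorem enc_inj {F : Type*} [Field F] (ω : F) : Function.Injective (enc ω) := fun p q h =>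
  Prod.ext (congrFun h 0) (Prod.ext (congrFun h 1) (congrFun h 2))

theorem mem_iff {F : Type*} [Field F] (h2 : (2 : F) = 0) {ω : F} (hω : ω ^ 2 + ω + 1 = 0) (x : Fin 6 → F) :
    x ∈ Cfsg.hexacode F ω ↔ ∃ p, enc ω p = x := by
  rw [mem_hexa h2 hω]
  constructor
  · rintro ⟨h3, h4, h5⟩
    refine ⟨(x 0, x 1, x 2), funext fun i => ?_⟩
    fin_cases i <;> simp [enc, h3, h4, h5]
  · rintro ⟨p, rfl⟩
    exact ⟨rfl, rfl, rfl⟩

open Cfsg.Lib.Asch

/-- the weight -/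
def wt {F : Type*} [Field F] [DecidableEq F] (x : Fin 6 → F) : ℕ := (Finset.univ.filter fun i => x i ≠ 0).card

theorem wt_map {F : Type*} [Field F] [DecidableEq F] (φ : F ≃+* F4) (ω : F) (p : F × F × F) :
    wt (enc ω p) = wt (enc (φ ω) (φ p.1, φ p.2.1, φ p.2.2)) := by
  unfold wt
  congr 1
  refine Finset.filter_congr fun i _ => ?_
  have : enc (φ ω) (φ p.1, φ p.2.1, φ p.2.2) i = φ (enc ω p i) := by
    fin_cases i <;> simp [enc]
  rw [this, map_ne_zero_iff _ φ.injective]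

theorem fin4 : ∀ w : F4, w ^ 2 + w + 1 = 0 →
    (∀ a b c : F4, (a = 0 ∧ b = 0 ∧ c = 0) ∨ wt (enc w (a, b, c)) = 4 ∨ wt (enc w (a, b, c)) = 6) ∧
    (Finset.univ.filter fun p : F4 × F4 × F4 => wt (enc w p) = 4).card = 45 ∧
    (Finset.univ.filter fun p : F4 × F4 × F4 => wt (enc w p) = 6).card = 18 := by
  decide +kernel

theorem ncard_wt {F : Type*} [Field F] [DecidableEq F] (h2 : (2 : F) = 0) {ω : F} (hω : ω ^ 2 + ω + 1 = 0)
    (φ : F ≃+* F4) (k : ℕ) : {x : Fin 6 → F | x ∈ Cfsg.hexacode F ω ∧ wt x = k}.ncard =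
      (Finset.univ.filter fun p : F4 × F4 × F4 => wt (enc (φ ω) p) = k).card := by
  rw [← Set.ncard_coe_finset]
  symm
  refine Set.ncard_congr (fun p _ => enc ω (φ.symm p.1, φ.symm p.2.1, φ.symm p.2.2)) ?_ ?_ ?_
  · intro p hp
    refine ⟨(mem_iff h2 hω _).2 ⟨_, rfl⟩, ?_⟩
    rw [wt_map φ]
    simpa using hp
  · intro p q _ _ h
    have := enc_inj ω h
    simp only [Prod.mk.injEq, EmbeddingLike.apply_eq_iff_eq] at this
    exact Prod.ext this.1 (Prod.ext this.2.1 this.2.2)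
  · rintro x ⟨hx, hk⟩
    obtain ⟨p, rfl⟩ := (mem_iff h2 hω _).1 hx
    refine ⟨(φ p.1, φ p.2.1, φ p.2.2), ?_, by simp⟩
    rw [wt_map φ] at hk
    simpa using hk

/-- The hexacode has 64 words, minimum weight 4, and weight distribution 0^1 4^45 6^18. -/
theorem result (F : Type*) [Field F] [Fintype F] [DecidableEq F] (hF : Fintype.card F = 4) (ω : F) (hω : ω ^ 2 + ω + 1 = 0) : Nat.card ↥(Cfsg.hexacode F ω) = 64 ∧ (∀ x ∈ Cfsg.hexacode F ω, x ≠ 0 → (Finset.univ.filter fun i => x i ≠ 0).card = 4 ∨ (Finset.univ.filter fun i => x i ≠ 0).card = 6) ∧ {x : Fin 6 → F | x ∈ Cfsg.hexacode F ω ∧ (Finset.univ.filter fun i => x i ≠ 0).card = 4}.ncard = 45 ∧ {x : Fin 6 → F | x ∈ Cfsg.hexacode F ω ∧ (Finset.univ.filter fun i => x i ≠ 0).card = 6}.ncard = 18 := by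
  have h2 := two_eq hF
  let φ : F ≃+* F4 := FiniteField.ringEquivOfCardEq (hF.trans card_F4.symm)
  have hw : φ ω ^ 2 + φ ω + 1 = 0 := by simpa using congrArg φ hω
  obtain ⟨h1, h4, h6⟩ := fin4 _ hw
  refine ⟨?_, ?_, (ncard_wt h2 hω φ 4).trans h4, (ncard_wt h2 hω φ 6).trans h6⟩
  · have e : (F × F × F) ≃ Cfsg.hexacode F ω := Equiv.ofBijective (fun p => ⟨enc ω p, (mem_iff h2 hω _).2 ⟨p, rfl⟩⟩)
      ⟨fun p q h => enc_inj ω (congrArg Subtype.val h), fun x => by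
        obtain ⟨p, hp⟩ := (mem_iff h2 hω _).1 x.2
        exact ⟨p, Subtype.ext hp⟩⟩
    rw [← Nat.card_congr e]
    simp [hF]
  · intro x hx h0
    obtain ⟨p, rfl⟩ := (mem_iff h2 hω _).1 hx
    change wt _ = 4 ∨ wt _ = 6
    rw [wt_map φ]
    rcases h1 (φ p.1) (φ p.2.1) (φ p.2.2) with ⟨a, b, c⟩ | h
    · rw [map_eq_zero_iff _ φ.injective] at a b c
      refine absurd (funext fun i => ?_) h0
      fin_cases i <;> simp [enc, a, b, c]
    · exact h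

end Cfsg.Agent.S1610
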