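import Cfsg.Statements.S1611
import Cfsg.Agent.Lib.Alt.Aut
import Cfsg.Agent.S1610

set_option autoImplicit false
open Cfsg

namespace Cfsg.Agent.S1611

open Cfsg.Agent.S1610 Equiv

variable {F : Type*} [Field F] {ω : F}

/-- the monomial map preserves the hexacode -/
def Pres (ω : F) (σ : Perm (Fin 6)) (c : Fin 6 → Fˣ) : Prop :=
  ∀ x ∈ Cfsg.hexacode F ω, Cfsg.monomialMap σ c x ∈ Cfsg.hexacode F ω

theorem mono_mul (σ τ : Perm (Fin 6)) (c d : Fin 6 → Fˣ) (x : Fin 6 → F) :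
    Cfsg.monomialMap (σ * τ) (fun i => c i * d (σ.symm i)) x = Cfsg.monomialMap σ c (Cfsg.monomialMap τ d x) := by
  funext i
  simp [Cfsg.monomialMap, mul_assoc, Perm.mul_def]

theorem Pres.mul {σ τ : Perm (Fin 6)} {c d : Fin 6 → Fˣ} (h : Pres ω σ c) (h' : Pres ω τ d) :
    Pres ω (σ * τ) (fun i => c i * d (σ.symm i)) := fun x hx => by
  rw [mono_mul]; exact h _ (h' x hx)

theorem mono_inj (σ : Perm (Fin 6)) (c : Fin 6 → Fˣ) : Function.Injective (Cfsg.monomialMap σ c) := fun x y h => by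
  funext i
  have := congrFun h (σ i)
  simpa [Cfsg.monomialMap] using this

theorem Pres.inv [Finite F] {σ : Perm (Fin 6)} {c : Fin 6 → Fˣ} (h : Pres ω σ c) :
    Pres ω σ⁻¹ (fun i => (c (σ i))⁻¹) := fun x hx => by
  have hs : Function.Surjective (fun y : Cfsg.hexacode F ω => (⟨_, h y y.2⟩ : Cfsg.hexacode F ω)) :=
    Finite.injective_iff_surjective.1 fun y z e => Subtype.ext (mono_inj σ c (congrArg Subtype.val e))
  obtain ⟨y, hy⟩ := hs ⟨x, hx⟩
  have e : Cfsg.monomialMap σ c y = x := congrArg Subtype.val hy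
  have : Cfsg.monomialMap σ⁻¹ (fun i => (c (σ i))⁻¹) x = y := by
    funext i
    rw [← e]
    simp [Cfsg.monomialMap, Perm.inv_def]
  rw [this]
  exact y.2

theorem pres_scalar (a : Fˣ) : Pres ω 1 (fun _ => a) := fun x hx => by
  have : Cfsg.monomialMap 1 (fun _ => a) x = (a : F) • x := by
    funext i
    simp [Cfsg.monomialMap, Perm.one_def]
  rw [this]
  exact Submodule.smul_mem _ _ hx

/-- the permutation parts -/
def P [Finite F] (ω : F) : Subgroup (Perm (Fin 6)) where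
  carrier := {σ | ∃ c, Pres ω σ c}
  one_mem' := ⟨_, pres_scalar 1⟩
  mul_mem' := fun ⟨_, h⟩ ⟨_, h'⟩ => ⟨_, h.mul h'⟩
  inv_mem' := fun ⟨_, h⟩ => ⟨_, h.inv⟩

theorem ne0 (hω : ω ^ 2 + ω + 1 = 0) : ω ≠ 0 := by
  rintro rfl
  simp at hω

theorem diag (h2 : (2 : F) = 0) (hω : ω ^ 2 + ω + 1 = 0) (c : Fin 6 → Fˣ) (h : Pres ω 1 c) (i j : Fin 6) : c i = c j := by
  have h0 := ne0 hω
  have a := (mem_hexa h2 hω _).1 (h _ ((mem_iff h2 hω _).2 ⟨(1, 0, 0), rfl⟩))
  have b := (mem_hexa h2 hω _).1 (h _ ((mem_iff h2 hω _).2 ⟨(0, 1, 0), rfl⟩))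
  have d := (mem_hexa h2 hω _).1 (h _ ((mem_iff h2 hω _).2 ⟨(0, 0, 1), rfl⟩))
  simp [Cfsg.monomialMap, enc, Perm.one_def, h0] at a b d
  have k : ∀ i, c i = c 3 := by
    intro i
    refine Units.ext ?_
    fin_cases i
    · exact a.1.symm
    · exact b.1.symm
    · exact d.1.symm
    · rfl
    · exact d.2.1.trans d.1.symm
    · exact d.2.2.trans d.1.symm
  rw [k i, k j]

theorem not_swap (h2 : (2 : F) = 0) (hω : ω ^ 2 + ω + 1 = 0) (c : Fin 6 → Fˣ) : ¬ Pres ω (swap 0 1) c := fun h => by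
  have h0 := ne0 hω
  have a := (mem_hexa h2 hω _).1 (h _ ((mem_iff h2 hω _).2 ⟨(1, 0, 0), rfl⟩))
  have d := (mem_hexa h2 hω _).1 (h _ ((mem_iff h2 hω _).2 ⟨(0, 0, 1), rfl⟩))
  simp [Cfsg.monomialMap, enc, swap_apply_def] at a d
  have e : (c 4 : F) = c 1 := by rw [d.2.1, ← d.1, a.1]
  have := a.2.1
  rw [e] at this
  have h1 := (c 1).ne_zero
  have : ω ^ 2 = ω := mul_left_cancel₀ h1 (this.trans (mul_comm _ _))
  grind

theorem three_mem [Finite F] (h2 : (2 : F) = 0) (hω : ω ^ 2 + ω + 1 = 0) (i : Fin 6) (h0 : i ≠ 0) (h1 : i ≠ 1) :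
    swap 0 1 * swap 1 i ∈ P ω := by
  let u : Fˣ := Units.mk0 ω (ne0 hω)
  have hu : (u : F) = ω := rfl
  have key : ∀ (s : Perm (Fin 6)) (c : Fin 6 → Fˣ), (∀ p, Cfsg.monomialMap s c (enc ω p) ∈ Cfsg.hexacode F ω) → s ∈ P ω :=
    fun s c h => ⟨c, fun x hx => by
      obtain ⟨p, rfl⟩ := (mem_iff h2 hω _).1 hx
      exact h p⟩
  fin_cases i
  · exact absurd rfl h0
  · exact absurd rfl h1
  · refine key _ ![1, 1, 1, 1, u ^ 2, u] fun p => (mem_hexa h2 hω _).2 ?_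
    simp [Cfsg.monomialMap, enc, swap_apply_def, hu, Perm.mul_def]
    grind
  · refine key _ ![1, 1, 1, 1, u, u ^ 2] fun p => (mem_hexa h2 hω _).2 ?_
    simp [Cfsg.monomialMap, enc, swap_apply_def, hu, Perm.mul_def]
    grind
  · refine key _ ![1, 1, u ^ 2, u, 1, 1] fun p => (mem_hexa h2 hω _).2 ?_
    simp [Cfsg.monomialMap, enc, swap_apply_def, hu, Perm.mul_def]
    grind
  · refine key _ ![1, 1, u, u ^ 2, 1, 1] fun p => (mem_hexa h2 hω _).2 ?_
    simp [Cfsg.monomialMap, enc, swap_apply_def, hu, Perm.mul_def]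
    grind

theorem P_eq [Finite F] (h2 : (2 : F) = 0) (hω : ω ^ 2 + ω + 1 = 0) : P ω = alternatingGroup (Fin 6) := by
  have h1 : alternatingGroup (Fin 6) ≤ P ω := by
    refine (Cfsg.Lib.Alt.alt_le_of_arc (o := 0) (e := 1) (H := P ω ⊓ alternatingGroup (Fin 6)) (by decide) inf_le_right
      fun i h0 h1 => ⟨three_mem h2 hω i h0 h1, ?_⟩).trans inf_le_left
    exact (Cfsg.Lib.Alt.three_swap (by decide) h0 h1).mem_alternatingGroup
  refine le_antisymm (fun σ hσ => ?_) h1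
  by_contra hn
  have hs : Perm.sign σ = -1 := (Int.units_eq_one_or _).resolve_left hn
  have : swap 0 1 * σ⁻¹ ∈ alternatingGroup (Fin 6) := by
    rw [Perm.mem_alternatingGroup, map_mul, map_inv, hs, Perm.sign_swap (by decide)]
    rfl
  obtain ⟨c, hc⟩ := (P ω).mul_mem (h1 this) hσ
  rw [inv_mul_cancel_right] at hc
  exact not_swap h2 hω c hc

/-- The monomial automorphism group of the hexacode has order 1080: its diagonal part is the scalars and its permutation parts form the alternating group of degree 6. -/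
theorem result (F : Type*) [Field F] [Fintype F] [DecidableEq F] (hF : Fintype.card F = 4) (ω : F) (hω : ω ^ 2 + ω + 1 = 0) : Nat.card {f : Equiv.Perm (Fin 6) × (Fin 6 → Fˣ) // (∀ x ∈ Cfsg.hexacode F ω, Cfsg.monomialMap f.1 f.2 x ∈ Cfsg.hexacode F ω)} = 1080 ∧ (∀ c : Fin 6 → Fˣ, (∀ x ∈ Cfsg.hexacode F ω, Cfsg.monomialMap 1 c x ∈ Cfsg.hexacode F ω) → ∀ i j, c i = c j) ∧ {σ : Equiv.Perm (Fin 6) | ∃ c : Fin 6 → Fˣ, (∀ x ∈ Cfsg.hexacode F ω, Cfsg.monomialMap σ c x ∈ Cfsg.hexacode F ω)} = (alternatingGroup (Fin 6) : Set (Equiv.Perm (Fin 6))) := by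
  have h2 := two_eq hF
  refine ⟨?_, diag h2 hω, congrArg SetLike.coe (P_eq h2 hω)⟩
  choose L hL using fun σ : P ω => σ.2
  have e : (P ω × Fˣ) ≃ {f : Perm (Fin 6) × (Fin 6 → Fˣ) // Pres ω f.1 f.2} :=
    Equiv.ofBijective (fun q => ⟨(q.1, fun i => q.2 * L q.1 i), by
      have := (pres_scalar q.2).mul (hL q.1)
      rwa [one_mul] at this⟩) ⟨?_, ?_⟩
  · refine (Nat.card_congr e).symm.trans ?_
    rw [Nat.card_prod, P_eq h2 hω, Nat.card_units, nat_card_alternatingGroup]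
    simp [hF, Nat.factorial]
  · rintro ⟨σ, a⟩ ⟨τ, b⟩ h
    have h' := congrArg Subtype.val h
    simp only [Prod.mk.injEq] at h'
    obtain rfl : σ = τ := Subtype.ext h'.1
    have := congrFun h'.2 0
    simp only [mul_left_inj] at this
    rw [this]
  · rintro ⟨⟨σ, c⟩, hc⟩
    let s : P ω := ⟨σ, c, hc⟩
    have h := hc.mul (hL s).inv
    have h1 : σ * (s : Perm (Fin 6))⁻¹ = 1 := mul_inv_cancel σ
    rw [h1] at h
    have k := diag h2 hω _ h
    refine ⟨(s, c 0 * (L s 0)⁻¹), Subtype.ext (Prod.ext rfl (funext fun i => ?_))⟩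
    have := k 0 i
    simp only [s, apply_symm_apply] at this
    change c 0 * (L s 0)⁻¹ * L s i = c i
    rw [this, inv_mul_cancel_right]

end Cfsg.Agent.S1611
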