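import Cfsg.Statements.S1612
import Cfsg.Agent.Lib.ThreeTr.Structure

set_option autoImplicit false
open Cfsg

namespace Cfsg.Agent.S1612

open Cfsg.Lib Cfsg.Lib.ThreeTr

/-- In a 3-transposition group (no solvable normal subgroup, perfect derived group), the normaliser of a commuting set of transpositions of maximum size contains a Sylow 2-subgroup and is doubly transitive on the set. -/
theorem result {G : Type*} [Group G] [Finite G] (hsol : ∀ N : Subgroup G, N.Normal → Group.IsSolvable ↥N → N = ⊥) (hperf : ⁅commutator G, commutator G⁆ = commutator G) {D : Set G} (hD : Cfsg.IsThreeTranspositionClass D) {E : Set G} (hE : E ⊆ D) (hc : ∀ a ∈ E, ∀ b ∈ E, Commute a b) (hmax : ∀ E' : Set G, E' ⊆ D → (∀ a ∈ E', ∀ b ∈ E', Commute a b) → E'.ncard ≤ E.ncard) : (∃ P : Sylow 2 G, (P : Subgroup G) ≤ Subgroup.normalizer E) ∧ ∀ a ∈ E, ∀ b ∈ E, ∀ c ∈ E, ∀ d ∈ E, a ≠ b → c ≠ d → ∃ g ∈ Subgroup.normalizer E, g * a * g⁻¹ = c ∧ g * b * g⁻¹ = d :=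 by
  obtain ⟨hp, hw⟩ := primitive_of_fischer hsol hperf hD
  have hG := class_group hD
  have h2 := isPGroup_closure_of_commute (fun a ha => TS.sq hD.1 (hE ha)) hc
  have key : ∀ T : Subgroup G, IsPGroup 2 T → Subgroup.closure E ≤ T → ∀ x ∈ D, x ∈ T → x ∈ E := by
    intro T hT hET x hx hxT
    have h1 : E ⊆ {y | y ∈ D ∧ y ∈ T} := fun y hy => ⟨hE hy, hET (Subgroup.subset_closure hy)⟩
    rw [Set.eq_of_subset_of_ncard_le h1 (hmax _ (fun _ h => h.1) fun a ha b hb =>
      commute_of_mul_mem_twoGroup hD.1 hT ha.1 hb.1 (mul_mem ha.2 hb.2)) (Set.toFinite _)]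
    exact ⟨hx, hxT⟩
  constructor
  · obtain ⟨P, hP⟩ := h2.exists_le_sylow
    refine ⟨P, fun g hg => Subgroup.mem_normalizer_fintype fun n hn => ?_⟩
    exact key P P.isPGroup' hP _ (hG.2.1 g n (hE hn))
      (mul_mem (mul_mem hg (hP (Subgroup.subset_closure hn))) (inv_mem hg))
  · intro a ha b hb c hc' d hd hab hcd
    obtain ⟨g, hg1, hg2⟩ := prim_exists_conj_pair_commute hG hp hw (hE ha)
      ⟨hE hb, hab.symm, hc a ha b hb⟩ (hE hc') ⟨hE hd, hcd.symm, hc c hc' d hd⟩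
    obtain ⟨T, h3, -, h4, h5⟩ := Transfer.exists_sylowIn_ge (p := 2) h2
      (H := Subgroup.centralizer {c, d}) (by
        rw [Subgroup.closure_le]
        rintro x hx _ (rfl | rfl)
        · exact hc _ hc' x hx
        · exact hc _ hd x hx)
    obtain ⟨k, hk, h6⟩ := exists_conj_subset hD.1 h5 (E := (fun x => g * x * g⁻¹) '' E)
      (by rintro _ ⟨x, hx, rfl⟩; exact hG.2.1 g x (hE hx))
      (by
        rintro _ ⟨x, hx, rfl⟩ _ (rfl | rfl)
        · rw [← hg1]; exact (commute_conj_iff g _ _).2 (hc _ ha x hx)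
        · rw [← hg2]; exact (commute_conj_iff g _ _).2 (hc _ hb x hx))
      (by
        rintro _ ⟨x, hx, rfl⟩ _ ⟨y, hy, rfl⟩
        exact (commute_conj_iff g _ _).2 (hc x hx y hy))
    have e : ∀ x, k * g * x * (k * g)⁻¹ = k * (g * x * g⁻¹) * k⁻¹ := fun x => by group
    refine ⟨k * g, Subgroup.mem_normalizer_fintype fun n hn => ?_, ?_, ?_⟩
    · exact key T h4 h3 _ (hG.2.1 _ n (hE hn)) (e n ▸ h6 _ ⟨n, hn, rfl⟩)
    · rw [e, hg1, ← hk c (by simp), mul_inv_cancel_right]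
    · rw [e, hg2, ← hk d (by simp), mul_inv_cancel_right]

end Cfsg.Agent.S1612
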