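import Cfsg.Statements.S1616
import Cfsg.Agent.Lib.Fischer.Classify
-- import your own Cfsg.Agent.* helpers here

set_option autoImplicit false
open Cfsg

namespace Cfsg.Agent.S1616
open Cfsg.Lib Cfsg.Lib.ThreeTr Subgroup
open Cfsg.Lib.Fischer

/-- If O₂(⟨D_x⟩) is not central in ⟨D_x⟩ for some transposition x, the 3-transposition group is some Sp(2n, 2) or PSU(n, 2). -/
theorem result {G : Type*} [Group G] [Finite G] (hsol : ∀ N : Subgroup G, N.Normal → Group.IsSolvable ↥N → N = ⊥) (hperf : ⁅commutator G, commutator G⁆ = commutator G) {D : Set G} (hD : Cfsg.IsThreeTranspositionClass D) (x : G) (hx : x ∈ D) (h : ¬ Cfsg.pCore 2 ↥(Subgroup.closure {y : G | y ∈ D ∧ y ≠ x ∧ Commute x y}) ≤ Subgroup.center ↥(Subgroup.closure {y : G | y ∈ D ∧ y ≠ x ∧ Commute x y})) : (∃ n : ℕ, Nonempty (G ≃* Matrix.symplecticGroup (Fin n) (ZMod 2))) ∨ ∃ (F : Type) (_ : Field F) (_ : Fintype F) (n : ℕ), Fintype.card F = 4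 ∧ Nonempty (G ≃* Cfsg.PSU n F 2) := by
  obtain ⟨hP, hX, hZ⟩ := prim_of_fischer hsol hperf hD
  have ht := thick_of_not_vt hx
    (((hP.dx x).two_le_center_iff (hP.nc_dx hx) (hP.dx_nonempty hx)).not.1 h)
  rcases hP.classify_thick ht with ⟨-, m, -, k⟩ | ⟨-, n, hn, k⟩
  · exact .inl ⟨m, let ⟨e, _⟩ := k.out hX hZ; ⟨e⟩⟩
  · exact .inr ⟨F4, inferInstance, inferInstance, n, card_F4,
      let ⟨e, _⟩ := k.out (by omega) hX hZ; ⟨e⟩⟩

end Cfsg.Agent.S1616
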