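import Cfsg.Statements.S1622
import Cfsg.Agent.Lib.J2.Basic

set_option autoImplicit false
open Quaternion
open Cfsg

namespace Cfsg.Agent.S1622

open Cfsg.Lib.J2

/-- The reflection group is transitive on its 315 reflections by conjugation. -/
theorem result (f f' : Equiv.Perm ↥Cfsg.Spor.icoLeech) (hf : Cfsg.Spor.IsIcoReflection f) (hf' : Cfsg.Spor.IsIcoReflection f') : ∃ g ∈ Cfsg.Spor.twoJ2, g * f * g⁻¹ = f' := by
  obtain ⟨a, ha, rfl⟩ := isIco_iff_conj.1 hf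
  obtain ⟨b, hb, rfl⟩ := isIco_iff_conj.1 hf'
  refine ⟨th (b * a⁻¹), twoJ2_eq ▸ ⟨_, mul_mem hb (inv_mem ha), rfl⟩, ?_⟩
  rw [← map_inv, ← map_mul, ← map_mul]
  congr 1; group

end Cfsg.Agent.S1622
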