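import Cfsg.Statements.S1623
import Cfsg.Agent.Lib.J2.Basic

set_option autoImplicit false
open Quaternion
open Cfsg

namespace Cfsg.Agent.S1623

open Cfsg.Lib.J2 Cfsg.Lib.F2 Cfsg.Lib.Leech

/-- A reflection centraliser in the Hall–Janko group is an extension of an extraspecial group of order 32 by the alternating group of degree 5. -/
theorem result (f : Equiv.Perm ↥Cfsg.Spor.icoLeech) (hf : Cfsg.Spor.IsIcoReflection f) (hfm : f ∈ Cfsg.Spor.twoJ2) : ∃ (Q : Subgroup ↥(Subgroup.centralizer {(QuotientGroup.mk ⟨f, hfm⟩ : Cfsg.Spor.J2)})) (_ : Q.Normal), Nat.card Q = 32 ∧ Cfsg.IsExtraspecial 2 Q ∧ Nonempty (↥(Subgroup.centralizer {(QuotientGroup.mk ⟨f, hfm⟩ : Cfsg.Spor.J2)}) ⧸ Q ≃* alternatingGroup (Fin 5)) := by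
  obtain ⟨a, ha, rfl⟩ := isIco_iff_conj.1 hf
  haveI := btw_q.normal
  obtain ⟨hn, h⟩ := sh4_c.map (eC.symm.trans (centralizerEquiv ((MulAut.conj (⟨pr1 a, ha⟩ : hj)).trans eJ.symm)
    (t' := (QuotientGroup.mk ⟨_, hfm⟩ : Cfsg.Spor.J2)) (eJ.symm_apply_eq.2 (Subtype.ext
      ((coe_eJ ⟨_, mul_mem (mul_mem ha rho_mem) (inv_mem ha)⟩).trans (by simp [zz])).symm))))
  exact ⟨_, hn, h.card, h.es, h.quot⟩

end Cfsg.Agent.S1623
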