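import Cfsg.Statements.S1624
import Cfsg.Agent.Lib.Uni.U33

set_option autoImplicit false
open Quaternion
open Cfsg

namespace Cfsg.Agent.S1624

open Cfsg.Lib.Leech Cfsg.Lib.F2 Cfsg.Lib.Uni Cfsg.Lib.Unitary Cfsg.Lib.J2 MulAction

/-- The Hall–Janko group contains PSU(3, 3) with index 100 and acts on the 100 cosets with rank 3 and subdegrees 1, 36, 63. -/
theorem result : ∃ H : Subgroup Cfsg.Spor.J2, H.index = 100 ∧ (∃ (F : Type) (_ : Field F) (_ : Fintype F), Fintype.card F = 9 ∧ Nonempty (↥H ≃* Cfsg.PSU 3 F 3)) ∧ ∃ c₁ c₂ : Cfsg.Spor.J2 ⧸ H, (MulAction.orbit ↥H c₁).ncard = 36 ∧ (MulAction.orbit ↥H c₂).ncard = 63 := by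
  let φ : Cfsg.Spor.J2 →* Cfsg.Spor.Co1 := hj.subtype.comp (eJ : Cfsg.Spor.J2 →* hj)
  have hφ : Function.Injective φ := hj.subtype_injective.comp eJ.injective
  have hr : ∀ g ∈ hj, g ∈ φ.range := fun g hg => ⟨eJ.symm ⟨g, hg⟩, congrArg Subtype.val (eJ.apply_symm_apply _)⟩
  have hK : gp1 kL ≤ φ.range := fun g hg => hr g (k_le hg)
  obtain ⟨e⟩ : Nonempty (gp1 kL ≃* PSU 3 K9 3) :=
    nonempty_equiv_PSU card_K9 (by norm_num) fc9 coded1 (fun _ h => exists_code2 h) u33_prj (by norm_num) u33_su u33_fr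
      (good_of_slpHas code2_lt (good_genL good_k) u33_slp) (ker1_le _) u33_ok u33_b (card_k.trans u33_N.symm)
      ((card_psu card_K9 (by norm_num) (by decide +kernel)).trans u33_N.symm)
  obtain ⟨u, -, hc⟩ := coded1.cov' tst1 (ker1_le (gp1 kL)) (good_of_slpHas code2_lt good_r h_slp)
    (good_append k1_le good_k1U good_kU) h_hd h_cov
  have hi := hc.inj_of_card coded1 (by
    rw [card_k, show 100 * 6048 = 604800 from rfl, ← card_hj]
    exact Subgroup.card_le_of_le (coded1.genL_le (ker1_le _) fun C hC =>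
      good_genL (List.forall_mem_append.2 ⟨good_hj, good_k⟩) C (List.mem_append_left _ hC)))
  obtain ⟨s, hs⟩ := hr _ (hc.mem 0)
  obtain ⟨t, ht⟩ := hr _ (hc.mem 1)
  refine ⟨(gp1 kL).comap φ, ?_, ⟨K9, inferInstance, inferInstance, card_K9,
    ⟨(((gp1 kL).comap φ).equivMapOfInjective φ hφ).trans ((MulEquiv.subgroupCongr
      (Subgroup.map_comap_eq_self hK)).trans e)⟩⟩, s, t, ?_, ?_⟩
  · rw [← Subgroup.comap_comap, Subgroup.index_comap_of_surjective _ eJ.surjective]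
    exact index_k
  · rw [ncard_orbit_comap φ hK, hs]
    exact hc.drop.ncard_orbit coded1 good_k (by decide) hi h_orb36
  · rw [ncard_orbit_comap φ hK, ht]
    exact hc.drop.ncard_orbit coded1 good_k (by decide) hi h_orb63

end Cfsg.Agent.S1624
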