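import Cfsg.Statements.S1626
import Cfsg.Agent.Lib.J3.More

set_option autoImplicit false
open scoped MatrixGroups
open Matrix
open Cfsg

namespace Cfsg.Agent.S1626

/-- Orbits of the triple cover of the third Janko group on lines of its 9-space over the field with 4 elements: the line through the first basis vector has exactly 23256 images, and the isotropic lines (nonzero v with Σ v_z³ = 0) form a single orbit. -/
theorem result (F : Type) [Field F] [Fintype F] (hF : Fintype.card F = 4) (ω : F) (hω : ω ^ 2 + ω + 1 = 0) : {L : Submodule F (Cfsg.Spor.F9 → F) | ∃ g ∈ Cfsg.Spor.threeJ3 F ω, L = F ∙ ((g : Matrix Cfsg.Spor.F9 Cfsg.Spor.F9 F) *ᵥ (Pi.single (0 : Cfsg.Spor.F9) (1 : F) : Cfsg.Spor.F9 → F))}.ncard = 23256 ∧ ∀ v w : Cfsg.Spor.F9 → F, v ≠ 0 → w ≠ 0 → ∑ z, (v z) ^ 3 = 0 → ∑ z, (w z) ^ 3 = 0 → ∃ g ∈ Cfsg.Spor.threeJ3 F ω, ∃ c : F, c ≠ 0 ∧ (g : Matrix Cfsg.Spor.F9 Cfsg.Spor.F9 F) *ᵥ v = c • w := by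
  classical
  have h := Lib.F2.IsF4.of_card hF hω
  rw [Lib.J3.threeJ3_eq h]
  refine ⟨?_, fun v w hv hw hv' hw' => ?_⟩
  · have h1 := (Lib.J3.card_orbit h).2
    rw [Set.ncard_image_of_injective _ fun _ _ => h.code4_inj Lib.J3.num] at h1
    set O := MulAction.orbit (Lib.J3.gp ω Lib.J3.gL) (Pi.single (0 : Spor.F9) (1 : F) : Spor.F9 → F) with hO
    have h0 : ∀ v ∈ O, v ≠ 0 := by
      rintro _ ⟨g, rfl⟩ e
      have : (Pi.single (0 : Spor.F9) (1 : F) : Spor.F9 → F) = 0 := by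
        rw [← inv_smul_smul g (Pi.single _ _), show g • (Pi.single (0 : Spor.F9) (1 : F) : Spor.F9 → F) = 0 from e,
          smul_zero]
      simpa using congrFun this 0
    have hs : ∀ v ∈ O, ω • v ∈ O := by
      rintro _ ⟨g, rfl⟩
      refine ⟨⟨_, Lib.J3.zc_le_g h (Subgroup.mem_zpowers _)⟩ * g, ?_⟩
      beta_reduce
      rw [mul_smul]
      change Matrix.diagonal (fun _ => ω) *ᵥ _ = _
      funext z
      rw [Matrix.mulVec_diagonal]; rfl
    have hc : ∀ v ∈ O, ∀ c : F, c ≠ 0 → c • v ∈ O := fun v hv c hc => by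
      rcases h.all c with rfl | rfl | rfl | rfl
      · exact absurd rfl hc
      · rwa [one_smul]
      · exact hs v hv
      · rw [sq, mul_smul]; exact hs _ (hs v hv)
    have e : {L : Submodule F (Spor.F9 → F) | ∃ g ∈ Lib.J3.gp ω Lib.J3.gL, L = F ∙ ((g : Matrix Spor.F9 Spor.F9 F) *ᵥ
        (Pi.single (0 : Spor.F9) (1 : F) : Spor.F9 → F))} = ↑(O.toFinset.image fun v => F ∙ v) := by
      ext L
      simp only [Set.mem_setOf_eq, Finset.coe_image, Set.coe_toFinset]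
      exact ⟨fun ⟨g, hg, e⟩ => ⟨_, ⟨⟨g, hg⟩, rfl⟩, e.symm⟩, by rintro ⟨_, ⟨g, rfl⟩, e⟩; exact ⟨g, g.2, e.symm⟩⟩
    rw [e, Set.ncard_coe_finset]
    have h2 := Finset.card_eq_sum_card_image (fun v => F ∙ v) O.toFinset
    rw [Finset.sum_const_nat (m := 3), ← Set.ncard_eq_toFinset_card', h1] at h2
    · omega
    intro L hL
    obtain ⟨v, hv, rfl⟩ := Finset.mem_image.1 hL
    rw [Set.mem_toFinset] at hv
    have : O.toFinset.filter (fun a => (F ∙ a) = F ∙ v) = (Finset.univ.erase (0 : F)).image (· • v) := by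
      ext a
      simp only [Finset.mem_filter, Set.mem_toFinset, Finset.mem_image, Finset.mem_erase, Finset.mem_univ, and_true]
      constructor
      · rintro ⟨ha, e⟩
        obtain ⟨c, rfl⟩ := Submodule.mem_span_singleton.1 (e ▸ Submodule.mem_span_singleton_self a)
        exact ⟨c, fun hc => h0 _ ha (by rw [hc, zero_smul]), rfl⟩
      · rintro ⟨c, hc', rfl⟩
        exact ⟨hc v hv c hc', Submodule.span_singleton_smul_eq (IsUnit.mk0 c hc') v⟩
    rw [this, Finset.card_image_of_injective _ (smul_left_injective F (h0 v hv)),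
      Finset.card_erase_of_mem (Finset.mem_univ _), Finset.card_univ, hF]
  · obtain ⟨p, hp⟩ := Lib.J3.orbit_iso h hF
    have h1 : v ∈ MulAction.orbit (Lib.J3.gp ω Lib.J3.gL) p := hp ▸ ⟨hv, hv'⟩
    have h2 : w ∈ MulAction.orbit (Lib.J3.gp ω Lib.J3.gL) p := hp ▸ ⟨hw, hw'⟩
    rw [← MulAction.orbit_eq_iff.2 h1] at h2
    obtain ⟨g, hg⟩ := h2
    exact ⟨g, g.2, 1, one_ne_zero, by rw [one_smul]; exact hg⟩

end Cfsg.Agent.S1626
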