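import Cfsg.Statements.S1631
import Cfsg.Agent.Lib.Unitary.Transv
import Cfsg.Agent.S0780

set_option autoImplicit false
open scoped MatrixGroups
open Cfsg

namespace Cfsg.Agent.S1631

open Cfsg.Lib.Unitary

/-- The unitary transvections of SU(n, 2), n ≥ 4, form a generating conjugacy class of 3-transpositions. -/
theorem result (F : Type) [Field F] [Fintype F] [DecidableEq F] (hF : Fintype.card F = 4) (n : ℕ) (hn : 4 ≤ n) : Cfsg.IsThreeTranspositionClass {g : ↥(Cfsg.SU n F 2) | (((g : Matrix.SpecialLinearGroup (Fin n) F) : Matrix (Fin n) (Fin n) F) - 1).rank = 1} := by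
  have hF' : Fintype.card F = 2 ^ 2 := hF
  obtain ⟨σ, hσ⟩ := exists_isBar hF'
  have hB := hσ.isHerm (ι := Fin n)
  have h2 : (2 : F) = 0 := by exact_mod_cast hσ.cast_q
  have hone : ∀ c : F, c + σ c = 0 → c ≠ 0 → c = 1 := fun c hc hc0 => by
    rw [hσ.eq] at hc
    exact mul_left_cancel₀ hc0 (by linear_combination hc - c * h2 * c + (c ^ 2 - c) * h2)
  have key : ∀ g : SU n F 2, (g.1.1 - 1).rank = 1 → ∃ u hu hc, u ≠ 0 ∧
      (hσ.suEquiv n g).1 = transv (stdForm σ _) u 1 hu hc := fun g hg => by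
    rw [hσ.rank_suEquiv] at hg
    obtain ⟨u, c, hu, hc, hu0, hc0, e⟩ := hB.exists_transv_of_rank_one (hσ.suEquiv n g).2 hg
    obtain rfl := hone c hc hc0
    exact ⟨u, hu, hc, hu0, e⟩
  have inj : ∀ g : SU n F 2, (hσ.suEquiv n g).1 = 1 → g = 1 := fun g hg =>
    (hσ.suEquiv n).injective (Subtype.ext (by simpa using hg))
  have sq : ∀ u hu hc, transv (stdForm σ (Fin n)) u 1 hu hc * transv (stdForm σ _) u 1 hu hc = 1 :=
    fun u hu hc => by
      rw [transv_mul]; ext1 v; simp [one_add_one_eq_two, h2]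
  have hrank : ∀ u c hu hc, u ≠ 0 → c ≠ 0 → ((((hσ.suEquiv n).symm
      ⟨_, hB.transv_mem_SUG u c hu hc⟩).1.1 : Matrix _ _ F) - 1).rank = 1 := fun u c hu hc h0 h1 => by
    rw [hσ.rank_suEquiv, MulEquiv.apply_symm_apply]
    exact hB.rank_transv hu hc h0 h1
  refine ⟨⟨fun d hd => ?_, fun d hd e he => ?_⟩, ?_, ?_⟩
  · obtain ⟨u, hu, hc, hu0, e⟩ := key d hd
    refine orderOf_eq_prime (inj _ (by rw [pow_two, map_mul, Subgroup.coe_mul, e, sq])) ?_
    rintro rfl
    exact hB.transv_ne_one hu hc hu0 one_ne_zero (by simpa using e.symm)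
  · obtain ⟨u, hu, hc, hu0, e1⟩ := key d hd
    obtain ⟨v, hv, hc', hv0, e2⟩ := key e he
    by_cases huv : stdForm σ _ u v = 0
    · refine Or.inl (inj _ ?_)
      rw [map_pow, map_mul, Subgroup.coe_pow, Subgroup.coe_mul, e1, e2, pow_two,
        mul_assoc, ← mul_assoc (transv _ v _ _ _), ← transv_comm hu hc hv hc' huv
        (hB.eq_zero_comm.mp huv), mul_assoc, sq, mul_one, sq]
    · refine Or.inr (inj _ ?_)
      rw [map_pow, map_mul, Subgroup.coe_pow, Subgroup.coe_mul, e1, e2]
      have h1 : stdForm σ _ u v * stdForm σ _ v u = 1 := by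
        rw [← hB.symm u v, hσ.norm_eq]
        have := FiniteField.pow_card_sub_one_eq_one _ huv
        rwa [hF] at this
      ext1 x
      simp only [pow_succ, pow_zero, one_mul, LinearEquiv.mul_apply, transv_apply, map_add,
        map_smul, hu, hv, smul_eq_mul, LinearEquiv.coe_one, id]
      generalize stdForm σ _ u v = β at h1
      generalize stdForm σ _ v u = β' at h1
      generalize stdForm σ _ u x = a
      generalize stdForm σ _ v x = b
      have e3 : 3 * a + 6 * b * β + 4 * a + 5 * b * β + a + b * β = 0 := by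
        linear_combination (4 * a + 6 * b * β) * h2
      have e4 : 3 * b + 3 * a * β' + 4 * b + a * β' + b = 0 := by
        linear_combination (4 * b + 2 * a * β') * h2
      linear_combination (norm := module) e3 • u + e4 • v +
        ((4 * a + 5 * b * β + (a + b * β) * (β * β' + 1)) * h1) • u +
        ((4 * b + a * β' + b * (β * β' + 1)) * h1) • v
  · obtain ⟨u, hu0, hu⟩ := hB.exists_isotropic (by simp; omega)
    have hc : (1 : F) + σ 1 = 0 := by rw [map_one, one_add_one_eq_two, h2]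
    refine ⟨_, hrank u 1 hu hc hu0 one_ne_zero, Set.ext fun g => ⟨fun hg =>
      isConj_of_rank_one hF' (by omega) (hrank u 1 hu hc hu0 one_ne_zero) hg, fun hg => ?_⟩⟩
    obtain ⟨x, rfl⟩ := isConj_iff.mp hg
    have := hrank ((hσ.suEquiv n x).1 u) 1 (((hσ.suEquiv n x).2.1 u u).trans hu) hc 
      ((LinearEquiv.map_ne_zero_iff _).mpr hu0) one_ne_zero
    rw [Set.mem_ofPred_eq, ← this]
    congr 4
    apply (hσ.suEquiv n).injective
    simp only [map_mul, map_inv, MulEquiv.apply_symm_apply]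
    exact Subtype.ext (conj_transv (hσ.suEquiv n x).2.1 u 1 hu hc)
  · rw [eq_top_iff, ← S0780.result hF' n (by omega) (by omega), Subgroup.closure_le]
    rintro g ⟨v, c, hv, hg⟩
    rw [hσ.hermForm_eq] at hv
    by_cases h1 : g = 1
    · rw [h1]; exact one_mem _
    refine Subgroup.subset_closure ?_
    have e : ∀ x, (hσ.suEquiv n g).1 x = x + (c * stdForm σ _ v x) • v := fun x => by
      rw [hσ.suEquiv_apply, ← hσ.unitaryTransvection_mulVec, ← hg]
    change (g.1.1 - 1).rank = 1
    rw [hσ.rank_suEquiv, hB.range_dev_eq ?_ e, finrank_span_singleton]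
    · rintro rfl
      exact h1 (inj _ (by ext1 x; simp [e]))
    · rintro rfl
      exact h1 (inj _ (by ext1 x; simp [e]))

end Cfsg.Agent.S1631
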