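import Cfsg.Statements.S1632
import Cfsg.Agent.Lib.CharDeg.Theta

set_option autoImplicit false
open Matrix
open Cfsg

namespace Cfsg.Agent.S1632

section
open UpperHalfPlane MatrixGroups ModularForm EisensteinSeries ArithmeticFunction

theorem e4 (m : ℕ) : (qExpansion 1 E₄).coeff m = if m = 0 then 1 else 240 * (sigma 3 m : ℂ) := by
  rw [E_qExpansion_coeff _ ⟨2, rfl⟩, show bernoulli 4 = -1 / 30 by decide +kernel]
  norm_num

theorem e6 (m : ℕ) : (qExpansion 1 E₆).coeff m = if m = 0 then 1 else -504 * (sigma 5 m : ℂ) := by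
  rw [E_qExpansion_coeff _ ⟨3, rfl⟩, show bernoulli 6 = 1 / 42 by decide +kernel]
  norm_num

theorem key (f : ModularForm 𝒮ℒ 12) (h0 : (qExpansion 1 f).coeff 0 = 1)
    (h1 : (qExpansion 1 f).coeff 1 = 0) : (qExpansion 1 f).coeff 2 = 196560 ∧
    (qExpansion 1 f).coeff 3 = 16773120 ∧ (qExpansion 1 f).coeff 4 = 398034000 := by
  let a : ModularForm 𝒮ℒ 12 := ModularForm.mcast (by decide) (E₄.pow 3)
  let b : ModularForm 𝒮ℒ 12 := ModularForm.mcast (by decide) (E₆.pow 2)
  have ha : qExpansion 1 a = qExpansion 1 E₄ * qExpansion 1 E₄ * qExpansion 1 E₄ := by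
    rw [ModularForm.qExpansion_mcast, ModularForm.qExpansion_pow one_pos one_mem_strictPeriods_SL]
    ring
  have hb : qExpansion 1 b = qExpansion 1 E₆ * qExpansion 1 E₆ := by
    rw [ModularForm.qExpansion_mcast, ModularForm.qExpansion_pow one_pos one_mem_strictPeriods_SL]
    ring
  let g : ModularForm 𝒮ℒ 12 := f - ((7 / 12 : ℂ) • a + (5 / 12 : ℂ) • b)
  have hg : qExpansion 1 g = qExpansion 1 f - ((7 / 12 : ℂ) • qExpansion 1 a +
      (5 / 12 : ℂ) • qExpansion 1 b) := by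
    rw [← ModularForm.qExpansion_smul one_pos one_mem_strictPeriods_SL,
      ← ModularForm.qExpansion_smul one_pos one_mem_strictPeriods_SL]
    exact (ModularForm.qExpansion_sub one_pos one_mem_strictPeriods_SL f
      ((7 / 12 : ℂ) • a + (5 / 12 : ℂ) • b)).trans (congrArg _
      (ModularForm.qExpansion_add one_pos one_mem_strictPeriods_SL ((7 / 12 : ℂ) • a)
        ((5 / 12 : ℂ) • b)))
  rw [ha, hb] at hg
  have s31 : sigma 3 1 = 1 := by decide +kernel
  have s32 : sigma 3 2 = 9 := by decide +kernel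
  have s33 : sigma 3 3 = 28 := by decide +kernel
  have s34 : sigma 3 4 = 73 := by decide +kernel
  have s51 : sigma 5 1 = 1 := by decide +kernel
  have s52 : sigma 5 2 = 33 := by decide +kernel
  have s53 : sigma 5 3 = 244 := by decide +kernel
  have s54 : sigma 5 4 = 1057 := by decide +kernel
  have g0 : g = 0 := by
    apply sturm_bound_levelOne
    refine lt_of_lt_of_le (show (((12 : ℤ).toNat / 12 : ℕ) : ℕ∞) < ((2 : ℕ) : ℕ∞) by decide)
      (PowerSeries.nat_le_order _ 2 fun i hi => ?_)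
    rw [hg]
    interval_cases i
    · simp only [map_sub, map_add, PowerSeries.coeff_smul, PowerSeries.coeff_mul,
        Finset.Nat.antidiagonal_zero, Finset.sum_singleton, e4, e6, h0]
      norm_num
    · norm_num [PowerSeries.coeff_mul, Finset.Nat.antidiagonal_succ, e4, e6, h0, h1, s31, s51]
  rw [g0, show ((0 : ModularForm 𝒮ℒ 12) : ℍ → ℂ) = 0 from rfl, qExpansion_zero, eq_comm,
    sub_eq_zero] at hg
  rw [hg]
  refine ⟨?_, ?_, ?_⟩ <;>
    norm_num [PowerSeries.coeff_mul, Finset.Nat.antidiagonal_succ, e4, e6, s31, s51, s32, s33, s34,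
      s52, s53, s54]

end

open Cfsg.Lib.CharDeg.Poisson in

/-- An even unimodular lattice of rank 24 without roots has 196560, 16773120 and 398034000 vectors of norms 4, 6 and 8. -/
theorem result (B : Matrix (Fin 24) (Fin 24) ℤ) (hsymm : B.IsSymm) (hpos : ∀ x : Fin 24 → ℤ, x ≠ 0 → 0 < x ⬝ᵥ (B *ᵥ x)) (heven : ∀ x : Fin 24 → ℤ, (2 : ℤ) ∣ x ⬝ᵥ (B *ᵥ x)) (hdet : B.det = 1) (h2 : ∀ x : Fin 24 → ℤ, x ⬝ᵥ (B *ᵥ x) ≠ 2) : {x : Fin 24 → ℤ | x ⬝ᵥ (B *ᵥ x) = 4}.ncard = 196560 ∧ {x : Fin 24 → ℤ | x ⬝ᵥ (B *ᵥ x) = 6}.ncard = 16773120 ∧ {x : Fin 24 → ℤ | x ⬝ᵥ (B *ᵥ x) = 8}.ncard = 398034000 := by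
  have hu : IsUnit B.det := by rw [hdet]; exact isUnit_one
  have h : Lat B B⁻¹ := ⟨fun i j => (hsymm.apply i j).symm, fun i j => by
      have := B.transpose_nonsing_inv
      rw [hsymm.eq] at this
      exact (congrFun (congrFun this i) j).symm,
    B.mul_nonsing_inv hu, fun x => by
      by_cases hx : x = 0
      · simp [hx]
      · exact (hpos x hx).le, heven⟩
  have := key (thetaMF h) (by
    rw [thetaMF_coeff]
    have : {x : Fin 24 → ℤ | x ⬝ᵥ B *ᵥ x = 2 * ((0 : ℕ) : ℤ)} = {0} := by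
      ext x
      refine ⟨fun hx => by_contra fun h0 => (hpos x h0).ne' (by simpa using hx), ?_⟩
      rintro rfl
      simp
    rw [this]; simp) (by
    rw [thetaMF_coeff]
    have : {x : Fin 24 → ℤ | x ⬝ᵥ B *ᵥ x = 2 * ((1 : ℕ) : ℤ)} = ∅ :=
      Set.eq_empty_of_forall_notMem fun x hx => h2 x (by simpa using hx)
    rw [this]; simp)
  simp only [thetaMF_coeff] at this
  norm_num at this
  exact_mod_cast this

end Cfsg.Agent.S1632
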