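import Cfsg.Statements.S1633
import Cfsg.Agent.Lib.Uni.Basic

set_option autoImplicit false
open Cfsg

namespace Cfsg.Agent.S1633

open Cfsg.Lib.Leech Cfsg.Lib.F2 Cfsg.Lib.Uni Cfsg.Lib.Unitary MulAction

/-- The Higman–Sims group acts transitively on 352 vectors, a set closed under x ↦ −w − x, with vector stabiliser isomorphic to PSU(3, 5). -/
theorem result (v w : ↥Cfsg.leechLattice) (hv : Cfsg.sqNorm (v : Cfsg.GolayPt → ℤ) = 48) (hw : Cfsg.sqNorm (w : Cfsg.GolayPt → ℤ) = 48) (hvw : Cfsg.dotInt (v : Cfsg.GolayPt → ℤ) (w : Cfsg.GolayPt → ℤ) = -32) (F : Type) [Field F] [Fintype F] (hF : Fintype.card F = 25) : {x : ↥Cfsg.leechLattice | Cfsg.sqNorm (x : Cfsg.GolayPt → ℤ) = 32 ∧ Cfsg.dotInt (v : Cfsg.GolayPt → ℤ) (x : Cfsg.GolayPt → ℤ) = 16 ∧ Cfsg.dotInt (w : Cfsg.GolayPt → ℤ) (x : Cfsg.GolayPt → ℤ) = -24}.ncard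 = 352 ∧ (∀ x ∈ {x : ↥Cfsg.leechLattice | Cfsg.sqNorm (x : Cfsg.GolayPt → ℤ) = 32 ∧ Cfsg.dotInt (v : Cfsg.GolayPt → ℤ) (x : Cfsg.GolayPt → ℤ) = 16 ∧ Cfsg.dotInt (w : Cfsg.GolayPt → ℤ) (x : Cfsg.GolayPt → ℤ) = -24}, -w - x ∈ {x : ↥Cfsg.leechLattice | Cfsg.sqNorm (x : Cfsg.GolayPt → ℤ) = 32 ∧ Cfsg.dotInt (v : Cfsg.GolayPt → ℤ) (x : Cfsg.GolayPt → ℤ) = 16 ∧ Cfsg.dotInt (w : Cfsg.GolayPt → ℤ) (x : Cfsg.GolayPt → ℤ) = -24}) ∧ (∀ x ∈ {x : ↥Cfsg.leechLattice | Cfsg.sqNorm (x : Cfsg.GolayPt → ℤ) = 32 ∧ Cfsg.dotInt (v : Cfsg.GolayPt → ℤ) (x : Cfsg.GolayPt → ℤ) = 16 ∧ Cfsg.dotInt (w : Cfsg.GolayPt → ℤ) (x : Cfsg.GolayPt → ℤ) = -24}, ∀ x' ∈ {x : ↥Cfsg.leechLattice | Cfsg.sqNorm (x : Cfsg.GolayPt → ℤ) = 32 ∧ Cfsg.dotInt (v : Cfsg.GolayPt → ℤ) (x : Cfsg.GolayPt → ℤ) = 16 ∧ Cfsg.dotInt (w : Cfsg.GolayPt → ℤ) (x : Cfsg.GolayPt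 → ℤ) = -24}, ∃ g : ↥Cfsg.Co0, g • v = v ∧ g • w = w ∧ g • x = x') ∧ ∀ x ∈ {x : ↥Cfsg.leechLattice | Cfsg.sqNorm (x : Cfsg.GolayPt → ℤ) = 32 ∧ Cfsg.dotInt (v : Cfsg.GolayPt → ℤ) (x : Cfsg.GolayPt → ℤ) = 16 ∧ Cfsg.dotInt (w : Cfsg.GolayPt → ℤ) (x : Cfsg.GolayPt → ℤ) = -24}, Nonempty (↥(MulAction.stabilizer ↥Cfsg.Co0 v ⊓ MulAction.stabilizer ↥Cfsg.Co0 w ⊓ MulAction.stabilizer ↥Cfsg.Co0 x) ≃* Cfsg.PSU 3 F 5) := by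
  rw [setT2_eq]
  refine ⟨?_, fun x hx => ?_, fun x hx x' hx' => ?_, fun x hx => ?_⟩
  · obtain ⟨g, rfl, rfl⟩ := exists_smul_VW' hv hw hvw
    rw [← smul_T2, Set.ncard_smul_set, ← orbit_hs_negXH, orbit_neg, Set.ncard_neg, orbit_hs_XH.1]
    exact orbit_hs_XH.2
  · obtain ⟨⟨h1, h2⟩, h3⟩ := hx
    have h1 : sqNorm (x : GolayPt → ℤ) = 32 := h1
    refine ⟨⟨?_, ?_⟩, ?_⟩
    · change sqNorm (-w - x : GolayPt → ℤ) = 32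
      rw [sqNorm_sub, sqNorm_neg, dot_neg_left]; omega
    · change dotInt _ (-w - x : GolayPt → ℤ) = _
      rw [sub_eq_add_neg, dot_add_right, dot_neg_right, dot_neg_right]; omega
    · change dotInt _ (-w - x : GolayPt → ℤ) = _
      rw [sub_eq_add_neg, dot_add_right, dot_neg_right, dot_neg_right, ← sqNorm_eq_dot]; omega
  · obtain ⟨g, rfl, rfl, rfl⟩ := exists_smul_352 hv hw hvw hx
    obtain ⟨h, h1, h2, rfl⟩ := exists_smul_352 hv hw hvw hx'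
    exact ⟨h * g⁻¹, by rw [mul_smul, inv_smul_smul, h1], by rw [mul_smul, inv_smul_smul, h2],
      by rw [mul_smul, inv_smul_smul]⟩
  · obtain ⟨g, rfl, rfl, rfl⟩ := exists_smul_352 hv hw hvw hx
    rw [stabilizer_smul, stabilizer_smul, stabilizer_smul, ← conj_smul_inf, ← conj_smul_inf, stabilizer_neg',
      stab_V_W']
    exact conj_equiv neg_u35 g u35_equiv (nonempty_psu_congr hF card_K25 3)

end Cfsg.Agent.S1633
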