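import Cfsg.Statements.S1635
import Cfsg.Agent.Lib.Golay.Code

set_option autoImplicit false
open Cfsg

namespace Cfsg.Agent.S1635

/-- Coset leaders of the length-24 code: a coset contains a unique word of weight ≤ 3, or else exactly six words of weight 4 and none lighter. -/
theorem result (w : Cfsg.GolayPt → ZMod 2) : ({v : Cfsg.GolayPt → ZMod 2 | hammingNorm v ≤ 4 ∧ w - v ∈ Cfsg.golayCode}.ncard = 1 ∧ ∃ v : Cfsg.GolayPt → ZMod 2, hammingNorm v ≤ 3 ∧ w - v ∈ Cfsg.golayCode) ∨ ({v : Cfsg.GolayPt → ZMod 2 | hammingNorm v ≤ 4 ∧ w - v ∈ Cfsg.golayCode}.ncard = 6 ∧ ∀ v : Cfsg.GolayPt → ZMod 2, w - v ∈ Cfsg.golayCode → hammingNorm v ≤ 4 → hammingNorm v = 4) := by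
  have hC := Lib.Golay.isGolaySys_CW
  have hmem : ∀ u : GolayPt → ZMod 2, w - u ∈ golayCode ↔
      symmDiff (support₂ u) (support₂ w) ∈ Lib.Golay.CW := by
    intro u
    rw [symmDiff_comm, ← Lib.Golay.support₂_sub, Lib.Golay.support₂_mem_supports]; rfl
  have hset : {v : GolayPt → ZMod 2 | hammingNorm v ≤ 4 ∧ w - v ∈ golayCode} = Lib.Golay.word ''
      {u | symmDiff u (support₂ w) ∈ Lib.Golay.CW ∧ u.card ≤ 4} := by
    ext u
    simp only [Set.mem_ofPred_eq, Set.mem_image, hmem]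
    constructor
    · intro h; exact ⟨_, h.symm, Lib.Golay.word_support₂ u⟩
    · rintro ⟨s, hs, rfl⟩
      rw [Lib.Golay.support₂_word, Lib.Golay.hammingNorm_word]
      exact hs.symm
  rcases hC.coset (support₂ w) with ⟨u, h1, h2⟩ | ⟨h1, h2⟩
  · left
    refine ⟨by rw [hset, h1, Set.image_singleton, Set.ncard_singleton], Lib.Golay.word u,
      by rwa [Lib.Golay.hammingNorm_word], ?_⟩
    have : u ∈ {u | symmDiff u (support₂ w) ∈ Lib.Golay.CW ∧ u.card ≤ 4} := by rw [h1]; rfl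
    rw [hmem, Lib.Golay.support₂_word]
    exact this.1
  · right
    refine ⟨by rw [hset, Set.ncard_image_of_injective _ Lib.Golay.word_injective, h1], ?_⟩
    intro v hv h4
    exact h2 _ ((hmem v).1 hv) h4

end Cfsg.Agent.S1635
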