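import Cfsg.Statements.S1636
import Cfsg.Agent.Lib.Golay.Code

set_option autoImplicit false
open Cfsg

namespace Cfsg.Agent.S1636

open Cfsg.Lib.Golay Finset

/-- the punctured word of a set -/
def punc (s : Finset GolayPt) : ZMod 23 → ZMod 2 := fun x => word s (some x)

theorem norm_punc (s : Finset GolayPt) : hammingNorm (punc s) = (s.erase none).card := by
  rw [hammingNorm_eq, ← card_map ⟨some, Option.some_injective _⟩]
  congr 1
  ext (_ | x) <;> simp [mem_support₂, punc, word]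

theorem punc_symmDiff (s t : Finset GolayPt) : punc (symmDiff s t) = -punc s + punc t := by
  ext x
  simp only [punc, word_symmDiff, Pi.add_apply, Pi.neg_apply, CharTwo.neg_eq]

theorem mem_punc {u : ZMod 23 → ZMod 2} :
    u ∈ {u : ZMod 23 → ZMod 2 | ∃ w ∈ golayCode, ∀ x : ZMod 23, u x = w (some x)} ↔ ∃ s ∈ CW, punc s = u :=
  ⟨fun ⟨w, h, e⟩ => ⟨support₂ w, support₂_mem_supports.2 h, funext fun x => by rw [punc, word_support₂, e]⟩,
    fun ⟨s, h, e⟩ => ⟨word s, mem_CW.1 h, fun _ => e ▸ rfl⟩⟩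

theorem eq_of_dist {s t : Finset GolayPt} (hs : s ∈ CW) (ht : t ∈ CW) (h : hammingDist (punc s) (punc t) ≤ 6) : s = t := by
  by_contra n
  have := isGolaySys_CW.min_wt _ (symmDiff_mem_CW hs ht) fun e => n (symmDiff_eq_bot.1 e)
  rw [hammingDist_eq_hammingNorm, ← punc_symmDiff, norm_punc] at h
  have := pred_card_le_card_erase (s := symmDiff s t) (a := none)
  omega

theorem ncard_punc (P : ℕ → Prop) (p : ℕ → Bool) (h : ∀ n, P n ↔ p n = true) :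
    {u | u ∈ {u : ZMod 23 → ZMod 2 | ∃ w ∈ golayCode, ∀ x : ZMod 23, u x = w (some x)} ∧ P (hammingNorm u)}.ncard =
      cntCW fun m => p (pc (Nat.land m 8388607)) := by
  rw [← ncard_CW (fun s => P (s.erase none).card), ← Set.InjOn.ncard_image (f := punc)
    fun s hs t ht e => eq_of_dist hs.1 ht.1 (by simp [e])]
  · congr 1
    ext u
    rw [Set.mem_ofPred_eq, mem_punc]
    exact ⟨fun ⟨⟨s, a, b⟩, c⟩ => ⟨s, ⟨a, norm_punc s ▸ b ▸ c⟩, b⟩, fun ⟨s, ⟨a, c⟩, b⟩ => ⟨⟨s, a, b⟩, b ▸ norm_punc s ▸ c⟩⟩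
  intro m hm _
  rw [← h, ← card_inter_toF hm, show G.toF 8388607 = univ.erase none by decide +kernel, inter_erase, inter_univ]

/-- The punctured length-23 code has weight distribution 0^1 7^253 8^506 11^1288 12^1288 15^506 16^253 23^1. -/
theorem result : {u : ZMod 23 → ZMod 2 | ∃ w ∈ Cfsg.golayCode, ∀ x : ZMod 23, u x = w (some x)}.ncard = 4096 ∧ {u : ZMod 23 → ZMod 2 | u ∈ {u : ZMod 23 → ZMod 2 | ∃ w ∈ Cfsg.golayCode, ∀ x : ZMod 23, u x = w (some x)} ∧ hammingNorm u = 7}.ncard = 253 ∧ {u : ZMod 23 → ZMod 2 | u ∈ {u : ZMod 23 → ZMod 2 | ∃ w ∈ Cfsg.golayCode, ∀ x : ZMod 23, u x = w (some x)} ∧ hammingNorm u = 8}.ncard = 506 ∧ {u : ZMod 23 → ZMod 2 | u ∈ {u : ZMod 23 → ZMod 2 | ∃ w ∈ Cfsg.golayCode, ∀ x : ZMod 23, u x = w (some x)} ∧ hammingNorm u = 11}.ncard = 1288 ∧ {u : ZMod 23 → ZMod 2 | u ∈ {u : ZMod 23 → ZMod 2 | ∃ w ∈ Cfsg.golayCode, ∀ x : ZMod 23, u x = w (some x)} ∧ hammingNorm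 u = 12}.ncard = 1288 ∧ {u : ZMod 23 → ZMod 2 | u ∈ {u : ZMod 23 → ZMod 2 | ∃ w ∈ Cfsg.golayCode, ∀ x : ZMod 23, u x = w (some x)} ∧ hammingNorm u = 15}.ncard = 506 ∧ {u : ZMod 23 → ZMod 2 | u ∈ {u : ZMod 23 → ZMod 2 | ∃ w ∈ Cfsg.golayCode, ∀ x : ZMod 23, u x = w (some x)} ∧ hammingNorm u = 16}.ncard = 253 ∧ ∀ u ∈ {u : ZMod 23 → ZMod 2 | ∃ w ∈ Cfsg.golayCode, ∀ x : ZMod 23, u x = w (some x)}, u ≠ 0 → 7 ≤ hammingNorm u := by
  refine ⟨Eq.trans ?_ ((ncard_punc (fun _ => True) (fun _ => true) (by simp)).trans (by decide +kernel)), ?_, ?_, ?_, ?_, ?_,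
    ?_, fun u hu h0 => ?_⟩
  · simp only [and_true, Set.ofPred_mem_eq]
  iterate 6 exact (ncard_punc (· = _) (Nat.beq · _) fun _ => Nat.beq_eq.symm.to_iff).trans (by decide +kernel)
  obtain ⟨s, hs, rfl⟩ := mem_punc.1 hu
  by_contra n
  have e : punc ∅ = 0 := by ext; simp [punc, word]
  exact h0 (eq_of_dist hs empty_mem_CW (by rw [e, hammingDist_zero_right]; omega) ▸ e)

end Cfsg.Agent.S1636
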