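import Cfsg.Statements.S1637
import Cfsg.Agent.S1636
import Cfsg.Agent.Lib.Golay.Steiner24

set_option autoImplicit false
open Cfsg

namespace Cfsg.Agent.S1637

open Cfsg.Lib.Golay Finset S1636

/-- The punctured length-23 code is a perfect 3-error-correcting code: each word of length 23 is within distance 3 of exactly one codeword. -/
theorem result (u : ZMod 23 → ZMod 2) : ∃! c : ZMod 23 → ZMod 2, c ∈ {u : ZMod 23 → ZMod 2 | ∃ w ∈ Cfsg.golayCode, ∀ x : ZMod 23, u x = w (some x)} ∧ hammingDist u c ≤ 3 := by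
  obtain ⟨w, rfl, hw⟩ : ∃ w : Finset GolayPt, punc w = u ∧ Odd w.card := by
    let w := support₂ fun p : GolayPt => p.elim 0 u
    have n : none ∉ w := by simp [w, mem_support₂]
    have e : punc w = u := funext fun x => by rw [punc, word_support₂]; rfl
    by_cases h : Odd w.card
    · exact ⟨w, e, h⟩
    · exact ⟨insert none w, e ▸ funext fun x => by simp [punc, word], by
        rw [card_insert_of_notMem n, Nat.odd_add_one]; exact h⟩
  obtain ⟨v, h1, h2⟩ : ∃ v, symmDiff v w ∈ CW ∧ v.card ≤ 3 := by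
    rcases isGolaySys_CW.coset w with ⟨v, h1, h2⟩ | ⟨h1, h2⟩
    · exact ⟨v, (h1.ge rfl).1, h2⟩
    obtain ⟨v, a, b⟩ := Set.nonempty_of_ncard_ne_zero (h1.trans_ne (by decide))
    have := isGolaySys_CW.four_dvd a
    have := card_symmDiff_add v w
    have := h2 v a b
    rw [Nat.odd_iff] at hw
    omega
  have h3 : hammingDist (punc w) (punc (symmDiff v w)) ≤ 3 := by
    rw [hammingDist_eq_hammingNorm, ← punc_symmDiff, norm_punc, symmDiff_comm v, symmDiff_symmDiff_cancel_left]
    exact card_erase_le.trans h2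
  refine ⟨_, ⟨mem_punc.2 ⟨_, h1, rfl⟩, h3⟩, fun c ⟨a, b⟩ => ?_⟩
  obtain ⟨s, hs, rfl⟩ := mem_punc.1 a
  rw [eq_of_dist hs h1 ((hammingDist_triangle_left _ _ (punc w)).trans (by omega))]

end Cfsg.Agent.S1637
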