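import Cfsg.Statements.S1638
import Cfsg.Agent.Lib.Mathieu.Orb2

set_option autoImplicit false
open scoped Pointwise
open Cfsg

namespace Cfsg.Agent.S1638

/-- Fix two points p ≠ q and a pair s of two further points. Among the pairs avoiding p, q and disjoint from s, exactly 30 lie in an octad together with p, q and s and exactly 160 do not; and any two pairs other than s that meet s in equally many points and agree on that octad property are carried to one another by an element of the group of the length-24 code fixing p, q and s. -/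
theorem result (p q : Cfsg.GolayPt) (hpq : p ≠ q) (s : Finset Cfsg.GolayPt) (hs : (s.card = 2 ∧ p ∉ s ∧ q ∉ s)) : {t : Finset Cfsg.GolayPt | (t.card = 2 ∧ p ∉ t ∧ q ∉ t) ∧ Disjoint s t ∧ (∃ o ∈ Cfsg.octads, p ∈ o ∧ q ∈ o ∧ s ∪ t ⊆ o)}.ncard = 30 ∧ {t : Finset Cfsg.GolayPt | (t.card = 2 ∧ p ∉ t ∧ q ∉ t) ∧ Disjoint s t ∧ ¬ (∃ o ∈ Cfsg.octads, p ∈ o ∧ q ∈ o ∧ s ∪ t ⊆ o)}.ncard = 160 ∧ ∀ t t' : Finset Cfsg.GolayPt, (t.card = 2 ∧ p ∉ t ∧ q ∉ t) → (t'.card = 2 ∧ p ∉ t' ∧ q ∉ t') → t ≠ s → t' ≠ s → (s ∩ t).card = (s ∩ t').card → ((∃ o ∈ Cfsg.octads, p ∈ o ∧ q ∈ o ∧ s ∪ t ⊆ o) ↔ (∃ o ∈ Cfsg.octads, p ∈ o ∧ q ∈ o ∧ s ∪ t' ⊆ o)) → ∃ g : Equiv.Perm Cfsg.GolayPt, g ∈ Cfsg.M24 ∧ g p = p ∧ g q = q ∧ g • s = s ∧ g • t = t' := by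
  have h := Lib.Mathieu.cls_m22_duad hpq hs
  have key : ∀ U : Finset GolayPt, (s ∩ U).card < 3 := fun U =>
    Nat.lt_succ_of_le (hs.1 ▸ Finset.card_le_card Finset.inter_subset_left)
  have e : ∀ t, (∃ o ∈ Cfsg.octads, p ∈ o ∧ q ∈ o ∧ s ∪ t ⊆ o) ↔
      Lib.Mathieu.inOct (insert p (insert q (s ∪ t))) = 1 := fun t => by
    simp only [Lib.Mathieu.inOct_eq_one, Finset.insert_subset_iff]
  refine ⟨Eq.trans ?_ (h.ncard (v := 4) (by simp)), Eq.trans ?_ (h.ncard (v := 0) (by simp)),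
    fun U U' h1 h2 _ _ h4 h5 => ?_⟩
  · congr 1
    ext U
    have := key U
    have := Lib.Mathieu.inOct_le (insert p (insert q (s ∪ U)))
    simp only [Set.mem_ofPred_eq, Finset.disjoint_iff_inter_eq_empty, ← Finset.card_eq_zero, e]
    exact and_congr_right fun _ => by omega
  · congr 1
    ext U
    have := Lib.Mathieu.inOct_le (insert p (insert q (s ∪ U)))
    simp only [Set.mem_ofPred_eq, Finset.disjoint_iff_inter_eq_empty, ← Finset.card_eq_zero, e]
    exact and_congr_right fun _ => by omega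
  · obtain ⟨g, a, b⟩ := h.exists_smul (y := U) (y' := U') h1 h2 (by
      have := Lib.Mathieu.inOct_le (insert p (insert q (s ∪ U)))
      have := Lib.Mathieu.inOct_le (insert p (insert q (s ∪ U')))
      simp only [e] at h5
      omega)
    exact ⟨g, g.2, a.1.1, a.1.2, a.2, b⟩

end Cfsg.Agent.S1638
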