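import Cfsg.Statements.S1639
import Cfsg.Agent.Lib.Mathieu.Orb2

set_option autoImplicit false
open scoped Pointwise
open Cfsg

namespace Cfsg.Agent.S1639

/-- The point stabiliser acts on the 1288 dodecads through the point with rank 4 and subdegrees 1, 165, 330, 792, distinguished by intersection 4, 8, 6 with the fixed dodecad. -/
theorem result (x : Cfsg.GolayPt) (d : Finset Cfsg.GolayPt) (hd : d ∈ Cfsg.dodecads) (hx : x ∈ d) : {d' : Finset Cfsg.GolayPt | d' ∈ Cfsg.dodecads ∧ x ∈ d' ∧ (d ∩ d').card = 4}.ncard = 165 ∧ {d' : Finset Cfsg.GolayPt | d' ∈ Cfsg.dodecads ∧ x ∈ d' ∧ (d ∩ d').card = 8}.ncard = 330 ∧ {d' : Finset Cfsg.GolayPt | d' ∈ Cfsg.dodecads ∧ x ∈ d' ∧ (d ∩ d').card = 6}.ncard = 792 ∧ ∀ d' d'' : Finset Cfsg.GolayPt, d' ∈ Cfsg.dodecads → d'' ∈ Cfsg.dodecads → x ∈ d' → x ∈ d'' → (d ∩ d').card = (d ∩ d'').card → ∃ g : Equiv.Perm Cfsg.GolayPt, g ∈ Cfsg.M24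 ∧ g x = x ∧ g • d = d ∧ g • d' = d'' := by
  have k := Lib.Mathieu.cls_m23_dodecad hd hx
  refine ⟨Eq.trans ?_ (k.ncard (v := 4) (by simp)), Eq.trans ?_ (k.ncard (v := 8) (by simp)),
    Eq.trans ?_ (k.ncard (v := 6) (by simp)), fun o' o'' h1 h2 h3 h4 h => ?_⟩
  · simp only [Set.mem_ofPred_eq, and_assoc]
  · simp only [Set.mem_ofPred_eq, and_assoc]
  · simp only [Set.mem_ofPred_eq, and_assoc]
  · obtain ⟨g, a, b⟩ := k.exists_smul (y := o') (y' := o'') ⟨h1, h3⟩ ⟨h2, h4⟩ h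
    exact ⟨g, g.2, a.2, a.1, b⟩

end Cfsg.Agent.S1639
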