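import Cfsg.Statements.S1641
import Cfsg.Agent.Lib.Leech.Config

set_option autoImplicit false
open Cfsg

namespace Cfsg.Agent.S1641

open Cfsg.Lib.Leech Cfsg.Lib.F2 Cfsg.Spor MulAction
open scoped Pointwise

/-- The third Conway group acts on the 11178 cosets of the Higman–Sims group with rank 5 and subdegrees 1, 352, 1100, 4125, 5600. -/
theorem result (u x : ↥Cfsg.leechLattice) (hu : Cfsg.sqNorm (u : Cfsg.GolayPt → ℤ) = 48) (hx : x ∈ {x : ↥Cfsg.leechLattice | Cfsg.sqNorm (x : Cfsg.GolayPt → ℤ) = 32 ∧ Cfsg.dotInt (u : Cfsg.GolayPt → ℤ) (x : Cfsg.GolayPt → ℤ) = -16}) : ∃ y₁ ∈ {x : ↥Cfsg.leechLattice | Cfsg.sqNorm (x : Cfsg.GolayPt → ℤ) = 32 ∧ Cfsg.dotInt (u : Cfsg.GolayPt → ℤ) (x : Cfsg.GolayPt → ℤ) = -16}, ∃ y₂ ∈ {x : ↥Cfsg.leechLattice | Cfsg.sqNorm (x : Cfsg.GolayPt → ℤ) = 32 ∧ Cfsg.dotInt (u :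 Cfsg.GolayPt → ℤ) (x : Cfsg.GolayPt → ℤ) = -16}, ∃ y₃ ∈ {x : ↥Cfsg.leechLattice | Cfsg.sqNorm (x : Cfsg.GolayPt → ℤ) = 32 ∧ Cfsg.dotInt (u : Cfsg.GolayPt → ℤ) (x : Cfsg.GolayPt → ℤ) = -16}, ∃ y₄ ∈ {x : ↥Cfsg.leechLattice | Cfsg.sqNorm (x : Cfsg.GolayPt → ℤ) = 32 ∧ Cfsg.dotInt (u : Cfsg.GolayPt → ℤ) (x : Cfsg.GolayPt → ℤ) = -16}, (MulAction.orbit ↥(MulAction.stabilizer ↥Cfsg.Co0 u ⊓ MulAction.stabilizer ↥Cfsg.Co0 x) y₁).ncard = 352 ∧ (MulAction.orbit ↥(MulAction.stabilizer ↥Cfsg.Co0 u ⊓ MulAction.stabilizer ↥Cfsg.Co0 x) y₂).ncard = 1100 ∧ (MulAction.orbit ↥(MulAction.stabilizer ↥Cfsg.Co0 u ⊓ MulAction.stabilizer ↥Cfsg.Co0 x) y₃).ncard = 4125 ∧ (MulAction.orbit ↥(MulAction.stabilizer ↥Cfsg.Co0 u ⊓ MulAction.stabilizer ↥Cfsg.Co0 x) y₄).ncard = 5600 ∧ {x : ↥Cfsg.leechLattice | Cfsg.sqNorm (x : Cfsg.GolayPt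 → ℤ) = 32 ∧ Cfsg.dotInt (u : Cfsg.GolayPt → ℤ) (x : Cfsg.GolayPt → ℤ) = -16} = {x} ∪ MulAction.orbit ↥(MulAction.stabilizer ↥Cfsg.Co0 u ⊓ MulAction.stabilizer ↥Cfsg.Co0 x) y₁ ∪ MulAction.orbit ↥(MulAction.stabilizer ↥Cfsg.Co0 u ⊓ MulAction.stabilizer ↥Cfsg.Co0 x) y₂ ∪ MulAction.orbit ↥(MulAction.stabilizer ↥Cfsg.Co0 u ⊓ MulAction.stabilizer ↥Cfsg.Co0 x) y₃ ∪ MulAction.orbit ↥(MulAction.stabilizer ↥Cfsg.Co0 u ⊓ MulAction.stabilizer ↥Cfsg.Co0 x) y₄ := by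
  obtain ⟨g, rfl, rfl⟩ := exists_smul_V_U' hu hx
  change ∃ y₁ ∈ T1 _ _, ∃ y₂ ∈ T1 _ _, ∃ y₃ ∈ T1 _ _, ∃ y₄ ∈ T1 _ _, _ ∧ _ ∧ _ ∧ _ ∧ T1 _ _ = _
  rw [stabilizer_smul, stabilizer_smul, ← conj_smul_inf, ← smul_T1]
  have h := hs_b_orbits
  have r := hs_b_reps
  simp only [hs_b_L, List.forall_mem_cons, List.not_mem_nil, false_imp_iff, implies_true, and_true,
    List.mem_cons, or_false, exists_eq_or_imp, exists_eq_left, forall_eq_or_imp, forall_eq] at h r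
  obtain ⟨⟨h0, h1, h2, h3, h4⟩, h5⟩ := h
  refine ⟨g • vXH, Set.smul_mem_smul_set r.2.1.1, g • r6, Set.smul_mem_smul_set r.2.2.1.1, g • r7,
    Set.smul_mem_smul_set r.2.2.2.1.1, g • r8, Set.smul_mem_smul_set r.2.2.2.2.1, ?_⟩
  simp only [orbit_conj_smul, Set.ncard_smul_set]
  rw [← Set.smul_set_singleton, ← Set.smul_set_union, ← Set.smul_set_union, ← Set.smul_set_union,
    ← Set.smul_set_union, h1.1, h2.1, h3.1, h4.1]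
  refine ⟨h1.2, h2.2, h3.2, h4.2, congrArg _ (Set.Subset.antisymm (fun y hy => ?_) ?_)⟩
  · rcases h5 y hy with e | e | e | e | e
    · exact Or.inl (Or.inl (Or.inl (Or.inl (eq_of_dt_eq_32 nm_leechU' hy.1 e))))
    · exact Or.inl (Or.inl (Or.inl (Or.inr ⟨hy, e⟩)))
    · exact Or.inl (Or.inl (Or.inr ⟨hy, e⟩))
    · exact Or.inl (Or.inr ⟨hy, e⟩)
    · exact Or.inr ⟨hy, e⟩
  · rintro y ((((rfl | h) | h) | h) | h)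
    exacts [r.1.1, h.1, h.1, h.1, h.1]

end Cfsg.Agent.S1641
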