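import Cfsg.Statements.S1642
import Cfsg.Agent.Lib.Leech.Orders

set_option autoImplicit false
open Cfsg

namespace Cfsg.Agent.S1642

open Cfsg.Lib.Leech Finset

/-- The dodecad of squares. -/
def D : Finset GolayPt := support₂ (qrWord 0)

theorem D_mem : D ∈ GC := support_mem_GC (qrWord_mem_golay 0)

theorem D_card : D.card = 12 := by decide

def v0 : leechLattice := ⟨fun i => if i ∈ D then 2 else 0, two_ind_mem D_mem⟩

def t0 : GolayPt → ℤ := fun i => if i = some 0 ∨ i = some 1 then 1 else 0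

def w0 : leechLattice := -v0 + ⟨fun i => 4 * t0 i, four_mul_mem (by decide)⟩

theorem w0_apply (i : GolayPt) :
    (w0 : GolayPt → ℤ) i = -(if i ∈ D then 2 else 0) + 4 * t0 i := rfl

theorem v0_apply (i : GolayPt) : (v0 : GolayPt → ℤ) i = if i ∈ D then 2 else 0 := rfl

theorem nv0 : sqNorm (v0 : GolayPt → ℤ) = 48 := by
  unfold sqNorm; simp only [v0_apply]; decide

theorem nw0 : sqNorm (w0 : GolayPt → ℤ) = 48 := by
  unfold sqNorm; simp only [w0_apply]; decide

theorem dvw0 : dotInt (v0 : GolayPt → ℤ) (w0 : GolayPt → ℤ) = -32 := by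
  unfold dotInt; simp only [w0_apply, v0_apply]; decide

noncomputable def g0 : Co0 := mono 1 M24.one_mem Dᶜ (GC_compl D_mem)

theorem g0_smul (x : leechLattice) (i : GolayPt) :
    ((g0 • x : leechLattice) : GolayPt → ℤ) i =
      if i ∈ D then (x : GolayPt → ℤ) i else -(x : GolayPt → ℤ) i := by
  rw [g0, mono_smul]
  by_cases h : i ∈ D <;> simp [signedPerm, h] <;> rfl

theorem g0_v0 : g0 • v0 = v0 := Subtype.ext (funext fun i => by
  rw [g0_smul, v0_apply]; by_cases h : i ∈ D <;> simp [h])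

theorem g0_w0 : g0 • w0 = w0 := Subtype.ext (funext fun i => by
  rw [g0_smul, w0_apply]; revert i; decide)

theorem g0_sq : g0 * g0 = 1 := co0_ext fun x => Subtype.ext (funext fun i => by
  rw [mul_smul, g0_smul, g0_smul, one_smul]; by_cases h : i ∈ D <;> simp [h])

theorem g0_ne : g0 ≠ 1 := fun h => by
  have := g0_smul (e8 none) none
  rw [h, one_smul, coe_e8] at this
  have h2 : (none : GolayPt) ∉ D := by decide
  simp [h2] at this

theorem g0_free (x : leechLattice) (hx : dotInt (v0 : GolayPt → ℤ) (x : GolayPt → ℤ) = 24) :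
    g0 • x ≠ x := fun h => by
  have hz : ∀ i, i ∉ D → (x : GolayPt → ℤ) i = 0 := fun i hi => by
    have := g0_smul x i
    rw [h, if_neg hi] at this
    omega
  obtain ⟨m, z, hm, hxz, -, hs⟩ := mem_leech_iff'.1 x.2
  have h0 := hz none (by decide)
  rw [hxz] at h0
  have hm0 : m = 0 := by omega
  subst hm0
  have : dotInt (v0 : GolayPt → ℤ) (x : GolayPt → ℤ) = 4 * ∑ i, z i := by
    unfold dotInt
    rw [mul_sum]
    refine sum_congr rfl fun i _ => ?_
    rw [v0_apply]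
    by_cases hi : i ∈ D
    · rw [if_pos hi, hxz]; ring
    · have := hz i hi
      rw [hxz] at this
      rw [if_neg hi]; omega
  omega

/-- Some involution of the Higman–Sims group acts without fixed points on its 100 points. -/
theorem result (v w : ↥Cfsg.leechLattice) (hv : Cfsg.sqNorm (v : Cfsg.GolayPt → ℤ) = 48) (hw : Cfsg.sqNorm (w : Cfsg.GolayPt → ℤ) = 48) (hvw : Cfsg.dotInt (v : Cfsg.GolayPt → ℤ) (w : Cfsg.GolayPt → ℤ) = -32) : ∃ g : ↥Cfsg.Co0, g • v = v ∧ g • w = w ∧ orderOf g = 2 ∧ ∀ x ∈ {x : ↥Cfsg.leechLattice | Cfsg.sqNorm (x : Cfsg.GolayPt → ℤ) = 32 ∧ Cfsg.dotInt (v : Cfsg.GolayPt → ℤ) (x : Cfsg.GolayPt → ℤ) = 24 ∧ Cfsg.dotInt (w : Cfsg.GolayPt → ℤ) (x : Cfsg.GolayPt → ℤ) = -24}, g • x ≠ x := by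
  obtain ⟨a, rfl, rfl⟩ := exists_smul_VW' hv hw hvw
  obtain ⟨b, hb1, hb2⟩ := exists_smul_VW' nv0 nw0 dvw0
  have e1 : Spor.leechV = b⁻¹ • v0 := by rw [← hb1, inv_smul_smul]
  have e2 : vW' = b⁻¹ • w0 := by rw [← hb2, inv_smul_smul]
  refine ⟨(a * b⁻¹) * g0 * (a * b⁻¹)⁻¹, ?_, ?_, ?_, ?_⟩
  · rw [e1, ← mul_smul a, mul_smul, mul_smul, inv_smul_smul, g0_v0]
  · rw [e2, ← mul_smul a, mul_smul, mul_smul, inv_smul_smul, g0_w0]
  · haveI : Fact (Nat.Prime 2) := ⟨Nat.prime_two⟩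
    rw [← MulAut.conj_apply, MulEquiv.orderOf_eq]
    exact orderOf_eq_prime (by rw [pow_two, g0_sq]) g0_ne
  · rintro x ⟨-, hx, -⟩ h
    refine g0_free ((a * b⁻¹)⁻¹ • x) ?_ ?_
    · rw [← dot_smul (a * b⁻¹), smul_inv_smul, mul_smul, ← e1, hx]
    · rw [mul_smul, mul_smul] at h
      rw [← smul_left_cancel_iff (a * b⁻¹), smul_inv_smul]
      exact h

end Cfsg.Agent.S1642
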