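import Cfsg.Statements.S1666
import Cfsg.Agent.Lib.Srg.HS2
import Cfsg.Agent.Lib.Mathieu.Classes

set_option autoImplicit false
open Cfsg

namespace Cfsg.Agent.S1666

open Cfsg.Lib.Srg Cfsg.Lib.Leech MulAction

/-- Recognition of the Higman–Sims group as a rank 3 permutation group: a transitive permutation group on 100 points in which the stabiliser of a point is isomorphic to the Mathieu group M₂₂ and has two further orbits, of sizes 22 and 77, is isomorphic to the Higman–Sims group. -/
theorem result {Ω : Type*} [Fintype Ω] [DecidableEq Ω] (hΩ : Fintype.card Ω = 100) (G : Subgroup (Equiv.Perm Ω)) [MulAction.IsPretransitive G Ω] (a : Ω)  (e : MulAction.stabilizer G a ≃* Cfsg.Spor.M22) (b c : Ω) (hb : (MulAction.orbit (MulAction.stabilizer G a) b).ncard = 22) (hc : (MulAction.orbit (MulAction.stabilizer G a) c).ncard = 77) : Cfsg.Spor.IsoHS G := by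
  have hn := Nat.card_eq_fintype_card.trans hΩ
  obtain ⟨Γ, l, m, a1, a2, -⟩ := exists_srg hn hb hc (by norm_num) (by norm_num) (by norm_num) (by norm_num)
  obtain ⟨rfl, rfl⟩ := a1.params100
  obtain ⟨φ, hφ⟩ := a1.exists_hs
  have h1 : Function.Injective (toAut a2) := fun g h e =>
    Subtype.ext (Equiv.ext fun x => congrArg (fun f : Γ ≃g Γ => f x) e)
  have h2 : Nat.card (toAut a2).range = 44352000 := by
    rw [← Nat.card_congr (MonoidHom.ofInjective h1).toEquiv, ← (stabilizer G a).index_mul_card,
      index_stabilizer_of_transitive, hn, Nat.card_congr e.toEquiv, Lib.Mathieu.card_M22]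
  have h3 : Nat.card φ.range = 44352000 := (Nat.card_congr (MonoidHom.ofInjective hφ).toEquiv).symm.trans card_hs
  haveI := simple_hs
  haveI := (MonoidHom.ofInjective hφ).symm.isSimpleGroup
  haveI : Finite (Γ ≃g Γ) := Nat.finite_of_card_ne_zero (by rw [a1.card_aut100]; norm_num)
  have h4 := eq_of_index_two (by rw [a1.card_aut100, h2]) (h2.trans h3.symm) (by rw [h3]; norm_num)
  exact ⟨(((MonoidHom.ofInjective h1).trans (MulEquiv.subgroupCongr h4.symm)).trans
    (MonoidHom.ofInjective hφ).symm).trans hsEquiv⟩

end Cfsg.Agent.S1666
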