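import Cfsg.Statements.S1667
import Cfsg.Agent.Lib.McR3.Data

set_option autoImplicit false
open Cfsg

namespace Cfsg.Agent.S1667

/-- Recognition of the McLaughlin group as a rank 3 permutation group: a transitive permutation group on 275 points in which the stabiliser of a point is isomorphic to the unitary group U₄(3) and has two further orbits, of sizes 112 and 162, is isomorphic to the McLaughlin group. -/
theorem result {Ω : Type*} [Fintype Ω] [DecidableEq Ω] (hΩ : Fintype.card Ω = 275) (G : Subgroup (Equiv.Perm Ω)) [MulAction.IsPretransitive G Ω] (a : Ω) (K : Type) [Field K] [Fintype K] (hK : Fintype.card K = 9) (e : MulAction.stabilizer G a ≃* Cfsg.PSU 4 K 3) (b c : Ω) (hb : (MulAction.orbit (MulAction.stabilizer G a) b).ncard = 112) (hc : (MulAction.orbit (MulAction.stabilizer G a) c).ncard = 162) : Cfsg.Spor.IsoMcL G := by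
  open MulAction Cfsg.Lib.McR3 Cfsg.Lib.Leech in
  letI := act
  obtain ⟨e'⟩ := iso_psu hK
  let ι : HH →* G := (stabilizer G a).subtype.comp
    ((e'.trans e.symm : HH ≃* stabilizer G a) : HH →* stabilizer G a)
  letI : MulAction HH Ω := MulAction.compHom Ω ι
  have sur : ∀ g : stabilizer G a, ∃ h : HH, ι h = g := fun g =>
    ⟨(e'.trans e.symm).symm g, by simp [ι]⟩
  have ob : ∀ x : Ω, orbit HH x = orbit (stabilizer G a) x := fun x => Set.ext fun y =>
    ⟨fun ⟨h, k⟩ => ⟨_, k⟩, fun ⟨g, k⟩ => (sur g).imp fun h hh => by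
      change ι h • x = y
      rw [hh]; exact k⟩
  have R : Q3 G HH a b c := ⟨inferInstance, by rw [Nat.card_eq_fintype_card, hΩ], exists_smul_eq G a,
    fun g hg => (sur ⟨g, hg⟩).imp fun h hh x => congrArg (· • x) hh, fun h => ⟨ι h, fun _ => rfl⟩,
    fun h => ((e'.trans e.symm) h).2, ob b ▸ hb, ob c ▸ hc⟩
  obtain ⟨θ, hθ⟩ := concl R
  let ψ : G →* Equiv.Perm (Fin 275) := (θ.symm.permCongrHom : Equiv.Perm Ω →* _).comp G.subtype
  have iψ : Function.Injective ψ := θ.symm.permCongrHom.injective.comp Subtype.val_injective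
  let A : Subgroup (Equiv.Perm (Fin 275)) :=
    { carrier := {σ | ∀ x y, AA (σ x) (σ y) ↔ AA x y}
      mul_mem' := fun h k x y => (h _ _).trans (k x y)
      one_mem' := fun _ _ => Iff.rfl
      inv_mem' := fun h x y => by rw [← h]; simp }
  have hA : Nat.card A ≤ 2 * 898128000 := card_aut_le fun _ h => h
  have h1 : ψ.range ≤ A := fun _ ⟨g, hg⟩ => hg ▸ hθ g
  have h2 : rho.range ≤ A := fun _ ⟨g, hg⟩ => hg ▸ fun _ _ => Cfsg.Lib.SuzR.adj_smul g
  have c1 : Nat.card G = 898128000 := by
    rw [← Cfsg.Lib.SuzR.card_stab a, orbit_eq_univ, Set.ncard_univ, R.card, Nat.card_congr (e.trans e'.symm).toEquiv,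
      card_hh]
  have c2 : Nat.card ψ.range = 898128000 := (Nat.card_congr (MonoidHom.ofInjective iψ).toEquiv).symm.trans c1
  have c3 : Nat.card rho.range = 898128000 :=
    (Nat.card_congr (MonoidHom.ofInjective rho_injective).toEquiv).symm.trans card_mcl
  have i1 : ψ.range.relIndex A ≤ 2 := by
    have := (ψ.range.subgroupOf A).card_mul_index
    rw [Nat.card_congr (Subgroup.subgroupOfEquivOfLe h1).toEquiv, c2] at this
    change (ψ.range.subgroupOf A).index ≤ 2
    omega
  have i2 : (ψ.range.comap rho).index ≤ 2 := by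
    rw [Subgroup.index_comap]
    exact (Subgroup.relIndex_le_of_le_right h2 Subgroup.index_ne_zero_of_finite).trans i1
  have := simple_mcl
  have := model.finite
  have t : ψ.range.comap rho = ⊤ := by
    have p := Nat.pos_of_ne_zero (Subgroup.index_ne_zero_of_finite (H := ψ.range.comap rho))
    refine Subgroup.index_eq_one.1 (by_contra fun n => ?_)
    have k : (ψ.range.comap rho).index = 2 := by omega
    rcases (Subgroup.normal_of_index_eq_two k).eq_bot_or_eq_top with q | q
    · rw [q, Subgroup.index_bot, card_mcl] at k; omega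
    · rw [q, Subgroup.index_top] at k; omega
  have q : rho.range = ψ.range := Subgroup.eq_of_le_of_card_ge (fun _ ⟨g, hg⟩ => hg ▸ t.ge (Subgroup.mem_top g))
    (c2.trans c3.symm).le
  exact ⟨(MonoidHom.ofInjective iψ).trans ((MulEquiv.subgroupCongr q.symm).trans
    ((MonoidHom.ofInjective rho_injective).symm.trans mclEquiv))⟩


end Cfsg.Agent.S1667
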