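import Cfsg.Statements.S1668
import Cfsg.Agent.Lib.SuzR.Data

set_option autoImplicit false
open Cfsg

namespace Cfsg.Agent.S1668



/-- Recognition of the sporadic Suzuki group as a rank 3 permutation group: a transitive permutation group on 1782 points in which the stabiliser of a point is isomorphic to the Chevalley group G₂(4) and has two further orbits, of sizes 416 and 1365, is isomorphic to the sporadic Suzuki group. -/
theorem result {Ω : Type*} [Fintype Ω] [DecidableEq Ω] (hΩ : Fintype.card Ω = 1782) (G : Subgroup (Equiv.Perm Ω)) [MulAction.IsPretransitive G Ω] (a : Ω) (K : Type) [Field K] [Fintype K] (hK : Fintype.card K = 4) (e : MulAction.stabilizer G a ≃* Cfsg.Lie.chevG2.group K) (b c : Ω) (hb : (MulAction.orbit (MulAction.stabilizer G a) b).ncard = 416) (hc : (MulAction.orbit (MulAction.stabilizer G a) c).ncard = 1365) : Cfsg.Spor.IsoSuz G := by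
  open MulAction Cfsg.Lib.SuzR Cfsg.Lib.Calc in
  letI := Suz.act
  obtain ⟨e'⟩ := Suz.iso_g2 hK
  let ι : HH →* G := (stabilizer G a).subtype.comp
    (((MulEquiv.subgroupCongr hh).trans (e'.trans e.symm) : HH ≃* stabilizer G a) : HH →* stabilizer G a)
  letI : MulAction HH Ω := MulAction.compHom Ω ι
  have sur : ∀ g : stabilizer G a, ∃ h : HH, ι h = g := fun g =>
    ⟨((MulEquiv.subgroupCongr hh).trans (e'.trans e.symm)).symm g, by simp [ι]⟩
  have ob : ∀ x : Ω, orbit HH x = orbit (stabilizer G a) x := fun x => Set.ext fun y =>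
    ⟨fun ⟨h, k⟩ => ⟨_, k⟩, fun ⟨g, k⟩ => (sur g).imp fun h hh => by
      change ι h • x = y
      rw [hh]; exact k⟩
  have R : R3 G HH a b c := ⟨inferInstance, by rw [Nat.card_eq_fintype_card, hΩ], exists_smul_eq G a,
    fun g hg => (sur ⟨g, hg⟩).imp fun h hh x => congrArg (· • x) hh, fun h => ⟨ι h, fun _ => rfl⟩,
    fun h => (((MulEquiv.subgroupCongr hh).trans (e'.trans e.symm)) h).2, ob b ▸ hb, ob c ▸ hc⟩
  obtain ⟨θ, hθ⟩ := mdl.exists_iso R
  let ψ : G →* Equiv.Perm (Fin 1782) := (θ.symm.permCongrHom : Equiv.Perm Ω →* _).comp G.subtype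
  have iψ : Function.Injective ψ := θ.symm.permCongrHom.injective.comp Subtype.val_injective
  let A : Subgroup (Equiv.Perm (Fin 1782)) :=
    { carrier := {σ | ∀ x y, AA (σ x) (σ y) ↔ AA x y}
      mul_mem' := fun h k x y => (h _ _).trans (k x y)
      one_mem' := fun _ _ => Iff.rfl
      inv_mem' := fun h x y => by rw [← h]; simp }
  have hA : Nat.card A ≤ 2 * 448345497600 := card_aut_le fun _ h => h
  have h1 : ψ.range ≤ A := fun _ ⟨g, hg⟩ => hg ▸ hθ g
  have h2 : Suz.rho.range ≤ A := fun _ ⟨g, hg⟩ => hg ▸ fun _ _ => adj_smul g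
  have c1 : Nat.card G = 448345497600 := by
    rw [← card_stab a, orbit_eq_univ, Set.ncard_univ, R.card, Nat.card_congr (e.trans e'.symm).toEquiv,
      Suz.card_stab]
  have c2 : Nat.card ψ.range = 448345497600 := (Nat.card_congr (MonoidHom.ofInjective iψ).toEquiv).symm.trans c1
  have c3 : Nat.card Suz.rho.range = 448345497600 :=
    (Nat.card_congr (MonoidHom.ofInjective Suz.rho_injective).toEquiv).symm.trans Suz.card
  have i1 : ψ.range.relIndex A ≤ 2 := by
    have := (ψ.range.subgroupOf A).card_mul_index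
    rw [Nat.card_congr (Subgroup.subgroupOfEquivOfLe h1).toEquiv, c2] at this
    change (ψ.range.subgroupOf A).index ≤ 2
    omega
  have i2 : (ψ.range.comap Suz.rho).index ≤ 2 := by
    rw [Subgroup.index_comap]
    exact (Subgroup.relIndex_le_of_le_right h2 Subgroup.index_ne_zero_of_finite).trans i1
  have := Suz.simple
  have := Suz.model.finite
  have t : ψ.range.comap Suz.rho = ⊤ := by
    have p := Nat.pos_of_ne_zero (Subgroup.index_ne_zero_of_finite (H := ψ.range.comap Suz.rho))
    refine Subgroup.index_eq_one.1 (by_contra fun n => ?_)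
    have k : (ψ.range.comap Suz.rho).index = 2 := by omega
    rcases (Subgroup.normal_of_index_eq_two k).eq_bot_or_eq_top with q | q
    · rw [q, Subgroup.index_bot, Suz.card] at k; omega
    · rw [q, Subgroup.index_top] at k; omega
  have q : Suz.rho.range = ψ.range := Subgroup.eq_of_le_of_card_ge (fun _ ⟨g, hg⟩ => hg ▸ t.ge (Subgroup.mem_top g))
    (c2.trans c3.symm).le
  exact ⟨(MonoidHom.ofInjective iψ).trans ((MulEquiv.subgroupCongr q.symm).trans
    (MonoidHom.ofInjective Suz.rho_injective).symm)⟩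

end Cfsg.Agent.S1668
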