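import Cfsg.Statements.S1671
import Cfsg.Agent.Lib.Th.Uniq

set_option autoImplicit false
open Cfsg

namespace Cfsg.Agent.S1671

/-- Uniqueness of the Thompson sporadic group at the level of isomorphism: a finite simple group having an involution t whose centraliser C has a normal subgroup Q, extraspecial of order 2 ^ 9 with an elementary abelian subgroup of order 2 ^ 5, whose centraliser in C lies in Q, and with C / Q isomorphic to the alternating group of degree 9, is isomorphic to the presented Thompson group. -/
theorem result {G : Type*} [Group G] [Finite G] [IsSimpleGroup G] (t : G) (ht : orderOf t = 2) (Q : Subgroup (Subgroup.centralizer ({t} : Set G))) [Q.Normal] (hQ : Cfsg.IsExtraspecial 2 Q) (hcard : Nat.card Q = 2 ^ 9) (hplus : ∃ E : Subgroup Q, Cfsg.IsElementaryAbelian 2 E ∧ Nat.card E = 2 ^ 5) (h2c : Subgroup.centralizer (Q : Set (Subgroup.centralizer ({t} : Set G))) ≤ Q) (e : (Subgroup.centralizer ({t} : Set G)) ⧸ Q ≃* alternatingGroup (Fin 9)) : Cfsg.Spor.IsoTh G := by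
  exact (Cfsg.Lib.ThU.main_simple ht Q hQ hcard h2c e).1

end Cfsg.Agent.S1671
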