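import Cfsg.Statements.S1679
import Cfsg.Agent.Lib.Calc.SuzG2
-- import your own Cfsg.Agent.* helpers here

set_option autoImplicit false
open Cfsg

namespace Cfsg.Agent.S1679

/-- In the presented sporadic Suzuki group (generators a, …, g), the subgroup generated by the images of a, …, f is isomorphic to the adjoint Chevalley group of type G₂ over a field with four elements. -/
theorem result : ∃ (K : Type) (_ : Field K) (_ : Fintype K), Fintype.card K = 4 ∧ Nonempty ((((Subgroup.closure ({Cfsg.Spor.Suz.a, Cfsg.Spor.Suz.b, Cfsg.Spor.Suz.c, Cfsg.Spor.Suz.d, Cfsg.Spor.Suz.e, Cfsg.Spor.Suz.f} : Set (FreeGroup Cfsg.Spor.Suz.Gen))).map (PresentedGroup.mk (Cfsg.Spor.coxRelators Cfsg.Spor.Suz.edges ∪ {r | r ∈ Cfsg.Spor.Suz.extra})))) ≃* Cfsg.Lie.chevG2.group K) := by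
  open Cfsg.Lib.Calc Cfsg.Lib.Calc.Suz in
  rw [map_closure_eq_genW _ _ L [.l 1, .l 2, .l 3, .l 4, .l 5, .l 6]
    (by ext; simp only [List.map, List.mem_cons, List.not_mem_nil, or_false]; rfl)]
  have := Fintype.ofFinite (GaloisField 2 2)
  have hF : Fintype.card (GaloisField 2 2) = 4 := Nat.card_eq_fintype_card.symm.trans (GaloisField.card 2 2 (by decide))
  exact ⟨_, _, _, hF, Cfsg.Lib.Calc.Suz.genW_abcdef ▸ Cfsg.Lib.Calc.Suz.iso_g2 hF⟩

end Cfsg.Agent.S1679
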