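import Cfsg.Statements.S1684
import Cfsg.Agent.Lib.Calc.U6
import Cfsg.Agent.Lib.Unitary.SmallField
-- import your own Cfsg.Agent.* helpers here

set_option autoImplicit false
open Cfsg

namespace Cfsg.Agent.S1684

/-- In the presented Fischer group Fi₂₂, the subgroup generated by the images of a, c, d, e, f, g, h, i and (abcdeh)^5 is a non-split double cover of PSU(6, 2) (realised over a field with four elements). -/
theorem result : ∃ (K : Type) (_ : Field K) (_ : Fintype K), Fintype.card K = 4 ∧ Cfsg.IsNonsplitDoubleCover (((Subgroup.closure ({Cfsg.Spor.Fi22.a, Cfsg.Spor.Fi22.c, Cfsg.Spor.Fi22.d, Cfsg.Spor.Fi22.e, Cfsg.Spor.Fi22.f, Cfsg.Spor.Fi22.g, Cfsg.Spor.Fi22.h, Cfsg.Spor.Fi22.i, (Cfsg.Spor.Fi22.a * Cfsg.Spor.Fi22.b * Cfsg.Spor.Fi22.c * Cfsg.Spor.Fi22.d * Cfsg.Spor.Fi22.e * Cfsg.Spor.Fi22.h) ^ 5} : Set (FreeGroup Cfsg.Spor.Fi22.Gen))).map (PresentedGroup.mk (Cfsg.Spor.coxRelators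 Cfsg.Spor.Fi22.edges ∪ {r | r ∈ Cfsg.Spor.Fi22.extra})))) (Cfsg.PSU 6 K 2) := by
  open Cfsg.Lib.Calc Cfsg.Lib.Calc.Fi22 in
  rw [map_closure_eq_genW _ _ L hs
    (by ext; simp only [hs, List.map, List.mem_cons, List.not_mem_nil, or_false]; rfl)]
  obtain ⟨e, -⟩ := Cfsg.Lib.Calc.U6.exists_iso Cfsg.Lib.Unitary.card_K4
  exact ⟨_, _, _, Cfsg.Lib.Unitary.card_K4, Cfsg.Lib.Calc.isNonsplitDoubleCover_congr_right e Cfsg.Lib.Calc.U6.double_cover⟩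

end Cfsg.Agent.S1684
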