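import Cfsg.Statements.S1685
import Cfsg.Agent.Lib.Calc.Fi22
-- import your own Cfsg.Agent.* helpers here

set_option autoImplicit false
open Cfsg

namespace Cfsg.Agent.S1685

/-- In the presented Fischer group Fi₂₂ (generators a, …, i), the subgroup generated by the images of b, c, d, e, f, g, h, i has index 14080. -/
theorem result : (((Subgroup.closure ({Cfsg.Spor.Fi22.b, Cfsg.Spor.Fi22.c, Cfsg.Spor.Fi22.d, Cfsg.Spor.Fi22.e, Cfsg.Spor.Fi22.f, Cfsg.Spor.Fi22.g, Cfsg.Spor.Fi22.h, Cfsg.Spor.Fi22.i} : Set (FreeGroup Cfsg.Spor.Fi22.Gen))).map (PresentedGroup.mk (Cfsg.Spor.coxRelators Cfsg.Spor.Fi22.edges ∪ {r | r ∈ Cfsg.Spor.Fi22.extra})))).index = 14080 := by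
  open Cfsg.Lib.Calc Cfsg.Lib.Calc.Fi22 in
  rw [map_closure_eq_genW _ _ L [.l 2, .l 3, .l 4, .l 5, .l 6, .l 7, .l 8, .l 9]
    (by ext; simp only [List.map, List.mem_cons, List.not_mem_nil, or_false]; rfl)]
  exact Cfsg.Lib.Calc.Fi22.index_bi

end Cfsg.Agent.S1685
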