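import Cfsg.Statements.S1711
import Cfsg.Agent.Lib.J4.MLow

set_option autoImplicit false
open Cfsg

namespace Cfsg.Agent.S1711

open Cfsg.Lib.J4 Cfsg.Lib.Big

/-- In the presented fourth Janko group (generators x, y, t), the subgroup generated by the images of x and y is isomorphic to the Mathieu group M₂₄. -/
theorem result : Nonempty ((((Subgroup.closure ({Cfsg.Spor.J4.x, Cfsg.Spor.J4.y} : Set (FreeGroup Cfsg.Spor.J4.Gen))).map (PresentedGroup.mk (Cfsg.Spor.coxRelators Cfsg.Spor.J4.edges ∪ {r | r ∈ Cfsg.Spor.J4.extra})))) ≃* Cfsg.M24) := by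
  obtain ⟨φ, h⟩ := exists_hom24 fun t ht => rels_gΓ t (List.mem_of_mem_take ht)
  have := Lib.Mathieu.simple_M24
  obtain ⟨ι, hι⟩ := solΓ.1
  have hi : Function.Injective φ := (MonoidHom.ker_eq_bot_iff φ).1 (φ.normal_ker.eq_bot_or_eq_top.resolve_right fun e => by
    have h1 : ι (lets gsH 0) = 1 := (hι.map 0 (by decide)).trans ((h 0 (by decide)).symm.trans (e.ge (Subgroup.mem_top _)))
    exact canH.ne (lawH.mul (valH.get lawH 0) lawH.one) (lawH.mul lawH.one lawH.one) (by decide +kernel)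
      (by rw [hι.inj (h1.trans ι.map_one.symm)]))
  rw [range_eq (f := φ) top_gM]
  · exact ⟨(MonoidHom.ofInjective hi).symm⟩
  · intro c hc
    rw [h c hc]
    interval_cases c
    exacts [⟨_, Or.inl rfl, rfl⟩, ⟨_, Or.inr rfl, rfl⟩]
  · rintro _ (rfl | rfl)
    exacts [⟨0, h 0 (by decide)⟩, ⟨1, h 1 (by decide)⟩]

end Cfsg.Agent.S1711
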