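import Cfsg.Statements.S1712
import Cfsg.Agent.Lib.J4.MLow

set_option autoImplicit false
open Cfsg

namespace Cfsg.Agent.S1712

open Cfsg.Lib.J4 Cfsg.Lib.Big

/-- In the presented fourth Janko group (generators x, y, t), the subgroup generated by the images of x, y and (y * w⁻¹ * t * w) ^ 3 with w = (y * x) ^ 4 * y⁻¹ * x has index 173067389. -/
theorem result : (((Subgroup.closure ({Cfsg.Spor.J4.x, Cfsg.Spor.J4.y, (Cfsg.Spor.J4.y * ((Cfsg.Spor.J4.y * Cfsg.Spor.J4.x) ^ 4 * Cfsg.Spor.J4.y⁻¹ * Cfsg.Spor.J4.x)⁻¹ * Cfsg.Spor.J4.t * ((Cfsg.Spor.J4.y * Cfsg.Spor.J4.x) ^ 4 * Cfsg.Spor.J4.y⁻¹ * Cfsg.Spor.J4.x)) ^ 3} : Set (FreeGroup Cfsg.Spor.J4.Gen))).map (PresentedGroup.mk (Cfsg.Spor.coxRelators Cfsg.Spor.J4.edges ∪ {r | r ∈ Cfsg.Spor.J4.extra})))).index = 173067389 := by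
  obtain ⟨ι, h⟩ := solΓ.1
  rw [range_eq (f := ι) topH]
  · exact (h.exact solΓ.2).1
  · intro c hc
    rw [h.map c hc]
    interval_cases c
    exacts [⟨_, Or.inl rfl, rfl⟩, ⟨_, Or.inr (Or.inl rfl), rfl⟩, ⟨_, Or.inr (Or.inr rfl), (ev_gΓ wV).symm⟩]
  · rintro _ (rfl | rfl | rfl)
    exacts [⟨0, h.map 0 (by decide)⟩, ⟨1, h.map 1 (by decide)⟩, ⟨2, (h.map 2 (by decide)).trans (ev_gΓ wV)⟩]

end Cfsg.Agent.S1712
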