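import Cfsg.Statements.S1715
import Cfsg.Agent.Lib.F24.Fin
-- import your own Cfsg.Agent.* helpers here

set_option autoImplicit false
open Cfsg

namespace Cfsg.Agent.S1715
open Cfsg.Lib Cfsg.Lib.ThreeTr Subgroup

/-- The Fischer group Fi₂₄′ from an involution centraliser: let G be a finite group with an involution z whose centraliser C has generalised Fitting subgroup Q, extraspecial of order 2 ^ 13, and normal subgroups Q ≤ N ≤ M with N / Q of order 3, M / N isomorphic to PSU(4, 3) (over a field with nine elements) and M of index 2 in C; suppose some conjugate of z different from z lies in Q. Then G is isomorphic to the commutator subgroup of the presented Fischer group Fi₂₄. -/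
theorem result {G : Type*} [Group G] [Finite G] (z : G) (hz : orderOf z = 2) (Q N M : Subgroup (Subgroup.centralizer ({z} : Set G))) [Q.Normal] [N.Normal] [M.Normal] (hF : Cfsg.generalizedFittingSubgroup (Subgroup.centralizer ({z} : Set G)) = Q) (hQ : Cfsg.IsExtraspecial 2 Q) (hcard : Nat.card Q = 2 ^ 13) (hQN : Q ≤ N) (hNM : N ≤ M) (hN : Nat.card N = 3 * Nat.card Q) (K : Type) [Field K] [Fintype K] (hK : Fintype.card K = 9) (e : M ⧸ N.subgroupOf M ≃* Cfsg.PSU 4 K 3) (hM : M.index = 2) (hnwc : ∃ g : G, (∃ hq : g * z * g⁻¹ ∈ Subgroup.centralizer ({z} : Set G), (⟨g * z * g⁻¹, hq⟩ : Subgroup.centralizer ({z} : Set G)) ∈ Q) ∧ g * z * g⁻¹ ≠ z) : Cfsg.Spor.IsoFi24' G := by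
  obtain ⟨D, h⟩ := F24.exists_lf (Q := Q) ⟨⟨hz, hF, hQ, hcard, hnwc⟩, N, M, ‹_›, ‹_›, hQN, hNM, hN, ⟨K, _, _, hK, ⟨e⟩⟩, hM⟩
  obtain ⟨-, -, -, e, -⟩ := h.exists_equiv
  exact ⟨e.symm⟩

end Cfsg.Agent.S1715
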