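import Cfsg.Statements.S1753
import Cfsg.Agent.Lib.Core.Basic

set_option autoImplicit false
universe u
open Cfsg

namespace Cfsg.Agent.S1753

open Subgroup

/-- Let K be any property of groups. (1) If G is a minimal counterexample relative to K — a finite non-abelian simple group not satisfying K such that every finite non-abelian simple group of smaller order satisfies K — then every proper subgroup of G is a K-group (all its non-abelian simple sections satisfy K), since such sections have smaller order than G. (2) Consequently (induction on the order), if every finite non-abelian simple group all of whose proper subgroups are K-groups satisfies K, then every finite non-abelian simple group satisfies K. -/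
theorem result (K : ∀ (X : Type u) [Group X], Prop) :
    (∀ (G : Type u) [Group G], Cfsg.IsMinCounterexampleWith K G → Cfsg.IsKProperWith K G) ∧
      ((∀ (X : Type u) [Group X] [Finite X], IsSimpleGroup X → ¬ IsMulCommutative X → Cfsg.IsKProperWith K X → K X) →
        ∀ (G : Type u) [Group G] [Finite G], IsSimpleGroup G → ¬ IsMulCommutative G → K G) := by
  have h1 : ∀ (G : Type u) [Group G], Cfsg.IsMinCounterexampleWith K G → Cfsg.IsKProperWith K G := by
    rintro G _ ⟨_, -, -, -, h⟩ H hH L N _ hs ha
    refine h _ hs ha (lt_of_le_of_lt ?_ ((Cfsg.Lib.Core.card_lt_card_of_lt hH.lt_top).trans_eq card_top))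
    exact (Nat.card_le_card_of_surjective _ (QuotientGroup.mk'_surjective N)).trans (card_le_card_group L)
  refine ⟨h1, fun h G _ _ hs ha => ?_⟩
  induction hn : Nat.card G using Nat.strong_induction_on generalizing G with | _ n ih
  by_contra hK
  exact hK (h G hs ha (h1 G ⟨inferInstance, hs, ha, hK, fun X _ _ hs ha hl => ih _ (hn ▸ hl) X _ ‹_› hs ha rfl⟩))

end Cfsg.Agent.S1753
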