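import Cfsg.Statements.S1755
import Cfsg.Agent.Lib.Extraspecial.Coprime

set_option autoImplicit false
open Cfsg Cfsg.Lib Subgroup
open scoped commutatorElement

namespace Cfsg.Agent.S1755

/-- Let G be a finite group and let z be an involution of G such that Q, the generalized Fitting subgroup of the centralizer C of z, is a 2-group of symplectic type (every characteristic abelian subgroup of Q is cyclic). Let B be a characteristic abelian subgroup of Q, viewed as a subgroup of G. Then for every g in G, the conjugate of B by g either equals B or meets B trivially. -/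
theorem result {G : Type*} [Group G] [Finite G] (z : G) (hz : orderOf z = 2) (hQ : Cfsg.IsOfSymplecticType ↥(Cfsg.generalizedFittingSubgroup ↥(Subgroup.centralizer ({z} : Set G))))
    (B : Subgroup ↥(Cfsg.generalizedFittingSubgroup ↥(Subgroup.centralizer ({z} : Set G)))) (hBc : B.Characteristic) (hBa : IsMulCommutative ↥B) (g : G) :
    ((B.map (Cfsg.generalizedFittingSubgroup ↥(Subgroup.centralizer ({z} : Set G))).subtype).map (Subgroup.centralizer ({z} : Set G)).subtype).map (MulAut.conj g).toMonoidHom =
        (B.map (Cfsg.generalizedFittingSubgroup ↥(Subgroup.centralizer ({z} : Set G))).subtype).map (Subgroup.centralizer ({z} : Set G)).subtype ∨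
      ((B.map (Cfsg.generalizedFittingSubgroup ↥(Subgroup.centralizer ({z} : Set G))).subtype).map (Subgroup.centralizer ({z} : Set G)).subtype).map (MulAut.conj g).toMonoidHom ⊓
        (B.map (Cfsg.generalizedFittingSubgroup ↥(Subgroup.centralizer ({z} : Set G))).subtype).map (Subgroup.centralizer ({z} : Set G)).subtype = ⊥ := by
  let C := centralizer ({z} : Set G)
  let F := generalizedFittingSubgroup C
  have hF := Comp.genFitting_characteristic (G := C)
  have hzF := ES.mem_of_centralizer_le_inf (z := z) (F := F) Comp.centralizer_genFitting_le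
  obtain ⟨hzC, hzF⟩ := Core.mem_map_subtype_iff.1 hzF
  have hcyc := hQ.2 (B ⊔ center F) inferInstance (PGroup.isMulCommutative_sup hBa inferInstance
    (le_centralizer_iff.1 (center_le_centralizer _)))
  have key : ∀ x ∈ (B.map F.subtype).map C.subtype, orderOf x = 2 → x = z := by
    rintro _ ⟨_, ⟨x, hx, rfl⟩, rfl⟩ ho
    have hz' : (⟨⟨z, hzC⟩, hzF⟩ : F) ∈ center F := mem_center_iff.2 fun y =>
      Subtype.ext (Subtype.ext (mem_centralizer_singleton_iff.1 y.1.2))
    have h1 : ∀ y ∈ B ⊔ center F, y ^ 2 = 1 → y ∈ zpowers (⟨⟨z, hzC⟩, hzF⟩ : F) := by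
      have h2 : zpowers (⟨⟨z, hzC⟩, hzF⟩ : F) = omegaOne 2 (B ⊔ center F) := by
        have ho' : orderOf (⟨⟨z, hzC⟩, hzF⟩ : F) = 2 := by simpa using hz
        refine Core.eq_of_le_of_card_eq (zpowers_le.2 (PGroup.mem_omegaOne (mem_sup_right hz')
          (ho' ▸ pow_orderOf_eq_one _))) ?_
        rw [Nat.card_zpowers, ho', PGroup.card_omegaOne_of_isCyclic (hQ.1.to_subgroup _) hcyc]
        intro e
        exact ES.ne_one_of_orderOf_two ho' (mem_bot.1 (e ▸ mem_sup_right hz'))
      exact fun y hy hy2 => h2 ▸ PGroup.mem_omegaOne hy hy2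
    have ho' : orderOf x = 2 := by simpa using ho
    have h2 := h1 x (mem_sup_left hx) (ho' ▸ pow_orderOf_eq_one _)
    rcases (ES.mem_zpowers_iff_of_orderOf_two (by simpa using hz)).1 h2 with rfl | rfl
    · simp at ho'
    · rfl
  refine or_iff_not_imp_right.2 fun hne => Core.map_conj_eq_iff.2 ?_
  have hp : IsPGroup 2 ((B.map F.subtype).map C.subtype) := ((hQ.1.to_subgroup B).map _).map _
  obtain ⟨x, hx, -, ho⟩ := PGroup.exists_mem_centralizer_orderOf_eq (P := ⊥) hp.to_inf_right
    IsPGroup.of_bot bot_le hne
  have h1 := key x hx.2 ho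
  have h2 := key _ (Core.mem_map_conj.1 hx.1) (by
    simpa using (ES.orderOf_conj_eq g⁻¹ x).trans ho)
  refine Core.le_normalizer_map_subtype (B.map F.subtype) (mem_centralizer_singleton_iff.2 ?_)
  rw [h1] at h2
  calc g * z = g * (g⁻¹ * z * g) := by rw [h2]
    _ = z * g := by group

end Cfsg.Agent.S1755
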