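import Cfsg.Statements.S1774
import Cfsg.Agent.Lib.Extraspecial.Hall

set_option autoImplicit false
open Cfsg Cfsg.Lib Subgroup
open scoped commutatorElement

namespace Cfsg.Agent.S1774

/-- Let G be a finite group and let z be an involution of G such that Q, the generalized Fitting subgroup of the centralizer C of z, is a 2-group of symplectic type (every characteristic abelian subgroup of Q is cyclic); suppose every element of Q has order dividing 4. Let g ∈ G with z' = g z g⁻¹ ≠ z and z' ∈ Q. Then z lies in the conjugate g Q g⁻¹, and the subgroup X generated by Q and g Q g⁻¹ induces every automorphism of the four-group generated by z and z': for any two distinct non-identity elements u, v of that four-group there is x ∈ X with x z x⁻¹ = u and x z' x⁻¹ = v. -/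
theorem result {G : Type*} [Group G] [Finite G] (z : G) (hz : orderOf z = 2) (hQ : Cfsg.IsOfSymplecticType ↥(Cfsg.generalizedFittingSubgroup ↥(Subgroup.centralizer ({z} : Set G))))
    (h4 : ∀ q ∈ (Cfsg.generalizedFittingSubgroup ↥(Subgroup.centralizer ({z} : Set G))).map (Subgroup.centralizer ({z} : Set G)).subtype, q ^ 4 = 1) (g : G) (hne : g * z * g⁻¹ ≠ z) (hin : g * z * g⁻¹ ∈ (Cfsg.generalizedFittingSubgroup ↥(Subgroup.centralizer ({z} : Set G))).map (Subgroup.centralizer ({z} : Set G)).subtype) :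
    z ∈ ((Cfsg.generalizedFittingSubgroup ↥(Subgroup.centralizer ({z} : Set G))).map (Subgroup.centralizer ({z} : Set G)).subtype).map (MulAut.conj g).toMonoidHom ∧
      ∀ u ∈ Subgroup.closure ({z, g * z * g⁻¹} : Set G), ∀ v ∈ Subgroup.closure ({z, g * z * g⁻¹} : Set G),
        u ≠ 1 → v ≠ 1 → u ≠ v →
          ∃ x ∈ (Cfsg.generalizedFittingSubgroup ↥(Subgroup.centralizer ({z} : Set G))).map (Subgroup.centralizer ({z} : Set G)).subtype ⊔ ((Cfsg.generalizedFittingSubgroup ↥(Subgroup.centralizer ({z} : Set G))).map (Subgroup.centralizer ({z} : Set G)).subtype).map (MulAut.conj g).toMonoidHom, x * z * x⁻¹ = u ∧ x * (g * z * g⁻¹) * x⁻¹ = v := by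
  let C := centralizer ({z} : Set G)
  let F := generalizedFittingSubgroup C
  obtain ⟨hzC, hzF⟩ := Core.mem_map_subtype_iff.1
    (ES.mem_of_centralizer_le_inf (z := z) (F := F) Comp.centralizer_genFitting_le)
  have ho : orderOf (⟨⟨z, hzC⟩, hzF⟩ : F) = 2 := by simpa using hz
  have : Nontrivial F := ⟨⟨_, _, ES.ne_one_of_orderOf_two ho⟩⟩
  have h1 : zpowers (⟨⟨z, hzC⟩, hzF⟩ : F) = omegaOne 2 (center F) :=
    Core.eq_of_le_of_card_eq (zpowers_le.2 (PGroup.mem_omegaOne (mem_center_iff.2 fun y =>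
      Subtype.ext (Subtype.ext (mem_centralizer_singleton_iff.1 y.1.2)))
      (ho ▸ pow_orderOf_eq_one _))) (by rw [Nat.card_zpowers, ho, (ES.hall_aux hQ.1 hQ.2).1])
  have h2 : ∀ x : F, x ∈ omegaOne 2 (center F) → ((x : C) : G) ∈ zpowers z := fun x hx => by
    obtain ⟨k, rfl⟩ := h1 ▸ hx
    exact ⟨k, rfl⟩
  have h : ES.Lg (F.map C.subtype) z := ES.Sy.lg_of_genFitting rfl
    ⟨⟨_, hzF, rfl⟩, hz, map_subtype_le _, by
      rintro _ ⟨x, hx, rfl⟩
      exact h2 _ (ES.sq_mem_omegaOne_center hQ.1 hQ.2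
        (fun y => Subtype.ext (Subtype.ext (h4 _ ⟨_, y.2, rfl⟩))) ⟨x, hx⟩), by
      rintro _ ⟨x, hx, rfl⟩ h3 h5
      exact h2 ⟨x, hx⟩ (PGroup.mem_omegaOne (mem_center_iff.2 fun y =>
        Subtype.ext (Subtype.ext (h3 _ ⟨_, y.2, rfl⟩))) (Subtype.ext (Subtype.ext h5)))⟩
  exact ⟨h.mem_conj hin, fun u hu v hv => h.exists_conj_pair hin hne hu hv⟩

end Cfsg.Agent.S1774
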