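import Cfsg.Statements.S1775
import Cfsg.Agent.Lib.Comp.RelP
import Cfsg.Agent.Lib.PF.Main

set_option autoImplicit false
open Cfsg

namespace Cfsg.Agent.S1775

open Subgroup Cfsg.Lib Cfsg.Lib.BG Cfsg.Lib.Core Cfsg.Lib.Comp
open scoped commutatorElement

theorem aux {X : Type*} [Group X] [Finite X] (hB : HasBProperty (X ⧸ oddCore X)) {x : X} (hx : orderOf x = 2)
    {J : Subgroup X} (hJ : PCmp 2 J 𝐂[x]) :
    Cmp (J.map (QuotientGroup.mk' (oddCore X))) 𝐂[QuotientGroup.mk' (oddCore X) x] ∧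
      𝐂[QuotientGroup.mk' (oddCore X) x] = 𝐂[x].map (QuotientGroup.mk' (oddCore X)) := by
  have ho := odd_card_oddCore X
  have e : 𝐂[QuotientGroup.mk' (oddCore X) x] = 𝐂[x].map (QuotientGroup.mk' (oddCore X)) := by
    rw [← cent_zpowers, ← cent_zpowers, ← MonoidHom.map_zpowers]
    exact Coprime.centralizer_map_mk' (by rw [Nat.card_zpowers, hx]; exact Nat.coprime_two_left.2 ho)
      (.inr (PF.isSolvable_of_odd _ ho))
  have h2 : orderOf (QuotientGroup.mk' (oddCore X) x) = 2 :=
    orderOf_eq_prime (by rw [← map_pow, show x ^ 2 = 1 from hx ▸ pow_orderOf_eq_one x, map_one]) fun h =>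
      Nat.not_even_iff_odd.2 ho (even_iff_two_dvd.2 (hx ▸ orderOf_dvd_natCard _ ((QuotientGroup.eq_one_iff x).1 h)))
  have h3 : PCmp 2 (J.map (QuotientGroup.mk' (oddCore X))) 𝐂[QuotientGroup.mk' (oddCore X) x] :=
    ⟨e ▸ hJ.sn.map _, hJ.pqs.map' _ (by
      rw [QuotientGroup.ker_mk']
      exact PiGrp.of_le (PiNat.p'_iff_coprime.2 (pPrimeCore_coprime 2 X)) inf_le_right)⟩
  refine ⟨h3.cmp_of_cent (cent_mono (comm_eq_bot_iff.1 ?_) h3.le_pLayer le_rfl), e⟩
  have := hB _ h2
  rwa [show oddCore (X ⧸ oddCore X) = ⊥ from pPrimeCore_quotient_pPrimeCore 2 X, le_bot_iff, map_commutator,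
    ← pcore_p'_eq 2] at this

/-- Let G be a finite group whose generalized Fitting subgroup is a non-abelian simple group and in which every proper section (every quotient H/N of a proper subgroup H, or of G by a nontrivial normal subgroup) has the B-property. Let x, y be commuting involutions, let D be the intersection of the 2-layer of C_G(x) with C_G(y), and let J be a 2-component of D. Write Q for the quotient of C_G(y) by its largest normal odd-order subgroup. Then (i) the image of J in Q is a component of the centralizer in Q of the image of x; and (ii) for every J-invariant subgroup E of odd order of C_G(x) ∩ C_G(y), the commutator subgroup [J, E] lies in the largest normal odd-order subgroup of C_G(y). -/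
theorem result {G : Type*} [Group G] [Finite G]
    (hF : IsSimpleGroup ↥(Cfsg.generalizedFittingSubgroup G)) (hF' : ¬ IsMulCommutative ↥(Cfsg.generalizedFittingSubgroup G))
    (hsec : ∀ (H : Subgroup G) (N : Subgroup ↥H) [N.Normal], (H ≠ ⊤ ∨ N ≠ ⊥) → Cfsg.HasBProperty (↥H ⧸ N))
    (x y : G) (hx : orderOf x = 2) (hy : orderOf y = 2) (hxy : x * y = y * x)
    (J : Subgroup ↥((Cfsg.pLayer 2 ↥(Subgroup.centralizer ({x} : Set G))).map (Subgroup.centralizer ({x} : Set G)).subtype ⊓ Subgroup.centralizer ({y} : Set G)))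
    (hJ : Cfsg.IsPComponent 2 J) :
    Cfsg.IsComponent
        ((((J.map (Subgroup.subtype _)).subgroupOf (Subgroup.centralizer ({y} : Set G))).map (QuotientGroup.mk' (Cfsg.oddCore ↥(Subgroup.centralizer ({y} : Set G))))).subgroupOf
          (Subgroup.centralizer ({(QuotientGroup.mk' (Cfsg.oddCore ↥(Subgroup.centralizer ({y} : Set G))) ⟨x, Subgroup.mem_centralizer_singleton_iff.mpr hxy⟩ : ↥(Subgroup.centralizer ({y} : Set G)) ⧸ Cfsg.oddCore ↥(Subgroup.centralizer ({y} : Set G)))} : Set _))) ∧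
      ∀ E : Subgroup G, E ≤ Subgroup.centralizer ({x} : Set G) ⊓ Subgroup.centralizer ({y} : Set G) → Odd (Nat.card ↥E) →
        (∀ j ∈ J.map (Subgroup.subtype _), ∀ e ∈ E, j * e * j⁻¹ ∈ E) →
          ⁅J.map (Subgroup.subtype _), E⁆ ≤ (Cfsg.oddCore ↥(Subgroup.centralizer ({y} : Set G))).map (Subgroup.centralizer ({y} : Set G)).subtype := by
  have hy1 : 𝐂[y] ≠ ⊤ := fun e => by
    have hc : zpowers y ≤ center G := zpowers_le.2 (mem_center_iff.2 fun g => mem_cent1.1 (e.ge (mem_top g)))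
    have hn : (zpowers y).Normal := ⟨fun n h g => by rwa [mem_center_iff.1 (hc h) g, mul_inv_cancel_right]⟩
    have hl := (le_fittingSubgroup hn (abelian_nil inferInstance)).trans fitting_le_genFitting
    rcases (hn.subgroupOf (generalizedFittingSubgroup G)).eq_bot_or_eq_top with h | h
    · have := congrArg Subtype.val (mem_bot.1 (h.le (show (⟨y, hl (mem_zpowers y)⟩ : generalizedFittingSubgroup G) ∈ _ from
        mem_zpowers y)))
      simp_all
    · exact hF' (abelian_of_le inferInstance (subgroupOf_eq_top.1 h))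
  have hs : SubnormalIn (𝐋(2, 𝐂[x]) ⊓ 𝐂[y]) (𝐂[x] ⊓ 𝐂[y]) := sn_of_nml ⟨inf_le_inf_right _ (pLayer_le_self _),
    norm_inf (inf_le_left.trans (pLayer_nml _).norm) (le_norm_of_le inf_le_right)⟩
  have h0 := (pcmp_map_subtype.2 hJ).trans hs
  have e : (𝐂[x] ⊓ 𝐂[y]).subgroupOf 𝐂[y] = 𝐂[(⟨x, mem_cent1.2 hxy⟩ : 𝐂[y])] := by
    ext g; simp [mem_subgroupOf, mem_cent1, Subtype.ext_iff, mem_cent1.1 g.2]
  obtain ⟨h1, h2⟩ := aux (hsec _ _ (.inl hy1)) (by rwa [← orderOf_coe]) (e ▸ h0.subOf inf_le_right)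
  refine ⟨h1.isComp, fun E h3 h4 h5 => ?_⟩
  have h6 : E ≤ 𝐂[y] := h3.trans inf_le_right
  have h7 := h1.cent_of_sol (X := (E.subgroupOf 𝐂[y]).map (QuotientGroup.mk' _))
    (h2 ▸ map_mono (e ▸ comap_mono h3))
    (PF.isSolvable_of_odd _ (h4.of_dvd_nat ((card_map_dvd _ _).trans (subOf_card h6).dvd)))
    (map_norm _ (le_norm_iff.2 fun a b c d => h5 _ b _ d))
  rw [← comm_eq_bot_iff, ← map_commutator, map_mk'_eq_bot_iff] at h7
  have h8 := map_mono (f := 𝐂[y].subtype) h7
  rwa [map_commutator, map_subgroupOf_eq_of_le h6, map_subgroupOf_eq_of_le (h0.le.trans inf_le_right)] at h8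

end Cfsg.Agent.S1775
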