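import Cfsg.Statements.S1781
import Cfsg.Agent.Lib.TI.Basic

set_option autoImplicit false
open Cfsg

namespace Cfsg.Agent.S1781

open Cfsg.Lib Cfsg.Lib.TI Cfsg.Lib.Transfer Subgroup

/-- Let A be an abelian 2-subgroup of the finite group G such that every conjugate of A equals A or meets A trivially, and let g ∈ G with g A g⁻¹ ≠ A. Then either the subgroup of those elements of A that normalize g A g⁻¹ is an elementary abelian 2-group, or A and g A g⁻¹ commute elementwise. -/
theorem result {G : Type*} [Group G] [Finite G] (A : Subgroup G)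
    (hA2 : IsPGroup 2 ↥A) (hAa : IsMulCommutative ↥A)
    (hti : ∀ h : G, A.map (MulAut.conj h).toMonoidHom = A ∨ A.map (MulAut.conj h).toMonoidHom ⊓ A = ⊥)
    (g : G) (hg : A.map (MulAut.conj g).toMonoidHom ≠ A) :
    Cfsg.IsElementaryAbelian 2 (A ⊓ Subgroup.normalizer ((A.map (MulAut.conj g).toMonoidHom : Subgroup G) : Set G)) ∨
      ⁅A, A.map (MulAut.conj g).toMonoidHom⁆ = ⊥ := by
  rw [or_iff_not_imp_left, PGroup.elemAb_two_iff]
  intro hn
  push Not at hn
  obtain ⟨t, ht, h2⟩ := hn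
  have h0 := (hti g).resolve_left hg
  have hB : IsPGroup 2 (g ⋆ A) := hA2.map _
  have h1 : g ⋆ A ≤ centralizer {t} := le_centralizer_of_sq hB (map_isMulCommutative _ _)
    (hA2.to_le (zpowers_le.2 ht.1)) ht.2 fun c hc => by
      have h3 := mem_normalizer_of_commute (hti c) h2 (pow_mem ht.1 2)
        (mem_centralizer_singleton_iff.1 hc.2)
      rw [mem_centralizer_singleton_iff, ← mul_inv_eq_one, ← mem_bot, ← h0, mul_inv_rev, ← mul_assoc]
      refine ⟨?_, mul_mem (Coprime.conj_mem_of_mem_normalizer h3 ht.1) (A.inv_mem ht.1)⟩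
      rw [mul_assoc, mul_assoc, ← mul_assoc t]
      exact mul_mem hc.1 (Coprime.conj_mem_of_mem_normalizer ht.2 (inv_mem hc.1))
  have h4 : t ≠ 1 := fun e => h2 (by rw [e, one_pow])
  refine commutator_eq_bot_of_ti hA2 hB (fun a _ => ?_) (card_conj g A).ge (inf_comm A _ ▸ h0)
    fun b hb => mem_normalizer_of_commute (hti b) h4 ht.1 (mem_centralizer_singleton_iff.1 (h1 hb))
  have h5 : a ⋆ g ⋆ A = g ⋆ (g⁻¹ * a * g) ⋆ A := by rw [conj_conj, conj_conj]; congr 3; group
  refine (hti (g⁻¹ * a * g)).imp (fun e => ?_) fun e => ?_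
  · rw [h5, show (g⁻¹ * a * g) ⋆ A = A from e]
  · rw [h5, ← conj_inf, e, Subgroup.map_bot]

end Cfsg.Agent.S1781
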