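import Cfsg.Statements.S1782
import Cfsg.Agent.Lib.TI.Basic
import Cfsg.Agent.Lib.PGroup.Frattini

set_option autoImplicit false
open Cfsg

namespace Cfsg.Agent.S1782

open Cfsg.Lib Cfsg.Lib.TI Cfsg.Lib.Transfer Subgroup

/-- Let S be a finite 2-group and Δ a set of subgroups of S closed under conjugation by S, all of the same order, each with nontrivial Frattini subgroup, and such that two distinct members of Δ meet trivially. Then any two distinct members of Δ commute elementwise. -/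
theorem result {S : Type*} [Group S] [Finite S] (hS : IsPGroup 2 S)
    (Δ : Set (Subgroup S)) (hinv : ∀ s : S, ∀ R ∈ Δ, R.map (MulAut.conj s).toMonoidHom ∈ Δ)
    (hΦ : ∀ R ∈ Δ, frattini ↥R ≠ ⊥) (hord : ∀ R ∈ Δ, ∀ T ∈ Δ, Nat.card ↥R = Nat.card ↥T)
    (hti : ∀ R ∈ Δ, ∀ T ∈ Δ, R = T ∨ R ⊓ T = ⊥) :
    ∀ R ∈ Δ, ∀ T ∈ Δ, R ≠ T → ⁅R, T⁆ = ⊥ := by
  refine fun R hR T hT hne => commutator_eq_bot_of_family (S := ⊤) (hS.to_subgroup _)
    (fun s _ => hinv s) (fun R hR => ?_) hord hti hR hT le_top le_top hne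
  by_contra h
  push Not at h
  exact hΦ R hR (eq_bot_iff.2 ((PGroup.frattini_le_iff_sq_mem (hS.to_subgroup R)).2
    fun x => mem_bot.2 (Subtype.ext (h x x.2))))

end Cfsg.Agent.S1782
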