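import Cfsg.Statements.S1784
import Cfsg.Agent.Lib.Extraspecial.Coprime

set_option autoImplicit false
open Cfsg Cfsg.Lib Subgroup
open scoped commutatorElement

namespace Cfsg.Agent.S1784

/-- Let G be a finite group and let z be an involution of G such that Q, the generalized Fitting subgroup of the centralizer C of z, is a 2-group of symplectic type (every characteristic abelian subgroup of Q is cyclic); suppose Q is extraspecial, and view Q inside G. Let α be an involution of C that is not in Q, and let Q₀ be the subgroup of those q ∈ Q whose commutator with α lies in the subgroup generated by z. Then (a) the subgroup generated by the commutators α q α⁻¹ q⁻¹, q ∈ Q, equals the centre of Q₀; and (b) if Q₀ is not contained in the product of the centralizer of α in Q with the subgroup generated by z, then some element of Q conjugates α to α z. -/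
theorem result {G : Type*} [Group G] [Finite G] (z : G) (hz : orderOf z = 2) (hQ : Cfsg.IsOfSymplecticType ↥(Cfsg.generalizedFittingSubgroup ↥(Subgroup.centralizer ({z} : Set G)))) (hE : Cfsg.IsExtraspecial 2 ↥(Cfsg.generalizedFittingSubgroup ↥(Subgroup.centralizer ({z} : Set G))))
    (α : G) (hα : orderOf α = 2) (hαC : α ∈ Subgroup.centralizer ({z} : Set G)) (hαQ : α ∉ (Cfsg.generalizedFittingSubgroup ↥(Subgroup.centralizer ({z} : Set G))).map (Subgroup.centralizer ({z} : Set G)).subtype)
    (Q₀ : Subgroup G) (hQ₀ : ∀ q : G, q ∈ Q₀ ↔ (q ∈ (Cfsg.generalizedFittingSubgroup ↥(Subgroup.centralizer ({z} : Set G))).map (Subgroup.centralizer ({z} : Set G)).subtype ∧ α * q * α⁻¹ * q⁻¹ ∈ Subgroup.zpowers z)) :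
    Subgroup.closure ((fun q : G => α * q * α⁻¹ * q⁻¹) '' ((Cfsg.generalizedFittingSubgroup ↥(Subgroup.centralizer ({z} : Set G))).map (Subgroup.centralizer ({z} : Set G)).subtype : Set G)) = (Subgroup.center ↥Q₀).map Q₀.subtype ∧
      (¬ Q₀ ≤ ((Cfsg.generalizedFittingSubgroup ↥(Subgroup.centralizer ({z} : Set G))).map (Subgroup.centralizer ({z} : Set G)).subtype ⊓ Subgroup.centralizer ({α} : Set G)) ⊔ Subgroup.zpowers z →
        ∃ q ∈ (Cfsg.generalizedFittingSubgroup ↥(Subgroup.centralizer ({z} : Set G))).map (Subgroup.centralizer ({z} : Set G)).subtype, q * α * q⁻¹ = α * z) := by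
  have hE' := ES.isExtraspecial_map (Q := generalizedFittingSubgroup (centralizer ({z} : Set G)))
    hE (centralizer ({z} : Set G)).subtype_injective
  have h := ES.lg_of_genFitting hz rfl hE'
  generalize (generalizedFittingSubgroup (centralizer ({z} : Set G))).map
    (centralizer ({z} : Set G)).subtype = Q at *
  have hαi := ES.inv_eq_of_orderOf_two hα
  have hα2 := ES.mul_self_of_orderOf_two hα
  have hQ₀Q : Q₀ ≤ Q := fun q hq => ((hQ₀ q).1 hq).1
  have hbot : ∀ H : Subgroup G, H ≤ normalizer ((⊥ : Subgroup G) : Set G) := fun H => by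
    rw [normalizer_eq_top]; exact le_top
  have hR : closure ((fun q : G => α * q * α⁻¹ * q⁻¹) '' (Q : Set G)) = ⁅zpowers α, Q⁆ := by
    refine le_antisymm ((closure_le _).2 ?_) (commutator_le.2 fun a ha q hq => ?_)
    · rintro _ ⟨q, hq, rfl⟩
      exact commutator_mem_commutator (mem_zpowers α) hq
    · rcases (ES.mem_zpowers_iff_of_orderOf_two hα).1 ha with rfl | rfl
      · simp
      · exact subset_closure ⟨q, hq, rfl⟩
  have hαN : zpowers α ≤ normalizer (Q : Set G) := zpowers_le.2 (h.norm hαC)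
  have hRQ : ⁅zpowers α, Q⁆ ≤ Q := commutator_comm Q _ ▸ Coprime.commutator_le_of_le_normalizer hαN
  have hQQ : ∀ {Y : Subgroup G}, Y ≤ Q → ⁅⁅Q, Y⁆, zpowers α⁆ ≤ ⊥ := fun hY => by
    rw [le_bot_iff, commutator_eq_bot_iff_le_centralizer, le_centralizer_iff]
    refine (zpowers_le.2 hαC).trans ?_
    rw [← Core.centralizer_zpowers]
    exact centralizer_le ((commutator_mono le_rfl hY).trans h.commutator_le)
  have h1 : Q ⊓ centralizer ((⁅zpowers α, Q⁆ : Subgroup G) : Set G) = Q₀ := by
    refine le_antisymm (fun y hy => (hQ₀ y).2 ⟨hy.1, ?_⟩) (le_inf hQ₀Q ?_)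
    · have := Core.three_subgroups (H := Q ⊓ centralizer ((⁅zpowers α, Q⁆ : Subgroup G) : Set G))
        (K := zpowers α) (L := Q) (hbot _) (hbot _) (hbot _) (by
          rw [le_bot_iff, commutator_eq_bot_iff_le_centralizer, le_centralizer_iff]
          exact inf_le_right) (hQQ inf_le_left)
      rw [le_bot_iff, commutator_eq_bot_iff_le_centralizer, h.centralizer_eq hE',
        commutator_comm] at this
      exact this (commutator_mem_commutator (mem_zpowers α) hy)
    · rw [le_centralizer_iff, ← commutator_eq_bot_iff_le_centralizer, ← le_bot_iff]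
      refine Core.three_subgroups (hbot _) (hbot _) (hbot _) (hQQ hQ₀Q) ?_
      rw [le_bot_iff, commutator_eq_bot_iff_le_centralizer, h.centralizer_eq hE', commutator_comm]
      refine commutator_le.2 fun a ha q hq => ?_
      rcases (ES.mem_zpowers_iff_of_orderOf_two hα).1 ha with rfl | rfl
      · simp
      · exact ((hQ₀ q).1 hq).2
  have h2 : z ∈ ⁅zpowers α, Q⁆ := h.mem_of_le_normalizer hRQ (normalizer_commutator_ge_right _ _)
    fun e => hαQ (h.cen_le (commutator_eq_bot_iff_le_centralizer.1 e (mem_zpowers α)))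
  have h3 : ⁅zpowers α, Q⁆ ≤ Q₀ := by
    rw [← hR, closure_le]
    rintro _ ⟨q, hq, rfl⟩
    have hc := ES.commutator_mem_of_mem_normalizer (h.norm hαC) hq
    refine (hQ₀ _).2 ⟨hc, ?_⟩
    have : α * (α * q * α⁻¹ * q⁻¹) * α⁻¹ * (α * q * α⁻¹ * q⁻¹)⁻¹ = (⁅α, q⁆ ^ 2)⁻¹ := by
      rw [commutatorElement_def, sq, hαi]
      calc _ = (α * α) * q * α * q⁻¹ * α * (α * q * α * q⁻¹)⁻¹ := by group
        _ = _ := by rw [hα2]; nth_rw 1 2 [← hαi]; group
    exact this ▸ inv_mem (h.sq_mem _ hc)
  constructor
  · have h4 := ES.inf_centralizer_inf_centralizer hE' hRQ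
    rw [h1, ES.inf_centralizer_eq_zpowers hE' h.mem h.ne_one h.cent,
      sup_eq_left.2 (zpowers_le.2 h2)] at h4
    rw [hR, Core.map_subtype_center]
    exact le_antisymm (le_inf h3 (h4.ge.trans inf_le_right))
      (h4 ▸ inf_le_inf_right _ hQ₀Q)
  · intro hn
    obtain ⟨q, hq, hq'⟩ := SetLike.not_le_iff_exists.1 hn
    refine ⟨q, hQ₀Q hq, ?_⟩
    rcases h.mem_iff.1 ((hQ₀ q).1 hq).2 with e | e
    · exact absurd (mem_sup_left (mem_inf.2 ⟨hQ₀Q hq, mem_centralizer_singleton_iff.2
        (commutatorElement_eq_one_iff_mul_comm.1 e).symm⟩)) hq'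
    · rw [← e, hαi, ← mul_assoc, ← mul_assoc, ← mul_assoc, hα2, one_mul]

end Cfsg.Agent.S1784
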