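import Cfsg.Statements.S1785
import Cfsg.Agent.Lib.PGroup.Alperin
import Cfsg.Agent.Lib.Inv.Misc
import Cfsg.Agent.Lib.Core.Basic

set_option autoImplicit false
open Cfsg

namespace Cfsg.Agent.S1785

open Subgroup Cfsg.Lib Cfsg.Lib.PGroup

variable {X : Type*} [Group X] [Finite X] {E : Subgroup X} [E.Normal]

theorem gen (hE : IsElementaryAbelian 2 E) (n : ℕ) : ∀ A : Subgroup X, IsElementaryAbelian 2 A →
    Nat.card A ≤ 2 ^ n * Nat.card ↥(A ⊓ E) →
    Nat.card E ≤ Nat.card ↥(E ⊓ centralizer (A : Set X)) ^ 2 ^ n := by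
  have base : ∀ (n : ℕ) (A : Subgroup X), A ≤ E →
      Nat.card E ≤ Nat.card ↥(E ⊓ centralizer (A : Set X)) ^ 2 ^ n := fun n A h => by
    rw [inf_eq_left.2 ((elemAb_le_centralizer hE).trans (centralizer_le h))]
    exact Nat.le_self_pow (by positivity) _
  induction n with
  | zero =>
    intro A _ h
    exact base 0 A (inf_eq_left.1 (eq_of_le_of_card_ge inf_le_left (by simpa using h)))
  | succ n ih =>
    intro A hA h
    rcases (inf_le_left : A ⊓ E ≤ A).eq_or_lt with e | hlt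
    · exact base _ A (inf_eq_left.1 e)
    obtain ⟨B, h1, h2, -, h4⟩ := exists_card_mul_eq_of_lt (elemAb_isPGroup hA) hlt
    have hBA : B < A := lt_of_le_of_ne h2 fun e => by
      rw [e] at h4; have := Nat.card_pos (α := A); omega
    obtain ⟨a, ha, haB⟩ := SetLike.exists_of_lt hBA
    have h5 := ih B (elemAb_of_le hA h2) (by
      have := card_le_of_le (le_inf h1 inf_le_right : A ⊓ E ≤ B ⊓ E)
      rw [pow_succ] at h
      nlinarith [Nat.pos_of_ne_zero (pow_ne_zero n two_ne_zero)])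
    have hc : a ∈ centralizer (B : Set X) := centralizer_le h2 (elemAb_le_centralizer hA ha)
    have h6 := Inv.card_le_sq_of_inv (elemAb_of_le hE (inf_le_left : E ⊓ centralizer (B : Set X) ≤ E))
      (x := a) (by rw [← sq]; exact hA.2 a ha)
      (Core.le_normalizer_inf le_normalizer_of_normal le_normalizer hc)
    have h7 : B ⊔ zpowers a = A := (eq_or_eq_of_card_eq_prime_mul Nat.prime_two le_sup_left
      (sup_le h2 (zpowers_le.2 ha)) h4).resolve_left fun e => haB (e ▸ mem_sup_right (mem_zpowers a))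
    have h8 : E ⊓ centralizer (B : Set X) ⊓ centralizer {a} ≤ E ⊓ centralizer (A : Set X) := by
      refine le_inf (inf_le_left.trans inf_le_left) (le_centralizer_iff.1 (h7.ge.trans (sup_le
        (le_centralizer_iff.1 (inf_le_left.trans inf_le_right)) (zpowers_le.2 fun x hx => ?_))))
      exact (hx.2 a rfl).symm
    refine h5.trans ((Nat.pow_le_pow_left (h6.trans (Nat.pow_le_pow_left (card_le_of_le h8) 2)) _).trans ?_)
    rw [← pow_mul, ← pow_succ']

theorem gen' (hE : IsElementaryAbelian 2 E) (hE32 : 32 ≤ Nat.card E) {n j : ℕ} {A : Subgroup X}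
    (hA : IsElementaryAbelian 2 A) (h : Nat.card A ≤ 2 ^ n * Nat.card ↥(A ⊓ E))
    (hj : ∀ i < j, i * 2 ^ n < 5) : 2 ^ j ≤ Nat.card ↥(E ⊓ centralizer (A : Set X)) := by
  obtain ⟨i, hi⟩ := elemAb_card (elemAb_of_le hE (inf_le_left : E ⊓ centralizer (A : Set X) ≤ E))
  have h1 := hE32.trans (gen hE n A hA h)
  rw [hi, ← pow_mul, show 32 = 2 ^ 5 from rfl, Nat.pow_le_pow_iff_right one_lt_two] at h1
  rw [hi, Nat.pow_le_pow_iff_right one_lt_two]
  by_contra hlt
  have := hj i (by omega)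
  omega

theorem step (hE : IsElementaryAbelian 2 E) {A : Subgroup X} (hA : IsElementaryAbelian 2 A)
    (h8 : Nat.card A = 8) {j : ℕ} (hj : j ≤ 3) (h : 2 ^ j ≤ Nat.card ↥(E ⊓ centralizer (A : Set X))) :
    ∃ B, IsElementaryAbelian 2 B ∧ Nat.card B = 8 ∧ ⁅A, B⁆ = ⊥ ∧ 2 ^ j ≤ Nat.card ↥(B ⊓ E) := by
  have h0 := elemAb_of_le hE (inf_le_left : E ⊓ centralizer (A : Set X) ≤ E)
  obtain ⟨W, -, h1, h2⟩ := exists_between_card_eq_pow (elemAb_isPGroup h0) bot_le
    (by rw [card_bot]; exact Nat.one_le_two_pow) h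
  have h3 := elemAb_sup (elemAb_of_le h0 h1) hA (h1.trans inf_le_right)
  obtain ⟨B, h4, h5, h6⟩ := exists_between_card_eq_pow (k := 3) (elemAb_isPGroup h3) le_sup_left
    (h2 ▸ Nat.pow_le_pow_right two_pos hj) (h8.ge.trans (card_le_of_le le_sup_right))
  refine ⟨B, elemAb_of_le h3 h5, h6, commutator_eq_bot_iff_le_centralizer.2 (le_sup_right.trans
    ((elemAb_le_centralizer h3).trans (centralizer_le h5))), ?_⟩
  exact h2 ▸ card_le_of_le (le_inf h4 (h1.trans inf_le_left))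

theorem result {X : Type*} [Group X] [Finite X]
    (hX : IsPGroup 2 X) (E : Subgroup X) [E.Normal] (hE : Cfsg.IsElementaryAbelian 2 E) (hE32 : 32 ≤ Nat.card ↥E) :
    (∀ A B : Subgroup X, Cfsg.IsElementaryAbelian 2 A → Nat.card ↥A = 8 → Cfsg.IsElementaryAbelian 2 B → Nat.card ↥B = 8 →
        Relation.ReflTransGen
          (fun C D : Subgroup X => Cfsg.IsElementaryAbelian 2 C ∧ Nat.card ↥C = 8 ∧ Cfsg.IsElementaryAbelian 2 D ∧ Nat.card ↥D = 8 ∧ ⁅C, D⁆ = ⊥)
          A B) ∧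
      (∀ V : Subgroup X, Cfsg.IsElementaryAbelian 2 V → Nat.card ↥V = 4 →
        ∃ A : Subgroup X, V ≤ A ∧ Cfsg.IsElementaryAbelian 2 A ∧ Nat.card ↥A = 8) := by
  set r := fun C D : Subgroup X => Cfsg.IsElementaryAbelian 2 C ∧ Nat.card ↥C = 8 ∧
    Cfsg.IsElementaryAbelian 2 D ∧ Nat.card ↥D = 8 ∧ ⁅C, D⁆ = ⊥ with hr
  haveI hs : Std.Symm r := ⟨fun C D h => ⟨h.2.2.1, h.2.2.2.1, h.1, h.2.1, by
    rw [commutator_comm]; exact h.2.2.2.2⟩⟩
  have key : ∀ A : Subgroup X, IsElementaryAbelian 2 A → Nat.card A = 8 →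
      ∃ B, Relation.ReflTransGen r A B ∧ Nat.card B = 8 ∧ B ≤ E := fun A hA h8 => by
    obtain ⟨B, hB, h1, h2, h3⟩ := step hE hA h8 (j := 1) (by omega) (gen' hE hE32 (n := 3) hA
      (by have := Nat.card_pos (α := ↥(A ⊓ E)); omega) (fun i hi => by omega))
    obtain ⟨C, hC, h4, h5, h6⟩ := step hE hB h1 (j := 2) (by omega) (gen' hE hE32 (n := 2) hB
      (by omega) (fun i hi => by omega))
    obtain ⟨D, hD, h7, h9, h10⟩ := step hE hC h4 (j := 3) (by omega) (gen' hE hE32 (n := 1) hC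
      (by omega) (fun i hi => by omega))
    exact ⟨D, ((Relation.ReflTransGen.single ⟨hA, h8, hB, h1, h2⟩).tail ⟨hB, h1, hC, h4, h5⟩).tail
      ⟨hC, h4, hD, h7, h9⟩, h7, inf_eq_left.1 (eq_of_le_of_card_ge inf_le_left (by omega))⟩
  refine ⟨fun A B hA h1 hB h2 => ?_, fun V hV h4 => ?_⟩
  · obtain ⟨C, h3, h4, h5⟩ := key A hA h1
    obtain ⟨D, h6, h7, h8⟩ := key B hB h2
    exact (h3.tail ⟨elemAb_of_le hE h5, h4, elemAb_of_le hE h8, h7,
      commutator_eq_bot_iff_le_centralizer.2 (h5.trans ((elemAb_le_centralizer hE).trans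
        (centralizer_le h8)))⟩).trans (Relation.ReflTransGen.symmetric.symm _ _ h6)
  · have h0 := elemAb_of_le hE (inf_le_left : E ⊓ centralizer (V : Set X) ≤ E)
    have h3 := elemAb_sup hV h0 (le_centralizer_iff.1 inf_le_right)
    have h5 : V < V ⊔ E ⊓ centralizer (V : Set X) := by
      refine left_lt_sup.2 fun hle => ?_
      have h1 := gen' hE hE32 (n := 2) (j := 2) hV
        (by have := Nat.card_pos (α := ↥(V ⊓ E)); omega) (fun i hi => by omega)
      have h2 := eq_of_le_of_card_ge hle (by omega)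
      have h6 := gen' hE hE32 (n := 0) (j := 3) hV
        (by rw [inf_eq_left.2 (h2.ge.trans inf_le_left)]; omega) (fun i hi => by omega)
      rw [h2] at h6
      omega
    obtain ⟨B, h6, h7, -, h8⟩ := exists_card_eq_mul_of_lt (elemAb_isPGroup h3) h5
    exact ⟨B, h6, elemAb_of_le h3 h7, by omega⟩

end Cfsg.Agent.S1785
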