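import Cfsg.Statements.S1786
import Cfsg.Agent.Lib.CharDeg.LargeTI
import Cfsg.Agent.Lib.Comp.GenFitting

set_option autoImplicit false
open Cfsg

namespace Cfsg.Agent.S1786

open Subgroup Cfsg.Lib Cfsg.Lib.Transfer Cfsg.Lib.BG Cfsg.Lib.CharDeg.LargeTI in

/-- Let G be a finite group, V an elementary abelian 2-subgroup of G and M the normalizer of V; write Q for the largest normal 2-subgroup of M. Suppose (1) the generalized Fitting subgroup of M equals Q; (2) V is a maximal abelian normal subgroup of M; (3) every conjugate of V equals V or meets V trivially, and for some g ∈ G the conjugate V' = g V g⁻¹ is different from V and contained in Q. Let P be the centralizer of V in Q, W the subgroup generated by V and V', and H the subgroup generated by P and g P g⁻¹. Then: (a) V is contained in g Q g⁻¹; (b) every non-identity element of W lies in exactly one conjugate of V contained in W, H normalizes W, and H modulo the centralizer of W in H is isomorphic to the special linear group of dimension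 2 over the field with |V| elements; (c) P = Q, and V equals the Frattini subgroup, the centre and the commutator subgroup of Q. -/
theorem result {G : Type*} [Group G] [Finite G] (V : Subgroup G)
    (hV : Cfsg.IsElementaryAbelian 2 V)
    (h1 : (Cfsg.generalizedFittingSubgroup ↥(Subgroup.normalizer (V : Set G))).map (Subgroup.normalizer (V : Set G)).subtype =
      (Cfsg.pCore 2 ↥(Subgroup.normalizer (V : Set G))).map (Subgroup.normalizer (V : Set G)).subtype)
    (h2 : ∀ A : Subgroup G, V ≤ A → A ≤ Subgroup.normalizer (V : Set G) → IsMulCommutative ↥A →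
      (∀ m ∈ Subgroup.normalizer (V : Set G), ∀ a ∈ A, m * a * m⁻¹ ∈ A) → A = V)
    (hti : ∀ x : G, V.map (MulAut.conj x).toMonoidHom = V ∨ V.map (MulAut.conj x).toMonoidHom ⊓ V = ⊥)
    (g : G) (hg : V.map (MulAut.conj g).toMonoidHom ≠ V)
    (hgQ : V.map (MulAut.conj g).toMonoidHom ≤ (Cfsg.pCore 2 ↥(Subgroup.normalizer (V : Set G))).map (Subgroup.normalizer (V : Set G)).subtype) :
    let Q : Subgroup G := (Cfsg.pCore 2 ↥(Subgroup.normalizer (V : Set G))).map (Subgroup.normalizer (V : Set G)).subtype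
    let P : Subgroup G := Q ⊓ Subgroup.centralizer (V : Set G)
    let W : Subgroup G := V ⊔ V.map (MulAut.conj g).toMonoidHom
    let H : Subgroup G := P ⊔ P.map (MulAut.conj g).toMonoidHom
    V ≤ Q.map (MulAut.conj g).toMonoidHom ∧
      (∀ w ∈ W, w ≠ 1 → ∃! U : Subgroup G, (∃ x : G, U = V.map (MulAut.conj x).toMonoidHom) ∧ U ≤ W ∧ w ∈ U) ∧
      H ≤ Subgroup.normalizer (W : Set G) ∧
      (∀ hN : ((Subgroup.centralizer (W : Set G)).subgroupOf H).Normal, ∃ (F : Type) (_ : Field F) (_ : Fintype F), Fintype.card F = Nat.card ↥V ∧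
        Nonempty (↥H ⧸ (Subgroup.centralizer (W : Set G)).subgroupOf H ≃* Matrix.SpecialLinearGroup (Fin 2) F)) ∧
      P = Q ∧ (frattini ↥Q).map Q.subtype = V ∧ (Subgroup.center ↥Q).map Q.subtype = V ∧ (commutator ↥Q).map Q.subtype = V := by
  intro Q P W H
  haveI : Fact (Nat.Prime 2) := ⟨Nat.prime_two⟩
  have hB : Big V Q P := by
    refine ⟨fun v hv => by rw [← pow_two]; exact hV.2 v hv, Core.pCoreOf_le _ _,
      Core.le_normalizer_pCoreOf _ _, Core.pCoreOf_isPGroup _ _, fun m hm hc => ?_,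
      fun K h3 h4 h5 => Core.le_pCoreOf h3 h4 h5,
      fun A h3 h4 h5 h6 => (h2 A h3 h4 h5 (le_norm_iff.1 h6)).le, fun x v hv v1 e => ?_, rfl⟩
    · have e := map_injective (subtype_injective _) h1
      exact ⟨⟨m, hm⟩, Comp.genFitting_eq_pCore_iff_centralizer_le.1 e (mem_centralizer_iff.2
        fun y hy => Subtype.ext (mem_cent.1 hc y ⟨y, hy, rfl⟩)), rfl⟩
    · rcases hti x with h | h
      · exact norm_of_conj_eq h
      · exact (cj_ne_one x v1 (mem_bot.1 (h.le ⟨conj_mem_conj.2 hv, e⟩))).elim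
  have h : Pr V Q P (g ⋆ V) := ⟨hB, ⟨g, rfl⟩, hg, hgQ⟩
  have h' := h.symm rfl
  have e := h.eqQ h'
  have hd : ⁅Q, Q⁆ = V := e ▸ h.derEq
  have RW : g ⋆ P ≤ 𝐍(V ⊔ g ⋆ V) := sup_comm (g ⋆ V) V ▸ h'.PW
  refine ⟨h'.UQ, fun w hw w1 => h.uniq hw w1, sup_le h.PW RW,
    fun hN => h.quot rfl, e, le_antisymm ?_ ?_, le_antisymm ?_ ?_, ?_⟩
  · exact (PGroup.map_subtype_frattini_le_iff h.pQ).2 ⟨hd.le, fun x hx => by
      rw [pow_two]; exact h.sqP (e.ge hx)⟩
  · exact hd.ge.trans ((PGroup.map_subtype_frattini_le_iff h.pQ).1 le_rfl).1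
  · rw [Comp.map_center_subtype]
    exact fun x hx => h.zent (e.ge hx.1) (e ▸ hx.2)
  · rw [Comp.map_center_subtype]
    exact le_inf h.VQ (cent_symm (e.ge.trans h.PC))
  · rw [map_subtype_commutator, hd]

end Cfsg.Agent.S1786
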