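import Cfsg.Statements.S1823
import Cfsg.Agent.Lib.CS.Graph
import Cfsg.Agent.Lib.CS.Blk2

set_option autoImplicit false
open Cfsg

namespace Cfsg.Agent.S1823

open Subgroup Cfsg.Lib.BG Cfsg.Lib.Transfer Cfsg.Lib.Loc Cfsg.Lib.PLocal Cfsg.Lib.CS Cfsg.Lib.PU
open scoped commutatorElement

theorem odd_eq {G : Type*} [Group G] (H : Subgroup G) : oddGenerated H = pResidualOf 2 H :=
  le_antisymm ((closure_le _).2 fun _ hx => mem_res hx.1 (Nat.coprime_two_right.2 hx.2))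
    (res_le_iff.2 fun _ h1 h2 => subset_closure ⟨h1, Nat.coprime_two_right.1 h2⟩)

theorem relIndex_eq {G : Type*} [Group G] {T K L : Subgroup G} (h : K ≤ L)
    (h1 : ∀ y ∈ L, ∃ k ∈ K, k⁻¹ * y ∈ T) : T.relIndex K = T.relIndex L :=
  Nat.card_congr (Equiv.ofBijective _ ⟨(quotientSubgroupOfEmbeddingOfLE T h).injective, fun x => by
    obtain ⟨y, rfl⟩ := QuotientGroup.mk_surjective x
    obtain ⟨k, hk, e⟩ := h1 y y.2
    exact ⟨QuotientGroup.mk ⟨k, hk⟩, QuotientGroup.eq.2 e⟩⟩)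

/-- A common nontrivial normal 2-subgroup for a pair of 2-local-type subgroups over a Sylow 2-subgroup of a simple QTKE-group. Let G be a non-abelian finite simple QTKE-group and T a Sylow 2-subgroup of G. Let M₀ and H be subgroups of G containing T with O₂(M₀) ≠ 1 and O₂(H) ≠ 1, such that T lies in a unique maximal subgroup of H. Let R be a nontrivial subgroup of T that is a Sylow 2-subgroup of O²(H)R and is normalized by M₀. Then some nontrivial subgroup R₀ of R is normalized by both M₀ and H (that is, R₀ is normal in ⟨M₀, H⟩). -/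
theorem result {G : Type*} [Group G] [Finite G] [IsSimpleGroup G]
    (hG : ¬ IsMulCommutative G) (hQ : Cfsg.IsQTKE G) (T : Sylow 2 G) (M₀ H : Subgroup G)
    (hM₀ : M₀ ∈ Cfsg.calHOver (T : Subgroup G)) (hH : H ∈ Cfsg.calHOver (T : Subgroup G))
    (hU : ∃! K : Subgroup ↥H, IsCoatom K ∧ (T : Subgroup G).subgroupOf H ≤ K)
    (R : Subgroup G) (hR : R ≠ ⊥) (hRT : R ≤ (T : Subgroup G))
    (hRS : ∃ P : Sylow 2 ↥(Cfsg.oddGenerated H ⊔ R),
      (P : Subgroup ↥(Cfsg.oddGenerated H ⊔ R)) = R.subgroupOf (Cfsg.oddGenerated H ⊔ R))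
    (hRM : M₀ ≤ Subgroup.normalizer (R : Set G)) :
    ∃ R₀ : Subgroup G, R₀ ≠ ⊥ ∧ R₀ ≤ R ∧ M₀ ⊔ H ≤ Subgroup.normalizer (R₀ : Set G) := by
  by_contra hn
  have hT : ∀ {X}, (T : Subgroup G) ≤ X → ¬ 2 ∣ (T : Subgroup G).relIndex X := sylow_not_dvd_relIndex T
  have chp : ∀ Y : Subgroup G, IsPGroup 2 Y → Y ≠ ⊥ → (T : Subgroup G) ≤ 𝐍(Y) → IsChP 2 𝐍(Y) :=
    fun Y h1 h2 h3 => isChP_iff.2 (hQ.2.2 _ ⟨Y, h1, h2, rfl⟩ ⟨T, h3⟩)
  obtain ⟨M', ⟨hM', hTM⟩, hu⟩ := hU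
  have top : ∀ X, (T : Subgroup G) ≤ X → X ≤ H → ¬ X ≤ M'.map H.subtype → H ≤ X := fun X h1 h2 h3 =>
    subgroupOf_eq_top.1 ((eq_top_or_exists_le_coatom _).resolve_right fun ⟨N, hN, h4⟩ => h3 (by
      rw [← map_subgroupOf_eq_of_le h2, ← hu N ⟨hN, (subgroupOf_mono H h1).trans h4⟩]; exact map_mono h4))
  have hTM' : (T : Subgroup G) ≤ M'.map H.subtype := by
    rw [← map_subgroupOf_eq_of_le hH.2]; exact map_mono hTM
  rw [odd_eq] at hRS
  set G₁ := pResidualOf 2 H ⊔ R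
  have h1 : G₁ ≤ H := sup_le (res_le _ _) (hRT.trans hH.2)
  have h2 : H ≤ 𝐍(G₁) := (res_sup_sylowIn hH.2 (hT hH.2)).ge.trans (sup_le (le_norm_of_le le_sup_left)
    (norm_sup (hH.2.trans (le_normalizer_res _ _)) (hM₀.2.trans hRM)))
  have h3 : IsChP 2 H := (chp _ (core_pgroup 2 H) (mt core_eq_bot_iff.1 hH.1)
    (hH.2.trans (le_normalizer_core _ _))).of_core_le
    ((core_le_of_not_dvd (hT (hH.2.trans (le_normalizer_core _ _)))).trans hH.2) (le_normalizer_core _ _)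
  have hf := G₁.subtype_injective
  have eR : (R.subgroupOf G₁).map G₁.subtype = R := map_subgroupOf_eq_of_le le_sup_right
  have eG : (⊤ : Subgroup G₁).map G₁.subtype = G₁ := by rw [← MonoidHom.range_eq_map, range_subtype]
  obtain ⟨P, hP⟩ := hRS
  have hs : Sit 2 (R.subgroupOf G₁) ((M'.map H.subtype).subgroupOf G₁) := by
    refine sit_of_char ((isChP_map_iff hf).1 (eG.symm ▸ h3.of_le_normalizer h1 h2))
      (hP ▸ ⟨le_top, P.2, sylow_not_dvd_relIndex P le_top⟩)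
      (fun e => hR (by rw [← eR, e, Subgroup.map_bot])) fun C a b c x hx => ?_
    have d := char_map hf a c
    rw [eR] at d
    have e1 : C.map G₁.subtype ≤ R := eR ▸ map_mono a
    have e2 := Lib.Core.normalizer_le_normalizer_map_subtype ((C.map G₁.subtype).subgroupOf R)
    rw [map_subgroupOf_eq_of_le e1] at e2
    have : H ⊓ 𝐍(C.map G₁.subtype) ≤ M'.map H.subtype := by_contra fun e => hn ⟨_, fun e =>
      b ((map_eq_bot_iff_of_injective _ hf).1 e), e1, sup_le (hRM.trans e2) ((top _ (le_inf hH.2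
        (hM₀.2.trans (hRM.trans e2))) inf_le_left e).trans inf_le_right)⟩
    exact this ⟨h1 x.2, map_norm _ (le_refl 𝐍(C)) (mem_map_of_mem _ hx)⟩
  obtain ⟨q, E', k', h4, h5⟩ := hs.exists_pk fun e => hM'.1 (by
    have := (res_sup_sylowIn hH.2 (hT hH.2)).ge.trans
      (sup_le (le_sup_left.trans (subgroupOf_eq_top.1 e)) hTM')
    rw [← comap_map_eq_self_of_injective H.subtype_injective M']; exact subgroupOf_eq_top.2 this)
  have h6 := map_norm G₁.subtype (hs.ct.R_le_norm k'.blk)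
  have k := k'.map hf
  replace h5 := map_mono (f := G₁.subtype) h5
  rw [map_baum hf, eR] at k
  rw [map_core hf, eG] at h6
  rw [map_commutator, map_Y hf, map_Y hf, eG] at h5
  replace h4 : ¬ E'.map G₁.subtype ≤ M'.map H.subtype := fun e => h4 (map_le_iff_le_comap.1 e)
  have h7 : E'.map G₁.subtype ≤ G₁ := map_subtype_le _
  generalize E'.map G₁.subtype = E at k h4 h5 h6 h7
  have h8 : H ≤ E ⊔ T := top _ le_sup_right (sup_le (h7.trans h1) hH.2) fun e => h4 (le_sup_left.trans e)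
  have hB : M₀ ≤ 𝐍(baum 2 R) := hRM.trans (normalizer_le_baum R)
  have hB' : M₀ ≤ stab MulAut.conj (baum 2 R) := fun y hy => conj_eq_of_norm (hB hy)
  set W := ⁅omegaOneCenter 2 (pCoreOf 2 E), E⁆ with hW
  by_cases ha : ∃ a ∈ M₀, ¬ a ⋆ W ≤ 𝐂(W)
  swap
  · push Not at ha
    have e1 : ncl W M₀ ≤ baum 2 R := ncl_le k.vx.le hB
    exact hn ⟨ncl W M₀, fun e => k.vx.ne (((le_ncl _ _).trans e.le).trans bot_le), e1.trans inf_le_left,
      sup_le (norm_ncl _ _) (h8.trans (sup_le (k.blk.norm_of (le_ncl _ _) (e1.trans k.blk.B_le)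
        (ncl_le_iff.2 ha)) (hM₀.2.trans (norm_ncl _ _))))⟩
  obtain ⟨a, ha, adj⟩ := ha
  have e0 := k.vx.two_dvd hB' ha adj (T := T) fun t ht => by
    have e := (oz_elemAb (p := 2) (pCoreOf 2 G₁)).1
    exact cent_mono (le_centralizer _) (conj_le_of_norm h5 ((normalizer_le_normalizer_oz _)
      (normalizer_le_normalizer_core 2 _ (h2 (hH.2 ht))))) h5
  obtain ⟨y, hy, e1⟩ : ∃ y ∈ M₀, ∀ t ∈ (T : Subgroup G), t * y ∉ stab MulAut.conj ⁅W, baum 2 R⁆ := by
    by_contra e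
    push Not at e
    refine hT hM₀.2 (e0.trans (relIndex_eq inf_le_left fun y hy => ?_).dvd)
    obtain ⟨t, ht, e⟩ := e y⁻¹ (M₀.inv_mem hy)
    exact ⟨_, Subgroup.inv_mem _ ⟨M₀.mul_mem (hM₀.2 ht) (M₀.inv_mem hy), e⟩, by simpa using ht⟩
  set Y := ncl (y ⋆ ⁅W, baum 2 R⁆) T
  have e2 : ∀ x ∈ M₀, x ∈ stab MulAut.conj ⁅W, baum 2 R⁆ → x ⋆ E ≤ 𝐍(Y) := fun x h1 h2 =>
    norm_of_cent (cent_symm (ncl_le_iff.2 fun t ht => by
      rw [conj_conj, ← conj_centralizer]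
      exact k.vx.act_far hB' ha adj h1 h2 (mul_mem (hM₀.2 ht) hy) (e1 t ht)))
  have e3 : Y ≤ baum 2 R := ncl_le (conj_le_of_norm (comm_le_of_le k.vx.le le_rfl) (hB hy)) (hM₀.2.trans hB)
  have e4 := chp Y (T.2.to_le (e3.trans (inf_le_left.trans hRT))) (fun e => k.vx.ne_bot
    (conj_eq_bot_iff.1 (le_bot_iff.1 ((le_ncl _ _).trans e.le)))) (norm_ncl _ _)
  have e5 : E ≤ 𝐍(Y) := conj_one E ▸ e2 1 (one_mem _) (one_mem _)
  have e6 : ∀ X ≤ 𝐍(Y), X ≤ 𝐍(pCoreOf 2 𝐍(Y)) := fun X h => h.trans (le_normalizer_core _ _)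
  have e7 : ⁅pCoreOf 2 𝐍(Y), E⁆ ≤ pCoreOf 2 G₁ := by
    refine le_trans (le_inf (comm_le_left (e6 _ e5)) ((commutator_mono le_rfl h7).trans (comm_le_right
      ((core_le_of_not_dvd (hT (norm_ncl _ _))).trans (hH.2.trans h2))))) (le_core inf_le_right
      (norm_inf (e6 _ (h1.trans (h8.trans (sup_le e5 (norm_ncl _ _))))) (le_norm _))
      (core_pgroup _ _).to_inf_left)
  have e8 : W ≤ pCoreOf 2 𝐍(Y) := k.blk.W_le_of (core_pgroup _ _) (Lib.CGT.norm_of_comm_le_norm k.blk.res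
    (core_pgroup 2 G₁) (h7.trans (le_normalizer_core _ _)) (e7.trans le_sup_left)
    ((comm_le_left (h7.trans (le_normalizer_core _ _))).trans h6) (e7.trans h6)) (e6 _ e5) fun e =>
    k.blk.not_le_of_pgroup (core_pgroup _ _) (e4.le_core e5 (cent_symm e))
  have b := k.blk.conj' (hB ha)
  have := b.le_cent (core_pgroup 2 𝐍(Y)).to_inf_left inf_le_right
    (norm_inf (e6 _ (e2 a ha (k.vx.adj_mem hB' ha adj))) (norm_norm (le_norm _)))
  rw [← conj_W] at this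
  exact adj (cent_symm ((le_inf e8 (k.vx.le.trans b.B_le)).trans this))

end Cfsg.Agent.S1823
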