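import Cfsg.Statements.S1824
import Cfsg.Agent.S1823
import Cfsg.Agent.Lib.QRC.D

set_option autoImplicit false
open Cfsg

namespace Cfsg.Agent.S1824

open Subgroup Cfsg.Lib.BG Cfsg.Lib.Transfer Cfsg.Lib.Loc Cfsg.Lib.PLocal Cfsg.Lib.QRC Cfsg.Lib
open scoped commutatorElement

theorem off_map {G : Type*} [Group G] {H V : Subgroup G} {B : Subgroup H} (hV : V ≤ H)
    (h : Off B (V.subgroupOf H)) : Off (B.map H.subtype) V := by
  obtain ⟨B, hB, rfl⟩ : ∃ B' ≤ H, B'.subgroupOf H = B :=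
    ⟨_, map_subtype_le B, comap_map_eq_self_of_injective H.subtype_injective B⟩
  rw [Off, Core.centralizer_subgroupOf_eq hV, Core.centralizer_subgroupOf_eq hB, relIndex_subgroupOf hV,
    relIndex_subgroupOf hB] at h
  rw [map_subgroupOf_eq_of_le hB]
  exact ⟨fun e => h.1 (subgroupOf_mono H e), h.2⟩

theorem ind {G : Type*} [Group G] {B V : Subgroup G} (hV : IsElementaryAbelian 2 V) (hB : B ≤ 𝐍(V))
    (h : ⁅⁅V, B⁆, B⁆ = ⊥) (h0 : ¬ B ≤ 𝐂(V)) : InducesElemAbelianTwoGroupOn B V := by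
  refine ⟨h0, fun b hb v hv => ?_, fun b hb c hc => comm_eq_bot_iff.1 (commutator_commutator_eq_bot_of_rotate
    ((commutator_comm B V).symm ▸ h) h) (commutator_mem_commutator hb hc)⟩
  have e := commutator_mem_commutator hv hb
  have e1 := mem_cent.1 (comm_eq_bot_iff.1 h e) b hb
  rw [← commutatorElement_eq_one_iff_mul_comm, show ⁅v, b ^ 2⁆ = ⁅v, b⁆ * (b * ⁅v, b⁆) * b⁻¹ by
    simp only [commutatorElement_def, sq]; group, e1, ← mul_assoc, mul_inv_cancel_right, ← sq]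
  exact hV.2 _ (comm_le_left hB e)


/-- The qrc-lemma in the form used for simple QTKE-groups. Let G be a non-abelian finite simple QTKE-group, T a Sylow 2-subgroup of G and M a maximal 2-local subgroup of G containing T. Let T ≤ M₀ ≤ M, let H be a minimal member of the set of subgroups of G with nontrivial 2-core that contain T and are not contained in M, and let V be a 2-reduced elementary abelian normal 2-subgroup of M₀ with O₂(M₀) = C_T(V). Suppose H ∩ M normalizes O²(M₀) or normalizes V. Then one of the following holds: (1) some nontrivial subgroup of O₂(M₀) is normalized by both M₀ and H; (2) V ≰ O₂(H) and q̂(M₀/C_{M₀}(V), V) ≤ 2; (3) q(M₀/C_{M₀}(V), V) ≤ 2. Here q (resp. q̂) ≤ 2 means that some subgroup of M₀ inducing a nontrivial elementary abelian 2-group A on V acts quadratically (resp. cubically) on V with |V : C_V(A)| ≤ |A|². -/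
theorem result {G : Type*} [Group G] [Finite G] [IsSimpleGroup G]
    (hG : ¬ IsMulCommutative G) (hQ : Cfsg.IsQTKE G) (T : Sylow 2 G) (M M₀ H V : Subgroup G)
    (hM : M ∈ Cfsg.maxTwoLocalsContaining (T : Subgroup G))
    (hTM₀ : (T : Subgroup G) ≤ M₀) (hM₀M : M₀ ≤ M) (hH : H ∈ Cfsg.calHMin (T : Subgroup G) M)
    (hV : V ∈ Cfsg.calR2 M₀)
    (hR : (Cfsg.pCore 2 ↥M₀).map M₀.subtype = (T : Subgroup G) ⊓ Subgroup.centralizer (V : Set G))
    (hI : H ⊓ M ≤ Subgroup.normalizer (Cfsg.oddGenerated M₀ : Set G) ∨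
      H ⊓ M ≤ Subgroup.normalizer (V : Set G)) :
    (∃ R₀ : Subgroup G, R₀ ≠ ⊥ ∧ R₀ ≤ (Cfsg.pCore 2 ↥M₀).map M₀.subtype ∧
        M₀ ⊔ H ≤ Subgroup.normalizer (R₀ : Set G)) ∨
      (¬ V ≤ (Cfsg.pCore 2 ↥H).map H.subtype ∧ Cfsg.CubicParamLE M₀ V 2) ∨
      Cfsg.QuadParamLE M₀ V 2 := by
  refine or_iff_not_imp_left.2 fun hn => or_iff_not_imp_left.2 fun hc => by_contra fun hq => hn ?_
  change pCoreOf 2 M₀ = _ at hR
  change ¬ ∃ R₀ : Subgroup G, R₀ ≠ ⊥ ∧ R₀ ≤ pCoreOf 2 M₀ ∧ _ at hn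
  obtain ⟨⟨hH, hHM⟩, hmin⟩ := hH
  obtain ⟨v1, v2, v3, -⟩ := hV
  have hT : ∀ {X}, (T : Subgroup G) ≤ X → ¬ 2 ∣ (T : Subgroup G).relIndex X := sylow_not_dvd_relIndex T
  have a1 : V ≤ pCoreOf 2 M₀ := le_core v1 v2 (elab_pgroup v3)
  have a2 : pCoreOf 2 M₀ ≤ T := hR ▸ inf_le_left
  have a3 : pCoreOf 2 H ≤ T := core_le_of_not_dvd (hT hH.2)
  have a4 : pCoreOf 2 H ≠ ⊥ := mt core_eq_bot_iff.1 hH.1
  have a5 : V = ⊥ → (T : Subgroup G) ≤ pCoreOf 2 M₀ := fun e =>
    hR ▸ le_inf le_rfl (cent_symm (e.le.trans bot_le))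
  have a6 : pCoreOf 2 M₀ ≠ ⊥ := fun e => a4 (eq_bot_iff.2 (a3.trans ((a5 (eq_bot_iff.2 (a1.trans e.le))).trans e.le)))
  have hf := H.subtype_injective
  have eT : ((T : Subgroup G).subgroupOf H).map H.subtype = T := map_subgroupOf_eq_of_le hH.2
  have eH : (⊤ : Subgroup H).map H.subtype = H := by rw [← MonoidHom.range_eq_map, range_subtype]
  have hu : ∀ K, (T : Subgroup G).subgroupOf H ≤ K → K < ⊤ → K ≤ M.subgroupOf H := fun K k1 k2 => by
    replace k1 : (T : Subgroup G) ≤ K.map H.subtype := eT ▸ map_mono k1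
    exact map_le_iff_le_comap.1 (by_contra fun e => k2.ne (map_injective hf ((hmin _ ⟨⟨fun e' => a4 (eq_bot_iff.2
      ((core_le_core (map_subtype_le K) (a3.trans k1)).trans (core_eq_bot_iff.2 e').le)), k1⟩, e⟩
        (map_subtype_le K)).trans eH.symm)))
  have b1 : M.subgroupOf H < ⊤ := lt_top_iff_ne_top.2 (mt subgroupOf_eq_top.1 hHM)
  have b2 : (T : Subgroup G).subgroupOf H ≤ M.subgroupOf H := subgroupOf_mono H hM.2
  have hS : SylIn 2 (T : Subgroup G) H := ⟨hH.2, T.2, hT hH.2⟩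
  have key : (T : Subgroup G) ⊓ pResidualOf 2 H ≤ pCoreOf 2 M₀ := by
    rcases eq_or_ne V ⊥ with e | h0
    · exact inf_le_left.trans (a5 e)
    obtain ⟨C, c1, c2⟩ : ∃ C : Subgroup G, H ⊓ M ≤ 𝐍(C) ∧ (T : Subgroup G) ⊓ C = (T : Subgroup G) ⊓ 𝐂(V) := by
      refine hI.symm.elim (fun e => ⟨_, norm_cent e, rfl⟩) fun e => ?_
      rw [S1823.odd_eq] at e
      have n1 := le_normalizer_res 2 M₀
      have n2 := le_normalizer_core 2 M₀
      have n3 : 𝐍(pResidualOf 2 M₀) ≤ 𝐍(pCoreOf 2 (pResidualOf 2 M₀)) := normalizer_le_normalizer_core _ _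
      have n4 : pCoreOf 2 (pResidualOf 2 M₀) ≤ pCoreOf 2 M₀ := Core.pCoreOf_le_of_le_normalizer (res_le _ _) n1
      have n5 : ∀ X ≤ 𝐍(pResidualOf 2 M₀), X ≤ 𝐍(relCent (pResidualOf 2 M₀) (pCoreOf 2 (pResidualOf 2 M₀))) :=
        fun X e => le_normalizer_relCent e (e.trans n3)
      refine ⟨_, n5 _ e, hR ▸ le_antisymm (le_sup_right.trans (le_core (sup_le (core_le _ _)
        (inf_le_left.trans hTM₀)) ((res_sup_sylowIn hTM₀ (hT hTM₀)).ge.trans (sup_le (comm_le_of_norm_sup ?_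
          ((res_le _ _).trans n2)) (norm_sup (hTM₀.trans n2) (norm_inf (le_norm _) (n5 _ (hTM₀.trans n1))))))
            (T.2.to_le (sup_le a2 inf_le_left))))
        (le_inf a2 (le_relCent.2 ⟨(core_le _ _).trans (n1.trans n3), le_core (comm_le_right ((core_le _ _).trans n1))
          (norm_comm ((res_le _ _).trans n2) (le_norm _))
            ((core_pgroup 2 M₀).to_le (comm_le_left ((res_le _ _).trans n2)))⟩))⟩
      rw [commutator_comm]
      exact (commutator_mono inf_le_right le_rfl).trans ((commutator_relCent_le _ _).trans n4)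
    have d1 : V ≤ H := (a1.trans a2).trans hH.2
    have eV : (V.subgroupOf H).map H.subtype = V := map_subgroupOf_eq_of_le d1
    have d2 : ∀ X ≤ H, (X.subgroupOf H).Normal → H ≤ 𝐍(X) := fun X a b => (normal_subgroupOf_iff_le_normalizer a).1 b
    have d3 : (T : Subgroup G).subgroupOf H ⊓ 𝐂(V.subgroupOf H) = (pCoreOf 2 M₀).subgroupOf H := by
      rw [Core.centralizer_subgroupOf_eq d1, hR]; rfl
    have chp : IsChP 2 𝐍(pCoreOf 2 H) := isChP_iff.2 (hQ.2.2 _ ⟨_, core_pgroup 2 H, a4, rfl⟩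
      ⟨T, hH.2.trans (le_normalizer_core _ _)⟩)
    have h3 : IsChP 2 H := chp.of_core_le
      ((core_le_of_not_dvd (hT (hH.2.trans (le_normalizer_core _ _)))).trans hH.2) (le_normalizer_core _ _)
    have mp : ∀ B ≤ (T : Subgroup G).subgroupOf H, B.map H.subtype ≤ M₀ := fun B e =>
      (eT ▸ map_mono e : _ ≤ (T : Subgroup G)).trans hTM₀
    rcases qrc (C := C.subgroupOf H) ((isChP_map_iff hf).1 (eH.symm ▸ h3))
      ((SylIn.map_iff hf).1 (eT.symm ▸ eH.symm ▸ hS)) hu b2 b1 (V := V.subgroupOf H)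
      ⟨have := v3.1; inferInstance, fun x hx => Subtype.ext (v3.2 _ hx)⟩ (subgroupOf_mono H (a1.trans a2))
      (PU.norm_of_map hf (eT.symm ▸ eV.symm ▸ hTM₀.trans v2))
      (fun x hx => mem_normalizer_iff.2 fun y => mem_normalizer_iff.1 (c1 ⟨x.2, hx⟩) y)
      (by rw [d3, hR, ← c2]; rfl) (fun e => hn ⟨V, h0, a1, sup_le v2 (d2 V d1 e)⟩) (fun e => hn
        ⟨_, thompsonSubgroupOf_ne_bot (.inr rfl) (core_pgroup 2 M₀) a6, thompsonSubgroupOf_le _, sup_le
          ((le_normalizer_core _ _).trans (normalizer_le_normalizer_thompsonSubgroupOf _)) (by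
            have := map_norm H.subtype (normalizer_eq_top_iff.2 e).ge
            rwa [eH, map_thompsonSubgroupOf hf, d3, map_subgroupOf_eq_of_le (a2.trans hH.2)] at this)⟩) with
      ⟨e, B, e1, e2, e3, e4⟩ | ⟨B, e1, e3, e4⟩ | e
    · replace e2 := CGT.elab_map e2 H.subtype
      replace e4 := off_map d1 e4
      refine (hc ⟨fun e' => e (((map_le_map_iff_of_injective hf).1 (eV.le.trans e')).trans Core.pCoreOf_top.ge), _, mp B e1,
        ⟨e4.1, fun b hb => e2.2 b hb ▸ one_mem _, fun b hb c hc => ?_⟩, ?_, (inf_relIndex_left _ _).le.trans e4.2⟩).elim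
      · rw [mem_cent.1 (abelian_cent e2.1 hc) b hb, mul_inv_cancel_right, mul_inv_cancel]; exact one_mem _
      · rw [← eV, ← map_commutator, ← map_commutator, ← map_commutator, e3, Subgroup.map_bot]
    · replace e4 := off_map d1 e4
      have e5 : ⁅⁅V, B.map H.subtype⁆, B.map H.subtype⁆ = ⊥ := by
        rw [← eV, ← map_commutator, ← map_commutator, e3, Subgroup.map_bot]
      exact (hq ⟨_, mp B e1, ind v3 ((mp B e1).trans v2) e5 e4.1, e5, (inf_relIndex_left _ _).le.trans e4.2⟩).elim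
    · rw [← subgroupOf_self H, res_subgroupOf le_rfl] at e
      exact fun x hx => d3.le (x := ⟨x, hH.2 hx.1⟩) ⟨hx.1, e hx⟩
  refine S1823.result hG hQ T M₀ H ⟨mt core_eq_bot_iff.2 a6, hTM₀⟩ hH ⟨M.subgroupOf H, ⟨⟨b1.ne, fun K hK =>
    by_contra fun e => hK.not_ge (hu K (b2.trans hK.le) (lt_top_iff_ne_top.2 e))⟩, b2⟩, fun K hK =>
      ((hK.1.le_iff.1 (hu K hK.2 hK.1.lt_top)).resolve_left b1.ne).symm⟩ _ a6 a2
    (exists_sylow_of_not_dvd_relIndex (core_pgroup 2 M₀) fun e => (CGT.SylIn.inf_norm hS (res_le 2 H)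
      (le_normalizer_res 2 H)).2.2 (e.trans ?_)) (le_normalizer_core _ _)
  rw [S1823.odd_eq]
  exact (Coprime.relIndex_sup_right_of_le_normalizer ((a2.trans hH.2).trans (le_normalizer_res 2 H))).dvd.trans
    (relIndex_dvd_of_le_left _ key)

end Cfsg.Agent.S1824
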