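import Cfsg.Statements.S1850
import Cfsg.Agent.Lib.Loc.ParChar

set_option autoImplicit false
open Cfsg

namespace Cfsg.Agent.S1850

open Subgroup Cfsg.Lib Cfsg.Lib.BG Cfsg.Lib.Loc

theorem norm_of_le {G : Type*} [Group G] [Finite G] {p : ℕ} [Fact p.Prime] {B : Subgroup G}
    (hB : IsPGroup p B) : ∀ (n : ℕ) (C : Subgroup G), C.relIndex B ≤ n → C ≤ B →
    IsChP p 𝐍(C) → IsChP p 𝐍(B) := by
  intro n
  induction n with
  | zero =>
    intro C h _ _
    exact absurd (Nat.le_zero.1 h) (Subgroup.FiniteIndex.index_ne_zero)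
  | succ n ih =>
    intro C h hCB hC
    rcases hCB.eq_or_lt with rfl | hlt
    · exact hC
    have hnil : Group.IsNilpotent B := hB.isNilpotent
    have h1 : C.subgroupOf B < normalizer ((C.subgroupOf B : Subgroup B) : Set B) :=
      Group.normalizerCondition_of_isNilpotent _ (lt_top_iff_ne_top.2 fun e =>
        hlt.ne (le_antisymm hCB (subgroupOf_eq_top.1 e)))
    have h2 : C < B ⊓ 𝐍(C) := by
      refine lt_of_le_of_ne (le_inf hCB le_normalizer) fun e => h1.ne ?_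
      rw [← subgroupOf_normalizer_eq hCB]
      conv_lhs => rw [e]
      exact inf_subgroupOf_left _ _
    refine ih (B ⊓ 𝐍(C)) ?_ inf_le_left
      (hC.norm_of_le_norm (hB.to_le inf_le_left) ⟨h2.le, inf_le_right⟩)
    have h3 := relIndex_mul_relIndex C (B ⊓ 𝐍(C)) B h2.le inf_le_left
    have h4 : C.relIndex (B ⊓ 𝐍(C)) ≠ 1 := fun e => h2.ne (le_antisymm h2.le (relIndex_eq_one.1 e))
    have h5 : C.relIndex (B ⊓ 𝐍(C)) ≠ 0 := Subgroup.FiniteIndex.index_ne_zero
    have h6 : (B ⊓ 𝐍(C)).relIndex B ≠ 0 := Subgroup.FiniteIndex.index_ne_zero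
    have h7 : 2 ≤ C.relIndex (B ⊓ 𝐍(C)) := by omega
    nlinarith [Nat.pos_of_ne_zero h6]

/-- Let G be a non-abelian finite simple QTKE-group and T a Sylow 2-subgroup of G. If U is a nontrivial 2-subgroup of G with U ∩ Z(T) ≠ 1, then F*(N_G(U)) = O₂(N_G(U)). -/
theorem result {G : Type*} [Group G] [Finite G] [IsSimpleGroup G]
    (hG : ¬ IsMulCommutative G) (hQ : Cfsg.IsQTKE G) (T : Sylow 2 G) (U : Subgroup G)
    (hU : IsPGroup 2 ↥U) (hZ : U ⊓ ((T : Subgroup G) ⊓ Subgroup.centralizer ((T : Subgroup G) : Set G)) ≠ ⊥) :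
    Subgroup.normalizer (U : Set G) ∈ Cfsg.calHe G := by
  set W := U ⊓ ((T : Subgroup G) ⊓ Subgroup.centralizer ((T : Subgroup G) : Set G)) with hW
  have hWp : IsPGroup 2 W := hU.to_le inf_le_left
  have hT : (T : Subgroup G) ≤ 𝐍(W) :=
    (le_centralizer_iff.1 (inf_le_right.trans inf_le_right : W ≤ _)).trans (centralizer_le_normalizer _)
  have h1 : IsChP 2 𝐍(W) := isChP_iff.2 (hQ.2.2 _ ⟨W, hWp, hZ, rfl⟩ ⟨T, hT⟩)
  exact isChP_iff_genFitting.1 (norm_of_le hU _ W le_rfl inf_le_left h1)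

end Cfsg.Agent.S1850
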