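import Cfsg.Statements.S1851
import Cfsg.Agent.Lib.QT.Base

set_option autoImplicit false
open Cfsg

namespace Cfsg.Agent.S1851

open Subgroup Cfsg.Lib.BG Cfsg.Lib.Loc Cfsg.Lib.QT

/-- Let G be a non-abelian finite simple QTKE-group and T a Sylow 2-subgroup of G, and let L be a member of ℒ_f(G, T) (a member of ℒ(G, T) that lies in 𝒳 — L ≠ 1, L = O²(L), F*(L) = O₂(L) — and acts nontrivially on Ω₁(Z(O₂(L)))). Then (1) every member K of ℒ(G, T) containing L is again in ℒ_f(G, T) (a sharper form of (1) also compares the modules [Ω₁(Z(R)), L] and [Ω₁(Z(R')), K] for suitable 2-subgroups R, R'; that comparison is not included); and (2) if L is maximal under inclusion among the members of ℒ_f(G, T), then L is a maximal member of ℒ(G, T), hence a member of ℒ_f*(G, T). -/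
theorem result {G : Type*} [Group G] [Finite G] [IsSimpleGroup G]
    (hG : ¬ IsMulCommutative G) (hQ : Cfsg.IsQTKE G) (T : Sylow 2 G) (L : Subgroup G)
    (hL : L ∈ Cfsg.calLf (T : Subgroup G)) :
    (∀ K ∈ Cfsg.calL (T : Subgroup G), L ≤ K → K ∈ Cfsg.calLf (T : Subgroup G)) ∧
    ((∀ K ∈ Cfsg.calLf (T : Subgroup G), L ≤ K → K = L) → L ∈ Cfsg.calLfMax (T : Subgroup G)) := by
  have hT := Syl.of_sylow_top T
  have key : ∀ K ∈ calL (T : Subgroup G), L ≤ K → K ∈ calLf (T : Subgroup G) := by
    intro K hK hLK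
    obtain ⟨h1, h2⟩ := (calL_iff hT).1 hK
    obtain ⟨h3, -⟩ := (calL_iff hT).1 hL.1
    have h4 := chp hQ hT h2 le_sup_right
    refine ⟨hK, ⟨h1.ne, (odd_eq K).trans (res_eq_of_perfect h1.perf),
      isChP_iff_genFitting.1 (h4.subnormal h1.sn)⟩, fun e => hL.2.2 ?_⟩
    have e1 : omegaOneCenter 2 (pCoreOf 2 K) ≤ 𝐂(K) := comm_eq_bot_iff.1 e
    have h5 := (commutator_mono (oz_le (p := 2) _) le_rfl).trans (h1.comm_core 2)
    have h6 : ⁅omegaOneCenter 2 (pCoreOf 2 (K ⊔ T)), K⁆ ≤ omegaOneCenter 2 (pCoreOf 2 (K ⊔ T)) :=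
      comm_le_left (le_sup_left.trans ((le_normalizer_core _ _).trans (normalizer_le_normalizer_oz _)))
    have h7 := res_le_centralizer_of_commutator (p := 2) (H := K) (elab_pgroup (oz_elemAb _))
      ((commutator_mono le_rfl (res_le _ _)).trans (le_oz (elab_of_le (oz_elemAb _) h6) h5
        (cent_mono (oz_le_centralizer _) h6 ((h1.core_eq 2).le.trans inf_le_left))))
      ((res_le _ _).trans (cent_symm e1))
    have h8 := sup_le_sup_right hLK (T : Subgroup G)
    have h9 := h4.oz_le_oz_core ((core_le 2 _).trans h8) (core_le_core h8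
      ((Syl.core_le (hT.of_le le_sup_right le_top)).trans le_sup_right))
    have n := normalizer_le_normalizer_oz (p := 2) (pCoreOf 2 L)
    have := res_le_centralizer_of_pq (p := 2) (Z := pCoreOf 2 (L ⊔ T)) (Q := L) (elab_pgroup (oz_elemAb _))
      ((h3.core_norm 2).trans ((normalizer_le_normalizer_core _ _).trans n)) ((le_normalizer_core _ _).trans n)
      (le_sup_left.trans (le_normalizer_core _ _)) ((res_eq_bot_iff.2 (core_pgroup _ _)).le.trans bot_le)
      (((commutator_mono le_rfl (res_le _ _)).trans (h3.comm_core 2)).trans (le_centralizer_oz _))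
      (cent_mono h7 (res_mono hLK) ((le_oz (elab_of_le (oz_elemAb _) inf_le_left) (inf_le_left.trans
        ((oz_le _).trans ((h3.core_eq 2).le.trans inf_le_left))) inf_le_right).trans h9))
    rw [res_eq_of_perfect h3.perf] at this
    exact comm_eq_bot_iff'.2 this
  exact ⟨key, fun h => ⟨⟨hL.1, fun K h1 h2 => h K (key K h1 h2) h2⟩, hL.2⟩⟩

end Cfsg.Agent.S1851
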