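import Cfsg.Statements.S1957
import Cfsg.Agent.Lib.TI.Stab
import Cfsg.Agent.Lib.Coprime.Generation
import Cfsg.Agent.Lib.PGroup.Alperin

set_option autoImplicit false
open Cfsg

namespace Cfsg.Agent.S1957

open Cfsg.Lib Cfsg.Lib.Core Cfsg.Lib.Transfer Subgroup
open scoped commutatorElement

/-- Let `G` be a finite non-abelian simple group in which every local subgroup is solvable and which is of characteristic 2 type. Let `P` be a Sylow 2-subgroup of `G` and `U` a normal subgroup of `P` that is a four-group, with `U` central in `P` if the centre of `P` is not cyclic. Then `U` centralizes every subgroup of odd order of `G` that it normalizes. -/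
theorem result {G : Type*} [Group G] [Finite G]
    [IsSimpleGroup G] (hna : ¬ IsMulCommutative G) (hN : Cfsg.IsNGroup G) (h2 : Cfsg.IsCharacteristicTwoType G)
    (P : Sylow 2 G) (U : Subgroup G) (hUP : U ≤ (P : Subgroup G)) (hUn : (P : Subgroup G) ≤ Subgroup.normalizer (U : Set G))
    (hU4 : IsKleinFour ↥U)
    (hUZ : ¬ IsCyclic ↥((P : Subgroup G) ⊓ Subgroup.centralizer ((P : Subgroup G) : Set G)) →
      U ≤ Subgroup.centralizer ((P : Subgroup G) : Set G))
    (K : Subgroup G) (hK : Odd (Nat.card K)) (hUK : U ≤ Subgroup.normalizer (K : Set G)) :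
    U ≤ Subgroup.centralizer (K : Set G) := by
  have : Fact (Nat.Prime 2) := ⟨Nat.prime_two⟩
  obtain ⟨h3, h4⟩ := PGroup.isKleinFour_iff.1 hU4
  have hc : (Nat.card K).Coprime 2 := Nat.coprime_two_right.2 hK
  rw [le_centralizer_iff]
  refine Coprime.le_of_forall_centralizer_le h3.1 (PGroup.elemAb_not_isCyclic h3 h4.ge) hUK
    (h4 ▸ (hc.pow_right 2).symm) fun u hu h1 => ?_
  have ho := PGroup.elemAb_orderOf h3 hu h1
  set H := centralizer ({u} : Set G)
  set C := (P : Subgroup G) ⊓ centralizer (U : Set G)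
  have hH : Loc.IsChP 2 H := by
    have := Loc.isChP_iff.2 (h2.2 _ (Comp.isPGroup_zpowers_of_orderOf_eq ho) (by rwa [Ne, zpowers_eq_bot]))
    rwa [Loc.isChP_normalizer_iff (Comp.isPGroup_zpowers_of_orderOf_eq ho), centralizer_zpowers] at this
  have hCH : centralizer (U : Set G) ≤ H := centralizer_le (Set.singleton_subset_iff.2 hu)
  have hUC := PGroup.elemAb_le_centralizer h3
  have hUH := hUC.trans hCH
  obtain ⟨T, h5, h6, h7, h8⟩ := exists_sylowIn_ge (P.isPGroup'.to_inf_left (K := centralizer (U : Set G)))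
    (inf_le_right.trans hCH)
  have h9 : ∀ v ∈ U, ∀ q ∈ T, ⁅q, v⁆ ∈ centralizer (H : Set G) := fun v hv q hq => by
    by_cases hqC : q ∈ C
    · rw [commutatorElement_eq_one_iff_mul_comm.2 (hqC.2 v hv).symm]
      exact one_mem _
    have e1 := PGroup.card_le_mul_card_inf_centralizer_sq P.isPGroup' hUn h4
    have e2 := PGroup.mul_card_le_of_lt h7 (h5.lt_of_ne fun e => hqC (e.ge hq))
    obtain ⟨g, e3⟩ := exists_conj_le_sylow P h7
    have e4 : g ⋆ T = P := eq_of_le_of_card_ge e3 (by rw [card_conj]; exact e1.trans e2)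
    have e5 : Nat.card T = 2 * Nat.card C := le_antisymm (by rwa [← card_conj g, e4]) e2
    have e6 : IsCyclic ↥(T ⊓ centralizer (T : Set G)) := by
      have : IsCyclic ↥((P : Subgroup G) ⊓ centralizer ((P : Subgroup G) : Set G)) := by
        by_contra h
        have : C = P := inf_eq_left.2 (le_centralizer_iff.1 (hUZ h))
        rw [this, ← e4, card_conj] at e5
        have := Nat.card_pos (α := T)
        omega
      rw [← e4, ← conj_centralizer, ← conj_inf] at this
      exact (conjEquiv g _).isCyclic.2 this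
    have e7 := PGroup.le_normalizer_of_card_eq_mul h7 h5 e5
    have hvC : v ∈ C ⊓ centralizer (C : Set G) := ⟨⟨hUP hv, hUC hv⟩, fun c hc => (hc.2 v hv).symm⟩
    have e8 : q * v * q⁻¹ ∈ C ⊓ centralizer (C : Set G) := Coprime.conj_mem_of_mem_normalizer
      (Core.le_normalizer_inf e7 (Core.le_normalizer_centralizer e7) hq) hvC
    have e9 : ∀ t ∈ T, t ∉ C → q⁻¹ * t ∈ C := fun t ht h => by
      have := (mul_mem_iff_of_index_two (H := C.subgroupOf T) (by
        have := Core.card_mul_relIndex h5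
        rw [e5, mul_comm] at this
        exact Nat.eq_of_mul_eq_mul_right Nat.card_pos this) (a := ⟨q, hq⟩⁻¹) (b := ⟨t, ht⟩)).2
        (by simp [mem_subgroupOf, hqC, h])
      exact this
    have hv2 : v * v = 1 := by rw [← pow_two]; exact h3.2 v hv
    have hvi := Inv.inv_eq_of_mul_self hv2
    have hw : ⁅q, v⁆ ∈ C ⊓ centralizer (C : Set G) := mul_mem e8 (inv_mem hvC)
    have ec : v * (q * v * q⁻¹) = q * v * q⁻¹ * v := e8.2 v hvC.1
    have hw2 : ⁅q, v⁆ * ⁅q, v⁆ = 1 := by
      rw [commutatorElement_def, hvi, mul_assoc _ v, ← mul_assoc v, ec, mul_assoc _ v v, hv2, mul_one,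
        conj_mul, hv2]
      simp
    have hq2 : q⁻¹ * v * q = q * v * q⁻¹ := by
      have := hvC.2 _ (e9 q⁻¹ (inv_mem hq) (mt inv_mem_iff.1 hqC))
      rw [← mul_right_inj q⁻¹, ← mul_left_inj q⁻¹]
      simpa [mul_assoc] using this
    have hwq : q⁻¹ * ⁅q, v⁆ = ⁅q, v⁆ * q⁻¹ := by
      rw [commutatorElement_def, hvi, ← mul_left_inj q, inv_mul_cancel_right,
        show q⁻¹ * (q * v * q⁻¹ * v) * q = v * (q⁻¹ * v * q) by group, hq2, ec]
    have hwT : ⁅q, v⁆ ∈ T ⊓ centralizer (T : Set G) := ⟨h5 hw.1, fun t ht => by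
      by_cases h : t ∈ C
      · exact hw.2 t h
      rw [← mul_right_inj q⁻¹, ← mul_assoc, hw.2 _ (e9 t ht h), ← mul_assoc, ← mul_assoc, hwq]⟩
    by_cases h : ⁅q, v⁆ = 1
    · exact h ▸ one_mem _
    rw [Inv.eq_of_isCyclic_of_orderOf_two e6 hwT ⟨h5 ⟨hUP hu, hUC hu⟩, fun t ht =>
      mem_centralizer_singleton_iff.1 (h6 ht)⟩ (Inv.orderOf_eq_two_iff.2 ⟨h, hw2⟩) ho]
    exact fun t ht => mem_centralizer_singleton_iff.1 ht
  have h10 : U ≤ pCoreOf 2 H := fun v hv => TI.mem_core_of_commutator_le_centralizer hH (hUH hv)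
    fun x hx => h9 v hv x (Loc.core_le_of_not_dvd h8 hx)
  rw [← commutator_eq_bot_iff_le_centralizer]
  refine eq_bot_of_isPGroup_of_coprime ((Loc.core_pgroup 2 H).to_le ((commutator_mono le_rfl h10).trans
    (le_normalizer_iff_commutator_le_right.1 (inf_le_right.trans (Loc.le_normalizer_core 2 H)))))
    (hc.of_dvd_left (card_dvd_of_le ((commutator_mono inf_le_left le_rfl).trans
      (Coprime.commutator_le_of_le_normalizer hUK))))

end Cfsg.Agent.S1957
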