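import Cfsg.Statements.S1958
import Cfsg.Agent.Lib.Coprime.Constraint
import Cfsg.Agent.Lib.Comp.Local

set_option autoImplicit false
open Cfsg

namespace Cfsg.Agent.S1958

open Subgroup

theorem aux {G : Type*} [Group G] [Finite G]
    (p : ℕ) [Fact p.Prime] (x y : G) (hx : orderOf x = p) (hxy : x * y = y * x)
    (hCy : Group.IsSolvable ↥(Subgroup.centralizer ({y} : Set G))) :
    Cfsg.centralizerPPrimeCore p x ⊓ Subgroup.centralizer {y} ≤ Cfsg.centralizerPPrimeCore p y := by
  have e : centralizer (zpowers x : Set G) = centralizer {x} := by rw [zpowers_eq_closure, centralizer_closure]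
  refine Lib.Coprime.le_pPrimeCoreOf_of_le_centralizer (R := zpowers x) hCy
    (zpowers_le.2 (mem_centralizer_singleton_iff.2 hxy)) (Lib.Comp.isPGroup_zpowers_of_orderOf_eq hx)
    (Lib.Core.coprime_of_le inf_le_left ?_) (le_inf inf_le_right (e ▸ inf_le_left.trans (map_subtype_le _))) ?_
  · rw [centralizerPPrimeCore, card_map_of_injective (subtype_injective _)]
    exact Lib.Core.pPrimeCore_coprime _ _
  · rw [e]
    exact Lib.Coprime.le_normalizer_inf (inf_le_right.trans (Lib.Core.le_normalizer_pPrimeCoreOf p _))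
      (inf_le_left.trans le_normalizer)

/-- Let `G` be a finite group, `p` a prime, and `x, y` commuting elements of order `p` whose centralizers `C_G(x)` and `C_G(y)` are both solvable. Then `O_{p'}(C_G(x)) ∩ C_G(y) = O_{p'}(C_G(y)) ∩ C_G(x)` (balance). -/
theorem result {G : Type*} [Group G] [Finite G]
    (p : ℕ) [Fact p.Prime] (x y : G) (hx : orderOf x = p) (hy : orderOf y = p) (hxy : x * y = y * x)
    (hCx : Group.IsSolvable ↥(Subgroup.centralizer ({x} : Set G))) (hCy : Group.IsSolvable ↥(Subgroup.centralizer ({y} : Set G))) :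
    Cfsg.centralizerPPrimeCore p x ⊓ Subgroup.centralizer {y} = Cfsg.centralizerPPrimeCore p y ⊓ Subgroup.centralizer {x} := by
  exact le_antisymm (le_inf (aux p x y hx hxy hCy) (inf_le_left.trans (map_subtype_le _)))
    (le_inf (aux p y x hy hxy.symm hCx) (inf_le_left.trans (map_subtype_le _)))

end Cfsg.Agent.S1958
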