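import Cfsg.Statements.S1961
import Cfsg.Agent.Lib.Transfer.Control

set_option autoImplicit false
open Cfsg

namespace Cfsg.Agent.S1961

/-- Local-to-global control of strong fusion through well-placed subgroups. Let p be a prime, G a finite group with Sylow p-subgroup S, and W a conjugacy functor for p on G. If W controls strong fusion in N_G(T) for every nonidentity subgroup T of S that is well placed in S with respect to W, then W controls strong fusion in G. -/
theorem result {G : Type*} [Group G] [Finite G] {p : ℕ} [Fact p.Prime] (S : Sylow p G) (W : Subgroup G → Subgroup G) (hW : Cfsg.IsConjugacyFunctor p W) (hloc : ∀ T : Subgroup G, T ≠ ⊥ → Cfsg.IsWellPlaced p W (S : Subgroup G) T → Cfsg.ControlsStrongFusionIn p W (Subgroup.normalizer ((T : Subgroup G) : Set G))) : Cfsg.ControlsStrongFusionIn p W ⊤ := by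
  have h𝓦 : ∀ V ∈ ({W} : Set (Subgroup G → Subgroup G)), Cfsg.IsConjugacyFunctor p V := by
    rintro _ rfl; exact hW
  exact Lib.Transfer.controlsStrongFusionIn_iff_family.2
    ((Lib.Transfer.familyControlsStrongFusionIn_iff h𝓦 le_top S.2 (Lib.Transfer.sylow_not_dvd_relIndex S le_top)).2
    (Lib.Transfer.fusCtl_of_local S h𝓦 _ (Lib.Transfer.exists_conj_mem_wellPlaced hW S)
      fun T h1 _ h2 _ => Lib.Transfer.controlsStrongFusionIn_iff_family.1 (hloc T h2 h1)))

end Cfsg.Agent.S1961
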