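import Cfsg.Statements.S1966
import Cfsg.Agent.Lib.Transfer.Chain
import Cfsg.Agent.Lib.Core.PCore

set_option autoImplicit false
open Cfsg

namespace Cfsg.Agent.S1966

open Subgroup Cfsg.Lib.Transfer

/-- Let p be a prime, G a finite group with Sylow p-subgroup S and 𝓕 a conjugation family for S in G. Then the members of 𝓕 containing O_p(G) still form a conjugation family for S in G. -/
theorem result {G : Type*} [Group G] [Finite G] {p : ℕ} [Fact p.Prime] (S : Sylow p G) (𝓕 : Set (Subgroup G)) (h : Cfsg.IsConjugationFamily 𝓕 (S : Subgroup G)) : Cfsg.IsConjugationFamily {T : Subgroup G | T ∈ 𝓕 ∧ Cfsg.pCore p G ≤ T} (S : Subgroup G) := by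
  rw [isConjugationFamily_iff] at h ⊢
  refine ⟨fun T hT => h.1 T hT.1, fun A g hA hAS hg => ?_⟩
  have hO : pCore p G ≤ S := Lib.Core.pCore_le_sylow S
  have hn : ∀ x : G, ∀ B : Set G, (pCore p G : Set G) ⊆ B → (pCore p G : Set G) ⊆ (fun a => x⁻¹ * a * x) '' B :=
    fun x B hB a ha => ⟨x * a * x⁻¹, hB (Normal.conj_mem inferInstance a ha x), by group⟩
  have key : ∀ (B : Set G) (g : G), ConjChain (fun T : Subgroup G => (T : Set G))
      (fun T x => T ∈ 𝓕 ∧ x ∈ normalizer (T : Set G)) B g → (pCore p G : Set G) ⊆ B →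
      ConjChain (fun T : Subgroup G => (T : Set G))
      (fun T x => T ∈ {T : Subgroup G | T ∈ 𝓕 ∧ Cfsg.pCore p G ≤ T} ∧ x ∈ normalizer (T : Set G)) B g := by
    intro B g hc
    induction hc with
    | nil A => exact fun _ => .nil A
    | cons T x h1 h2 _ ih => exact fun hB => .cons T x ⟨⟨h1.1, hB.trans h2⟩, h1.2⟩ h2 (ih (hn x _ hB))
  refine (key (A ∪ pCore p G) g (h.2 _ g hA.inl (Set.union_subset hAS hO) ?_) Set.subset_union_right).mono
    Set.subset_union_left
  rw [Set.image_union]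
  refine Set.union_subset hg ?_
  rintro _ ⟨a, ha, rfl⟩
  exact hO (Normal.conj_mem' inferInstance a ha g)

end Cfsg.Agent.S1966
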