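import Cfsg.Statements.S1967
import Cfsg.Agent.Lib.Transfer.Control

set_option autoImplicit false
open Cfsg

namespace Cfsg.Agent.S1967

/-- Let p be a prime, G a finite group with Sylow p-subgroup S and W a conjugacy functor for p on G. Then W controls strong fusion in G if and only if, whenever T ≤ S and g ∈ G satisfy gTg⁻¹ ≤ S, one can write g = n c with n ∈ N_G(W(S)) and c ∈ C_G(T). -/
theorem result {G : Type*} [Group G] [Finite G] {p : ℕ} [Fact p.Prime] (S : Sylow p G) (W : Subgroup G → Subgroup G) (hW : Cfsg.IsConjugacyFunctor p W) : Cfsg.ControlsStrongFusionIn p W ⊤ ↔ ∀ (T : Subgroup G) (g : G), T ≤ (S : Subgroup G) → T.map (MulAut.conj g).toMonoidHom ≤ (S : Subgroup G) → ∃ n ∈ Subgroup.normalizer ((W (S : Subgroup G) : Subgroup G) : Set G), ∃ c ∈ Subgroup.centralizer (T : Set G), g = n * c := by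
  have h𝓦 : ∀ V ∈ ({W} : Set (Subgroup G → Subgroup G)), Cfsg.IsConjugacyFunctor p V := by
    rintro _ rfl; exact hW
  rw [Lib.Transfer.controlsStrongFusionIn_iff_family, Lib.Transfer.familyControlsStrongFusionIn_iff h𝓦 le_top S.2
    (Lib.Transfer.sylow_not_dvd_relIndex S le_top), Lib.Transfer.fusCtl_singleton_iff]
  constructor
  · intro h T g hT hg
    obtain ⟨x, hx, e⟩ := h T g trivial hT fun a ha => hg (Lib.Transfer.conj_mem_conj.2 ha)
    refine ⟨x, hx.2, x⁻¹ * g, fun a ha => ?_, by group⟩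
    calc a * (x⁻¹ * g) = x⁻¹ * (x * a * x⁻¹) * g := by group
      _ = _ := by rw [e a ha]; group
  · intro h A g _ hA hg
    obtain ⟨n, hn, c, hc, rfl⟩ := h (Subgroup.closure A) g ((Subgroup.closure_le _).2 hA) (by
      rw [← Lib.Transfer.closure_image_conj', Subgroup.closure_le]
      rintro _ ⟨a, ha, rfl⟩
      exact hg a ha)
    refine ⟨n, ⟨trivial, hn⟩, fun a ha => ?_⟩
    calc n * a * n⁻¹ = n * (a * c) * (n * c)⁻¹ := by group
      _ = _ := by rw [hc a (Subgroup.subset_closure ha)]; group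

end Cfsg.Agent.S1967
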