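import Cfsg.Statements.S1970
import Cfsg.Agent.Lib.Transfer.SectionTransfer

set_option autoImplicit false
universe u
open Cfsg

namespace Cfsg.Agent.S1970

/-- Let p be a prime, G a finite group and W an isomorphism-invariant p-group functor (W assigns to every group Q a subgroup W(Q), nontrivial whenever Q is a nontrivial finite p-group, and every isomorphism from a finite p-group Q onto a group R carries W(Q) onto W(R)). Suppose that for every section G* = K/R of G with C_{G*}(O_p(G*)) ≤ O_p(G*) and every Sylow p-subgroup S* of G*, one has O_p(G*) ∩ (G*)' = O_p(G*) ∩ (N_{G*}(W(S*)))'. Then W controls transfer in every section G* of G: S* ∩ (G*)' = S* ∩ (N_{G*}(W(S*)))' for a Sylow p-subgroup S* of G*. -/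
theorem result {G : Type u} [Group G] [Finite G] {p : ℕ} [Fact p.Prime] (W : ∀ (Q : Type u) [Group Q], Subgroup Q) (hW : Cfsg.IsCharPFunctor.{u} p W) (hloc : ∀ (K R : Subgroup G) [hR : (R.subgroupOf K).Normal], Subgroup.centralizer ((Cfsg.pCore p (↥K ⧸ R.subgroupOf K) : Subgroup (↥K ⧸ R.subgroupOf K)) : Set (↥K ⧸ R.subgroupOf K)) ≤ Cfsg.pCore p (↥K ⧸ R.subgroupOf K) → ∀ T : Sylow p (↥K ⧸ R.subgroupOf K), Cfsg.pCore p (↥K ⧸ R.subgroupOf K) ⊓ commutator (↥K ⧸ R.subgroupOf K) = Cfsg.pCore p (↥K ⧸ R.subgroupOf K) ⊓ ⁅Subgroup.normalizer ((Cfsg.inducedFunctor (G := (↥K ⧸ R.subgroupOf K)) W ((T : Subgroup (↥K ⧸ R.subgroupOf K))) : Subgroup (↥K ⧸ R.subgroupOf K)) : Set (↥K ⧸ R.subgroupOf K)), Subgroup.normalizer ((Cfsg.inducedFunctor (G := (↥K ⧸ R.subgroupOf K)) W ((T : Subgroup (↥K ⧸ R.subgroupOf K))) : Subgroup (↥K ⧸ R.subgroupOf K)) : Set (↥K ⧸ R.subgroupOf K))⁆) : ∀ (K R : Subgroup G) [hR : (R.subgroupOf K).Normal], Cfsg.ControlsTransferIn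 p (Cfsg.inducedFunctor (G := (↥K ⧸ R.subgroupOf K)) W) ⊤ := by
  intro K R _
  have h𝓦 : ∀ V ∈ ({W} : Set (∀ (Q : Type u) [Group Q], Subgroup Q)), Cfsg.IsCharPFunctor.{u} p V := by
    rintro _ rfl; exact hW
  have h := Lib.Transfer.familyControlsTransferIn_of_step h𝓦 (G := G) (fun K R _ IH => by
    by_contra h
    obtain ⟨S⟩ : Nonempty (Sylow p (K ⧸ R.subgroupOf K)) := inferInstance
    obtain ⟨h1, h2⟩ := Lib.Transfer.minimal_transfer h𝓦 IH h S
    refine (h2 (fun hS => h (Lib.Transfer.familyControlsTransferIn_of_normal h𝓦 S rfl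
      (Lib.Transfer.normal_inducedFunctor_of_le_pCore hW S hS))) _ _ rfl rfl).2.2.1 ?_
    rw [hloc K R h1 S, Lib.Transfer.trSub_ind_top]
    simp only [Set.mem_singleton_iff, iSup_iSup_eq_left]
    exact inf_le_inf_right _ (Lib.Core.pCore_le_sylow S))
    (K ⧸ R.subgroupOf K) (Lib.PLocal.hasSection_iff.2 ⟨K, R, _, ⟨MulEquiv.refl _⟩⟩)
  rw [Lib.Transfer.ind, Set.image_singleton] at h
  exact Lib.Transfer.controlsTransferIn_iff_family.2 h

end Cfsg.Agent.S1970
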