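import Cfsg.Statements.S1972
import Cfsg.Agent.Lib.Transfer.SectionTransfer

set_option autoImplicit false
universe u
open Cfsg

namespace Cfsg.Agent.S1972

/-- Let p be a prime, G a finite group and W an isomorphism-invariant p-group functor (W assigns to every group Q a subgroup W(Q), nontrivial whenever Q is a nontrivial finite p-group, and every isomorphism from a finite p-group Q onto a group R carries W(Q) onto W(R)). Suppose that whenever G* = K/R is a section of G with C_{G*}(O_p(G*)) ≤ O_p(G*) and S* is a Sylow p-subgroup of G* with W(S*) not normal in G*, there is an element g of S* outside O_p(G*) such that [X, g, …, g] ≤ Y with p − 1 entries g, for every chief factor X/Y of G* with X ≤ O_p(G*). Then W controls transfer in every section of G. -/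
theorem result {G : Type u} [Group G] [Finite G] {p : ℕ} [Fact p.Prime] (W : ∀ (Q : Type u) [Group Q], Subgroup Q) (hW : Cfsg.IsCharPFunctor.{u} p W) (hloc : ∀ (K R : Subgroup G) [hR : (R.subgroupOf K).Normal], Subgroup.centralizer ((Cfsg.pCore p (↥K ⧸ R.subgroupOf K) : Subgroup (↥K ⧸ R.subgroupOf K)) : Set (↥K ⧸ R.subgroupOf K)) ≤ Cfsg.pCore p (↥K ⧸ R.subgroupOf K) → ∀ T : Sylow p (↥K ⧸ R.subgroupOf K), ¬ (Cfsg.inducedFunctor (G := (↥K ⧸ R.subgroupOf K)) W ((T : Subgroup (↥K ⧸ R.subgroupOf K)))).Normal → ∃ g : (↥K ⧸ R.subgroupOf K), g ∈ (T : Subgroup (↥K ⧸ R.subgroupOf K)) ∧ g ∉ Cfsg.pCore p (↥K ⧸ R.subgroupOf K) ∧ ∀ U V : Subgroup (↥K ⧸ R.subgroupOf K), Cfsg.IsChiefFactor U V → U ≤ Cfsg.pCore p (↥K ⧸ R.subgroupOf K) → Cfsg.iterCommutator U (Subgroup.zpowers g) (p - 1) ≤ V) : ∀ (K R : Subgroup G) [hR : (R.subgroupOf K).Normal], Cfsg.ControlsTransferIn p (Cfsg.inducedFunctor (G := (↥K ⧸ R.subgroupOf K)) W) ⊤ := by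
  intro K R _
  have h𝓦 : ∀ V ∈ ({W} : Set (∀ (Q : Type u) [Group Q], Subgroup Q)), Cfsg.IsCharPFunctor.{u} p V := by
    rintro _ rfl; exact hW
  have h := Lib.Transfer.familyControlsTransferIn_of_step h𝓦 (G := G) (fun K R _ IH => by
    by_contra h
    obtain ⟨S⟩ : Nonempty (Sylow p (K ⧸ R.subgroupOf K)) := inferInstance
    obtain ⟨h1, h2⟩ := Lib.Transfer.minimal_transfer h𝓦 IH h S
    obtain ⟨g, g1, g2, g3⟩ := hloc K R h1 S fun hn =>
      h (Lib.Transfer.familyControlsTransferIn_of_normal h𝓦 S rfl hn)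
    obtain ⟨U, V, k1, k2, k3⟩ := (h2 (fun hS => g2 (hS g1)) _ _ rfl rfl).2.2.2 g g1 g2
    exact k3 (g3 U V k1 k2))
    (K ⧸ R.subgroupOf K) (Lib.PLocal.hasSection_iff.2 ⟨K, R, _, ⟨MulEquiv.refl _⟩⟩)
  rw [Lib.Transfer.ind, Set.image_singleton] at h
  exact Lib.Transfer.controlsTransferIn_iff_family.2 h

end Cfsg.Agent.S1972
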