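import Cfsg.Statements.S1981
import Cfsg.Agent.Lib.PLocal.KInf

set_option autoImplicit false
open Cfsg

set_option linter.unusedVariables false
open Cfsg.Lib

namespace Cfsg.Agent.S1981

/-- Let P be a finite p-group generated by its abelian normal subgroups. Then both K-infinity subgroups of P equal P. -/
theorem result {P : Type*} [Group P] [Finite P] {p : ℕ} [Fact p.Prime] (hP : IsPGroup p P) (hgen : ⨆ A ∈ {A : Subgroup P | A.Normal ∧ IsMulCommutative ↥A}, A = ⊤) : Cfsg.kInfLower P = ⊤ ∧ Cfsg.kInfUpper P = ⊤ := by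
  rw [← PLocal.kLowIn_top, ← PLocal.kUpIn_top]
  constructor
  · rw [eq_top_iff, ← hgen]
    refine iSup₂_le fun A hA => ?_
    have := hA.1
    exact PLocal.le_kLowIn_of_isMulCommutative hA.2 (hgen ▸ le_top) (by rw [Subgroup.normalizer_eq_top]; exact le_top)
  · rw [eq_top_iff, ← hgen]
    refine iSup₂_le fun A hA => ?_
    have := hA.1
    exact PLocal.le_kUpIn_of_isMulCommutative hA.2 (hgen ▸ le_top) (by rw [Subgroup.normalizer_eq_top]; exact le_top)

end Cfsg.Agent.S1981
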