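import Cfsg.Statements.S1990
import Cfsg.Agent.Lib.PLocal.KInfCor

set_option autoImplicit false
universe u
open Cfsg

set_option linter.unusedVariables false
open Cfsg.Lib

namespace Cfsg.Agent.S1990

/-- Let p be an odd prime, G a finite group with Sylow p-subgroup S, and W an isomorphism-invariant p-group functor (W assigns to every group Q a subgroup W(Q), nontrivial whenever Q is a nontrivial finite p-group, and every isomorphism from a finite p-group Q onto a group R carries W(Q) onto W(R)). Suppose N_G(W(S)) has a normal p-complement, and W(T) controls strong fusion in every section G* = K/R of G all of whose sections are p-stable in the normalizer form, for every Sylow p-subgroup T of G*. Then G has a normal p-complement. -/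
theorem result {G : Type u} [Group G] [Finite G] {p : ℕ} [Fact p.Prime] (hp : p ≠ 2) (W : ∀ (Q : Type u) [Group Q], Subgroup Q) (hW : Cfsg.IsCharPFunctor.{u} p W) (S : Sylow p G) (hN : Cfsg.HasNormalPComplement p ↥(Subgroup.normalizer ((Cfsg.inducedFunctor (G := G) W (S : Subgroup G) : Subgroup G) : Set G))) (hctl : ∀ (K R : Subgroup G) [hR : (R.subgroupOf K).Normal], (∀ (K' R' : Subgroup (↥K ⧸ R.subgroupOf K)) [hR' : (R'.subgroupOf K').Normal], Cfsg.IsNormalizerPStable p (↥K' ⧸ R'.subgroupOf K')) → ∀ T : Sylow p (↥K ⧸ R.subgroupOf K), Cfsg.ControlsStrongFusion p (Cfsg.inducedFunctor (G := (↥K ⧸ R.subgroupOf K)) W (T : Subgroup (↥K ⧸ R.subgroupOf K)))) : Cfsg.HasNormalPComplement p G := by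
  refine Transfer.hasNormalPComplement_of_sections hW (fun X _ _ hX hc hq T hT => ?_) G
    PLocal.hasSection_refl S hN
  have hst : PLocal.SecStable p X := PLocal.secStable_of_abelian_sylow_two hp
    (PLocal.isMulCommutative_sylow_of_isCoatom hp.symm hq hT)
  obtain ⟨K, R, _, ⟨e⟩⟩ := PLocal.hasSection_iff.mp hX
  have hst' : PLocal.SecStable p (K ⧸ R.subgroupOf K) :=
    hst.of_hasSection (PLocal.hasSection_of_injective e.toMonoidHom e.injective)
  refine Transfer.normal_inducedFunctor_of_equiv hW e.symm T.isPGroup' ?_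
  let T' := T.mapSurjective (f := e.symm.toMonoidHom) e.symm.surjective
  have h := hctl K R (fun K' R' _ => (hst'.section K' R').isNormalizerPStable) T'
  have hn : (T' : Subgroup (K ⧸ R.subgroupOf K)) ≤ Subgroup.normalizer
      (Cfsg.inducedFunctor W (T' : Subgroup (K ⧸ R.subgroupOf K)) : Set (K ⧸ R.subgroupOf K)) :=
    Transfer.le_normalizer_functor (Transfer.isConjugacyFunctor_inducedFunctor hW) T'.isPGroup'
  have hc' := Transfer.centralizer_pCore_le_congr e hc
  refine Core.normal_of_top_le_normalizer fun g _ => ?_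
  obtain ⟨x, hx, h1⟩ := Transfer.exists_mem_normalizer_of_controlsStrongFusion T' hn h
    (A := Cfsg.pCore p (K ⧸ R.subgroupOf K)) (Core.pCore_le_sylow T') (g := g)
    (fun a ha => Core.pCore_le_sylow T' (Subgroup.Normal.conj_mem inferInstance a ha g))
  have h2 : x⁻¹ * g ∈ Subgroup.centralizer (Cfsg.pCore p (K ⧸ R.subgroupOf K) : Set (K ⧸ R.subgroupOf K)) := by
    intro a ha
    calc a * (x⁻¹ * g) = x⁻¹ * (x * a * x⁻¹) * g := by group
      _ = x⁻¹ * g * a := by rw [h1 a ha]; group
  have h3 := Subgroup.mul_mem _ hx (hn (Core.pCore_le_sylow T' (hc' h2)))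
  rwa [mul_inv_cancel_left] at h3

end Cfsg.Agent.S1990
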