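import Cfsg.Statements.S1992
import Cfsg.Agent.S1991
import Cfsg.Agent.Lib.Char.Burnside

set_option autoImplicit false
open Cfsg

set_option linter.unusedVariables false
open Cfsg.Lib

namespace Cfsg.Agent.S1992

/-- Let G be a finite group in which, for every prime q dividing the order of G, every Sylow q-subgroup is its own normalizer. Then the order of G is a power of a single prime (G is a q-group for some prime q; for G trivial any prime works). -/
theorem result {G : Type*} [Group G] [Finite G] (h : ∀ q : ℕ, q.Prime → q ∣ Nat.card G → ∀ Q : Sylow q G, Subgroup.normalizer ((Q : Subgroup G) : Set G) = Q) : ∃ q : ℕ, q.Prime ∧ IsPGroup q G := by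
  rcases subsingleton_or_nontrivial G with hG | hG
  · exact ⟨2, Nat.prime_two, fun g => ⟨0, Subsingleton.elim _ _⟩⟩
  obtain ⟨N, hN, hNi⟩ : ∃ N : Subgroup G, N.Normal ∧ N.index.Prime := by
    by_cases h5 : ∃ p : ℕ, p.Prime ∧ p ∣ Nat.card G ∧ 5 ≤ p
    · obtain ⟨p, hp, hpG, hp5⟩ := h5
      have := Fact.mk hp
      obtain ⟨S⟩ : Nonempty (Sylow p G) := inferInstance
      obtain ⟨N, hN, hNi⟩ := Cfsg.Agent.S1991.result hp5 S (S.ne_bot_of_dvd_card hpG) (fun g hg hc => by
        rw [h p hp hpG S] at hg
        obtain ⟨k, hk⟩ := S.isPGroup' ⟨g, hg⟩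
        rw [Transfer.eq_one_of_pow_pow_eq_one_of_coprime (g := g) (congrArg Subtype.val hk) hc]
        exact Subgroup.one_mem _)
      exact ⟨N, hN, hNi ▸ hp⟩
    · push Not at h5
      have : Group.IsSolvable G := Char.isSolvable_of_forall_prime_dvd G 2 3 fun r hr hrG => by
        have h1 := h5 r hr hrG
        have h2 := hr.two_le
        interval_cases r
        · exact Or.inl rfl
        · exact Or.inr rfl
        · exact absurd hr (by norm_num)
      exact Core.exists_normal_index_prime
  refine ⟨N.index, hNi, ?_⟩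
  have := Fact.mk hNi
  rw [IsPGroup.iff_card]
  refine ⟨_, Nat.eq_prime_pow_of_unique_prime_dvd Nat.card_pos.ne' fun {q} hq hqG => ?_⟩
  by_contra hne
  have := Fact.mk hq
  obtain ⟨Q⟩ : Nonempty (Sylow q G) := inferInstance
  have hQN : (Q : Subgroup G) ≤ N := Core.le_of_isPGroup_of_coprime_index Q.isPGroup'
    ((Nat.coprime_primes hNi hq).mpr (Ne.symm hne))
  have h1 : Subgroup.normalizer ((Q : Subgroup G) : Set G) ⊔ N = ⊤ := Sylow.normalizer_sup_eq_top' Q hQN
  rw [h q hq hqG Q, sup_eq_right.mpr hQN] at h1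
  rw [h1, Subgroup.index_top] at hNi
  exact Nat.not_prime_one hNi

end Cfsg.Agent.S1992
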