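import Cfsg.Statements.S1996
import Cfsg.Agent.Lib.Transfer.Section

set_option autoImplicit false
universe u
open Cfsg

set_option linter.unusedVariables false
open Cfsg.Lib

namespace Cfsg.Agent.S1996

open Subgroup Transfer PLocal in
theorem aux {X : Type u} [Group X] [Finite X] {p : ℕ} [Fact p.Prime]
    {W₁ W₂ : ∀ (Q : Type u) [Group Q], Subgroup Q} (hW₁ : Cfsg.IsCharPFunctor.{u} p W₁)
    (hW₂ : Cfsg.IsCharPFunctor.{u} p W₂) (T : Sylow p X)
    (h : ∀ x : X, ∃ a ∈ normalizer (inducedFunctor (G := X) W₁ (T : Subgroup X) : Set X),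
      ∃ b ∈ normalizer (inducedFunctor (G := X) W₂ (T : Subgroup X) : Set X), x = a * b) :
    FusCtl (ind {W₁, W₂} X) ⊤ T := by
  intro A x _ hA hx
  obtain ⟨a, ha, b, hb, rfl⟩ := h x
  have h1 := le_normalizer_functor (isConjugacyFunctor_inducedFunctor hW₁) T.isPGroup'
  have h2 := le_normalizer_functor (isConjugacyFunctor_inducedFunctor hW₂) T.isPGroup'
  have hA' : closure A ≤ T := (closure_le _).mpr hA
  have hx' : (a * b) ⋆ closure A ≤ T := conj_le_iff_le_inv_conj.mpr ((closure_le _).mpr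
    fun y hy => by rw [SetLike.mem_coe, mem_conj, inv_inv]; exact hx y hy)
  obtain ⟨c, hc, h3⟩ := exists_conj_le_of_not_dvd_relIndex'
    (sylow_not_dvd_relIndex T (le_inf h1 h2)) (isPGroup_conj (T.isPGroup'.to_le hA') b)
    (le_inf (by
      rw [← conj_conj, conj_le_iff_le_inv_conj] at hx'
      exact hx'.trans ((conj_mono _ h1).trans (conj_eq_self_of_mem (inv_mem ha)).le))
      ((conj_mono _ (hA'.trans h2)).trans (conj_eq_self_of_mem hb).le))
  rw [conj_conj] at h3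
  refine Fus.step (c := c * b) (x := a * c⁻¹) (Fus.single
    ⟨_, ⟨W₂, by simp, rfl⟩, trivial, mul_mem hc.2 hb⟩
    fun y hy => conj_le_iff.mp h3 y (subset_closure hy))
    ⟨_, ⟨W₁, by simp, rfl⟩, trivial, Subgroup.mul_mem _ ha (Subgroup.inv_mem _ hc.1)⟩ hx fun y _ => by group

/-- Let p be a prime, G a finite group and W₁, W₂ two isomorphism-invariant p-group functors (W assigns to every group Q a subgroup W(Q), nontrivial whenever Q is a nontrivial finite p-group, and every isomorphism from a finite p-group Q onto a group R carries W(Q) onto W(R)). Suppose that G* = N_{G*}(W₁(S*)) N_{G*}(W₂(S*)) whenever G* = K/R is a section of G with C_{G*}(O_p(G*)) ≤ O_p(G*) and S* is a Sylow p-subgroup of G*. Then the pair {W₁, W₂} controls strong fusion in G. -/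
theorem result {G : Type u} [Group G] [Finite G] {p : ℕ} [Fact p.Prime] (W₁ W₂ : ∀ (Q : Type u) [Group Q], Subgroup Q) (hW₁ : Cfsg.IsCharPFunctor.{u} p W₁) (hW₂ : Cfsg.IsCharPFunctor.{u} p W₂) (hfac : ∀ (K R : Subgroup G) [hR : (R.subgroupOf K).Normal], Subgroup.centralizer ((Cfsg.pCore p (↥K ⧸ R.subgroupOf K) : Subgroup (↥K ⧸ R.subgroupOf K)) : Set (↥K ⧸ R.subgroupOf K)) ≤ Cfsg.pCore p (↥K ⧸ R.subgroupOf K) → ∀ T : Sylow p (↥K ⧸ R.subgroupOf K), ∀ x : (↥K ⧸ R.subgroupOf K), ∃ a ∈ Subgroup.normalizer ((Cfsg.inducedFunctor (G := (↥K ⧸ R.subgroupOf K)) W₁ (T : Subgroup (↥K ⧸ R.subgroupOf K)) : Subgroup (↥K ⧸ R.subgroupOf K)) : Set (↥K ⧸ R.subgroupOf K)), ∃ b ∈ Subgroup.normalizer ((Cfsg.inducedFunctor (G := (↥K ⧸ R.subgroupOf K)) W₂ (T : Subgroup (↥K ⧸ R.subgroupOf K)) : Subgroup (↥K ⧸ R.subgroupOf K)) : Set (↥K ⧸ R.subgroupOf K)), x = a * b) : Cfsg.FamilyControlsStrongFusionIn p {Cfsg.inducedFunctor (G := G) W₁, Cfsg.inducedFunctor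 (G := G) W₂} ⊤ := by
  open Subgroup Transfer PLocal in
  have h𝓦 : ∀ W ∈ ({W₁, W₂} : Set (∀ (Q : Type u) [Group Q], Subgroup Q)), IsCharPFunctor.{u} p W := by
    rintro W (rfl | rfl)
    exacts [hW₁, hW₂]
  have := familyControlsStrongFusionIn_of_constrained h𝓦 (fun K R _ hc => by
    obtain ⟨T⟩ : Nonempty (Sylow p (K ⧸ R.subgroupOf K)) := inferInstance
    exact (familyControlsStrongFusionIn_top_iff h𝓦 T).mpr (aux hW₁ hW₂ T (hfac K R hc T))) G
    hasSection_refl
  rwa [ind, Set.image_pair] at this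

end Cfsg.Agent.S1996
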