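import Cfsg.Statements.S1997
import Cfsg.Agent.S1996
import Cfsg.Agent.Lib.PLocal.Factor
import Cfsg.Agent.Lib.PGroup.Omega

set_option autoImplicit false
universe u
open Cfsg

set_option linter.unusedVariables false
open Cfsg.Lib

namespace Cfsg.Agent.S1997

open Subgroup Transfer PLocal in
/-- The factorization `X = C(Ω₁Z(T)) N(W(T))` for all Sylow subgroups. -/
def Fac (p : ℕ) (W : ∀ (Q : Type u) [Group Q], Subgroup Q) (X : Type u) [Group X] : Prop :=
  centralizer (pCore p X : Set X) ≤ pCore p X → ∀ T : Sylow p X, ∀ x : X,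
    ∃ a ∈ centralizer (omegaCenter p (T : Subgroup X) : Set X),
      ∃ b ∈ normalizer (inducedFunctor (G := X) W (T : Subgroup X) : Set X), x = a * b

open Subgroup Transfer PLocal in
theorem lift {L : Type u} [Group L] [Finite L] {p : ℕ} [Fact p.Prime]
    {W : ∀ (Q : Type u) [Group Q], Subgroup Q} (hW : IsCharPFunctor.{u} p W) (S : Sylow p L)
    {P : Subgroup L} [P.Normal] (hPS : P ≤ S) (h : (S : Subgroup L) ⊓ centralizer (P : Set L) ≤ P)
    (hZ : omegaCenter p (S : Subgroup L) ≤ P) (N : Subgroup L) [N.Normal]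
    (hN : N = pPrimeCore p L) (hfac : Fac p W (L ⧸ N)) (x : L) :
    ∃ a ∈ centralizer (omegaCenter p (S : Subgroup L) : Set L),
      ∃ b ∈ normalizer (inducedFunctor (G := L) W (S : Subgroup L) : Set L), x = a * b := by
  subst hN
  have hP := S.isPGroup'.to_le hPS
  have hcop := Core.pPrimeCore_coprime p L
  have hs := QuotientGroup.mk'_surjective (pPrimeCore p L)
  have hk : (Nat.card (QuotientGroup.mk' (pPrimeCore p L)).ker).Coprime p := by
    rwa [QuotientGroup.ker_mk']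
  have hsolv : ∀ {A : Subgroup L}, IsPGroup p A → Group.IsSolvable A := fun hA => by
    have := hA.isNilpotent; infer_instance
  have : (P.map (QuotientGroup.mk' (pPrimeCore p L))).Normal := Normal.map inferInstance _ hs
  have h1 := centralizer_le_of_inf_centralizer_le (S.mapSurjective hs)
    (P := P.map (QuotientGroup.mk' (pPrimeCore p L))) (Core.pPrimeCore_quotient_pPrimeCore p L) (by
      rw [Coprime.centralizer_map_mk' (Core.coprime_card_of_isPGroup hP hcop) (Or.inl (hsolv hP))]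
      rintro _ ⟨⟨s, hs, rfl⟩, c, hc, e⟩
      obtain ⟨y, hy, hy1⟩ := exists_conj_le_of_not_dvd_relIndex' (p := p)
        (T := (S : Subgroup L) ⊓ centralizer (P : Set L)) (H := centralizer (P : Set L))
        (Q := zpowers s) (by rw [inf_relIndex_right]; exact sylow_not_dvd_relIndex_normal S _)
        (S.isPGroup'.to_le (zpowers_le.mpr hs)) (zpowers_le.mpr (by
          have h2 : c⁻¹ * s ∈ pPrimeCore p L := QuotientGroup.eq.mp e
          have h3 := Core.pPrimeCore_le_centralizer_pCore p L h2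
          have h4 := centralizer_le (SetLike.coe_subset_coe.mpr (Core.le_pCore inferInstance hP)) h3
          simpa using mul_mem hc h4))
      have h2 := h (conj_le_iff.mp hy1 s (mem_zpowers s))
      exact mem_map_of_mem _ (by
        simpa [mul_assoc] using Normal.conj_mem inferInstance _ h2 y⁻¹))
  have h2 := Core.le_pCore this (hP.map _)
  obtain ⟨a, ha, b, hb, e⟩ := hfac ((centralizer_le (SetLike.coe_subset_coe.mpr h2)).trans
    (h1.trans h2)) (S.mapSurjective hs) (QuotientGroup.mk' _ x)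
  have hZp : IsPGroup p (omegaCenter p (S : Subgroup L)) := S.isPGroup'.to_le (omegaCenter_le _)
  rw [Sylow.coe_mapSurjective, ← (subFunctor_omegaCenter (Or.inr rfl)).map S.isPGroup'
    (Core.inf_eq_bot_of_isPGroup_of_coprime S.isPGroup' hk), Coprime.centralizer_map_mk'
    (Core.coprime_card_of_isPGroup hZp hcop) (Or.inl (hsolv hZp))] at ha
  rw [Sylow.coe_mapSurjective, normalizer_inducedFunctor_map hW hs hk S.isPGroup'] at hb
  obtain ⟨a, ha, rfl⟩ := ha
  obtain ⟨b, hb, rfl⟩ := hb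
  refine ⟨x * (a * b)⁻¹ * a, mul_mem ?_ ha, b, hb, by group⟩
  refine centralizer_le (SetLike.coe_subset_coe.mpr (hZ.trans (Core.le_pCore inferInstance hP)))
    (Core.pPrimeCore_le_centralizer_pCore p L ?_)
  rw [← QuotientGroup.eq_one_iff]
  change QuotientGroup.mk' _ _ = 1
  rw [map_mul, map_inv, map_mul, e, mul_inv_cancel]

open Subgroup Transfer PLocal in
theorem factor {G : Type u} [Group G] [Finite G] {p : ℕ} [Fact p.Prime]
    {W : ∀ (Q : Type u) [Group Q], Subgroup Q} (hW : IsCharPFunctor.{u} p W) (S : Sylow p G)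
    (hfac : ∀ (K R : Subgroup G) [(R.subgroupOf K).Normal], Fac p W (K ⧸ R.subgroupOf K))
    {Q : Subgroup G} (hQS : Q ≤ S) (hSQ : (S : Subgroup G) ≤ normalizer (Q : Set G))
    (hZ : omegaCenter p (S : Subgroup G) ≤ Q) {h : G} (hh : h ∈ normalizer (Q : Set G)) :
    ∃ n ∈ normalizer (Q : Set G) ⊓ normalizer (inducedFunctor (G := G) W (S : Subgroup G) : Set G),
      h ⋆ omegaCenter p (S : Subgroup G) = n ⋆ omegaCenter p (S : Subgroup G) := by
  obtain ⟨c, hc, hch⟩ := frattini_argument (T := (S : Subgroup G) ⊓ centralizer (Q : Set G))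
    inf_le_right (S.isPGroup'.to_le inf_le_left) (not_dvd_relIndex_centralizer (by
      rw [inf_eq_left.mpr hSQ]; exact sylow_not_dvd_relIndex S hSQ))
    (normalizer_le_normalizer_centralizer' Q) (inv_mem hh)
  let L : Subgroup G := normalizer (Q : Set G) ⊓
    normalizer (((S : Subgroup G) ⊓ centralizer (Q : Set G) : Subgroup G) : Set G)
  have hSL : (S : Subgroup G) ≤ L := le_inf hSQ (Core.le_normalizer_inf le_normalizer
    (hSQ.trans (normalizer_le_normalizer_centralizer' Q)))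
  let P : Subgroup G := Q ⊔ (S : Subgroup G) ⊓ centralizer (Q : Set G)
  have hPS : P ≤ S := sup_le hQS inf_le_left
  have hLP : L ≤ normalizer (P : Set G) := fun l hl => conj_eq_self_iff.mp (by
    rw [conj_sup, conj_eq_self_iff.mpr hl.1, conj_eq_self_iff.mpr hl.2])
  have : (P.subgroupOf L).Normal := (normal_subgroupOf_iff_le_normalizer (hPS.trans hSL)).mpr hLP
  have hR := Core.pPrimeCoreOf_subgroupOf_self (p := p) L
  have : (((pPrimeCore p L).map L.subtype).subgroupOf L).Normal := by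
    rw [hR]; infer_instance
  have e1 := (subFunctor_omegaCenter (p := p) (Or.inr rfl)).subgroupOf S.isPGroup' hSL
  obtain ⟨a, ha, b, hb, e⟩ := lift hW (S.subtype hSL) (P := P.subgroupOf L) (comap_mono hPS)
    (fun y hy => mem_sup_right ⟨hy.1, fun q hq => congrArg Subtype.val
      (hy.2 ⟨q, hSL (hQS hq)⟩ (mem_sup_left hq : q ∈ P))⟩)
    (by rw [Sylow.coe_subtype, e1]; exact comap_mono (hZ.trans le_sup_left)) _ hR
    (hfac L _) ⟨c * h⁻¹, Subgroup.mul_mem _ (centralizer_le_normalizer _ hc)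
      (Subgroup.inv_mem _ hh), hch⟩
  rw [Sylow.coe_subtype, e1] at ha
  rw [Sylow.coe_subtype, normalizer_inducedFunctor_subgroupOf hW S.isPGroup' hSL] at hb
  have ha' : (a : G) ∈ centralizer (omegaCenter p (S : Subgroup G) : Set G) := fun z hz =>
    congrArg Subtype.val (ha ⟨z, hSL (omegaCenter_le _ hz)⟩ hz)
  have e2 : h = (b : G)⁻¹ * ((a : G)⁻¹ * c) := by
    have : c * h⁻¹ = a * b := congrArg Subtype.val e
    rw [← mul_assoc, ← mul_inv_rev, ← this]; group
  refine ⟨(b : G)⁻¹, ⟨Subgroup.inv_mem _ b.2.1, Subgroup.inv_mem _ hb⟩, ?_⟩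
  rw [e2, ← conj_conj, conj_eq_self_of_mem_centralizer (mul_mem (inv_mem ha')
    (centralizer_le (SetLike.coe_subset_coe.mpr hZ) hc))]

/-- Let p be a prime, G a finite group with Sylow p-subgroup S, and W₁, W₂ two isomorphism-invariant p-group functors (W assigns to every group Q a subgroup W(Q), nontrivial whenever Q is a nontrivial finite p-group, and every isomorphism from a finite p-group Q onto a group R carries W(Q) onto W(R)). Suppose that G* = C_{G*}(Ω₁Z(S*)) N_{G*}(W₁(S*)) = C_{G*}(Ω₁Z(S*)) N_{G*}(W₂(S*)) = N_{G*}(W₁(S*)) N_{G*}(W₂(S*)) whenever G* = K/R is a section of G with C_{G*}(O_p(G*)) ≤ O_p(G*) and S* is a Sylow p-subgroup of G*, where Ω₁Z denotes the subgroup generated by the elements of order dividing p in the centre. Suppose also Ω₁Z(S) ≤ W₁(S) ∩ W₂(S), and let A be the normal closure of Ω₁Z(S) in N_G(W₁(S)). Then A is an elementary abelian subgroup of S, strongly closed in S with respect to G, and A controls strong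 fusion in G. -/
theorem result {G : Type u} [Group G] [Finite G] {p : ℕ} [Fact p.Prime] (S : Sylow p G) (W₁ W₂ : ∀ (Q : Type u) [Group Q], Subgroup Q) (hW₁ : Cfsg.IsCharPFunctor.{u} p W₁) (hW₂ : Cfsg.IsCharPFunctor.{u} p W₂) (hfac : ∀ (K R : Subgroup G) [hR : (R.subgroupOf K).Normal], Subgroup.centralizer ((Cfsg.pCore p (↥K ⧸ R.subgroupOf K) : Subgroup (↥K ⧸ R.subgroupOf K)) : Set (↥K ⧸ R.subgroupOf K)) ≤ Cfsg.pCore p (↥K ⧸ R.subgroupOf K) → ∀ T : Sylow p (↥K ⧸ R.subgroupOf K), (∀ x : (↥K ⧸ R.subgroupOf K), ∃ a ∈ Subgroup.centralizer ((Cfsg.omegaOne p ((T : Subgroup (↥K ⧸ R.subgroupOf K)) ⊓ Subgroup.centralizer (((T : Subgroup (↥K ⧸ R.subgroupOf K)) : Subgroup (↥K ⧸ R.subgroupOf K)) : Set (↥K ⧸ R.subgroupOf K))) : Subgroup (↥K ⧸ R.subgroupOf K)) : Set (↥K ⧸ R.subgroupOf K)), ∃ b ∈ Subgroup.normalizer ((Cfsg.inducedFunctor (G := (↥K ⧸ R.subgroupOf K)) W₁ (T : Subgroup (↥K ⧸ R.subgroupOf K)) : Subgroup (↥K ⧸ R.subgroupOf K)) : Set (↥K ⧸ R.subgroupOf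 K)), x = a * b) ∧ (∀ x : (↥K ⧸ R.subgroupOf K), ∃ a ∈ Subgroup.centralizer ((Cfsg.omegaOne p ((T : Subgroup (↥K ⧸ R.subgroupOf K)) ⊓ Subgroup.centralizer (((T : Subgroup (↥K ⧸ R.subgroupOf K)) : Subgroup (↥K ⧸ R.subgroupOf K)) : Set (↥K ⧸ R.subgroupOf K))) : Subgroup (↥K ⧸ R.subgroupOf K)) : Set (↥K ⧸ R.subgroupOf K)), ∃ b ∈ Subgroup.normalizer ((Cfsg.inducedFunctor (G := (↥K ⧸ R.subgroupOf K)) W₂ (T : Subgroup (↥K ⧸ R.subgroupOf K)) : Subgroup (↥K ⧸ R.subgroupOf K)) : Set (↥K ⧸ R.subgroupOf K)), x = a * b) ∧ (∀ x : (↥K ⧸ R.subgroupOf K), ∃ a ∈ Subgroup.normalizer ((Cfsg.inducedFunctor (G := (↥K ⧸ R.subgroupOf K)) W₁ (T : Subgroup (↥K ⧸ R.subgroupOf K)) : Subgroup (↥K ⧸ R.subgroupOf K)) : Set (↥K ⧸ R.subgroupOf K)), ∃ b ∈ Subgroup.normalizer ((Cfsg.inducedFunctor (G := (↥K ⧸ R.subgroupOf K)) W₂ (T : Subgroup (↥K ⧸ R.subgroupOf K)) : Subgroup (↥K ⧸ R.subgroupOf K)) : Set (↥K ⧸ R.subgroupOf K)), x = a * b)) (hZ : Cfsg.omegaOne p ((S : Subgroup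 G) ⊓ Subgroup.centralizer (((S : Subgroup G) : Subgroup G) : Set G)) ≤ Cfsg.inducedFunctor (G := G) W₁ (S : Subgroup G) ⊓ Cfsg.inducedFunctor (G := G) W₂ (S : Subgroup G)) (N₁ : Subgroup G) (hN₁ : N₁ = Subgroup.normalizer ((Cfsg.inducedFunctor (G := G) W₁ (S : Subgroup G) : Subgroup G) : Set G)) (A : Subgroup G) (hA : A = (Subgroup.normalClosure (((Cfsg.omegaOne p ((S : Subgroup G) ⊓ Subgroup.centralizer (((S : Subgroup G) : Subgroup G) : Set G))).subgroupOf N₁ : Subgroup ↥N₁) : Set ↥N₁)).map N₁.subtype) : A ≤ (S : Subgroup G) ∧ Cfsg.IsElementaryAbelian p A ∧ Cfsg.IsStronglyClosed A (S : Subgroup G) ∧ Cfsg.ControlsStrongFusion p A := by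
  open Subgroup Transfer PLocal in
  have hc1 := isConjugacyFunctor_inducedFunctor (G := G) hW₁
  have hc2 := isConjugacyFunctor_inducedFunctor (G := G) hW₂
  have h1 := le_normalizer_functor hc1 S.isPGroup'
  have h2 := le_normalizer_functor hc2 S.isPGroup'
  have hQ1 := functor_le hc1 S.isPGroup'
  have hQ2 := functor_le hc2 S.isPGroup'
  change omegaCenter p (S : Subgroup G) ≤ _ at hZ
  have hZN : omegaCenter p (S : Subgroup G) ≤ N₁ := hN₁ ▸ (omegaCenter_le _).trans h1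
  have hle : ∀ X : Subgroup G, A ≤ X ↔ ∀ n ∈ N₁, n ⋆ omegaCenter p (S : Subgroup G) ≤ X := by
    intro X
    rw [hA, map_le_iff_le_comap, normalClosure, closure_le]
    constructor
    · intro h n hn
      refine conj_le_iff.mpr fun z hz => h (a := ⟨_, N₁.mul_mem (N₁.mul_mem hn (hZN hz))
        (N₁.inv_mem hn)⟩) (Group.mem_conjugatesOfSet_iff.mpr ⟨⟨z, hZN hz⟩, hz,
          isConj_iff.mpr ⟨⟨n, hn⟩, rfl⟩⟩)
    · intro h y hy
      obtain ⟨z, hz, hzy⟩ := Group.mem_conjugatesOfSet_iff.mp hy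
      obtain ⟨n, rfl⟩ := isConj_iff.mp hzy
      exact conj_le_iff.mp (h n n.2) z hz
  have hA1 : ∀ n ∈ N₁, n ⋆ omegaCenter p (S : Subgroup G) ≤ A := (hle A).mp le_rfl
  have hn1 : N₁ ≤ normalizer (A : Set G) := fun x hx => mem_normalizer_of_conj_le (by
    rw [conj_le_iff_le_inv_conj, hle]
    intro n hn
    rw [← conj_le_iff_le_inv_conj, conj_conj]
    exact hA1 _ (mul_mem hx hn))
  have hn2 : normalizer (inducedFunctor (G := G) W₂ (S : Subgroup G) : Set G) ≤
      normalizer (A : Set G) := fun x hx => mem_normalizer_of_conj_le (by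
    rw [conj_le_iff_le_inv_conj, hle]
    intro n hn
    obtain ⟨m, hm, e⟩ := factor hW₂ S (fun K R _ hc T => (hfac K R hc T).2.1) hQ1 h1
      (hZ.trans inf_le_left) (hN₁ ▸ hn)
    obtain ⟨m', hm', e'⟩ := factor hW₁ S (fun K R _ hc T => (hfac K R hc T).1) hQ2 h2
      (hZ.trans inf_le_right) (mul_mem hx hm.2)
    rw [← conj_le_iff_le_inv_conj, e, conj_conj, e']
    exact hA1 _ (hN₁ ▸ hm'.2))
  have hAZ : A ≤ omegaCenter p (inducedFunctor (G := G) W₁ (S : Subgroup G)) := by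
    rw [hle]
    intro n hn
    rw [← conj_eq_self_iff.mpr (hN₁ ▸ hn : n ∈ normalizer
      (inducedFunctor (G := G) W₁ (S : Subgroup G) : Set G)), ← conj_omegaCenter]
    exact conj_mono _ (PGroup.elemAb_le_omegaOne (isElementaryAbelian_omegaCenter _)
      (le_inf (hZ.trans inf_le_left) ((omegaCenter_le_centralizer _).trans
        (centralizer_le (SetLike.coe_subset_coe.mpr hQ1)))))
  have hAS : A ≤ S := hAZ.trans ((omegaCenter_le _).trans hQ1)
  have h𝓦 : ∀ W ∈ ({W₁, W₂} : Set (∀ (Q : Type u) [Group Q], Subgroup Q)), IsCharPFunctor.{u} p W := by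
    rintro W (rfl | rfl)
    exacts [hW₁, hW₂]
  have h3 := S1996.result W₁ W₂ hW₁ hW₂ (fun K R _ hc T => (hfac K R hc T).2.2)
  rw [← Set.image_pair (fun W => inducedFunctor (G := G) W),
    familyControlsStrongFusionIn_top_iff h𝓦 S] at h3
  have h4 : Controls (normalizer (A : Set G)) S ⊤ := fun B hB g hg hgB =>
    (h3 B g hg hB (conj_le_iff.mp hgB)).exists_mem (by
      rintro x ⟨_, ⟨W, rfl | rfl, rfl⟩, -, hx⟩
      · exact hn1 (hN₁ ▸ hx)
      · exact hn2 hx)
  refine ⟨hAS, PGroup.elemAb_of_le (isElementaryAbelian_omegaCenter _) hAZ, ⟨hAS, fun x hx g hg => ?_⟩,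
    h4.controlsStrongFusion hAS⟩
  obtain ⟨n, hn, e⟩ := h4.elt (hAS hx) (mem_top g) hg
  exact e ▸ (mem_normalizer_iff.mp hn x).mp hx

end Cfsg.Agent.S1997
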