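import Cfsg.Statements.S2005
import Cfsg.Agent.Lib.Transfer.SectionNPC
import Cfsg.Agent.Lib.Core.MinNormal

set_option autoImplicit false
universe u
open Cfsg

namespace Cfsg.Agent.S2005

/-- Thompson's normal p-complement criterion in functor form. Let p be a prime, G a finite group with Sylow p-subgroup S, and W an isomorphism-invariant p-group functor (W assigns to every group Q a subgroup W(Q), nontrivial whenever Q is a nontrivial finite p-group, and every isomorphism from a finite p-group Q onto a group R carries W(Q) onto W(R)). Suppose N_G(W(S)) has a normal p-complement, and that W(S*) is normal in G* whenever G* = K/R is a section of G with C_{G*}(O_p(G*)) ≤ O_p(G*) such that G*/O_p(G*) has a normal p-complement, and S* is a Sylow p-subgroup of G* that is a maximal subgroup of G*. Then G has a normal p-complement. -/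
theorem result {G : Type u} [Group G] [Finite G] {p : ℕ} [Fact p.Prime] (W : ∀ (Q : Type u) [Group Q], Subgroup Q) (hW : Cfsg.IsCharPFunctor.{u} p W) (S : Sylow p G) (hN : Cfsg.HasNormalPComplement p ↥(Subgroup.normalizer ((Cfsg.inducedFunctor (G := G) W (S : Subgroup G) : Subgroup G) : Set G))) (hloc : ∀ (K R : Subgroup G) [hR : (R.subgroupOf K).Normal], Subgroup.centralizer ((Cfsg.pCore p (↥K ⧸ R.subgroupOf K) : Subgroup (↥K ⧸ R.subgroupOf K)) : Set (↥K ⧸ R.subgroupOf K)) ≤ Cfsg.pCore p (↥K ⧸ R.subgroupOf K) → Cfsg.HasNormalPComplement p ((↥K ⧸ R.subgroupOf K) ⧸ Cfsg.pCore p (↥K ⧸ R.subgroupOf K)) → ∀ T : Sylow p (↥K ⧸ R.subgroupOf K), IsCoatom (T : Subgroup (↥K ⧸ R.subgroupOf K)) → (Cfsg.inducedFunctor (G := (↥K ⧸ R.subgroupOf K)) W ((T : Subgroup (↥K ⧸ R.subgroupOf K)))).Normal) : Cfsg.HasNormalPComplement p G := by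
  refine Lib.Transfer.hasNormalPComplement_of_sections hW (fun X _ _ hX h1 h2 T hT => ?_) G
    Lib.PLocal.hasSection_refl S hN
  obtain ⟨K, R, _, ⟨e⟩⟩ := Lib.PLocal.hasSection_iff.1 hX
  refine Lib.Transfer.normal_inducedFunctor_of_equiv hW e.symm T.2
    (hloc K R (Lib.Transfer.centralizer_pCore_le_congr e h1) ?_
      (T.mapSurjective (f := e.symm.toMonoidHom) e.symm.surjective) ?_)
  · exact Lib.Transfer.hasNormalPComplement_of_equiv h2
      (QuotientGroup.congr _ _ e.symm (Lib.Core.map_pCore_equiv e.symm))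
  · exact Lib.Core.isCoatom_map_of_ker_le e.symm.surjective
      (by rw [(MonoidHom.ker_eq_bot_iff _).2 e.symm.injective]; exact bot_le) hT

end Cfsg.Agent.S2005
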