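import Cfsg.Statements.S2006
import Cfsg.Agent.Lib.PLocal.Engel

set_option autoImplicit false
universe u
open Cfsg

set_option linter.unusedVariables false
open Cfsg.Lib

namespace Cfsg.Agent.S2006

/-- Let p be a prime, G a finite group with Sylow p-subgroup S, and W an isomorphism-invariant p-group functor (W assigns to every group Q a subgroup W(Q), nontrivial whenever Q is a nontrivial finite p-group, and every isomorphism from a finite p-group Q onto a group R carries W(Q) onto W(R)). Suppose N_G(W(S)) has a normal p-complement, and that whenever G* = K/R is a section of G with C_{G*}(O_p(G*)) ≤ O_p(G*) and S* is a Sylow p-subgroup of G* with W(S*) not normal in G*, there are an element g of S* outside O_p(G*) and a chief factor X/Y of G* with X ≤ O_p(G*) such that [X, g, …, g] ≤ Y with p − 1 entries g but [X, g] ≰ Y. Then G has a normal p-complement. -/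
theorem result {G : Type u} [Group G] [Finite G] {p : ℕ} [Fact p.Prime] (W : ∀ (Q : Type u) [Group Q], Subgroup Q) (hW : Cfsg.IsCharPFunctor.{u} p W) (S : Sylow p G) (hN : Cfsg.HasNormalPComplement p ↥(Subgroup.normalizer ((Cfsg.inducedFunctor (G := G) W (S : Subgroup G) : Subgroup G) : Set G))) (hloc : ∀ (K R : Subgroup G) [hR : (R.subgroupOf K).Normal], Subgroup.centralizer ((Cfsg.pCore p (↥K ⧸ R.subgroupOf K) : Subgroup (↥K ⧸ R.subgroupOf K)) : Set (↥K ⧸ R.subgroupOf K)) ≤ Cfsg.pCore p (↥K ⧸ R.subgroupOf K) → ∀ T : Sylow p (↥K ⧸ R.subgroupOf K), ¬ (Cfsg.inducedFunctor (G := (↥K ⧸ R.subgroupOf K)) W ((T : Subgroup (↥K ⧸ R.subgroupOf K)))).Normal → ∃ g : (↥K ⧸ R.subgroupOf K), g ∈ (T : Subgroup (↥K ⧸ R.subgroupOf K)) ∧ g ∉ Cfsg.pCore p (↥K ⧸ R.subgroupOf K) ∧ ∃ U V : Subgroup (↥K ⧸ R.subgroupOf K), Cfsg.IsChiefFactor U V ∧ U ≤ Cfsg.pCore p (↥K ⧸ R.subgroupOf K) ∧ Cfsg.iterCommutator U (Subgroup.zpowers g) (p - 1) ≤ V ∧ ¬ ⁅U, Subgroup.zpowers g⁆ ≤ V) : Cfsg.HasNormalPComplement p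 G := by
  open Subgroup Transfer PLocal in
  refine hasNormalPComplement_of_sections hW (fun X _ _ hX hc hq T hT => ?_) G hasSection_refl S hN
  obtain ⟨K, R, _, ⟨e⟩⟩ := hasSection_iff.mp hX
  refine normal_inducedFunctor_of_equiv hW e.symm T.isPGroup' ?_
  by_contra hn
  obtain ⟨g, -, -, U, V, hUV, hU, h1, h2⟩ := hloc K R (centralizer_pCore_le_congr e hc)
    (T.mapSurjective (f := e.symm.toMonoidHom) e.symm.surjective) hn
  refine h2 (commutator_le_of_engel hUV ((Core.pCore_isPGroup p _).to_le hU)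
    (Core.isPSolvable_of_equiv (Core.isPSolvable_of_normal_quotient (pCore p X)
      (Core.isPSolvable_of_isPGroup (Core.pCore_isPGroup p X))
      (isPSolvable_of_hasNormalPComplement hq)) e.symm) (fun q _ hqp => ?_) h1)
  exact isMulCommutative_sylow_of_hasSection (hasSection_of_injective e.toMonoidHom e.injective)
    (isMulCommutative_sylow_of_isCoatom hqp hq hT)

end Cfsg.Agent.S2006
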