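import Cfsg.Statements.S2009
import Cfsg.Agent.Lib.Inv.SylowTwo
import Cfsg.Agent.Lib.Coprime.Generation
import Cfsg.Agent.Lib.PGroup.Omega
import Cfsg.Agent.Lib.Loc.StronglyEmbedded

set_option autoImplicit false
open Cfsg

namespace Cfsg.Agent.S2009

open Cfsg.Lib Cfsg.Lib.Transfer Subgroup

/-- Let H be a finite group and z an involution such that every proper normal subgroup of H meets the centralizer of z trivially, and suppose z lies in a Klein four-subgroup E of H all three of whose involutions are conjugate to z in H. Then H is simple. -/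
theorem result {H : Type*} [Group H] [Finite H] (z : H) (hz : orderOf z = 2) (hN : ∀ N : Subgroup H, N.Normal → N ≠ ⊤ → N ⊓ Subgroup.centralizer ({z} : Set H) = ⊥) (E : Subgroup H) (hE : IsKleinFour ↥E) (hzE : z ∈ E) (hc : ∀ e ∈ E, e ≠ 1 → IsConj z e) : IsSimpleGroup H := by
  have : Fact (Nat.Prime 2) := ⟨Nat.prime_two⟩
  have : Nontrivial H := ⟨z, 1, Inv.ne_one_of_orderOf hz⟩
  obtain ⟨h1, h2⟩ := PGroup.isKleinFour_iff.1 hE
  refine ⟨fun N hn => or_iff_not_imp_right.2 fun h => ?_⟩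
  have h3 : ¬ 2 ∣ Nat.card N := fun hd => by
    obtain ⟨S, hS⟩ := Inv.exists_sylow_mem_of_mul_self (Inv.mul_self_of_orderOf hz)
    obtain ⟨x, hx, h4, h5⟩ := PGroup.exists_mem_centralizer_orderOf_eq (N := S ⊓ N) (P := S)
      S.isPGroup'.to_inf_left S.isPGroup' (Core.le_normalizer_inf le_normalizer le_normalizer_of_normal)
      (Loc.sylowIn_ne_bot (by rw [inf_relIndex_right]; exact sylow_not_dvd_relIndex_normal S N) hd)
    exact Inv.ne_one_of_orderOf h5 (mem_bot.1 (hN N hn h ▸ mem_inf.2 ⟨hx.2,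
      mem_centralizer_singleton_iff.2 (h4 z hS).symm⟩))
  refine eq_bot_iff.2 (Coprime.le_of_forall_centralizer_le h1.1 (PGroup.elemAb_not_isCyclic h1 h2.ge)
    le_normalizer_of_normal (h2 ▸ ((Nat.Prime.coprime_iff_not_dvd Nat.prime_two).2 h3).pow_left 2)
    fun a ha h4 x hx => ?_)
  obtain ⟨g, rfl⟩ := isConj_iff.1 (hc a ha h4)
  have h5 : g⁻¹ * x * g ∈ N ⊓ centralizer {z} := ⟨hn.conj_mem' x hx.1 g, mem_centralizer_singleton_iff.2 (by
    rw [← mul_right_inj g, ← mul_left_inj g⁻¹]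
    simpa [mul_assoc] using mem_centralizer_singleton_iff.1 hx.2)⟩
  rw [hN N hn h, mem_bot, mul_assoc, inv_mul_eq_one, right_eq_mul] at h5
  exact h5

end Cfsg.Agent.S2009
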