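import Cfsg.Statements.S2039
import Cfsg.Agent.Lib.Mult.J1

set_option autoImplicit false
open Cfsg

namespace Cfsg.Agent.S2039

/-- The Schur multiplier of the Janko group J₁ (the group generated by two explicit 7 × 7 matrices over the integers modulo 11) is trivial; here the Schur multiplier is described through stem extensions, as in the definitions: surjective homomorphisms onto the group from a finite group, whose kernel is central in that finite group and contained in that finite group's commutator subgroup. -/
theorem result : Cfsg.HasCyclicSchurMultiplier ↥Cfsg.Spor.J1 1 := by
  exact Lib.Mult.hasSchurMultiplier_of Lib.J1.card_J1 Lib.Mult.lb_one (Lib.Mult.card_mzmod 1) Lib.Mult.J1.ndL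

end Cfsg.Agent.S2039
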