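import Cfsg.Statements.S2041
import Cfsg.Agent.Lib.Mult.J3

set_option autoImplicit false
open Cfsg

namespace Cfsg.Agent.S2041

/-- For any field with 4 elements and any element ω of it with ω² + ω + 1 = 0: the Schur multiplier of the Janko group J₃ (the group generated by explicit 9 × 9 matrices over that field built from ω, taken modulo its centre) is cyclic of order 3; here the Schur multiplier is described through stem extensions, as in the definitions: surjective homomorphisms onto the group from a finite group, whose kernel is central in that finite group and contained in that finite group's commutator subgroup. -/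
theorem result {F : Type*} [Field F] [Fintype F] (hF : Fintype.card F = 4) (ω : F) (hω : ω ^ 2 + ω + 1 = 0) : Cfsg.HasCyclicSchurMultiplier (Cfsg.Spor.J3 F ω) 3 := by
  have h := Lib.F2.IsF4.of_card hF hω
  exact Lib.Mult.hasSchurMultiplier_of (Lib.J3.card_J3 h) (Lib.Mult.J3.lb h) (Lib.Mult.card_mzmod 3) (Lib.Mult.J3.ndL h)

end Cfsg.Agent.S2041
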