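import Cfsg.Statements.S2055
import Cfsg.Agent.Lib.Mult.Fi24C
import Cfsg.Agent.Lib.Mult.Fi24U

set_option autoImplicit false
open Cfsg

namespace Cfsg.Agent.S2055

/-- The Schur multiplier of the Fischer group Fi₂₄′ (the commutator subgroup of the presented group Fi₂₄) is cyclic of order 3; here the Schur multiplier is described through stem extensions, as in the definitions: surjective homomorphisms onto the group from a finite group, whose kernel is central in that finite group and contained in that finite group's commutator subgroup. -/
theorem result : Cfsg.HasCyclicSchurMultiplier Cfsg.Spor.Fi24' 3 := by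
  have h := Lib.Mult.hasSchurMultiplier_of Lib.Calc.Fi24.card_ker Lib.Mult.Fi24.lb (Lib.Mult.card_mzmod 3)
    Lib.Mult.Fi24.ndL (by decide +kernel)
  rw [← Lib.Calc.Fi24.commutator_eq] at h
  exact h

end Cfsg.Agent.S2055
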