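import Cfsg.Statements.S2087
import Cfsg.Agent.Lib.Mult.L32

set_option autoImplicit false
open Cfsg

namespace Cfsg.Agent.S2087

/-- Exceptional Schur multiplier: over the field with 2 elements, PSL₃ has Schur multiplier cyclic of order 2 (here the Schur multiplier is described through stem extensions, as in the definitions). -/
theorem result {F : Type*} [Field F] [Fintype F] (hF : Fintype.card F = 2) : Cfsg.HasCyclicSchurMultiplier (Matrix.ProjectiveSpecialLinearGroup (Fin 3) F) 2 := by
  obtain ⟨_, P⟩ := Lib.Mult.L32.pr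
  exact Lib.Schur.hasSchurMultiplier_congr_left (Lib.Mult.hasSchurMultiplier_of Lib.Mult.L32.cardQ
    (Lib.Mult.L32.dlb P) (Lib.Mult.card_mzmod 2) Lib.Mult.L32.ndL)
    (Lib.Linear.congrPSL (.refl _) (FiniteField.ringEquivOfCardEq (Lib.Asch.TF.card.trans hF.symm)))

end Cfsg.Agent.S2087
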