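import Cfsg.Statements.S2094
import Cfsg.Agent.Lib.Chev.SpinMult

set_option autoImplicit false
open Cfsg

namespace Cfsg.Agent.S2094

open Cfsg.Lib.Chev Cfsg.Lib.Schur

/-- Schur multipliers of the odd-dimensional orthogonal groups: for m ≥ 3 and a field F of odd order q with (m, q) ≠ (3, 3), the Schur multiplier of PΩ_(2m+1)(F) (for the form x₀² + Σ xᵢyᵢ) is cyclic of order 2 = gcd(2, q − 1); here the Schur multiplier is described through stem extensions, as in the definitions. -/
theorem result {F : Type*} [Field F] [Fintype F] {q : ℕ} (hF : Fintype.card F = q) (hq : Odd q) (m : ℕ) (hm : 3 ≤ m) (hexc : ¬ (m = 3 ∧ q = 3)) : Cfsg.HasCyclicSchurMultiplier (Cfsg.POmega F (Cfsg.quadFormOdd m F)) 2 := by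
  rw [← Nat.card_eq_fintype_card] at hF
  have h2 : (2 : F) ≠ 0 := two_ne_zero_of_card (hF ▸ hq)
  rw [Nat.odd_iff] at hq
  obtain ⟨e⟩ := nonempty_spinB_equiv F (n := m) (by omega) h2
  obtain ⟨pos, v, X, Y, hk⟩ := kerData_B (n := m) (by omega)
  have h := ((repB (carJW _)).real F).multiplier (full_repB _) (((repB _).real F).splits (full_repB _)
    (liftCond_B (by omega) (by omega) (by omega) (by omega)))
    (perfectCond_B F (by omega) ⟨-1, by simp, fun e => h2 (by linear_combination -e)⟩) hk
  rw [hF, Nat.gcd_eq_left (by omega : 2 ∣ q - 1)] at h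
  exact hasSchurMultiplier_congr_right (hasSchurMultiplier_congr_left h e) (MulEquiv.funUnique _ _)

end Cfsg.Agent.S2094
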