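import Cfsg.Statements.S2107
import Cfsg.Agent.Lib.Chev.Mult

set_option autoImplicit false
open Cfsg

namespace Cfsg.Agent.S2107

open Cfsg.Lib.Chev

/-- Schur multipliers of the Chevalley groups of type E₈: over every finite field the Schur multiplier of E₈(q) is trivial (here the Schur multiplier is described through stem extensions, as in the definitions). -/
theorem result {F : Type*} [Field F] [Fintype F] : Cfsg.HasCyclicSchurMultiplier ↥(Cfsg.Lie.chevE8.group F) 1 := by
  obtain ⟨e⟩ := nonempty_equiv_zmod (p := 2) (n := 1)
    (Subgroup.card_eq_one.2 (center_st_eq_bot F (D := Lie.chevE8) (by simp))) (by norm_num)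
  exact checkedE8.multiplier (by simp) (liftCond_E8 _) e

end Cfsg.Agent.S2107
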