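import Cfsg.Statements.S2141
import Cfsg.Agent.Lib.MinDeg.Sp

set_option autoImplicit false
open Cfsg

namespace Cfsg.Agent.S2141

/-- Minimal index of a proper subgroup of the symplectic groups over fields with at least 3 elements: for m ≥ 2 and a field F with q ≥ 3 elements, (m, q) ≠ (2, 3), every proper subgroup of PSp_2m(F) has index at least (q^(2m) − 1)/(q − 1), and that index is attained. -/
theorem result {F : Type*} [Field F] [Fintype F] {q : ℕ} (hF : Fintype.card F = q) (m : ℕ) (hm : 2 ≤ m) (hq : 3 ≤ q) (hexc : ¬ (m = 2 ∧ q = 3)) : (∀ H : Subgroup (Cfsg.PSp m F), H ≠ ⊤ → (q ^ (2 * m) - 1) / (q - 1) ≤ H.index) ∧ (∃ H : Subgroup (Cfsg.PSp m F), H.index = (q ^ (2 * m) - 1) / (q - 1)) := by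
-----
  obtain ⟨n, rfl⟩ := Nat.exists_eq_add_of_le' (show 1 ≤ m by omega)
  refine Cfsg.Lib.MinDeg.Sp.min_index_psp (Nat.card_eq_fintype_card.trans hF) (by omega) ?_
  refine (le_or_gt 4 q).imp_right fun h => ?_
  obtain rfl : q = 3 := by omega
  refine ⟨fun e => ?_, by omega⟩
  have := FiniteField.cast_card_eq_zero F
  rw [hF] at this
  exact one_ne_zero (α := F) (by linear_combination this - e)

end Cfsg.Agent.S2141
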