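import Cfsg.Statements.S2143
import Cfsg.Agent.Lib.MinDeg.Orth

set_option autoImplicit false
open Cfsg

namespace Cfsg.Agent.S2143

theorem num {q X Y B : ℕ} (hq : 5 ≤ q) (hX : 25 * Y ≤ X) (hY : 1 ≤ Y) (hB : (q - 1) * B ≤ q * X - 1) :
    X + (q - 1) * X = q * X ∧ X - Y + (q - 1) * X + Y = q * X ∧ B ≤ 2 * X ∧
      20 * (B * (q - 1)) ≤ 21 * (q * (X - Y)) ∧ (q - 1) * B < X + (q - 1) * X ∧
      2 * B ≤ X - Y + (q - 1) * X ∧ q - 1 ≤ q * X - 1 := by
  obtain ⟨j, rfl⟩ := Nat.exists_eq_add_of_le' hq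
  obtain ⟨ν, rfl⟩ := Nat.exists_eq_add_of_le' (show Y ≤ X by omega)
  have h1 := Nat.le_mul_of_pos_right (j + 5) (show 0 < ν + Y by omega)
  have h2 : (j + 4) * B + 1 ≤ (j + 5) * (ν + Y) := by
    simp only [show j + 5 - 1 = j + 4 from rfl] at hB; omega
  have h3 := Nat.mul_le_mul_left j hX
  simp only [show j + 5 - 1 = j + 4 from rfl, Nat.add_sub_cancel]
  refine ⟨by ring, by ring, Nat.le_of_mul_le_mul_left (c := j + 4) ?_ (by omega), ?_, by linarith,
    ?_, by omega⟩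
  · linarith [Nat.zero_le (j * ν), Nat.zero_le (j * Y)]
  · linarith [Nat.zero_le (j * Y)]
  · linarith [Nat.zero_le (j * B), Nat.zero_le (j * ν), Nat.zero_le (j * Y)]

open Cfsg.Lib.Orth Cfsg.Lib.MinDeg in

/-- Minimal index of a proper subgroup of the odd-dimensional orthogonal groups: for m ≥ 3 and a field F with q elements, q odd and q ≥ 5, every proper subgroup of PΩ_(2m+1)(F) (for the form x₀² + Σ xᵢyᵢ) has index at least (q^(2m) − 1)/(q − 1), and that index is attained. -/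
theorem result {F : Type*} [Field F] [Fintype F] {q : ℕ} (hF : Fintype.card F = q) (hodd : Odd q) (h5 : 5 ≤ q) (m : ℕ) (hm : 3 ≤ m) : (∀ H : Subgroup (Cfsg.POmega F (Cfsg.quadFormOdd m F)), H ≠ ⊤ → (q ^ (2 * m) - 1) / (q - 1) ≤ H.index) ∧ (∃ H : Subgroup (Cfsg.POmega F (Cfsg.quadFormOdd m F)), H.index = (q ^ (2 * m) - 1) / (q - 1)) := by
  obtain ⟨k, rfl⟩ := Nat.exists_eq_add_of_le' hm
  have hQ := nd_qOdd (two_ne_zero_of_odd_card (hF ▸ hodd)) (k + 3)
  replace hF := Nat.card_eq_fintype_card.trans hF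
  have hn : Module.finrank F (Unit ⊕ (Fin (k + 3) ⊕ Fin (k + 3)) → F) = 2 * (k + 3) + 1 := by
    simp; omega
  have h0 := cnt_odd_zero hQ hn
  have h1 := fun c => cnt_qPlus_prod_qOne (F := F) (k + 3) 1 c
  have hX : q ^ (2 * (k + 3)) = q * q ^ (2 * k + 5) := by ring
  simp only [hF, ← cnt_congr (qOdd_equivalent (F := F) (k + 3)), hX] at h0 h1
  obtain ⟨a1, a2, a3, a4, a5, a6, a7⟩ := num (X := q ^ (2 * k + 5)) (Y := q ^ (k + 3)) h5 (by
    rw [show 2 * k + 5 = k + 2 + (k + 3) by omega, pow_add q (k + 2)]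
    exact Nat.mul_le_mul_right _ ((Nat.pow_le_pow_left h5 2).trans
      (Nat.pow_le_pow_right (by omega) (Nat.le_add_left 2 k)))) (Nat.pow_pos (by omega)) (Nat.mul_div_le _ _)
  rw [hX]
  exact min_index_pomega hQ (n := 2 * k + 5) (c := 0) hn (by omega) hF (a1.trans h0.symm).le
    (fun c _ => by have := h1 c; omega) a3 (fun _ => a4) (by omega) (by omega) a5
    ((Nat.mul_le_mul_right _ (min_le_left _ _)).trans a6) (fun e => by omega)
    (by rw [card_singular_ne_zero, card_Kc_zero, hF, h0]) (Nat.div_pos a7 (by omega)).ne'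

end Cfsg.Agent.S2143
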