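import Cfsg.Statements.S2144
import Cfsg.Agent.Lib.MinDeg.Orth

set_option autoImplicit false
open Cfsg

namespace Cfsg.Agent.S2144

open Cfsg.Lib.Orth Cfsg.Lib.MinDeg in

/-- Minimal index of a proper subgroup of the odd-dimensional orthogonal groups over the field with 3 elements: for m ≥ 3, every proper subgroup of PΩ_(2m+1)(3) (for the form x₀² + Σ xᵢyᵢ) has index at least 3^m(3^m − 1)/2, and that index is attained. -/
theorem result {F : Type*} [Field F] [Fintype F] (hF : Fintype.card F = 3) (m : ℕ) (hm : 3 ≤ m) : (∀ H : Subgroup (Cfsg.POmega F (Cfsg.quadFormOdd m F)), H ≠ ⊤ → 3 ^ m * (3 ^ m - 1) / 2 ≤ H.index) ∧ (∃ H : Subgroup (Cfsg.POmega F (Cfsg.quadFormOdd m F)), H.index = 3 ^ m * (3 ^ m - 1) / 2) := by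
  classical
  obtain ⟨k, rfl⟩ := Nat.exists_eq_add_of_le' hm
  have h2 : (2 : F) ≠ 0 := two_ne_zero_of_odd_card (hF ▸ by decide)
  have hQ := nd_qOdd h2 (k + 3)
  replace hF := Nat.card_eq_fintype_card.trans hF
  have hn : Module.finrank F (Unit ⊕ (Fin (k + 3) ⊕ Fin (k + 3)) → F) = 2 * (k + 3) + 1 := by
    simp; omega
  have h0 := cnt_odd_zero hQ hn
  have h1 := fun c => cnt_qPlus_prod_qOne (F := F) (k + 3) 1 c
  have hX : 3 ^ (2 * (k + 3)) = 3 * 3 ^ (2 * k + 5) := by ring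
  simp only [hF, ← cnt_congr (qOdd_equivalent (F := F) (k + 3)), hX] at h0 h1
  obtain ⟨c, hc⟩ := exists_not_isSquare h2
  have hc0 := ne_zero_of_not_isSquare hc
  have h3 := h1 c
  rw [cnt_qOne h2 one_ne_zero hc0, mul_one, if_neg hc] at h3
  have hN : 3 ^ (k + 3) * (3 ^ (k + 3) - 1) = cnt (qOdd (k + 3) F) c := by
    zify [show 1 ≤ 3 ^ (k + 3) from Nat.pow_pos (by omega)] at h3 ⊢
    linear_combination -h3
  have hY : 3 ^ (k + 3 + 1) ≤ 3 ^ (2 * k + 5) := Nat.pow_le_pow_right (by omega) (by omega)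
  have hY' : 1 ≤ 3 ^ (k + 3) := Nat.pow_pos (by omega)
  rw [pow_succ'] at hY
  rw [hN]
  exact min_index_pomega hQ (n := 2 * k + 5) (ν₀ := 3 ^ (2 * k + 5))
    (ν₁ := 3 ^ (2 * k + 5) - 3 ^ (k + 3)) (c := c) hn (by omega) hF (by omega)
    (fun c _ => by have := h1 c; omega) (by omega) (by omega) (by omega) (by omega) (by omega)
    (by simp only [show min 2 (3 - 1) = 2 from rfl]; omega) (fun e => by omega)
    (by rw [card_ne_zero_of_ne hc0, card_Kc hc0, if_neg h2]) (by omega)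

end Cfsg.Agent.S2144
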