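import Cfsg.Statements.S2145
import Cfsg.Agent.Lib.MinDeg.Orth

set_option autoImplicit false
open Cfsg

namespace Cfsg.Agent.S2145

theorem num {q X Y N N' B : ℕ} (hq : 4 ≤ q) (h0 : N + Y = q * X + q * Y) (h1 : N' + Y = q * X)
    (hX : X = Y * Y) (hY : q ^ 3 ≤ Y) (hB : (q - 1) * B ≤ N - 1) : ∃ ν ν', ν + (q - 1) * X ≤ N ∧
      ν' + (q - 1) * X ≤ N' ∧ B ≤ 2 * X ∧ 20 * (B * (q - 1)) ≤ 21 * (q * ν') ∧
      (q - 1) * B < ν + (q - 1) * X ∧ 2 * B ≤ ν' + (q - 1) * X ∧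
      q * B + (q + 2) * q ≤ (q + 2) * ν ∧ (Y = q ^ 3 → B ≤ (q + 1) * (q ^ 2 + 1) * (q ^ 3 + 1)) ∧
      q - 1 ≤ N - 1 := by
  have h2 : 64 ≤ Y := (Nat.pow_le_pow_left hq 3).trans hY
  have h3 : q ≤ Y := (Nat.le_self_pow (by omega) _).trans hY
  have h4 : 64 * Y ≤ X := hX ▸ Nat.mul_le_mul_right _ h2
  have h5 : q * Y ≤ X := hX ▸ Nat.mul_le_mul_right _ h3
  obtain ⟨j, rfl⟩ := Nat.exists_eq_add_of_le' hq
  obtain ⟨ν', hν⟩ : ∃ ν, ν + Y = X := ⟨_, Nat.sub_add_cancel (by omega)⟩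
  have h6 := Nat.mul_le_mul_left j h4
  have h7 := Nat.mul_le_mul_left j h3
  have h8 := Nat.mul_le_mul_left (j * j) h3
  obtain ⟨N, rfl⟩ : ∃ k, N = k + 1 := ⟨N - 1, by
    have : 4 * Y ≤ (j + 4) * Y := Nat.mul_le_mul_right _ (by omega)
    omega⟩
  simp only [show j + 4 - 1 = j + 3 from rfl, Nat.add_sub_cancel] at *
  have h9 := congrArg (j * ·) hν
  refine ⟨X + (j + 3) * Y, ν', by linarith, by linarith,
    Nat.le_of_mul_le_mul_left (c := j + 3) ?_ (by omega), ?_, by linarith, ?_,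
    Nat.le_of_mul_le_mul_left (c := j + 3) ?_ (by omega), fun e =>
    Nat.le_of_mul_le_mul_left (c := j + 3) ?_ (by omega), ?_⟩
  · linarith [Nat.zero_le (j * X)]
  · linarith [Nat.zero_le (j * Y)]
  · exact Nat.le_of_mul_le_mul_left (c := j + 3) (by nlinarith [Nat.zero_le (j * Y), Nat.zero_le (j * j * ν')]) (by omega)
  · have := Nat.mul_le_mul_left (j + 4) hB
    have := congrArg ((j + 4) * ·) h0
    nlinarith [Nat.zero_le (j * X), Nat.zero_le (j * Y), Nat.zero_le (j * j * Y), Nat.zero_le (j * j * j * Y)]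
  · rw [hX, e] at h0
    linarith
  · linarith [Nat.zero_le (j * X), Nat.zero_le (j * Y)]

open Cfsg.Lib.Orth Cfsg.Lib.MinDeg in

/-- Minimal index of a proper subgroup of the even-dimensional orthogonal groups of plus type: for m ≥ 4 and a field F with q ≥ 4 elements, every proper subgroup of PΩ⁺_2m(F) (for the form Σ xᵢyᵢ) has index at least (q^m − 1)(q^(m−1) + 1)/(q − 1), and that index is attained (the singular points). -/
theorem result {F : Type*} [Field F] [Fintype F] {q : ℕ} (hF : Fintype.card F = q) (hq : 4 ≤ q) (m : ℕ) (hm : 4 ≤ m) : (∀ H : Subgroup (Cfsg.POmega F (Cfsg.quadFormPlus m F)), H ≠ ⊤ → (q ^ m - 1) * (q ^ (m - 1) + 1) / (q - 1) ≤ H.index) ∧ (∃ H : Subgroup (Cfsg.POmega F (Cfsg.quadFormPlus m F)), H.index = (q ^ m - 1) * (q ^ (m - 1) + 1) / (q - 1)) := by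
  obtain ⟨k, rfl⟩ := Nat.exists_eq_add_of_le' hm
  replace hF := Nat.card_eq_fintype_card.trans hF
  have hQ := nd_qPlus (F := F) (k + 4)
  have hn : Module.finrank F (Fin (k + 4) ⊕ Fin (k + 4) → F) = 2 * (k + 3 + 1) := by
    simp; omega
  have hw := wittIndex_qPlus (F := F) (k + 4)
  have h0 := cnt_plus_zero hQ hn hw
  have h1 := fun c => cnt_plus_ne hQ hn hw (c := c)
  have hY : q ^ 3 ≤ q ^ (k + 3) := Nat.pow_le_pow_right (by omega) (by omega)
  have hX : q ^ (2 * (k + 3)) = q ^ (k + 3) * q ^ (k + 3) := by ring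
  rw [hF, pow_succ' _ (2 * _), pow_succ' _ (k + 3)] at h0
  simp only [hF, pow_succ' _ (2 * _)] at h1
  have hN : (q ^ (k + 4) - 1) * (q ^ (k + 4 - 1) + 1) = cnt (qPlus (k + 4) F) 0 - 1 := by
    rw [show k + 4 - 1 = k + 3 from rfl]
    refine Nat.eq_sub_of_add_eq ?_
    zify [show 1 ≤ q ^ (k + 4) from Nat.pow_pos (by omega)] at h0 hX ⊢
    linear_combination -h0 - (q : ℤ) * hX
  obtain ⟨ν, ν', a1, a2, a3, a4, a5, a6, a7, a8, a9⟩ := num hq h0 (h1 1 one_ne_zero) hX hY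
    (Nat.mul_div_le _ _)
  rw [hN]
  exact min_index_pomega hQ (n := 2 * (k + 3)) (c := 0) hn (by omega) hF a1
    (fun c hc => a2.trans_eq (Nat.add_right_cancel ((h1 1 one_ne_zero).trans (h1 c hc).symm))) a3
    (fun _ => a4) (by omega) (by omega) a5 ((Nat.mul_le_mul_right _ (min_le_left _ _)).trans a6)
    (fun _ => ⟨a7, fun e => Or.inr ⟨hq, a8 (by rw [show k = 0 by omega])⟩⟩)
    (by rw [card_singular_ne_zero, card_Kc_zero, hF]) (Nat.div_pos a9 (by omega)).ne'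

end Cfsg.Agent.S2145
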