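import Cfsg.Statements.S2146
import Cfsg.Agent.Lib.MinDeg.Orth

set_option autoImplicit false
open Cfsg

namespace Cfsg.Agent.S2146

open Cfsg.Lib.Orth Cfsg.Lib.MinDeg in

/-- Minimal index of a proper subgroup of the even-dimensional orthogonal groups of plus type over the field with 2 elements: for m ≥ 4, every proper subgroup of Ω⁺_2m(2) (for the form Σ xᵢyᵢ) has index at least 2^(m−1)(2^m − 1), and that index is attained. -/
theorem result {F : Type*} [Field F] [Fintype F] (hF : Fintype.card F = 2) (m : ℕ) (hm : 4 ≤ m) : (∀ H : Subgroup (Cfsg.POmega F (Cfsg.quadFormPlus m F)), H ≠ ⊤ → 2 ^ (m - 1) * (2 ^ m - 1) ≤ H.index) ∧ (∃ H : Subgroup (Cfsg.POmega F (Cfsg.quadFormPlus m F)), H.index = 2 ^ (m - 1) * (2 ^ m - 1)) := by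
  classical
  obtain ⟨k, rfl⟩ := Nat.exists_eq_add_of_le' hm
  have h2 : (2 : F) = 0 := by simpa [hF] using FiniteField.cast_card_eq_zero F
  replace hF := Nat.card_eq_fintype_card.trans hF
  have hQ := nd_qPlus (F := F) (k + 4)
  have hn : Module.finrank F (Fin (k + 4) ⊕ Fin (k + 4) → F) = 2 * (k + 3 + 1) := by
    simp; omega
  have hw := wittIndex_qPlus (F := F) (k + 4)
  have h0 := cnt_plus_zero hQ hn hw
  have h1 := fun c => cnt_plus_ne hQ hn hw (c := c)
  have hY : 2 ^ 3 ≤ 2 ^ (k + 3) := Nat.pow_le_pow_right (by omega) (by omega)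
  have hX : 2 ^ (2 * (k + 3)) = 2 ^ (k + 3) * 2 ^ (k + 3) := by ring
  have hXY : 2 ^ (k + 3) ≤ 2 ^ (2 * (k + 3)) := Nat.pow_le_pow_right (by omega) (by omega)
  rw [hF, pow_succ' _ (2 * _), pow_succ' _ (k + 3)] at h0
  simp only [hF, pow_succ' _ (2 * _)] at h1
  have hN : 2 ^ (k + 4 - 1) * (2 ^ (k + 4) - 1) = cnt (qPlus (k + 4) F) 1 := by
    have h3 := h1 1 one_ne_zero
    rw [show k + 4 - 1 = k + 3 from rfl]
    zify [show 1 ≤ 2 ^ (k + 4) from Nat.pow_pos (by omega)] at h3 hX ⊢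
    linear_combination -h3 - 2 * hX
  have h3 := h1 1 one_ne_zero
  rw [hN]
  refine min_index_pomega hQ (n := 2 * (k + 3)) (ν₀ := 2 ^ (2 * (k + 3)) + 2 ^ (k + 3))
    (ν₁ := 2 ^ (2 * (k + 3)) - 2 ^ (k + 3)) (c := 1) hn (by omega) hF (by omega)
    (fun c hc => by have := h1 c hc; omega) (by omega) (by omega) (by omega) (by omega) (by omega)
    (by simp only [show min 2 (2 - 1) = 1 from rfl]; omega)
    (fun _ => ⟨by omega, fun e => Or.inl ?_⟩)
    (by rw [card_ne_zero_of_ne one_ne_zero, card_Kc one_ne_zero, if_pos h2, Nat.div_one]) (by omega)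
  obtain rfl : k = 0 := by omega
  omega

end Cfsg.Agent.S2146
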