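import Cfsg.Statements.S2147
import Cfsg.Agent.Lib.MinDeg.Orth

set_option autoImplicit false
open Cfsg

namespace Cfsg.Agent.S2147

theorem num {q X Y N B : ℕ} (hq : 2 ≤ q) (h0 : N + q * Y = q * X + Y) (hX : q * Y ≤ X) (hY : q ≤ Y)
    (hB : (q - 1) * B ≤ N - 1) : ∃ ν, ν + (q - 1) * X ≤ N ∧ X + Y + (q - 1) * X ≤ q * X + Y ∧
      B ≤ 2 * X ∧ 20 * (B * (q - 1)) ≤ 21 * (q * (X + Y)) ∧ (q ≤ 3 → B ≤ ν + (X + Y)) ∧
      (q = 3 → B ≤ 2 * (X + Y)) ∧ (q - 1) * B < ν + (q - 1) * X ∧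
      (q - 1) * B ≤ X + Y + (q - 1) * X ∧ q - 1 ≤ N - 1 := by
  obtain ⟨j, rfl⟩ := Nat.exists_eq_add_of_le' hq
  obtain ⟨ν, hν⟩ : ∃ ν, ν + (j + 2) * Y = X + Y := ⟨_, Nat.sub_add_cancel (by omega)⟩
  have h1 : 2 * X ≤ (j + 2) * X := Nat.mul_le_mul_right _ (by omega)
  have h2 : 2 * Y ≤ (j + 2) * Y := Nat.mul_le_mul_right _ (by omega)
  obtain ⟨N, rfl⟩ : ∃ k, N = k + 1 := ⟨N - 1, by omega⟩
  simp only [show j + 2 - 1 = j + 1 from rfl, Nat.add_sub_cancel] at *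
  refine ⟨ν, by linarith, by linarith, Nat.le_of_mul_le_mul_left (c := j + 1) ?_ (by omega), ?_,
    fun _ => ?_, fun _ => ?_, by linarith, by linarith, by omega⟩
  · linarith [Nat.zero_le (j * X)]
  · linarith [Nat.zero_le (j * X), Nat.zero_le (j * Y)]
  · have : j ≤ 1 := by omega
    interval_cases j <;> omega
  · obtain rfl : j = 1 := by omega
    omega

open Cfsg.Lib.Orth Cfsg.Lib.MinDeg in

/-- Minimal index of a proper subgroup of the even-dimensional orthogonal groups of minus type: for m ≥ 4 and a field F with q elements, every proper subgroup of PΩ⁻_2m(F) (for the form Σ_{i<m−1} xᵢyᵢ + z₁² + a z₁z₂ + b z₂² with anisotropic binary part) has index at least (q^m + 1)(q^(m−1) − 1)/(q − 1), and that index is attained. -/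
theorem result {F : Type*} [Field F] [Fintype F] {q : ℕ} (hF : Fintype.card F = q) (m : ℕ) (hm : 4 ≤ m) (a b : F) (hab : ∀ z₁ z₂ : F, z₁ ^ 2 + a * z₁ * z₂ + b * z₂ ^ 2 = 0 → z₁ = 0 ∧ z₂ = 0) : (∀ H : Subgroup (Cfsg.POmega F (Cfsg.quadFormMinus (m - 1) F a b)), H ≠ ⊤ → (q ^ m + 1) * (q ^ (m - 1) - 1) / (q - 1) ≤ H.index) ∧ (∃ H : Subgroup (Cfsg.POmega F (Cfsg.quadFormMinus (m - 1) F a b)), H.index = (q ^ m + 1) * (q ^ (m - 1) - 1) / (q - 1)) := by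
  obtain ⟨k, rfl⟩ := Nat.exists_eq_add_of_le' hm
  have hq := Nat.card_eq_fintype_card.trans hF
  have h2 : 2 ≤ q := hq ▸ Finite.one_lt_card
  have hQ := nd_qMinus (k + 3) hab
  have hn : Module.finrank F ((Fin (k + 3) ⊕ Fin (k + 3)) ⊕ Fin 2 → F) = 2 * (k + 3 + 1) := by
    simp; omega
  have hw := wittIndex_qMinus (k + 3) hab
  have h0 := cnt_minus_zero hQ hn hw
  have h1 := fun c => cnt_minus_ne hQ hn hw (c := c)
  have hY : q ≤ q ^ (k + 3) := Nat.le_self_pow (by omega) _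
  have hX : q ^ (2 * (k + 3)) = q ^ (k + 3) * q ^ (k + 3) := by ring
  rw [hq, pow_succ' _ (2 * _), pow_succ' _ (k + 3)] at h0
  simp only [hq, pow_succ' _ (2 * _)] at h1
  have hN : (q ^ (k + 4) + 1) * (q ^ (k + 4 - 1) - 1) = cnt (qMinus (k + 3) F a b) 0 - 1 := by
    rw [show k + 4 - 1 = k + 3 from rfl, pow_succ' _ (k + 3)]
    refine Nat.eq_sub_of_add_eq ?_
    zify [show 1 ≤ q ^ (k + 3) by omega] at h0 hX ⊢
    linear_combination -h0 - (q : ℤ) * hX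
  obtain ⟨ν, a1, a2, a3, a4, a5, a6, a7, a8, a9⟩ := num h2 h0 (hX ▸ Nat.mul_le_mul_right _ hY) hY
    (Nat.mul_div_le _ _)
  rw [hN]
  exact min_index_pomega hQ (n := 2 * (k + 3)) (c := 0) hn (by omega) hq a1 (fun c hc => a2.trans (h1 c hc).ge) a3
    (fun _ => a4) a5 a6 a7 ((Nat.mul_le_mul_right _ (min_le_right _ _)).trans a8) (fun e => by omega)
    (by rw [card_singular_ne_zero, card_Kc_zero, hq]) (Nat.div_pos a9 (by omega)).ne'

end Cfsg.Agent.S2147
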