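import Cfsg.Statements.S2152
import Cfsg.Agent.Lib.MinDeg.Uni

set_option autoImplicit false
open Cfsg

namespace Cfsg.Agent.S2152

/-- Minimal index of a proper subgroup of the unitary groups of even dimension n ≥ 6: for a field F with q² elements, q ≥ 3, every proper subgroup of PSU_n(q) has index at least (q^n − 1)(q^(n−1) + 1)/(q² − 1), and that index is attained (the isotropic points). -/
theorem result {F : Type*} [Field F] [Fintype F] (q : ℕ) (hF : Fintype.card F = q ^ 2) (hq : 3 ≤ q) (n : ℕ) (hn : 6 ≤ n) (heven : Even n) : (∀ H : Subgroup (Cfsg.PSU n F q), H ≠ ⊤ → (q ^ n - 1) * (q ^ (n - 1) + 1) / (q ^ 2 - 1) ≤ H.index) ∧ (∃ H : Subgroup (Cfsg.PSU n F q), H.index = (q ^ n - 1) * (q ^ (n - 1) + 1) / (q ^ 2 - 1)) := by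
-----
  obtain ⟨d, rfl⟩ := Nat.exists_eq_add_of_le' (show 5 ≤ n by omega)
  have h1 : ¬ Even (d + 4) := by rintro ⟨k, hk⟩; obtain ⟨l, hl⟩ := heven; omega
  have h2 : Even (d + 3) := by obtain ⟨k, hk⟩ := heven; exact ⟨k - 1, by omega⟩
  have h3 : (q ^ 2 - 1) * ((q ^ (d + 5) - 1) * (q ^ (d + 4) + 1) / (q ^ 2 - 1)) ≤
      (q ^ (d + 5) - 1) * (q ^ (d + 4) + 1) := Nat.mul_div_le _ _
  refine Cfsg.Lib.MinDeg.Uni.min_index_psu hF d ?_ ?_ (Or.inl ?_)
  all_goals simp only [Cfsg.Lib.Unitary.uf, if_pos h2, if_neg h1]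
  · exact h3
  · refine Nat.le_of_mul_le_mul_left (c := 2) ?_ two_pos
    rw [← mul_assoc]
    refine ((Nat.mul_le_mul_right _ (Nat.le_sub_of_add_le (by nlinarith))).trans h3).trans ?_
    rw [mul_comm, ← mul_assoc]
    refine Nat.mul_le_mul_right _ ?_
    have : 0 < q ^ (d + 4) := by positivity
    omega
  · rfl

end Cfsg.Agent.S2152
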