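import Cfsg.Statements.S2153
import Cfsg.Agent.Lib.MinDeg.Uni

set_option autoImplicit false
open Cfsg

namespace Cfsg.Agent.S2153

/-- Minimal index of a proper subgroup of the unitary groups PSU_n(2) with n divisible by 6, realised over the field with 4 elements: every proper subgroup has index at least 2^(n−1)(2^n − 1)/3, and that index is attained. -/
theorem result {F : Type*} [Field F] [Fintype F] (hF : Fintype.card F = 4) (n : ℕ) (hn : 6 ∣ n) (hpos : 6 ≤ n) : (∀ H : Subgroup (Cfsg.PSU n F 2), H ≠ ⊤ → 2 ^ (n - 1) * (2 ^ n - 1) / 3 ≤ H.index) ∧ (∃ H : Subgroup (Cfsg.PSU n F 2), H.index = 2 ^ (n - 1) * (2 ^ n - 1) / 3) := by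
-----
  obtain ⟨d, rfl⟩ := Nat.exists_eq_add_of_le' (show 5 ≤ n by omega)
  have h1 : ¬ Even (d + 4) := by rintro ⟨k, hk⟩; omega
  have h2 : Even (d + 3) := ⟨(d + 3) / 2, by omega⟩
  have h3 : 3 * (2 ^ (d + 4) * (2 ^ (d + 5) - 1) / 3) ≤ 2 ^ (d + 4) * (2 ^ (d + 5) - 1) :=
    Nat.mul_div_le _ _
  refine Cfsg.Lib.MinDeg.Uni.min_index_psu (q := 2) hF d ?_ ?_ (Or.inr ?_)
  all_goals simp only [Cfsg.Lib.Unitary.uf, if_pos h2, if_neg h1]
  · refine h3.trans ?_
    rw [mul_comm]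
    exact Nat.mul_le_mul_left _ (Nat.le_succ _)
  · exact h3
  · rfl

end Cfsg.Agent.S2153
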