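import Cfsg.Statements.S2154
import Cfsg.Agent.Lib.Chev.BorelTits

set_option autoImplicit false
open Cfsg

namespace Cfsg.Agent.S2154

open Cfsg.Lib.Chev

/-- The Borel–Tits property of the finite Chevalley groups of types G₂, B₂, D₄, F₄, E₆, E₇, E₈ over a finite field of characteristic p: for every non-trivial p-subgroup U of the group G there are an element g of G and a proper set J of fundamental roots such that the normaliser of U in G lies in the conjugate by g of the standard parabolic subgroup P_J and U lies in the conjugate by g of its unipotent radical U_J. -/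
theorem result {F : Type*} [Field F] [Fintype F] (p : ℕ) [Fact p.Prime] [CharP F p] (D : Cfsg.Lie.ChevalleyDatum) (hD : D ∈ [Cfsg.Lie.chevG2, Cfsg.Lie.chevB2, Cfsg.Lie.chevD4, Cfsg.Lie.chevF4, Cfsg.Lie.chevE6, Cfsg.Lie.chevE7, Cfsg.Lie.chevE8]) (U : Subgroup (GL D.Idx F)) (hUG : U ≤ D.group F) (hU : IsPGroup p ↥U) (hne : U ≠ ⊥) : ∃ g ∈ D.group F, ∃ J : Set ℕ, (∃ i, i < D.rank ∧ i ∉ J) ∧ Subgroup.normalizer (U : Set (GL D.Idx F)) ⊓ D.group F ≤ (D.parabolicSubgroup F J).map (MulAut.conj g).toMonoidHom ∧ U ≤ (D.unipotentRadical F J).map (MulAut.conj g).toMonoidHom := by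
  obtain ⟨c, h⟩ := exists_checked hD
  obtain ⟨k, hk⟩ := (h.gsys_faithful F).exists_conj_le_U p (h.gsys_grp F) (hU.comap_subtype
    (K := D.group F))
  simp only [h.gsys_U, h.posUnipotent_eq] at hk
  obtain ⟨g, hg, J, h1, h2, h3⟩ := (h.faithful F).borelTits
    (Q := U.map (MulAut.conj (k : GL D.Idx F)).toMonoidHom)
    (by rintro _ ⟨a, ha, rfl⟩; exact hk ⟨a, hUG ha⟩ ha)
    (mt (Subgroup.map_eq_bot_iff_of_injective _ (MulAut.conj _).injective).1 hne)
  rw [← h.group_eq] at hg h3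
  refine ⟨k⁻¹ * g, mul_mem (inv_mem k.2) hg, Fin.val '' J, ?_, fun m hm => ?_, fun a ha => ?_⟩
  · obtain ⟨i, hi⟩ := (Set.ne_univ_iff_exists_notMem J).1 h1
    exact ⟨i, i.2, mt Fin.val_injective.mem_set_image.1 hi⟩
  · rw [h.parabolicSubgroup_eq, Set.preimage_image_eq _ Fin.val_injective]
    refine ⟨_, h3 (k * m * k⁻¹) (mul_mem (mul_mem k.2 hm.2) (inv_mem k.2)) ?_, by simp [mul_assoc]⟩
    exact Subgroup.le_normalizer_map _ ⟨m, hm.1, rfl⟩
  · rw [h.unipotentRadical_eq, Set.preimage_image_eq _ Fin.val_injective]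
    exact ⟨_, h2 _ ⟨a, ha, rfl⟩, by simp [mul_assoc]⟩

end Cfsg.Agent.S2154
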