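import Cfsg.Statements.S2155
import Cfsg.Agent.Lib.St.ChevLocal
import Cfsg.Agent.Lib.Comp.GenFitting
import Cfsg.Agent.Lib.Chev.Perfect
import Cfsg.Agent.Lib.Chev.Data

set_option autoImplicit false
open Cfsg

namespace Cfsg.Agent.S2155

open Cfsg.Lib Cfsg.Lib.Chev Subgroup

/-- In a Chevalley group of type G₂, B₂, D₄, F₄, E₆, E₇ or E₈ over a finite field of characteristic p (for types G₂ and B₂ the field is assumed to have at least 3 elements, so that the group is simple), the generalized Fitting subgroup of every proper standard parabolic subgroup P_J is a p-group (P_J is p-constrained with trivial largest normal subgroup of order prime to p). -/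
theorem result {F : Type*} [Field F] [Fintype F] (p : ℕ) [Fact p.Prime] [CharP F p] (D : Cfsg.Lie.ChevalleyDatum) (hD : D ∈ [Cfsg.Lie.chevG2, Cfsg.Lie.chevB2, Cfsg.Lie.chevD4, Cfsg.Lie.chevF4, Cfsg.Lie.chevE6, Cfsg.Lie.chevE7, Cfsg.Lie.chevE8]) (hq : (D = Cfsg.Lie.chevG2 ∨ D = Cfsg.Lie.chevB2) → 3 ≤ Fintype.card F) (J : Set ℕ) (hJ : ∃ i, i < D.rank ∧ i ∉ J) : IsPGroup p ↥(Cfsg.generalizedFittingSubgroup ↥(D.parabolicSubgroup F J)) := by
  obtain ⟨c, h⟩ := exists_checked hD
  obtain ⟨i, hi, hiJ⟩ := hJ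
  have hJ' : (Fin.val ⁻¹' J : Set (Fin D.rank)) ≠ Set.univ :=
    (Set.ne_univ_iff_exists_notMem _).2 ⟨⟨i, hi⟩, hiJ⟩
  rw [h.parabolicSubgroup_eq, ← Comp.genFitting_eq_pCore_iff_isPGroup,
    Comp.genFitting_eq_pCore_iff_centralizer_le]
  generalize Fin.val ⁻¹' J = J' at *
  have hU := (h.faithful F).isPGroup_U p
  have hn : (((h.sys F).UJ J').subgroupOf ((h.sys F).P J')).Normal :=
    normal_subgroupOf_of_le_normalizer ((h.sys F).P_le_normalizer_UJ J')
  refine (centralizer_le (Core.le_pCore hn (hU.to_le ((h.sys F).UJ_le_U J')).comap_subtype)).trans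
    (Core.le_pCore inferInstance ((hU.comap_subtype (K := (h.sys F).P J')).to_le fun x hx => ?_))
  obtain ⟨u, hu, k, hk, h1, e⟩ := St.exists_of_centralizes (h.faithful F) (h.conn hD) hJ'
    ((h.sys F).P_le_grp J' x.2) fun v hv => by
      have := hx ⟨v, (h.sys F).B_le_P J' ((h.sys F).U_le_B ((h.sys F).UJ_le_U J' hv))⟩ hv
      rw [mul_inv_eq_iff_eq_mul]
      exact (congrArg Subtype.val this).symm
  rw [h.adjoint F k hk h1, mul_one] at e
  exact mem_comap.2 (show x.1 ∈ _ from e ▸ hu)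

end Cfsg.Agent.S2155
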