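import Cfsg.Statements.S2156
import Cfsg.Agent.Lib.Chev.OutData

set_option autoImplicit false
open Cfsg

namespace Cfsg.Agent.S2156

open Cfsg.Lib.Chev

/-- Over a finite field, every automorphism of the Chevalley group of type G₂, B₂, D₄, F₄, E₆, E₇ or E₈ is the composite of a field automorphism, a graph automorphism, a diagonal automorphism and an inner automorphism: `θ y = x · d(g(f y)) · x⁻¹` for some group element `x`, diagonal `d`, graph `g` and field `f` (each possibly the identity; diagonal here includes conjugation by elements of the diagonal subgroup H). -/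
theorem result {F : Type*} [Field F] [Finite F] (D : Cfsg.Lie.ChevalleyDatum) (hD : D ∈ [Cfsg.Lie.chevG2, Cfsg.Lie.chevB2, Cfsg.Lie.chevD4, Cfsg.Lie.chevF4, Cfsg.Lie.chevE6, Cfsg.Lie.chevE7, Cfsg.Lie.chevE8]) (θ : ↥(D.group F) ≃* ↥(D.group F)) :
    ∃ (x : ↥(D.group F)) (d g f : ↥(D.group F) ≃* ↥(D.group F)),
      D.IsDiagonalAut d ∧ D.IsGraphAut g ∧ D.IsFieldAut f ∧ ∀ y : ↥(D.group F), θ y = x * d (g (f y)) * x⁻¹ := by
  obtain ⟨c, h, hg, -⟩ := exists_nodes hD F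
  have hF := h.gsys_faithful F
  obtain ⟨x, π, e, f, hθ⟩ := hF.exists_std (h.gsys_grp F) θ
  obtain ⟨σ, hσ⟩ := h.exists_field hD hθ (hg π (hF.mem_range_nodeHom.2 ⟨_, _, _, hθ⟩))
  have key := hF.exists_std_one (h.gsys_grp F) (h.gsys_strongComm F) (h.noA1 hD) (h.gsys_adjoint F)
  obtain ⟨a, ha⟩ := key 1 σ
  obtain ⟨d, hd⟩ := key (fun i => e (π⁻¹ i)) (RingEquiv.refl F)
  have h1 := (ha.symm.trans hθ).trans hd.symm
  exact ⟨x⁻¹, d, _, a, h.isDiagonalAut_iff.2 ⟨_, hd⟩, ⟨π, h.isDiagramSymmetry_of_std hθ,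
    h.graph_iff.2 ⟨fun i t => (h1.pos i t).trans (by simp [hσ]),
      fun i t => (h1.neg i t).trans (by simp [hσ])⟩⟩, (h.isFieldAut_iff_std hD).2 ⟨σ, ha⟩,
    fun y => by simp [mul_assoc]⟩

end Cfsg.Agent.S2156
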