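import Cfsg.Statements.S2159
import Cfsg.Agent.Lib.Chev.OutData

set_option autoImplicit false
open Cfsg

namespace Cfsg.Agent.S2159

open Cfsg.Lib.Chev

/-- Structure of the outer automorphism group of the Chevalley group `G` of type G₂, B₂, D₄, F₄, E₆, E₇ or E₈ over a finite field. Let `D̄` be the image in `Out(G)` of the subgroup generated by the diagonal automorphisms and `F̄` the image of the subgroup generated by the field automorphisms. Then `D̄` is a normal abelian subgroup of `Out(G)`, `F̄` is cyclic, `D̄F̄` is a normal subgroup, and the quotient of `Out(G)` by `D̄F̄` is trivial, of order 2, or non-abelian of order 6 (so isomorphic to the symmetric group on three letters): its index is 1 or 2, or it is 6 with the commutator subgroup of `Out(G)` not inside `D̄F̄`. -/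
theorem result {F : Type*} [Field F] [Finite F] (D : Cfsg.Lie.ChevalleyDatum) (hD : D ∈ [Cfsg.Lie.chevG2, Cfsg.Lie.chevB2, Cfsg.Lie.chevD4, Cfsg.Lie.chevF4, Cfsg.Lie.chevE6, Cfsg.Lie.chevE7, Cfsg.Lie.chevE8])
    (Dbar Fbar : Subgroup (Cfsg.Out ↥(D.group F)))
    (hDbar : Dbar = (Subgroup.closure {φ : MulAut ↥(D.group F) | D.IsDiagonalAut φ}).map (QuotientGroup.mk' (Cfsg.Inn ↥(D.group F))))
    (hFbar : Fbar = (Subgroup.closure {φ : MulAut ↥(D.group F) | D.IsFieldAut φ}).map (QuotientGroup.mk' (Cfsg.Inn ↥(D.group F)))) :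
    Dbar.Normal ∧ IsMulCommutative ↥Dbar ∧ IsCyclic ↥Fbar ∧ (Dbar ⊔ Fbar).Normal ∧
      ((Dbar ⊔ Fbar).index = 1 ∨ (Dbar ⊔ Fbar).index = 2 ∨
        ((Dbar ⊔ Fbar).index = 6 ∧ ¬ commutator (Cfsg.Out ↥(D.group F)) ≤ Dbar ⊔ Fbar)) := by
  obtain ⟨c, h, -, hn⟩ := exists_nodes hD F
  have := Checked.nonempty_rank hD
  simp only [h.isDiagonalAut_iff] at hDbar
  simp only [h.isFieldAut_iff_std hD] at hFbar
  obtain ⟨h1, h2, h3, ν, h4, h5⟩ := (h.gsys_faithful F).out_structure (h.gsys_grp F)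
    (h.gsys_strongComm F) (h.noA1 hD) (h.gsys_adjoint F) (h.conn hD) hDbar hFbar
  refine ⟨h1, h2, h3, h4 ▸ inferInstance, ?_⟩
  rw [← h4, Subgroup.index_ker, h5]
  refine hn.imp_right (.imp_right (.imp_right fun ⟨a, ha, b, hb, e⟩ hc => e ?_))
  obtain ⟨a, rfl⟩ := h5.ge ha
  obtain ⟨b, rfl⟩ := h5.ge hb
  have := hc (Subgroup.commutator_mem_commutator (Subgroup.mem_top a) (Subgroup.mem_top b))
  rwa [MonoidHom.mem_ker, map_commutatorElement, commutatorElement_eq_one_iff_mul_comm] at this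

end Cfsg.Agent.S2159
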