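import Cfsg.Statements.S2161
import Cfsg.Agent.Lib.Chev.OutData

set_option autoImplicit false
open Cfsg

namespace Cfsg.Agent.S2161

open Cfsg.Lib.Chev RootSys

theorem co_sref {ι Φ : Type} [Fintype ι] [DecidableEq ι] (R : RootSys ι Φ) (i : ι) (r : Φ) (k : ι) :
    R.co (R.sref i r) k = R.co r k - if k = i then ∑ j, R.co r j * R.A j i else 0 := by
  rw [(R.isAut_sref i).co]
  by_cases h : k = i <;> simp [co_sref_simple, mul_sub, Finset.sum_sub_distrib, h, mul_comm]

theorem co_inj {ι Φ : Type} [Fintype ι] [DecidableEq ι] (R : RootSys ι Φ) {r s : Φ}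
    (h : R.co r = R.co s) : r = s := by
  refine (eq_or_neg_of_smul (R := R) (r := s) (s := r) (i := R.ln r) (j := R.ln s) (R.ln_pos r).ne'
    (funext fun i => ?_)).resolve_right fun e => ?_
  · have h1 := R.ln_mul_co r i
    have h2 := R.ln_mul_co s i
    refine mul_left_cancel₀ (R.ln_pos (R.simple i)).ne' ?_
    simp only [Pi.smul_apply, smul_eq_mul]
    rw [h] at h1
    linear_combination R.ln s * h1 - R.ln r * h2
  · rw [e, R.co_neg] at h
    refine R.α_ne_zero s (funext fun i => R.co_eq_zero_iff.1 ?_)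
    have := congrFun h i
    simp only [Pi.neg_apply] at this
    omega

/-- For the Chevalley groups of types D₄ and E₆ (one root length) over any field: if `π` is a symmetry of the Dynkin diagram and `φ` is an automorphism sending `x_{p_i}(t)` to `x_{p_{π i}}(t)` and `x_{-p_i}(t)` to `x_{-p_{π i}}(t)` for every fundamental root `p_i`, then for every root `r` there is a sign `ε = ±1` with `φ(x_r(t)) = x_{π·r}(ε t)` for all `t`, where `π·r` is the root whose coefficients are those of `r` permuted by `π`. -/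
theorem result {F : Type*} [Field F] (D : Cfsg.Lie.ChevalleyDatum) (hD : D ∈ [Cfsg.Lie.chevD4, Cfsg.Lie.chevE6])
    (π : Equiv.Perm (Fin D.rank)) (hπ : D.IsDiagramSymmetry π) (φ : ↥(D.group F) ≃* ↥(D.group F))
    (hφ : ∀ (g : ↥(D.group F)) (i : Fin D.rank) (t : F),
      (((g : GL D.Idx F) : Matrix D.Idx D.Idx F) = D.x F (D.simple i) t →
        ((φ g : GL D.Idx F) : Matrix D.Idx D.Idx F) = D.x F (D.simple (π i)) t) ∧
      (((g : GL D.Idx F) : Matrix D.Idx D.Idx F) = D.x F (D.neg (D.simple i)) t →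
        ((φ g : GL D.Idx F) : Matrix D.Idx D.Idx F) = D.x F (D.neg (D.simple (π i))) t))
    (r : ℕ) (hr : r < D.nroots) :
    ∃ ε : F, (ε = 1 ∨ ε = -1) ∧ ∀ (g : ↥(D.group F)) (t : F),
      ((g : GL D.Idx F) : Matrix D.Idx D.Idx F) = D.x F r t →
        ((φ g : GL D.Idx F) : Matrix D.Idx D.Idx F) = D.x F (D.permRoot π r) (ε * t) := by
  obtain ⟨c, h⟩ := exists_checked (D := D) (by
    simp only [List.mem_cons, List.not_mem_nil, or_false] at hD ⊢
    tauto)
  lift r to Fin D.nroots using hr
  obtain ⟨h1, h2⟩ := (h.graph_iff (f := fun _ t => t)).1 hφ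
  have hs : (h.gsys F).Std φ π 1 fun _ => RingEquiv.refl F := ⟨by simp [h1], by simp [h2]⟩
  have h3 : ∀ i j, -1 ≤ h.R.A i j := fun i j => by
    rw [h.A_eq]
    simp only [List.mem_cons, List.not_mem_nil, or_false] at hD
    revert i j
    rcases hD with rfl | rfl <;> decide +kernel
  have h4 : ∀ i j, h.R.A (π i) (π j) = h.R.A i j := fun i j => by
    rcases eq_or_ne i j with rfl | hij
    · rw [A_diag, A_diag]
    have := hπ i j hij
    rw [h.bonds_eq, h.bonds_eq] at this
    have := h3 i j
    have := h3 j i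
    have := h3 (π i) (π j)
    have := h3 (π j) (π i)
    rcases h.R.A_cases hij with ⟨a, b⟩ | ⟨a, b⟩ | ⟨a, b⟩ | ⟨a, b⟩ | ⟨a, b⟩ | ⟨a, b⟩ <;>
      rcases h.R.A_cases (π.injective.ne hij) with
        ⟨c, d⟩ | ⟨c, d⟩ | ⟨c, d⟩ | ⟨c, d⟩ | ⟨c, d⟩ | ⟨c, d⟩ <;> simp_all
  obtain ⟨s, ε, e1, e2, e3⟩ : ∃ s, ∃ ε : F, ε * ε = 1 ∧ (∀ i, h.R.co s (π i) = h.R.co r i) ∧
      ∀ t, φ ((h.gsys F).x r t) = (h.gsys F).x s (ε * t) := by
    induction r using induction_root (R := h.R) with
    | simple i => exact ⟨h.R.simple (π i), 1, by simp, fun j => by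
        simp [co_simple, Pi.single_apply], by simp [h1]⟩
    | step i r ih =>
      obtain ⟨s, ε, e1, e2, e3⟩ := ih
      have a1 := congrArg Units.val ((h.gsys F).η_sq i r)
      have a2 := congrArg Units.val ((h.gsys F).η_sq (π i) s)
      rw [Units.val_mul, Units.val_one] at a1 a2
      refine ⟨h.R.sref (π i) s, (h.gsys F).η (π i) s * ε * (h.gsys F).η i r,
        by linear_combination ε * ε * a1 * (h.gsys F).η (π i) s ^ 2 + ε * ε * a2 + e1, fun j => ?_, fun t => ?_⟩
      · rw [co_sref, co_sref, e2, ← Equiv.sum_comp π]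
        simp [e2, h4]
      · have := congrArg φ (((h.gsys F).acts_n_simple i).conj r ((h.gsys F).η i r * t))
        rw [← mul_assoc, a1, one_mul, map_mul, map_mul, map_inv, hs.map_n, e3] at this
        simp only [Pi.one_apply, map_one, mul_one] at this
        rw [← this, ((h.gsys F).acts_n_simple _).conj]
        simp only [mul_assoc]
  refine ⟨ε, mul_self_eq_one_iff.1 e1, fun g t hg => ?_⟩
  have h5 : D.permRoot π r = s := by
    rw [Cfsg.Lie.ChevalleyDatum.permRoot]
    rcases e : List.find? _ (List.range D.nroots) with _ | k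
    · exact absurd (by simpa only [← h.co_eq, List.all_eq_true, beq_iff_eq, List.mem_finRange,
        forall_const] using e2)
        (List.find?_eq_none.1 e s (List.mem_range.2 s.2))
    · have e4 := List.find?_some e
      lift k to Fin D.nroots using List.mem_range.1 (List.mem_of_find?_eq_some e)
      simp only [← h.co_eq, List.all_eq_true, beq_iff_eq, List.mem_finRange, forall_const] at e4
      exact congrArg Fin.val (co_inj h.R (funext fun i => by
        obtain ⟨i, rfl⟩ := π.surjective i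
        rw [e4, e2]))
  rw [h5, h.coe_eq_gx_iff, h.coe_eq_gx_iff.1 hg, e3]

end Cfsg.Agent.S2161
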