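import Cfsg.Statements.S2298
import Cfsg.Agent.Lib.CharDeg.GL2Count

set_option autoImplicit false
open Cfsg

namespace Cfsg.Agent.S2298

open Cfsg.Lib.GLTwo Cfsg.Lib.Char in

/-- Over a finite field F with q elements, every irreducible complex character of GL₂ has degree 1, q − 1, q or q + 1; and when q ≥ 3 (so that these four numbers are distinct) there are exactly q − 1 irreducible characters of degree 1, exactly q − 1 of degree q, exactly (q − 1)(q − 2)/2 of degree q + 1 and exactly q(q − 1)/2 of degree q − 1. -/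
theorem result {F : Type*} [Field F] [Fintype F] :
    (∀ χ : Matrix.GeneralLinearGroup (Fin 2) F → ℂ, Cfsg.IsIrrCharacter (Matrix.GeneralLinearGroup (Fin 2) F) χ →
      χ 1 = 1 ∨ χ 1 = (Fintype.card F : ℂ) - 1 ∨ χ 1 = (Fintype.card F : ℂ) ∨ χ 1 = (Fintype.card F : ℂ) + 1) ∧
    (3 ≤ Fintype.card F →
      Nat.card {χ : Cfsg.IrrCharacter (Matrix.GeneralLinearGroup (Fin 2) F) // (χ : Matrix.GeneralLinearGroup (Fin 2) F → ℂ) 1 = 1} = Fintype.card F - 1 ∧
      Nat.card {χ : Cfsg.IrrCharacter (Matrix.GeneralLinearGroup (Fin 2) F) // (χ : Matrix.GeneralLinearGroup (Fin 2) F → ℂ) 1 = (Fintype.card F : ℂ)} = Fintype.card F - 1 ∧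
      Nat.card {χ : Cfsg.IrrCharacter (Matrix.GeneralLinearGroup (Fin 2) F) // (χ : Matrix.GeneralLinearGroup (Fin 2) F → ℂ) 1 = (Fintype.card F : ℂ) + 1} = (Fintype.card F - 1) * (Fintype.card F - 2) / 2 ∧
      Nat.card {χ : Cfsg.IrrCharacter (Matrix.GeneralLinearGroup (Fin 2) F) // (χ : Matrix.GeneralLinearGroup (Fin 2) F → ℂ) 1 = (Fintype.card F : ℂ) - 1} = Fintype.card F * (Fintype.card F - 1) / 2) := by
  classical
  obtain ⟨a, b, h⟩ := exists_no_root F
  haveI := Fact.mk h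
  refine ⟨fun χ hχ => ?_, fun hq => ?_⟩
  · rcases irr_cases a b hχ with ⟨l, rfl⟩ | ⟨l, rfl⟩ | ⟨α, β, h, rfl⟩ | ⟨θ, h, rfl⟩
    · exact Or.inl (lin_apply_one _)
    · exact Or.inr (Or.inr (Or.inl (stb_apply_one _)))
    · exact Or.inr (Or.inr (Or.inr (ps_apply_one _ _)))
    · exact Or.inr (Or.inl (cusp_apply_one _))
  have h0 : (Fintype.card F : ℂ) ≠ 0 := by exact_mod_cast (by omega : Fintype.card F ≠ 0)
  have h1 : (Fintype.card F : ℂ) ≠ 1 := by exact_mod_cast (by omega : Fintype.card F ≠ 1)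
  have h2 : (Fintype.card F : ℂ) ≠ 2 := by exact_mod_cast (by omega : Fintype.card F ≠ 2)
  refine ⟨?_, ?_, ?_, ?_⟩
  · rw [card_irr_subtype_eq (fun χ => χ 1 = 1) (Set.range lin), ncard_range_lin]
    intro χ
    constructor
    · rintro ⟨l, rfl⟩; exact ⟨isIrr_lin l, lin_apply_one l⟩
    · rintro ⟨hχ, e⟩
      rcases irr_cases a b hχ with ⟨l, rfl⟩ | ⟨l, rfl⟩ | ⟨α, β, h, rfl⟩ | ⟨θ, h, rfl⟩
      · exact ⟨l, rfl⟩
      · rw [stb_apply_one] at e; exact absurd e h1
      · rw [ps_apply_one] at e; exact absurd (by linear_combination e) h0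
      · rw [cusp_apply_one] at e; exact absurd (by linear_combination e) h2
  · rw [card_irr_subtype_eq (fun χ => χ 1 = (Fintype.card F : ℂ)) (Set.range stb), ncard_range_stb]
    intro χ
    constructor
    · rintro ⟨l, rfl⟩; exact ⟨isIrr_stb l, stb_apply_one l⟩
    · rintro ⟨hχ, e⟩
      rcases irr_cases a b hχ with ⟨l, rfl⟩ | ⟨l, rfl⟩ | ⟨α, β, h, rfl⟩ | ⟨θ, h, rfl⟩
      · rw [lin_apply_one] at e; exact absurd e.symm h1
      · exact ⟨l, rfl⟩
      · rw [ps_apply_one] at e; exact absurd (by linear_combination e : (1 : ℂ) = 0) one_ne_zero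
      · rw [cusp_apply_one] at e; exact absurd (by linear_combination -e : (1 : ℂ) = 0) one_ne_zero
  · rw [card_irr_subtype_eq (fun χ => χ 1 = (Fintype.card F : ℂ) + 1)
      (Set.range (fun p : {p : MulChar F ℂ × MulChar F ℂ // p.1 ≠ p.2} => ps p.1.1 p.1.2)),
      ← ncard_range_ps, Nat.mul_div_cancel_left _ two_pos]
    intro χ
    constructor
    · rintro ⟨p, rfl⟩; exact ⟨isIrr_ps p.2, ps_apply_one _ _⟩
    · rintro ⟨hχ, e⟩
      rcases irr_cases a b hχ with ⟨l, rfl⟩ | ⟨l, rfl⟩ | ⟨α, β, h, rfl⟩ | ⟨θ, h, rfl⟩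
      · rw [lin_apply_one] at e; exact absurd (by linear_combination -e) h0
      · rw [stb_apply_one] at e; exact absurd (by linear_combination -e : (1 : ℂ) = 0) one_ne_zero
      · exact ⟨⟨(α, β), h⟩, rfl⟩
      · rw [cusp_apply_one] at e; exact absurd (by linear_combination -e : (2 : ℂ) = 0) two_ne_zero
  · rw [card_irr_subtype_eq (fun χ => χ 1 = (Fintype.card F : ℂ) - 1)
      (Set.range (fun θ : {θ : MulChar (QuadraticAlgebra F a b) ℂ // cstar θ ≠ θ} => cusp θ.1)),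
      ← ncard_range_cusp (a := a) (b := b), Nat.mul_div_cancel_left _ two_pos]
    intro χ
    constructor
    · rintro ⟨p, rfl⟩; exact ⟨isIrr_cusp p.2, cusp_apply_one _⟩
    · rintro ⟨hχ, e⟩
      rcases irr_cases a b hχ with ⟨l, rfl⟩ | ⟨l, rfl⟩ | ⟨α, β, h, rfl⟩ | ⟨θ, h, rfl⟩
      · rw [lin_apply_one] at e; exact absurd (by linear_combination -e) h2
      · rw [stb_apply_one] at e; exact absurd (by linear_combination e : (1 : ℂ) = 0) one_ne_zero
      · rw [ps_apply_one] at e; exact absurd (by linear_combination e : (2 : ℂ) = 0) two_ne_zero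
      · exact ⟨⟨θ, h⟩, rfl⟩

end Cfsg.Agent.S2298
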