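import Cfsg.Statements.S2299
import Cfsg.Agent.Lib.CharDeg.SL2Deg

set_option autoImplicit false
open Cfsg

namespace Cfsg.Agent.S2299

open Cfsg.Lib.GLTwo Cfsg.Lib.Char Cfsg.Lib.PSL2 in

/-- Over a finite field F with q elements, q odd, every irreducible complex character of SL₂ has degree 1, q, q + 1, q − 1, (q + 1)/2 or (q − 1)/2; and when q ≥ 5 (so that these six numbers are distinct) there are exactly one irreducible character of degree 1, one of degree q, (q − 3)/2 of degree q + 1, (q − 1)/2 of degree q − 1, two of degree (q + 1)/2 and two of degree (q − 1)/2. -/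
theorem result {F : Type*} [Field F] [Fintype F] (hodd : Odd (Fintype.card F)) :
    (∀ χ : Matrix.SpecialLinearGroup (Fin 2) F → ℂ, Cfsg.IsIrrCharacter (Matrix.SpecialLinearGroup (Fin 2) F) χ →
      χ 1 = 1 ∨ χ 1 = (Fintype.card F : ℂ) ∨ χ 1 = (Fintype.card F : ℂ) + 1 ∨ χ 1 = (Fintype.card F : ℂ) - 1 ∨
        χ 1 = (((Fintype.card F + 1) / 2 : ℕ) : ℂ) ∨ χ 1 = (((Fintype.card F - 1) / 2 : ℕ) : ℂ)) ∧
    (5 ≤ Fintype.card F →
      Nat.card {χ : Cfsg.IrrCharacter (Matrix.SpecialLinearGroup (Fin 2) F) // (χ : Matrix.SpecialLinearGroup (Fin 2) F → ℂ) 1 = 1} = 1 ∧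
      Nat.card {χ : Cfsg.IrrCharacter (Matrix.SpecialLinearGroup (Fin 2) F) // (χ : Matrix.SpecialLinearGroup (Fin 2) F → ℂ) 1 = (Fintype.card F : ℂ)} = 1 ∧
      Nat.card {χ : Cfsg.IrrCharacter (Matrix.SpecialLinearGroup (Fin 2) F) // (χ : Matrix.SpecialLinearGroup (Fin 2) F → ℂ) 1 = (Fintype.card F : ℂ) + 1} = (Fintype.card F - 3) / 2 ∧
      Nat.card {χ : Cfsg.IrrCharacter (Matrix.SpecialLinearGroup (Fin 2) F) // (χ : Matrix.SpecialLinearGroup (Fin 2) F → ℂ) 1 = (Fintype.card F : ℂ) - 1} = (Fintype.card F - 1) / 2 ∧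
      Nat.card {χ : Cfsg.IrrCharacter (Matrix.SpecialLinearGroup (Fin 2) F) // (χ : Matrix.SpecialLinearGroup (Fin 2) F → ℂ) 1 = (((Fintype.card F + 1) / 2 : ℕ) : ℂ)} = 2 ∧
      Nat.card {χ : Cfsg.IrrCharacter (Matrix.SpecialLinearGroup (Fin 2) F) // (χ : Matrix.SpecialLinearGroup (Fin 2) F → ℂ) 1 = (((Fintype.card F - 1) / 2 : ℕ) : ℂ)} = 2) := by
  classical
  obtain ⟨a, b, h'⟩ := exists_no_root F
  haveI := Fact.mk h'
  refine ⟨fun χ hχ => ?_, fun hq => ⟨?_, ?_, ?_, ?_, ?_, ?_⟩⟩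
  · rcases irr_cases_sl a b hχ with rfl | rfl | ⟨α, h, rfl⟩ | h | h | h
    · exact Or.inl rfl
    · exact Or.inr (Or.inl rst_apply_one)
    · exact Or.inr (Or.inr (Or.inl (rps_apply_one α)))
    · exact Or.inr (Or.inr (Or.inr (Or.inl (cuspSet_apply_one h))))
    · exact Or.inr (Or.inr (Or.inr (Or.inr (Or.inl (halfPs_apply_one h)))))
    · exact Or.inr (Or.inr (Or.inr (Or.inr (Or.inr (halfCusp_apply_one h)))))
  · rw [card_irr_subtype_eq (fun χ => χ 1 = 1) {fun _ => 1}, Set.ncard_singleton]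
    exact fun χ => ⟨by rintro rfl; exact ⟨isIrrCharacter_one, rfl⟩,
      fun h => eq_one_of_deg (by omega) h.1 h.2⟩
  · rw [card_irr_subtype_eq (fun χ => χ 1 = (Fintype.card F : ℂ)) {rst}, Set.ncard_singleton]
    exact fun χ => ⟨by rintro rfl; exact ⟨isIrr_rst, rst_apply_one⟩,
      fun h => eq_rst_of_deg h.1 h.2⟩
  · rw [card_irr_subtype_eq (fun χ => χ 1 = (Fintype.card F : ℂ) + 1)
      (Set.range (fun α : {α : MulChar F ℂ // α ^ 2 ≠ 1} => rps α.1))]
    · have := ncard_range_rps (F := F)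
      rw [if_pos hodd] at this
      omega
    · refine fun χ => ⟨by rintro ⟨α, rfl⟩; exact ⟨isIrr_rps_iff.2 α.2, rps_apply_one _⟩, fun h => ?_⟩
      obtain ⟨α, h1, rfl⟩ := exists_rps_of_deg h.1 h.2
      exact ⟨⟨α, h1⟩, rfl⟩
  · rw [card_irr_subtype_eq (fun χ => χ 1 = (Fintype.card F : ℂ) - 1) (cuspSet a b)]
    · have := ncard_cuspSet a b
      rw [if_pos hodd] at this
      omega
    · exact fun χ => ⟨fun h => ⟨cuspSet_irr h, cuspSet_apply_one h⟩,
        fun h => mem_cuspSet_of_deg a b (by omega) h.1 h.2⟩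
  · rw [card_irr_subtype_eq (fun χ => χ 1 = (((Fintype.card F + 1) / 2 : ℕ) : ℂ)) halfPs,
      ncard_halfPs, if_pos hodd]
    exact fun χ => ⟨fun h => ⟨halfPs_irr h, halfPs_apply_one h⟩,
      fun h => mem_halfPs_of_deg hodd hq h.1 h.2⟩
  · rw [card_irr_subtype_eq (fun χ => χ 1 = (((Fintype.card F - 1) / 2 : ℕ) : ℂ)) (halfCusp a b),
      ncard_halfCusp, if_pos hodd]
    exact fun χ => ⟨fun h => ⟨halfCusp_irr h, halfCusp_apply_one h⟩,
      fun h => mem_halfCusp_of_deg a b hodd hq h.1 h.2⟩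

end Cfsg.Agent.S2299
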