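import Cfsg.Statements.S2300
import Cfsg.Agent.Lib.CharDeg.SL2Deg

set_option autoImplicit false
open Cfsg

namespace Cfsg.Agent.S2300

open Cfsg.Lib.GLTwo Cfsg.Lib.Char Cfsg.Lib.PSL2 in

/-- Over a finite field F with q elements, q even, every irreducible complex character of SL₂ has degree 1, q − 1, q or q + 1; and when q ≥ 4 (so that these four numbers are distinct) there are exactly one irreducible character of degree 1, one of degree q, (q − 2)/2 of degree q + 1 and q/2 of degree q − 1. -/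
theorem result {F : Type*} [Field F] [Fintype F] [CharP F 2] :
    (∀ χ : Matrix.SpecialLinearGroup (Fin 2) F → ℂ, Cfsg.IsIrrCharacter (Matrix.SpecialLinearGroup (Fin 2) F) χ →
      χ 1 = 1 ∨ χ 1 = (Fintype.card F : ℂ) - 1 ∨ χ 1 = (Fintype.card F : ℂ) ∨ χ 1 = (Fintype.card F : ℂ) + 1) ∧
    (4 ≤ Fintype.card F →
      Nat.card {χ : Cfsg.IrrCharacter (Matrix.SpecialLinearGroup (Fin 2) F) // (χ : Matrix.SpecialLinearGroup (Fin 2) F → ℂ) 1 = 1} = 1 ∧
      Nat.card {χ : Cfsg.IrrCharacter (Matrix.SpecialLinearGroup (Fin 2) F) // (χ : Matrix.SpecialLinearGroup (Fin 2) F → ℂ) 1 = (Fintype.card F : ℂ)} = 1 ∧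
      Nat.card {χ : Cfsg.IrrCharacter (Matrix.SpecialLinearGroup (Fin 2) F) // (χ : Matrix.SpecialLinearGroup (Fin 2) F → ℂ) 1 = (Fintype.card F : ℂ) + 1} = (Fintype.card F - 2) / 2 ∧
      Nat.card {χ : Cfsg.IrrCharacter (Matrix.SpecialLinearGroup (Fin 2) F) // (χ : Matrix.SpecialLinearGroup (Fin 2) F → ℂ) 1 = (Fintype.card F : ℂ) - 1} = Fintype.card F / 2) := by
  classical
  obtain ⟨a, b, h'⟩ := exists_no_root F
  haveI := Fact.mk h'
  have hodd : ¬ Odd (Fintype.card F) := by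
    rw [← Nat.card_eq_fintype_card, ← ringChar_ne_two_iff_odd, ringChar.eq F 2]
    simp
  refine ⟨fun χ hχ => ?_, fun hq => ⟨?_, ?_, ?_, ?_⟩⟩
  · rcases irr_cases_sl a b hχ with rfl | rfl | ⟨α, h, rfl⟩ | h | ⟨_, _, -, -, h⟩ | ⟨_, _, -, -, h⟩
    · exact Or.inl rfl
    · exact Or.inr (Or.inr (Or.inl rst_apply_one))
    · exact Or.inr (Or.inr (Or.inr (rps_apply_one α)))
    · exact Or.inr (Or.inl (cuspSet_apply_one h))
    · exact absurd h.odd hodd
    · exact absurd h.odd hodd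
  · rw [card_irr_subtype_eq (fun χ => χ 1 = 1) {fun _ => 1}, Set.ncard_singleton]
    exact fun χ => ⟨by rintro rfl; exact ⟨isIrrCharacter_one, rfl⟩,
      fun h => eq_one_of_deg (by omega) h.1 h.2⟩
  · rw [card_irr_subtype_eq (fun χ => χ 1 = (Fintype.card F : ℂ)) {rst}, Set.ncard_singleton]
    exact fun χ => ⟨by rintro rfl; exact ⟨isIrr_rst, rst_apply_one⟩,
      fun h => eq_rst_of_deg h.1 h.2⟩
  · rw [card_irr_subtype_eq (fun χ => χ 1 = (Fintype.card F : ℂ) + 1)
      (Set.range (fun α : {α : MulChar F ℂ // α ^ 2 ≠ 1} => rps α.1))]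
    · have := ncard_range_rps (F := F)
      rw [if_neg hodd] at this
      omega
    · refine fun χ => ⟨by rintro ⟨α, rfl⟩; exact ⟨isIrr_rps_iff.2 α.2, rps_apply_one _⟩, fun h => ?_⟩
      obtain ⟨α, h1, rfl⟩ := exists_rps_of_deg h.1 h.2
      exact ⟨⟨α, h1⟩, rfl⟩
  · rw [card_irr_subtype_eq (fun χ => χ 1 = (Fintype.card F : ℂ) - 1) (cuspSet a b)]
    · have := ncard_cuspSet a b
      rw [if_neg hodd] at this
      omega
    · exact fun χ => ⟨fun h => ⟨cuspSet_irr h, cuspSet_apply_one h⟩,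
        fun h => mem_cuspSet_of_deg a b (by omega) h.1 h.2⟩

end Cfsg.Agent.S2300
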