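import Cfsg.Statements.S2301
import Cfsg.Agent.Lib.CharDeg.SL2Sylow
import Cfsg.Agent.Lib.Inv.FourGroup

set_option autoImplicit false
open Cfsg

namespace Cfsg.Agent.S2301

open Cfsg.Lib.GLTwo Cfsg.Lib.Char Cfsg.Lib.PSL2 in

/-- Over a finite field with q elements of odd characteristic p, the elements of order p of SL₂ (the non-identity unipotent elements) fall into exactly two conjugacy classes, each of size (q² − 1)/2; two upper unitriangular matrices with non-zero off-diagonal entries b and b′ are conjugate exactly when bb′ is a square. -/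
theorem result {F : Type*} [Field F] [Fintype F] (p : ℕ) [Fact p.Prime] [CharP F p] (hp : p ≠ 2) :
    Nat.card {C : ConjClasses (Matrix.SpecialLinearGroup (Fin 2) F) // ∃ g : Matrix.SpecialLinearGroup (Fin 2) F, orderOf g = p ∧ ConjClasses.mk g = C} = 2 ∧
    (∀ g : Matrix.SpecialLinearGroup (Fin 2) F, orderOf g = p → Nat.card (ConjClasses.mk g).carrier = (Fintype.card F ^ 2 - 1) / 2) ∧
    ∀ g h : Matrix.SpecialLinearGroup (Fin 2) F, (g : Matrix (Fin 2) (Fin 2) F) 0 0 = 1 → (g : Matrix (Fin 2) (Fin 2) F) 1 1 = 1 → (g : Matrix (Fin 2) (Fin 2) F) 1 0 = 0 → (g : Matrix (Fin 2) (Fin 2) F) 0 1 ≠ 0 →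
      (h : Matrix (Fin 2) (Fin 2) F) 0 0 = 1 → (h : Matrix (Fin 2) (Fin 2) F) 1 1 = 1 → (h : Matrix (Fin 2) (Fin 2) F) 1 0 = 0 → (h : Matrix (Fin 2) (Fin 2) F) 0 1 ≠ 0 →
      (IsConj g h ↔ IsSquare ((g : Matrix (Fin 2) (Fin 2) F) 0 1 * (h : Matrix (Fin 2) (Fin 2) F) 0 1)) := by
  have hodd := odd_card_of_char_ne_two (F := F) p hp
  have h2 := two_ne_zero_iff_odd.2 hodd
  refine ⟨?_, fun g hg => ?_, fun g h g1 g2 g3 g4 h1 h2 h3 h4 => ?_⟩
  · obtain ⟨δ, hδ⟩ := FiniteField.exists_nonsquare (F := F) (by rwa [ringChar.eq F p])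
    have hδ0 : δ ≠ 0 := fun e => hδ (e ▸ IsSquare.zero)
    refine Cfsg.Lib.Inv.card_classes_eq_two (a := upper 1) (b := upper δ)
      (orderOf_upper p one_ne_zero) (orderOf_upper p hδ0)
      (fun e => hδ (by simpa using isSquare_of_isConj_upper one_ne_zero e)) fun g hg => ?_
    obtain ⟨x, hx, e⟩ := exists_isConj_upper p hg
    by_cases hs : IsSquare x
    · exact .inl (e.trans (isConj_upper_of_isSquare hx one_ne_zero (by simpa using hs)))
    · exact .inr (e.trans (isConj_upper_of_isSquare hx hδ0 (isSquare_mul_of_not_isSquare hs hδ)))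
  · obtain ⟨x, hx, e⟩ := exists_isConj_upper p hg
    obtain ⟨f⟩ := centralizer_equiv_of_isConj e
    have h3 := (Subgroup.centralizer ({g} : Set (Matrix.SpecialLinearGroup (Fin 2) F))).index_mul_card
    rw [Nat.card_congr f.toEquiv, card_centralizer_upper hx, card_units_sq_eq_one h2, card_SL2,
      Nat.card_eq_fintype_card, ← mul_assoc, mul_comm (Fintype.card F)] at h3
    have h4 := Nat.eq_of_mul_eq_mul_right Fintype.card_pos h3
    rw [Cfsg.Lib.FGS.card_carrier_eq_index]
    omega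
  · rw [eq_upper g1 g2 g3, eq_upper h1 h2 h3]
    simp only [coe_upper, Matrix.of_apply, Matrix.cons_val', Matrix.cons_val_zero,
      Matrix.cons_val_one, Matrix.cons_val_fin_one]
    exact ⟨isSquare_of_isConj_upper g4, isConj_upper_of_isSquare g4 h4⟩

end Cfsg.Agent.S2301
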