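import Cfsg.Statements.S2302
import Cfsg.Agent.Lib.CharDeg.SL2Sylow
import Cfsg.Agent.Lib.Inv.FourGroup

set_option autoImplicit false
open Cfsg

namespace Cfsg.Agent.S2302

open Cfsg.Lib.GLTwo Cfsg.Lib.Char Cfsg.Lib.PSL2 in

/-- Over a finite field with q elements of characteristic 2, the involutions of SL₂ (the non-identity unipotent elements) form a single conjugacy class, of size q² − 1. -/
theorem result {F : Type*} [Field F] [Fintype F] [CharP F 2] (g h : Matrix.SpecialLinearGroup (Fin 2) F) (hg : orderOf g = 2) (hh : orderOf h = 2) :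
    IsConj g h ∧ Nat.card (ConjClasses.mk g).carrier = Fintype.card F ^ 2 - 1 := by
  have h2 : (2 : F) = 0 := by exact_mod_cast CharP.cast_eq_zero F 2
  obtain ⟨x, hx, e⟩ := exists_isConj_upper 2 hg
  obtain ⟨y, hy, e'⟩ := exists_isConj_upper 2 hh
  refine ⟨e.trans ((isConj_upper_of_isSquare hx hy
    (FiniteField.isSquare_of_char_two (ringChar.eq F 2) _)).trans e'.symm), ?_⟩
  obtain ⟨f⟩ := centralizer_equiv_of_isConj e
  have h3 := (Subgroup.centralizer ({g} : Set (Matrix.SpecialLinearGroup (Fin 2) F))).index_mul_card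
  rw [Nat.card_congr f.toEquiv, card_centralizer_upper hx, card_units_sq_eq_one' h2, card_SL2,
    Nat.card_eq_fintype_card, one_mul, mul_comm (Fintype.card F)] at h3
  rw [Cfsg.Lib.FGS.card_carrier_eq_index]
  exact Nat.eq_of_mul_eq_mul_right Fintype.card_pos h3

end Cfsg.Agent.S2302
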