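import Cfsg.Statements.S2303
import Cfsg.Agent.Lib.CharDeg.SL2Struct

set_option autoImplicit false
open Cfsg

namespace Cfsg.Agent.S2303

open Cfsg.Lib.GLTwo Cfsg.Lib.Char Cfsg.Lib.PSL2 in

/-- Over a finite field with q elements: a diagonal element of GL₂ with two distinct diagonal entries has centralizer of order (q − 1)² (so q(q + 1) conjugates), and an element of GL₂ with no eigenvector in F² has centralizer of order q² − 1 (so q(q − 1) conjugates). -/
theorem result {F : Type*} [Field F] [Fintype F] (g : Matrix.GeneralLinearGroup (Fin 2) F) :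
    ((g : Matrix (Fin 2) (Fin 2) F) 0 1 = 0 → (g : Matrix (Fin 2) (Fin 2) F) 1 0 = 0 → (g : Matrix (Fin 2) (Fin 2) F) 0 0 ≠ (g : Matrix (Fin 2) (Fin 2) F) 1 1 →
      Nat.card (Subgroup.centralizer ({g} : Set (Matrix.GeneralLinearGroup (Fin 2) F))) = (Fintype.card F - 1) ^ 2) ∧
    ((∀ (c : F) (v : Fin 2 → F), v ≠ 0 → (g : Matrix (Fin 2) (Fin 2) F).mulVec v ≠ c • v) →
      Nat.card (Subgroup.centralizer ({g} : Set (Matrix.GeneralLinearGroup (Fin 2) F))) = Fintype.card F ^ 2 - 1) := by
  refine ⟨fun h1 h2 h3 => ?_, fun h => ?_⟩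
  · have h4 : (g : Matrix (Fin 2) (Fin 2) F) 0 0 - (g : Matrix (Fin 2) (Fin 2) F) 1 1 ≠ 0 :=
      sub_ne_zero.2 h3
    rw [sq, ← Nat.card_eq_fintype_card, ← Nat.card_units, ← Nat.card_prod]
    symm
    refine Nat.card_congr (Equiv.ofBijective (fun p => ⟨bor p.1 p.2 0, ?_⟩) ⟨?_, ?_⟩)
    · rw [Subgroup.mem_centralizer_singleton_iff]
      apply gl_ext <;> simp only [gl_mul_apply, h1, h2, bor_coe] <;> simp [mul_comm]
    · intro p p' e
      have e' := congrArg Subtype.val e
      exact Prod.ext (Units.ext (by simpa using congrArg (fun s : GL (Fin 2) F => s 0 0) e'))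
        (Units.ext (by simpa using congrArg (fun s : GL (Fin 2) F => s 1 1) e'))
    · rintro ⟨x, hx⟩
      rw [Subgroup.mem_centralizer_singleton_iff] at hx
      have a1 := congrArg (fun s : GL (Fin 2) F => s 0 1) hx
      have a2 := congrArg (fun s : GL (Fin 2) F => s 1 0) hx
      simp only [gl_mul_apply, h1, h2] at a1 a2
      have b1 : x 0 1 = 0 := mul_left_cancel₀ h4 (by linear_combination -a1)
      have b2 : x 1 0 = 0 := mul_left_cancel₀ h4 (by linear_combination a2)
      refine ⟨(Units.mk0 _ (borel_ne_zero b2).1, Units.mk0 _ (borel_ne_zero b2).2),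
        Subtype.ext ?_⟩
      apply gl_ext <;> simp [b1, b2]
  · obtain ⟨a, b, h'⟩ := exists_no_root F
    haveI := Fact.mk h'
    obtain ⟨z, hz, e⟩ := Ell.exists_isConj_emb a b h
    rw [card_centralizer_eq_of_isConj e, centralizer_emb hz, card_tor, Nat.card_eq_fintype_card]

end Cfsg.Agent.S2303
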