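import Cfsg.Statements.S2308
import Cfsg.Agent.Lib.CharDeg.GL2Count

set_option autoImplicit false
open Cfsg

namespace Cfsg.Agent.S2308

open Cfsg.Lib.GLTwo Cfsg.Lib.Char in

/-- Values of the permutation character of GL₂ over a finite field F with q elements on the cosets of its upper triangular subgroup (equivalently, the number of lines of F² that an element maps to themselves): q + 1 at a scalar matrix, 2 at a diagonal matrix with two different diagonal entries, 0 at an element with no eigenvector in F², and 1 at an upper triangular matrix with equal diagonal entries and non-zero upper right entry. -/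
theorem result {F : Type*} [Field F] [Fintype F] (g : Matrix.GeneralLinearGroup (Fin 2) F) :
    ((∃ a : F, (g : Matrix (Fin 2) (Fin 2) F) = a • (1 : Matrix (Fin 2) (Fin 2) F)) → Cfsg.fixedPointCharacter (Cfsg.upperTriangularGL 2 F) g = Fintype.card F + 1) ∧
    ((g : Matrix (Fin 2) (Fin 2) F) 0 1 = 0 → (g : Matrix (Fin 2) (Fin 2) F) 1 0 = 0 → (g : Matrix (Fin 2) (Fin 2) F) 0 0 ≠ (g : Matrix (Fin 2) (Fin 2) F) 1 1 →
      Cfsg.fixedPointCharacter (Cfsg.upperTriangularGL 2 F) g = 2) ∧
    ((∀ (c : F) (v : Fin 2 → F), v ≠ 0 → (g : Matrix (Fin 2) (Fin 2) F).mulVec v ≠ c • v) → Cfsg.fixedPointCharacter (Cfsg.upperTriangularGL 2 F) g = 0) ∧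
    ((g : Matrix (Fin 2) (Fin 2) F) 1 0 = 0 → (g : Matrix (Fin 2) (Fin 2) F) 0 0 = (g : Matrix (Fin 2) (Fin 2) F) 1 1 → (g : Matrix (Fin 2) (Fin 2) F) 0 1 ≠ 0 →
      Cfsg.fixedPointCharacter (Cfsg.upperTriangularGL 2 F) g = 1) := by
  classical
  rw [← ps_one_one]
  refine ⟨fun h => ?_, fun h1 h2 h3 => ?_, fun h => ps_of_ell _ _ h, fun h1 h2 h3 => ?_⟩
  · have hs := scal_iff.2 h
    rw [ps_one_one_of_borel hs.2.1, nb, if_pos hs.2.2, if_pos hs.1, add_comm]
  · rw [ps_one_one_of_borel h2, nb, if_neg h3]; norm_num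
  · rw [ps_one_one_of_borel h1, nb, if_pos h2, if_neg h3]; norm_num

end Cfsg.Agent.S2308
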