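import Cfsg.Statements.S2309
import Cfsg.Agent.Lib.CharDeg.GL2Count

set_option autoImplicit false
open Cfsg

namespace Cfsg.Agent.S2309

open Cfsg.Lib.GLTwo Cfsg.Lib.Char in

/-- Over a finite field F with q elements: every irreducible complex character of GL₂ of degree q − 1 vanishes at every diagonal matrix with two distinct entries, and every irreducible complex character of degree q + 1 vanishes at every element with no eigenvector in F². -/
theorem result {F : Type*} [Field F] [Fintype F] (χ : Matrix.GeneralLinearGroup (Fin 2) F → ℂ) (hχ : Cfsg.IsIrrCharacter (Matrix.GeneralLinearGroup (Fin 2) F) χ) (g : Matrix.GeneralLinearGroup (Fin 2) F) :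
    (χ 1 = (Fintype.card F : ℂ) - 1 → (g : Matrix (Fin 2) (Fin 2) F) 0 1 = 0 → (g : Matrix (Fin 2) (Fin 2) F) 1 0 = 0 → (g : Matrix (Fin 2) (Fin 2) F) 0 0 ≠ (g : Matrix (Fin 2) (Fin 2) F) 1 1 → χ g = 0) ∧
    (χ 1 = (Fintype.card F : ℂ) + 1 → (∀ (c : F) (v : Fin 2 → F), v ≠ 0 → (g : Matrix (Fin 2) (Fin 2) F).mulVec v ≠ c • v) → χ g = 0) := by
  classical
  obtain ⟨a, b, h⟩ := exists_no_root F
  haveI := Fact.mk h
  have hq := cast_card_ne_zero (F := F)
  rcases irr_cases a b hχ with ⟨l, rfl⟩ | ⟨l, rfl⟩ | ⟨α, β, h, rfl⟩ | ⟨θ, h, rfl⟩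
  · rw [lin_apply_one]
    refine ⟨fun h1 h2 h3 h4 => ?_, fun h1 => ?_⟩
    · exfalso
      have h5 : Fintype.card F = 2 := by
        have : (Fintype.card F : ℂ) = 2 := by linear_combination -h1
        exact_mod_cast this
      have h6 : Nat.card Fˣ = 1 := by rw [Nat.card_units, Nat.card_eq_fintype_card, h5]
      haveI := (Nat.card_eq_one_iff_unique.1 h6).1
      apply h4
      exact congrArg Units.val (Subsingleton.elim (Units.mk0 _ (borel_ne_zero h3).1)
        (Units.mk0 _ (borel_ne_zero h3).2))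
    · exact absurd (by linear_combination -h1) hq
  · rw [stb_apply_one]
    exact ⟨fun h1 => absurd (by linear_combination h1 : (1 : ℂ) = 0) one_ne_zero,
      fun h1 => absurd (by linear_combination -h1 : (1 : ℂ) = 0) one_ne_zero⟩
  · rw [ps_apply_one]
    exact ⟨fun h1 => absurd (by linear_combination h1 : (2 : ℂ) = 0) two_ne_zero,
      fun _ h1 => ps_of_ell _ _ h1⟩
  · rw [cusp_apply_one]
    exact ⟨fun _ _ h1 h2 => cusp_split _ h1 h2,
      fun h1 => absurd (by linear_combination -h1 : (2 : ℂ) = 0) two_ne_zero⟩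

end Cfsg.Agent.S2309
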