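import Cfsg.Statements.S2310
import Cfsg.Agent.Lib.CharDeg.GL2Count

set_option autoImplicit false
open Cfsg

namespace Cfsg.Agent.S2310

open Cfsg.Lib.GLTwo Cfsg.Lib.Char in

/-- Over a finite field F with q ≥ 3 elements, let u be the upper unitriangular matrix of GL₂ with off-diagonal entry 1. An irreducible complex character χ of GL₂ takes at u the value 1 if χ has degree 1 or q + 1, the value −1 if χ has degree q − 1, and the value 0 if χ has degree q. -/
theorem result {F : Type*} [Field F] [Fintype F] (hq : 3 ≤ Fintype.card F) (χ : Matrix.GeneralLinearGroup (Fin 2) F → ℂ) (hχ : Cfsg.IsIrrCharacter (Matrix.GeneralLinearGroup (Fin 2) F) χ)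
    (u : Matrix.GeneralLinearGroup (Fin 2) F) (hu : (u : Matrix (Fin 2) (Fin 2) F) = !![1, 1; 0, 1]) :
    (χ 1 = 1 → χ u = 1) ∧ (χ 1 = (Fintype.card F : ℂ) + 1 → χ u = 1) ∧
    (χ 1 = (Fintype.card F : ℂ) - 1 → χ u = -1) ∧ (χ 1 = (Fintype.card F : ℂ) → χ u = 0) := by
  classical
  obtain ⟨a, b, h⟩ := exists_no_root F
  haveI := Fact.mk h
  have hu' : u = tv := Units.ext (by rw [hu]; rfl)
  subst hu'
  have h0 : (Fintype.card F : ℂ) ≠ 0 := by exact_mod_cast (by omega : Fintype.card F ≠ 0)
  have h1 : (Fintype.card F : ℂ) ≠ 1 := by exact_mod_cast (by omega : Fintype.card F ≠ 1)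
  have h2 : (Fintype.card F : ℂ) ≠ 2 := by exact_mod_cast (by omega : Fintype.card F ≠ 2)
  rcases irr_cases a b hχ with ⟨l, rfl⟩ | ⟨l, rfl⟩ | ⟨α, β, h, rfl⟩ | ⟨θ, h, rfl⟩
  · rw [lin_apply_one, lin_tv]
    exact ⟨fun _ => rfl, fun _ => rfl, fun e => absurd (by linear_combination -e) h2,
      fun e => absurd e.symm h1⟩
  · rw [stb_apply_one, stb_tv]
    exact ⟨fun e => absurd e h1,
      fun e => absurd (by linear_combination -e : (1 : ℂ) = 0) one_ne_zero,
      fun e => absurd (by linear_combination e : (1 : ℂ) = 0) one_ne_zero, fun _ => rfl⟩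
  · rw [ps_apply_one, ps_tv]
    exact ⟨fun _ => rfl, fun _ => rfl,
      fun e => absurd (by linear_combination e : (2 : ℂ) = 0) two_ne_zero,
      fun e => absurd (by linear_combination e : (1 : ℂ) = 0) one_ne_zero⟩
  · rw [cusp_apply_one, cusp_tv]
    exact ⟨fun e => absurd (by linear_combination e) h2,
      fun e => absurd (by linear_combination -e : (2 : ℂ) = 0) two_ne_zero, fun _ => rfl,
      fun e => absurd (by linear_combination -e : (1 : ℂ) = 0) one_ne_zero⟩

end Cfsg.Agent.S2310
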