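import Cfsg.Statements.S2315
import Cfsg.Agent.Lib.GLC.Nilp

set_option autoImplicit false
open Cfsg

namespace Cfsg.Agent.S2315

open Cfsg.Lib.GLC Matrix Module

/-- Steinberg's count of unipotent elements for the general linear group: over a finite field with q elements of characteristic p, the number of elements of GL_n of p-power order (the unipotent matrices) is q^(n(n−1)). -/
theorem result {F : Type*} [Field F] [Fintype F] (p : ℕ) [Fact p.Prime] [CharP F p] (n : ℕ) :
    Nat.card {g : Matrix.GeneralLinearGroup (Fin n) F // ∃ k : ℕ, orderOf g = p ^ k} = Fintype.card F ^ (n * (n - 1)) := by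
  rw [← Nat.card_eq_fintype_card, ← Nilp.nu_eq, Nilp.nu]
  refine Nat.card_congr (Equiv.ofBijective (fun g => ⟨toLin' g.1.1 - 1,
    (orderOf_eq_pow_iff p).1 (by rw [orderOf_toLin'_gl]; exact g.2)⟩) ⟨?_, ?_⟩)
  · intro g h e
    have := congrArg Subtype.val e
    exact Subtype.ext (Units.ext (toLin'.injective (sub_left_injective this)))
  · rintro ⟨N, hN⟩
    have hu : IsUnit (LinearMap.toMatrix' (1 + N)) :=
      hN.isUnit_one_add.map (LinearMap.toMatrixAlgEquiv' (R := F) (n := Fin n))
    have e : toLin' hu.unit.1 - 1 = N := by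
      rw [IsUnit.unit_spec, toLin'_toMatrix', add_sub_cancel_left]
    refine ⟨⟨hu.unit, ?_⟩, Subtype.ext e⟩
    rw [← orderOf_toLin'_gl]
    exact (orderOf_eq_pow_iff p).2 (by rw [e]; exact hN)

end Cfsg.Agent.S2315
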