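import Cfsg.Statements.S2316
import Cfsg.Agent.Lib.St.Chev
import Cfsg.Agent.Lib.Chev.MinGrp

set_option autoImplicit false
open Cfsg

namespace Cfsg.Agent.S2316

open Finset in
theorem card_Rt (m : ℕ) : Fintype.card (Cfsg.Lib.Chev.Rt (2 * m) true) = 2 * m ^ 2 := by
  classical
  rw [Fintype.card_subtype]
  have h1 : #{p : Fin (2 * m) × Fin (2 * m) | p.1 < p.2 ∧ p.2 ≠ p.1.rev} =
      #{p : Fin (2 * m) × Fin (2 * m) | p.2 < p.1 ∧ p.2 ≠ p.1.rev} :=
    card_bij' (fun p _ => p.swap) (fun p _ => p.swap)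
      (fun p hp => by simp only [mem_filter, mem_univ, true_and, Prod.fst_swap, Prod.snd_swap, ne_eq,
        Fin.ext_iff, Fin.val_rev, Fin.lt_def] at *; omega)
      (fun p hp => by simp only [mem_filter, mem_univ, true_and, Prod.fst_swap, Prod.snd_swap, ne_eq,
        Fin.ext_iff, Fin.val_rev, Fin.lt_def] at *; omega) (by simp) (by simp)
  have h2 : #{p : Fin (2 * m) × Fin (2 * m) | p.1 = p.2} = 2 * m := by
    conv_rhs => rw [← Fintype.card_fin (2 * m)]
    exact card_bij' (fun p _ => p.1) (fun a _ => (a, a)) (by simp) (by simp)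
      (fun p hp => by simp only [mem_filter, mem_univ, true_and] at hp; ext <;> simp [hp]) (by simp)
  have h3 : #{p : Fin (2 * m) × Fin (2 * m) | p.2 = p.1.rev} = 2 * m := by
    conv_rhs => rw [← Fintype.card_fin (2 * m)]
    exact card_bij' (fun p _ => p.1) (fun a _ => (a, a.rev)) (by simp) (by simp)
      (fun p hp => by simp only [mem_filter, mem_univ, true_and] at hp; ext <;> simp [hp]) (by simp)
  have h4 : #{p : Fin (2 * m) × Fin (2 * m) | (p.1 < p.2 ∨ true = true ∧ p.1 = p.2) ∧ p.2 ≠ p.1.rev} =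
      #{p : Fin (2 * m) × Fin (2 * m) | p.1 < p.2 ∧ p.2 ≠ p.1.rev} +
      #{p : Fin (2 * m) × Fin (2 * m) | p.1 = p.2} := by
    rw [← card_union_of_disjoint (disjoint_filter.2 fun p _ h e => h.1.ne e)]
    congr 1
    ext p
    simp only [mem_filter, mem_univ, true_and, mem_union, ne_eq, Fin.ext_iff, Fin.val_rev,
      Fin.lt_def]
    omega
  have h5 : #{p : Fin (2 * m) × Fin (2 * m) | (p.1 < p.2 ∨ true = true ∧ p.1 = p.2) ∧ p.2 ≠ p.1.rev} +
      #{p : Fin (2 * m) × Fin (2 * m) | p.2 < p.1 ∧ p.2 ≠ p.1.rev} +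
      #{p : Fin (2 * m) × Fin (2 * m) | p.2 = p.1.rev} = 2 * m * (2 * m) := by
    rw [← card_union_of_disjoint (disjoint_filter.2 fun p _ h e => by
        simp only [Fin.ext_iff, Fin.lt_def] at *; omega),
      ← card_union_of_disjoint (by
        rw [disjoint_union_left]
        exact ⟨disjoint_filter.2 fun p _ h e => h.2 e, disjoint_filter.2 fun p _ h e => h.2 e⟩)]
    conv_rhs => rw [← Fintype.card_fin (2 * m), ← Fintype.card_prod, ← card_univ]
    congr 1
    ext p
    simp only [mem_filter, mem_univ, true_and, mem_union, ne_eq, Fin.ext_iff, Fin.val_rev,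
      Fin.lt_def, iff_true]
    omega
  nlinarith

/-- Steinberg's count of unipotent elements for the symplectic group: over a finite field with q elements of characteristic p, the number of elements of Sp_{2m} of p-power order is q^(2m²). -/
theorem result {F : Type*} [Field F] [Fintype F] (p : ℕ) [Fact p.Prime] [CharP F p] (m : ℕ) :
    Nat.card {g : ↥(Matrix.symplecticGroup (Fin m) F) // ∃ k : ℕ, orderOf g = p ^ k} = Fintype.card F ^ (2 * m ^ 2) := by
  have hF := (Lib.Chev.realSp F m).faithful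
  have ht := (Lib.Chev.realSp F m).grp_eq
  have := hF.finite ht
  rw [(Lib.St.chevSplit hF ht p).card_unipotent Finset.coe_univ Fact.out,
    Lib.St.chevSplit_U, hF.card_U, ← pow_mul, Nat.card_eq_fintype_card, card_Rt]
  congr 1
  omega

end Cfsg.Agent.S2316
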