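import Cfsg.Statements.S2319
import Cfsg.Agent.Lib.St.HeckeG
import Cfsg.Agent.Lib.St.Chev
import Cfsg.Agent.Lib.Chev.Types

set_option autoImplicit false
open Cfsg

namespace Cfsg.Agent.S2319

open Cfsg.Lib.BN Cfsg.Lib.Chev Cfsg.Lib.St Finset in
theorem mem_closure_invol {W : Type*} [Group W] {a : W} (h : a * a = 1) {w : W} :
    w ∈ Subgroup.closure {a} ↔ w = 1 ∨ w = a := by
  refine ⟨fun hw => ?_, ?_⟩
  · induction hw using Subgroup.closure_induction with
    | mem x hx => exact Or.inr hx
    | one => exact Or.inl rfl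
    | mul x y _ _ hx hy => rcases hx with rfl | rfl <;> rcases hy with rfl | rfl <;> simp [h]
    | inv x _ hx =>
      rcases hx with rfl | rfl
      · simp
      · exact Or.inr (inv_eq_of_mul_eq_one_right h)
  · rintro (rfl | rfl)
    · exact one_mem _
    · exact Subgroup.subset_closure rfl

open Cfsg.Lib.BN Cfsg.Lib.Chev Cfsg.Lib.St Finset in
theorem card_cell {ι Φ : Type} [Fintype ι] [DecidableEq ι] {R : RootSys ι Φ} [Fintype Φ]
    {F : Type*} [Field F] [Finite F] {G : Type*} [Group G] {C : ChevSys R F G} (hF : C.Faithful)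
    (htop : C.grp = ⊤) (i : ι) :
    Nat.card {x // (chevTits hF htop).δ x = R.sW i} = Nat.card F * Nat.card (chevTits hF htop).B := by
  classical
  have := hF.finite htop
  have := Fintype.ofFinite G
  have hl : len R.sW (R.sW i) = 1 := by
    have := RootSys.len_mul_sW_of_pos (R := R) (w := 1) (i := i) (by simpa using R.isPos_simple i)
    simpa using this
  have hne : R.sW i ≠ 1 := fun e => by rw [e] at hl; simp at hl
  have hne' : (1 : Equiv.Perm Φ) ≠ R.sref i := fun e => hne (Subtype.ext e.symm)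
  have h1 : R.poin {i} (Nat.card F) = 1 + Nat.card F := by
    have : R.WF {i} = {1, R.sref i} := by
      ext w
      rw [RootSys.mem_WF, RootSys.WJ, Set.image_singleton,
        mem_closure_invol (a := R.sref i) (congrArg Subtype.val (R.invGen.sq i))]
      simp
    rw [RootSys.poin, this, sum_pair hne', RootSys.invSet_one, ← R.coe_sW, ← RootSys.len_eq_card, hl]
    simp
  have h2 := hF.card_P {i}
  rw [h1, ← chevTits_P hF htop, ← chevTits_B hF htop] at h2
  have h3 : Nat.card ((chevTits hF htop).P {i}) = Nat.card (chevTits hF htop).B +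
      Nat.card {x // (chevTits hF htop).δ x = R.sW i} := by
    simp only [Nat.card_eq_fintype_card, Fintype.card_subtype, Tits.mem_B,
      Tits.mem_P _ (Set.subset_univ _), WJ, Set.image_singleton, mem_closure_invol (R.invGen.sq i)]
    rw [filter_or, card_union_of_disjoint]
    exact disjoint_filter.2 fun x _ e e' => hne (e' ▸ e)
  rw [h2, mul_add, mul_one, mul_comm] at h3
  omega

open Cfsg.Lib.BN Cfsg.Lib.Chev Cfsg.Lib.St in
theorem main {F : Type*} [Field F] [Fintype F] {D : Cfsg.Lie.ChevalleyDatum} {c : Cert}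
    (h : Checked D c) {B : Type*} {M : CoxeterMatrix B} (cs : CoxeterSystem M h.R.W) :
    Nat.card {χ : Cfsg.IrrCharacter ↥(D.group F) //
      ∃ φ : ↥(D.group F) → ℂ, Cfsg.IsCharacter ↥(D.group F) φ ∧
        Cfsg.fixedPointCharacter ((D.borelSubgroup F).subgroupOf (D.group F)) = (χ : ↥(D.group F) → ℂ) + φ} =
      Nat.card (ConjClasses M.Group) := by
  have := (h.gsys_faithful F).finite (h.gsys_grp F)
  rw [← h.gsys_B, ← chevTits_B (h.gsys_faithful F) (h.gsys_grp F),
    Tits.card_constituents _ (card_cell _ _) Nat.card_pos.ne']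
  have e := cs.mulEquiv
  refine Nat.card_congr ⟨ConjClasses.map e.toMonoidHom, ConjClasses.map e.symm.toMonoidHom, ?_, ?_⟩
  · rintro ⟨x⟩
    exact congrArg ConjClasses.mk (e.symm_apply_apply x)
  · rintro ⟨x⟩
    exact congrArg ConjClasses.mk (e.apply_symm_apply x)

/-- In a Chevalley group of type G₂, B₂, D₄, F₄, E₆, E₇ or E₈ over a finite field, the number of distinct irreducible constituents of the permutation character on the cosets of B = UH equals the number of conjugacy classes (equivalently, of irreducible characters) of the Weyl group, the Coxeter group of the type with nodes numbered as the fundamental roots. -/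
theorem result {F : Type*} [Field F] [Fintype F]
    (dw : Cfsg.Lie.ChevalleyDatum × (Σ n : ℕ, CoxeterMatrix (Fin n)))
    (hdw : dw ∈ [(Cfsg.Lie.chevG2, ⟨2, CoxeterMatrix.G₂⟩), (Cfsg.Lie.chevB2, ⟨2, CoxeterMatrix.B 2⟩), (Cfsg.Lie.chevD4, ⟨4, Cfsg.Lie.coxeterD4⟩), (Cfsg.Lie.chevF4, ⟨4, CoxeterMatrix.F₄⟩),
      (Cfsg.Lie.chevE6, ⟨6, CoxeterMatrix.E₆⟩), (Cfsg.Lie.chevE7, ⟨7, CoxeterMatrix.E₇⟩), (Cfsg.Lie.chevE8, ⟨8, CoxeterMatrix.E₈⟩)]) :
    Nat.card {χ : Cfsg.IrrCharacter ↥(dw.1.group F) //
      ∃ φ : ↥(dw.1.group F) → ℂ, Cfsg.IsCharacter ↥(dw.1.group F) φ ∧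
        Cfsg.fixedPointCharacter ((dw.1.borelSubgroup F).subgroupOf (dw.1.group F)) = (χ : ↥(dw.1.group F) → ℂ) + φ} =
      Nat.card (ConjClasses dw.2.2.Group) := by
  simp only [List.mem_cons, List.not_mem_nil, or_false] at hdw
  rcases hdw with rfl | rfl | rfl | rfl | rfl | rfl | rfl
  · exact main _ (Lib.Chev.coxeterG2_sys Lib.Chev.checkedG2).choose
  · exact main _ (Lib.Chev.coxeterB2_sys Lib.Chev.checkedB2).choose
  · exact main _ (Lib.Chev.coxeterD4_sys Lib.Chev.checkedD4).choose
  · exact main _ (Lib.Chev.coxeterF4_sys Lib.Chev.checkedF4).choose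
  · exact main _ (Lib.Chev.coxeterE6_sys Lib.Chev.checkedE6).choose
  · exact main _ (Lib.Chev.coxeterE7_sys Lib.Chev.checkedE7).choose
  · exact main _ (Lib.Chev.coxeterE8_sys Lib.Chev.checkedE8).choose

end Cfsg.Agent.S2319
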