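import Cfsg.Statements.S2320
import Cfsg.Agent.Lib.CharDeg.GL2Count

set_option autoImplicit false
open Cfsg

namespace Cfsg.Agent.S2320

open Cfsg.Lib.GLTwo Cfsg.Lib.Char in

/-- Over a finite field F with q elements, every irreducible complex character of GL₂ of degree q takes a value of absolute value 1 at every diagonal matrix with two different diagonal entries and at every element with no eigenvector in F². -/
theorem result {F : Type*} [Field F] [Fintype F] (χ : Matrix.GeneralLinearGroup (Fin 2) F → ℂ) (hχ : Cfsg.IsIrrCharacter (Matrix.GeneralLinearGroup (Fin 2) F) χ) (hdeg : χ 1 = (Fintype.card F : ℂ)) (g : Matrix.GeneralLinearGroup (Fin 2) F) :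
    ((g : Matrix (Fin 2) (Fin 2) F) 0 1 = 0 → (g : Matrix (Fin 2) (Fin 2) F) 1 0 = 0 → (g : Matrix (Fin 2) (Fin 2) F) 0 0 ≠ (g : Matrix (Fin 2) (Fin 2) F) 1 1 → ‖χ g‖ = 1) ∧
    ((∀ (c : F) (v : Fin 2 → F), v ≠ 0 → (g : Matrix (Fin 2) (Fin 2) F).mulVec v ≠ c • v) → ‖χ g‖ = 1) := by
  classical
  obtain ⟨a, b, h⟩ := exists_no_root F
  haveI := Fact.mk h
  have h1 : (Fintype.card F : ℂ) ≠ 1 := by exact_mod_cast (Fintype.one_lt_card (α := F)).ne'
  rcases irr_cases a b hχ with ⟨l, rfl⟩ | ⟨l, rfl⟩ | ⟨α, β, h, rfl⟩ | ⟨θ, h, rfl⟩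
  · rw [lin_apply_one] at hdeg; exact absurd hdeg.symm h1
  · refine ⟨fun _ h2 h3 => ?_, fun h2 => ?_⟩
    · rw [stb_split _ h2 h3, norm_mul, norm_mulChar _ (borel_ne_zero h2).1,
        norm_mulChar _ (borel_ne_zero h2).2, one_mul]
    · rw [stb_of_ell _ h2, norm_neg, norm_mulChar _ (Matrix.isUnits_det_units g).ne_zero]
  · rw [ps_apply_one] at hdeg
    exact absurd (by linear_combination hdeg : (1 : ℂ) = 0) one_ne_zero
  · rw [cusp_apply_one] at hdeg
    exact absurd (by linear_combination -hdeg : (1 : ℂ) = 0) one_ne_zero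

end Cfsg.Agent.S2320
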