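import Cfsg.Statements.S2322
import Cfsg.Agent.Lib.CharDeg.SL2Deg

set_option autoImplicit false
open Cfsg

namespace Cfsg.Agent.S2322

open Cfsg.Lib.GLTwo Cfsg.Lib.Char Cfsg.Lib.PSL2 in

/-- Over a finite field F with q elements, q odd: every irreducible complex character of SL₂ of degree q − 1 or (q − 1)/2 vanishes at every diagonal matrix whose diagonal entry a has a² ≠ 1, and every irreducible complex character of degree q + 1 or (q + 1)/2 vanishes at every element with no eigenvector in F². -/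
theorem result {F : Type*} [Field F] [Fintype F] (hodd : Odd (Fintype.card F)) (χ : Matrix.SpecialLinearGroup (Fin 2) F → ℂ) (hχ : Cfsg.IsIrrCharacter (Matrix.SpecialLinearGroup (Fin 2) F) χ) (g : Matrix.SpecialLinearGroup (Fin 2) F) :
    ((χ 1 = (Fintype.card F : ℂ) - 1 ∨ χ 1 = (((Fintype.card F - 1) / 2 : ℕ) : ℂ)) →
      (g : Matrix (Fin 2) (Fin 2) F) 0 1 = 0 → (g : Matrix (Fin 2) (Fin 2) F) 1 0 = 0 → (g : Matrix (Fin 2) (Fin 2) F) 0 0 ^ 2 ≠ 1 → χ g = 0) ∧
    ((χ 1 = (Fintype.card F : ℂ) + 1 ∨ χ 1 = (((Fintype.card F + 1) / 2 : ℕ) : ℂ)) →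
      (∀ (c : F) (v : Fin 2 → F), v ≠ 0 → (g : Matrix (Fin 2) (Fin 2) F).mulVec v ≠ c • v) → χ g = 0) := by
  classical
  obtain ⟨a, b, h'⟩ := exists_no_root F
  haveI := Fact.mk h'
  have h1 : 1 < Fintype.card F := Fintype.one_lt_card
  have ho := Nat.odd_iff.1 hodd
  refine ⟨fun hd _ h2 h3 => ?_, fun hd hg => ?_⟩
  · have hq : 5 ≤ Fintype.card F := by
      by_contra hq
      exact h3 (sq_eq_one_of_card_three (by omega) (borS_ne_zero h2))
    rcases hd with hd | hd
    · obtain ⟨θ, -, rfl⟩ := mem_cuspSet_of_deg a b (by omega) hχ hd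
      exact rcusp_split θ h2 ((borS_ne_iff h2).2 h3)
    · exact halfCusp_split (mem_halfCusp_of_deg a b hodd hq hχ hd) h2 ((borS_ne_iff h2).2 h3)
  · rcases hd with hd | hd
    · obtain ⟨α, -, rfl⟩ := exists_rps_of_deg hχ hd
      exact rps_of_ell α hg
    · have := charDegree_eq_of_apply_one hd
      rcases irr_cases_deg a b hχ with h | h | h | h | h | h
      any_goals omega
      · exact cuspSet_of_ell_of_card_three (by omega) h.1 hg
      · exact halfPs_of_ell h.1 hg

end Cfsg.Agent.S2322
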