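import Cfsg.Statements.S2324
import Cfsg.Agent.Lib.CharDeg.SL2Deg

set_option autoImplicit false
open Cfsg

namespace Cfsg.Agent.S2324

open Cfsg.Lib.GLTwo Cfsg.Lib.Char Cfsg.Lib.PSL2 in

/-- Over a finite field F with q elements, q odd and q ≥ 5, let u be the upper unitriangular matrix of SL₂ with off-diagonal entry 1 and let δ = (−1)^((q−1)/2). Every irreducible complex character χ of SL₂ of degree (q + 1)/2 satisfies (2χ(u) − 1)² = δq, and every irreducible complex character χ of degree (q − 1)/2 satisfies (2χ(u) + 1)² = δq; that is, χ(u) = (1 ± √(δq))/2 in the first case and χ(u) = (−1 ± √(δq))/2 in the second. Moreover two different irreducible characters of degree (q + 1)/2 take the two different values (their values at u add up to 1), and likewise for degree (q − 1)/2 (values adding up to −1). -/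
theorem result {F : Type*} [Field F] [Fintype F] (hodd : Odd (Fintype.card F)) (hq : 5 ≤ Fintype.card F)
    (u : Matrix.SpecialLinearGroup (Fin 2) F) (hu : (u : Matrix (Fin 2) (Fin 2) F) = !![1, 1; 0, 1]) :
    (∀ χ : Matrix.SpecialLinearGroup (Fin 2) F → ℂ, Cfsg.IsIrrCharacter (Matrix.SpecialLinearGroup (Fin 2) F) χ → χ 1 = (((Fintype.card F + 1) / 2 : ℕ) : ℂ) → (2 * χ u - 1) ^ 2 = (-1 : ℂ) ^ ((Fintype.card F - 1) / 2) * (Fintype.card F : ℂ)) ∧
    (∀ χ : Matrix.SpecialLinearGroup (Fin 2) F → ℂ, Cfsg.IsIrrCharacter (Matrix.SpecialLinearGroup (Fin 2) F) χ → χ 1 = (((Fintype.card F - 1) / 2 : ℕ) : ℂ) → (2 * χ u + 1) ^ 2 = (-1 : ℂ) ^ ((Fintype.card F - 1) / 2) * (Fintype.card F : ℂ)) ∧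
    (∀ χ₁ χ₂ : Matrix.SpecialLinearGroup (Fin 2) F → ℂ, Cfsg.IsIrrCharacter (Matrix.SpecialLinearGroup (Fin 2) F) χ₁ → Cfsg.IsIrrCharacter (Matrix.SpecialLinearGroup (Fin 2) F) χ₂ → χ₁ ≠ χ₂ →
      χ₁ 1 = (((Fintype.card F + 1) / 2 : ℕ) : ℂ) → χ₂ 1 = (((Fintype.card F + 1) / 2 : ℕ) : ℂ) → χ₁ u + χ₂ u = 1) ∧
    (∀ χ₁ χ₂ : Matrix.SpecialLinearGroup (Fin 2) F → ℂ, Cfsg.IsIrrCharacter (Matrix.SpecialLinearGroup (Fin 2) F) χ₁ → Cfsg.IsIrrCharacter (Matrix.SpecialLinearGroup (Fin 2) F) χ₂ → χ₁ ≠ χ₂ →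
      χ₁ 1 = (((Fintype.card F - 1) / 2 : ℕ) : ℂ) → χ₂ 1 = (((Fintype.card F - 1) / 2 : ℕ) : ℂ) → χ₁ u + χ₂ u = -1) := by
  classical
  obtain ⟨a, b, h'⟩ := exists_no_root F
  haveI := Fact.mk h'
  obtain rfl : u = upper 1 := Subtype.ext hu
  refine ⟨fun χ hχ hd => ?_, fun χ hχ hd => ?_, fun χ₁ χ₂ h1 h2 hne d1 d2 => ?_,
    fun χ₁ χ₂ h1 h2 hne d1 d2 => ?_⟩
  · obtain ⟨α, χ', -, -, hp⟩ := mem_halfPs_of_deg hodd hq hχ hd
    have e : χ (upper 1) + χ' (upper 1) = 1 :=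
      (hp.add_apply _).trans (rps_upper α one_ne_zero)
    rw [← hp.sq_sub, ← e]; ring
  · obtain ⟨θ, χ', -, -, hp⟩ := mem_halfCusp_of_deg a b hodd hq hχ hd
    have e : χ (upper 1) + χ' (upper 1) = -1 :=
      (hp.add_apply _).trans (rcusp_upper θ one_ne_zero)
    rw [← hp.sq_sub, show χ' (upper 1) = -1 - χ (upper 1) by rw [← e]; ring]; ring
  · obtain ⟨α, χ', e1, e2, hp⟩ := mem_halfPs_of_deg hodd hq h1 d1
    have := mem_halfPs_of_deg hodd hq h2 d2
    rw [halfPs_eq e1 e2 hp] at this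
    rcases this with rfl | rfl
    · exact absurd rfl hne
    · exact (hp.add_apply _).trans (rps_upper α one_ne_zero)
  · obtain ⟨θ, χ', e1, e2, hp⟩ := mem_halfCusp_of_deg a b hodd hq h1 d1
    have := mem_halfCusp_of_deg a b hodd hq h2 d2
    rw [halfCusp_eq e1 e2 hp] at this
    rcases this with rfl | rfl
    · exact absurd rfl hne
    · exact (hp.add_apply _).trans (rcusp_upper θ one_ne_zero)

end Cfsg.Agent.S2324
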