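import Cfsg.Statements.S2329
import Cfsg.Agent.Lib.CharDeg.SL2Struct

set_option autoImplicit false
open Cfsg

namespace Cfsg.Agent.S2329

open Cfsg.Lib.GLTwo Cfsg.Lib.Char Cfsg.Lib.PSL2 in

/-- Over a finite field of characteristic p, any two elements of order p of GL₂ are conjugate: there is a single conjugacy class of non-identity unipotent elements. -/
theorem result {F : Type*} [Field F] [Fintype F] (p : ℕ) [Fact p.Prime] [CharP F p] (g h : Matrix.GeneralLinearGroup (Fin 2) F)
    (hg : orderOf g = p) (hh : orderOf h = p) : IsConj g h := by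
  have key : ∀ g : Matrix.GeneralLinearGroup (Fin 2) F, orderOf g = p →
      ¬ Scal (g : Matrix (Fin 2) (Fin 2) F) ∧ (g : Matrix (Fin 2) (Fin 2) F).trace = 2 ∧
        (g : Matrix (Fin 2) (Fin 2) F).det = 1 := by
    intro g hg
    have h1 : g ^ p = 1 := hg ▸ pow_orderOf_eq_one g
    have hd : (g : Matrix (Fin 2) (Fin 2) F).det = 1 := by
      have := congrArg (fun g : Matrix.GeneralLinearGroup (Fin 2) F =>
        (g : Matrix (Fin 2) (Fin 2) F).det) h1
      simp only [Units.val_pow_eq_pow_val, Matrix.det_pow, Units.val_one, Matrix.det_one] at this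
      apply frobenius_inj F p
      rw [frobenius_def, this, map_one]
    obtain ⟨s, rfl⟩ := exists_tg_eq hd
    rw [orderOf_injective tg tg_injective] at hg
    have hp : p.Prime := Fact.out
    have h2 : (-1 : Matrix.SpecialLinearGroup (Fin 2) F) ^ p = 1 → (-1 : F) = 1 := by
      intro h
      have := congrArg (fun s : Matrix.SpecialLinearGroup (Fin 2) F => s 0 0) h
      rcases hp.eq_two_or_odd' with rfl | ho
      · exact CharTwo.neg_eq 1
      · rw [ho.neg_one_pow] at this
        simpa using this
    have h3 : s ^ p = 1 := hg ▸ pow_orderOf_eq_one s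
    have h4 : ∀ x : F, x ≠ 0 → IsConj s (upper x) → ¬ Scal (tg s : Matrix (Fin 2) (Fin 2) F) ∧
        (tg s : Matrix (Fin 2) (Fin 2) F).trace = 2 ∧ (tg s : Matrix (Fin 2) (Fin 2) F).det = 1 := by
      intro x hx e
      refine ⟨fun hs => hx ?_, ?_, hd⟩
      · simpa [tg_coe, coe_upper] using (scal_of_isConj (tg.map_isConj e) hs).1
      · rw [trace_of_isConj (tg.map_isConj e)]
        simp [tg_coe, coe_upper, Matrix.trace_fin_two]; norm_num
    rcases sl_cases s with (rfl | rfl) | ⟨x, hx, e | e⟩ | ⟨c, hc, e⟩ | e
    · rw [orderOf_one] at hg; exact absurd hg.symm hp.one_lt.ne'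
    · rw [sl_neg_eq_self (by linear_combination -h2 h3), orderOf_one] at hg
      exact absurd hg.symm hp.one_lt.ne'
    · exact h4 x hx e
    · have := pow_eq_one_of_isConj e.symm h3
      rw [neg_pow, upper_pow_char, mul_one] at this
      rw [sl_neg_eq_self (by linear_combination -h2 this)] at e
      exact h4 x hx e
    · have := orderOf_dvd_of_pow_eq_one (pow_eq_one_of_isConj e (dgs_pow_card_sub_one c))
      rw [hg, ← Nat.card_eq_fintype_card] at this
      exact absurd this (not_char_dvd_card_sub_one p)
    · have := orderOf_dvd_of_pow_eq_one e.pow_card_add_one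
      rw [hg] at this
      exact absurd this (coprime_card_add_one p)
  obtain ⟨h1, h2, h3⟩ := key g hg
  obtain ⟨h4, h5, h6⟩ := key h hh
  exact isConj_of_trace_det h1 h4 (h2.trans h5.symm) (h3.trans h6.symm)

end Cfsg.Agent.S2329
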