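import Cfsg.Statements.S2365
import Cfsg.Agent.Lib.Unitary.PrimeOrd

set_option autoImplicit false
open Cfsg

namespace Cfsg.Agent.S2365

/-- Let q be a power of the prime p, F the field with q² elements, m ≥ 4, and let a, b be commuting elements of PSU(m, q) with a of order p. Then every prime divisor of the order of b divides the order of SU(m − 2, q). -/
theorem result {F : Type*} [Field F] [Fintype F] (p : ℕ) [Fact p.Prime] [CharP F p] (m q : ℕ) (hm : 4 ≤ m) (hF : Fintype.card F = q ^ 2)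
    (a b : Cfsg.PSU m F q) (ha : orderOf a = p) (hab : Commute a b) :
    (orderOf b).primeFactors ⊆ (Nat.card ↥(Cfsg.SU (m - 2) F q)).primeFactors := by
  open Lib.GLC Lib.Unitary Matrix Polynomial Module in
  intro r h0
  obtain ⟨hr, h1, -⟩ := Nat.mem_primeFactors.1 h0
  obtain ⟨σ, hσ⟩ := exists_isBar hF
  have hp : p.Prime := Fact.out
  obtain ⟨k, rfl⟩ : ∃ k, m = k + 4 := ⟨m - 4, by omega⟩
  have hc : Nat.card (SU (k + 2) F q) =
      q ^ ((k + 2) * (k + 1) / 2) * ∏ i ∈ .range (k + 1), uf q (i + 1) := by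
    refine Nat.eq_of_mul_eq_mul_left (Nat.succ_pos q) ((card_SU hF (by omega)).trans ?_)
    rw [guOrder, Finset.prod_range_succ', uf_zero]; simp only [Nat.succ_eq_add_one]
    rw [show k + 2 - 1 = k + 1 from rfl]; ring
  refine Nat.mem_primeFactors.2 ⟨hr, ?_, Nat.card_pos.ne'⟩
  rw [show k + 4 - 2 = k + 2 from rfl, hc]
  rcases eq_or_ne r p with rfl | h2
  · refine ((hr.dvd_of_dvd_pow (hσ.card ▸ char_dvd_card (F := F) r)).trans
      (dvd_pow_self _ (Nat.div_pos (by nlinarith) two_pos).ne')).mul_right _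
  suffices ∃ i, 1 ≤ i ∧ i ≤ k + 1 ∧ r ∣ uf q i by
    obtain ⟨i, h3, h4, h5⟩ := this
    obtain ⟨i, rfl⟩ : ∃ j, i = j + 1 := ⟨i - 1, by omega⟩
    exact (h5.trans (Finset.dvd_prod_of_mem (fun i => uf q (i + 1))
      (Finset.mem_range.2 (by omega)))).mul_left _
  have h4 := orderOf_pow_orderOf_div (orderOf_pos b).ne' h1
  have h5 := ((hab.pow_right (orderOf b / r)).symm.orderOf_mul_eq_mul_orderOf_of_coprime (by
    rw [h4, ha]; exact (Nat.coprime_primes hr hp).2 h2)).trans (show _ = r * p by rw [h4, ha])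
  obtain ⟨g, hg⟩ := QuotientGroup.mk_surjective (b ^ (orderOf b / r) * a)
  have h6 : r * p ∣ orderOf (toLin' g.1.1) := by
    rw [← h5, ← hg, orderOf_toLin'_su]; exact orderOf_map_dvd (QuotientGroup.mk' _) g
  have hs := hσ.sd_su g
  have hb := blocks_typ (toLin' g.1.1)
  have hdeg := sum_typ_toLin' g.1.1
  obtain ⟨φ, e, h7, h8, h9, h10⟩ := exists_block_of_char_dvd p hs.1 ((dvd_mul_left p r).trans h6)
  obtain ⟨ψ, f, h11, h12, h13, h14, h15, h16⟩ := exists_block_of_prime_dvd p hs.1 hr h2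
    ((dvd_mul_right r p).trans h6)
  have h17 := hs.coeff_ne h14
  have h18 := coeff_zero_ne_of_dvd (dvd_pow_self ψ h13.ne') h17
  have h19 := Nat.mul_le_mul h9 h8.natDegree_pos
  have h20 := h12.natDegree_pos
  have h21 := Nat.le_mul_of_pos_left ψ.natDegree h13
  have h22 : ∀ ν : Multiset F[X], φ ^ e ∈ ν → 2 ≤ (ν.map natDegree).sum := fun ν h =>
    h19.trans (natDegree_pow φ e ▸ Multiset.le_sum_of_mem (Multiset.mem_map_of_mem _ h))
  have h23 : φ ^ e = ψ ^ f → 2 * ψ.natDegree ≤ f * ψ.natDegree := fun h =>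
    Nat.mul_le_mul_right _ (((pow_eq_pow_iff h7 h8 h11 h12 (by omega)).1 h).2 ▸ h9)
  rw [Fintype.card_fin] at hdeg
  obtain ⟨ν, -, ⟨h24, h25⟩ | ⟨h24, h25⟩⟩ := hσ.exists_split hs.2 h14 (h11.pow f) h17
  · obtain ⟨⟨d, hd⟩, h26⟩ := hσ.odd_of_dual_eq h11 h12 h18 ((hσ.dual_pow_eq_iff h11 h12 h18 h13).1 h24)
    have h27 := h15.trans (dvd_X_pow_sub_one_iff.1 h26)
    rcases d.eq_zero_or_pos with rfl | h28
    · refine ⟨1, le_rfl, by omega, ?_⟩
      rw [hd] at h27
      simp only [uf, Nat.not_even_one, if_false]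
      exact h27.trans (by simpa using Nat.sq_sub_sq q 1 ▸ dvd_mul_right (q + 1) (q - 1))
    refine ⟨2 * d, by omega, ?_, by simpa [uf, hd] using h27⟩
    rw [h25] at h10 hdeg
    simp only [Multiset.singleton_add, Multiset.map_cons, Multiset.sum_cons, natDegree_pow] at hdeg h10
    rcases Multiset.mem_cons.1 h10 with h | h
    · have := h23 h; omega
    · have := h22 _ h; omega
  · refine ⟨2 * ψ.natDegree - 1, by omega, ?_, ?_⟩
    · rw [h25] at h10 hdeg
      simp only [Multiset.insert_eq_cons, Multiset.cons_add, Multiset.singleton_add, Multiset.map_cons,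
        Multiset.sum_cons, natDegree_dual h17, natDegree_pow, Multiset.mem_cons] at hdeg h10
      rcases h10 with h | h | h
      · have := h23 h; omega
      · rw [map_pow] at h
        have := Nat.mul_le_mul_right ψ.natDegree (((pow_eq_pow_iff h7 h8 (monic_dual h18)
          (hσ.irreducible_dual h11 h18 h12) (by omega)).1 h).2 ▸ h9)
        omega
      · have := h22 _ h; omega
    · rw [uf, if_neg (Nat.not_even_iff_odd.2 ⟨ψ.natDegree - 1, by omega⟩),
        show 2 * ψ.natDegree - 1 + 1 = 2 * ψ.natDegree by omega, pow_mul, ← hσ.card]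
      exact (dvd_pow_sub_one_iff Nat.card_pos).2 h16

end Cfsg.Agent.S2365
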