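import Cfsg.Statements.S2367
import Cfsg.Agent.Lib.Alt.Arith

set_option autoImplicit false
open Cfsg

namespace Cfsg.Agent.S2367

theorem small_primes {p : ℕ} (hp : p.Prime) (h2 : p ≠ 2) (h : p ≤ 71) :
    p ∈ [3, 5, 7, 11, 13, 17, 19, 23, 29, 31, 37, 41, 43, 47, 53, 59, 61, 67, 71] := by
  interval_cases p <;> first | decide | exact absurd rfl h2 | exact absurd hp (by norm_num)

theorem aux {N : ℕ} (a : ℕ) (hN : N ≠ 0) (h1 : N ∣ (Nat.factorial 71) ^ 6) (h2 : 2 ^ a ∣ N)
    (h3 : ∀ p ∈ [3, 5, 7, 11, 13, 17, 19, 23, 29, 31, 37, 41, 43, 47, 53, 59, 61, 67, 71],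
      p ^ 3 ∣ N → p ^ 4 ∣ N ∨ p ^ 3 < 2 ^ a)
    {p : ℕ} (hp : p.Prime) (hodd : p ≠ 2) (h : N.factorization p = 3) :
    p ^ 3 < 2 ^ N.factorization 2 := by
  have e3 : p ^ 3 ∣ N := (hp.pow_dvd_iff_le_factorization hN).2 h.ge
  have e4 : ¬ p ^ 4 ∣ N := by rw [hp.pow_dvd_iff_le_factorization hN]; omega
  have hle : p ≤ 71 := (hp.dvd_factorial).1
    (hp.dvd_of_dvd_pow (((dvd_pow_self p (by norm_num)).trans e3).trans h1))
  have := (h3 p (small_primes hp hodd hle) e3).resolve_left e4
  exact this.trans_le (Nat.pow_le_pow_right (by norm_num)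
    ((Nat.prime_two.pow_dvd_iff_le_factorization hN).1 h2))

theorem cube_lt (p : ℕ) (h : 3 ≤ p) : p ^ 3 < 2 ^ (2 * p - 1) := by
  induction p, h using Nat.le_induction with
  | base => norm_num
  | succ n hn ih =>
    have e : 2 * (n + 1) - 1 = (2 * n - 1) + 2 := by omega
    rw [e, pow_add]
    have : (n + 1) ^ 3 ≤ 4 * n ^ 3 := by nlinarith [Nat.mul_le_mul hn hn, Nat.mul_le_mul (Nat.mul_le_mul hn hn) hn]
    omega

/-- Let G be an alternating group of degree at least 5 or a simple group with the order of one of the 26 sporadic groups, and let p be an odd prime such that p³ is the exact power of p dividing the order of G. Then p³ is less than the 2-part of the order of G. -/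
theorem result {G : Type*} [Group G] [Finite G] (hG : Cfsg.IsAlternating G ∨ Cfsg.IsSporadic G)
    (p : ℕ) (hp : p.Prime) (hodd : p ≠ 2) (h3 : (Nat.card G).factorization p = 3) :
    p ^ 3 < 2 ^ (Nat.card G).factorization 2 := by
  open Cfsg.Lib.Alt in
  rcases hG with ⟨n, hn, ⟨e⟩⟩ | hG
  · have hc := two_mul_card_alt_fin (n := n) (by omega)
    rw [← Nat.card_congr e.toEquiv] at hc
    have hG0 : Nat.card G ≠ 0 := Nat.card_pos.ne'
    have hf : ∀ q, (n.factorial).factorization q =
        Nat.factorization 2 q + (Nat.card G).factorization q := by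
      intro q
      rw [← hc, Nat.factorization_mul (by norm_num) hG0]; rfl
    have h1 := hf p
    have h2 := hf 2
    rw [Nat.prime_two.factorization] at h1 h2
    rw [Finsupp.single_eq_of_ne hodd, h3, factorization_factorial_rec hp] at h1
    rw [Finsupp.single_eq_same, factorization_factorial_rec Nat.prime_two,
      factorization_factorial_rec Nat.prime_two] at h2
    have hp3 : 3 ≤ p := by have := hp.two_le; omega
    have hodd' := hp.eq_two_or_odd.resolve_left hodd
    have h4 : 3 ≤ n / p := by
      by_contra h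
      rw [Nat.factorization_factorial_eq_zero_of_lt (by omega)] at h1
      omega
    rw [Nat.le_div_iff_mul_le hp.pos] at h4
    exact (cube_lt p hp3).trans_le (Nat.pow_le_pow_right (by norm_num) (by omega))
  · rcases hG with ⟨-, h⟩ | ⟨-, h⟩ | ⟨-, h⟩ | ⟨-, h⟩ | ⟨-, h⟩ | ⟨-, h⟩ | ⟨-, h⟩ | ⟨-, h⟩ | ⟨-, h⟩ | ⟨-, h⟩ | ⟨-, h⟩ | ⟨-, h⟩ | ⟨-, h⟩ | ⟨-, h⟩ | ⟨-, h⟩ | ⟨-, h⟩ | ⟨-, h⟩ | ⟨-, h⟩ | ⟨-, h⟩ | ⟨-, h⟩ | ⟨-, h⟩ | ⟨-, h⟩ | ⟨-, h⟩ | ⟨-, h⟩ | ⟨-, h⟩ | ⟨-, h⟩
    · rw [h] at h3 ⊢
      exact aux 4 (by norm_num) (by decide +kernel) (by decide +kernel) (by decide +kernel) hp hodd h3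
    · rw [h] at h3 ⊢
      exact aux 6 (by norm_num) (by decide +kernel) (by decide +kernel) (by decide +kernel) hp hodd h3
    · rw [h] at h3 ⊢
      exact aux 7 (by norm_num) (by decide +kernel) (by decide +kernel) (by decide +kernel) hp hodd h3
    · rw [h] at h3 ⊢
      exact aux 7 (by norm_num) (by decide +kernel) (by decide +kernel) (by decide +kernel) hp hodd h3
    · rw [h] at h3 ⊢
      exact aux 10 (by norm_num) (by decide +kernel) (by decide +kernel) (by decide +kernel) hp hodd h3
    · rw [h] at h3 ⊢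
      exact aux 3 (by norm_num) (by decide +kernel) (by decide +kernel) (by decide +kernel) hp hodd h3
    · rw [h] at h3 ⊢
      exact aux 7 (by norm_num) (by decide +kernel) (by decide +kernel) (by decide +kernel) hp hodd h3
    · rw [h] at h3 ⊢
      exact aux 7 (by norm_num) (by decide +kernel) (by decide +kernel) (by decide +kernel) hp hodd h3
    · rw [h] at h3 ⊢
      exact aux 21 (by norm_num) (by decide +kernel) (by decide +kernel) (by decide +kernel) hp hodd h3
    · rw [h] at h3 ⊢
      exact aux 21 (by norm_num) (by decide +kernel) (by decide +kernel) (by decide +kernel) hp hodd h3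
    · rw [h] at h3 ⊢
      exact aux 18 (by norm_num) (by decide +kernel) (by decide +kernel) (by decide +kernel) hp hodd h3
    · rw [h] at h3 ⊢
      exact aux 10 (by norm_num) (by decide +kernel) (by decide +kernel) (by decide +kernel) hp hodd h3
    · rw [h] at h3 ⊢
      exact aux 17 (by norm_num) (by decide +kernel) (by decide +kernel) (by decide +kernel) hp hodd h3
    · rw [h] at h3 ⊢
      exact aux 18 (by norm_num) (by decide +kernel) (by decide +kernel) (by decide +kernel) hp hodd h3
    · rw [h] at h3 ⊢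
      exact aux 21 (by norm_num) (by decide +kernel) (by decide +kernel) (by decide +kernel) hp hodd h3
    · rw [h] at h3 ⊢
      exact aux 9 (by norm_num) (by decide +kernel) (by decide +kernel) (by decide +kernel) hp hodd h3
    · rw [h] at h3 ⊢
      exact aux 7 (by norm_num) (by decide +kernel) (by decide +kernel) (by decide +kernel) hp hodd h3
    · rw [h] at h3 ⊢
      exact aux 10 (by norm_num) (by decide +kernel) (by decide +kernel) (by decide +kernel) hp hodd h3
    · rw [h] at h3 ⊢
      exact aux 14 (by norm_num) (by decide +kernel) (by decide +kernel) (by decide +kernel) hp hodd h3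
    · rw [h] at h3 ⊢
      exact aux 13 (by norm_num) (by decide +kernel) (by decide +kernel) (by decide +kernel) hp hodd h3
    · rw [h] at h3 ⊢
      exact aux 9 (by norm_num) (by decide +kernel) (by decide +kernel) (by decide +kernel) hp hodd h3
    · rw [h] at h3 ⊢
      exact aux 14 (by norm_num) (by decide +kernel) (by decide +kernel) (by decide +kernel) hp hodd h3
    · rw [h] at h3 ⊢
      exact aux 8 (by norm_num) (by decide +kernel) (by decide +kernel) (by decide +kernel) hp hodd h3
    · rw [h] at h3 ⊢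
      exact aux 15 (by norm_num) (by decide +kernel) (by decide +kernel) (by decide +kernel) hp hodd h3
    · rw [h] at h3 ⊢
      exact aux 41 (by norm_num) (by decide +kernel) (by decide +kernel) (by decide +kernel) hp hodd h3
    · rw [h] at h3 ⊢
      exact aux 46 (by norm_num) (by decide +kernel) (by decide +kernel) (by decide +kernel) hp hodd h3

end Cfsg.Agent.S2367
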