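import Cfsg.Statements.S2369
import Cfsg.Agent.Lib.St.LieDat
import Cfsg.Agent.Lib.Twisted.AutF4

set_option autoImplicit false
open Cfsg

namespace Cfsg.Agent.S2369

open Cfsg.Lib.St Cfsg.Lib.Chev Cfsg.Lib.Twisted Cfsg.Lib.Twisted.Twist Subgroup

section
variable {ι Φ κ : Type} [Fintype ι] [DecidableEq ι] {R : RootSys ι Φ} [Fintype Φ]
  {T : Sym R κ} {F G : Type*} [Field F] [Group G] {C : ChevSys R F G} {S : Twist C T}
  {K : Subgroup G} (hK : S.IsTw K)
include hK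

theorem card_B : Nat.card ↥(C.B ⊓ K) = Nat.card ↥(C.U ⊓ K) * Nat.card ↥(C.H ⊓ K) := by
  rw [← Nat.card_prod]
  refine (Nat.card_congr (Equiv.ofBijective (fun p : ↥(C.U ⊓ K) × ↥(C.H ⊓ K) =>
    (⟨p.1 * p.2, hK.mem_B_iff.2 ⟨_, p.1.2, _, p.2.2, rfl⟩⟩ : ↥(C.B ⊓ K))) ⟨?_, fun g => ?_⟩)).symm
  · rintro ⟨u, k⟩ ⟨u', k'⟩ h
    obtain ⟨-, h2, h3, -⟩ := normal_form_unique hK.faithful u.2.1 u'.2.1
      (ChevSys.nw_of_mem_H k.2.1) (ChevSys.nw_of_mem_H k'.2.1) (one_mem _) (one_mem _)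
      (by simpa using congrArg Subtype.val h)
    rw [Subtype.ext h2, Subtype.ext h3]
  · obtain ⟨u, hu, k, hk, e⟩ := hK.mem_B_iff.1 g.2
    exact ⟨(⟨u, hu⟩, ⟨k, hk⟩), Subtype.ext e.symm⟩

theorem card_P_singleton (htop : C.grp = ⊤) [Finite F] (p : ℕ) [Fact p.Prime] [CharP F p] (k : κ) :
    Nat.card ((twTits hK htop).P {k}) =
      Nat.card ↥(C.U ⊓ K) * Nat.card ↥(C.H ⊓ K) * (Nat.card (S.X k) + 1) := by
  haveI := hK.faithful.finite htop
  have h6 := (twSplit hK htop p).index_B_singleton (Set.mem_univ k)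
  rw [twSplit_U, twSplit_V, ← inf_subgroupOf_right C.U, relIndex_subgroupOf inf_le_right,
    hK.U_inf] at h6
  rw [← relIndex_V_singleton hK.faithful, ← card_B hK]
  refine ((((twTits hK htop).B.subgroupOf _).card_mul_index).symm.trans ?_)
  rw [Nat.card_congr (subgroupOfEquivOfLe (Tits.B_le_P _ _)).toEquiv, ← relIndex, h6, twTits_B,
    ← inf_subgroupOf_right, Nat.card_congr (subgroupOfEquivOfLe inf_le_right).toEquiv]
  rfl

end

/-- Let q = 2^(2m+1) with m ≥ 1 and let a, b be commuting elements of the large Ree group ²F₄(q) with a an involution. Then every prime divisor of the order of b divides q(q⁴ − 1). -/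
theorem result {K : Type*} [Field K] [Fintype K] (m : ℕ) (hm : 1 ≤ m) (hK : Fintype.card K = 2 ^ (2 * m + 1))
    (a b : ↥(Cfsg.Lie.twistedF4 K (2 ^ m))) (ha : orderOf a = 2) (hab : Commute a b) :
    (orderOf b).primeFactors ⊆ (2 ^ (2 * m + 1) * ((2 ^ (2 * m + 1)) ^ 4 - 1)).primeFactors := by
  obtain ⟨S, φ, ψ, h⟩ := exists_isF4 hK
  haveI : CharP K 2 := (CharP.charP_iff_prime_eq_zero Nat.prime_two).2 h.two
  have htop : (CF4 K).grp = ⊤ := sysG_grp _ _
  haveI := h.isTw.faithful.finite htop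
  set e := equivOfMap (Lie.chevF4.group K).subtype_injective (map_KF4 (K := K) (e := 2 ^ m))
  have ha' : orderOf (e a) = 2 := by rwa [e.orderOf_eq]
  obtain ⟨k, J, hJ, -, h2⟩ := tw_borelTits h.isTw htop 2 (D := zpowers (e a))
    (IsPGroup.of_card (n := 1) (by rw [Nat.card_zpowers, ha', pow_one]))
    (by rw [Ne, zpowers_eq_bot]; rintro h0; simp [h0] at ha')
  have h3 := h2 (e b) (centralizer_le_normalizer _ fun x hx => by
    obtain ⟨n, rfl⟩ := hx
    exact ((hab.map e).zpow_left n).eq)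
  obtain ⟨i, hi⟩ : ∃ i : Fin 2, J ⊆ {i} := by
    obtain ⟨j, hj⟩ := Set.ne_univ_iff_exists_notMem J |>.1 hJ
    refine ⟨j.rev, fun x hx => ?_⟩
    have : x ≠ j := fun e => hj (e ▸ hx)
    revert this
    fin_cases x <;> fin_cases j <;> simp
  have h4 : k⁻¹ * e b * k ∈ (twTits h.isTw htop).P {i} :=
    Tits.P_mono _ hi (by rw [twTits_P]; exact h3)
  have h5 := orderOf_dvd_natCard (⟨_, h4⟩ : (twTits h.isTw htop).P {i})
  rw [card_P_singleton h.isTw htop 2, h.cardU, h.cardH, h.cardX, ← orderOf_coe] at h5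
  have h6 : orderOf (k⁻¹ * e b * k) = orderOf b := by
    rw [← e.orderOf_eq b]
    exact (MulAut.conj k⁻¹).orderOf_eq (e b) ▸ by simp
  rw [h6] at h5
  have hq : 1 < 2 ^ (2 * m + 1) := Nat.one_lt_two_pow (by omega)
  generalize 2 ^ (2 * m + 1) = q at h5 hq ⊢
  have h7 : q ^ 4 - 1 = (q - 1) * ((q + 1) * (q ^ 2 + 1)) := by
    obtain ⟨r, rfl⟩ := Nat.exists_eq_add_of_lt hq
    refine Nat.sub_eq_of_eq_add ?_
    rw [show 1 + r + 1 - 1 = r + 1 by omega]
    ring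
  intro r hr
  have hp := Nat.prime_of_mem_primeFactors hr
  refine Nat.mem_primeFactors.2 ⟨hp, ?_, mul_ne_zero (by omega)
    (Nat.sub_ne_zero_of_lt (Nat.one_lt_pow (by omega) hq))⟩
  rw [h7]
  rcases (hp.dvd_mul.1 ((Nat.dvd_of_mem_primeFactors hr).trans h5)) with h8 | h8
  · rcases hp.dvd_mul.1 h8 with h8 | h8
    · exact (hp.dvd_of_dvd_pow h8).mul_right _
    · exact ((hp.dvd_of_dvd_pow h8).mul_right _).mul_left _
  · refine Dvd.dvd.mul_left (Dvd.dvd.mul_left ?_ _) _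
    fin_cases i
    · exact Dvd.dvd.mul_right (by simpa using h8) _
    · exact Dvd.dvd.mul_left (by simpa using h8) _

end Cfsg.Agent.S2369
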