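import Cfsg.Statements.S2370
import Cfsg.Agent.Lib.Chev.Top
import Cfsg.Agent.Lib.Chev.CertF4
import Cfsg.Agent.Lib.Twisted.AutF4

set_option autoImplicit false
open Cfsg

namespace Cfsg.Agent.S2370

open Lib.Chev Lib.Twisted Lie in
theorem aux {K : Type*} [Field K] [Finite K] [CharP K 2] (g : chevF4.group K) {j : ℕ}
    (h : orderOf g = 2 ^ j) : g ^ 32 = 1 := by
  obtain ⟨y, hy⟩ := (checkedF4.gsys_faithful K).exists_conj_le_U 2 (checkedF4.gsys_grp K)
    (P := Subgroup.zpowers g) (IsPGroup.of_card (by rw [Nat.card_zpowers, h]))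
  have h1 := hy g (Subgroup.mem_zpowers g)
  rw [Checked.gsys, ChevSys.resTo_U, Subgroup.mem_subgroupOf] at h1
  have h2 := (checkedF4.base' K).nil_of_mem_XS (RootSys.htL _) zero_le_one
    (fun r hr => RootSys.IsPos.ht_pos hr) h1
  set A := (((y * g * y⁻¹ : chevF4.group K) : GL chevF4.Idx K) : Matrix chevF4.Idx chevF4.Idx K)
  have h3 : ∀ k : ℕ, Nil (checkedF4.R.deg (RootSys.htL _)) k ((A - 1) ^ k) := fun k => by
    induction k with
    | zero => simpa using nil_one
    | succ k ih => simpa [pow_succ] using ih.mul h2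
  have h4 : ∀ r < 48, -11 ≤ sumTo 4 (aN chevF4 certF4 r) ∧ sumTo 4 (aN chevF4 certF4 r) ≤ 11 := by
    decide +kernel
  have h5 : ∀ a, -11 ≤ checkedF4.R.deg (RootSys.htL _) a ∧ checkedF4.R.deg (RootSys.htL _) a ≤ 11 := by
    rintro (i | r)
    · simp [RootSys.deg]
    · have := h4 r r.2
      rw [sumTo_eq] at this
      exact this
  have h6 : (A - 1) ^ 2 ^ 5 = 0 := Matrix.ext fun a b => h3 _ a b (by
    have := h5 a
    have := h5 b
    omega)
  have : Nonempty chevF4.Idx := ⟨.inl ⟨0, by decide⟩⟩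
  rw [sub_pow_char_pow_of_commute _ _ (Commute.one_right _), one_pow, sub_eq_zero] at h6
  have h7 : (y * g * y⁻¹) ^ 32 = 1 := Subtype.ext (Units.ext h6)
  simpa using h7

/-- Let q = 2^(2m+1) with m ≥ 1. Every element of 2-power order of the large Ree group ²F₄(q) has order at most 32. -/
theorem result {K : Type*} [Field K] [Fintype K] (m : ℕ) (hm : 1 ≤ m) (hK : Fintype.card K = 2 ^ (2 * m + 1))
    (x : ↥(Cfsg.Lie.twistedF4 K (2 ^ m))) (hx : ∃ j : ℕ, orderOf x = 2 ^ j) : orderOf x ≤ 32 := by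
  obtain ⟨j, hj⟩ := hx
  have := charP_of_card_eq_prime_pow (p := 2) hK
  have h : Lie.twistedF4 K (2 ^ m) ≤ Lie.chevF4.group K :=
    Lib.Twisted.map_KF4 (K := K) ▸ Subgroup.map_subtype_le _
  have h1 := orderOf_injective _ (Subgroup.inclusion_injective h) x
  exact h1 ▸ orderOf_le_of_pow_eq_one (by norm_num) (aux _ (h1.trans hj))

end Cfsg.Agent.S2370
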