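import Cfsg.Statements.S2371
import Cfsg.Agent.Lib.Oct.Fix
import Cfsg.Agent.Lib.Oct.Chev

set_option autoImplicit false
open Cfsg

namespace Cfsg.Agent.S2371

open Cfsg.Lib Cfsg.Lib.Oct Cfsg.Lib.GLC Matrix Subgroup
open scoped MatrixGroups

theorem exists_singer {F : Type*} [Field F] [Finite F] : ∃ A : SL(3, F),
    orderOf A = Nat.card F ^ 2 + Nat.card F + 1 ∧ (A.1 - 1).det ≠ 0 ∧ ∀ B, Commute B A → B ∈ zpowers A := by
  obtain ⟨K, _, _, _, h3, hK⟩ := exists_ext F three_ne_zero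
  obtain ⟨m, hm⟩ := Nat.exists_eq_add_of_lt (Finite.one_lt_card (α := F))
  have h1 : Nat.card K - 1 = (Nat.card F - 1) * (Nat.card F ^ 2 + Nat.card F + 1) := by
    rw [hK, hm]; exact Nat.sub_eq_of_eq_add (by simp; ring)
  have h0 : 0 < Nat.card F - 1 := by omega
  obtain ⟨a, ha, ho⟩ := exists_orderOf_eq (K := K) (Dvd.intro_left _ h1.symm)
  have hn : ∀ {c : K}, Algebra.norm F c = 1 ↔ orderOf c ∣ orderOf a := by
    intro c; rw [norm_eq_one_iff, h1, Nat.mul_div_cancel_left _ h0, ho, orderOf_dvd_iff_pow_eq_one]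
  haveI : Module.Finite F K := .of_finite
  obtain ⟨A, hA⟩ := exists_sl_sim (n := Fin 3) (f := Algebra.lmul F K a) (hn.2 dvd_rfl) (by simpa using h3)
  obtain ⟨e, he⟩ := sim_iff.1 hA
  let Φ := toLinAlgEquiv'.trans (e.conjAlgEquiv F)
  have hΦ : Φ A.1 = Algebra.lmul F K a := he
  have h4 : a ∉ (algebraMap F K).range := fun ⟨c, hc⟩ => by
    have := Nat.le_of_dvd h0 (ho ▸ orderOf_dvd_of_pow_eq_one ((exists_eq_algebraMap_iff ha).1 ⟨c, hc.symm⟩))
    omega
  refine ⟨A, ?_, ?_, fun B hB => ?_⟩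
  · rw [← orderOf_toLin'_sl, hA.orderOf_eq, ← ho]
    exact orderOf_injective (Algebra.lmul F K).toMonoidHom (Algebra.lmul_injective) a
  · refine ((isUnit_iff_isUnit_det _).1 ((MulEquiv.isUnit_map Φ).1 ?_)).ne_zero
    rw [map_sub, hΦ, map_one, ← map_one (Algebra.lmul F K), ← map_sub]
    exact (sub_ne_zero.2 fun h => h4 ⟨1, by simp [h]⟩).isUnit.map _
  have hi := Algebra.IsIntegral.isIntegral (R := F) a
  have h5 := ((Nat.dvd_prime Nat.prime_three).1 (h3 ▸ minpoly.degree_dvd hi)).resolve_left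
    (mt minpoly.natDegree_eq_one_iff.1 h4)
  obtain ⟨R, hR⟩ := (blocks_lmul (h5.trans h3.symm)).exists_aeval_of_commute
    (hΦ ▸ (hB.map (SpecialLinearGroup.coeMonoidHom)).map Φ : Commute (Φ B.1) _)
  rw [Polynomial.aeval_algHom_apply] at hR
  generalize Polynomial.aeval a R = c at hR
  have h6 : Algebra.norm F c = 1 := by
    rw [Algebra.norm_apply, hR]
    exact (sim_conj e _).det_eq.symm.trans ((LinearMap.det_toLin' _).trans B.2)
  have : NeZero (orderOf a) := ⟨by omega⟩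
  obtain ⟨k, -, hk⟩ := (IsPrimitiveRoot.orderOf a).eq_pow_of_pow_eq_one (orderOf_dvd_iff_pow_eq_one.1 (hn.1 h6))
  refine ⟨k, (zpow_natCast A k).trans (Subtype.ext (Φ.injective ?_))⟩
  rw [coe_pow', map_pow, hΦ, ← hR, ← map_pow, hk]

/-- The group G₂(q), q ≥ 3, contains a cyclic subgroup of order q² + q + 1 which is its own centralizer. -/
theorem result {F : Type*} [Field F] [Fintype F] (q : ℕ) (hF : Fintype.card F = q) (hq : 3 ≤ q) :
    ∃ H : Subgroup ↥(Cfsg.Lie.chevG2.group F), IsCyclic ↥H ∧ Nat.card ↥H = q ^ 2 + q + 1 ∧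
      Subgroup.centralizer (H : Set ↥(Cfsg.Lie.chevG2.group F)) = H := by
  obtain ⟨e⟩ := nonempty_chev_equiv (F := F)
  obtain ⟨A, h1, h2, h3⟩ := exists_singer (F := F)
  refine ⟨zpowers (e.symm (sl A)), inferInstance, ?_, le_antisymm (fun x hx => ?_) (le_centralizer _)⟩
  · rw [Nat.card_zpowers, e.symm.orderOf_eq, orderOf_injective _ sl_injective, h1, Nat.card_eq_fintype_card, hF]
  · have h : Commute (e x) (sl A) := by simpa using (Commute.map (hx _ (mem_zpowers _)) e).symm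
    obtain ⟨B, hB⟩ := exists_sl_of_commute h2 h
    obtain ⟨k, rfl⟩ := h3 B (sl_injective (by simpa [hB] using h.eq))
    exact ⟨k, by simp only [← map_zpow, hB, e.symm_apply_apply]⟩

end Cfsg.Agent.S2371
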