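import Cfsg.Statements.S2372
import Cfsg.Agent.Lib.Chev.CycTor

set_option autoImplicit false
open Cfsg

namespace Cfsg.Agent.S2372

open Cfsg.Lib.Chev

/-- The group F₄(q) contains a cyclic subgroup of order q⁴ + 1 which is its own centralizer. -/
theorem result {F : Type*} [Field F] [Fintype F] (q : ℕ) (hF : Fintype.card F = q) :
    ∃ H : Subgroup ↥(Cfsg.Lie.chevF4.group F), IsCyclic ↥H ∧ Nat.card ↥H = q ^ 4 + 1 ∧
      Subgroup.centralizer (H : Set ↥(Cfsg.Lie.chevF4.group F)) = H := by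
  have h2 : 2 ≤ q := hF ▸ Fintype.one_lt_card
  rw [← Nat.div_one (q ^ 4 + 1)]
  refine checkedF4.exists_cyclic (by simp) (algF4 _) ([2, 1, 3, 2, 1, 0] : List (Fin 4))
    (X := .of (toM 4 4 [[1, 0, 0, 0], [1, 1, 0, 0], [2, 1, 0, 1], [1, 0, 1, 0]]))
    (P := .of (toM 4 4 [[1, 0, 0, 0], [-1, 1, 0, 0], [-1, 0, 0, 1], [-1, -1, 1, 0]]))
    (a := toV 4 [1, 0, 0, 0]) ?_ (by decide +kernel) (by decide) (by decide) hF
    (by rw [(kerDataF4 _).kerChr_eq_bot, Subgroup.card_bot]) ?_ fun h => ?_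
  · exact IsCartan.wM_wp_mul (n := 4) (isCartanF4 _)
      (B := [[2, -1, 0, 0], [-1, 2, -1, 0], [0, -2, 2, -1], [0, 0, -1, 2]]) (by decide +kernel) (by decide +kernel)
  · change _ = (q : ℤ) ^ 4 + ∑ j : Fin 4, toV 4 [1, 0, 0, 0] j * (q : ℤ) ^ j.val
    simp [Fin.sum_univ_succ, toV]
  · have h3 : q < 5 := by omega
    clear hF
    revert h h2
    revert q
    decide +kernel

end Cfsg.Agent.S2372
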