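import Cfsg.Statements.S2373
import Cfsg.Agent.Lib.Chev.CycTor

set_option autoImplicit false
open Cfsg

namespace Cfsg.Agent.S2373

open Cfsg.Lib.Chev

/-- The group E₆(q) (the simple Chevalley group of type E₆) contains a cyclic subgroup of order (q⁴ − q² + 1)(q² + q + 1)/gcd(3, q − 1) which is its own centralizer. -/
theorem result {F : Type*} [Field F] [Fintype F] (q : ℕ) (hF : Fintype.card F = q) :
    ∃ H : Subgroup ↥(Cfsg.Lie.chevE6.group F), IsCyclic ↥H ∧ Nat.card ↥H = (q ^ 4 - q ^ 2 + 1) * (q ^ 2 + q + 1) / Nat.gcd 3 (q - 1) ∧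
      Subgroup.centralizer (H : Set ↥(Cfsg.Lie.chevE6.group F)) = H := by
  have h2 : 2 ≤ q := hF ▸ Fintype.one_lt_card
  have h1 : q ^ 2 ≤ q ^ 4 := Nat.pow_le_pow_right (by omega) (by omega)
  refine checkedE6.exists_cyclic (by simp) (algE6 _) ([0, 1, 2, 3, 4, 5] : List (Fin 6))
    (X := .of (toM 6 6 [[1, 0, 0, 0, 1, 0], [1, 1, 0, 0, 0, 1], [0, 0, 1, 1, 0, -1], [1, 1, 1, 0, 0, 0], [1, 1, 0, 0, 0, 0], [1, 0, 0, 0, 0, 0]]))
    (P := .of (toM 6 6 [[0, 0, 0, 0, 0, 1], [0, 0, 0, 0, 1, -1], [0, 0, 0, 1, -1, 0], [0, 1, 1, -1, 0, 0], [1, 0, 0, 0, 0, -1], [0, 1, 0, 0, -1, 0]]))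
    (a := toV 6 [1, 1, 0, -1, 0, 1]) ?_ (by decide +kernel) (by decide) (by decide) hF
    (by rw [(kerDataE6 _).card_kerChr_finite, Nat.card_eq_fintype_card, hF]; simp) ?_ fun h => ?_
  · exact IsCartan.wM_wp_mul (n := 6) (isCartanE6 _)
      (B := [[2, 0, -1, 0, 0, 0], [0, 2, 0, -1, 0, 0], [-1, 0, 2, -1, 0, 0], [0, -1, -1, 2, -1, 0], [0, 0, 0, -1, 2, -1], [0, 0, 0, 0, -1, 2]]) (by decide +kernel) (by decide +kernel)
  · change _ = (q : ℤ) ^ 6 + ∑ j : Fin 6, toV 6 [1, 1, 0, -1, 0, 1] j * (q : ℤ) ^ j.val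
    simp [h1, Fin.sum_univ_succ, toV]
    ring
  · have h3 : q < 11 := by have := Nat.gcd_le_left (q - 1) (show 0 < 3 by omega); omega
    clear hF h1
    revert h h2
    revert q
    decide +kernel

end Cfsg.Agent.S2373
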