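import Cfsg.Statements.S2376
import Cfsg.Agent.Lib.Chev.AlgTw

set_option autoImplicit false
open Cfsg

namespace Cfsg.Agent.S2376

open Cfsg.Lib.Chev Cfsg.Lib.Twisted Cfsg.Lib.BN

/-- The group ³D₄(q) contains a cyclic subgroup of order (q³ − 1)(q + 1) which is its own centralizer. -/
theorem result {K : Type*} [Field K] [Fintype K] (q : ℕ) (hq : IsPrimePow q) (hK : Fintype.card K = q ^ 3) :
    ∃ H : Subgroup ↥(Cfsg.Lie.twistedD4 K q), IsCyclic ↥H ∧ Nat.card ↥H = (q ^ 3 - 1) * (q + 1) ∧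
      Subgroup.centralizer (H : Set ↥(Cfsg.Lie.twistedD4 K q)) = H := by
  obtain ⟨p, m, _, _, φ, σ, h, hm, rfl, hσ, hS, ⟨e⟩⟩ := exists_tw_D4 hq hK
  have hγ : RD4.IsAut symD4.ρ := isAut_sym (by rw [RD4_A, symD4_π]; decide) (by decide +kernel)
  have h2 : 2 ≤ p ^ m := hq.two_le
  have h3 : Nat.card e.toMonoidHom.ker = 1 := by
    rw [(MonoidHom.ker_eq_bot_iff _).2 e.injective, Subgroup.card_bot]
  obtain ⟨H, h4, h5, h6⟩ := ChevSys.Alg.exists_cyclic (n := 4) (R := RD4) h four_pos hσ hm hγ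
    (RD4.W.inv_mem (RootSys.wp_mem_W [1])) hS
    (X := .of (toM 4 4 [[0, 0, -1, -1], [0, -1, -1, -1], [-1, -1, 0, 0], [0, -1, -1, 0]]))
    (P := .of (toM 4 4 [[-1, 1, -1, 0], [1, -1, 0, 0], [-1, 1, 0, -1], [0, -1, 0, 1]]))
    (a := toV 4 [-1, -1, 0, 1]) (N := ((p ^ m) ^ 3 - 1) * (p ^ m + 1))
    (by
      rw [mul_inv_rev, inv_inv, hγ.inv.wM_mul, Matrix.mul_assoc,
        IsCartan.wM_wp_mul (n := 4) (R := RD4) (isCartanD4 checkedD4)
          (B := [[2, -1, 0, 0], [-1, 2, -1, -1], [0, -1, 2, 0], [0, -1, 0, 2]]) (by decide +kernel)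
          (Y := RD4.wM symD4.ρ * (.of (toM 4 4 [[0, 0, -1, -1], [0, -1, -1, -1], [-1, -1, 0, 0],
            [0, -1, -1, 0]]) * cmpM (toV 4 [-1, -1, 0, 1]))) (by
            rw [show RD4.wM symD4.ρ = .of fun i j => if i = πD4 j then 1 else 0 from
              Matrix.ext wM_sym]
            decide +kernel), ← Matrix.mul_assoc, hγ.wM_inv_mul, Matrix.one_mul])
    (by decide +kernel) (by decide)
    (by
      generalize p ^ m = q at h2
      have := Nat.one_le_pow 3 q (by omega)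
      simp [this, Fin.sum_univ_succ, toV]
      ring)
    e.toMonoidHom e.surjective (by rw [(MonoidHom.ker_eq_bot_iff _).2 e.injective]; exact bot_le)
    (by
      rw [h3]
      generalize p ^ m = q at h2
      intro h
      have h3 : q < 5 := by omega
      simp only [RootSys.ev_apply, RD4, checkedD4.cartan_eq]
      clear h
      revert h2
      revert q
      decide +kernel)
  exact ⟨H, h4, by rw [← h5, h3, mul_one], h6⟩

end Cfsg.Agent.S2376
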