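import Cfsg.Statements.S2379
import Cfsg.Agent.Lib.GLC.Homocyc
import Cfsg.Agent.Lib.GLC.Nilp

set_option autoImplicit false
open Cfsg

namespace Cfsg.Agent.S2379

open Cfsg.Lib Cfsg.Lib.GLC Cfsg.Lib.GLC.Homocyc

/-- Sylow subgroups of `SL_n(q)` for large primes. Let `F` be a field with `q` elements and `r` a prime with `r > n` and `r ∤ q` (so `r` does not divide the order `n!` of the Weyl group). Let `d` be the multiplicative order of `q` modulo `r`, `a` the number of integers `i` with `2 ≤ i ≤ n` divisible by `d` (the degrees of the Weyl group are `2, …, n`), and `m` the `r`-part of the value at `q` of the `d`-th cyclotomic polynomial. Then every Sylow `r`-subgroup of `SL_n(q)` is a direct product of `a` cyclic groups of order `m`. -/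
theorem result {F : Type*} [Field F] [Fintype F] {q : ℕ} (hq : Fintype.card F = q) (n : ℕ)
    (r : ℕ) [Fact r.Prime] (hrn : n < r) (hrq : ¬ r ∣ q) (P : Sylow r (Matrix.SpecialLinearGroup (Fin n) F)) :
    Nonempty (↥(P : Subgroup (Matrix.SpecialLinearGroup (Fin n) F)) ≃*
      (Fin ((Finset.Icc 2 n).filter (fun i => orderOf (q : ZMod r) ∣ i)).card →
        Multiplicative (ZMod (r ^ padicValNat r ((Polynomial.cyclotomic (orderOf (q : ZMod r)) ℤ).eval (q : ℤ)).natAbs)))) := by
  rw [← Nat.card_eq_fintype_card] at hq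
  subst hq
  have h1 : 1 < Nat.card F := Finite.one_lt_card
  rw [val_cyclotomic h1 hrq]
  have hd := orderOf_pos_of hrq
  rcases n with _ | k
  · refine HC.sylow ?_ ?_ P
    · simpa using HC.zero
    · simp
  have hc : ((Finset.Icc 2 (k + 1)).filter (fun i => orderOf (Nat.card F : ZMod r) ∣ i)).card =
      ((Finset.range k).filter (fun i => orderOf (Nat.card F : ZMod r) ∣ i + 2)).card := by
    symm
    refine Finset.card_bij (fun i _ => i + 2) ?_ ?_ ?_
    · intro i hi
      simp only [Finset.mem_filter, Finset.mem_range, Finset.mem_Icc] at hi ⊢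
      exact ⟨⟨by omega, by omega⟩, hi.2⟩
    · intro i _ j _ h; omega
    · intro j hj
      simp only [Finset.mem_filter, Finset.mem_range, Finset.mem_Icc] at hj ⊢
      refine ⟨j - 2, ⟨by omega, ?_⟩, by omega⟩
      rw [show j - 2 + 2 = j by omega]; exact hj.2
  rw [hc]
  refine HC.sylow ?_ ?_ P
  · have h2 := Nat.card_multiples (k + 1) (orderOf (Nat.card F : ZMod r))
    rw [Finset.card_filter, Finset.sum_range_succ', ← Finset.card_filter] at h2
    by_cases h3 : orderOf (Nat.card F : ZMod r) = 1
    · obtain ⟨ψ, hψ⟩ := exists_gl_sl (F := F) k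
      have h4 := (hc_gl hrq k).map ψ hψ
      convert h4 using 1
      rw [h3]; simp
    · rw [if_neg (by simpa using h3), add_zero] at h2
      rw [h2]
      obtain ⟨φ, hφ⟩ := hc_gl hrq (k + 1)
      refine exists_sl_of_det φ hφ fun z => ?_
      have h4 : orderOf (Matrix.GeneralLinearGroup.det (φ z)) ∣ r ^ padicValNat r
          (Nat.card F ^ orderOf (Nat.card F : ZMod r) - 1) := by
        rw [orderOf_dvd_iff_pow_eq_one, ← map_pow, ← map_pow]
        have : z ^ r ^ padicValNat r (Nat.card F ^ orderOf (Nat.card F : ZMod r) - 1) = 1 := by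
          funext i
          rw [Pi.pow_apply, Pi.one_apply, ← orderOf_dvd_iff_pow_eq_one]
          simpa using orderOf_dvd_natCard (z i)
        rw [this, map_one, map_one]
      have h5 := orderOf_dvd_natCard (Matrix.GeneralLinearGroup.det (φ z))
      rw [Nat.card_units] at h5
      have h6 : (r ^ padicValNat r (Nat.card F ^ orderOf (Nat.card F : ZMod r) - 1)).Coprime
          (Nat.card F - 1) := Nat.Coprime.pow_left _ ((Nat.Prime.coprime_iff_not_dvd Fact.out).2
        fun h => h3 (Nat.dvd_one.1 ((dvd_pow_sub_one_iff (k := 1) Nat.card_pos).1 (by simpa using h))))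
      have h7 := orderOf_eq_one_iff.1 (Nat.eq_one_of_dvd_coprimes h6 h4 h5)
      simpa using congrArg Units.val h7
  · rw [card_SL_eq, val_card h1 hrq _ _ (fun i => i + 2) (fun _ _ => Nat.succ_ne_zero _)]
    intro i hi j hj hr
    have h2 := Finset.mem_range.1 hi
    have h3 : j ≠ 0 := by rintro rfl; simp at hj
    have h4 := Nat.le_of_dvd (Nat.pos_of_ne_zero h3) hr
    have h5 : j ≤ i + 2 := Nat.le_of_dvd (Nat.succ_pos _) ⟨_, hj.trans (mul_comm _ _)⟩
    omega

end Cfsg.Agent.S2379
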