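import Cfsg.Statements.S2381
import Cfsg.Agent.Lib.GLC.Homocyc

set_option autoImplicit false
open Cfsg

namespace Cfsg.Agent.S2381

open Cfsg.Lib Cfsg.Lib.GLC Cfsg.Lib.GLC.Homocyc

/-- Sylow subgroups of `Sp_{2n}(q)` for large primes. Let `F` be a field with `q` elements and `r` an odd prime with `r > n` and `r ∤ q` (so `r` does not divide the order `2^n n!` of the Weyl group). Let `d` be the multiplicative order of `q` modulo `r`, `a` the number of `i` with `1 ≤ i ≤ n` and `d ∣ 2i` (the degrees being `2, 4, …, 2n`), and `m` the `r`-part of the value at `q` of the `d`-th cyclotomic polynomial. Then every Sylow `r`-subgroup of the symplectic group `Sp_{2n}(q)` is a direct product of `a` cyclic groups of order `m`. -/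
theorem result {F : Type*} [Field F] [Fintype F] {q : ℕ} (hq : Fintype.card F = q) (n : ℕ)
    (r : ℕ) [Fact r.Prime] (hr2 : r ≠ 2) (hrn : n < r) (hrq : ¬ r ∣ q) (P : Sylow r ↥(Matrix.symplecticGroup (Fin n) F)) :
    Nonempty (↥(P : Subgroup ↥(Matrix.symplecticGroup (Fin n) F)) ≃*
      (Fin ((Finset.Icc 1 n).filter (fun i => orderOf (q : ZMod r) ∣ 2 * i)).card →
        Multiplicative (ZMod (r ^ padicValNat r ((Polynomial.cyclotomic (orderOf (q : ZMod r)) ℤ).eval (q : ℤ)).natAbs)))) := by
  rw [← Nat.card_eq_fintype_card] at hq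
  subst hq
  have h1 : 1 < Nat.card F := Finite.one_lt_card
  have hr : r.Prime := Fact.out
  rw [val_cyclotomic h1 hrq]
  have hd := orderOf_pos_of hrq
  set d := orderOf (Nat.card F : ZMod r) with hdd
  set v := padicValNat r (Nat.card F ^ d - 1) with hv
  have hc : ((Finset.Icc 1 n).filter (fun i => d ∣ 2 * i)).card =
      ((Finset.range n).filter (fun i => d ∣ 2 * (i + 1))).card := by
    symm
    refine Finset.card_bij (fun i _ => i + 1) ?_ ?_ ?_
    · intro i hi
      simp only [Finset.mem_filter, Finset.mem_range, Finset.mem_Icc] at hi ⊢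
      exact ⟨⟨by omega, by omega⟩, hi.2⟩
    · intro i _ j _ h; omega
    · intro j hj
      simp only [Finset.mem_filter, Finset.mem_range, Finset.mem_Icc] at hj ⊢
      refine ⟨j - 1, ⟨by omega, ?_⟩, by omega⟩
      rw [show j - 1 + 1 = j by omega]; exact hj.2
  rw [hc]
  have hvd : r ^ v ∣ Nat.card F ^ d - 1 := pow_padicValNat_dvd
  refine HC.sylow ?_ ?_ P
  · have key : ∀ c, (∀ i, d ∣ 2 * i ↔ c ∣ i) →
        (∃ x : Matrix.symplecticGroup (Fin c) F, r ^ v ∣ orderOf x) →
        HC (Multiplicative (ZMod (r ^ v))) (Matrix.symplecticGroup (Fin n) F)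
          ((Finset.range n).filter (fun i => d ∣ 2 * (i + 1))).card := by
      rintro c h ⟨x, hx⟩
      obtain ⟨χ, hχ⟩ := exists_hom_of_dvd hx
      simp only [h, Nat.card_multiples]
      exact hc_family_div (fun n => Matrix.symplecticGroup (Fin n) F) exists_sp_emb χ hχ n
    rcases Nat.even_or_odd d with ⟨e, he⟩ | ho
    · have he0 : e ≠ 0 := by omega
      refine key e (fun i => by rw [he, ← two_mul]; exact Nat.mul_dvd_mul_iff_left two_pos)
        (exists_sp_order_even he0 ?_ ?_)
      · have h2 : Nat.card F ^ d - 1 = (Nat.card F ^ e + 1) * (Nat.card F ^ e - 1) := by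
          rw [he, ← two_mul, mul_comm 2, pow_mul, ← Nat.sq_sub_sq, one_pow]
        refine Nat.Coprime.dvd_of_dvd_mul_right (Nat.Coprime.pow_left _
          (hr.coprime_iff_not_dvd.2 fun h => ?_)) (h2 ▸ hvd)
        have := Nat.le_of_dvd (by omega) ((dvd_pow_sub_one_iff Nat.card_pos).1 h)
        omega
      · rw [two_mul, ← he]
        refine Nat.dvd_antisymm ((dvd_pow_sub_one_iff Nat.card_pos).1 hvd) ?_
        rw [hdd, ← dvd_pow_sub_one_iff Nat.card_pos]
        refine (dvd_pow_self r ?_).trans ((dvd_pow_sub_one_iff Nat.card_pos).2 dvd_rfl)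
        have h3 : Nat.card F ^ d - 1 ≠ 0 := by have := Nat.one_lt_pow hd.ne' h1; omega
        exact (one_le_padicValNat_of_dvd h3 ((dvd_pow_sub_one_iff Nat.card_pos).2 dvd_rfl)).trans_lt'
          one_pos |>.ne'
    · exact key d (fun i => ⟨fun h => (Nat.coprime_two_right.2 ho).dvd_of_dvd_mul_left h,
        fun h => h.mul_left 2⟩) (exists_sp_order_odd hd.ne' hvd)
  · rw [Symp.card_sp, Fintype.card_fin, val_card h1 hrq _ _ (fun i => 2 * (i + 1)) (fun _ _ => by omega)]
    intro i hi j hj hrj
    have h2 := Finset.mem_range.1 hi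
    have h3 : r ∣ 2 * (i + 1) := hj ▸ hrj.mul_left _
    rcases (Nat.Prime.dvd_mul hr).1 h3 with h | h
    · exact hr2 ((Nat.prime_dvd_prime_iff_eq hr Nat.prime_two).1 h)
    · have := Nat.le_of_dvd (Nat.succ_pos _) h
      omega

end Cfsg.Agent.S2381
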