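import Cfsg.Statements.S2387
import Cfsg.Agent.Lib.GLC.Unip

set_option autoImplicit false
open scoped MatrixGroups
open Cfsg

namespace Cfsg.Agent.S2387

/-- In `GL_n(q)` with `n ≥ 1`, `q` a power of the prime `p`, the number of conjugacy classes of elements of order prime to `p` (diagonalisable over the algebraic closure; determined by the characteristic polynomial) is `(q - 1) q^(n-1)`. -/
theorem result {F : Type*} [Field F] [Fintype F] {q : ℕ} (hq : Fintype.card F = q) (p : ℕ) [Fact p.Prime] [CharP F p] (n : ℕ) (hn : 1 ≤ n) :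
    Nat.card {c : ConjClasses (GL (Fin n) F) // ∃ g : GL (Fin n) F, ConjClasses.mk g = c ∧ (orderOf g).Coprime p} = (q - 1) * q ^ (n - 1) := by
  open Lib.GLC Matrix Polynomial in
  obtain ⟨m, rfl⟩ : ∃ m, n = m + 1 := ⟨n - 1, by omega⟩
  have h1 : ∀ g : GL (Fin (m + 1)) F, (orderOf g).Coprime p ↔ Module.End.IsSemisimple (toLin' g.1) := fun g => by
    rw [← orderOf_toLin'_gl]
    exact coprime_iff_isSemisimple p (isUnit_toLin'_gl g)
  refine (card_classes' (fun g : GL (Fin (m + 1)) F => (orderOf g).Coprime p) (fun g => (toLin' g.1).charpoly)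
    (fun P => (P.Monic ∧ P.natDegree = m + 1) ∧ P.coeff 0 ≠ 0)
    (fun a b ha hb => gl_isConj_iff_sim.trans ⟨Sim.charpoly_eq, sim_of_charpoly_eq ((h1 a).1 ha) ((h1 b).1 hb)⟩)
    fun P => ⟨fun ⟨⟨h2, h3⟩, h4⟩ => ?_, ?_⟩).trans ?_
  · obtain ⟨f, hf, rfl⟩ := exists_isSemisimple (V := Fin (m + 1) → F) h2 (by simpa using h3)
    obtain ⟨g, hg⟩ := exists_gl_sim (n := Fin (m + 1)) ((LinearMap.isUnit_iff_isUnit_det f).2 (by
      simpa [LinearMap.det_eq_sign_charpoly_coeff] using h4)) (by simp)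
    exact ⟨g, (h1 g).2 (hg.symm.isSemisimple hf), hg.charpoly_eq⟩
  · rintro ⟨g, -, rfl⟩
    have := (LinearMap.isUnit_iff_isUnit_det _).1 (isUnit_toLin'_gl g)
    rw [LinearMap.det_eq_sign_charpoly_coeff] at this
    exact ⟨⟨LinearMap.charpoly_monic _, by simp⟩, right_ne_zero_of_mul this.ne_zero⟩
  rw [card_monic_coeff m (· ≠ 0), ← Nat.card_congr unitsEquivNeZero, Nat.card_units, Nat.card_eq_fintype_card, hq,
    Nat.add_sub_cancel]

end Cfsg.Agent.S2387
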