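import Cfsg.Statements.S2388
import Cfsg.Agent.Lib.GLC.Mat

set_option autoImplicit false
open Cfsg

namespace Cfsg.Agent.S2388

/-- In `SL_n(q)`, `q` a power of the prime `p`, two elements of order prime to `p` with the same characteristic polynomial are conjugate in `SL_n(q)` (not merely in `GL_n`). -/
theorem result {F : Type*} [Field F] [Fintype F] (p : ℕ) [Fact p.Prime] [CharP F p] (n : ℕ)
    (g h : Matrix.SpecialLinearGroup (Fin n) F) (hg : (orderOf g).Coprime p) (hh : (orderOf h).Coprime p)
    (hc : (g : Matrix (Fin n) (Fin n) F).charpoly = (h : Matrix (Fin n) (Fin n) F).charpoly) : IsConj g h := by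
  open Lib.GLC in
  rcases n with _ | n
  · rw [Subsingleton.elim g h]
  have h1 := isSemisimple_of_coprime p (orderOf_toLin'_sl g ▸ hg)
  exact sl_isConj_of_sim (sim_of_charpoly_eq h1 (isSemisimple_of_coprime p (orderOf_toLin'_sl h ▸ hh))
    (by rwa [Matrix.charpoly_toLin', Matrix.charpoly_toLin'])) (detC_eq_top_of_isSemisimple h1)

end Cfsg.Agent.S2388
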