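import Cfsg.Statements.S2391
import Cfsg.Agent.Lib.Perm.Module

set_option autoImplicit false
open Cfsg

namespace Cfsg.Agent.S2391

/-- The Borel–Tits property of `SL_n(q)` in flag form: for a field `F` of characteristic `p` with finitely many elements and a non-trivial `p`-subgroup `U` of `SL_n(F)`, there is a flag `0 = V₀ < V₁ < ⋯ < V_{k+1} = F^n` with at least one proper non-zero member such that every element of the normaliser of `U` maps each `V_i` onto itself and every element of `U` acts trivially on each quotient `V_{i+1}/V_i` (so the normaliser lies in the parabolic subgroup of the flag and `U` in its unipotent radical). -/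
theorem result {F : Type*} [Field F] [Fintype F] (p : ℕ) [Fact p.Prime] [CharP F p] (n : ℕ)
    (U : Subgroup (Matrix.SpecialLinearGroup (Fin n) F)) (hU : IsPGroup p ↥U) (hne : U ≠ ⊥) :
    ∃ (k : ℕ) (V : Fin (k + 2) → Submodule F (Fin n → F)), 1 ≤ k ∧ StrictMono V ∧ V 0 = ⊥ ∧ V (Fin.last (k + 1)) = ⊤ ∧
      (∀ g ∈ Subgroup.normalizer (U : Set (Matrix.SpecialLinearGroup (Fin n) F)), ∀ i, (V i).map (Matrix.mulVecLin (g : Matrix (Fin n) (Fin n) F)) = V i) ∧
      (∀ u ∈ U, ∀ i : Fin (k + 1), ∀ v ∈ V i.succ, (u : Matrix (Fin n) (Fin n) F).mulVec v - v ∈ V (Fin.castSucc i)) := by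
  open Matrix Module in
  obtain ⟨σ, hσ⟩ : ∃ σ : SpecialLinearGroup (Fin n) F →* End F (Fin n → F),
      ∀ g, σ g = (g : Matrix (Fin n) (Fin n) F).mulVecLin :=
    ⟨(toLinAlgEquiv' (R := F) (n := Fin n)).toMulEquiv.toMonoidHom.comp SpecialLinearGroup.coeMonoidHom, fun _ => rfl⟩
  obtain ⟨W, hW0, hW⟩ : ∃ W : ℕ → Submodule F (Fin n → F), W 0 = ⊥ ∧ ∀ i v, v ∈ W (i + 1) ↔ ∀ u : U, σ u v - v ∈ W i :=
    ⟨Nat.rec ⊥ fun _ A => ⨅ u : U, A.comap (σ u - 1), rfl, fun i v => Submodule.mem_iInf _⟩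
  have h1 : ∀ g ∈ Subgroup.normalizer (U : Set (SpecialLinearGroup (Fin n) F)), ∀ i, ∀ v ∈ W i, σ g v ∈ W i := by
    intro g hg i
    induction i with
    | zero => simp [hW0]
    | succ i ih =>
      refine fun v hv => (hW _ _).2 fun u => ?_
      have := ih _ ((hW _ _).1 hv ⟨_, (Subgroup.mem_normalizer_iff''.1 hg u).1 u.2⟩)
      rwa [map_sub, ← End.mul_apply, ← map_mul, ← mul_assoc, ← mul_assoc, mul_inv_cancel, one_mul, map_mul] at this
  have h2 : ∀ i (u : U), W i ≤ (W i).comap (σ.comp U.subtype u) := fun i u => h1 u (Subgroup.le_normalizer u.2) i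
  have h3 : ∀ i, W i ≠ ⊤ → W i < W (i + 1) := fun i hi => by
    refine SetLike.lt_iff_le_and_exists.2 ⟨fun v hv => (hW _ _).2 fun u => sub_mem (h2 i u hv) hv, ?_⟩
    haveI := Submodule.Quotient.nontrivial_iff.2 hi
    obtain ⟨v, -, hv, h⟩ := Lib.Perm.exists_fixed_vector hU (Representation.quotient _ _ (h2 i)) ⊤
      (fun _ _ _ => trivial) top_ne_bot
    obtain ⟨v, rfl⟩ := Submodule.Quotient.mk_surjective _ v
    exact ⟨v, (hW _ _).2 fun u => (Submodule.Quotient.eq _).1 (h u), fun e => hv ((Submodule.Quotient.mk_eq_zero _).2 e)⟩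
  classical
  have h4 : ∃ i, W i = ⊤ := by
    by_contra! h
    exact (not_strictMono_of_wellFoundedGT W) (strictMono_nat_of_lt_succ fun i => h3 i (h i))
  have h5 : W 1 ≠ ⊤ := fun e => hne (eq_bot_iff.2 fun u hu => Subtype.ext (toLin'.injective (LinearMap.ext fun v => by
    simpa [hσ, hW0, sub_eq_zero] using (hW 0 v).1 (e ▸ trivial) ⟨u, hu⟩)))
  obtain ⟨k, hk⟩ : ∃ k, Nat.find h4 = k + 2 := Nat.exists_eq_add_of_le' ((Nat.le_find_iff h4 2).2 fun m hm e => by
    interval_cases m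
    exacts [h5 (eq_top_iff.2 fun v _ => (hW _ _).2 fun _ => e ▸ trivial), h5 e])
  simp only [← mulVecLin_apply, ← hσ]
  refine ⟨k + 1, fun i => W i, by omega, Fin.strictMono_iff_lt_succ.2 fun i => h3 _ (Nat.find_min h4 (i.2.trans_eq hk.symm)), hW0,
    (congrArg W hk.symm).trans (Nat.find_spec h4), fun g hg i => le_antisymm (Submodule.map_le_iff_le_comap.2 (h1 g hg i))
      fun v hv => ⟨_, h1 _ (inv_mem hg) i v hv, ?_⟩, fun u hu i v hv => (hW _ _).1 hv ⟨u, hu⟩⟩
  rw [← End.mul_apply, ← map_mul, mul_inv_cancel, map_one, End.one_apply]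

end Cfsg.Agent.S2391
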