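import Cfsg.Statements.S2392
import Cfsg.Agent.Lib.CharDeg.SLPairs
import Cfsg.Agent.Lib.Sz.Weights

set_option autoImplicit false
open scoped MatrixGroups
open Cfsg

namespace Cfsg.Agent.S2392

open Cfsg.Lib.GLFlag Cfsg.Lib.Sz Cfsg.Lib.Linear Matrix in

/-- A lower bound for representations in cross characteristic: for `n ≥ 3` and a field `F` with `q` elements, every homomorphism from `SL_n(F)` to `GL_d(K)`, `K` a field of characteristic different from that of `F`, whose kernel is central has `d ≥ q^(n-1) - 1`. -/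
theorem result {F : Type*} [Field F] [Fintype F] {q : ℕ} (hq : Fintype.card F = q) (n : ℕ) (hn : 3 ≤ n)
    {K : Type*} [Field K] (hK : ringChar K ≠ ringChar F) {d : ℕ}
    (ρ : Matrix.SpecialLinearGroup (Fin n) F →* GL (Fin d) K) (hker : ρ.ker ≤ Subgroup.center (Matrix.SpecialLinearGroup (Fin n) F)) :
    q ^ (n - 1) - 1 ≤ d := by
  classical
  obtain ⟨m, rfl⟩ : ∃ m, n = m + 2 := ⟨n - 2, by omega⟩
  let k := AlgebraicClosure K
  let σ : Matrix.SpecialLinearGroup (Fin (m + 2)) F →* Module.End k (Fin d → k) :=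
    (toLinAlgEquiv' (R := k) (n := Fin d)).toMonoidHom.comp
      ((algebraMap K k).mapMatrix.toMonoidHom.comp ((Units.coeHom _).comp ρ))
  let e : Fin (m + 2) → F := Pi.single 0 1
  have hd : ∀ φ : Fin (m + 2) → F, (φ - φ 0 • e) ⬝ᵥ e = 0 := fun φ => by simp [e]
  let x : (Fin (m + 2) → F) → Matrix.SpecialLinearGroup (Fin (m + 2)) F := fun φ => tvSL e _ (hd φ)
  have hx : ∀ φ φ', x φ * x φ' = x (φ + φ') := fun φ φ' => Subtype.ext (by
    simp only [x, Matrix.SpecialLinearGroup.coe_mul, tvSL_coe, mul_add, add_mul, mul_one, one_mul,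
      vecMulVec_mul_vecMulVec', hd, zero_smul, add_zero, add_assoc, ← vecMulVec_add]
    congr 2
    rw [Pi.add_apply]; module)
  have hx0 : ∀ t : F, x (Pi.single 0 t) = 1 := fun t => Subtype.ext (by
    have : Pi.single 0 t - t • e = 0 := by simp [e, ← Pi.single_smul]
    simp [x, tvSL_coe, this])
  have hxp : ∀ (l : ℕ) φ, x φ ^ l = x ((l : F) • φ) := fun l φ => by
    induction l with
    | zero => simpa using (hx0 0).symm
    | succ l ih => rw [pow_succ, ih, hx, Nat.cast_succ, add_smul, one_smul]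
  have hc : σ (x (Pi.single 1 1)) ≠ 1 := fun h => by
    have h1 : ρ (x (Pi.single 1 1)) = 1 := Units.ext (Matrix.map_injective (algebraMap K k).injective
      ((toLinAlgEquiv' (R := k) (n := Fin d)).injective (h.trans (by simp))))
    obtain ⟨r, -, hr⟩ := Matrix.SpecialLinearGroup.mem_center_iff.1 (hker h1)
    simpa [x, tvSL_coe, e, vecMulVec_apply] using congrFun (congrFun hr 0) 1
  have hp : ((ringChar F : ℕ) : k) ≠ 0 := fun h => by
    have h1 : (ringChar F).Prime := CharP.char_is_prime F _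
    rw [← map_natCast (algebraMap K k), map_eq_zero, ringChar.spec] at h
    rcases h1.eq_one_or_self_of_dvd _ h with h2 | h2
    · exact CharP.ringChar_ne_one h2
    · exact hK h2
  obtain ⟨χ, hχ, v, hv, hv0⟩ := exists_wt_ne_one (f := fun φ => σ (x φ))
    (fun φ φ' => by rw [← map_mul, ← map_mul, hx, hx, add_comm φ]) hc hp (by
      rw [← map_pow, hxp, ringChar.Nat.cast_ringChar, zero_smul, ← Pi.single_zero 0, hx0, map_one])
  have hχ1 : ∀ t : F, χ (Pi.single 0 t) = 1 := fun t => by
    have := wt_mul σ hv hv0 (i := Pi.single 0 t) (j := 0) (l := 0) (by rw [hx0, one_mul])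
    exact mul_left_eq_self₀.1 this |>.resolve_right (wt_ne_zero σ hv hv0 0)
  let χ' : AddChar (Fin (m + 2) → F) k :=
    ⟨χ, by simpa using hχ1 0, fun φ φ' => (wt_mul σ hv hv0 (hx φ φ')).symm⟩
  let ψ : Fin (m + 2) → AddChar F k := fun j => χ'.compAddMonoidHom (AddMonoidHom.single (fun _ => F) j)
  have hψ : ψ 1 ≠ 1 := fun h => hχ (DFunLike.congr_fun h 1)
  have hinj := AddChar.to_mulShift_inj_of_isPrimitive (AddChar.IsPrimitive.of_ne_one hψ)
  choose a ha using fun j => exists_eq_mulShift hψ (ψ j)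
  have ha0 : a 0 = 0 := hinj (by rw [ha, AddChar.mulShift_zero]; ext t; exact hχ1 t)
  have hχa : ∀ φ, χ φ = ψ 1 (a ⬝ᵥ φ) := fun φ => by
    change χ'.toMonoidHom (Multiplicative.ofAdd φ) =
      (ψ 1).toMonoidHom (Multiplicative.ofAdd (∑ j, a j * φ j))
    conv_lhs => rw [← Finset.univ_sum_single φ]
    rw [ofAdd_sum, ofAdd_sum, map_prod, map_prod]
    exact Finset.prod_congr rfl fun j _ => (DFunLike.congr_fun (ha j) (φ j)).symm
  have hli : ∀ b : Fin (m + 2) → F, b 0 = 0 → b ≠ 0 → LinearIndependent F ![e, b] :=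
    fun b h0 hb => LinearIndependent.pair_iff.2 fun s t h => by
      have h1 : s = 0 := by simpa [e, h0] using congrFun h 0
      rw [h1, zero_smul, zero_add] at h
      exact ⟨h1, (smul_eq_zero.1 h).resolve_right hb⟩
  have := card_le_finrank (fun φ => σ (x φ)) (J := {b : Fin (m + 1) → F // b ≠ 0})
    (χ := fun b φ => ψ 1 (Fin.cons 0 b.1 ⬝ᵥ φ)) (fun b b' h => Subtype.ext (funext fun j =>
      hinj (AddChar.ext _ _ fun t => by simpa using congrFun h (Pi.single j.succ t)))) fun b => by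
    obtain ⟨g, hg⟩ := exists_SL_of_linearIndependent (by simp; omega)
      (hli a ha0 fun h => hχ (by rw [hχa, h, zero_dotProduct, AddChar.map_zero_eq_one]))
      (hli (Fin.cons 0 b.1) rfl fun h => b.2 (funext fun j => congrFun h j.succ))
    have g0 : g.1 *ᵥ e = e := hg 0
    have g1 : g.1 *ᵥ a = Fin.cons 0 b.1 := hg 1
    refine ⟨σ g v, ?_, fun h => hv0 (apply_injective σ g (h.trans (map_zero _).symm))⟩
    convert apply_mem_wt σ hv (g := g) (s := fun φ => (φ - φ 0 • e) ᵥ* g.1) fun φ => Subtype.ext ?_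
      using 3 with φ
    · rw [hχa, dotProduct_comm a, ← dotProduct_mulVec, g1, dotProduct_comm]
      simp [e]
    · have : ((φ - φ 0 • e) ᵥ* g.1) 0 = 0 := by
        rw [← hd φ, ← g0, dotProduct_mulVec, g0]; simp [e]
      simp only [x, Matrix.SpecialLinearGroup.coe_mul, tvSL_coe, mul_add, add_mul, mul_one, one_mul,
        this, zero_smul, sub_zero, mul_vecMulVec, vecMulVec_mul, g0]
  simpa [hq] using this

end Cfsg.Agent.S2392
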