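import Cfsg.Statements.S2393
import Cfsg.Agent.Lib.CharDeg.Weil
import Cfsg.Agent.Lib.Sz.Weights

set_option autoImplicit false
open scoped MatrixGroups
open Cfsg

namespace Cfsg.Agent.S2393

open Module Lib.Symp Lib.Sz in
theorem lower {F K : Type*} [Field F] [Field K] [Finite K] [Algebra F K] (h2 : (2 : K) ≠ 0)
    {G : Type*} [Group G] {B : LinearMap.BilinForm F (K × K)}
    (hB : ∀ u v, B u v = Algebra.trace F K (u.1 * v.2 - u.2 * v.1)) (e : isom B ≃* G)
    (hc : ∀ g ∈ Subgroup.center (isom B), g = 1 ∨ g = negOne B)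
    {k : Type*} [Field k] [IsAlgClosed k] {p : ℕ} (hp : (p : k) ≠ 0) (hpK : (p : K) = 0)
    {V : Type*} [AddCommGroup V] [Module k V] [FiniteDimensional k V]
    (ρ : Representation k G V) (hρ : ρ.ker ≤ Subgroup.center G) :
    (Nat.card K - 1) / 2 ≤ finrank k V := by
  classical
  let x : K → isom B := fun s => ⟨
    { toFun := fun u => (u.1 + s * u.2, u.2)
      invFun := fun u => (u.1 - s * u.2, u.2)
      map_add' := fun u v => by ext <;> simp; ring
      map_smul' := fun c u => by ext <;> simp
      left_inv := fun u => by simp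
      right_inv := fun u => by simp }, fun u v => by
        rw [hB, hB]; congr 1; simp; ring⟩
  let h : Kˣ → isom B := fun μ => ⟨
    { toFun := fun u => (μ * u.1, μ⁻¹ * u.2)
      invFun := fun u => (μ⁻¹ * u.1, μ * u.2)
      map_add' := fun u v => by ext <;> simp [mul_add]
      map_smul' := fun c u => by ext <;> simp
      left_inv := fun u => by simp
      right_inv := fun u => by simp }, fun u v => by
        rw [hB, hB]; congr 1; simp; field_simp⟩
  have hx : ∀ s t, x s * x t = x (s + t) := fun s t => Subtype.ext (LinearEquiv.ext fun u => by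
    change (u.1 + t * u.2 + s * u.2, u.2) = (u.1 + (s + t) * u.2, u.2)
    congr 1; ring)
  have hh : ∀ μ s, x s * h μ⁻¹ = h μ⁻¹ * x (μ ^ 2 * s) := fun μ s =>
    Subtype.ext (LinearEquiv.ext fun u => by
      change (((μ⁻¹ : Kˣ) : K) * u.1 + s * (((μ⁻¹⁻¹ : Kˣ) : K) * u.2), ((μ⁻¹⁻¹ : Kˣ) : K) * u.2) =
        (((μ⁻¹ : Kˣ) : K) * (u.1 + μ ^ 2 * s * u.2), ((μ⁻¹⁻¹ : Kˣ) : K) * u.2)
      congr 1; simp; field_simp)
  let σ : isom B →* End k V := ρ.comp e.toMonoidHom
  have hf : ∀ i j, σ (x i) * σ (x j) = σ (x j) * σ (x i) := fun i j => by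
    rw [← map_mul, ← map_mul, hx, hx, add_comm]
  have hx1 : σ (x 1) ≠ 1 := fun h1 => by
    rcases hc _ ((mem_center_mulEquiv_iff e _).1 (hρ h1)) with h3 | h3
    · have := congrArg (fun g : isom B => (g.1 (0, 1)).1) h3
      change (0 : K) + 1 * 1 = 0 at this
      simp at this
    · have := congrArg (fun g : isom B => (g.1 (0, 1)).2) h3
      change (1 : K) = -1 at this
      exact h2 (by linear_combination this)
  have hx0 : x 0 = 1 := by simpa using hx 0 0
  have hxp : ∀ l : ℕ, x 1 ^ l = x l := fun l => by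
    induction l with
    | zero => simp [hx0]
    | succ l ih => rw [pow_succ, ih, hx, Nat.cast_succ]
  obtain ⟨χ, h3, v, hv, h0⟩ := exists_wt_ne_one hf hx1 hp (by rw [← map_pow, hxp, hpK, hx0, map_one])
  have hχ : ∀ i j, χ i * χ j = χ (i + j) := fun i j => wt_mul σ hv h0 (hx i j)
  have h4 := card_le_finrank (fun i => σ (x i)) (J := (powMonoidHom 2 : Kˣ →* Kˣ).range)
    (χ := fun μ i => χ (μ.1 * i))
    (fun μ ν e => Subtype.ext (Units.ext
      (eq_of_forall_char hχ (wt_ne_zero σ hv h0) h3 (congrFun e))))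
    (by
      rintro ⟨_, μ, rfl⟩
      refine ⟨σ (h μ⁻¹) v, ?_, fun e => h0 (apply_injective σ _ (e.trans (map_zero _).symm))⟩
      simpa using apply_mem_wt σ hv (hh μ))
  rw [IsCyclic.card_powMonoidHom_range, Nat.card_units] at h4
  exact (Nat.div_le_div_left (Nat.gcd_le_right _ two_pos) (Nat.gcd_pos_of_pos_right _ two_pos)).trans h4

/-- A lower bound for representations in cross characteristic: for `n ≥ 2` and a field `F` with `q` elements, `q` odd, every homomorphism from the symplectic group `Sp_{2n}(F)` to `GL_d(K)`, `K` a field of characteristic different from that of `F`, whose kernel is central has `d ≥ q^(n-1)(q-1)/2`. -/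
theorem result {F : Type*} [Field F] [Fintype F] {q : ℕ} (hq : Fintype.card F = q) (hodd : Odd q) (n : ℕ) (hn : 2 ≤ n)
    {K : Type*} [Field K] (hK : ringChar K ≠ ringChar F) {d : ℕ}
    (ρ : ↥(Matrix.symplecticGroup (Fin n) F) →* GL (Fin d) K) (hker : ρ.ker ≤ Subgroup.center ↥(Matrix.symplecticGroup (Fin n) F)) :
    q ^ (n - 1) * (q - 1) / 2 ≤ d := by
  subst hq
  have h2 : (2 : F) ≠ 0 := Lib.Symp.two_ne_zero_iff_odd_card.2 hodd
  let k := AlgebraicClosure K
  let σ : Matrix.symplecticGroup (Fin n) F →* Module.End k (Fin d → k) :=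
    (Matrix.toLinAlgEquiv' (R := k) (n := Fin d)).toMonoidHom.comp
      ((algebraMap K k).mapMatrix.toMonoidHom.comp ((Units.coeHom _).comp ρ))
  have hp : ((ringChar F : ℕ) : k) ≠ 0 := fun h => by
    have h1 : (ringChar F).Prime := CharP.char_is_prime F _
    rw [← map_natCast (algebraMap K k), map_eq_zero, ringChar.spec] at h
    rcases h1.eq_one_or_self_of_dvd _ h with h2 | h2
    · exact CharP.ringChar_ne_one h2
    · exact hK h2
  let p := ringChar F
  have : Fact p.Prime := ⟨CharP.char_is_prime F p⟩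
  have : NeZero n := ⟨by omega⟩
  let L := FiniteField.Extension F p n
  have hL : Module.finrank F L = n := FiniteField.finrank_extension F p n
  let B : LinearMap.BilinForm F (L × L) := LinearMap.mk₂ F
    (fun u v => Algebra.trace F L (u.1 * v.2 - u.2 * v.1))
    (fun a b c => by rw [← map_add]; congr 1; simp; ring)
    (fun a b c => by rw [← map_smul]; congr 1; simp [smul_sub])
    (fun a b c => by rw [← map_add]; congr 1; simp; ring)
    (fun a b c => by rw [← map_smul]; congr 1; simp [smul_sub])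
  have hB : ∀ u v, B u v = Algebra.trace F L (u.1 * v.2 - u.2 * v.1) := fun _ _ => rfl
  have hA : B.IsAlt := fun u => by rw [hB, mul_comm, sub_self, map_zero]
  have hN : B.Nondegenerate := hA.isRefl.nondegenerate_iff_separatingLeft.2 fun u hu => by
    refine Prod.ext ((traceForm_nondegenerate F L).1 _ fun y => ?_)
      ((traceForm_nondegenerate F L).1 _ fun y => ?_)
    · simpa [hB] using hu (0, y)
    · simpa [hB] using hu (y, 0)
  obtain ⟨e⟩ := Lib.Symp.nonempty_isom_equiv (l := Fin n) hA hN (by simp [hL, two_mul])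
  have h3 := lower (K := L) (by
    rw [← map_ofNat (algebraMap F L)]; exact (map_ne_zero _).2 h2) hB e
    (fun g hg => (Lib.Symp.mem_center_iff hA hN g).1 hg) hp
    (by rw [← map_natCast (algebraMap F L), ringChar.Nat.cast_ringChar, map_zero]) σ
    fun g h => hker (Units.ext (Matrix.map_injective (algebraMap K k).injective
      ((Matrix.toLinAlgEquiv' (R := k) (n := Fin d)).injective (h.trans (by simp)))))
  rw [FiniteField.natCard_extension, Nat.card_eq_fintype_card, Module.finrank_fin_fun] at h3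
  refine (Nat.div_le_div_right ?_).trans h3
  obtain ⟨m, rfl⟩ : ∃ m, n = m + 1 := ⟨n - 1, by omega⟩
  rw [Nat.add_sub_cancel, Nat.mul_sub_one, ← pow_succ]
  exact Nat.sub_le_sub_left (Nat.one_le_pow _ _ Fintype.card_pos) _

end Cfsg.Agent.S2393
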