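import Cfsg.Statements.S2394
import Cfsg.Agent.Lib.GLC.Ord2
import Cfsg.Agent.Lib.GLC.Zsig
import Cfsg.Agent.Lib.Symp.Group

set_option autoImplicit false
open scoped MatrixGroups
open Cfsg

namespace Cfsg.Agent.S2394

open Cfsg.Lib

/-- The smallest degree of a faithful representation of the symplectic group `Sp_{2n}(q)` over its own field `F_q` is `2n`: every injective homomorphism from `Sp_{2n}(F)` to `GL_d(F)`, `F` the field with `q` elements, has `d ≥ 2n`. -/
theorem result {F : Type*} [Field F] [Fintype F] (n : ℕ) {d : ℕ}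
    (ρ : ↥(Matrix.symplecticGroup (Fin n) F) →* GL (Fin d) F) (hρ : Function.Injective ρ) : 2 * n ≤ d := by
  have hdvd := Subgroup.card_dvd_of_injective ρ hρ
  have hq : 1 < Fintype.card F := Fintype.one_lt_card
  rw [Symp.card_sp, Fintype.card_fin] at hdvd
  by_contra hlt
  push Not at hlt
  by_cases h1 : n ≤ 1
  · have hn : n = 1 := by omega
    subst hn
    rw [Matrix.card_GL_field, Nat.card_eq_fintype_card] at hdvd
    have hle : ∏ i : Fin d, (Fintype.card F ^ d - Fintype.card F ^ (i : ℕ)) ≤ Fintype.card F - 1 ∧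
        0 < ∏ i : Fin d, (Fintype.card F ^ d - Fintype.card F ^ (i : ℕ)) := by
      interval_cases d <;> simp <;> omega
    have := (Nat.le_of_dvd hle.2 hdvd).trans hle.1
    simp at this
    have h2 : 1 ≤ Fintype.card F ^ 2 - 1 := by
      have : 2 ^ 2 ≤ Fintype.card F ^ 2 := Nat.pow_le_pow_left hq 2
      omega
    have := Nat.mul_le_mul_left (Fintype.card F) h2
    omega
  by_cases h6 : Fintype.card F = 2 ∧ 2 * n = 6
  · have hn : n = 3 := by omega
    subst hn
    rw [Matrix.card_GL_field, Nat.card_eq_fintype_card, h6.1] at hdvd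
    interval_cases d <;> revert hdvd <;> decide
  obtain ⟨r, hr, hor⟩ := GLC.zsigmondy (a := Fintype.card F) (n := 2 * n) hq (by omega) h6
    (fun h => by omega)
  have hnd : ¬ r ∣ Nat.card F := by
    intro h
    haveI := Fact.mk hr
    rw [Nat.card_eq_fintype_card, ← ZMod.natCast_eq_zero_iff] at h
    rw [h, orderOf_zero] at hor
    omega
  have h2 : r ∣ Nat.card F ^ (2 * n) - 1 := by
    rw [GLC.dvd_pow_sub_one_iff Nat.card_pos, Nat.card_eq_fintype_card, hor]
  have h3 : r ∣ Nat.card (GL (Fin d) F) := by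
    refine (h2.trans (Dvd.dvd.mul_left ?_ _)).trans hdvd
    have := Finset.dvd_prod_of_mem (fun i => Nat.card F ^ (2 * (i + 1)) - 1)
      (Finset.mem_range.2 (show n - 1 < n by omega))
    rwa [show n - 1 + 1 = n by omega] at this
  have := GLC.orderOf_le_of_dvd_card_GL hr hnd h3
  rw [Nat.card_eq_fintype_card, hor, Fintype.card_fin] at this
  omega

end Cfsg.Agent.S2394
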