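import Cfsg.Statements.S2399
import Cfsg.Agent.Lib.Chev.Mult

set_option autoImplicit false
open scoped MatrixGroups
open Cfsg

namespace Cfsg.Agent.S2399

open Cfsg.Lib.Chev Cfsg.Lib.Schur

/-- Projective representations in the natural characteristic lift: for each of the types G₂, B₂, D₄, F₄, E₆, E₇, E₈ over any field `K` (for types B₂ and G₂ the field must have more than two elements — the cases where the Chevalley group is not simple are set aside), every homomorphism from the Chevalley group to `PGL_n(L) = GL_n(L)/Z`, `L` a field of the same characteristic as `K`, lifts uniquely to a homomorphism from the group Δ presented by (R1), (R2) to `GL_n(L)`, compatibly with the projection Δ → Chevalley group sending x̄_r(t) to x_r(t). -/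
theorem result {K : Type*} [Field K] (D : Cfsg.Lie.ChevalleyDatum) (hD : D ∈ [Cfsg.Lie.chevG2, Cfsg.Lie.chevB2, Cfsg.Lie.chevD4, Cfsg.Lie.chevF4, Cfsg.Lie.chevE6, Cfsg.Lie.chevE7, Cfsg.Lie.chevE8]) (hK : D ∈ [Cfsg.Lie.chevB2, Cfsg.Lie.chevG2] → ∃ x : K, x ≠ 0 ∧ x ≠ 1)
    (θ : D.SteinbergCover K →* ↥(D.group K))
    (hθ : ∀ (r : ℕ) (t : K), r < D.nroots → ((θ (D.scGen K r t) : GL D.Idx K) : Matrix D.Idx D.Idx K) = D.x K r t)
    {L : Type*} [Field L] (hL : ringChar L = ringChar K) {n : ℕ}
    (φ : ↥(D.group K) →* GL (Fin n) L ⧸ Subgroup.center (GL (Fin n) L)) :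
    ∃! ψ : D.SteinbergCover K →* GL (Fin n) L, (QuotientGroup.mk' (Subgroup.center (GL (Fin n) L))).comp ψ = φ.comp θ := by
  obtain ⟨c, h⟩ := exists_checked hD
  have hπ : CExt (QuotientGroup.mk' (Subgroup.center (GL (Fin n) L))) :=
    ⟨QuotientGroup.mk'_surjective _, (QuotientGroup.ker_mk' _).le⟩
  by_cases h5 : ∃ s : Finset K, 4 < s.card
  · exact h.exists_cover_unique hD h5 hπ _
  have : Finite K := by
    by_contra hc
    have := not_finite_iff_infinite.1 hc
    obtain ⟨s, hs⟩ := Infinite.exists_subset_card_eq K 5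
    exact h5 ⟨s, by omega⟩
  have h2 : D = Lie.chevG2 ∨ D = Lie.chevB2 → ∃ a : K, a ≠ 0 ∧ a ≠ 1 := fun e => hK (by
    simpa [or_comm] using e)
  refine existsUnique_of_exists_of_unique ?_ fun a b ha hb =>
    CExt.eq_of_perfect (h.commutator_cover hD h2) hπ.cent (ha.trans hb.symm)
  obtain rfl := h.eq_scProj hD hθ
  obtain ⟨p, hp⟩ := CharP.exists K
  have : Fact p.Prime := ⟨CharP.char_is_prime K p⟩
  have : CharP L p := ringChar.eq K p ▸ hL ▸ ringChar.charP L
  have h1 := hπ.pullback φ
  set ξ := (MonoidHom.fst (D.group K) (GL (Fin n) L)).comp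
    ((φ.comp (MonoidHom.fst (D.group K) (GL (Fin n) L))).eqLocus
      ((QuotientGroup.mk' (Subgroup.center (GL (Fin n) L))).comp
        (MonoidHom.snd (D.group K) (GL (Fin n) L)))).subtype
  have := finite_commutator_of_central h1.cent
  have h3 : CExt (ξ.comp (commutator _).subtype) := ⟨fun g => by
      obtain ⟨a, ha, e⟩ := ((map_commutator_of_central h1.surj (ξ := MonoidHom.id _) (by simp)
        (η := ξ) rfl).trans (commutator_group_eq_top hD h2)).ge (Subgroup.mem_top g)
      exact ⟨⟨a, ha⟩, e⟩,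
    fun z hz => Subgroup.mem_center_iff.2 fun a => Subtype.ext (h1.comm hz a)⟩
  obtain ⟨τ, hτ⟩ := h.exists_cover_hom hD (π := ξ.comp (commutator _).subtype) (σ := h.scProj K) (by
    simp only [h.isHom_scProj K hD _ _]
    refine (h.gsys_faithful K).lifts_coprime h3 (h.gsys_strongComm K) (p := p)
      ((Nat.Prime.coprime_iff_not_dvd Fact.out).2 fun hd => ?_).symm
    obtain ⟨⟨⟨⟨⟨g, z⟩, h4⟩, h5⟩, rfl : g = 1⟩, hz⟩ := exists_prime_orderOf_dvd_card' p hd
    have h6 : z ∈ Subgroup.center (GL (Fin n) L) :=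
      (QuotientGroup.eq_one_iff z).1 (h4.symm.trans (map_one φ))
    rw [Matrix.GeneralLinearGroup.center_eq_range_scalar] at h6
    obtain ⟨a, rfl⟩ := h6
    have h7 : Matrix.GeneralLinearGroup.scalar (Fin n) a ^ p = 1 :=
      congrArg (fun x => x.1.1.1.2) (hz ▸ pow_orderOf_eq_one _)
    have h8 : Matrix.GeneralLinearGroup.scalar (Fin n) a = 1 := by
      ext i j
      have h9 : (a : L) ^ p = 1 := by simpa [← map_pow] using congrArg (fun x => x.1 i i) h7
      have h10 : (a : L) = 1 := sub_eq_zero.1 (pow_eq_zero_iff (Fact.out : p.Prime).ne_zero |>.1 (by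
        rw [sub_pow_char, h9, one_pow, sub_self]))
      rw [show a = 1 from Units.ext h10, map_one]
    exact (Fact.out : p.Prime).ne_one (hz.symm.trans (orderOf_eq_one_iff.2
      (Subtype.ext (Subtype.ext (Subtype.ext (Prod.ext rfl h8)))))))
  exact ⟨(((MonoidHom.snd _ _).comp (Subgroup.subtype _)).comp (Subgroup.subtype _)).comp τ,
    MonoidHom.ext fun g => (τ g).1.2.symm.trans (congrArg φ (DFunLike.congr_fun hτ g))⟩

end Cfsg.Agent.S2399
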