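import Cfsg.Statements.S2401
import Cfsg.Agent.Lib.Chev.MinGrp

set_option autoImplicit false
open Cfsg

namespace Cfsg.Agent.S2401

open Cfsg.Lib.Chev
open scoped commutatorElement

/-- The Steinberg presentation of `SL_n` over a finite field for `n ≥ 3`: the group generated by symbols `x_ij(t)` (`i ≠ j`, `t` in the field) subject to `x_ij(t) x_ij(u) = x_ij(t + u)` and, for `i ≠ l`, `x_ij(t) x_kl(u) x_ij(t)⁻¹ x_kl(u)⁻¹ = x_il(tu)` if `j = k` and `= 1` if `j ≠ k`, is isomorphic to `SL_n` by an isomorphism sending `x_ij(t)` to the elementary matrix `1 + t E_ij`. -/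
theorem result {K : Type*} [Field K] [Finite K] (n : ℕ) (hn : 3 ≤ n) :
    ∃ e : PresentedGroup
        ({g : FreeGroup ({ij : Fin n × Fin n // ij.1 ≠ ij.2} × K) | ∃ (a : {ij : Fin n × Fin n // ij.1 ≠ ij.2}) (t u : K),
            g = FreeGroup.of (a, t) * FreeGroup.of (a, u) * (FreeGroup.of (a, t + u))⁻¹} ∪
          {g | ∃ (a b : {ij : Fin n × Fin n // ij.1 ≠ ij.2}) (t u : K), a.1.1 ≠ b.1.2 ∧ a.1.2 ≠ b.1.1 ∧
            g = FreeGroup.of (a, t) * FreeGroup.of (b, u) * (FreeGroup.of (a, t))⁻¹ * (FreeGroup.of (b, u))⁻¹} ∪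
          {g | ∃ (a b : {ij : Fin n × Fin n // ij.1 ≠ ij.2}) (h : a.1.1 ≠ b.1.2) (t u : K), a.1.2 = b.1.1 ∧
            g = FreeGroup.of (a, t) * FreeGroup.of (b, u) * (FreeGroup.of (a, t))⁻¹ * (FreeGroup.of (b, u))⁻¹ *
              (FreeGroup.of (⟨(a.1.1, b.1.2), h⟩, t * u))⁻¹}) ≃* Matrix.SpecialLinearGroup (Fin n) K,
      ∀ (a : {ij : Fin n × Fin n // ij.1 ≠ ij.2}) (t : K), ((e (PresentedGroup.of (a, t)) : Matrix (Fin n) (Fin n) K)) = Matrix.transvection a.1.1 a.1.2 t := by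
  obtain ⟨n, rfl⟩ : ∃ m, n = m + 1 := ⟨n - 1, by omega⟩
  generalize hr : (_ ∪ _ : Set (FreeGroup _)) = rels
  have h0 : ∀ g ∈ rels, PresentedGroup.mk rels g = 1 := fun g hg => PresentedGroup.one_of_mem hg
  have h1 : ∀ g ∈ rels, FreeGroup.lift (fun p => (realSL K n).y p.1 p.2) g = 1 := by
    subst hr
    rintro _ ((⟨a, t, u, rfl⟩ | ⟨a, b, t, u, h1, h2, rfl⟩) | ⟨a, b, h1, t, u, h2, rfl⟩) <;>
      simp only [map_mul, map_inv, FreeGroup.lift_apply_of, realSL]
    · rw [Matrix.SpecialLinearGroup.transvection_add, mul_inv_cancel]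
    · exact commutatorElement_eq_one_iff_commute.2
        (Cfsg.Lib.Linear.commute_transvection _ _ h2 h1 _ _)
    · obtain ⟨⟨b, c⟩, hb⟩ := b
      obtain rfl : a.1.2 = b := h2
      exact mul_inv_eq_one.2 (Cfsg.Lib.Linear.commutator_transvection _ _ h1 _ _)
  have hadd : ∀ r (t u : K), (PresentedGroup.of (r, t + u) : PresentedGroup rels) =
      PresentedGroup.of (r, t) * PresentedGroup.of (r, u) := fun r t u =>
    (mul_inv_eq_one.1 (h0 _ (hr.le (.inl (.inl ⟨r, t, u, rfl⟩))) :)).symm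
  obtain ⟨φ, hφ⟩ := (realSL K n).exists_hom (full_repA n) (noA1_of_conn (conn_A n) (by omega))
    (repA n).isTab_tab (y := fun r t => (PresentedGroup.of (r, t) : PresentedGroup rels))
    (strongComm_A K hadd (fun r s t u h1 h2 => commutatorElement_eq_one_iff_mul_comm.1
      (h0 _ (hr.le (.inl (.inr ⟨r, s, t, u, h1, h2, rfl⟩))) :)) fun r s h1 t u h2 => by
        rw [← mul_inv_eq_one.1 (show ⁅(PresentedGroup.of (r, t) : PresentedGroup rels),
          PresentedGroup.of (s, u)⁆ * (PresentedGroup.of (⟨(r.1.1, s.1.2), h1⟩, t * u))⁻¹ = 1 from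
          h0 _ (hr.le (.inr ⟨r, s, h1, t, u, h2, rfl⟩)))]
        simp [commutatorElement_def]) hadd
  exact ⟨MonoidHom.toMulEquiv (PresentedGroup.toGroup h1) φ
    (PresentedGroup.ext fun p => by simp [hφ])
    (PreSys.hom_ext (realSL K n).grp_eq fun r t => by simp [MinRep.Real.sys_x, hφ]),
    fun a t => by simp [realSL]; rfl⟩

end Cfsg.Agent.S2401
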