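import Cfsg.Statements.S2402
import Cfsg.Agent.Lib.GLC.Gen2

set_option autoImplicit false
open Cfsg

namespace Cfsg.Agent.S2402

open Matrix Matrix.SpecialLinearGroup Cfsg.Lib.GLC.Gen2

/-- Explicit two-element generation of `PSL_{n+1}(K)` for a finite field `K` with more than three elements: let `k` generate the multiplicative group of `K`, `h = diag(k, k⁻¹, 1, …, 1)`, `x = 1 + E₁₂` (the elementary transvection) and `w` the monomial matrix with entries `1` in positions `(i, i+1)` and `(−1)^n` in position `(n+1, 1)`. Then `h` and `x·w` generate `SL_{n+1}(K)` modulo its centre: the subgroup they generate together with the centre is everything. -/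
theorem result {K : Type*} [Field K] [Fintype K] (hK : 3 < Fintype.card K) (n : ℕ) (hn : 1 ≤ n)
    (k : Kˣ) (hk : ∀ u : Kˣ, u ∈ Subgroup.zpowers k)
    (h x w : Matrix.SpecialLinearGroup (Fin (n + 1)) K)
    (hh : (h : Matrix (Fin (n + 1)) (Fin (n + 1)) K) =
      Matrix.diagonal (fun i => if i.val = 0 then (k : K) else if i.val = 1 then ((k⁻¹ : Kˣ) : K) else 1))
    (hx : (x : Matrix (Fin (n + 1)) (Fin (n + 1)) K) = Matrix.transvection (0 : Fin (n + 1)) (1 : Fin (n + 1)) 1)
    (hw : (w : Matrix (Fin (n + 1)) (Fin (n + 1)) K) =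
      Matrix.of (fun i j => if j.val = i.val + 1 then 1 else if i.val = n ∧ j.val = 0 then (-1) ^ n else 0)) :
    Subgroup.closure ({h, x * w} : Set (Matrix.SpecialLinearGroup (Fin (n + 1)) K)) ⊔
      Subgroup.center (Matrix.SpecialLinearGroup (Fin (n + 1)) K) = ⊤ := by
  classical
  have hw' := w_eq _ hw
  set ε : Fin (n + 1) → K := fun i => if i.val = n then (-1 : K) ^ n else 1 with hε
  set d : Fin (n + 1) → K :=
    fun i => if i.val = 0 then (k : K) else if i.val = 1 then ((k⁻¹ : Kˣ) : K) else 1 with hd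
  set H := Subgroup.closure ({h, x * w} : Set (Matrix.SpecialLinearGroup (Fin (n + 1)) K)) with hH
  have h01 : (0 : Fin (n + 1)) ≠ 1 := by simpa using fin_ne_add_one hn 0
  have hx' : x = transvection h01 (1 : K) := Subtype.ext hx
  have hhH : h ∈ H := Subgroup.subset_closure (by simp)
  have hyH : x * w ∈ H := Subgroup.subset_closure (by simp)
  have hv1 : (1 : Fin (n + 1)).val = 1 := by rw [Fin.val_one', Nat.mod_eq_of_lt (by omega)]
  have hd0 : d 0 = k := by simp [hd]
  have hd1 : d 1 = (k : K)⁻¹ := by simp only [hd, hv1]; simp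
  have hk0 : (k : K) ≠ 0 := k.ne_zero
  have hpow : ∀ u : K, u ≠ 0 → ∃ m : ℕ, u = (k : K) ^ m := by
    intro u hu
    obtain ⟨m, hm⟩ := (mem_powers_iff_mem_zpowers.2 (hk (Units.mk0 u hu)))
    exact ⟨m, by simpa using (congrArg Units.val hm).symm⟩
  have hk2 : (k : K) ^ 2 ≠ 1 := by
    intro e
    obtain ⟨a, ha0, ha⟩ := Cfsg.Lib.Linear.exists_ne_zero_sq_ne_one (F := K)
      (by rw [Nat.card_eq_fintype_card]; omega)
    obtain ⟨m, rfl⟩ := hpow a ha0
    exact ha (by rw [← pow_mul, mul_comm, pow_mul, e, one_pow])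
  have hdne : ∀ i, d i ≠ 0 := by
    intro i; simp only [hd]; split_ifs <;> simp
  -- the conjugate torus element
  have hh' : (w * h * w⁻¹).1 = diagonal (fun i => d (i + 1)) := by
    have e : (w * h * w⁻¹).1 * w.1 = diagonal (fun i => d (i + 1)) * w.1 := by
      have : (w * h * w⁻¹) * w = w * h := by group
      have e2 := congrArg Subtype.val this
      refine Eq.trans e2 ?_
      show w.1 * h.1 = _
      rw [hh, hw', mono_mul_diagonal]
    have hu : IsUnit w.1 := (Matrix.isUnit_iff_isUnit_det _).2 (by rw [w.2]; exact isUnit_one)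
    exact hu.mul_right_cancel e
  set h' := w * h * w⁻¹ with hh'def
  have hcomm : h * h' = h' * h := by
    apply Subtype.ext
    show h.1 * h'.1 = h'.1 * h.1
    rw [hh, hh', diagonal_mul_diagonal, diagonal_mul_diagonal]
    congr 1; ext i; exact mul_comm _ _
  set α := d (0 + 1) * (-1) * (d (1 + 1))⁻¹ with hα
  have hα1 : 1 + α ≠ 0 := by
    intro e
    have e2 : d (1 + 1) = (k : K)⁻¹ := by
      rw [hα, zero_add, hd1] at e
      have := hdne (1 + 1)
      field_simp at e ⊢
      linear_combination e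
    have hne : (1 + 1 : Fin (n + 1)).val ≠ 1 := fun hh =>
      fin_ne_add_one hn 1 (Fin.ext (by rw [hh, hv1]))
    simp only [hd, if_neg hne] at e2
    split_ifs at e2
    · exact hk2 (by rw [sq]; nth_rewrite 1 [e2]; exact inv_mul_cancel₀ hk0)
    · exact hk2 (by rw [← inv_inv (k : K), ← e2]; simp)
  have hz : transvection h01 (1 + α) * h' ∈ H := by
    have e1 := diag_conj h' _ hh' h01 (hdne _) (-1)
    have : transvection h01 (1 + α) * h' = (x * w) * h * (x * w)⁻¹ := by
      rw [transvection_add, hα, ← e1, ← transvection_inv, ← hx', hh'def]; group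
    rw [this]
    exact H.mul_mem (H.mul_mem hyH hhH) (H.inv_mem hyH)
  have hcj : ∀ c : K, h * transvection h01 c * h⁻¹ = transvection h01 ((k : K) ^ 2 * c) := by
    intro c
    rw [diag_conj h d hh h01 (hdne _), hd0, hd1, inv_inv]
    congr 1; ring
  set c0 := ((k : K) ^ 2 - 1) * (1 + α) with hc0
  have hc0ne : c0 ≠ 0 := mul_ne_zero (sub_ne_zero.2 hk2) hα1
  have hc0H : transvection h01 c0 ∈ H := by
    have : transvection h01 c0 = h * (transvection h01 (1 + α) * h') * h⁻¹ *
        (transvection h01 (1 + α) * h')⁻¹ := by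
      have e : c0 = (k : K) ^ 2 * (1 + α) + -(1 + α) := by rw [hc0]; ring
      rw [e, transvection_add, ← hcj, ← transvection_inv]
      have e3 : h' * h⁻¹ = h⁻¹ * h' := by
        rw [mul_inv_eq_iff_eq_mul, mul_assoc, ← hcomm]; group
      calc _ = h * transvection h01 (1 + α) * (h⁻¹ * h') * h'⁻¹ * (transvection h01 (1 + α))⁻¹ := by
            group
        _ = _ := by rw [← e3]; group
    rw [this]
    exact H.mul_mem (H.mul_mem (H.mul_mem hhH hz) (H.inv_mem hhH)) (H.inv_mem hz)
  have hsq : ∀ u : K, transvection h01 (u ^ 2 * c0) ∈ H := by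
    intro u
    by_cases hu : u = 0
    · rw [hu]; simp [H.one_mem]
    obtain ⟨m, rfl⟩ := hpow u hu
    clear hu
    induction m with
    | zero => simpa using hc0H
    | succ m ih =>
      have : ((k : K) ^ (m + 1)) ^ 2 * c0 = (k : K) ^ 2 * (((k : K) ^ m) ^ 2 * c0) := by ring
      rw [this, ← hcj]
      exact H.mul_mem (H.mul_mem hhH ih) (H.inv_mem hhH)
  have hall : ∀ c : K, transvection h01 c ∈ H := by
    intro c
    by_cases h2 : ringChar K = 2
    · obtain ⟨u, hu⟩ := FiniteField.isSquare_of_char_two h2 (c * c0⁻¹)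
      have : c = u ^ 2 * c0 := by rw [sq, ← hu]; field_simp
      rw [this]; exact hsq u
    · have h2' : (2 : K) ≠ 0 := Ring.two_ne_zero h2
      have : c = ((c * c0⁻¹ + 1) / 2) ^ 2 * c0 + -(((c * c0⁻¹ - 1) / 2) ^ 2 * c0) := by
        field_simp; ring
      rw [this, transvection_add, ← transvection_inv]
      exact H.mul_mem (hsq _) (H.inv_mem (hsq _))
  have hwH : w ∈ H := by
    have : w = x⁻¹ * (x * w) := by group
    rw [this]
    exact H.mul_mem (H.inv_mem (hx' ▸ hall 1)) hyH
  refine eq_top_of_mono hn _ ε (fun i => by simp only [hε]; split_ifs <;> simp) w hw'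
    (Subgroup.mem_sup_left hwH) fun _ c => Subgroup.mem_sup_left (hall c)

end Cfsg.Agent.S2402
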