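import Cfsg.Statements.S2403
import Cfsg.Agent.Lib.GLC.Gen2

set_option autoImplicit false
open Cfsg

namespace Cfsg.Agent.S2403

open Matrix Matrix.SpecialLinearGroup Cfsg.Lib.GLC.Gen2

/-- Explicit two-element generation of `PSL_{n+1}(K)` over the fields with two or three elements: with `x = 1 + E₁₂` and `w` the monomial matrix with entries `1` in positions `(i, i+1)` and `(−1)^n` in position `(n+1, 1)`, the elements `x` and `w` generate `SL_{n+1}(K)` modulo its centre. -/
theorem result {K : Type*} [Field K] [Fintype K] (hK : Fintype.card K ≤ 3) (n : ℕ) (hn : 1 ≤ n)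
    (x w : Matrix.SpecialLinearGroup (Fin (n + 1)) K)
    (hx : (x : Matrix (Fin (n + 1)) (Fin (n + 1)) K) = Matrix.transvection (0 : Fin (n + 1)) (1 : Fin (n + 1)) 1)
    (hw : (w : Matrix (Fin (n + 1)) (Fin (n + 1)) K) =
      Matrix.of (fun i j => if j.val = i.val + 1 then 1 else if i.val = n ∧ j.val = 0 then (-1) ^ n else 0)) :
    Subgroup.closure ({x, w} : Set (Matrix.SpecialLinearGroup (Fin (n + 1)) K)) ⊔
      Subgroup.center (Matrix.SpecialLinearGroup (Fin (n + 1)) K) = ⊤ := by
  have hw' := w_eq _ hw
  refine eq_top_of_mono hn _ (fun i : Fin (n + 1) => if i.val = n then (-1 : K) ^ n else 1)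
    (fun i => by split_ifs <;> simp) w hw'
    (Subgroup.mem_sup_left (Subgroup.subset_closure (by simp))) fun h c => ?_
  refine Subgroup.mem_sup_left ?_
  have hx' : x = transvection h (1 : K) := Subtype.ext hx
  have h1 : transvection h (1 : K) ∈ Subgroup.closure
      ({x, w} : Set (Matrix.SpecialLinearGroup (Fin (n + 1)) K)) :=
    hx' ▸ Subgroup.subset_closure (by simp)
  by_cases c0 : c = 0
  · rw [c0, transvection_coeff_zero]; exact Subgroup.one_mem _
  by_cases c1 : c = 1
  · rw [c1]; exact h1
  have hc : c = -1 := by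
    classical
    have hsub : ({0, 1, c} : Finset K) = Finset.univ := by
      apply Finset.eq_univ_of_card
      apply le_antisymm (Finset.card_le_univ _)
      rw [Finset.card_eq_three.2 ⟨0, 1, c, zero_ne_one, Ne.symm c0, Ne.symm c1, rfl⟩]
      exact hK
    have h2 : c + 1 ∈ ({0, 1, c} : Finset K) := hsub ▸ Finset.mem_univ _
    simp only [Finset.mem_insert, Finset.mem_singleton] at h2
    rcases h2 with h2 | h2 | h2
    · exact eq_neg_of_add_eq_zero_left h2
    · exact absurd (by simpa using h2) c0
    · simp at h2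
  rw [hc, ← transvection_inv]
  exact Subgroup.inv_mem _ h1

end Cfsg.Agent.S2403
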