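import Cfsg.Statements.S2409
import Cfsg.Agent.Lib.Ree.Inst
import Cfsg.Agent.Lib.Ree.Borel

set_option autoImplicit false
open Cfsg

namespace Cfsg.Agent.S2409

open Subgroup

/-- The small Ree group ²G₂(3^(2m+1)) with `m ≥ 1` is generated by two of its elements. -/
theorem result {K : Type*} [Field K] [Fintype K] {m : ℕ} (hm : 1 ≤ m) (hK : Fintype.card K = 3 ^ (2 * m + 1)) :
    ∃ a b : ↥(Cfsg.Lie.twistedG2 K (3 ^ m)), Subgroup.closure ({a, b} : Set ↥(Cfsg.Lie.twistedG2 K (3 ^ m))) = ⊤ := by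
  obtain ⟨M, -⟩ := Lib.Ree.exists_model hK
  obtain ⟨g, hg⟩ := IsCyclic.exists_generator (α := Kˣ)
  refine ⟨M.h g, M.u 1 0 0 * M.w, ?_⟩
  generalize hX : closure {M.h g, M.u 1 0 0 * M.w} = X
  have hb : M.u 1 0 0 * M.w ∈ X := hX ▸ subset_closure (by simp)
  have h0 : ∀ l, M.h l ∈ X := fun l => by
    obtain ⟨n, rfl⟩ := hg l
    rw [map_zpow]
    exact zpow_mem (hX ▸ subset_closure (by simp)) n
  have c : ∀ (l : Kˣ) {a b c}, M.u a b c ∈ X → M.u (l * a) (l * M.ψ l * b) (l ^ 2 * M.ψ l * c) ∈ X := fun l _ _ _ h =>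
    M.h_u l _ _ _ ▸ mul_mem (mul_mem (h0 l) h) (inv_mem (h0 l))
  have h1 : ∀ a, ∃ b c, M.u a b c ∈ X := fun a => by
    by_cases ha : a = 0
    · exact ⟨0, 0, by simp [ha]⟩
    have := mul_mem (mul_mem (mul_mem hb (h0 (-1)⁻¹)) (inv_mem hb)) (inv_mem (h0 (-1)))
    rw [mul_inv_rev, mul_assoc (M.u 1 0 0), ← mul_assoc (_ * _) M.w⁻¹, mul_assoc (M.u 1 0 0), M.w_h, map_inv, inv_inv,
      mul_assoc, mul_assoc, ← mul_assoc (M.h _), M.u_inv, M.h_u, M.u_mul] at this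
    have := c (Units.mk0 (-a) (neg_ne_zero.2 ha)) this
    rw [show (Units.mk0 (-a) (neg_ne_zero.2 ha) : K) * (1 + (-1 : Kˣ) * -1) = a by
      simp only [Units.val_mk0, Units.val_neg, Units.val_one]; linear_combination -a * M.three] at this
    exact ⟨_, _, this⟩
  have h3 : ∀ c, M.u 0 0 c ∈ X := fun c => by
    by_cases hc : c = 0
    · simp [hc]
    obtain ⟨l, hl⟩ := Lib.Ree.par_surjective M.ψψ (Units.mk0 (-c) (neg_ne_zero.2 hc))
    obtain ⟨x, y, h⟩ := h1 l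
    have := pow_mem h 3
    rwa [M.u_pow_three, ← Lib.Ree.coe_par, hl, Units.val_mk0, neg_neg] at this
  have h3' : ∀ {a b c} (c'), M.u a b c ∈ X → M.u a b c' ∈ X := fun {a b c} c' h => by
    simpa [M.u_mul] using mul_mem h (h3 (c' - c))
  obtain ⟨t, ht⟩ : ∃ t, M.ψ t - t ≠ 0 := by
    by_contra! h
    have : (g : K) ^ 2 = 1 := mul_left_cancel₀ g.ne_zero (by
      rw [← pow_succ', ← M.ψψ, sub_eq_zero.1 (h _), sub_eq_zero.1 (h _), mul_one])
    have := Nat.le_of_dvd two_pos (orderOf_dvd_of_pow_eq_one (x := g) (Units.ext this))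
    rw [orderOf_eq_card_of_forall_mem_zpowers hg, Nat.card_units, Nat.card_eq_fintype_card, hK] at this
    have := Nat.pow_le_pow_right (n := 3) (by decide) (show 3 ≤ 2 * m + 1 by omega)
    omega
  have h4 : M.u 0 (M.ψ t - t) 0 ∈ X := by
    obtain ⟨x, y, h⟩ := h1 t
    obtain ⟨z, v, h'⟩ := h1 1
    have := mul_mem (mul_mem (mul_mem h h') (inv_mem h)) (inv_mem h')
    rw [M.u_conj, M.u_inv, M.u_mul] at this
    convert h3' 0 this using 2 <;> (try simp only [map_neg, map_one]) <;> ring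
  have h5 : ∀ y : K, M.u 0 (y * y * (M.ψ t - t)) 0 ∈ X := fun y => by
    by_cases hy : y = 0
    · simp [hy]
    have := M.ψ_ne_zero hy
    convert c (Units.mk0 _ (div_ne_zero this hy)) h4 using 2
    · simp
    · rw [Units.val_mk0, map_div₀, M.ψψ]; field_simp
    · simp
  have h2 : ∀ b, M.u 0 b 0 ∈ X := fun b => by
    rcases M.isSquare_or (b / (M.ψ t - t)) with ⟨y, h⟩ | ⟨y, h⟩
    · simpa [← h, ht] using h5 y
    · simpa [← h, ht, M.u_inv] using inv_mem (h5 y)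
  have h6 : ∀ a b c, M.u a b c ∈ X := fun a b c => by
    obtain ⟨x, y, h⟩ := h1 a
    have := mul_mem h (h2 (b - x))
    rw [M.u_mul] at this
    simpa using h3' c this
  have h7 : M.w ∈ X := (mul_mem_cancel_left (h6 1 0 0)).1 hb
  refine top_unique fun x _ => ?_
  obtain ⟨a, b, c, l, rfl | ⟨_, _, _, rfl⟩⟩ := M.bruhat x
  · exact mul_mem (h6 ..) (h0 l)
  · exact mul_mem (mul_mem (mul_mem (h6 ..) (h0 l)) h7) (h6 ..)

end Cfsg.Agent.S2409
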