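import Cfsg.Statements.S2410
import Cfsg.Agent.Lib.Sz.Local

set_option autoImplicit false
open Cfsg

namespace Cfsg.Agent.S2410

open Cfsg.Lib.Sz

/-- The Suzuki group over the field with `2^(2m+1)` elements, `m ≥ 1` (realised as the stabiliser in `SL₄` of the Suzuki–Tits ovoid), is generated by two of its elements. -/
theorem result {F : Type*} [Field F] [Fintype F] {m : ℕ} (hm : 1 ≤ m) (hF : Fintype.card F = 2 ^ (2 * m + 1)) :
    ∃ a b : ↥(Cfsg.Sz F m), Subgroup.closure ({a, b} : Set ↥(Cfsg.Sz F m)) = ⊤ := by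
  have hq : Nat.card F = 2 ^ (2 * m + 1) := by rw [Nat.card_eq_fintype_card, hF]
  have ht := exists_ne_zero_ne_one hm hF
  generalize ovoidModel hm hF = M
  obtain ⟨μ, hμ⟩ := IsCyclic.exists_ofOrder_eq_natCard (α := Fˣ)
  have h8 : 8 ≤ Nat.card F := hq ▸ Nat.pow_le_pow_right (n := 2) (i := 3) (by norm_num) (by omega)
  have ho : orderOf (M.h μ) = Nat.card F - 1 := by rw [M.orderOf_h, hμ, Nat.card_units]
  have h1 : M.h μ ≠ 1 := by intro h; rw [h, orderOf_one] at ho; omega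
  refine ⟨M.h μ, M.u 1 0 * M.w, ?_⟩
  have ha : M.h μ ∈ Subgroup.closure {M.h μ, M.u 1 0 * M.w} := Subgroup.subset_closure (by simp)
  have hb : M.u 1 0 * M.w ∈ Subgroup.closure {M.h μ, M.u 1 0 * M.w} := Subgroup.subset_closure (by simp)
  have hb1 : (M.u 1 0 * M.w) • M.inf = M.pt 1 0 := by rw [mul_smul, M.w_smul_inf, M.u_smul_zero]
  have hb2 : (M.u 1 0 * M.w) • M.pt 0 0 = M.inf := by rw [mul_smul, M.w_smul_zero, M.u_smul_inf]
  rcases M.isLocal_or_sub (Subgroup.closure {M.h μ, M.u 1 0 * M.w}) with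
    (⟨p, h⟩ | ⟨x, h⟩ | ⟨g, hg, h⟩) | ⟨x, K, hK, h⟩
  · exfalso
    rcases M.eq_of_mem_H (M.h_mem_H μ) h1 (h ha) with rfl | rfl
    · exact M.pt_ne_inf _ _ (hb1.symm.trans (h hb))
    · exact M.pt_ne_inf _ _ (hb2.symm.trans (h hb)).symm
  · exfalso
    rw [← M.conj_H] at h
    have h2 : M.h μ ∈ (M.conj x).H := by
      rcases ((M.conj x).mem_normalizer_H ht).1 (h ha) with h2 | ⟨ν, h2⟩
      · exact h2
      · have h3 := orderOf_dvd_of_pow_eq_one (n := 2) (x := M.h μ) (by rw [sq, h2, Model.h_mul_w_sq])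
        have := Nat.le_of_dvd (by norm_num) (ho ▸ h3)
        omega
    rw [← (M.conj x).centralizer_of_mem_H h2 h1, M.centralizer_of_mem_H (M.h_mem_H μ) h1] at h
    rcases (M.mem_normalizer_H ht).1 (h hb) with h3 | ⟨ν, h3⟩
    · exact M.pt_ne_inf _ _ (hb1.symm.trans (M.H_le_B h3))
    · have := (M.swap_iff.2 ⟨ν, h3⟩).1
      rw [hb1, M.pt_inj] at this
      exact one_ne_zero this.1
  · exfalso
    have h2 := Subgroup.orderOf_dvd_natCard _ (h ha)
    rw [hg.card_normalizer hm hq, ho] at h2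
    have h3 := (Nat.Coprime.pow_right 2 (Nat.coprime_two_right.2 M.odd_card_sub_one)).dvd_of_dvd_mul_left h2
    have := Nat.eq_one_of_dvd_coprimes M.coprime_tori dvd_rfl (h3.trans hg.card_centralizer_dvd)
    omega
  · rw [h, ← M.conj_sub] at ha ⊢
    rw [(M.conj x).eq_top_of_orderOf hK ha ho, Model.sub_top]

end Cfsg.Agent.S2410
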