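import Cfsg.Statements.S2413
import Cfsg.Agent.Lib.Chev.Gen2Cl
import Cfsg.Agent.Lib.Chev.SpinMult

set_option autoImplicit false
open Cfsg

namespace Cfsg.Agent.S2413

open Cfsg.Lib.Chev

/-- The simple orthogonal group `PΩ_{2m+1}(q)` (commutator subgroup of the orthogonal group of `x₀² + Σ x_i y_i` modulo its centre) with `m ≥ 2` and `q` odd is generated by two of its elements. -/
theorem result {F : Type*} [Field F] [Fintype F] (hodd : Odd (Fintype.card F)) (m : ℕ) (hm : 2 ≤ m) :
    ∃ a b : Cfsg.POmega F (Cfsg.quadFormOdd m F), Subgroup.closure ({a, b} : Set (Cfsg.POmega F (Cfsg.quadFormOdd m F))) = ⊤ := by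
  have h2 : (2 : F) ≠ 0 := fun h => by
    have := FiniteField.even_card_of_char_two (F := F)
      (CharP.ringChar_of_prime_eq_zero Nat.prime_two (by exact_mod_cast h))
    rw [Nat.odd_iff] at hodd
    omega
  obtain ⟨e⟩ := nonempty_spinB_equiv F hm h2
  have X := (repB (carJW (2 * m + 1))).real F
  exact ((ChevSys.twoGen_B X.strongComm (eucB m).noG2 X.grp_eq hm rfl h2).map
    (QuotientGroup.mk'_surjective _)).map (φ := e.toMonoidHom) e.surjective

end Cfsg.Agent.S2413
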