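import Cfsg.Statements.S2416
import Cfsg.Agent.Lib.Chev.GenN
import Cfsg.Agent.Lib.Chev.Types
import Cfsg.Agent.Lib.Chev.Data

set_option autoImplicit false
open scoped MatrixGroups
open Cfsg

namespace Cfsg.Agent.S2416

open Cfsg.Lib.Chev

set_option synthInstance.maxSize 2000

/-- A Chevalley group of type G₂, B₂, D₄, F₄, E₆, E₇ or E₈ over a finite field lies in (indeed equals) the subgroup generated by its monomial subgroup `N` and a single fundamental root subgroup `X_p`, where `p` is a short fundamental root if there are two root lengths (any fundamental root otherwise), provided the characteristic is not 2 for types B₂, F₄ and not 3 for type G₂ (and the field has more than two elements for B₂, G₂). -/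
theorem result {K : Type*} [Field K] [Finite K] (D : Cfsg.Lie.ChevalleyDatum) (hD : D ∈ [Cfsg.Lie.chevG2, Cfsg.Lie.chevB2, Cfsg.Lie.chevD4, Cfsg.Lie.chevF4, Cfsg.Lie.chevE6, Cfsg.Lie.chevE7, Cfsg.Lie.chevE8])
    (hK : D ∈ [Cfsg.Lie.chevB2, Cfsg.Lie.chevG2] → ∃ x : K, x ≠ 0 ∧ x ≠ 1)
    (h2 : D ∈ [Cfsg.Lie.chevB2, Cfsg.Lie.chevF4] → ringChar K ≠ 2) (h3 : D = Cfsg.Lie.chevG2 → ringChar K ≠ 3)
    (i : ℕ) (hi : i < D.rank) (hshort : D.isLong (D.simple i) = false) :
    D.group K ≤ D.monomialSubgroup K ⊔ D.rootSubgroup K (D.simple i) := by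
  obtain ⟨c, h⟩ := exists_checked hD
  have hc : ∀ m : ℕ, m.Prime → ringChar K ≠ m → (m : K) ≠ 0 := fun m hm h0 h1 =>
    h0 ((Nat.prime_dvd_prime_iff_eq (CharP.char_is_prime K _) hm).1 ((ringChar.spec K m).1 h1))
  have key := fun m => h.group_le (F := K) (le_sup_left (b := D.rootSubgroup K (D.simple i)))
    (I := [i]) (by simp) (m := m)
  clear hK
  simp only [List.mem_cons, List.not_mem_nil, or_false] at hD
  rcases hD with rfl | rfl | rfl | rfl | rfl | rfl | rfl
  · refine key 3 (.inr ⟨.inr rfl, hc 3 (by decide) (h3 rfl)⟩) ?_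
    rw [(isCartanG2 h).A_eq]; clear key; revert i; decide +kernel
  · refine key 2 (.inr ⟨.inl rfl, hc 2 (by decide) (h2 (by simp))⟩) ?_
    rw [(isCartanB2 h).A_eq]; clear key; revert i; decide +kernel
  · refine key 1 (.inl rfl) ?_
    rw [(isCartanD4 h).A_eq]; clear key hshort; revert i; decide +kernel
  · refine key 2 (.inr ⟨.inl rfl, hc 2 (by decide) (h2 (by simp))⟩) ?_
    rw [(isCartanF4 h).A_eq]; clear key; revert i; decide +kernel
  · refine key 1 (.inl rfl) ?_
    rw [(isCartanE6 h).A_eq]; clear key hshort; revert i; decide +kernel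
  · refine key 1 (.inl rfl) ?_
    rw [(isCartanE7 h).A_eq]; clear key hshort; revert i; decide +kernel
  · refine key 1 (.inl rfl) ?_
    rw [(isCartanE8 h).A_eq]; clear key hshort; revert i; decide +kernel

end Cfsg.Agent.S2416
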