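import Cfsg.Statements.S2425
import Cfsg.Agent.Lib.Cusp.St

set_option autoImplicit false
open scoped MatrixGroups
open Cfsg

namespace Cfsg.Agent.S2425

open Cfsg.Lib.Cusp Cfsg.Lib.GLC Cfsg.Lib.GLFlag in

/-- Values of the Steinberg character of `GL_n(q)` (the partition-indexed character for `ν = (1,…,1)`, of degree `q^(n(n−1)/2)`) at elements of order prime to the characteristic: if the characteristic polynomial of such an element is `∏ f^(m_f)` over distinct monic irreducible `f`, the value is `∏_f (−1)^((deg f − 1) m_f) q^(deg f · m_f (m_f − 1)/2)`. (At elements of order divisible by the characteristic the value is 0; that is not part of this statement.) -/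
theorem result {F : Type*} [Field F] [Fintype F] [DecidableEq F] {q : ℕ} (hq : Fintype.card F = q) (p : ℕ) [Fact p.Prime] [CharP F p]
    {n : ℕ} (x : GL (Fin n) F) (hx : (orderOf x).Coprime p) :
    Cfsg.unipotentCharacterGL n F (fun _ => 1) x =
      ∏ f ∈ (UniqueFactorizationMonoid.normalizedFactors (x : Matrix (Fin n) (Fin n) F).charpoly).toFinset,
        (-1 : ℂ) ^ ((f.natDegree - 1) * (UniqueFactorizationMonoid.normalizedFactors (x : Matrix (Fin n) (Fin n) F).charpoly).count f) *
          (q : ℂ) ^ (f.natDegree * (UniqueFactorizationMonoid.normalizedFactors (x : Matrix (Fin n) (Fin n) F).charpoly).count f *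
            ((UniqueFactorizationMonoid.normalizedFactors (x : Matrix (Fin n) (Fin n) F).charpoly).count f - 1) / 2) := by
  have hN : ((orderOf x : ℕ) : F) ≠ 0 := fun e =>
    (Fact.out : p.Prime).coprime_iff_not_dvd.1 hx.symm ((CharP.cast_eq_zero_iff F p _).1 e)
  have h1 : Matrix.toLin' x.1 ^ orderOf x = 1 := by rw [← orderOf_toLin'_gl, pow_orderOf_eq_one]
  have h2 := isSemisimple_iff_typ.1 (isSemisimple_of_pow_eq hN one_ne_zero (h1.trans (one_smul _ _).symm))
  have h3 := (alt_ty hN n).1 _ _ h1
  rw [if_pos (Module.finrank_fin_fun F), alt, Finset.sum_apply] at h3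
  rw [unipotent_def, Finset.sum_congr rfl fun κ _ => ?_, h3, ← Matrix.charpoly_toLin',
    (blocks_typ _).charpoly_eq, UniqueFactorizationMonoid.normalizedFactors_prod_eq _ h2,
    Multiset.map_congr rfl fun P hP => (typ_pp _ P hP).monic.normalize_eq_self, Multiset.map_id']
  · have h4 := sum_typ_toLin' x.1
    rw [Fintype.card_fin, Finset.sum_multiset_map_count] at h4
    nth_rw 1 [← h4]
    rw [← Finset.prod_pow_eq_pow_sum, moeb, Nat.card_eq_fintype_card, hq,
      Subsingleton.elim (fun a b : F => Classical.propDecidable (a = b)) ‹_›,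
      ← Finset.prod_mul_distrib]
    refine Finset.prod_congr rfl fun f hf => ?_
    obtain ⟨d, hd⟩ := Nat.exists_eq_add_one.2 (h2 f (Multiset.mem_toFinset.1 hf)).natDegree_pos
    rw [hd, Nat.choose_two_right, mul_assoc (d + 1), Nat.mul_div_assoc _ (Nat.even_mul_pred_self _).two_dvd,
      ← mul_assoc, ← pow_add, smul_eq_mul, mul_add, mul_one, add_assoc, ← two_mul, pow_add, pow_mul _ 2]
    simp [mul_comm]
  · split_ifs with h
    · simp [fix_eq_fl (sum_sub_eq (ν := fun _ => 1) (by simp) h)]
    · rfl

end Cfsg.Agent.S2425
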