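import Cfsg.Statements.S2426
import Cfsg.Agent.Lib.Root.Steinberg

set_option autoImplicit false
open Cfsg

namespace Cfsg.Agent.S2426

open Cfsg.Lib.Root

/-- The rank-one Steinberg presentation of `SL₂` over a finite field `K`: generators `x(t)`, `y(t)` (`t ∈ K`; the two opposite root subgroups) subject to additivity `x(t)x(u) = x(t+u)`, `y(t)y(u) = y(t+u)` and, with `w(t) = x(t) y(−t⁻¹) x(t)` and `w'(t) = y(t) x(−t⁻¹) y(t)` for `t ≠ 0`, the relations `w(t) x(u) w(t)⁻¹ = y(−t⁻² u)` and `w'(t) y(u) w'(t)⁻¹ = x(−t⁻² u)`, present `SL₂(K)`, with `x(t) ↦ (1 t; 0 1)` and `y(t) ↦ (1 0; t 1)`. -/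
theorem result {K : Type*} [Field K] [Finite K] :
    ∃ e : PresentedGroup
        ({g : FreeGroup (Bool × K) | ∃ (b : Bool) (t u : K), g = FreeGroup.of (b, t) * FreeGroup.of (b, u) * (FreeGroup.of (b, t + u))⁻¹} ∪
          {g | ∃ (b : Bool) (t u : K), t ≠ 0 ∧
            g = (FreeGroup.of (b, t) * FreeGroup.of (!b, -t⁻¹) * FreeGroup.of (b, t)) * FreeGroup.of (b, u) *
                  (FreeGroup.of (b, t) * FreeGroup.of (!b, -t⁻¹) * FreeGroup.of (b, t))⁻¹ * (FreeGroup.of (!b, -(t⁻¹ ^ 2 * u)))⁻¹})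
        ≃* Matrix.SpecialLinearGroup (Fin 2) K,
      (∀ t : K, ((e (PresentedGroup.of (true, t)) : Matrix (Fin 2) (Fin 2) K)) = !![1, t; 0, 1]) ∧
      (∀ t : K, ((e (PresentedGroup.of (false, t)) : Matrix (Fin 2) (Fin 2) K)) = !![1, 0; t, 1]) := by
  set rels : Set (FreeGroup (Bool × K)) := _ ∪ _ with hr
  have h1 : ∀ r ∈ rels, FreeGroup.lift (fun p : Bool × K => cond p.1 (xU p.2) (xL p.2)) r = 1 := by
    rintro _ (⟨b, t, u, rfl⟩ | ⟨b, t, u, ht, rfl⟩) <;> cases b <;>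
      simp only [map_mul, map_inv, FreeGroup.lift_apply_of, cond_true, cond_false, Bool.not_true,
        Bool.not_false, mul_inv_eq_one, xU_add, xL_add] <;> rw [mul_inv_eq_iff_eq_mul]
    · have := wS_mul_xL (neg_ne_zero.2 (inv_ne_zero ht)) u
      rwa [wS_eq (neg_ne_zero.2 (inv_ne_zero ht)), inv_neg, inv_inv, neg_neg, neg_sq,
        neg_mul] at this
    · have := wS_mul_xU ht u
      rwa [neg_div, div_eq_inv_mul, ← inv_pow] at this
  have h2 : ∀ r ∈ rels, PresentedGroup.mk rels r = 1 := fun r => PresentedGroup.one_of_mem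
  have h3 : ∀ b s t, (PresentedGroup.of (b, s + t) : PresentedGroup rels) =
      PresentedGroup.of (b, s) * PresentedGroup.of (b, t) := fun b s t =>
    (mul_inv_eq_one.1 (h2 _ (.inl ⟨b, s, t, rfl⟩))).symm
  obtain ⟨φ, h4, h5⟩ := St2.exists_hom_finite (G := PresentedGroup rels)
    (x := fun t => PresentedGroup.of (true, t)) (y := fun t => PresentedGroup.of (false, t))
    ⟨h3 _, h3 _, fun t ht u => by
      rw [neg_div, div_eq_inv_mul, ← inv_pow, ← mul_inv_eq_iff_eq_mul]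
      exact mul_inv_eq_one.1 (h2 _ (.inr ⟨true, t, u, ht, rfl⟩))⟩
  refine ⟨(PresentedGroup.toGroup h1).toMulEquiv φ (PresentedGroup.ext fun ⟨b, t⟩ => ?_)
    (MonoidHom.eq_of_eqOn_top fun g _ => ?_), fun t => by simp, fun t => by simp⟩
  · cases b <;> simp [h4, h5]
  · refine (?_ : ⊤ ≤ MonoidHom.eqLocus _ _) (Subgroup.mem_top g)
    rw [← upper_sup_lower, sup_le_iff]
    refine ⟨fun g hg => ?_, fun g hg => ?_⟩
    · obtain ⟨t, rfl⟩ := mem_upper_iff.1 hg
      exact show _ = _ by simp [h4]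
    · obtain ⟨t, rfl⟩ := mem_lower_iff.1 hg
      exact show _ = _ by simp [h5]

end Cfsg.Agent.S2426
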