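import Cfsg.Statements.S2427
import Cfsg.Agent.Lib.CharDeg.SL2Sylow
import Cfsg.Agent.Lib.Inv.QEight

set_option autoImplicit false
open Cfsg

namespace Cfsg.Agent.S2427

open Cfsg.Lib.GLTwo Cfsg.Lib.Char Cfsg.Lib.PSL2 Cfsg.Lib.Inv in

/-- The group SL₂ over the field with 3 elements has order 24 and centre of order 2; its commutator subgroup has order 8, is isomorphic to the quaternion group of order 8 and is complemented by every Sylow 3-subgroup (so the group is a semidirect product of a quaternion group of order 8 by a cyclic group of order 3); and its only normal subgroups besides the trivial subgroup and the whole group are the centre and the commutator subgroup. -/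
theorem result :
    Nat.card (Matrix.SpecialLinearGroup (Fin 2) (ZMod 3)) = 24 ∧
    Nat.card (Subgroup.center (Matrix.SpecialLinearGroup (Fin 2) (ZMod 3))) = 2 ∧
    Nat.card (commutator (Matrix.SpecialLinearGroup (Fin 2) (ZMod 3))) = 8 ∧
    Nonempty (commutator (Matrix.SpecialLinearGroup (Fin 2) (ZMod 3)) ≃* QuaternionGroup 2) ∧
    (∀ P : Sylow 3 (Matrix.SpecialLinearGroup (Fin 2) (ZMod 3)),
      Subgroup.IsComplement' (commutator (Matrix.SpecialLinearGroup (Fin 2) (ZMod 3)))
        (P : Subgroup (Matrix.SpecialLinearGroup (Fin 2) (ZMod 3)))) ∧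
    ∀ N : Subgroup (Matrix.SpecialLinearGroup (Fin 2) (ZMod 3)), N.Normal →
      N = ⊥ ∨ N = ⊤ ∨ N = Subgroup.center (Matrix.SpecialLinearGroup (Fin 2) (ZMod 3)) ∨
        N = commutator (Matrix.SpecialLinearGroup (Fin 2) (ZMod 3)) := by
  have hq : Fintype.card (ZMod 3) = 3 := ZMod.card 3
  have h2 : (2 : ZMod 3) ≠ 0 := by decide
  have hG : Nat.card (Matrix.SpecialLinearGroup (Fin 2) (ZMod 3)) = 24 := by
    rw [card_SL2, Nat.card_zmod]; rfl
  obtain ⟨S⟩ : Nonempty (Sylow 2 (Matrix.SpecialLinearGroup (Fin 2) (ZMod 3))) := inferInstance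
  have h8 : Fintype.card (ZMod 3) % 8 = 3 ∨ Fintype.card (ZMod 3) % 8 = 5 := by rw [hq]; simp
  have hS := card_sylow_two h8 S
  have hN : Subgroup.normalizer ((S : Subgroup (Matrix.SpecialLinearGroup (Fin 2) (ZMod 3))) :
      Set (Matrix.SpecialLinearGroup (Fin 2) (ZMod 3))) = ⊤ :=
    Subgroup.eq_top_of_card_eq _ (by rw [card_normalizer_sylow_two h8, hG])
  haveI hSn : (S : Subgroup (Matrix.SpecialLinearGroup (Fin 2) (ZMod 3))).Normal :=
    Subgroup.normalizer_eq_top_iff.1 hN
  have hC := centralizer_sylow_two (by rw [hq]; decide) S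
  have hQ : Nonempty ((S : Subgroup (Matrix.SpecialLinearGroup (Fin 2) (ZMod 3))) ≃*
      QuaternionGroup 2) := by
    obtain ⟨m, a, b, h, hm, -⟩ := exists_qgen_sylow (by rw [hq]; decide) S
    rcases isCyclic_or_quaternion_SL2 h2 S.isPGroup' with h1 | ⟨k, hk, ⟨e⟩⟩
    · exfalso
      have := congrArg Subtype.val
        (h1.isMulCommutative.is_comm.comm (⟨b, h.mem_b⟩ : S) ⟨a, h.mem_a⟩)
      have h3 := h.conj
      rw [show b * a = a * b from this, mul_inv_cancel_right] at h3
      exact h.a_sq_ne_one hm (by rw [sq]; exact mul_eq_one_iff_eq_inv.2 h3)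
    · haveI : NeZero (2 ^ k) := ⟨by positivity⟩
      have := Nat.card_congr e.toEquiv
      rw [hS, Nat.card_eq_fintype_card, QuaternionGroup.card] at this
      have h3 : 2 ^ k = 2 := by omega
      rw [h3] at e
      exact ⟨e⟩
  have h3 : ∀ g : Matrix.SpecialLinearGroup (Fin 2) (ZMod 3), orderOf g = 3 →
      g ∉ Subgroup.centralizer ((S : Subgroup (Matrix.SpecialLinearGroup (Fin 2) (ZMod 3))) :
      Set (Matrix.SpecialLinearGroup (Fin 2) (ZMod 3))) := by
    intro g hg e
    rw [hC] at e
    have := Subgroup.orderOf_dvd_natCard _ e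
    rw [hg, card_center_SL2 h2] at this
    exact absurd this (by decide)
  obtain ⟨g, hg⟩ := exists_prime_orderOf_dvd_card' (G := Matrix.SpecialLinearGroup (Fin 2) (ZMod 3))
    3 (by rw [hG]; decide)
  have hgo : Odd (orderOf g) := by rw [hg]; decide
  have key : ∀ N : Subgroup (Matrix.SpecialLinearGroup (Fin 2) (ZMod 3)), N.Normal →
      N = ⊥ ∨ N = ⊤ ∨ N = Subgroup.center _ ∨ N = S := by
    intro N hNn
    by_cases h4 : 3 ∣ Nat.card N
    · obtain ⟨x, hx⟩ := exists_prime_orderOf_dvd_card' (G := N) 3 h4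
      rw [← Subgroup.orderOf_coe] at hx
      have h5 := q8_le_of_odd hQ (hN ▸ Subgroup.mem_top _) (by rw [hx]; decide) (h3 _ hx) x.2
        (Subgroup.le_normalizer_of_normal)
      have h6 := Subgroup.card_dvd_of_le h5
      rw [hS] at h6
      have h7 : 24 ∣ Nat.card N := Nat.Coprime.mul_dvd_of_dvd_of_dvd (by decide : Nat.Coprime 3 8) h4 h6
      exact .inr (.inl (Subgroup.eq_top_of_card_eq _
        (Nat.dvd_antisymm (Subgroup.card_subgroup_dvd_card _) (hG ▸ h7))))
    · have h5 : Nat.card N ∣ 2 ^ 3 := by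
        have := Subgroup.card_subgroup_dvd_card N
        rw [hG] at this
        exact ((Nat.Prime.coprime_iff_not_dvd Nat.prime_three).2 h4).symm.dvd_of_dvd_mul_left
          (show Nat.card N ∣ 3 * 2 ^ 3 from this)
      have h6 : N ≤ S := (IsPGroup.of_card_dvd_pow h5).le_sylow_of_normal S
      by_cases h7 : ∃ x ∈ N, x * x ≠ 1
      · obtain ⟨x, hx, hx2⟩ := h7
        refine .inr (.inr (.inr (le_antisymm h6 ?_)))
        obtain ⟨y, hy, z, hz, y2, z2, n1, n2⟩ := q8_exists hQ
        have hm : ∀ y ∈ (S : Subgroup (Matrix.SpecialLinearGroup (Fin 2) (ZMod 3))), y * y ≠ 1 →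
            y ∈ N := fun y hy y2 => by
          obtain ⟨c, rfl⟩ := isConj_iff.1 (q8_isConj_of_odd hQ (hN ▸ Subgroup.mem_top _) hgo
            (h3 g hg) (h6 hx) hx2 hy y2)
          exact hNn.conj_mem x hx c
        exact q8_le_of_mem hQ hy hz y2 z2 n1 n2 (hm y hy y2) (hm z hz z2)
      · push Not at h7
        by_cases h9 : (-1 : Matrix.SpecialLinearGroup (Fin 2) (ZMod 3)) ∈ N
        · refine .inr (.inr (.inl (le_antisymm (fun x hx => mem_center_SL2_iff.2
            (eq_one_or_neg_one_of_mul_self h2 (h7 x hx))) fun x hx => ?_)))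
          rcases mem_center_SL2_iff.1 hx with rfl | rfl
          · exact one_mem _
          · exact h9
        · refine .inl (eq_bot_iff.2 fun x hx => ?_)
          exact (eq_one_or_neg_one_of_mul_self h2 (h7 x hx)).resolve_right fun e => h9 (e ▸ hx)
  have hi : (S : Subgroup (Matrix.SpecialLinearGroup (Fin 2) (ZMod 3))).index = 3 := by
    have := (S : Subgroup (Matrix.SpecialLinearGroup (Fin 2) (ZMod 3))).index_mul_card
    rw [hS, hG] at this
    omega
  have hcomm : commutator (Matrix.SpecialLinearGroup (Fin 2) (ZMod 3)) = S := by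
    have h4 : commutator (Matrix.SpecialLinearGroup (Fin 2) (ZMod 3)) ≤ S := by
      haveI : IsCyclic (Matrix.SpecialLinearGroup (Fin 2) (ZMod 3) ⧸
        (S : Subgroup (Matrix.SpecialLinearGroup (Fin 2) (ZMod 3)))) := isCyclic_of_prime_card hi
      exact Subgroup.Normal.quotient_commutative_iff_commutator_le.1 IsCyclic.isMulCommutative
    have h5 : ¬ commutator (Matrix.SpecialLinearGroup (Fin 2) (ZMod 3)) ≤ Subgroup.center _ := by
      intro e
      obtain ⟨y, hy, -, -, y2, -⟩ := q8_exists hQ
      refine h3 g hg (q8_mem_centralizer_of_odd hQ (hN ▸ Subgroup.mem_top _) hgo hy y2 ?_)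
      have h6 := mem_center_SL2_iff.1 (e (Subgroup.commutator_mem_commutator
        (Subgroup.mem_top g) (Subgroup.mem_top y)))
      rw [commutatorElement_def] at h6
      have h7 : y * y = -1 := (eq_one_or_neg_one_of_mul_self h2 (by
        rw [← q8_pow_four hQ hy]; simp only [pow_succ, pow_zero, one_mul, mul_assoc])).resolve_left y2
      refine h6.imp (fun e => mul_inv_eq_one.1 e) fun e => ?_
      rw [mul_inv_eq_iff_eq_mul.1 e, eq_inv_iff_mul_eq_one, mul_assoc, h7]
      simp
    rcases key _ (inferInstance : (commutator _).Normal) with e | e | e | e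
    · exact (h5 (e ▸ bot_le)).elim
    · rw [e, top_le_iff] at h4
      rw [h4, Subgroup.index_top] at hi
      exact absurd hi (by decide)
    · exact (h5 e.le).elim
    · exact e
  rw [hcomm]
  refine ⟨hG, card_center_SL2 h2, hS, hQ, fun P => ?_, key⟩
  have hP : Nat.card P = 3 := by
    rw [P.card_eq_multiplicity, hG]
    have : Nat.factorization 24 3 = 1 := by
      rw [show 24 = 3 ^ 1 * 8 from rfl, Nat.factorization_mul (by decide) (by decide),
        Nat.Prime.factorization_pow Nat.prime_three]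
      simp [Nat.factorization_eq_zero_of_not_dvd (show ¬ 3 ∣ 8 by decide)]
    rw [this]; rfl
  exact Subgroup.isComplement'_of_coprime (by rw [hS, hP, hG]) (by rw [hS, hP]; decide)

end Cfsg.Agent.S2427
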