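import Cfsg.Statements.S2429
import Cfsg.Agent.Lib.CharDeg.SL2Sylow
import Cfsg.Agent.Lib.Inv.FourGroup

set_option autoImplicit false
open Cfsg

namespace Cfsg.Agent.S2429

open Cfsg.Lib.GLTwo Cfsg.Lib.Char Cfsg.Lib.PSL2 in

/-- Let F be a finite field with q elements, q odd. Then SL₂ over F contains a cyclic subgroup T′ of order q + 1 (a non-split torus) with the following properties: T′ is its own centraliser, and indeed the centraliser of each element of T′ other than 1 and −1 is exactly T′; every element of SL₂ having no eigenvector in F² is conjugate to an element of T′; the normaliser of T′ has order 2(q + 1) and exactly (q + 7)/2 conjugacy classes; and every element of that normaliser outside T′ has square −1. -/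
theorem result {F : Type*} [Field F] [Fintype F] (hodd : Odd (Fintype.card F)) :
    ∃ T' : Subgroup (Matrix.SpecialLinearGroup (Fin 2) F), IsCyclic T' ∧ Nat.card T' = Fintype.card F + 1 ∧
      Subgroup.centralizer ((T' : Set (Matrix.SpecialLinearGroup (Fin 2) F))) = T' ∧
      (∀ g : Matrix.SpecialLinearGroup (Fin 2) F, g ∈ T' → (g : Matrix (Fin 2) (Fin 2) F) ≠ 1 → (g : Matrix (Fin 2) (Fin 2) F) ≠ -1 → Subgroup.centralizer ({g} : Set (Matrix.SpecialLinearGroup (Fin 2) F)) = T') ∧
      (∀ g : Matrix.SpecialLinearGroup (Fin 2) F, (∀ (c : F) (v : Fin 2 → F), v ≠ 0 → (g : Matrix (Fin 2) (Fin 2) F).mulVec v ≠ c • v) → ∃ h : Matrix.SpecialLinearGroup (Fin 2) F, h * g * h⁻¹ ∈ T') ∧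
      Nat.card (Subgroup.normalizer (T' : Set (Matrix.SpecialLinearGroup (Fin 2) F))) = 2 * (Fintype.card F + 1) ∧
      Nat.card (ConjClasses (Subgroup.normalizer (T' : Set (Matrix.SpecialLinearGroup (Fin 2) F)))) = (Fintype.card F + 7) / 2 ∧
      ∀ g : Matrix.SpecialLinearGroup (Fin 2) F, g ∈ Subgroup.normalizer (T' : Set (Matrix.SpecialLinearGroup (Fin 2) F)) → g ∉ T' → ((g * g) : Matrix (Fin 2) (Fin 2) F) = -1 := by
  have h2 := two_ne_zero_iff_odd.2 (by rwa [Nat.card_eq_fintype_card] : Odd (Nat.card F))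
  obtain ⟨a, b, hab⟩ := exists_no_root F
  haveI := Fact.mk hab
  haveI hc : IsCyclic (embS a b).range :=
    isCyclic_of_surjective _ (MonoidHom.rangeRestrict_surjective _)
  obtain ⟨s, hs⟩ := IsCyclic.exists_ofOrder_eq_natCard (α := (embS a b).range)
  rw [card_range_embS, ← Subgroup.orderOf_coe] at hs
  have he := ell_of_orderOf hs
  have hr := he.reg h2
  have key : ∀ g ∈ (embS a b).range, g ≠ 1 → g ≠ -1 →
      Subgroup.centralizer ({g} : Set (Matrix.SpecialLinearGroup (Fin 2) F)) = (embS a b).range := by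
    rintro _ ⟨z, rfl⟩ h1 h3
    refine centralizer_embS fun e => ?_
    exact (mem_center_SL2_iff.1 (embS_mem_center_iff.2 e)).elim h1 h3
  have hT := key _ s.2 hr.ne_one hr.ne_neg_one
  refine ⟨(embS a b).range, hc, card_range_embS, ?_, fun g hg h1 h3 => key g hg
    (fun e => h1 (by rw [e]; rfl)) (fun e => h3 (by rw [e]; rfl)), fun g hg => ?_, ?_, ?_, ?_⟩
  · exact (hr.centralizer_eq s.2 hT.ge).trans hT
  · obtain ⟨z, -, e⟩ := Ell.exists_isConj_embS a b (g := g) hg
    obtain ⟨x, hx⟩ := isConj_iff.1 e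
    exact ⟨x, hx ▸ ⟨z, rfl⟩⟩
  · have := hr.card_normalizer h2
    rwa [hT, card_range_embS] at this
  · have := hr.card_classes_normalizer h2
    rw [hT, card_range_embS] at this
    omega
  · intro g h1 h3
    exact congrArg Subtype.val (hr.mul_self_eq h2 (by rwa [hT]) (by rwa [hT]))

end Cfsg.Agent.S2429
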