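import Cfsg.Statements.S2434
import Cfsg.Agent.Lib.CharDeg.SL2Struct

set_option autoImplicit false
open Cfsg

namespace Cfsg.Agent.S2434

open Cfsg.Lib.GLTwo Cfsg.Lib.Char Cfsg.Lib.PSL2 in

/-- Let F be a finite field with q elements, q odd, and C a cyclic subgroup of order q + 1 of SL₂ over F (a non-split torus; it contains the centre). For every homomorphism θ from C to the non-zero complex numbers with θ² ≠ 1 there is an irreducible complex character χ of degree q − 1 such that χ(c) = −θ(c) − θ(c)⁻¹ for every non-central c in C, χ(zg) = θ(z)χ(g) for central z in C, χ vanishes at diagonal elements with entry a, a² ≠ 1, and χ takes the value −1 at every upper unitriangular element other than 1. Conversely every irreducible character of degree q − 1 has, for some such θ, the values −θ(c) − θ(c)⁻¹ at the non-central elements c of C (for q ≥ 5 these are exactly the cuspidal characters of degree q − 1). -/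
theorem result {F : Type*} [Field F] [Fintype F] (hodd : Odd (Fintype.card F))
    (C : Subgroup (Matrix.SpecialLinearGroup (Fin 2) F)) (hC : IsCyclic C) (hcard : Nat.card C = Fintype.card F + 1) :
    (∀ θ : C →* ℂˣ, (∃ c : C, θ c ^ 2 ≠ 1) →
      ∃ χ : Matrix.SpecialLinearGroup (Fin 2) F → ℂ, Cfsg.IsIrrCharacter (Matrix.SpecialLinearGroup (Fin 2) F) χ ∧ χ 1 = (Fintype.card F : ℂ) - 1 ∧
        (∀ c : C, (c : Matrix.SpecialLinearGroup (Fin 2) F) ∉ Subgroup.center (Matrix.SpecialLinearGroup (Fin 2) F) → χ c = -((θ c).val + (θ c)⁻¹.val)) ∧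
        (∀ c : C, (c : Matrix.SpecialLinearGroup (Fin 2) F) ∈ Subgroup.center (Matrix.SpecialLinearGroup (Fin 2) F) → ∀ g : Matrix.SpecialLinearGroup (Fin 2) F, χ ((c : Matrix.SpecialLinearGroup (Fin 2) F) * g) = (θ c).val * χ g) ∧
        (∀ g : Matrix.SpecialLinearGroup (Fin 2) F, (g : Matrix (Fin 2) (Fin 2) F) 0 1 = 0 → (g : Matrix (Fin 2) (Fin 2) F) 1 0 = 0 → (g : Matrix (Fin 2) (Fin 2) F) 0 0 ^ 2 ≠ 1 → χ g = 0) ∧
        (∀ g : Matrix.SpecialLinearGroup (Fin 2) F, (g : Matrix (Fin 2) (Fin 2) F) 1 0 = 0 → (g : Matrix (Fin 2) (Fin 2) F) 0 0 = 1 → (g : Matrix (Fin 2) (Fin 2) F) 1 1 = 1 → (g : Matrix (Fin 2) (Fin 2) F) 0 1 ≠ 0 → χ g = -1)) ∧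
    (∀ χ : Matrix.SpecialLinearGroup (Fin 2) F → ℂ, Cfsg.IsIrrCharacter (Matrix.SpecialLinearGroup (Fin 2) F) χ → χ 1 = (Fintype.card F : ℂ) - 1 →
      ∃ θ : C →* ℂˣ, (∃ c : C, θ c ^ 2 ≠ 1) ∧
        ∀ c : C, (c : Matrix.SpecialLinearGroup (Fin 2) F) ∉ Subgroup.center (Matrix.SpecialLinearGroup (Fin 2) F) → χ c = -((θ c).val + (θ c)⁻¹.val)) := by
  classical
  obtain ⟨a, b, h'⟩ := exists_no_root F
  haveI := Fact.mk h'
  obtain ⟨x, f, hf⟩ := exists_equiv_of_cyclic a b C hC hcard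
  have hconj : ∀ c : C, IsConj (tg (c : Matrix.SpecialLinearGroup (Fin 2) F)) (emb a b (f c)) := by
    intro c
    rw [← tg_embS]
    exact tg.map_isConj (isConj_iff.2 ⟨x, hf c⟩)
  have him : ∀ c : C, (c : Matrix.SpecialLinearGroup (Fin 2) F) ∉ Subgroup.center _ →
      ((f c : (QuadraticAlgebra F a b)ˣ) : QuadraticAlgebra F a b).im ≠ 0 := by
    intro c hc h0
    apply hc
    rw [mem_center_SL2_iff, ← scal_sl_iff]
    exact scal_of_isConj (hconj c).symm (scal_embM.2 h0)
  have hval : ∀ (θ : MulChar (QuadraticAlgebra F a b) ℂ) (c : C),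
      (c : Matrix.SpecialLinearGroup (Fin 2) F) ∉ Subgroup.center _ →
      rs (cusp θ) c = -((res1 θ (f c)).val + (res1 θ (f c))⁻¹.val) := by
    intro θ c hc
    rw [rcusp_of_isConj θ (him c hc) (hconj c), Units.val_inv_eq_inv_val, res1_apply]
  have hex : ∀ θ : MulChar (QuadraticAlgebra F a b) ℂ, (res1 θ)⁻¹ ≠ res1 θ →
      ∃ c : C, ((res1 θ).comp f.toMonoidHom) c ^ 2 ≠ 1 := by
    intro θ h
    rw [Ne, hom_inv_eq_self_iff] at h
    push Not at h
    obtain ⟨z, hz⟩ := h
    exact ⟨f.symm z, by simpa using hz⟩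
  refine ⟨fun θ ⟨c, hc⟩ => ?_, fun χ hχ hd => ?_⟩
  · obtain ⟨θ', hθ'⟩ := res1_surjective (θ.comp f.symm.toMonoidHom)
    have e : ∀ c : C, res1 θ' (f c) = θ c := fun c => by rw [hθ']; simp
    have hne : (res1 θ')⁻¹ ≠ res1 θ' := by
      rw [Ne, hom_inv_eq_self_iff]
      exact fun h => hc (by rw [← e]; exact h _)
    have hirr := isIrr_rs_cusp hne
    refine ⟨rs (cusp θ'), hirr, rs_cusp_apply_one _, fun c hc => by rw [hval _ c hc, e],
      fun c hc g => ?_, fun g _ h2 h3 => rcusp_split _ h2 ((borS_ne_iff h2).2 h3),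
      fun g h1 h2 h3 h4 => ?_⟩
    · rw [Cfsg.Lib.Char.Cfsg.IsCharacter.apply_mul_of_mem_charCenter hirr.apply_one_ne_zero
        (hirr.center_le_charCenter hc), rs_cusp_apply_one]
      have hs := scal_sl_iff.2 (mem_center_SL2_iff.1 hc)
      rw [rcusp_scal _ hs, mul_div_cancel_left₀ _ cast_card_sub_one_ne_zero, ← e, res1_apply,
        res_apply]
      congr 2
      apply embM_injective
      rw [embM_algebraMap, ← hs.eq_smul, ← emb_coe,
        Scal.eq_of_isConj (g := tg (c : Matrix.SpecialLinearGroup (Fin 2) F)) hs (hconj c)]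
      rfl
    · rw [rcusp_unip _ h1 (h2.trans h3.symm) h4, h2, map_one]
  · have h1 : 1 < Fintype.card F := Fintype.one_lt_card
    have ho := Nat.odd_iff.1 hodd
    have := deg_sub_one hd
    rcases irr_cases_deg a b hχ with h | h | h | h | h | h
    any_goals omega
    · obtain ⟨θ, h2, rfl⟩ := h.1
      exact ⟨_, hex θ h2, fun c hc => hval θ c hc⟩
    · have hq : Fintype.card F = 3 := by omega
      have h3 := ncard_cuspSet a b
      rw [if_pos hodd, hq] at h3
      obtain ⟨_, θ, h2, rfl⟩ := Set.nonempty_of_ncard_ne_zero (s := cuspSet a b) (by omega)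
      refine ⟨_, hex θ h2, fun c hc => ?_⟩
      have he : Ell ((c : Matrix.SpecialLinearGroup (Fin 2) F) : Matrix (Fin 2) (Fin 2) F) :=
        ell_of_isConj (hconj c).symm (ell_embM (him c hc))
      rw [halfPs_of_ell h.1 he, ← cuspSet_of_ell_of_card_three hq ⟨θ, h2, rfl⟩ he]
      exact hval θ c hc

end Cfsg.Agent.S2434
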