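import Cfsg.Statements.S2435
import Cfsg.Agent.Lib.CharDeg.SL2Struct

set_option autoImplicit false
open Cfsg

namespace Cfsg.Agent.S2435

open Cfsg.Lib.GLTwo Cfsg.Lib.Char Cfsg.Lib.PSL2 in

/-- Let F be a finite field with q elements, q odd and q ≥ 5, and χ an irreducible complex character of SL₂ over F. If χ has degree (q + 1)/2, then at a diagonal element with entry a, a² ≠ 1, χ takes the value 1 when a is a square in F and −1 otherwise. If χ has degree (q − 1)/2, then at an element g with no eigenvector in F² (so g has order dividing q + 1), χ takes the value −1 when g raised to the power (q + 1)/2 is the identity and the value 1 otherwise. -/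
theorem result {F : Type*} [Field F] [Fintype F] (hodd : Odd (Fintype.card F)) (hq : 5 ≤ Fintype.card F)
    (χ : Matrix.SpecialLinearGroup (Fin 2) F → ℂ) (hχ : Cfsg.IsIrrCharacter (Matrix.SpecialLinearGroup (Fin 2) F) χ) (g : Matrix.SpecialLinearGroup (Fin 2) F) :
    (χ 1 = (((Fintype.card F + 1) / 2 : ℕ) : ℂ) → (g : Matrix (Fin 2) (Fin 2) F) 0 1 = 0 → (g : Matrix (Fin 2) (Fin 2) F) 1 0 = 0 → (g : Matrix (Fin 2) (Fin 2) F) 0 0 ^ 2 ≠ 1 →
      (IsSquare ((g : Matrix (Fin 2) (Fin 2) F) 0 0) → χ g = 1) ∧ (¬ IsSquare ((g : Matrix (Fin 2) (Fin 2) F) 0 0) → χ g = -1)) ∧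
    (χ 1 = (((Fintype.card F - 1) / 2 : ℕ) : ℂ) → (∀ (c : F) (v : Fin 2 → F), v ≠ 0 → (g : Matrix (Fin 2) (Fin 2) F).mulVec v ≠ c • v) →
      (((g ^ ((Fintype.card F + 1) / 2)) : Matrix (Fin 2) (Fin 2) F) = 1 → χ g = -1) ∧ (((g ^ ((Fintype.card F + 1) / 2)) : Matrix (Fin 2) (Fin 2) F) ≠ 1 → χ g = 1)) := by
  classical
  obtain ⟨a, b, h'⟩ := exists_no_root F
  haveI := Fact.mk h'
  refine ⟨fun hd _ h2 h3 => ?_, fun hd hg => ?_⟩
  · obtain ⟨α, χ', e1, e2, hp⟩ := mem_halfPs_of_deg hodd hq hχ hd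
    have h4 := (borS_ne_iff h2).2 h3
    have h0 := borS_ne_zero h2
    rw [hp.apply_of_isConj (isConj_sig_of_split h2 h4),
      show ps α 1 (tg g) = _ from rps_split α h2 h4, borS_inv h2]
    refine ⟨fun hs => ?_, fun hs => ?_⟩
    · rw [(mulChar_sq_apply e1 e2 h0).1 hs, (mulChar_sq_apply e1 e2 (inv_ne_zero h0)).1 hs.inv]
      norm_num
    · rw [(mulChar_sq_apply e1 e2 h0).2 hs, (mulChar_sq_apply e1 e2 (inv_ne_zero h0)).2
        (by rwa [isSquare_inv])]
      norm_num
  · obtain ⟨θ, χ', e1, e2, hp⟩ := mem_halfCusp_of_deg a b hodd hq hχ hd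
    obtain ⟨z, hz, e⟩ := Ell.exists_isConj_embS a b hg
    have e' : IsConj (tg g) (emb a b z) := by
      rw [← tg_embS]; exact tg.map_isConj e
    rw [hp.apply_of_isConj (isConj_sig_of_ell hg),
      show cusp θ (tg g) = _ from rcusp_of_isConj θ hz e', ← res1_apply]
    have hc : Nat.card (normU a b).ker = 2 * ((Fintype.card F + 1) / 2) := by
      rw [card_ker_normU, Nat.card_eq_fintype_card]
      obtain ⟨k, hk⟩ := hodd
      omega
    have key := hom_apply_of_cyclic hc e1 e2 z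
    have hiff : ((g ^ ((Fintype.card F + 1) / 2)) : Matrix (Fin 2) (Fin 2) F) = 1 ↔
        z ^ ((Fintype.card F + 1) / 2) = 1 := by
      rw [← embS_injective.eq_iff, map_pow, map_one, ← orderOf_dvd_iff_pow_eq_one (x := embS a b z),
        ← orderOf_eq_of_isConj e, orderOf_dvd_iff_pow_eq_one]
      exact ⟨fun h => Subtype.ext (by simpa using h), fun h => by
        rw [← Matrix.SpecialLinearGroup.coe_pow, h]; rfl⟩
    refine ⟨fun h => ?_, fun h => ?_⟩
    · rw [key.1 (hiff.1 h)]; norm_num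
    · rw [key.2 (mt hiff.2 h)]; norm_num

end Cfsg.Agent.S2435
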