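import Cfsg.Statements.S2436
import Cfsg.Agent.Lib.CharDeg.SL2McKay

set_option autoImplicit false
open Cfsg

namespace Cfsg.Agent.S2436

open Cfsg.Lib.GLTwo Cfsg.Lib.Char Cfsg.Lib.PSL2 in

/-- Let F be a finite field with q elements, q odd, ℓ any prime and S a Sylow ℓ-subgroup of SL₂ over F with normaliser N. Then SL₂ and N have the same number of irreducible complex characters of degree not divisible by ℓ (the McKay equality holds for SL₂ over F at every prime). -/
theorem result {F : Type*} [Field F] [Fintype F] (hodd : Odd (Fintype.card F)) (ℓ : ℕ) [Fact ℓ.Prime] (S : Sylow ℓ (Matrix.SpecialLinearGroup (Fin 2) F)) :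
    Nat.card {χ : Cfsg.IrrCharacter (Matrix.SpecialLinearGroup (Fin 2) F) // ¬ ℓ ∣ Cfsg.charDegree (χ : Matrix.SpecialLinearGroup (Fin 2) F → ℂ)} =
      Nat.card {ψ : Cfsg.IrrCharacter (Subgroup.normalizer ((S : Subgroup (Matrix.SpecialLinearGroup (Fin 2) F)) : Set (Matrix.SpecialLinearGroup (Fin 2) F))) //
        ¬ ℓ ∣ Cfsg.charDegree (ψ : Subgroup.normalizer ((S : Subgroup (Matrix.SpecialLinearGroup (Fin 2) F)) : Set (Matrix.SpecialLinearGroup (Fin 2) F)) → ℂ)} := by
  classical
  have h2 := two_ne_zero_iff_odd.2 (by rwa [Nat.card_eq_fintype_card] : Odd (Nat.card F))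
  have hl : ℓ.Prime := Fact.out
  have hl1 : ¬ ℓ ∣ 1 := hl.one_lt.ne' ∘ Nat.dvd_one.1
  obtain ⟨a, b, hab⟩ := exists_no_root F
  haveI := Fact.mk hab
  have hq := Nat.odd_iff.1 hodd
  have hq1 := Fintype.one_lt_card (α := F)
  have hfin : {χ : Matrix.SpecialLinearGroup (Fin 2) F → ℂ | IsIrrCharacter _ χ}.Finite :=
    inferInstanceAs (Finite (IrrCharacter (Matrix.SpecialLinearGroup (Fin 2) F)))
  haveI : Finite (halfPs (F := F)) := hfin.subset fun χ h => halfPs_irr h
  haveI : Finite (halfCusp a b) := hfin.subset fun χ h => halfCusp_irr h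
  haveI : Finite (cuspSet a b) := hfin.subset fun χ h => cuspSet_irr h
  have d1 : ∀ χ ∈ halfPs (F := F), charDegree χ = (Fintype.card F + 1) / 2 := fun χ h =>
    charDegree_eq_of_apply_one (halfPs_apply_one h)
  have d2 : ∀ χ ∈ halfCusp a b, charDegree χ = (Fintype.card F - 1) / 2 := fun χ h =>
    charDegree_eq_of_apply_one (halfCusp_apply_one h)
  have d3 : ∀ χ ∈ cuspSet a b, charDegree χ = Fintype.card F - 1 := fun χ h =>
    deg_sub_one (cuspSet_apply_one h)
  have d4 : ∀ α : MulChar F ℂ, charDegree (rps α) = Fintype.card F + 1 := fun α =>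
    deg_add_one (rps_apply_one α)
  have d5 : charDegree (rst (F := F)) = Fintype.card F := charDegree_eq_of_apply_one rst_apply_one
  have n1 := ncard_range_rps (F := F)
  have n2 := ncard_cuspSet a b
  have n3 := ncard_halfPs (F := F)
  have n4 := ncard_halfCusp a b
  have n5 := card_irr_SL2 (F := F)
  rw [if_pos hodd] at n1 n2 n3 n4 n5
  have hd1 : ∀ {k}, k ∣ (Fintype.card F + 1) / 2 → k ∣ Fintype.card F + 1 := fun h =>
    h.trans (Nat.div_dvd_of_dvd (by omega))
  have hd2 : ∀ {k}, k ∣ (Fintype.card F - 1) / 2 → k ∣ Fintype.card F - 1 := fun h =>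
    h.trans (Nat.div_dvd_of_dvd (by omega))
  have c1 : ¬ (ℓ ∣ Fintype.card F ∧ ℓ ∣ Fintype.card F + 1) := fun h =>
    hl1 ((Nat.dvd_add_right h.1).1 h.2)
  have c2 : ¬ (ℓ ∣ Fintype.card F ∧ ℓ ∣ Fintype.card F - 1) := fun h =>
    hl1 ((Nat.dvd_sub_iff_right hq1.le h.1).1 h.2)
  by_cases hℓ : ℓ = 2
  · subst hℓ
    rw [card_odd_normalizer_two hodd S]
    have hne : (fun _ => 1 : Matrix.SpecialLinearGroup (Fin 2) F → ℂ) ≠ rst := fun e => by
      have := congrArg charDegree e
      rw [charDegree_one, d5] at this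
      omega
    by_cases h4 : Fintype.card F % 4 = 1
    · rw [card_irr_subtype_eq (fun χ => ¬ 2 ∣ charDegree χ) ({fun _ => 1, rst} ∪ halfPs),
        Set.ncard_union_eq, Set.ncard_pair hne, n3]
      · rw [Set.disjoint_left]
        rintro χ (rfl | rfl) h
        · have := d1 _ h
          rw [charDegree_one] at this
          omega
        · have := d1 _ h
          omega
      · refine fun χ => ⟨?_, fun ⟨h, h'⟩ => ?_⟩
        · rintro ((rfl | rfl) | h)
          · exact ⟨isIrrCharacter_one, by rw [charDegree_one]; decide⟩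
          · exact ⟨isIrr_rst, by omega⟩
          · exact ⟨halfPs_irr h, by rw [d1 _ h]; omega⟩
        · rcases irr_cases_deg a b h with e | e | e | e | e | e
          · exact .inl (.inl e.1)
          · exact .inl (.inr e.1)
          · omega
          · omega
          · exact .inr e.1
          · omega
    · rw [card_irr_subtype_eq (fun χ => ¬ 2 ∣ charDegree χ) ({fun _ => 1, rst} ∪ halfCusp a b),
        Set.ncard_union_eq, Set.ncard_pair hne, n4]
      · rw [Set.disjoint_left]
        exact fun χ h => not_mem_halfCusp h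
      · refine fun χ => ⟨?_, fun ⟨h, h'⟩ => ?_⟩
        · rintro ((rfl | rfl) | h)
          · exact ⟨isIrrCharacter_one, by rw [charDegree_one]; decide⟩
          · exact ⟨isIrr_rst, by omega⟩
          · exact ⟨halfCusp_irr h, by rw [d2 _ h]; omega⟩
        · rcases irr_cases_deg a b h with e | e | e | e | e | e
          · exact .inl (.inl e.1)
          · exact .inl (.inr e.1)
          · omega
          · omega
          · omega
          · exact .inr e.1
  have hc2 : ℓ.Coprime 2 := (Nat.coprime_primes hl Nat.prime_two).2 hℓ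
  by_cases h0 : ℓ ∣ Fintype.card F
  · obtain ⟨U, hU⟩ := exists_sylow_uniS ℓ h0
    obtain ⟨e⟩ := normalizer_equiv_of_sylow S U
    obtain ⟨g, hg⟩ := MulAction.exists_smul_eq (Matrix.SpecialLinearGroup (Fin 2) F) U S
    rw [card_not_dvd_normalizer_of_comm, card_classes_congr e, hU, normalizer_uniS,
      card_classes_borS h2, card_subtype_not, n5,
      card_irr_subtype_eq (fun χ => ℓ ∣ charDegree χ) {rst}, Set.ncard_singleton]
    · rfl
    · refine fun χ => ⟨?_, fun ⟨h, h'⟩ => ?_⟩
      · rintro rfl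
        exact ⟨isIrr_rst, by rwa [d5]⟩
      · rcases irr_cases_deg a b h with e | e | e | e | e | e
        · exact (hl1 (e.2 ▸ h')).elim
        · exact e.1
        · exact (c1 ⟨h0, e.2 ▸ h'⟩).elim
        · exact (c2 ⟨h0, e.2 ▸ h'⟩).elim
        · exact (c1 ⟨h0, hd1 (e.2.2 ▸ h')⟩).elim
        · exact (c2 ⟨h0, hd2 (e.2.2 ▸ h')⟩).elim
    · subst hg
      rintro _ ⟨x, hx, rfl⟩ _ ⟨y, hy, rfl⟩
      change MulAut.conj g x * MulAut.conj g y = MulAut.conj g y * MulAut.conj g x
      rw [← map_mul, ← map_mul, comm_uniS x (hU.le hx) y (hU.le hy)]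
  by_cases h1 : ℓ ∣ Fintype.card F ^ 2 - 1
  · obtain ⟨s, hs, hr, ho, hP⟩ := exists_reg_of_sylow h2 hℓ h1 S
    rw [card_not_dvd_normalizer_of_comm S fun x hx y hy =>
      comm_of_mem_centralizer hr.not_scal (hP hx) (hP hy), hr.normalizer_eq h2 hs hP,
      card_subtype_not, n5]
    have k1 := hr.card_classes_normalizer h2
    have k2 := Subgroup.orderOf_dvd_natCard _ (self_mem_centralizer s)
    rw [ho] at k2
    obtain ⟨-, h4 | h4⟩ := hr.centralizer_cases
    · rw [h4] at k1 k2
      have k3 : ¬ ℓ ∣ Fintype.card F + 1 := not_dvd_both hl hℓ k2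
      rw [card_irr_subtype_eq (fun χ => ℓ ∣ charDegree χ) (cuspSet a b ∪ halfCusp a b),
        Set.ncard_union_eq, n4]
      · omega
      · rw [Set.disjoint_left]
        intro χ h h'
        have := d3 _ h
        have := d2 _ h'
        omega
      · refine fun χ => ⟨?_, fun ⟨h, h'⟩ => ?_⟩
        · rintro (h | h)
          · exact ⟨cuspSet_irr h, by rwa [d3 _ h]⟩
          · refine ⟨halfCusp_irr h, ?_⟩
            rw [d2 _ h]
            exact hc2.dvd_of_dvd_mul_left (by rwa [Nat.mul_div_cancel' (by omega)])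
        · rcases irr_cases_deg a b h with e | e | e | e | e | e
          · exact (hl1 (e.2 ▸ h')).elim
          · exact (h0 (e.2 ▸ h')).elim
          · exact (k3 (e.2 ▸ h')).elim
          · exact .inl e.1
          · exact (k3 (hd1 (e.2.2 ▸ h'))).elim
          · exact .inr e.1
    · rw [h4] at k1 k2
      have k3 : ¬ ℓ ∣ Fintype.card F - 1 := fun e => not_dvd_both hl hℓ e k2
      rw [card_irr_subtype_eq (fun χ => ℓ ∣ charDegree χ)
        (Set.range (fun α : {α : MulChar F ℂ // α ^ 2 ≠ 1} => rps α.1) ∪ halfPs),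
        Set.ncard_union_eq, n3]
      · omega
      · rw [Set.disjoint_left]
        rintro _ ⟨α, rfl⟩ h'
        have e1 := d4 α.1
        have e2 := d1 _ h'
        simp only at e2
        omega
      · refine fun χ => ⟨?_, fun ⟨h, h'⟩ => ?_⟩
        · rintro (⟨α, rfl⟩ | h)
          · exact ⟨isIrr_rps_iff.2 α.2, by rwa [d4]⟩
          · refine ⟨halfPs_irr h, ?_⟩
            rw [d1 _ h]
            exact hc2.dvd_of_dvd_mul_left (by rwa [Nat.mul_div_cancel' (by omega)])
        · rcases irr_cases_deg a b h with e | e | e | e | e | e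
          · exact (hl1 (e.2 ▸ h')).elim
          · exact (h0 (e.2 ▸ h')).elim
          · obtain ⟨⟨α, h1, rfl⟩, -⟩ := e
            exact .inl ⟨⟨α, h1⟩, rfl⟩
          · exact (k3 (e.2 ▸ h')).elim
          · exact .inr e.1
          · exact (k3 (hd2 (e.2.2 ▸ h'))).elim
  · have hG : ¬ ℓ ∣ Nat.card (Matrix.SpecialLinearGroup (Fin 2) F) := by
      rw [card_SL2, Nat.card_eq_fintype_card, hl.dvd_mul]
      exact fun h => h.elim h0 h1
    rw [card_not_dvd_of_forall fun χ h e => hG (e.trans h.charDegree_dvd_card),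
      card_not_dvd_of_forall fun χ h e => hG ((e.trans h.charDegree_dvd_card).trans
        (Subgroup.card_subgroup_dvd_card _))]
    have hS : (S : Subgroup (Matrix.SpecialLinearGroup (Fin 2) F)) = ⊥ := by
      obtain ⟨k, hk⟩ := IsPGroup.iff_card.1 S.isPGroup'
      rcases k with _ | k
      · exact Subgroup.card_eq_one.1 hk
      · exact (hG ((dvd_pow_self ℓ k.succ_ne_zero).trans
          (hk ▸ Subgroup.card_subgroup_dvd_card _))).elim
    rw [hS, Subgroup.normalizer_eq_top ⊥]
    exact (card_classes_congr Subgroup.topEquiv).symm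

end Cfsg.Agent.S2436
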