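import Cfsg.Statements.S2439
import Cfsg.Agent.Lib.CharDeg.SL2McKay
import Cfsg.Agent.Lib.Block.DefectOrder

set_option autoImplicit false
open Cfsg

namespace Cfsg.Agent.S2439

open Cfsg.Lib.GLTwo Cfsg.Lib.Char Cfsg.Lib.PSL2 Cfsg.Lib.Block in

/-- Let F be a finite field with q elements of odd characteristic p, and M a maximal ideal of the algebraic integers containing p. Then SL₂ over F has exactly three p-blocks relative to M: the irreducible character of degree q (the Steinberg character) alone; the other irreducible characters taking the same value at −1 as at 1 (the principal block); and the irreducible characters χ with χ(−1) = −χ(1). Every Sylow p-subgroup is a defect group of each of the last two blocks. -/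
theorem result {F : Type*} [Field F] [Fintype F] (p : ℕ) [Fact p.Prime] [CharP F p] (hp : p ≠ 2)
    (M : Ideal Cfsg.AlgInt) (hM : Cfsg.IsPModular p M) :
    (∀ B : Set (Cfsg.IrrCharacter (Matrix.SpecialLinearGroup (Fin 2) F)), Cfsg.IsPBlock M B ↔
      (B = {χ : Cfsg.IrrCharacter (Matrix.SpecialLinearGroup (Fin 2) F) | (χ : Matrix.SpecialLinearGroup (Fin 2) F → ℂ) 1 = (Fintype.card F : ℂ)} ∨
       B = {χ : Cfsg.IrrCharacter (Matrix.SpecialLinearGroup (Fin 2) F) | (χ : Matrix.SpecialLinearGroup (Fin 2) F → ℂ) (-1) = (χ : Matrix.SpecialLinearGroup (Fin 2) F → ℂ) 1 ∧ (χ : Matrix.SpecialLinearGroup (Fin 2) F → ℂ) 1 ≠ (Fintype.card F : ℂ)} ∨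
       B = {χ : Cfsg.IrrCharacter (Matrix.SpecialLinearGroup (Fin 2) F) | (χ : Matrix.SpecialLinearGroup (Fin 2) F → ℂ) (-1) = -(χ : Matrix.SpecialLinearGroup (Fin 2) F → ℂ) 1})) ∧
    Nat.card {B : Set (Cfsg.IrrCharacter (Matrix.SpecialLinearGroup (Fin 2) F)) // Cfsg.IsPBlock M B} = 3 ∧
    ∀ P : Sylow p (Matrix.SpecialLinearGroup (Fin 2) F),
      Cfsg.IsDefectGroup p M {χ : Cfsg.IrrCharacter (Matrix.SpecialLinearGroup (Fin 2) F) | (χ : Matrix.SpecialLinearGroup (Fin 2) F → ℂ) (-1) = (χ : Matrix.SpecialLinearGroup (Fin 2) F → ℂ) 1 ∧ (χ : Matrix.SpecialLinearGroup (Fin 2) F → ℂ) 1 ≠ (Fintype.card F : ℂ)} (P : Subgroup (Matrix.SpecialLinearGroup (Fin 2) F)) ∧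
      Cfsg.IsDefectGroup p M {χ : Cfsg.IrrCharacter (Matrix.SpecialLinearGroup (Fin 2) F) | (χ : Matrix.SpecialLinearGroup (Fin 2) F → ℂ) (-1) = -(χ : Matrix.SpecialLinearGroup (Fin 2) F → ℂ) 1} (P : Subgroup (Matrix.SpecialLinearGroup (Fin 2) F)) := by
  classical
  haveI : Modular p M := ⟨hM⟩
  have hp' : p.Prime := Fact.out
  have hodd := odd_card_of_char_ne_two (F := F) p hp
  have h2 := two_ne_zero_iff_odd.2 hodd
  obtain ⟨a, b, hab⟩ := exists_no_root F
  haveI := Fact.mk hab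
  have hq1 := Fintype.one_lt_card (α := F)
  have h0 : p ∣ Fintype.card F := by
    obtain ⟨n, -, hn⟩ := FiniteField.card F p
    rw [hn]; exact dvd_pow_self p n.ne_zero
  have hl1 : ¬ p ∣ 1 := hp'.one_lt.ne' ∘ Nat.dvd_one.1
  have hq := Nat.odd_iff.1 hodd
  rw [Nat.card_eq_fintype_card] at hq
  have c1 : ¬ p ∣ Fintype.card F + 1 := fun h => hl1 ((Nat.dvd_add_right h0).1 h)
  have c2 : ¬ p ∣ Fintype.card F - 1 := fun h => hl1 ((Nat.dvd_sub_iff_right hq1.le h0).1 h)
  have hdeg : ∀ χ : Matrix.SpecialLinearGroup (Fin 2) F → ℂ, IsIrrCharacter _ χ →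
      χ 1 ≠ Fintype.card F → ¬ p ∣ charDegree χ := by
    intro χ h h1 h'
    rcases irr_cases_deg a b h with e | e | e | e | e | e
    · exact hl1 (e.2 ▸ h')
    · exact h1 (by rw [e.1, rst_apply_one])
    · exact c1 (e.2 ▸ h')
    · exact c2 (e.2 ▸ h')
    · exact c1 ((e.2.2 ▸ h').trans (Nat.div_dvd_of_dvd (by omega)))
    · exact c2 ((e.2.2 ▸ h').trans (Nat.div_dvd_of_dvd (by omega)))
  have hred : ∀ χ : Matrix.SpecialLinearGroup (Fin 2) F → ℂ, IsIrrCharacter _ χ →
      χ 1 ≠ Fintype.card F → red M (χ 1) ≠ 0 ∧ ∀ g, red M (centralChar χ g) =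
        ((Subgroup.centralizer {g}).index : Res M) * (red M (χ g) / red M (χ 1)) := by
    intro χ h h1
    have e : red M (χ 1) ≠ 0 := by
      rw [h.apply_one_eq, Ne, red_natCast_eq_zero_iff]; exact hdeg χ h h1
    refine ⟨e, fun g => ?_⟩
    rw [centralChar_def, red_div (mul_mem (natCast_mem _ _) (char_mem h.isCharacter g)) e,
      red_mul (natCast_mem _ _) (char_mem h.isCharacter g), red_natCast, mul_div_assoc]
  have hval : ∀ χ : Matrix.SpecialLinearGroup (Fin 2) F → ℂ, IsIrrCharacter _ χ →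
      χ 1 ≠ Fintype.card F → ∀ ε : ℤ, χ (-1) = ε * χ 1 → ∀ x : F,
        red M (χ (upper x)) / red M (χ 1) = 1 ∧ red M (χ (-upper x)) / red M (χ 1) = ε := by
    intro χ h h1 ε hε x
    have e := (hred χ h h1).1
    have e1 : red M (χ (upper x)) = red M (χ 1) := red_char_of_pElt h.isCharacter (by
      obtain ⟨k, -, hk⟩ := (Nat.dvd_prime_pow hp').1
        (orderOf_dvd_of_pow_eq_one (n := p ^ 1) (by rw [pow_one]; exact upper_pow_char p x))
      exact ⟨k, hk⟩)
    refine ⟨by rw [e1, div_self e], ?_⟩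
    rw [irr_apply_neg h, hε, mul_div_cancel_right₀ _ h.apply_one_ne_zero,
      red_mul (intCast_mem _ _) (char_mem h.isCharacter _), red_intCast, e1,
      mul_div_cancel_right₀ _ e]
  have hsame : ∀ χ ψ : Matrix.SpecialLinearGroup (Fin 2) F → ℂ, IsIrrCharacter _ χ →
      IsIrrCharacter _ ψ → χ 1 ≠ Fintype.card F → ψ 1 ≠ Fintype.card F → ∀ ε : ℤ,
      χ (-1) = ε * χ 1 → ψ (-1) = ε * ψ 1 → SameBlock M χ ψ := by
    intro χ ψ h h' h1 h1' ε hε hε'
    rw [sameBlock_iff_red h h']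
    intro g
    rw [(hred χ h h1).2, (hred ψ h' h1').2]
    have hreg : Reg g → ((Subgroup.centralizer {g}).index : Res M) = 0 := by
      intro hg
      rw [CharP.cast_eq_zero_iff (Res M) p]
      have e := (Subgroup.centralizer ({g} : Set (Matrix.SpecialLinearGroup (Fin 2) F))).index_mul_card
      rw [card_SL2, Nat.card_eq_fintype_card (α := F)] at e
      have e1 : p ∣ _ := e ▸ h0.mul_right _
      refine (hp'.dvd_mul.1 e1).resolve_right ?_
      rcases hg.centralizer_cases.2 with e2 | e2 <;> rwa [e2]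
    rcases sl_cases g with (e | e) | ⟨x, -, e | e⟩ | ⟨c, hc, e⟩ | e
    · have e1 := (hval χ h h1 ε hε 0).1
      have e2 := (hval ψ h' h1' ε hε' 0).1
      rw [upper_zero] at e1 e2
      rw [e, e1, e2]
    · have e1 := (hval χ h h1 ε hε 0).2
      have e2 := (hval ψ h' h1' ε hε' 0).2
      rw [upper_zero] at e1 e2
      rw [e, e1, e2]
    · rw [h.isClassFunction.eq_of_isConj e, h'.isClassFunction.eq_of_isConj e,
        (hval χ h h1 ε hε x).1, (hval ψ h' h1' ε hε' x).1]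
    · rw [h.isClassFunction.eq_of_isConj e, h'.isClassFunction.eq_of_isConj e,
        (hval χ h h1 ε hε x).2, (hval ψ h' h1' ε hε' x).2]
    · rw [hreg ((reg_dgs.2 hc).of_isConj e.symm), zero_mul, zero_mul]
    · rw [hreg (e.reg h2), zero_mul, zero_mul]
  have hdiff : ∀ χ ψ : Matrix.SpecialLinearGroup (Fin 2) F → ℂ, IsIrrCharacter _ χ →
      IsIrrCharacter _ ψ → χ (-1) = χ 1 → ψ (-1) = -ψ 1 → ¬ SameBlock M χ ψ := by
    intro χ ψ h h' e e' hs
    have := (sameBlock_iff_red h h').1 hs (-1)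
    have hc : (Subgroup.centralizer ({-1} : Set (Matrix.SpecialLinearGroup (Fin 2) F))).index = 1 := by
      rw [Subgroup.index_eq_one, Subgroup.centralizer_eq_top_iff_subset, Set.singleton_subset_iff]
      exact mem_center_SL2_iff.2 (.inr rfl)
    rw [centralChar_def, centralChar_def, hc, e, e', Nat.cast_one, one_mul, one_mul, neg_div,
      div_self h.apply_one_ne_zero, div_self h'.apply_one_ne_zero, red_neg, red_one] at this
    have h3 : ((2 : ℕ) : Res M) = 0 := by push_cast; linear_combination this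
    rw [CharP.cast_eq_zero_iff (Res M) p] at h3
    exact hp ((Nat.prime_dvd_prime_iff_eq hp' Nat.prime_two).1 h3)
  have hst : blockOf M (rst (F := F)) = {⟨rst, isIrr_rst⟩} := by
    refine (blockOf_eq_singleton_iff (p := p) ⟨rst, isIrr_rst⟩).2 ?_
    change (charDegree rst).factorization p = _
    rw [charDegree_eq_of_apply_one rst_apply_one, card_SL2, Nat.card_eq_fintype_card,
      card_sq_sub_one, Nat.factorization_mul (by omega) (Nat.mul_ne_zero (by omega) (by omega)),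
      Finsupp.add_apply, Nat.factorization_eq_zero_of_not_dvd (n := _ * _)
        fun e => (hp'.dvd_mul.1 e).elim c2 c1, add_zero]
  have hst' : ∀ χ : IrrCharacter (Matrix.SpecialLinearGroup (Fin 2) F),
      SameBlock M rst (χ : Matrix.SpecialLinearGroup (Fin 2) F → ℂ) → χ.1 = rst := fun χ h => by
    have : χ ∈ blockOf M (rst (F := F)) := h
    rw [hst] at this
    exact congrArg Subtype.val this
  have hneg : rst (-1 : Matrix.SpecialLinearGroup (Fin 2) F) = rst (1 : Matrix.SpecialLinearGroup (Fin 2) F) := by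
    rw [rst_apply_one, rst_scal (scal_sl_iff.2 (.inr rfl))]
  have hboth : ∀ χ : Matrix.SpecialLinearGroup (Fin 2) F → ℂ, IsIrrCharacter _ χ →
      χ (-1) = χ 1 → χ (-1) ≠ -χ 1 := fun χ h e e' =>
    h.apply_one_ne_zero (by linear_combination (e' - e) / 2)
  have hne : ∀ χ : Matrix.SpecialLinearGroup (Fin 2) F → ℂ, IsIrrCharacter _ χ →
      χ (-1) = -χ 1 → χ 1 ≠ Fintype.card F := fun χ h e e' => by
    rw [eq_rst_of_deg h e'] at e
    exact hboth _ isIrr_rst hneg e
  have b1 : ∀ χ : IrrCharacter (Matrix.SpecialLinearGroup (Fin 2) F), χ.1 1 = Fintype.card F →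
      blockOf M χ.1 = {χ : IrrCharacter (Matrix.SpecialLinearGroup (Fin 2) F) |
        χ.1 1 = (Fintype.card F : ℂ)} := by
    intro χ h
    rw [eq_rst_of_deg χ.2 h, hst]
    ext ψ
    exact ⟨fun e => by rw [Set.mem_singleton_iff.1 e]; exact rst_apply_one,
      fun e => Subtype.ext (eq_rst_of_deg ψ.2 e)⟩
  have b2 : ∀ χ : IrrCharacter (Matrix.SpecialLinearGroup (Fin 2) F), χ.1 (-1) = χ.1 1 →
      χ.1 1 ≠ Fintype.card F → blockOf M χ.1 = {χ : IrrCharacter (Matrix.SpecialLinearGroup (Fin 2) F) |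
        χ.1 (-1) = χ.1 1 ∧ χ.1 1 ≠ (Fintype.card F : ℂ)} := by
    intro χ h h'
    ext ψ
    refine ⟨fun e => ⟨(irr_apply_neg_one ψ.2).resolve_right fun e' => hdiff _ _ χ.2 ψ.2 h e' e,
      fun e' => h' ?_⟩, fun e => hsame _ _ χ.2 ψ.2 h' e.2 1 (by simpa using h) (by simpa using e.1)⟩
    have e1 : SameBlock M χ.1 ψ.1 := e
    rw [eq_rst_of_deg ψ.2 e'] at e1
    rw [hst' χ (sameBlock_symm e1), rst_apply_one]
  have b3 : ∀ χ : IrrCharacter (Matrix.SpecialLinearGroup (Fin 2) F), χ.1 (-1) = -χ.1 1 →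
      blockOf M χ.1 = {χ : IrrCharacter (Matrix.SpecialLinearGroup (Fin 2) F) |
        χ.1 (-1) = -χ.1 1} := by
    intro χ h
    ext ψ
    exact ⟨fun e => (irr_apply_neg_one ψ.2).resolve_left fun e' =>
      hdiff _ _ ψ.2 χ.2 e' h (sameBlock_symm e), fun e => hsame _ _ χ.2 ψ.2 (hne _ χ.2 h)
        (hne _ ψ.2 e) (-1) (by simpa using h) (by simpa using e)⟩
  obtain ⟨χ₃, h3⟩ : ∃ χ : IrrCharacter (Matrix.SpecialLinearGroup (Fin 2) F), χ.1 (-1) = -χ.1 1 := by
    by_contra hn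
    push Not at hn
    exact sl_neg_one_ne_one h2 (isConj_one_left.1 (isConj_of_forall_irr fun χ hχ =>
      (irr_apply_neg_one hχ).resolve_right (hn ⟨χ, hχ⟩)))
  have h1q : (1 : ℂ) ≠ Fintype.card F := by exact_mod_cast hq1.ne
  have key : ∀ B : Set (IrrCharacter (Matrix.SpecialLinearGroup (Fin 2) F)), IsPBlock M B ↔
      (B = {χ : IrrCharacter (Matrix.SpecialLinearGroup (Fin 2) F) | χ.1 1 = (Fintype.card F : ℂ)} ∨
       B = {χ : IrrCharacter (Matrix.SpecialLinearGroup (Fin 2) F) |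
        χ.1 (-1) = χ.1 1 ∧ χ.1 1 ≠ (Fintype.card F : ℂ)} ∨
       B = {χ : IrrCharacter (Matrix.SpecialLinearGroup (Fin 2) F) | χ.1 (-1) = -χ.1 1}) := by
    intro B
    constructor
    · rintro ⟨χ, rfl⟩
      by_cases h : χ.1 1 = Fintype.card F
      · exact .inl (b1 χ h)
      · exact .inr ((irr_apply_neg_one χ.2).imp (fun e => b2 χ e h) (b3 χ))
    · rintro (rfl | rfl | rfl)
      · exact ⟨⟨rst, isIrr_rst⟩, (b1 _ rst_apply_one).symm⟩
      · exact ⟨⟨_, isIrrCharacter_one⟩, (b2 _ rfl h1q).symm⟩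
      · exact ⟨χ₃, (b3 _ h3).symm⟩
  refine ⟨key, ?_, fun P => ⟨?_, ?_⟩⟩
  · rw [Nat.card_congr (Equiv.subtypeEquivRight key)]
    refine (Set.ncard_eq_three (s := {B | _ ∨ _ ∨ _})).2 ⟨_, _, _, fun e => ?_, fun e => ?_,
      fun e => ?_, rfl⟩
    · exact (e.le (show (⟨rst, isIrr_rst⟩ : IrrCharacter _) ∈ _ from rst_apply_one)).2 rst_apply_one
    · exact hne _ χ₃.2 h3 (e.ge h3)
    · exact hboth _ χ₃.2 (e.ge h3).1 h3
  · exact ((key _).2 (.inr (.inl rfl))).isDefectGroup_sylow (χ := ⟨_, isIrrCharacter_one⟩)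
      ⟨rfl, h1q⟩ (hdeg _ isIrrCharacter_one h1q) P
  · exact ((key _).2 (.inr (.inr rfl))).isDefectGroup_sylow h3 (hdeg _ χ₃.2 (hne _ χ₃.2 h3)) P

end Cfsg.Agent.S2439
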