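import Cfsg.Statements.S2441
import Cfsg.Agent.Lib.St.ChevLocal
import Cfsg.Agent.Lib.Chev.Types

set_option autoImplicit false
open Cfsg

namespace Cfsg.Agent.S2441

open Cfsg.Lib.Chev Cfsg.Lib.St Cfsg.Lie in
theorem aux (p : ℕ) [Fact p.Prime] (M : Ideal Cfsg.AlgInt) (hM : Cfsg.IsPModular p M)
    {D : ChevalleyDatum} {c : Cert} (h : Checked D c) (hc : h.R.Conn) (h0 : 0 < D.rank) :
    Nat.card {B : Set (Cfsg.IrrCharacter (D.group (ZMod p))) // Cfsg.IsPBlock M B} = 2 := by
  have : Nonempty (Fin D.rank) := ⟨⟨0, h0⟩⟩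
  rw [card_blocks_chev (h.gsys_faithful _) p (h.gsys_grp _) hc hM,
    (h.gsys_faithful _).center_eq_bot (h.gsys_adjoint _) (h.gsys_grp _), Subgroup.card_bot]

/-- For a prime p, the Chevalley groups of types G₂, F₄ and E₈ over the field with p elements (types for which the simply connected and adjoint groups coincide, so the group has trivial centre) each have exactly two p-blocks relative to any maximal ideal of the algebraic integers containing p (only the count is asserted; it arises as the defect-zero block of the Steinberg character plus a single block of maximal defect). -/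
theorem result (p : ℕ) [Fact p.Prime] (M : Ideal Cfsg.AlgInt) (hM : Cfsg.IsPModular p M) :
    Nat.card {B : Set (Cfsg.IrrCharacter (Cfsg.Lie.chevG2.group (ZMod p))) // Cfsg.IsPBlock M B} = 2 ∧
    Nat.card {B : Set (Cfsg.IrrCharacter (Cfsg.Lie.chevF4.group (ZMod p))) // Cfsg.IsPBlock M B} = 2 ∧
    Nat.card {B : Set (Cfsg.IrrCharacter (Cfsg.Lie.chevE8.group (ZMod p))) // Cfsg.IsPBlock M B} = 2 := by
  obtain ⟨c1, h1⟩ := Lib.Chev.exists_checked (D := Lie.chevG2) (by simp [Lib.Chev.types])
  obtain ⟨c2, h2⟩ := Lib.Chev.exists_checked (D := Lie.chevF4) (by simp [Lib.Chev.types])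
  obtain ⟨c3, h3⟩ := Lib.Chev.exists_checked (D := Lie.chevE8) (by simp [Lib.Chev.types])
  exact ⟨aux p M hM h1 (Lib.Chev.connG2 h1) (by decide), aux p M hM h2 (Lib.Chev.connF4 h2) (by decide),
    aux p M hM h3 (Lib.Chev.connE8 h3) (by decide)⟩

end Cfsg.Agent.S2441
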