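import Cfsg.Statements.S2442
import Cfsg.Agent.Lib.Cusp.Final

set_option autoImplicit false
open scoped MatrixGroups
open Cfsg

namespace Cfsg.Agent.S2442

open Cfsg.Lib.Cusp Cfsg.Lib.Char in

open Classical in
/-- Let F be a finite field with q elements and n ≥ 2. Call a complex character χ of GL_n over F cuspidal when, for every 0 < m < n, the sum of χ over the subgroup of matrices that agree with the identity outside the upper right m × (n − m) block vanishes (the restriction of χ to the unipotent radical of each maximal standard parabolic subgroup contains no principal constituent). Then GL_n has at least φ(qⁿ − 1)/n distinct cuspidal irreducible characters of degree (q − 1)(q² − 1)⋯(q^(n−1) − 1), φ being Euler's function (in particular at least one). -/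
theorem result {F : Type*} [Field F] [Fintype F] [DecidableEq F] (n : ℕ) (hn : 2 ≤ n) :
    Nat.totient (Fintype.card F ^ n - 1) / n ≤
      Nat.card {χ : Cfsg.IrrCharacter (GL (Fin n) F) //
        (χ : GL (Fin n) F → ℂ) 1 = ∏ i ∈ Finset.Ico 1 n, ((Fintype.card F : ℂ) ^ i - 1) ∧
        ∀ m : ℕ, 0 < m → m < n →
          (∑ g : GL (Fin n) F,
            if (∀ i j : Fin n, ¬ (i.val < m ∧ m ≤ j.val) → (g : Matrix (Fin n) (Fin n) F) i j = (1 : Matrix (Fin n) (Fin n) F) i j)
            then (χ : GL (Fin n) F → ℂ) g else 0) = 0} := by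
  obtain ⟨n, rfl⟩ := Nat.exists_eq_add_one.2 (show 0 < n by omega)
  obtain ⟨θ, hθ⟩ := AddChar.exists_apply_ne_zero.2 (one_ne_zero (α := F))
  replace hθ : θ ≠ 1 := fun e => hθ (by rw [e, AddChar.one_apply])
  rw [← Nat.card_eq_fintype_card]
  refine (card_cusp n).trans (Nat.card_le_card_of_injective (fun χ => ⟨⟨_, χ.1.2.comp_equiv
    Matrix.GeneralLinearGroup.toLin⟩, ?_, fun m h0 h1 => ?_⟩) fun χ χ' e => Subtype.ext (Subtype.ext
      (funext fun g => by simpa using congrFun (congrArg (·.1.1) e) (Matrix.GeneralLinearGroup.toLin.symm g))))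
  · simp [(χ.2.apply_one hθ).1, gam, Finset.prod_Ico_eq_prod_range, add_comm]
  let T : Submodule F (Fin (n + 1) → F) :=
    ⟨⟨⟨{v | ∀ j : Fin (n + 1), m ≤ j → v j = 0}, fun ha hb j hj => by simp [ha j hj, hb j hj]⟩,
      fun _ _ => rfl⟩, fun c v hv j hj => by simp [hv j hj]⟩
  have h2 : ∀ j : Fin (n + 1), j < m → Pi.single j 1 ∈ T := fun j hj i hi => Pi.single_eq_of_ne (by omega) _
  have h3 := χ.2.add (T := T) (f := 1) (fun e => by simpa using congrFun ((Submodule.mem_bot F).1 (e.le (h2 0 h0))) 0)
    (fun e => one_ne_zero (e.ge (Submodule.mem_top (x := 1)) ⟨m, h1⟩ le_rfl)) fun _ h => h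
  rw [Fintype.expect_eq_sum_div_card, div_eq_zero_iff, or_iff_left (Nat.cast_ne_zero.2 Fintype.card_ne_zero)] at h3
  let G : Module.End F (Fin (n + 1) → F) → ℂ := fun x =>
    if ∀ i j : Fin (n + 1), ¬ (i.val < m ∧ m ≤ j.val) → LinearMap.toMatrix' x i j = (1 : Matrix _ _ F) i j
      then lift χ.1.1 (ty x) else 0
  refine (Fintype.sum_equiv Matrix.GeneralLinearGroup.toLin.toEquiv _ (fun g => G g.1) fun g =>
    if_congr (by simp) (lift_irr ..).symm rfl).trans ((sum_units fun x hx =>
      (sup_lift (χ := χ.1.1) _ _ fun e => hx (by simp [G, e])).1).trans (.trans ?_ h3))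
  refine (Fintype.sum_of_injective (fun η => 1 + T.subtype ∘ₗ η ∘ₗ T.mkQ) (fun η η' e => T.linearMap_qext
    (LinearMap.ext fun v => Subtype.ext (LinearMap.congr_fun (add_left_cancel e) v))) _ G
    (fun x hx => if_neg fun h => hx ?_) fun η => (if_pos fun i j h => ?_).symm).symm
  · have h4 : ∀ v i, (x - 1) v i = ∑ j, (LinearMap.toMatrix' x i j - (1 : Matrix _ _ F) i j) * v j := fun v i => by
      conv_lhs => rw [← Matrix.toLin'_toMatrix' (x - 1), map_sub, LinearMap.toMatrix'_one]
      rfl
    refine ⟨T.liftQ ((x - 1).codRestrict T fun v i hi => ?_) fun v hv => Subtype.ext (funext fun i => ?_),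
      LinearMap.ext fun v => add_sub_cancel v (x v)⟩
    · exact (h4 v i).trans (Finset.sum_eq_zero fun j _ => by rw [h i j (by omega), sub_self, zero_mul])
    · refine (h4 v i).trans (Finset.sum_eq_zero fun j _ => ?_)
      by_cases hj : m ≤ j
      · rw [hv j hj, mul_zero]
      · rw [h i j (by omega), sub_self, zero_mul]
  · rw [map_add, LinearMap.toMatrix'_one, Matrix.add_apply, add_eq_left, LinearMap.toMatrix'_apply]
    by_cases hj : m ≤ j
    · exact (η _).2 i (by omega)
    · simp [(Submodule.Quotient.mk_eq_zero T).2 (h2 j (by omega))]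

end Cfsg.Agent.S2442
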