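import Cfsg.Statements.S2531

set_option autoImplicit false
open Cfsg

namespace Cfsg.Agent.S2531

open Projectivization in
theorem card_pts {F V : Type*} [Field F] [Finite F] [AddCommGroup V] [Module F V] [Finite V]
    (W : Submodule F V) (hW : W ≠ ⊥) :
    (Nat.card {x : Projectivization F V // x.rep ∈ W} : F) = 1 := by
  have h1 : Nat.card (Projectivization F W) = Nat.card {x : Projectivization F V // x.rep ∈ W} := by
    refine Nat.card_congr (Equiv.ofBijective (fun y => ⟨map W.subtype W.injective_subtype y, ?_⟩)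
      ⟨fun a b h => map_injective _ _ (Subtype.mk.inj h), fun x => ?_⟩)
    · induction y using Projectivization.ind with
      | h v hv =>
        rw [map_mk]
        obtain ⟨a, ha⟩ := exists_smul_eq_mk_rep F (W.subtype v) (by simpa using hv)
        rw [← ha]
        exact W.smul_mem _ v.2
    · exact ⟨mk F ⟨x.1.rep, x.2⟩ fun h => x.1.rep_nonzero (congrArg Subtype.val h),
        Subtype.ext (by simp [map_mk])⟩
  have h2 := congrArg (Nat.cast : ℕ → F) (card' F W)
  haveI := Fintype.ofFinite F
  have h3 : (Nat.card F : F) = 0 := by simp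
  have h4 : Module.finrank F W ≠ 0 := fun h => hW (Submodule.finrank_eq_zero.1 h)
  rw [Module.natCard_eq_pow_finrank (K := F), h1] at h2
  push_cast [Nat.cast_sub (Nat.card_pos (α := F))] at h2
  rw [h3, zero_pow h4] at h2
  linear_combination h2

theorem main {F V : Type*} [Field F] [Finite F] [AddCommGroup V] [Module F V] [Finite V]
    (φ : V →ₗ[F] F) (v₀ : V) (hv₀ : φ v₀ ≠ 0) (hV : Nat.card F ^ 2 < Nat.card V)
    (S : Set (Equiv.Perm (Projectivization F V)))
    (hS : ∀ s ∈ S, ∃ (σ : F ≃+* F) (f : V →ₛₗ[(σ : F →+* F)] V) (hf : Function.Injective f),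
      ∀ x, s x = Projectivization.map f hf x) :
    ¬ (∀ a b c d : Projectivization F V, a ≠ b → c ≠ d → ∃! s, s ∈ S ∧ s a = c ∧ s b = d) := by
  classical
  intro h
  haveI := Fintype.ofFinite V
  haveI := Fintype.ofFinite F
  haveI := Fintype.ofFinite (Projectivization F V)
  let H : Submodule F V := LinearMap.ker φ
  have e0 : v₀ ≠ 0 := fun h => hv₀ (by simp [h])
  let a := Projectivization.mk F _ e0
  have hmem : ∀ (W : Submodule F V) v hv,
      (Projectivization.mk F v hv).rep ∈ W ↔ v ∈ W := by
    intro W v hv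
    obtain ⟨c, hc⟩ := Projectivization.exists_smul_eq_mk_rep F v hv
    rw [← hc]
    exact W.smul_mem_iff c.ne_zero
  have ha : ∀ x : Projectivization F V, x.rep ∈ H → a ≠ x := by
    rintro _ hx rfl
    exact hv₀ ((hmem H _ e0).1 hx)
  have h3 : ∀ (σ : F ≃+* F) (f : V →ₛₗ[(σ : F →+* F)] V), H ⊓ H.comap f ≠ ⊥ := by
    intro σ f
    obtain ⟨x, y, hxy, e⟩ := Fintype.exists_ne_map_eq_of_card_lt
      (fun v : V => (φ v, φ (f v))) (by
        simpa only [Fintype.card_prod, ← sq, Nat.card_eq_fintype_card] using hV)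
    refine (Submodule.ne_bot_iff _).2 ⟨x - y, ?_, sub_ne_zero.2 hxy⟩
    simpa [H, sub_eq_zero] using e
  have hH : H ≠ ⊥ := fun h => h3 (RingEquiv.refl F) 0 (by simp [h])
  haveI : Nontrivial V := nontrivial_of_ne _ _ e0
  obtain ⟨T, hTm⟩ : ∃ T : Finset (Equiv.Perm (Projectivization F V)), ∀ s, s ∈ T ↔ s ∈ S ∧ s a = a :=
    ⟨Finset.univ.filter fun s => s ∈ S ∧ s a = a, by simp⟩
  obtain ⟨B, hBm⟩ : ∃ B : Finset (Projectivization F V), ∀ x, x ∈ B ↔ x.rep ∈ H :=
    ⟨Finset.univ.filter fun x => x.rep ∈ H, by simp⟩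
  have hcount : ∀ b, a ≠ b → ∀ C : Finset (Projectivization F V), a ∉ C →
      (T.filter fun s => s b ∈ C).card = C.card := by
    intro b hb C hC
    refine Finset.card_bij (fun s _ => s b) (fun s hs => (Finset.mem_filter.1 hs).2) ?_ ?_
    · intro s hs t ht hst
      simp only [hTm, Finset.mem_filter] at hs ht
      exact (h a b a (s b) hb (fun e => hC (e ▸ hs.2))).unique ⟨hs.1.1, hs.1.2, rfl⟩
        ⟨ht.1.1, ht.1.2, hst.symm⟩
    · intro c hc
      obtain ⟨s, hs, -⟩ := h a b a c hb (fun e => hC (e ▸ hc))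
      exact ⟨s, by simp [hTm, hs.1, hs.2.1, hs.2.2, hc], hs.2.2⟩
  have hB : (B.card : F) = 1 := by
    rw [← card_pts H hH, Nat.card_eq_fintype_card, Fintype.card_subtype]
    congr 2
    ext; simp [hBm]
  have hT : (T.card : F) = 0 := by
    obtain ⟨b, hb⟩ : B.Nonempty := Finset.card_pos.1 (Nat.pos_of_ne_zero fun h => by simp [h] at hB)
    have hab := ha b ((hBm _).1 hb)
    have h1 := hcount b hab (Finset.univ.erase a) (by simp)
    rw [Finset.filter_true_of_mem (fun s hs => by
      have := ((hTm _).1 hs).2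
      simpa using fun e => hab (s.injective (this.trans e.symm))),
      Finset.card_erase_of_mem (Finset.mem_univ _)] at h1
    have h2 := card_pts (⊤ : Submodule F V) top_ne_bot
    simp only [Submodule.mem_top, Nat.card_eq_fintype_card, Fintype.card_subtype_true] at h2
    rw [h1, Nat.cast_sub (Finset.card_pos.2 ⟨a, Finset.mem_univ _⟩), Finset.card_univ, h2]
    simp
  have h1 : ∑ s ∈ T, (B.filter fun b => s b ∈ B).card = ∑ b ∈ B, (T.filter fun s => s b ∈ B).card :=
    by simp only [Finset.card_filter]; exact Finset.sum_comm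
  replace h1 := h1.trans (Finset.sum_congr rfl fun b hb => hcount b (ha b ((hBm _).1 hb)) B
    fun e => ha a ((hBm _).1 e) rfl)
  have h2 := congrArg (Nat.cast : ℕ → F) h1
  push_cast at h2
  rw [Finset.sum_congr rfl (g := fun _ => (1 : F))] at h2
  · simp [hT, hB] at h2
  intro s hs
  obtain ⟨σ, f, hf, hsf⟩ := hS s ((hTm _).1 hs).1
  rw [← card_pts _ (h3 σ f), Nat.card_eq_fintype_card, Fintype.card_subtype]
  congr 2
  ext x
  simp only [hBm, Finset.mem_filter, Finset.mem_univ, true_and, Submodule.mem_inf,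
    Submodule.mem_comap]
  refine and_congr_right fun _ => ?_
  rw [hsf]
  conv_lhs => rw [← x.mk_rep, Projectivization.map_mk, hmem]

/-- Let `F` be a finite field and `n ≥ 3`. No set of permutations of the points of the projective space of `Fⁿ`, each induced by an invertible semilinear transformation of `Fⁿ` (so a subset of the full projective semilinear group), is sharply 2-transitive on the points: it is impossible that for all pairs of distinct points `(a, b)` and `(c, d)` exactly one member of the set sends `a` to `c` and `b` to `d`. -/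
theorem result {F : Type*} [Field F] [Finite F]
    (n : ℕ) (hn : 3 ≤ n) (S : Set (Equiv.Perm (Projectivization F (Fin n → F))))
    (hS : ∀ s ∈ S, ∃ (σ : F ≃+* F) (f : (Fin n → F) →ₛₗ[(σ : F →+* F)] (Fin n → F)) (hf : Function.Injective f),
      ∀ x, s x = Projectivization.map f hf x) :
    ¬ (∀ a b c d : Projectivization F (Fin n → F), a ≠ b → c ≠ d →
        ∃! s, s ∈ S ∧ s a = c ∧ s b = d) := by
  refine main (LinearMap.proj ⟨0, by omega⟩) (Pi.single ⟨0, by omega⟩ 1) (by simp) ?_ S hS
  rw [Nat.card_fun, Nat.card_fin]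
  exact Nat.pow_lt_pow_right Finite.one_lt_card (by omega)

end Cfsg.Agent.S2531
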