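import Cfsg.Statements.S2532

set_option autoImplicit false
open Cfsg

namespace Cfsg.Agent.S2532

/-- There is a function `f` of two natural-number arguments such that, whenever `m ≥ f(n, r)`, every subgroup of order `n` of the alternating group of degree `m` centralizes some subgroup of that alternating group isomorphic to the alternating group of degree `r`. -/
theorem result :
    ∃ f : ℕ → ℕ → ℕ, ∀ (m r : ℕ) (H : Subgroup ↥(alternatingGroup (Fin m))), f (Nat.card H) r ≤ m →
      ∃ K : Subgroup ↥(alternatingGroup (Fin m)), Nonempty (↥K ≃* ↥(alternatingGroup (Fin r))) ∧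
        K ≤ Subgroup.centralizer (H : Set ↥(alternatingGroup (Fin m))) := by
  classical
  refine ⟨fun n r => n * (2 ^ n * r + 1), fun m r H hm => ?_⟩
  haveI := Fintype.ofFinite H
  haveI := Fintype.ofFinite (Subgroup H)
  let O := MulAction.orbitRel.Quotient H (Fin m)
  haveI : Fintype O := Fintype.ofFinite _
  have hO : 2 ^ Nat.card H * r < Fintype.card O := by
    have h1 := Finset.card_le_mul_card_image (f := fun x : Fin m => (Quotient.mk'' x : O))
      Finset.univ (Nat.card H) (fun o _ => by
        have : (Finset.univ.filter fun x : Fin m => (Quotient.mk'' x : O) = o) ⊆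
            Finset.univ.image fun h : H => h • o.out := by
          intro x hx
          have h2 : x ∈ MulAction.orbit H o.out := by
            rw [← MulAction.orbitRel_apply, ← Quotient.eq'', Quotient.out_eq']
            exact (Finset.mem_filter.1 hx).2
          obtain ⟨h, rfl⟩ := h2
          exact Finset.mem_image_of_mem _ (Finset.mem_univ h)
        exact (Finset.card_le_card this).trans (Finset.card_image_le.trans (by simp)))
    rw [Finset.card_univ, Fintype.card_fin] at h1
    exact (Nat.le_of_mul_le_mul_left (hm.trans h1) Nat.card_pos).trans (Finset.card_le_univ _)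
  have hS : Fintype.card (Subgroup H) ≤ 2 ^ Nat.card H := by
    rw [Nat.card_eq_fintype_card, ← Fintype.card_set]
    exact Fintype.card_le_of_injective _ SetLike.coe_injective
  obtain ⟨L, hL⟩ := Fintype.exists_lt_card_fiber_of_mul_lt_card
    (fun o : O => MulAction.stabilizer H o.out) ((Nat.mul_le_mul_right r hS).trans_lt hO)
  obtain ⟨e⟩ : Nonempty (Fin r ↪ (Finset.univ.filter fun o : O =>
      MulAction.stabilizer H o.out = L)) :=
    Function.Embedding.nonempty_of_card_le (by rw [Fintype.card_coe, Fintype.card_fin]; exact hL.le)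
  have he : ∀ i, MulAction.stabilizer H (e i).1.out = L := fun i => (Finset.mem_filter.1 (e i).2).2
  have hsm : ∀ (i : Fin r) (a b : H), a • (e i).1.out = b • (e i).1.out ↔ a⁻¹ * b ∈ L := by
    intro i a b
    rw [← SetLike.ext_iff.1 (he i), MulAction.mem_stabilizer_iff, mul_smul, inv_smul_eq_iff, eq_comm]
  let j : Fin r × (H ⧸ L) → Fin m := fun x => x.2.out • (e x.1).1.out
  have hj : ∀ (i : Fin r) (a : H), j (i, (a : H ⧸ L)) = a • (e i).1.out := fun i a =>
    (hsm i _ _).2 (QuotientGroup.eq.1 (Quotient.out_eq' _))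
  have hinj : Function.Injective j := by
    rintro ⟨i, a⟩ ⟨i', b⟩ h
    obtain ⟨a, rfl⟩ := QuotientGroup.mk_surjective a
    obtain ⟨b, rfl⟩ := QuotientGroup.mk_surjective b
    rw [hj, hj] at h
    obtain rfl : i = i' := by
      apply e.injective
      apply Subtype.ext
      rw [← Quotient.out_eq' (e i).1, ← Quotient.out_eq' (e i').1, Quotient.eq'',
        MulAction.orbitRel_apply]
      exact ⟨a⁻¹ * b, by simp only [mul_smul, ← h, inv_smul_smul]⟩
    rw [QuotientGroup.eq.2 ((hsm i a b).1 h)]
  have hjs : ∀ (h : H) (x : Fin r × (H ⧸ L)), h • j x = j (x.1, h • x.2) := by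
    rintro h ⟨i, a⟩
    obtain ⟨a, rfl⟩ := QuotientGroup.mk_surjective a
    rw [hj, ← mul_smul, ← hj]
    rfl
  let ψ : Equiv.Perm (Fin r) →* Equiv.Perm (Fin r × (H ⧸ L)) :=
    { toFun := fun σ => σ.prodCongr (Equiv.refl _)
      map_one' := by ext <;> rfl
      map_mul' := fun a b => by ext <;> rfl }
  have hψ : Function.Injective ψ := fun a b h => Equiv.ext fun i =>
    congrArg Prod.fst (congrFun (congrArg DFunLike.coe h) (i, ((1 : H) : H ⧸ L)))
  let φ := (Equiv.Perm.viaEmbeddingHom ⟨j, hinj⟩).comp ψ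
  have hφ : Function.Injective φ := (Equiv.Perm.viaEmbeddingHom_injective _).comp hψ
  have hmem : ∀ σ ∈ alternatingGroup (Fin r), φ σ ∈ alternatingGroup (Fin m) := by
    rw [← Equiv.Perm.closure_three_cycles_eq_alternating]
    change _ ≤ (alternatingGroup (Fin m)).comap φ
    rw [Subgroup.closure_le]
    intro c hc
    have h3 : c = (c * c) * (c * c) := by
      have := pow_orderOf_eq_one c
      rw [Equiv.Perm.IsThreeCycle.orderOf hc] at this
      calc c = c ^ 3 * c := by rw [this, one_mul]
        _ = _ := by simp only [pow_succ, pow_zero, one_mul, mul_assoc]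
    change Equiv.Perm.sign (φ c) = 1
    rw [h3, map_mul φ, map_mul, Int.units_mul_self]
  let θ : alternatingGroup (Fin r) →* alternatingGroup (Fin m) :=
    (φ.comp (Subgroup.subtype _)).codRestrict _ fun σ => hmem σ.1 σ.2
  have hθ : Function.Injective θ := fun a b h => Subtype.ext (hφ (congrArg Subtype.val h))
  refine ⟨θ.range, ⟨(MonoidHom.ofInjective hθ).symm⟩, ?_⟩
  rintro _ ⟨σ, rfl⟩ h hh
  refine Subtype.ext (Equiv.ext fun y => ?_)
  change (⟨h, hh⟩ : H) • ((ψ σ).viaEmbedding ⟨j, hinj⟩ y)
    = (ψ σ).viaEmbedding ⟨j, hinj⟩ ((⟨h, hh⟩ : H) • y)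
  by_cases hy : y ∈ Set.range j
  · obtain ⟨x, rfl⟩ := hy
    rw [hjs]
    exact (congrArg _ (Equiv.Perm.viaEmbedding_apply (ψ σ) ⟨j, hinj⟩ x)).trans
      ((hjs _ _).trans (Equiv.Perm.viaEmbedding_apply (ψ σ) ⟨j, hinj⟩ (x.1, (⟨h, hh⟩ : H) • x.2)).symm)
  · rw [Equiv.Perm.viaEmbedding_apply_of_notMem _ _ _ hy,
      Equiv.Perm.viaEmbedding_apply_of_notMem]
    rintro ⟨x, hx⟩
    exact hy ⟨_, (hjs (⟨h, hh⟩ : H)⁻¹ x).symm.trans (inv_smul_eq_iff.2 hx)⟩

end Cfsg.Agent.S2532
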