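import Cfsg.Statements.S2533
import Cfsg.Agent.Lib.Linear.Basic
import Cfsg.Agent.Lib.Linear.FieldAut

set_option autoImplicit false
open Cfsg

namespace Cfsg.Agent.S2533

open Cfsg.Lib Cfsg.Lib.Linear Matrix Subgroup

variable {F : Type} [Field F] {m : ℕ}

/-- Three maps from an `m`-space to an `(m+1)`-space. -/
def L (m : ℕ) : (Fin 3 → F) →+ Matrix (Fin (m + 1)) (Fin m) F := AddMonoidHom.mk'
  (fun v => of fun i j => if i.1 = j.1 then v 0 else if i.1 = j.1 + 1 then v 1 else
    if i.1 = j.1 + 2 then v 2 else 0) fun v w => by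
      ext i j
      simp only [of_apply, Matrix.add_apply, Pi.add_apply]
      split_ifs <;> simp

theorem sl_ext {ι : Type} [Fintype ι] [DecidableEq ι] {A B : Matrix.SpecialLinearGroup ι F}
    (h : A.1 = B.1) : A = B := Subtype.ext h

/-- The unipotent elements. -/
def Um (m : ℕ) (v : Fin 3 → F) : Matrix.SpecialLinearGroup (Fin m ⊕ Fin (m + 1)) F :=
  ⟨fromBlocks 1 0 (L m v) 1, by simp⟩

theorem Um_coe (v : Fin 3 → F) : (Um m v).1 = fromBlocks 1 0 (L m v) 1 := rfl

/-- The unipotent part. -/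
def U (m : ℕ) : Multiplicative (Fin 3 → F) →* Matrix.SpecialLinearGroup (Fin m ⊕ Fin (m + 1)) F :=
  MonoidHom.mk' (fun v => Um m v.toAdd) fun v w => sl_ext (by simp [Um_coe, fromBlocks_multiply])

theorem U_coe (v : Multiplicative (Fin 3 → F)) : (U m v).1 = fromBlocks 1 0 (L m v.toAdd) 1 := rfl

/-- The involution. -/
def T (k : ℕ) : Matrix.SpecialLinearGroup (Fin (2 * k) ⊕ Fin (2 * k + 1)) F :=
  ⟨fromBlocks (-1) 0 0 1, by simp [det_neg]⟩

theorem T_coe (k : ℕ) : (T k : Matrix.SpecialLinearGroup _ F).1 = fromBlocks (-1) 0 0 1 := rfl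

theorem scal {A : Matrix (Fin m) (Fin m) F} {B : Matrix (Fin (m + 1)) (Fin (m + 1)) F}
    (h0 : B * L m ![(1 : F), 0, 0] = L m ![(1 : F), 0, 0] * A)
    (h1 : B * L m ![(0 : F), 1, 0] = L m ![(0 : F), 1, 0] * A) :
    fromBlocks A 0 0 B = scalar _ (B 0 0) := by
  have e0 : ∀ i j, (L m ![(1 : F), 0, 0]) i j = if i = j.castSucc then 1 else 0 := fun i j => by
    simp [L, Fin.ext_iff]
  have e1 : ∀ i j, (L m ![(0 : F), 1, 0]) i j = if i = j.succ then 1 else 0 := fun i j => by
    simp only [L, AddMonoidHom.mk'_apply, of_apply, Fin.ext_iff, Fin.val_succ]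
    split_ifs <;> first | rfl | omega
  have a0 : ∀ i j, B i.castSucc j.castSucc = A i j := fun i j => by
    simpa [mul_apply, e0] using congrFun (congrFun h0 i.castSucc) j
  have a1 : ∀ i j, B i.succ j.succ = A i j := fun i j => by
    simpa [mul_apply, e1] using congrFun (congrFun h1 i.succ) j
  have b0 : ∀ j : Fin m, B (Fin.last m) j.castSucc = 0 := fun j => by
    simpa [mul_apply, e0, (Fin.castSucc_ne_last _).symm] using congrFun (congrFun h0 (Fin.last m)) j
  have b1 : ∀ j : Fin m, B 0 j.succ = 0 := fun j => by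
    simpa [mul_apply, e1, (Fin.succ_ne_zero _).symm] using congrFun (congrFun h1 0) j
  have toep : ∀ (d i j : ℕ) (hi : i + d < m + 1) (hj : j + d < m + 1),
      B ⟨i + d, hi⟩ ⟨j + d, hj⟩ = B ⟨i, by omega⟩ ⟨j, by omega⟩ := fun d i j => by
    induction d with
    | zero => exact fun _ _ => rfl
    | succ d ih => exact fun hi hj => ((a1 ⟨i + d, by omega⟩ ⟨j + d, by omega⟩).trans
        (a0 _ _).symm).trans (ih _ _)
  have hB : ∀ i j, B i j = if i = j then B 0 0 else 0 := by
    rintro ⟨i, hi⟩ ⟨j, hj⟩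
    rcases lt_trichotomy i j with h | rfl | h
    · obtain ⟨d, rfl⟩ : ∃ d, j = d + 1 + i := ⟨j - i - 1, by omega⟩
      rw [if_neg (by simp [Fin.ext_iff]), ← b1 ⟨d, by omega⟩]
      simpa using toep i 0 (d + 1) (by omega) hj
    · simpa using toep i 0 0 (by omega) (by omega)
    · obtain ⟨d, rfl⟩ : ∃ d, m = i + d := ⟨m - i, by omega⟩
      rw [if_neg (by simp [Fin.ext_iff]; omega), ← toep d i j (by omega) (by omega)]
      exact b0 ⟨j + d, by omega⟩
  ext (i | i) (j | j)
  · simp [← a0, hB i.castSucc, diagonal_apply]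
  · simp
  · simp
  · simp [hB i, diagonal_apply]

/-- For every odd prime `p` there is a finite group `H` of order `2p³` which, for infinitely many `n`, embeds in the projective special linear group `PSL(n, p)` as a subgroup with trivial centralizer. -/
theorem result
    (p : ℕ) [Fact p.Prime] (hp : p ≠ 2) :
    ∃ (H : Type) (_ : Group H) (_ : Finite H), Nat.card H = 2 * p ^ 3 ∧
      ∀ N : ℕ, ∃ n, N ≤ n ∧ ∃ φ : H →* Matrix.ProjectiveSpecialLinearGroup (Fin n) (ZMod p),
        Function.Injective φ ∧ Subgroup.centralizer (φ.range : Set (Matrix.ProjectiveSpecialLinearGroup (Fin n) (ZMod p))) = ⊥ := by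
  have h2 : (2 : ZMod p) ≠ 0 := fun e => hp ((Nat.prime_dvd_prime_iff_eq Fact.out Nat.prime_two).1
    ((ZMod.natCast_eq_zero_iff 2 p).1 e))
  let γ := zmodTwoHom (MulEquiv.inv (Multiplicative (Fin 3 → ZMod p)) : MulAut _) (by ext; simp)
  refine ⟨Multiplicative (Fin 3 → ZMod p) ⋊[γ] Multiplicative (ZMod 2), inferInstance,
    Finite.of_equiv _ SemidirectProduct.equivProd.symm, by simp [SemidirectProduct.card, mul_comm],
    fun N => ⟨2 * (N + 1) + (2 * (N + 1) + 1), by omega, ?_⟩⟩
  generalize hk : N + 1 = k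
  let ψ := SemidirectProduct.lift (φ := γ) (U (2 * k))
    (zmodTwoHom (T k) (sl_ext (by simp [T_coe, fromBlocks_multiply]))) fun ε => by
      rcases zmodTwo_cases ε with rfl | rfl
      · ext; simp
      · refine MonoidHom.ext fun v => ?_
        simp only [γ, MonoidHom.comp_apply, MulEquiv.coe_toMonoidHom,
          MulAut.conj_apply, eq_mul_inv_iff_mul_eq]
        rw [zmodTwoHom_ofAdd_one, zmodTwoHom_ofAdd_one]
        refine sl_ext ?_
        rw [Matrix.SpecialLinearGroup.coe_mul, Matrix.SpecialLinearGroup.coe_mul, U_coe, U_coe, T_coe]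
        simp [fromBlocks_multiply]
  let φ : _ →* ProjectiveSpecialLinearGroup _ _ := (QuotientGroup.mk' (center _)).comp ψ
  have hφ : Function.Injective φ := (injective_iff_map_eq_one φ).2 fun ⟨v, ε⟩ h => by
    obtain ⟨r, -, hr⟩ := Matrix.SpecialLinearGroup.mem_center_iff.1 ((QuotientGroup.eq_one_iff (ψ ⟨v, ε⟩)).1 h)
    have h0 : ∀ i : Fin 3, i.1 < 2 * k + 1 := fun i => by omega
    have h3 := fun i => congrFun (congrFun hr (.inr ⟨i.1, h0 i⟩)) (.inl ⟨0, by omega⟩)
    have h4 := congrFun (congrFun hr (.inl ⟨0, by omega⟩)) (.inl ⟨0, by omega⟩)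
    have h5 := congrFun (congrFun hr (.inr 0)) (.inr 0)
    rcases zmodTwo_cases ε with rfl | rfl
    · refine SemidirectProduct.ext (Multiplicative.toAdd.injective (funext fun i => ?_)) rfl
      have h6 := h3 i
      fin_cases i <;> simpa [ψ, SemidirectProduct.lift, U_coe, L, eq_comm] using h6
    · simp [ψ, SemidirectProduct.lift, U_coe, T_coe, zmodTwoHom_ofAdd_one, fromBlocks_multiply] at h4 h5
      exact (h2 (by linear_combination h4 - h5)).elim
  have hc : centralizer (φ.range : Set (ProjectiveSpecialLinearGroup (Fin (2 * k) ⊕ Fin (2 * k + 1))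
      (ZMod p))) = ⊥ := eq_bot_iff.2 fun g hg => by
    obtain ⟨g, rfl⟩ := QuotientGroup.mk_surjective g
    let c : Matrix.SpecialLinearGroup (Fin (2 * k) ⊕ Fin (2 * k + 1)) (ZMod p) →* Matrix _ _ _ :=
      Matrix.SpecialLinearGroup.coeMonoidHom
    have h3 : ∀ h, ∃ r : ZMod p, c (g * ψ h * g⁻¹) = r • c (ψ h) := fun h => by
      have h4 : QuotientGroup.mk (s := center _) (ψ h * g) = QuotientGroup.mk (g * ψ h) :=
        hg (φ h) (MonoidHom.mem_range.2 ⟨h, rfl⟩)
      obtain ⟨r, -, hr⟩ := Matrix.SpecialLinearGroup.mem_center_iff.1 (QuotientGroup.eq.1 h4)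
      refine ⟨r, ?_⟩
      change _ = c ((ψ h * g)⁻¹ * (g * ψ h)) at hr
      rw [show g * ψ h * g⁻¹ = ψ h * g * ((ψ h * g)⁻¹ * (g * ψ h)) * g⁻¹ by group,
        map_mul, map_mul, ← hr, scalar_apply, ← smul_eq_mul_diagonal,
        smul_mul_assoc, ← map_mul, mul_inv_cancel_right]
    have h4 : ∀ v, c g * c (U _ v) = c (U _ v) * c g := fun v => by
      obtain ⟨r, hr⟩ := h3 (SemidirectProduct.inl v)
      rw [SemidirectProduct.lift_inl] at hr
      have h5 : v ^ p = 1 := Multiplicative.toAdd.injective (funext fun i => by simp)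
      have h6 := congrArg (· ^ p) hr
      simp only [← map_pow, conj_pow, smul_pow, h5, map_one, mul_one,
        mul_inv_cancel, ZMod.pow_card] at h6
      have h7 : r = 1 := by simpa using (congrFun (congrFun h6 (.inr 0)) (.inr 0)).symm
      rw [h7, one_smul] at hr
      rw [← map_mul, ← map_mul, mul_inv_eq_iff_eq_mul.1 (sl_ext (A := g * U _ v * g⁻¹) hr)]
    have h5 : c g * c (T k) = c (T k) * c g := by
      obtain ⟨r, hr⟩ := h3 (SemidirectProduct.inr (Multiplicative.ofAdd 1))
      rw [SemidirectProduct.lift_inr, zmodTwoHom_ofAdd_one] at hr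
      have h6 := congrArg trace hr
      rw [map_mul, trace_mul_comm, ← map_mul, inv_mul_cancel_left] at h6
      have h7 : r = 1 := by
        simp [c, T_coe, trace, Fintype.sum_sum_type] at h6
        linear_combination -h6
      rw [h7, one_smul] at hr
      rw [← map_mul, ← map_mul, mul_inv_eq_iff_eq_mul.1 (sl_ext (A := g * T k * g⁻¹) hr)]
    suffices h : ∃ r, c g = scalar _ r by
      obtain ⟨r, h9⟩ := h
      refine (QuotientGroup.eq_one_iff _).2 (mem_center_iff.2 fun B => sl_ext ?_)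
      change c (B * g) = c (g * B)
      rw [map_mul, map_mul, h9]
      exact (scalar_commute _ (Commute.all _) _).symm
    generalize c g = g at h4 h5
    rw [← fromBlocks_toBlocks g] at h4 h5
    simp only [c, Matrix.SpecialLinearGroup.coeMonoidHom_apply, T_coe, U_coe, fromBlocks_multiply,
      fromBlocks_inj] at h4 h5
    have h6 : ∀ {a b : Type} (M : Matrix a b (ZMod p)), M = -M → M = 0 := fun M e => by
      ext i j
      exact (mul_eq_zero.1 (by linear_combination congrFun (congrFun e i) j + (Matrix.neg_apply M i j))).resolve_left h2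
    have h7 := h6 g.toBlocks₁₂ (by simpa using h5.2.1)
    have h8 := h6 g.toBlocks₂₁ (by simpa using h5.2.2.1.symm)
    have h9 := scal (by simpa [h8] using (h4 (Multiplicative.ofAdd ![1, 0, 0])).2.2.1)
      (by simpa [h8] using (h4 (Multiplicative.ofAdd ![0, 1, 0])).2.2.1)
    exact ⟨_, by rw [← h9, ← h7, ← h8, fromBlocks_toBlocks]⟩
  let e := congrPSL (finSumFinEquiv (m := 2 * k) (n := 2 * k + 1)) (RingEquiv.refl (ZMod p))
  refine ⟨e.toMonoidHom.comp φ, e.injective.comp hφ, eq_bot_iff.2 fun g hg => ?_⟩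
  obtain ⟨g, rfl⟩ := e.surjective g
  have h3 : g ∈ centralizer (φ.range : Set (ProjectiveSpecialLinearGroup
      (Fin (2 * k) ⊕ Fin (2 * k + 1)) (ZMod p))) := by
    rintro _ ⟨h, rfl⟩
    exact e.injective (by simpa using hg _ ⟨h, rfl⟩)
  rw [hc, mem_bot] at h3
  simp [h3]

end Cfsg.Agent.S2533
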