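import Cfsg.Statements.S2536
import Cfsg.Agent.Lib.Alt.HallSym2

set_option autoImplicit false
open Cfsg

namespace Cfsg.Agent.S2536

/-- Let `π` be a set of primes and `n` a natural number such that at least two primes of `π` divide `n!` but not every prime dividing `n!` lies in `π`. Then the symmetric group of degree `n` has a Hall `π`-subgroup if and only if either `n` is prime and the primes of `π` dividing `n!` are exactly the primes smaller than `n` (a point stabilizer is then such a subgroup), or `n ∈ {7, 8}` and the primes of `π` dividing `n!` are exactly 2 and 3. -/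
theorem result (n : ℕ) (π : Set ℕ)
    (h2 : ∃ r s : ℕ, r.Prime ∧ s.Prime ∧ r ≠ s ∧ r ∈ π ∧ s ∈ π ∧ r ≤ n ∧ s ≤ n)
    (hns : ∃ r : ℕ, r.Prime ∧ r ≤ n ∧ r ∉ π) :
    Cfsg.IsEPiGroup π (Equiv.Perm (Fin n)) ↔
      ((n.Prime ∧ ∀ r : ℕ, r.Prime → r ≤ n → (r ∈ π ↔ r < n)) ∨
       ((n = 7 ∨ n = 8) ∧ ∀ r : ℕ, r.Prime → r ≤ n → (r ∈ π ↔ (r = 2 ∨ r = 3)))) := by
  refine ⟨fun ⟨K, hK⟩ => ?_, fun h => ?_⟩
  · obtain ⟨Δ, -, h⟩ := Lib.Alt.hall_class_sym hK (by simpa using h2) (by simpa using hns)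
    simpa using h.imp (fun k => And.intro k.2.1 k.2.2.2) And.right
  rcases h with h | h
  · obtain ⟨r, s, h1, h3, h4, h5, h6, h7, h8⟩ := h2
    obtain ⟨Δ, -, hΔ⟩ := Set.exists_subset_card_eq (s := (Set.univ : Set (Fin n))) (n := n - 1) (by simp)
    have := (h.2 r h1 h7).1 h5
    have := (h.2 s h3 h8).1 h6
    have := h1.two_le
    have := h3.two_le
    exact ⟨_, Lib.Alt.Std.isPiHall (Δ := Δ) (.inl ⟨by simp; omega, by simpa using h.1, by
      simpa using h.1.five_le_of_ne_two_of_ne_three (by omega) (by omega), by simpa using h.2⟩)⟩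
  obtain ⟨Δ, -, hΔ⟩ := Set.exists_subset_card_eq (s := (Set.univ : Set (Fin n))) (n := 4) (by simp; omega)
  exact ⟨_, Lib.Alt.Std.isPiHall (Δ := Δ) (.inr ⟨hΔ, by simpa using h⟩)⟩

end Cfsg.Agent.S2536
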