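import Cfsg.Statements.S2537
import Cfsg.Agent.Lib.PSL2.SmallIso
import Cfsg.Agent.Lib.Hall.Solvable

set_option autoImplicit false
open Cfsg

namespace Cfsg.Agent.S2537

open Cfsg.Lib.PSL2 Subgroup
open scoped MatrixGroups

theorem exists_split {N : ℕ} (h : N ≠ 0) : ∃ u, N = 2 ^ N.factorization 2 * 3 ^ N.factorization 3 * u ∧
    ¬ 2 ∣ u ∧ ¬ 3 ∣ u := by
  obtain ⟨a, n, h1, rfl⟩ := Nat.exists_eq_pow_mul_and_not_dvd h 2 (by norm_num)
  obtain ⟨b, u, h2, rfl⟩ := Nat.exists_eq_pow_mul_and_not_dvd (right_ne_zero_of_mul h) 3 (by norm_num)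
  have h3 : ¬ 2 ∣ u := fun e => h1 (e.mul_left _)
  have h4 : u ≠ 0 := by rintro rfl; simp at h2
  refine ⟨u, ?_, h3, h2⟩
  simp [Nat.factorization_mul, h4, Nat.prime_two.factorization, Nat.prime_three.factorization,
    Nat.factorization_eq_zero_of_not_dvd h2, Nat.factorization_eq_zero_of_not_dvd h3, mul_assoc]

theorem hall_iff {G : Type*} [Group G] {a b u : ℕ} (h : 2 * Nat.card G = 2 ^ a * 3 ^ b * u)
    (h2 : ¬ 2 ∣ u) (h3 : ¬ 3 ∣ u) (H : Subgroup G) :
    IsPiHall {2, 3} H ↔ 2 * Nat.card H = 2 ^ a * 3 ^ b := by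
  rw [← H.card_mul_index, ← mul_assoc] at h
  refine ⟨fun ⟨h4, h5⟩ => Nat.dvd_antisymm ?_ ?_, fun e => ⟨fun r hr h4 => ?_, fun r hr h4 => ?_⟩⟩
  · refine Nat.Coprime.dvd_of_dvd_mul_right (Nat.coprime_of_dvd fun r hr h6 h7 => ?_)
      (h ▸ dvd_mul_right ..)
    rcases (hr.dvd_mul.1 h6).elim (fun e => .inl ((Nat.prime_dvd_prime_iff_eq hr Nat.prime_two).1 e))
      (h4 r hr) with rfl | rfl <;> contradiction
  · exact (((Nat.prime_two.coprime_iff_not_dvd.2 (h5 2 Nat.prime_two (by simp))).pow_left a).mul_left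
      ((Nat.prime_three.coprime_iff_not_dvd.2 (h5 3 Nat.prime_three (by simp))).pow_left b)
        ).dvd_of_dvd_mul_right (h ▸ dvd_mul_right ..)
  · exact (hr.dvd_mul.1 (e ▸ h4.mul_left 2)).imp (Nat.prime_eq_prime_of_dvd_pow hr Nat.prime_two)
      (Nat.prime_eq_prime_of_dvd_pow hr Nat.prime_three)
  · rw [e] at h
    rw [Nat.eq_of_mul_eq_mul_left (by positivity) h]
    rcases h4 with rfl | rfl <;> assumption


/-- Let `F` be a finite field with `q` elements of characteristic `p ≥ 5`, and `ε = 1` if `q ≡ 1 (mod 4)`, `ε = -1` otherwise. Then `PSL(2, F)` has a Hall `{2, 3}`-subgroup if and only if `3` divides `q − ε`, or the `{2,3}`-part of `q² − 1` is 24, or the `{2,3}`-part of `q² − 1` is 48 (the `{2,3}`-part of `m` being the largest divisor of `m` with no prime factor other than 2 and 3). -/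
theorem result {F : Type*} [Field F] [Fintype F] {p : ℕ} [Fact p.Prime] [CharP F p]
    (hp : 5 ≤ p) (q : ℕ) (hq : Fintype.card F = q) :
    (∃ H : Subgroup (Matrix.ProjectiveSpecialLinearGroup (Fin 2) F), Cfsg.IsPiHall ({2, 3} : Set ℕ) H) ↔
      (3 ∣ q - 1 ∧ q % 4 = 1) ∨ (3 ∣ q + 1 ∧ q % 4 = 3) ∨
        2 ^ (q ^ 2 - 1).factorization 2 * 3 ^ (q ^ 2 - 1).factorization 3 = 24 ∨
        2 ^ (q ^ 2 - 1).factorization 2 * 3 ^ (q ^ 2 - 1).factorization 3 = 48 := by
  rw [← Nat.card_eq_fintype_card] at hq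
  obtain ⟨n, hn, h1⟩ := exists_card_eq_pow (F := F) p
  have h2 : ∀ r : ℕ, r.Prime → r < 5 → ¬ r ∣ q := fun r hr h h' => by
    have := Nat.prime_eq_prime_of_dvd_pow hr Fact.out (h1 ▸ hq ▸ h'); omega
  have q2 := h2 2 Nat.prime_two (by norm_num)
  have q3 := h2 3 Nat.prime_three (by norm_num)
  have q5 := two_le_card_field F
  have ho : Odd (Nat.card F) := by rw [hq, Nat.odd_iff]; omega
  have h3 := card_PSL2_mul (K := F)
  rw [gcd_two_eq_of_odd ho, hq] at h3
  have h4 := sq_sub_one_eq q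
  obtain ⟨u, h5, h6, h7⟩ := exists_split (N := q ^ 2 - 1) (by
    rw [h4]; apply Nat.mul_ne_zero <;> omega)
  generalize (q ^ 2 - 1).factorization 2 = a at *
  generalize (q ^ 2 - 1).factorization 3 = b at *
  have h8 := hall_iff (G := PSL(2, F)) (a := a) (b := b) (u := q * u) (by rw [h3, h5]; ring)
    (by rw [Nat.prime_two.dvd_mul]; tauto) (by rw [Nat.prime_three.dvd_mul]; tauto)
  have h9 : 24 ∣ 2 ^ a * 3 ^ b := by
    refine Nat.Coprime.dvd_of_dvd_mul_right (((Nat.prime_two.coprime_iff_not_dvd.2 h6).pow_left 3).mul_left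
      (Nat.prime_three.coprime_iff_not_dvd.2 h7)) (h5 ▸ (Nat.modEq_iff_dvd' (Nat.one_le_pow _ _ (by omega))).1 ?_)
    rw [Nat.ModEq, Nat.pow_mod]
    have : q % 24 < 24 := Nat.mod_lt _ (by norm_num)
    have : q % 24 % 2 = 1 ∧ q % 24 % 3 ≠ 0 := by omega
    generalize q % 24 = r at *
    interval_cases r <;> simp_all
  constructor
  · rintro ⟨H, hH⟩
    have h10 := (h8 H).1 hH
    rcases dickson_psl_coprime (AlgebraicClosure F) p H (Nat.coprime_of_dvd fun r hr h h' => by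
      have := (Nat.prime_dvd_prime_iff_eq hr Fact.out).1 h'
      rcases hH.1 r hr h with rfl | rfl <;> omega) with ⟨x, y, m, h11, h12⟩ | ⟨⟨e⟩⟩ | ⟨⟨e⟩⟩ | ⟨⟨e⟩⟩
    · have h13 := h11.card_dihL_mul
      have h14 := card_dvd_of_le h12
      have := h11.eq_or_eq
      rw [gcd_two_eq_of_odd ho] at h13
      rw [Nat.eq_of_mul_eq_mul_left two_pos h13] at h14
      have : 12 ∣ m := Dvd.dvd.trans (by omega) h14
      omega
    · rw [Nat.card_congr e.toEquiv, card_alt_four] at h10; omega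
    · rw [Nat.card_congr e.toEquiv, card_perm_four] at h10; omega
    · have := hH.1 5 (by norm_num) (by rw [Nat.card_congr e.toEquiv, card_alt_five]; norm_num)
      simp at this
  have key : ∀ (x y : P1 (AlgebraicClosure F)) m, TorusPair F x y m → 12 ∣ m →
      ∃ H : Subgroup PSL(2, F), IsPiHall {2, 3} H := fun x y m h h' => by
    obtain ⟨H, h10, h11, h12⟩ := Lib.Hall.exists_isPiHallOf {2, 3}
      (isSolvable_of_le_dihL h.ne (le_refl (dihL F x y)))
    refine ⟨H, h11, fun r hr h13 => ?_⟩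
    rw [← relIndex_mul_index h10, hr.dvd_mul, not_or]
    refine ⟨h12 r hr h13, fun h14 => ?_⟩
    have h15 := h.card_dihL_mul
    have h16 := (dihL F x y).card_mul_index
    rw [gcd_two_eq_of_odd ho] at h15
    rw [← h16, Nat.eq_of_mul_eq_mul_left two_pos h15, h4] at h3
    obtain ⟨k, hk⟩ := h14
    rcases h.eq_or_eq with e | e <;> rw [hq] at e
    · have h17 : q * (q + 1) = 2 * (r * k) := Nat.eq_of_mul_eq_mul_left h.pos (by
        rw [← hk, mul_left_comm m 2, h3, e]; ring)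
      obtain ⟨j, rfl⟩ : ∃ j, q = 12 * j + 1 := ⟨q / 12, by omega⟩
      rcases h13 with rfl | rfl <;> ring_nf at h17 <;> omega
    · have h17 : q * (q - 1) = 2 * (r * k) := Nat.eq_of_mul_eq_mul_left h.pos (by
        rw [← hk, mul_left_comm m 2, h3, e]; ring)
      obtain ⟨j, rfl⟩ : ∃ j, q = 12 * j + 11 := ⟨q / 12, by omega⟩
      rw [show 12 * j + 11 - 1 = 12 * j + 10 from rfl] at h17
      rcases h13 with rfl | rfl <;> ring_nf at h17 <;> omega
  rintro (h | h | h | h)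
  · obtain ⟨x, y, h10⟩ := exists_torusPair_split F (AlgebraicClosure F)
    exact key x y _ h10 (by omega)
  · obtain ⟨x, y, h10⟩ := exists_torusPair_nonsplit F (AlgebraicClosure F)
    exact key x y _ h10 (by omega)
  · obtain ⟨A, -, ⟨e⟩⟩ := (hasA4_psl ho).exists_equiv
    exact ⟨A, (h8 A).2 (by rw [Nat.card_congr e.toEquiv, card_alt_four, h])⟩
  · obtain ⟨A, ⟨e⟩⟩ := exists_perm_four (F := F) (by
      rw [h] at h5
      have h10 : q ^ 2 % 16 = 1 := by have := Nat.one_le_pow 2 q (by omega); omega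
      rw [Nat.pow_mod] at h10
      have : q % 16 < 16 := Nat.mod_lt _ (by norm_num)
      rw [hq, ← Nat.mod_mod_of_dvd q (show 8 ∣ 16 by norm_num)]
      generalize q % 16 = r at this h10
      interval_cases r <;> omega)
    exact ⟨A, (h8 A).2 (by rw [Nat.card_congr e.toEquiv, card_perm_four, h])⟩

end Cfsg.Agent.S2537
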