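import Cfsg.Statements.S2540
import Cfsg.Agent.Lib.Linear.Simple

set_option autoImplicit false
open Cfsg

namespace Cfsg.Agent.S2540

/-- Let F be a finite field and n ≥ 1, excluding the case n = 2 with #F ≤ 3. A subgroup of GL_n(F) that is normalized by every element of SL_n(F) either consists of scalar matrices or contains SL_n(F). -/
theorem result {F : Type*} [Field F] [Fintype F] (n : ℕ) (hn : 1 ≤ n) (hex : ¬ (n = 2 ∧ Fintype.card F ≤ 3)) (G : Subgroup (Matrix.GeneralLinearGroup (Fin n) F)) (hG : ∀ s : Matrix.SpecialLinearGroup (Fin n) F, ∀ g ∈ G, (Matrix.SpecialLinearGroup.toGL s) * g * (Matrix.SpecialLinearGroup.toGL s)⁻¹ ∈ G) : (∀ g ∈ G, ∃ c : F, (g : Matrix (Fin n) (Fin n) F) = c • (1 : Matrix (Fin n) (Fin n) F)) ∨ (Matrix.SpecialLinearGroup.toGL : Matrix.SpecialLinearGroup (Fin n) F →* _).range ≤ G := by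
  open Matrix Subgroup commutatorElement in
  rcases hn.eq_or_lt with rfl | hn
  · exact .inl fun g _ => ⟨g.1 0 0, by ext i j; simp [Subsingleton.elim i 0, Subsingleton.elim j 0]⟩
  have h0 : 3 ≤ Fintype.card (Fin n) ∨ ∃ x : F, x ≠ 0 ∧ x ^ 2 ≠ 1 := by
    rw [Fintype.card_fin]
    exact (em _).imp_right fun h => Lib.Linear.exists_ne_zero_sq_ne_one (by rw [Nat.card_eq_fintype_card]; omega)
  haveI : (G.comap SpecialLinearGroup.toGL).Normal := ⟨fun g hg s => by simpa using hG s _ hg⟩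
  refine (Lib.Linear.normal_SL_le_center_or_eq_top h0 (G.comap SpecialLinearGroup.toGL)).imp (fun h g hg => ?_) fun h => by
    rintro _ ⟨s, rfl⟩; exact h.ge (mem_top s)
  set S := (SpecialLinearGroup.toGL : SpecialLinearGroup (Fin n) F →* _).range
  have h1 : ⁅⁅S, G⁆, S⁆ = ⊥ := commutator_eq_bot_iff_le_centralizer.2 (commutator_le.2 (by
    rintro _ ⟨s, rfl⟩ g hg
    obtain ⟨t, ht⟩ : ⁅SpecialLinearGroup.toGL s, g⁆ ∈ S := Lib.Linear.range_toGL.ge (by simp [commutatorElement_def])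
    rintro _ ⟨u, rfl⟩
    rw [← ht, ← map_mul, ← map_mul, mem_center_iff.1 (h (show _ ∈ G from ht ▸ G.mul_mem (hG s g hg) (G.inv_mem hg)))]))
  have h2 := commutator_commutator_eq_bot_of_rotate h1 (commutator_comm G S ▸ h1)
  rw [show S = _ from MonoidHom.range_eq_map _, ← map_commutator, ← commutator_def, Lib.Linear.commutator_SL_eq_top h0,
    commutator_eq_bot_iff_le_centralizer] at h2
  obtain ⟨c, hc⟩ := mem_range_scalar_of_commute_transvectionStruct (M := g.1) fun t =>
    (congrArg Units.val (h2 (mem_map_of_mem _ (@mem_top (SpecialLinearGroup (Fin n) F) _ ⟨t.toMatrix, t.det⟩)) g hg)).symm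
  exact ⟨c, by rw [← hc, scalar_apply, smul_one_eq_diagonal]⟩

end Cfsg.Agent.S2540
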