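import Cfsg.Statements.S2541
import Cfsg.Agent.Lib.Alt.Spectrum

set_option autoImplicit false
open Cfsg

namespace Cfsg.Agent.S2541

/-- Let F be a field with 9 elements. The symmetric group S_6 is not isomorphic to PGL_2(F) (although both have index-2 subgroups isomorphic to A_6). -/
theorem result {F : Type*} [Field F] [Fintype F] (hF : Fintype.card F = 9) : ¬ Nonempty (Equiv.Perm (Fin 6) ≃* Matrix.ProjGenLinGroup (Fin 2) F) := by
  open Cfsg.Lib.Alt in
  rintro ⟨e⟩
  classical
  have h60 : ∀ g : Equiv.Perm (Fin 6), g ^ 60 = 1 := by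
    intro g
    obtain ⟨t, h1, h2, h3⟩ := (mem_range_orderOf_perm_iff 6 (orderOf g)).1 ⟨g, rfl⟩
    have := typeSearch_spec (fun l _ => decide (l ∣ 60)) t 6 6 1 0 (by norm_num)
      (by decide +kernel) h1 h2
    simp only [Nat.lcm_one_left, decide_eq_true_eq, h3] at this
    exact orderOf_dvd_iff_pow_eq_one.1 this
  obtain ⟨a, ha⟩ := IsCyclic.exists_ofOrder_eq_natCard (α := Fˣ)
  rw [Nat.card_units, Nat.card_eq_fintype_card, hF] at ha
  let x : GL (Fin 2) F := Matrix.GeneralLinearGroup.mkOfDetNeZero (Matrix.diagonal ![(a : F), 1])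
    (by simp [Matrix.det_diagonal, Fin.prod_univ_two])
  have h1 : (Matrix.ProjGenLinGroup.mk x) ^ 60 = 1 := by
    rw [← e.apply_symm_apply (Matrix.ProjGenLinGroup.mk x), ← map_pow, h60, map_one]
  rw [← map_pow, Matrix.ProjGenLinGroup.mk_eq_one,
    Matrix.GeneralLinearGroup.mem_center_iff_val_mem_range_scalar] at h1
  obtain ⟨c, hc⟩ := h1
  have h2 : ((x ^ 60 : GL (Fin 2) F) : Matrix (Fin 2) (Fin 2) F) =
      Matrix.diagonal (![(a : F), 1] ^ 60) := by
    rw [Units.val_pow_eq_pow_val, ← Matrix.diagonal_pow]; rfl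
  rw [h2] at hc
  have h3 := congrFun (congrFun hc 0) 0
  have h4 := congrFun (congrFun hc 1) 1
  simp at h3 h4
  have h5 : a ^ 60 = 1 := by
    apply Units.ext
    rw [Units.val_pow_eq_pow_val, ← h3, h4]; rfl
  have := orderOf_dvd_of_pow_eq_one h5
  rw [ha] at this
  norm_num at this

end Cfsg.Agent.S2541
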