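import Cfsg.Statements.S2542
import Cfsg.Agent.Lib.PSL2.SmallIso
import Cfsg.Agent.Lib.Perm.Neumann

set_option autoImplicit false
open Cfsg

namespace Cfsg.Agent.S2542

/-- Let F be a field with 11 elements. PSL_2(F) has a subgroup H of index 11 isomorphic to the alternating group A_5, and the action of PSL_2(F) on the cosets of H is 2-transitive (of degree 11). -/
theorem result {F : Type*} [Field F] [Fintype F] (hF : Fintype.card F = 11) : ∃ H : Subgroup (Matrix.ProjectiveSpecialLinearGroup (Fin 2) F), H.index = 11 ∧ Nonempty (H ≃* alternatingGroup (Fin 5)) ∧ MulAction.IsMultiplyPretransitive (Matrix.ProjectiveSpecialLinearGroup (Fin 2) F) ((Matrix.ProjectiveSpecialLinearGroup (Fin 2) F) ⧸ H) 2 := by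
  open Lib.PSL2 in
  rw [← Nat.card_eq_fintype_card] at hF
  obtain ⟨H, ⟨e⟩⟩ := exists_alt_five (F := F) (by omega)
  have h1 := H.card_mul_index
  rw [Nat.card_congr e.toEquiv, card_alt_five, card_psl_of_eq (n := 660) hF (by norm_num)] at h1
  have h2 : H.index = 11 := by omega
  have := isSimpleGroup_psl (F := F) (by omega)
  have : Fact (Nat.Prime 11) := ⟨by norm_num⟩
  have h3 := Lib.Small.normalCore_eq_bot_of_simple (H := H) (by rintro rfl; simp at h2)
  rw [Subgroup.normalCore_eq_ker, MonoidHom.ker_eq_bot_iff] at h3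
  have : FaithfulSMul _ (_ ⧸ H) := ⟨fun h => h3 (Equiv.ext h)⟩
  exact ⟨H, h2, ⟨e⟩, Lib.Perm.two_of_insoluble h2 (not_isSolvable_psl (by omega))⟩

end Cfsg.Agent.S2542
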