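import Cfsg.Statements.S2543
import Cfsg.Agent.Lib.PSL2.SmallIso

set_option autoImplicit false
open scoped Pointwise
open Cfsg

namespace Cfsg.Agent.S2543

open Cfsg.Lib.PSL2 Cfsg.Lib.Small Subgroup
open scoped MatrixGroups Pointwise

theorem alt_five_inv : ∀ x : alternatingGroup (Fin 5), x ^ 3 = 1 → ∃ s, s * x * s⁻¹ = x⁻¹ := by
  decide +kernel

variable {F : Type*} [Field F] [Finite F] (hF : Nat.card F = 11)

abbrev A5 (H : Subgroup PSL(2, F)) : Prop := Nonempty (H ≃* alternatingGroup (Fin 5))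

omit [Finite F] in
theorem A5.card {H : Subgroup PSL(2, F)} (h : A5 H) : Nat.card H = 60 :=
  h.elim fun e => (Nat.card_congr e.toEquiv).trans card_alt_five

omit [Finite F] in
theorem A5.smul {H : Subgroup PSL(2, F)} (h : A5 H) (φ : MulAut PSL(2, F)) : A5 (φ • H) :=
  h.elim fun e => ⟨(equivSMul φ H).symm.trans e⟩

include hF

theorem exists_le' {V L : Subgroup PSL(2, F)} (hV : IsKleinFour V) (hL : A5 L) :
    ∃ g : PSL(2, F), normalizer (V : Set PSL(2, F)) ≤ MulAut.conj g • L := by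
  obtain ⟨t, h1, s, -, x, h2, h3⟩ := hasA4_of_equiv hL.some hasA4_alt_five
  obtain ⟨A, -, -, -, h4, ⟨e⟩⟩ := h3.exists_equiv
  obtain ⟨g, rfl⟩ := exists_conj_four_psl (by omega) h3.four.isKleinFour hV
  refine ⟨g, ?_⟩
  rw [← map_equiv_normalizer_eq, ← eq_of_le_of_card_ge (h4 _ (le_normalizer h3.four.left_mem)
    h3.mem_normalizer) (by rw [card_normalizer_four_psl_of_three_five (by omega) h3.four.isKleinFour,
      Nat.card_congr e.toEquiv, card_alt_four])]
  exact map_mono (h4 L h1 h2)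

theorem pigeon {V H K L : Subgroup PSL(2, F)} (hV : IsKleinFour V) (hH : A5 H) (hK : A5 K)
    (hL : A5 L) (h1 : normalizer (V : Set PSL(2, F)) ≤ H) (h2 : normalizer (V : Set PSL(2, F)) ≤ K)
    (h3 : normalizer (V : Set PSL(2, F)) ≤ L) : H = K ∨ L = H ∨ L = K := by
  have ho : Odd (Nat.card F) := by rw [hF]; decide
  obtain ⟨_, -, _, -, x, hx, h4⟩ := hasA4_normalizer_four ho hV
  obtain ⟨e⟩ := equiv_normalizer_four_psl_alt (by omega) hV
  have h5 := card_normalizer_four_psl_of_three_five (by omega) hV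
  generalize normalizer (V : Set PSL(2, F)) = A at *
  have h6 : ∀ {H}, A5 H → A ≤ H → ∃ s ∈ H, s * x * s⁻¹ = x⁻¹ := fun ⟨f⟩ h => by
    obtain ⟨s, hs⟩ := alt_five_inv (f ⟨x, h hx⟩) (by simp [← map_pow, Subtype.ext_iff, h4.cube])
    obtain ⟨s, rfl⟩ := f.surjective s
    exact ⟨s, s.2, by simpa [← map_mul, ← map_inv, Subtype.ext_iff] using hs⟩
  have h7 : ∀ {H K s r}, A5 H → A5 K → A ≤ H → A ≤ K → s ∈ H → r ∈ K → s * x * s⁻¹ = x⁻¹ →
      s⁻¹ * r ∈ zpowers x → H = K := fun {H K s r} hH hK a1 a2 a3 a4 a5 a6 => by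
    have a7 := card_dvd_of_le (le_inf a1 a2)
    have a8 := card_dvd_of_le (inf_le_left (a := H) (b := K))
    have a9 : Nat.card ↥(H ⊓ K) ≠ 12 := fun e' => h4.mul_self_ne (by
      have a9 : s ∈ A := (eq_of_le_of_card_ge (le_inf a1 a2) (by omega)).ge ⟨a3, by
        simpa using mul_mem a4 (inv_mem (zpowers_le.2 (a2 hx) a6))⟩
      simpa [← map_mul, Subtype.ext_iff] using alt_four_conj_inv (e ⟨s, a9⟩) (e ⟨x, hx⟩)
        (by simpa [← map_mul, ← map_inv, Subtype.ext_iff] using a5))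
    rw [hH.card] at a8
    have a10 : Nat.card ↥(H ⊓ K) = 60 := by
      obtain ⟨k, hk⟩ := a7
      have := Nat.le_of_dvd (by norm_num) a8
      rw [hk, h5] at a8 a9 this ⊢
      have : k ≤ 5 := by omega
      interval_cases k <;> omega
    exact (eq_of_le_of_card_ge inf_le_left (by rw [a10, hH.card])).symm.trans
      (eq_of_le_of_card_ge inf_le_right (by rw [a10, hK.card]))
  obtain ⟨s, s1, s2⟩ := h6 hH h1
  obtain ⟨r, r1, r2⟩ := h6 hK h2
  obtain ⟨u, u1, u2⟩ := h6 hL h3
  have : CharP F 11 := by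
    have := Fintype.ofFinite F
    have : Fact (Nat.Prime 11) := ⟨by norm_num⟩
    exact charP_of_card_eq_prime (Nat.card_eq_fintype_card.symm.trans hF)
  have : Fact (Nat.Prime 11) := ⟨by norm_num⟩
  obtain ⟨a, b, m, h8, h9⟩ := exists_mem_torusL_of_coprime (AlgebraicClosure F) 11 (g := x)
    (by rw [h4.orderOf_eq]; norm_num)
  have h10 := h8.card_torusL
  have h11 := orderOf_dvd_natCard _ h9
  have h12 := ((zpowers x).subgroupOf (torusL F a b)).card_mul_index
  rw [Nat.card_congr (subgroupOfEquivOfLe (zpowers_le.2 h9)).toEquiv, Nat.card_zpowers] at h12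
  rw [gcd_two_eq_of_odd ho] at h10
  rw [h4.orderOf_eq, h10] at h11 h12
  have h13 : ((zpowers x).subgroupOf (torusL F a b)).index = 2 := by have := h8.eq_or_eq; omega
  have h14 : ∀ {s r}, s * x * s⁻¹ = x⁻¹ → r * x * r⁻¹ = x⁻¹ → s⁻¹ * r ∈ torusL F a b := fun e e' => by
    rw [← centralizer_of_mem_torusL h8.ne h9 h4.mul_self_ne, mem_centralizer_singleton_iff,
      mul_assoc, mul_inv_eq_iff_eq_mul.1 e', ← e]
    group
  have h15 := mul_mem_iff_of_index_two h13 (a := ⟨_, h14 u2 s2⟩) (b := ⟨_, h14 s2 r2⟩)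
  simp only [mem_subgroupOf, coe_mul, mul_assoc, mul_inv_cancel_left] at h15
  by_cases e1 : s⁻¹ * r ∈ zpowers x
  · exact .inl (h7 hH hK h1 h2 s1 r1 s2 e1)
  by_cases e2 : u⁻¹ * s ∈ zpowers x
  · exact .inr (.inl (h7 hL hH h3 h1 u1 s1 u2 e2))
  · exact .inr (.inr (h7 hL hK h3 h2 u1 r1 u2 (h15.2 (iff_of_false e2 e1))))

theorem ncard_cl {H : Subgroup PSL(2, F)} (hH : A5 H) :
    {K | ∃ g : PSL(2, F), K = MulAut.conj g • H}.ncard = 11 := by
  refine (ncard_conj_subgroup H).trans ?_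
  have h1 := H.card_mul_index
  rw [hH.card, card_psl_of_eq (n := 660) hF (by norm_num)] at h1
  have := isSimpleGroup_psl (F := F) (by omega)
  refine ((Nat.dvd_prime (by norm_num)).1 ((index_dvd_of_le le_normalizer).trans
    (show H.index = 11 by omega).dvd)).resolve_left (mt index_eq_one.1 (normalizer_ne_top_of_simple ?_ ?_))
  · rintro rfl; simpa using hH.card
  · rintro rfl; simp at h1

theorem exists_not_conj {H : Subgroup PSL(2, F)} (hH : A5 H) :
    ∃ K, A5 K ∧ ∀ g : PSL(2, F), MulAut.conj g • H ≠ K := by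
  have ho : Odd (Nat.card F) := by rw [hF]; decide
  obtain ⟨c, hc⟩ : ∃ c, c ∉ pslSub F := by
    by_contra! h
    have := index_pslSub_of_odd ho
    simp [(eq_top_iff' _).2 h] at this
  refine ⟨conjL c • H, hH.smul _, fun g e => ?_⟩
  have h1 : (toP g)⁻¹ * c ∈ normalizer (H.map toP : Set PGL(2, F)) := map_conjL_eq_iff.1 (by
    change conjL ((toP g)⁻¹ * c) • H = H
    rw [map_mul, mul_smul, ← e, ← map_inv, conjL_toP, map_inv, inv_smul_smul])
  have h2 := card_inf_pslSub ho fun h => hc ((mul_mem_cancel_left (inv_mem (toP_mem g))).1 (h h1))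
  have h3 := (ncard_conj_subgroup H).symm.trans (ncard_cl hF hH)
  have h4 := (normalizer (H : Set PSL(2, F))).card_mul_index
  rw [h3,
    card_psl_of_eq (n := 660) hF (by norm_num), normalizer_eq_comap_toP, card_comap_toP] at h4
  have : CharP F 11 := by
    have := Fintype.ofFinite F
    have : Fact (Nat.Prime 11) := ⟨by norm_num⟩
    exact charP_of_card_eq_prime (Nat.card_eq_fintype_card.symm.trans hF)
  have : Fact (Nat.Prime 11) := ⟨by norm_num⟩
  rcases dickson_pgl_coprime (AlgebraicClosure F) 11 (normalizer (H.map toP : Set PGL(2, F))) (by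
    rw [show Nat.card _ = 120 by omega]; norm_num) with ⟨a, b, m, h5, h6⟩ | h5
  · have := card_le_of_le h6
    have := h5.card_dih
    have := h5.eq_or_eq
    omega
  · have := card_of_equiv_exceptional h5
    omega

omit hF


/-- Let F be a field with 11 elements. PSL_2(F) has exactly 22 subgroups isomorphic to the alternating group A_5, and they form two conjugacy classes: there are two such subgroups that are not conjugate, and every such subgroup is conjugate to one of these two. -/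
theorem result {F : Type*} [Field F] [Fintype F] (hF : Fintype.card F = 11) : Nat.card {H : Subgroup (Matrix.ProjectiveSpecialLinearGroup (Fin 2) F) // Nonempty (H ≃* alternatingGroup (Fin 5))} = 22 ∧ ∃ H K : Subgroup (Matrix.ProjectiveSpecialLinearGroup (Fin 2) F), Nonempty (H ≃* alternatingGroup (Fin 5)) ∧ Nonempty (K ≃* alternatingGroup (Fin 5)) ∧ (∀ g : Matrix.ProjectiveSpecialLinearGroup (Fin 2) F, MulAut.conj g • H ≠ K) ∧ ∀ L : Subgroup (Matrix.ProjectiveSpecialLinearGroup (Fin 2) F), Nonempty (L ≃* alternatingGroup (Fin 5)) → ∃ g : Matrix.ProjectiveSpecialLinearGroup (Fin 2) F, MulAut.conj g • L = H ∨ MulAut.conj g • L = K := by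
  rw [← Nat.card_eq_fintype_card] at hF
  obtain ⟨H, hH⟩ := exists_alt_five (F := F) (by omega)
  obtain ⟨K, hK, h1⟩ := exists_not_conj hF hH
  have h2 : ∀ L, A5 L → ∃ g : PSL(2, F), MulAut.conj g • L = H ∨ MulAut.conj g • L = K := fun L hL => by
    obtain ⟨V, hV⟩ := exists_four_psl (F := F) (by rw [hF]; decide)
    obtain ⟨a, ha⟩ := exists_le' hF hV hH
    obtain ⟨b, hb⟩ := exists_le' hF hV hK
    obtain ⟨c, hc⟩ := exists_le' hF hV hL
    have key : ∀ {a b : PSL(2, F)} {H K : Subgroup PSL(2, F)}, MulAut.conj a • H = MulAut.conj b • K →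
        MulAut.conj (b⁻¹ * a) • H = K := fun e => by rw [map_mul, mul_smul, e, map_inv, inv_smul_smul]
    rcases pigeon hF hV (A5.smul hH _) (hK.smul _) (hL.smul _) ha hb hc with e | e | e
    exacts [(h1 _ (key e)).elim, ⟨_, .inl (key e)⟩, ⟨_, .inr (key e)⟩]
  refine ⟨?_, H, K, hH, hK, h1, h2⟩
  change Set.ncard {H | A5 H} = 11 + 11
  conv_rhs => rw [← ncard_cl hF hH]; right; rw [ncard_cl hF hH, ← ncard_cl hF hK]
  rw [← Set.ncard_union_eq (Set.disjoint_left.2 ?_)]
  · refine congrArg _ (Set.ext fun L => ⟨fun hL => ?_, ?_⟩)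
    · obtain ⟨g, h⟩ := h2 L hL
      exact h.imp (⟨g⁻¹, by rw [← ·, map_inv, inv_smul_smul]⟩) (⟨g⁻¹, by rw [← ·, map_inv, inv_smul_smul]⟩)
    · rintro (⟨g, rfl⟩ | ⟨g, rfl⟩)
      exacts [A5.smul hH _, hK.smul _]
  · rintro _ ⟨a, rfl⟩ ⟨b, e⟩
    exact h1 (b⁻¹ * a) (by rw [map_mul, mul_smul, e, map_inv, inv_smul_smul])

end Cfsg.Agent.S2543
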