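import Cfsg.Statements.S2544
import Cfsg.Agent.Lib.CharDeg.FlagSt

set_option autoImplicit false
open Cfsg

namespace Cfsg.Agent.S2544

open Cfsg.Lib.GLFlag Cfsg.Lib.Char Cfsg.Lib.Linear Matrix in

/-- Let F be a finite field of characteristic p and consider the projective special linear group PSL_n(F) with n ≥ 2. This group has an irreducible complex character χ whose degree equals the order of a Sylow p-subgroup (namely q^(n(n−1)/2) when #F = q) and whose restriction to any Sylow p-subgroup P is the regular character of P: χ vanishes on the non-identity elements of P. (This is the Steinberg character.) -/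
theorem result {F : Type*} [Field F] [Fintype F] (p : ℕ) [Fact p.Prime] [CharP F p] (n : ℕ) (hn : 2 ≤ n) : ∃ χ : Matrix.ProjectiveSpecialLinearGroup (Fin n) F → ℂ, Cfsg.IsIrrCharacter (Matrix.ProjectiveSpecialLinearGroup (Fin n) F) χ ∧ ∀ P : Sylow p (Matrix.ProjectiveSpecialLinearGroup (Fin n) F), χ 1 = Nat.card P ∧ ∀ x : Matrix.ProjectiveSpecialLinearGroup (Fin n) F, x ∈ P → x ≠ 1 → χ x = 0 := by
  have hp : p.Prime := Fact.out
  haveI : Nonempty (Fin n) := ⟨⟨0, by omega⟩⟩
  have h1 := isIrr_unipotent (F := F) (ν := fun _ : Fin n => 1) monotone_const (by simp)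
  have h2 := steinberg_apply_one (n := n) (F := F)
  have h3 : charDegree (unipotentCharacterGL n F fun _ => 1) = Fintype.card F ^ (n * (n - 1) / 2) :=
    Nat.cast_injective (R := ℂ) (h1.apply_one_eq.symm.trans h2)
  have hc : (Fintype.card F).Coprime (Fintype.card F - 1) :=
    (Nat.coprime_self_sub_right Fintype.card_pos).2 (Nat.coprime_one_right _)
  obtain ⟨χ, h4, h5⟩ := (isIrr_res_SL h1 (h3 ▸ hc.pow_left _)).exists_eq_comp_of_surjective
    (QuotientGroup.mk' (Subgroup.center (SpecialLinearGroup (Fin n) F)))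
    (QuotientGroup.mk'_surjective _) fun x hx => by
      obtain ⟨r, -, hr⟩ := Matrix.SpecialLinearGroup.mem_center_iff.1 ((QuotientGroup.eq_one_iff x).1 hx)
      rw [map_one]
      refine unipotent_apply_of_central _ (fun i j hij => ?_) (Subgroup.mem_center_iff.2 fun g =>
        Units.ext ?_)
      · change x.1 i j = 0
        rw [← hr]; simp [hij]
      · change g.1 * x.1 = x.1 * g.1
        rw [← hr]; exact (scalar_commute r (Commute.all r) _).symm
  have h6 : χ 1 = (Fintype.card F ^ (n * (n - 1) / 2) : ℕ) := by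
    rw [← h2, ← map_one (QuotientGroup.mk' _), h5, map_one]
  have h7 : p ^ (Nat.card (ProjectiveSpecialLinearGroup (Fin n) F)).factorization p =
      Fintype.card F ^ (n * (n - 1) / 2) := by
    obtain ⟨P⟩ : Nonempty (Sylow p (SpecialLinearGroup (Fin n) F)) := inferInstance
    have h0 : p ∣ Fintype.card F := by
      obtain ⟨n, -, hn⟩ := FiniteField.card F p
      rw [hn]; exact dvd_pow_self p n.ne_zero
    have h8 : ¬ p ∣ Nat.gcd (Fintype.card (Fin n)) (Fintype.card F - 1) := fun h =>
      hp.one_lt.ne' (Nat.eq_one_of_dvd_coprimes hc h0 (h.trans (Nat.gcd_dvd_right _ _)))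
    rw [← card_sylow_SL P, P.card_eq_multiplicity, ← card_PSL_mul, Nat.factorization_mul
      (fun e => h8 (by rw [e]; exact dvd_zero p)) Nat.card_pos.ne', Finsupp.add_apply,
      Nat.factorization_eq_zero_of_not_dvd h8, zero_add]
  refine ⟨χ, h4, fun P => ⟨by rw [h6, P.card_eq_multiplicity, h7], fun x hx hx1 => ?_⟩⟩
  refine h4.apply_eq_zero_of_defect_zero hp (dvd_of_eq (h7.trans
    (Nat.cast_injective (R := ℂ) (h4.apply_one_eq.symm.trans h6)).symm)) ?_
  obtain ⟨k, hk⟩ := (IsPGroup.iff_orderOf.1 P.isPGroup') ⟨x, hx⟩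
  rw [← Subgroup.orderOf_coe] at hk
  rw [hk]
  refine dvd_pow_self p fun e => hx1 (orderOf_eq_one_iff.1 ?_)
  rw [hk, e, pow_zero]

end Cfsg.Agent.S2544
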