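import Cfsg.Statements.S2551
import Cfsg.Agent.Lib.CharDeg.SLPairs
import Cfsg.Agent.Lib.Mathieu.Chain
import Cfsg.Agent.S0256

set_option autoImplicit false
open Cfsg

namespace Cfsg.Agent.S2551

open Matrix MulAction Cfsg.Lib.Linear Cfsg.Lib.Mathieu

variable {F : Type*} [Field F] [Fintype F]

/-- ordered pairs of distinct nonzero vectors -/
def X (F : Type*) [Field F] : Set ((Fin 4 → F) × (Fin 4 → F)) := {p | p.1 ≠ 0 ∧ p.2 ≠ 0 ∧ p.1 ≠ p.2}

theorem ncard_X (hF : Fintype.card F = 2) : (X F).ncard = 210 := by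
  classical
  have : X F = ((Finset.univ.erase (0 : Fin 4 → F)).offDiag : Set _) := by
    ext p
    simp [X]
  rw [this, Set.ncard_coe_finset, Finset.offDiag_card, Finset.card_erase_of_mem (Finset.mem_univ _), Finset.card_univ,
    Fintype.card_fun, hF]
  rfl

omit [Fintype F] in
theorem smul_mem (g : GL (Fin 4) F) {p : (Fin 4 → F) × (Fin 4 → F)} (h : p ∈ X F) : g • p ∈ X F :=
  ⟨fun e => h.1 ((smul_eq_zero_iff_eq g).1 e), fun e => h.2.1 ((smul_eq_zero_iff_eq g).1 e),
    fun e => h.2.2 (MulAction.injective g e)⟩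

theorem li (hF : Fintype.card F = 2) {p : (Fin 4 → F) × (Fin 4 → F)} (h : p ∈ X F) :
    LinearIndependent F ![p.1, p.2] := by
  rw [LinearIndependent.pair_iff' h.1]
  intro a e
  by_cases h0 : a = 0
  · exact h.2.1 (by rw [← e, h0, zero_smul])
  · have h1 : a = 1 := by
      have := FiniteField.pow_card_sub_one_eq_one a h0
      rwa [hF, pow_one] at this
    exact h.2.2 (by rw [← e, h1, one_smul])

theorem card_stab (hF : Fintype.card F = 2) {p : (Fin 4 → F) × (Fin 4 → F)} (h : p ∈ X F) :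
    Nat.card (stabilizer (GL (Fin 4) F) p) = 96 := by
  have h1 : orbit (GL (Fin 4) F) p = X F := by
    refine Set.ext fun q => ⟨fun ⟨g, e⟩ => e ▸ smul_mem g h, fun hq => ?_⟩
    obtain ⟨g, hg⟩ := Cfsg.Lib.GLFlag.exists_SL_of_linearIndependent (by decide) (li hF h) (li hF hq)
    exact ⟨SpecialLinearGroup.toGL g, Prod.ext (hg 0) (hg 1)⟩
  have h2 := Nat.card_congr (orbitProdStabilizerEquivGroup (GL (Fin 4) F) p)
  rw [Nat.card_prod, Nat.card_coe_set_eq, h1, ncard_X hF, card_GL, hF] at h2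
  simp only [Fintype.card_fin, Fin.prod_univ_four] at h2
  change _ = 20160 at h2
  omega

theorem orbit_eq (hF : Fintype.card F = 2) {H : Subgroup (GL (Fin 4) F)} (hH : Nat.card H = 2520) :
    ∃ p, orbit H p = X F := by
  classical
  obtain ⟨t, ht⟩ := exists_prime_orderOf_dvd_card' (G := H) 2 (by rw [hH]; decide)
  have t1 : (t : GL (Fin 4) F) ≠ 1 := fun e => by
    rw [show t = 1 from Subtype.ext e, orderOf_one] at ht
    exact absurd ht (by decide)
  have t2 : t * t = 1 := by rw [← sq, ← ht, pow_orderOf_eq_one]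
  obtain ⟨v, hv⟩ : ∃ v : Fin 4 → F, (t : GL (Fin 4) F) • v ≠ v := by
    by_contra! hn
    exact t1 (Units.ext (ext_iff_smul.2 fun v => (hn v).trans (one_smul _ v).symm))
  have v0 : v ≠ 0 := fun e => hv (by rw [e, smul_zero])
  have hp : (v, (t : GL (Fin 4) F) • v) ∈ X F := ⟨v0, fun e => v0 ((smul_eq_zero_iff_eq _).1 e), hv.symm⟩
  have sub : orbit H (v, (t : GL (Fin 4) F) • v) ⊆ X F := fun q ⟨g, e⟩ => e ▸ smul_mem g.1 hp
  refine ⟨_, Set.eq_of_subset_of_ncard_le sub ?_⟩
  have h1 := card_eq_ncard_orbit_mul H (v, (t : GL (Fin 4) F) • v)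
  have h2 := Set.ncard_le_ncard sub
  have h3 := Subgroup.card_dvd_of_le (inf_le_right (a := H) (b := stabilizer _ (v, (t : GL (Fin 4) F) • v)))
  have h4 : Even (orbit H (v, (t : GL (Fin 4) F) • v)).ncard := by
    rw [Set.ncard_eq_toFinset_card', ← ZMod.natCast_eq_zero_iff_even, Finset.card_eq_sum_ones, Nat.cast_sum]
    refine Finset.sum_involution (fun q _ => q.swap) (fun _ _ => rfl) (fun q hq _ e => ?_) (fun q hq => ?_)
      fun _ _ => rfl
    · exact (sub (Set.mem_toFinset.1 hq)).2.2 (congrArg Prod.snd e)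
    · obtain ⟨g, rfl⟩ := Set.mem_toFinset.1 hq
      refine Set.mem_toFinset.2 ⟨g * t, Prod.ext (mul_smul g t v) ?_⟩
      change (g * t) • (t • v) = g • v
      rw [← mul_smul, mul_assoc, t2, mul_one]
  rw [card_stab hF hp] at h3
  rw [ncard_X hF] at h2 ⊢
  rw [hH] at h1
  generalize Nat.card ↥(H ⊓ stabilizer _ (v, (t : GL (Fin 4) F) • v)) = d at h1 h3
  generalize (orbit H (v, (t : GL (Fin 4) F) • v)).ncard = m at h1 h2 h4
  have h5 := Nat.le_of_dvd (by decide) h3
  obtain ⟨k, hk⟩ := h4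
  interval_cases d <;> omega

/-- Let F be the field with 2 elements. GL_4(F) (≅ A_8) has a subgroup isomorphic to the alternating group A_7, and every such subgroup acts 2-transitively on the 15 non-zero vectors of F⁴: any ordered pair of distinct non-zero vectors is carried to any other by some element of the subgroup. -/
theorem result {F : Type*} [Field F] [Fintype F] (hF : Fintype.card F = 2) : (∃ H : Subgroup (Matrix.GeneralLinearGroup (Fin 4) F), Nonempty (H ≃* alternatingGroup (Fin 7))) ∧ ∀ H : Subgroup (Matrix.GeneralLinearGroup (Fin 4) F), Nonempty (H ≃* alternatingGroup (Fin 7)) → ∀ v w v' w' : Fin 4 → F, v ≠ 0 → w ≠ 0 → v ≠ w → v' ≠ 0 → w' ≠ 0 → v' ≠ w' → ∃ g ∈ H, (g : Matrix (Fin 4) (Fin 4) F).mulVec v = v' ∧ (g : Matrix (Fin 4) (Fin 4) F).mulVec w = w' := by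
  refine ⟨?_, fun H ⟨e⟩ v w v' w' a b c a' b' c' => ?_⟩
  · obtain ⟨e⟩ := Cfsg.Agent.S0256.result hF
    have hZ : Subgroup.center (SpecialLinearGroup (Fin 4) F) = ⊥ :=
      Subgroup.card_eq_one.1 (by rw [card_center_SL, hF]; rfl)
    let e2 : SpecialLinearGroup (Fin 4) F ⧸ Subgroup.center _ ≃* SpecialLinearGroup (Fin 4) F :=
      (QuotientGroup.quotientMulEquivOfEq hZ).trans QuotientGroup.quotientBot
    let e3 : Fin 7 ≃ (Finset.univ.erase (0 : Fin 8)) := Fintype.equivOfCardEq (by simp)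
    let f : alternatingGroup (Fin 7) →* GL (Fin 4) F := SpecialLinearGroup.toGL.comp
      ((e.symm.trans e2).toMonoidHom.comp ((alternatingGroup.ofSubtype _).comp e3.altCongrHom.toMonoidHom))
    have hf : Function.Injective f := SpecialLinearGroup.toGL_injective.comp ((e.symm.trans e2).injective.comp
      (alternatingGroup.ofSubtype_injective.comp e3.altCongrHom.injective))
    exact ⟨f.range, ⟨(MonoidHom.ofInjective hf).symm⟩⟩
  · have hH : Nat.card H = 2520 := by
      rw [Nat.card_congr e.toEquiv, nat_card_alternatingGroup]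
      simp [Nat.factorial]
    obtain ⟨p, hp⟩ := orbit_eq hF hH
    obtain ⟨g, hg⟩ : (v, w) ∈ orbit H p := hp ▸ ⟨a, b, c⟩
    obtain ⟨k, hk⟩ : (v', w') ∈ orbit H p := hp ▸ ⟨a', b', c'⟩
    have : (k * g⁻¹) • (v, w) = (v', w') := by
      rw [← hg, ← hk, mul_smul]
      exact congrArg _ (inv_smul_smul g p)
    exact ⟨_, (k * g⁻¹).2, congrArg Prod.fst this, congrArg Prod.snd this⟩

end Cfsg.Agent.S2551
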