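import Cfsg.Statements.S2552

set_option autoImplicit false
open Cfsg

namespace Cfsg.Agent.S2552

/-- Let F be a finite field and n ≥ 1. For every k, the special linear group SL_n(F) acts transitively on the set of k-dimensional subspaces of F^n: any two subspaces of the same dimension are carried onto each other by some matrix of determinant 1. -/
theorem result {F : Type*} [Field F] [Fintype F] (n : ℕ) (hn : 1 ≤ n) (U₁ U₂ : Submodule F (Fin n → F)) (h : Module.finrank F U₁ = Module.finrank F U₂) : ∃ g : Matrix.SpecialLinearGroup (Fin n) F, U₁.map ((Matrix.SpecialLinearGroup.toLin' g : (Fin n → F) ≃ₗ[F] (Fin n → F)) : (Fin n → F) →ₗ[F] (Fin n → F)) = U₂ := by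
  open Matrix Module in
  rcases eq_or_ne U₂ ⊥ with rfl | h0
  · exact ⟨1, by rw [Submodule.finrank_eq_zero.1 (h.trans (finrank_bot _ _)), Submodule.map_bot]⟩
  obtain ⟨e, he⟩ := Submodule.exists_linearEquiv_restrict_eq (LinearEquiv.ofFinrankEq U₁ U₂ h)
  obtain ⟨v, hv, hv0⟩ := U₂.exists_mem_ne_zero_of_ne_bot h0
  obtain ⟨φ, hφ⟩ := Module.Projective.exists_dual_eq_one F hv0
  let f := LinearMap.transvection (((LinearMap.det e.toLinearMap)⁻¹ - 1) • φ) v ∘ₗ e.toLinearMap
  refine ⟨⟨LinearMap.toMatrix' f, by simp [f, hφ, e.isUnit_det'.ne_zero]⟩, Submodule.eq_of_le_of_finrank_eq ?_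
    (by rw [LinearEquiv.finrank_map_eq, h])⟩
  rintro _ ⟨w, hw, rfl⟩
  have := he ⟨w, hw⟩
  exact (LinearMap.congr_fun (toLin'_toMatrix' f) w).symm ▸ U₂.add_mem (this ▸ Subtype.property _) (U₂.smul_mem _ hv)

end Cfsg.Agent.S2552
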