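import Cfsg.Statements.S2561
import Cfsg.Agent.Lib.Orth.Binary

set_option autoImplicit false
open Cfsg

namespace Cfsg.Agent.S2561

open Cfsg.Lib.Orth QuadraticMap

/-- Fix the non-singular alternating form on the 2m-dimensional space over the field of two elements obtained by polarizing the plus-type form Σ xᵢyᵢ (m ≥ 1). The functions q on the space with q(u + v) = q(u) + q(v) + f(u, v) (the quadratic forms polarizing to f) number 2^(2m); each is equivalent under an invertible linear map either to the plus-type form or to the minus-type form Σ xᵢyᵢ + (z₁² + z₁z₂ + z₂²); and those of plus type number 2^(2m−1) + 2^(m−1), those of minus type 2^(2m−1) − 2^(m−1). -/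
theorem result (m : ℕ) (hm : 1 ≤ m) :
    Nat.card {q : (Fin m ⊕ Fin m → ZMod 2) → ZMod 2 // (∀ u v : (Fin m ⊕ Fin m → ZMod 2), q (u + v) = q u + q v + (Cfsg.quadFormPlus m (ZMod 2) (u + v) - Cfsg.quadFormPlus m (ZMod 2) u - Cfsg.quadFormPlus m (ZMod 2) v))} = 2 ^ (2 * m) ∧
    (∀ q : (Fin m ⊕ Fin m → ZMod 2) → ZMod 2, (∀ u v : (Fin m ⊕ Fin m → ZMod 2), q (u + v) = q u + q v + (Cfsg.quadFormPlus m (ZMod 2) (u + v) - Cfsg.quadFormPlus m (ZMod 2) u - Cfsg.quadFormPlus m (ZMod 2) v)) →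
      (∃ g : (Fin m ⊕ Fin m → ZMod 2) ≃ₗ[ZMod 2] (Fin m ⊕ Fin m → ZMod 2), ∀ v, q v = Cfsg.quadFormPlus m (ZMod 2) (g v)) ∨
      (∃ g : (Fin m ⊕ Fin m → ZMod 2) ≃ₗ[ZMod 2] ((Fin (m - 1) ⊕ Fin (m - 1)) ⊕ Fin 2 → ZMod 2), ∀ v, q v = Cfsg.quadFormMinus (m - 1) (ZMod 2) 1 1 (g v))) ∧
    Nat.card {q : (Fin m ⊕ Fin m → ZMod 2) → ZMod 2 // (∀ u v : (Fin m ⊕ Fin m → ZMod 2), q (u + v) = q u + q v + (Cfsg.quadFormPlus m (ZMod 2) (u + v) - Cfsg.quadFormPlus m (ZMod 2) u - Cfsg.quadFormPlus m (ZMod 2) v)) ∧ ∃ g : (Fin m ⊕ Fin m → ZMod 2) ≃ₗ[ZMod 2] (Fin m ⊕ Fin m → ZMod 2), ∀ v, q v = Cfsg.quadFormPlus m (ZMod 2) (g v)} = 2 ^ (2 * m - 1) + 2 ^ (m - 1) ∧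
    Nat.card {q : (Fin m ⊕ Fin m → ZMod 2) → ZMod 2 // (∀ u v : (Fin m ⊕ Fin m → ZMod 2), q (u + v) = q u + q v + (Cfsg.quadFormPlus m (ZMod 2) (u + v) - Cfsg.quadFormPlus m (ZMod 2) u - Cfsg.quadFormPlus m (ZMod 2) v)) ∧ ∃ g : (Fin m ⊕ Fin m → ZMod 2) ≃ₗ[ZMod 2] ((Fin (m - 1) ⊕ Fin (m - 1)) ⊕ Fin 2 → ZMod 2), ∀ v, q v = Cfsg.quadFormMinus (m - 1) (ZMod 2) 1 1 (g v)} = 2 ^ (2 * m - 1) - 2 ^ (m - 1) := by
  have hQ := nd_qPlus (F := ZMod 2) m
  have hA : Aniso (1 : ZMod 2) 1 := by decide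
  obtain ⟨k, rfl⟩ : ∃ k, m = k + 1 := ⟨m - 1, by omega⟩
  simp only [← coe_qPlus, ← coe_qMinus, Nat.add_sub_cancel]
  have hV : Module.finrank (ZMod 2) (Fin (k + 1) ⊕ Fin (k + 1) → ZMod 2) = 2 * (k + 1) := by
    simp; omega
  have h1 : ∀ w, (∃ g : (Fin (k + 1) ⊕ Fin (k + 1) → ZMod 2) ≃ₗ[ZMod 2] (Fin (k + 1) ⊕ Fin (k + 1) → ZMod 2),
      ∀ v, Lib.Orth.translate (qPlus (k + 1) (ZMod 2)) w v = qPlus (k + 1) (ZMod 2) (g v)) ↔
      qPlus (k + 1) (ZMod 2) w = 0 := fun w => by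
    rw [← equivalent_translate_iff_two hQ]
    exact ⟨fun ⟨g, hg⟩ => (equivalent_of g fun v => (hg v).symm).symm,
      fun h => (equivalent_iff.1 h.symm).imp fun g hg v => (hg v).symm⟩
  have h2 : ∀ w, (∃ g : (Fin (k + 1) ⊕ Fin (k + 1) → ZMod 2) ≃ₗ[ZMod 2] ((Fin (k + 1 - 1) ⊕ Fin (k + 1 - 1)) ⊕ Fin 2 → ZMod 2),
      ∀ v, Lib.Orth.translate (qPlus (k + 1) (ZMod 2)) w v = qMinus (k + 1 - 1) (ZMod 2) 1 1 (g v)) ↔
      qPlus (k + 1) (ZMod 2) w = 1 := fun w => by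
    have h3 : ∀ a : ZMod 2, a = 1 ↔ ¬ a = 0 := by decide
    have h4 := nd_translate hQ rfl w
    rw [h3, ← equivalent_translate_iff_two hQ]
    constructor
    · rintro ⟨g, hg⟩ h
      have := wittIndex_congr (h.trans (equivalent_of g fun v => (hg v).symm))
      rw [wittIndex_qPlus, wittIndex_qMinus _ hA] at this
      omega
    · intro h
      refine (equivalent_iff.1 (equivalent_qMinus h4 (m := k + 1 - 1) (by omega) ?_ hA)).imp
        fun g hg v => (hg v).symm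
      by_contra h5
      exact h (equivalent_qPlus h4 hV (by omega)).symm
  have c0 := cnt_plus_zero hQ hV (wittIndex_qPlus _)
  have c1 := cnt_plus_ne hQ hV (wittIndex_qPlus _) one_ne_zero
  rw [Nat.card_zmod] at c0 c1
  refine ⟨?_, fun q hq => ?_, ?_, ?_⟩
  · have := card_polarizes hQ fun _ => True
    simp only [and_true] at this
    rw [this, Nat.card_congr (Equiv.subtypeUnivEquiv fun _ => trivial), card_eq_pow (F := ZMod 2), hV,
      Nat.card_zmod]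
  · obtain ⟨w, rfl⟩ := (polarizes_iff hQ).1 hq
    rw [h1, h2]
    generalize qPlus (k + 1) (ZMod 2) w = a
    revert a; decide
  · rw [card_polarizes hQ]
    simp only [h1]
    change cnt _ _ = _
    rw [show 2 * (k + 1) - 1 = 2 * k + 1 by omega]
    omega
  · rw [card_polarizes hQ]
    simp only [h2]
    change cnt _ _ = _
    rw [show 2 * (k + 1) - 1 = 2 * k + 1 by omega]
    omega

end Cfsg.Agent.S2561
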