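import Cfsg.Statements.S2563
import Cfsg.Agent.Lib.Orth.SymTwo

set_option autoImplicit false
open Cfsg

namespace Cfsg.Agent.S2563

open Cfsg.Lib Cfsg.Lib.Orth

/-- For k ≥ 1 the symmetric group of degree 4k + 4 embeds in a full orthogonal group in dimension 4k + 2 over the field of two elements: in the isometry group of the plus-type form Σ xᵢyᵢ when k is odd, and in that of the minus-type form Σ xᵢyᵢ + (z₁² + z₁z₂ + z₂²) when k is even (through its action on even partitions of a (4k+4)-set, with the form 'half the size of a part, modulo 2'). -/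
theorem result (k : ℕ) (hk : 1 ≤ k) :
    (Odd k → ∃ φ : Equiv.Perm (Fin (4 * k + 4)) →* ↥(Cfsg.isometryGroup (ZMod 2) (Cfsg.quadFormPlus (2 * k + 1) (ZMod 2))), Function.Injective φ) ∧
    (Even k → ∃ φ : Equiv.Perm (Fin (4 * k + 4)) →* ↥(Cfsg.isometryGroup (ZMod 2) (Cfsg.quadFormMinus (2 * k) (ZMod 2) 1 1)), Function.Injective φ) := by
  have hF : Fintype.card (ZMod 2) = 2 := ZMod.card 2
  refine ⟨fun h => ?_, fun h => ?_⟩
  · obtain ⟨φ, hφ⟩ := exists_perm_hom_even hF hk (nd_qPlus (2 * k + 1)) (by simp; ring)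
      (by rw [osign_qPlus, h.add_one.neg_one_pow])
    exact ⟨(isoEquiv (qPlus _ _)).symm.toMonoidHom.comp φ, (isoEquiv _).symm.injective.comp hφ⟩
  · obtain ⟨φ, hφ⟩ := exists_perm_hom_even hF hk (nd_qMinus (2 * k) (aniso_one_one hF))
      (by simp; ring) (by rw [osign_qMinus _ (aniso_one_one hF), h.add_one.neg_one_pow])
    exact ⟨(isoEquiv (qMinus _ _ 1 1)).symm.toMonoidHom.comp φ, (isoEquiv _).symm.injective.comp hφ⟩

end Cfsg.Agent.S2563
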