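import Cfsg.Statements.S2564
import Cfsg.Agent.Lib.Orth.Binary

set_option autoImplicit false
open Cfsg

namespace Cfsg.Agent.S2564

open Cfsg.Lib.Orth QuadraticMap

/-- On the 2m-dimensional space over the field of two elements (m ≥ 1) let f be the alternating form obtained by polarizing the plus-type form Σ xᵢyᵢ, and let q be any quadratic form polarizing to f. For a vector w, the function q + f(·, w) again polarizes to f, and it is equivalent to q under an invertible linear map (that is, has the same type) if and only if q(w) = 0. -/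
theorem result (m : ℕ) (hm : 1 ≤ m) (q : (Fin m ⊕ Fin m → ZMod 2) → ZMod 2) (hq : (∀ u v : (Fin m ⊕ Fin m → ZMod 2), q (u + v) = q u + q v + (Cfsg.quadFormPlus m (ZMod 2) (u + v) - Cfsg.quadFormPlus m (ZMod 2) u - Cfsg.quadFormPlus m (ZMod 2) v))) (w : (Fin m ⊕ Fin m → ZMod 2)) :
    (∀ u v : (Fin m ⊕ Fin m → ZMod 2), (q (u + v) + (Cfsg.quadFormPlus m (ZMod 2) (u + v + w) - Cfsg.quadFormPlus m (ZMod 2) (u + v) - Cfsg.quadFormPlus m (ZMod 2) w)) =
        (q u + (Cfsg.quadFormPlus m (ZMod 2) (u + w) - Cfsg.quadFormPlus m (ZMod 2) u - Cfsg.quadFormPlus m (ZMod 2) w)) + (q v + (Cfsg.quadFormPlus m (ZMod 2) (v + w) - Cfsg.quadFormPlus m (ZMod 2) v - Cfsg.quadFormPlus m (ZMod 2) w)) +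
        (Cfsg.quadFormPlus m (ZMod 2) (u + v) - Cfsg.quadFormPlus m (ZMod 2) u - Cfsg.quadFormPlus m (ZMod 2) v)) ∧
    ((∃ g : (Fin m ⊕ Fin m → ZMod 2) ≃ₗ[ZMod 2] (Fin m ⊕ Fin m → ZMod 2), ∀ v, q v + (Cfsg.quadFormPlus m (ZMod 2) (v + w) - Cfsg.quadFormPlus m (ZMod 2) v - Cfsg.quadFormPlus m (ZMod 2) w) = q (g v)) ↔ q w = 0) := by
  have hQ := nd_qPlus (F := ZMod 2) m
  revert q w
  rw [← coe_qPlus]
  intro q hq w
  obtain ⟨Q', rfl, h⟩ := exists_form_of_polarizes hq
  have hQ' : ND Q' := (nd_iff _).2 fun x hx => hQ.eq_zero fun y => by rw [← h, hx]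
  have h1 : ∀ v, Q' v + (qPlus m (ZMod 2) (v + w) - qPlus m (ZMod 2) v - qPlus m (ZMod 2) w) =
      translate Q' w v := fun v => by
    rw [translate_apply_two]; exact congrArg _ (h v w).symm
  simp only [h1]
  refine ⟨fun u v => ?_, ?_⟩
  · rw [Q_add, polar_translate rfl, h]; rfl
  · rw [← equivalent_translate_iff_two hQ']
    exact ⟨fun ⟨g, hg⟩ => (equivalent_of g fun v => (hg v).symm).symm,
      fun h => (equivalent_iff.1 h.symm).imp fun g hg v => (hg v).symm⟩

end Cfsg.Agent.S2564
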