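import Cfsg.Statements.S2565
import Cfsg.Agent.Lib.Orth.SymTwo

set_option autoImplicit false
open Cfsg

namespace Cfsg.Agent.S2565

open Cfsg.Lib Cfsg.Lib.Orth

/-- The commutator subgroup of the full orthogonal group of the plus-type form Σ xᵢyᵢ in dimension 6 over the field of two elements (the group Ω⁺₆(2), of index 2) is isomorphic to the alternating group of degree 8. -/
theorem result :
    (Cfsg.Omega (ZMod 2) (Cfsg.quadFormPlus 3 (ZMod 2))).index = 2 ∧
    Nonempty (↥(Cfsg.Omega (ZMod 2) (Cfsg.quadFormPlus 3 (ZMod 2))) ≃* alternatingGroup (Fin 8)) := by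
  have hF : Fintype.card (ZMod 2) = 2 := ZMod.card 2
  exact ⟨(index_commutator_equiv (isoEquiv (qPlus 3 (ZMod 2)))).trans (index_commutator_of_even
    (nd_qPlus 3) (not_exc_of_card (.inr (by simp))) (two_eq_zero_of_card hF) (by simp)),
    (nonempty_omega_six_plus hF).map (commutatorCongr (isoEquiv (qPlus 3 (ZMod 2)))).trans⟩

end Cfsg.Agent.S2565
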