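import Cfsg.Statements.S2566
import Cfsg.Agent.Lib.Orth.SymTwo

set_option autoImplicit false
open Cfsg

namespace Cfsg.Agent.S2566

open Cfsg.Lib Cfsg.Lib.Orth

/-- The full orthogonal group of the plus-type form x₁y₁ + x₂y₂ in dimension 4 over the field of two elements has order 72 and is isomorphic to the wreath product of the symmetric group of degree 3 by a group of order 2: it has a normal subgroup isomorphic to the direct product of two symmetric groups of degree 3, of index 2, whose two direct factors are interchanged by conjugation by some element. -/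
theorem result :
    Nat.card ↥(Cfsg.isometryGroup (ZMod 2) (Cfsg.quadFormPlus 2 (ZMod 2))) = 72 ∧
    ∃ (A B : Subgroup ↥(Cfsg.isometryGroup (ZMod 2) (Cfsg.quadFormPlus 2 (ZMod 2)))),
      Nonempty (↥A ≃* Equiv.Perm (Fin 3)) ∧ Nonempty (↥B ≃* Equiv.Perm (Fin 3)) ∧ A ⊓ B = ⊥ ∧ (∀ a ∈ A, ∀ b ∈ B, a * b = b * a) ∧
      (A ⊔ B).index = 2 ∧ ∃ g : ↥(Cfsg.isometryGroup (ZMod 2) (Cfsg.quadFormPlus 2 (ZMod 2))), A.map (MulAut.conj g).toMonoidHom = B := by
  have hF : Fintype.card (ZMod 2) = 2 := ZMod.card 2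
  have ha := aniso_one_one hF
  have hQ := nd_qMinus 0 ha
  set Q := qMinus 0 (ZMod 2) 1 1
  obtain ⟨e₀⟩ := nonempty_O_equiv (equivalent_of_osign_eq (nd_prod hQ hQ) (nd_qPlus 2)
    (by simp; decide) (by simp) ((osign_prod_self hQ (by simp)).trans (osign_qPlus 2).symm))
  let e := e₀.trans (isoEquiv (qPlus 2 (ZMod 2))).symm
  obtain ⟨s⟩ := nonempty_O_two_minus hF ha
  have hc : Nat.card (isometryGroup (ZMod 2) (qPlus 2 (ZMod 2))) = 72 := by
    rw [Nat.card_congr (isoEquiv _).toEquiv, card_O_qPlus]; simp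
  let φ := e.toMonoidHom.comp (O.prodMap Q Q)
  have hφ : Function.Injective φ := e.injective.comp O.prodMap_injective
  let t : O (Q.prod Q) := ⟨LinearEquiv.prodComm _ _ _, fun v => add_comm _ _⟩
  refine ⟨hc, (φ.comp (.inl _ _)).range, (φ.comp (.inr _ _)).range,
    ⟨(MonoidHom.ofInjective (f := φ.comp (.inl _ _)) (hφ.comp (Prod.mk_left_injective 1))).symm.trans s⟩,
    ⟨(MonoidHom.ofInjective (f := φ.comp (.inr _ _)) (hφ.comp (Prod.mk_right_injective 1))).symm.trans s⟩, ?_, ?_, ?_,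
    e t, ?_⟩
  · refine eq_bot_iff.2 ?_
    rintro _ ⟨⟨a, rfl⟩, b, h⟩
    have : (1 : O Q) = a := congrArg Prod.fst (hφ h)
    rw [← this, map_one]; exact one_mem _
  · rintro _ ⟨a, rfl⟩ _ ⟨b, rfl⟩
    exact ((MonoidHom.commute_inl_inr a b).map φ).eq
  · have h1 : (φ.comp (.inl _ _)).range ⊔ (φ.comp (.inr _ _)).range = φ.range := by
      refine le_antisymm (sup_le ?_ ?_) ?_
      · rintro _ ⟨a, rfl⟩; exact ⟨_, rfl⟩
      · rintro _ ⟨a, rfl⟩; exact ⟨_, rfl⟩
      · rintro _ ⟨⟨a, b⟩, rfl⟩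
        rw [show ((a, b) : O Q × O Q) = (a, 1) * (1, b) by simp, map_mul]
        exact Subgroup.mul_mem_sup ⟨a, rfl⟩ ⟨b, rfl⟩
    have h2 := φ.range.card_mul_index
    rw [← Nat.card_congr (MonoidHom.ofInjective hφ).toEquiv, Nat.card_prod,
      Nat.card_congr s.toEquiv, Nat.card_perm, Nat.card_fin] at h2
    exact Nat.eq_of_mul_eq_mul_left (by decide) ((h1 ▸ h2).trans hc)
  · have h1 : ∀ a, e t * φ (a, 1) * (e t)⁻¹ = φ (1, a) := fun a => by
      simp only [φ, MonoidHom.comp_apply, MulEquiv.coe_toMonoidHom, ← map_inv, ← map_mul]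
      exact congrArg e (Subtype.ext (LinearEquiv.ext fun v => rfl))
    ext x
    exact ⟨fun ⟨_, ⟨a, rfl⟩, h⟩ => ⟨a, (h1 a).symm.trans h⟩, fun ⟨a, h⟩ => ⟨_, ⟨a, rfl⟩, (h1 a).trans h⟩⟩

end Cfsg.Agent.S2566
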