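import Cfsg.Statements.S2567
import Cfsg.Agent.Lib.GLC.Proj

set_option autoImplicit false
open Cfsg

namespace Cfsg.Agent.S2567

/-- Lifting elements of prime order from PGL to GL: let F be a finite field with q elements, r a prime not dividing q − 1, and x an element of order r in GL_n(F) modulo its centre (the scalar matrices). Then x has exactly one preimage in GL_n(F) of order r. -/
theorem result {F : Type*} [Field F] [Fintype F] {q n r : ℕ} (hF : Fintype.card F = q) (hr : r.Prime) (hdiv : ¬ r ∣ q - 1) (x : GL (Fin n) F ⧸ Subgroup.center (GL (Fin n) F)) (hx : orderOf x = r) : ∃! g : GL (Fin n) F, (QuotientGroup.mk g : GL (Fin n) F ⧸ Subgroup.center (GL (Fin n) F)) = x ∧ orderOf g = r := by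
  open Subgroup in
  rcases n with _ | n
  · exact absurd (hx ▸ orderOf_eq_one_iff.2 (Subsingleton.elim _ _)) hr.ne_one
  haveI := Fact.mk hr
  have hc : (Nat.card (center (GL (Fin (n + 1)) F))).Coprime r := by
    rw [Lib.Linear.card_center_GL, hF]; exact ((Nat.Prime.coprime_iff_not_dvd hr).2 hdiv).symm
  obtain ⟨g, rfl⟩ := QuotientGroup.mk_surjective x
  have h1 : ∀ z : center (GL (Fin (n + 1)) F), (g * z) ^ r = g ^ r * (z ^ r :) := fun z =>
    Commute.mul_pow (mem_center_iff.1 z.2 g) r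
  have h2 : g ^ r ∈ center _ := (QuotientGroup.eq_one_iff _).1 (by rw [QuotientGroup.mk_pow, ← hx, pow_orderOf_eq_one])
  obtain ⟨z, hz⟩ := (powCoprime hc).surjective (⟨_, h2⟩⁻¹)
  have h3 : ((g * z :) : _ ⧸ center (GL (Fin (n + 1)) F)) = g := QuotientGroup.mk_mul_of_mem g z.2
  refine ⟨g * z, ⟨h3, orderOf_eq_prime (by rw [h1, show z ^ r = _ from hz]; simp) fun e =>
    hr.ne_one (by rw [← hx, ← h3, e]; simp)⟩, fun y ⟨h4, h5⟩ => ?_⟩
  obtain ⟨w, rfl⟩ : ∃ w : center (GL (Fin (n + 1)) F), y = g * w := ⟨⟨_, QuotientGroup.eq.1 h4.symm⟩, by simp⟩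
  rw [(powCoprime hc).injective (hz.trans (Subtype.ext (inv_eq_of_mul_eq_one_right
    ((h1 w).symm.trans (h5 ▸ pow_orderOf_eq_one _)))))]

end Cfsg.Agent.S2567
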