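import Cfsg.Statements.S2568
import Cfsg.Agent.Lib.Symp.PrimeOrd

set_option autoImplicit false
open Cfsg

namespace Cfsg.Agent.S2568

/-- Number of conjugacy classes of elements of a given prime order r, coprime to the characteristic, in GL_n(q): if i is the multiplicative order of q modulo r and t = (r − 1)/i, the classes correspond to the non-zero t-tuples of natural numbers (a_1, …, a_t) with i(a_1 + ⋯ + a_t) ≤ n (a_j is the multiplicity of the j-th Frobenius orbit of nontrivial r-th roots of unity among the eigenvalues), so there are exactly C(⌊n/i⌋ + t, t) − 1 of them. -/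
theorem result {F : Type*} [Field F] [Fintype F] {p q : ℕ} [Fact p.Prime] [CharP F p] (hF : Fintype.card F = q) (n r i t : ℕ) (hr : r.Prime) (hrp : r ≠ p) (hi : i = orderOf (q : ZMod r)) (ht : t * i = r - 1) : Nat.card {C : ConjClasses (GL (Fin n) F) // ∃ g : GL (Fin n) F, ConjClasses.mk g = C ∧ orderOf g = r} = Nat.choose (n / i + t) t - 1 := by
  open Cfsg.Lib.Symp Cfsg.Lib.GLC Polynomial Matrix in
  classical
  have hp := (Nat.coprime_primes hr Fact.out).2 hrp
  have h0 : (r : F) ≠ 0 := mt (CharP.cast_eq_zero_iff F p r).1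
    ((Nat.Prime.coprime_iff_not_dvd Fact.out).1 hp.symm)
  obtain ⟨S, hS, h1⟩ := exists_finset_RF hr h0
  rw [← hF, ← Nat.card_eq_fintype_card] at hi
  have hi0 : 0 < i := by have := hr.two_le; rw [← hi] at h1; grind
  obtain rfl : S.card = t := Nat.eq_of_mul_eq_mul_right hi0 (by rw [ht, ← h1, hi])
  haveI := Fact.mk hr
  have h2 : ∀ k (ν : Multiset F[X]), (∀ φ ∈ ν, RF r φ) →
      (.replicate k (X - C 1) + ν).filter (X - C 1 ≠ ·) = ν := fun k ν h => by
    rw [Multiset.filter_add, Multiset.filter_eq_nil.2 (by simp [Multiset.mem_replicate]), zero_add,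
      Multiset.filter_eq_self.2 fun φ hφ => (h φ hφ).2.2.2.symm]
  have h3 := fun (g : GL (Fin n) F) (hg : orderOf g = r) => exists_typ_RF (f := toLin' g.1) h0
    (by rw [← hg, ← orderOf_toLin'_gl, pow_orderOf_eq_one])
  have h4 : ∀ (g : GL (Fin n) F) k ν, (∀ φ ∈ ν, RF r φ) →
      typ (toLin' g.1) = .replicate k (X - C 1) + ν → k + ν.card * i = n := fun g k ν h e => by
    simpa [e, sum_natDegree_RF hr h, hi, -map_one] using sum_typ_toLin' g.1
  rw [card_classes' (τ := fun g => (typ (toLin' g.1)).filter (X - C 1 ≠ ·))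
    (q := fun ν => ((∀ φ ∈ ν, φ ∈ S) ∧ ν.card ≤ n / i) ∧ ν ≠ 0),
    card_ne_eq (by simp), card_multiset_le]
  · intro a c ha hc
    obtain ⟨k, ν, h5, h6⟩ := h3 a ha
    obtain ⟨l, μ, h7, h8⟩ := h3 c hc
    rw [gl_isConj_iff_typ]
    refine ⟨fun h => by rw [h], fun h => ?_⟩
    rw [h6, h8, h2 _ _ h5, h2 _ _ h7] at h
    have := h4 a _ _ h5 h6
    have := h4 c _ _ h7 h8
    subst h
    rw [h6, h8, show k = l by omega]
  refine fun ν => ⟨fun ⟨⟨h5, h7⟩, h8⟩ => ?_, fun ⟨g, hg, h⟩ => ?_⟩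
  · have h5 := fun φ hφ => (hS _).1 (h5 φ hφ)
    have h9 := (Nat.le_div_iff_mul_le hi0).1 h7
    rw [hi, ← sum_natDegree_RF hr h5] at h9
    obtain ⟨g, hg⟩ := exists_gl_blocks (n := Fin n)
      (μ := .replicate (n - (ν.map natDegree).sum) (X - C 1) + ν) (fun P hP =>
        (Multiset.mem_add.1 hP).elim (fun h => by
          rw [Multiset.eq_of_mem_replicate h]; exact ⟨monic_X_sub_C 1, by simp⟩)
          fun h => ⟨(h5 P h).1, (h5 P h).coeff_ne hr.ne_zero⟩) (by simp [-map_one]; omega)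
    refine ⟨g, ?_, by rw [hg.typ_eq (pp_RF h5 _), h2 _ _ h5]⟩
    rw [← orderOf_toLin'_gl]
    refine orderOf_eq_prime (pow_eq_one_RF h5 hg) fun h => h8 (Multiset.eq_zero_of_forall_notMem fun φ hφ => ?_)
    have := hg.pow_eq_one_iff.1 ((pow_one _).trans h) φ (Multiset.mem_add.2 (.inr hφ))
    exact (h5 φ hφ).2.2.2 (eq_of_monic_of_associated (h5 φ hφ).1 (monic_X_sub_C 1)
      ((h5 φ hφ).2.1.associated_of_dvd (irreducible_X_sub_C 1) (by simpa using this)))
  · obtain ⟨k, μ, h5, h7⟩ := h3 g hg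
    rw [h7, h2 _ _ h5] at h
    subst h
    refine ⟨⟨fun φ hφ => (hS _).2 (h5 φ hφ), (Nat.le_div_iff_mul_le hi0).2
      (by have := h4 g _ _ h5 h7; omega)⟩, fun h => ?_⟩
    have := pow_eq_one_RF (r := 1) (by simp [h]) (h7 ▸ blocks_typ (toLin' g.1))
    rw [← orderOf_dvd_iff_pow_eq_one, orderOf_toLin'_gl, hg] at this
    exact hr.not_dvd_one this

end Cfsg.Agent.S2568
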