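import Cfsg.Statements.S2569
import Cfsg.Agent.Lib.GLC.Mat

set_option autoImplicit false
open Cfsg

namespace Cfsg.Agent.S2569

/-- In GL_n over a finite field of characteristic p, the conjugacy class of a semisimple element (an element of order prime to p) under the special linear group is its whole GL-conjugacy class: for every such x and every invertible g there is h of determinant one with h x h⁻¹ = g x g⁻¹. -/
theorem result {F : Type*} [Field F] [Fintype F] {p : ℕ} [Fact p.Prime] [CharP F p] {n : ℕ} (x g : GL (Fin n) F) (hx : (orderOf x).Coprime p) : ∃ h : GL (Fin n) F, (h : Matrix (Fin n) (Fin n) F).det = 1 ∧ h * x * h⁻¹ = g * x * g⁻¹ := by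
  open Lib.GLC in
  rcases n with _ | n
  · exact ⟨1, by simp, Subsingleton.elim _ _⟩
  obtain ⟨h, h1, h2⟩ := (exists_det_one_conj_iff (x := x) (g := g)).2 (by
    rw [detC_eq_top_of_isSemisimple (isSemisimple_of_coprime p (by rwa [orderOf_toLin'_gl]))]; trivial)
  exact ⟨h, congrArg Units.val h1, h2⟩

end Cfsg.Agent.S2569
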