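import Cfsg.Statements.S2570
import Cfsg.Agent.Lib.GLC.Unip

set_option autoImplicit false
open Cfsg

namespace Cfsg.Agent.S2570

/-- Number of conjugacy classes of elements of order p in GL_n over a finite field of characteristic p: they correspond to the Jordan types, that is, to the partitions of n with all parts at most p other than the partition into ones, so there are (number of partitions of n with parts ≤ p) − 1 of them. -/
theorem result {F : Type*} [Field F] [Fintype F] {p : ℕ} [Fact p.Prime] [CharP F p] (n : ℕ) : Nat.card {C : ConjClasses (GL (Fin n) F) // ∃ g : GL (Fin n) F, ConjClasses.mk g = C ∧ orderOf g = p} = (Finset.univ.filter (fun μ : Nat.Partition n => ∀ a ∈ μ.parts, a ≤ p)).card - 1 := by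
  open Lib.GLC Matrix in
  have hp : p.Prime := Fact.out
  rw [card_unipotent_classes _ (fun d => (∀ a ∈ d, a ≤ p) ∧ ¬ ∀ a ∈ d, a ≤ 1) (fun g hg =>
    (orderOf_eq_pow_iff p).1 ⟨1, by rw [orderOf_toLin'_gl, hg, pow_one]⟩) fun g d h => by
      rw [← h.jt_pow_eq_zero_iff, ← h.jt_pow_eq_zero_iff, one_smul, pow_one, sub_eq_zero, ← pow_one p,
        ← pow_char_pow_eq_one_iff, pow_one, ← orderOf_toLin'_gl, orderOf_eq_prime_iff]]
  let o : n.Partition := ⟨Multiset.replicate n 1, fun h => by simp [Multiset.eq_of_mem_replicate h], by simp⟩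
  have ho : ∀ μ : n.Partition, (∀ a ∈ μ.parts, a ≤ 1) ↔ μ = o := fun μ => ⟨fun h => Nat.Partition.ext (by
    have := Multiset.eq_replicate_of_mem fun a ha => (h a ha).antisymm (μ.parts_pos ha)
    have h2 := μ.parts_sum
    rw [this, Multiset.sum_replicate, smul_eq_mul, mul_one] at h2
    rw [this, h2]), fun h a ha => (Multiset.eq_of_mem_replicate (h ▸ ha :)).le⟩
  classical
  rw [← Finset.card_erase_of_mem (a := o) (by simpa using fun a ha => ((ho o).2 rfl a ha).trans hp.one_le),
    Nat.subtype_card]
  simp [ho, and_comm]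

end Cfsg.Agent.S2570
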