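import Cfsg.Statements.S2573
import Cfsg.Agent.Lib.GLC.Unip

set_option autoImplicit false
open Cfsg

namespace Cfsg.Agent.S2573

/-- The invariant subspaces of a regular unipotent matrix form a chain: over a finite field, if u is an n × n matrix with (u − 1)^n = 0 and rank(u − 1) = n − 1, then every subspace W of F^n with u W ⊆ W is the kernel of (u − 1)^(dim W); so u has at most one invariant subspace of each dimension. -/
theorem result {F : Type*} [Field F] [Finite F] {n : ℕ} (u : Matrix (Fin n) (Fin n) F) (hnil : (u - 1) ^ n = 0) (hreg : (u - 1).rank = n - 1) (W : Submodule F (Fin n → F)) (hW : ∀ v ∈ W, u.mulVec v ∈ W) : W = LinearMap.ker (Matrix.mulVecLin ((u - 1) ^ Module.finrank F W)) := by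
  open Lib.GLC Matrix in
  rcases n with _ | n
  · exact Subsingleton.elim _ _
  have h1 := Blocks.jt_finrank_ker (f := toLin' u) (c := 1) (d := {n + 1}) (by simpa [jt] using blocks_regular hnil (by simpa using hreg))
    (Module.finrank F W)
  have h2 : Module.finrank F W ≤ n + 1 := by simpa using W.finrank_le
  rw [one_smul, ← toLin'_sub_one, ← toLin'_pow'] at h1
  refine Submodule.eq_of_le_of_finrank_eq (fun v hv => ?_) (h1.trans (by simp [h2])).symm
  have hW' : ∀ v ∈ W, toLin' (u - 1) v ∈ W := fun v hv => by simpa [sub_mulVec] using W.sub_mem (hW v hv) hv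
  have h3 := pow_finrank_eq_zero (Module.End.isNilpotent.restrict hW' ⟨n + 1, by rw [← toLin'_pow', hnil, map_zero]⟩)
  rw [Module.End.pow_restrict] at h3
  exact (LinearMap.congr_fun (toLin'_pow' _ _) v).trans (congrArg Subtype.val (LinearMap.congr_fun h3 ⟨v, hv⟩))

end Cfsg.Agent.S2573
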