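import Cfsg.Statements.S2574
import Cfsg.Agent.Lib.Symp.WallT

set_option autoImplicit false
open Cfsg

namespace Cfsg.Agent.S2574

/-- A regular unipotent element of the symplectic group has totally isotropic small invariant subspaces: over a finite field, if u ∈ Sp_2m(F) satisfies (u − 1)^(2m) = 0 and rank(u − 1) = 2m − 1, and W is a u-invariant subspace with 2 dim W ≤ 2m, then the alternating form vanishes identically on W. -/
theorem result {F : Type*} [Field F] [Finite F] {m : ℕ} (u : Matrix.symplecticGroup (Fin m) F) (hnil : ((u : Matrix (Fin m ⊕ Fin m) (Fin m ⊕ Fin m) F) - 1) ^ (2 * m) = 0) (hreg : ((u : Matrix (Fin m ⊕ Fin m) (Fin m ⊕ Fin m) F) - 1).rank = 2 * m - 1) (W : Submodule F (Fin m ⊕ Fin m → F)) (hW : ∀ v ∈ W, (u : Matrix (Fin m ⊕ Fin m) (Fin m ⊕ Fin m) F).mulVec v ∈ W) (hdim : 2 * Module.finrank F W ≤ 2 * m) : ∀ v ∈ W, ∀ w ∈ W, Cfsg.sympForm m F v w = 0 := by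
  open Cfsg.Lib.Symp Cfsg.Lib.Orth Cfsg.Lib.GLC Matrix Module LinearMap in
  rcases m.eq_zero_or_pos with rfl | hm
  · exact fun v _ w _ => by simp [sympForm]
  haveI : Nonempty (Fin m) := ⟨⟨0, hm⟩⟩
  have hb : Blocks (toLin' u.1) (jt 1 {2 * m}) := by
    simpa [jt, two_mul] using blocks_regular hnil (by simpa [two_mul] using hreg)
  have key : ∀ X : Submodule F (Fin m ⊕ Fin m → F), (∀ v ∈ X, toLin' u.1 v ∈ X) →
      X = ker ((toLin' u.1 - 1) ^ finrank F X) := fun X hX => by
    have h1 : ∀ v ∈ X, (toLin' u.1 - 1) v ∈ X := fun v hv => X.sub_mem (hX v hv) hv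
    refine Submodule.eq_of_le_of_finrank_le (fun v hv => ?_) ?_
    · have := pow_finrank_eq_zero (Module.End.isNilpotent.restrict h1
        ⟨_, toLin'_sub_one_pow_eq_zero_iff.2 hnil⟩)
      rw [Module.End.pow_restrict] at this
      exact congrArg Subtype.val (LinearMap.congr_fun this ⟨v, hv⟩)
    · have := hb.jt_finrank_ker (finrank F X)
      rw [one_smul] at this
      simp [this]
  have S := key ((bil _ F).orthogonal W) fun v hv w hw => by
    obtain ⟨⟨x, hx⟩, h⟩ := (injective_iff_surjective (f := (toLin' u.1).restrict hW)).1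
      (fun _ _ h => Subtype.ext ((spE_sp u).injective (congrArg Subtype.val h))) ⟨w, hw⟩
    rw [← show toLin' u.1 x = w from congrArg Subtype.val h]
    exact ((spE_sp u).inv _ _).trans (hv x hx)
  intro v hv w hw
  rw [sympForm_eq_bil]
  refine (S.ge ((toLin' u.1 - 1).iterateKer.monotone ?_ ((key W hW).le hw))) v hv
  rw [BilinForm.finrank_orthogonal (bil_nondegenerate _ F), finrank_bil]; omega

end Cfsg.Agent.S2574
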