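import Cfsg.Statements.S2575
import Cfsg.Agent.Lib.GLC.Proj

set_option autoImplicit false
open Cfsg

namespace Cfsg.Agent.S2575

/-- Which diagonal involutions of PGL_n(q) lie in PSL_n(q), q odd: for the diagonal matrix t with i entries −1 and n − i entries 1, some non-zero scalar multiple of t has determinant one if and only if i is even or the 2-part of q − 1 exceeds the 2-part of n (that is, −1 is an n-th power in the field exactly in the latter case). -/
theorem result {F : Type*} [Field F] [Fintype F] {q : ℕ} (hF : Fintype.card F = q) (hq : Odd q) {n : ℕ} (hn : 1 ≤ n) (i : ℕ) (hi : i ≤ n) : (∃ c : F, c ≠ 0 ∧ (c • Matrix.diagonal (fun j : Fin n => if (j : ℕ) < i then (-1 : F) else 1)).det = 1) ↔ (Even i ∨ padicValNat 2 n < padicValNat 2 (q - 1)) := by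
  open Lib.GLC Matrix in
  have h0 : ringChar F ≠ 2 := fun e => by
    have := FiniteField.even_card_of_char_two e; rw [hF] at this; exact (Nat.odd_iff.1 hq ▸ this :).not_gt one_pos
  have h1 : (diagonal fun j : Fin n => if (j : ℕ) < i then (-1 : F) else 1).det = (-1) ^ i := by
    rw [det_diagonal, Finset.prod_ite, Finset.prod_const_one, mul_one, Finset.prod_const, Fin.card_filter_val_lt,
      min_eq_right hi]
  simp only [det_smul, h1, Fintype.card_fin]
  rcases Nat.even_or_odd i with h | h
  · exact iff_of_true ⟨1, one_ne_zero, by simp [h.neg_one_pow]⟩ (.inl h)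
  have h2 : orderOf (-1 : Fˣ) = 2 ^ 1 := by rw [← orderOf_units]; simp [orderOf_neg_one, h0]
  have := (exists_ne_zero_pow_eq_iff (-1 : Fˣ) n).trans (exists_pow_eq_iff_padic h2 (by omega))
  rw [Lib.Linear.card_units_field, hF] at this
  simp only [h.neg_one_pow, mul_neg, mul_one, neg_eq_iff_eq_neg, ← Nat.not_odd_iff_even, h, not_true, false_or]
  exact this.trans (by omega)

end Cfsg.Agent.S2575
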