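import Cfsg.Statements.S2576
import Cfsg.Agent.Lib.GLC.Proj

set_option autoImplicit false
open Cfsg

namespace Cfsg.Agent.S2576

/-- Which involutions of PGL_2m(q) coming from a scalar of the quadratic extension field lie in PSL_2m(q), q odd: let μ generate the Sylow 2-subgroup of the multiplicative group of the field with q elements (μ has order the 2-part of q − 1) and let t be the block-diagonal matrix with m diagonal blocks [[0, 1], [μ, 0]] (so t² is the scalar μ and t is an involution modulo scalars). Then some non-zero scalar multiple of t has determinant one if and only if q ≡ 3 (mod 4) or the 2-part of q − 1 is less than the 2-part of 2m. -/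
theorem result {F : Type*} [Field F] [Fintype F] {q : ℕ} (hF : Fintype.card F = q) (hq : Odd q) {m : ℕ} (hm : 1 ≤ m) (μ : F) (hμ : orderOf μ = 2 ^ padicValNat 2 (q - 1)) : (∃ c : F, c ≠ 0 ∧ (c • Matrix.blockDiagonal (fun _ : Fin m => !![(0 : F), 1; μ, 0])).det = 1) ↔ (q % 4 = 3 ∨ padicValNat 2 (q - 1) < padicValNat 2 (2 * m)) := by
  open Lib.GLC Matrix in
  have h0 : ringChar F ≠ 2 := fun e => by
    have := FiniteField.even_card_of_char_two e; rw [hF] at this; exact (Nat.odd_iff.1 hq ▸ this :).not_gt one_pos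
  have hq1 : 1 < q := hF ▸ Fintype.one_lt_card
  have hv : ∀ k, 2 ^ k ∣ q - 1 ↔ k ≤ padicValNat 2 (q - 1) := fun k => padicValNat_dvd_iff_le (by omega)
  have hv1 := (hv 1).1 (by have := Nat.odd_iff.1 hq; omega)
  have hv2 := hv 2
  obtain ⟨u, rfl⟩ := (orderOf_pos_iff.1 (hμ ▸ pow_pos two_pos _)).isUnit
  rw [orderOf_units] at hμ
  have h2 : orderOf (-1 : Fˣ) = 2 := by rw [← orderOf_units]; simp [orderOf_neg_one, h0]
  have h1 : ∀ c : F, (c • blockDiagonal fun _ : Fin m => !![(0 : F), 1; u, 0]).det = 1 ↔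
      c ^ (2 * m) = (((-u) ^ m)⁻¹ :) := fun c => by
    simp [det_blockDiagonal, det_fin_two, ← inv_pow, eq_comm (a := c ^ _), inv_pow,
      inv_eq_iff_eq_inv, mul_eq_one_iff_eq_inv₀ (pow_ne_zero m (neg_ne_zero.2 u.ne_zero)), eq_comm]
  simp only [h1, exists_ne_zero_pow_eq_iff]
  rw [padicValNat.mul two_ne_zero (by omega), padicValNat_self]
  rcases hv1.eq_or_lt with e | hlt
  · rw [← e, pow_one] at hμ
    obtain rfl : u = -1 := Units.ext ((sq_eq_one_iff.1 (show (u : F) ^ 2 = 1 by
      rw [← Units.val_pow_eq_pow_val, ← hμ, pow_orderOf_eq_one, Units.val_one])).resolve_left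
      fun h => by simp [show u = 1 from Units.ext h] at hμ)
    have := Nat.odd_iff.1 hq
    exact iff_of_true ⟨1, by simp⟩ (.inl (by omega))
  obtain ⟨v, hv⟩ : ∃ v, padicValNat 2 (q - 1) = v + 2 := ⟨_, (Nat.sub_add_cancel hlt).symm⟩
  have h3 : orderOf (-u) = 2 ^ (v + 2) := orderOf_eq_prime_pow (fun e => by
    rw [pow_succ', pow_mul, neg_sq, ← pow_mul, ← pow_succ', ← orderOf_dvd_iff_pow_eq_one, hμ, hv,
      Nat.pow_dvd_pow_iff_le_right one_lt_two] at e
    omega) (by rw [pow_succ', pow_mul, neg_sq, ← pow_mul, ← pow_succ', ← hv, ← hμ, pow_orderOf_eq_one])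
  have h4 : orderOf ((-u) ^ m)⁻¹ = 2 ^ (v + 2 - padicValNat 2 m) := by
    rw [orderOf_inv, orderOf_pow_padic h3 (by omega)]
  rw [exists_pow_eq_iff_padic h4 (by omega), Lib.Linear.card_units_field, hF,
    padicValNat.mul two_ne_zero (by omega), padicValNat_self]
  omega

end Cfsg.Agent.S2576
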