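import Cfsg.Statements.S2670
import Cfsg.Agent.Lib.GLC.Diag

set_option autoImplicit false
open Cfsg

namespace Cfsg.Agent.S2670

open Cfsg.Lib.GLC Polynomial Module Matrix

/-- Non-constant multisets. -/
abbrev NC (G : Type*) (n : ℕ) := {M : Sym G n // ∀ a, M ≠ Sym.replicate n a}

instance act {G : Type*} [Group G] (n : ℕ) : MulAction G (NC G n) where
  smul a M := ⟨M.1.map (a * ·), fun b h => M.2 (a⁻¹ * b) (by
    simpa [Sym.eq_replicate_iff, eq_inv_mul_iff_mul_eq] using h)⟩
  one_smul M := Subtype.ext (show M.1.map _ = _ by simp)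
  mul_smul a b M := Subtype.ext (show M.1.map _ = (M.1.map _).map _ by simp [mul_assoc])

theorem card_orbits {G : Type*} [Group G] [Finite G] {r n : ℕ} (hr : r.Prime) (h : Nat.card G = r) (hn : n ≠ 0) :
    Nat.card (Quotient (MulAction.orbitRel G (NC G n))) * r + r =
      (n + r - 1).choose (r - 1) + (r - 1) * if r ∣ n then 1 else 0 := by
  classical
  have := Fintype.ofFinite G
  have := Fintype.ofFinite (Quotient (MulAction.orbitRel G (NC G n)))
  have h1 := MulAction.sum_card_fixedBy_eq_card_orbits_mul_card_group G (NC G n)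
  have hG := Nat.card_eq_fintype_card.symm.trans h
  have h2 : Fintype.card (NC G n) + r = (n + r - 1).choose (r - 1) := by
    have := Fintype.card_subtype_compl fun M : Sym G n => M ∈ Set.range (Sym.replicate n)
    rw [Fintype.card_congr (Equiv.ofInjective _ (Sym.replicate_right_injective hn)).symm,
      Sym.card_sym_eq_choose, hG] at this
    rw [Fintype.card_congr (Equiv.subtypeEquivRight (q := fun M : Sym G n => M ∉ Set.range (Sym.replicate n))
      fun M => by simp [eq_comm]), this, add_comm n, ← Nat.choose_symm_of_eq_add (a := n) (b := r - 1) (by have := hr.pos; omega)]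
    refine Nat.sub_add_cancel ?_
    rw [← hG, ← Sym.card_sym_eq_choose]
    exact Fintype.card_le_of_injective _ (Sym.replicate_right_injective hn)
  have h3 : ∀ a : G, a ≠ 1 → Fintype.card (MulAction.fixedBy (NC G n) a) = if r ∣ n then 1 else 0 := fun a ha => by
    have h4 : ∀ M : MulAction.fixedBy (NC G n) a, ∃ k, r * k = n ∧ M.1.1.1 = k • Finset.univ.val := fun M => by
      have h5 : ∀ b : G, b • M.1 = M.1 := fun b => (show Subgroup.zpowers a ≤ MulAction.stabilizer G M.1 from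
        Subgroup.zpowers_le.2 M.2) (haveI := Fact.mk hr; mem_zpowers_of_prime_card h ha)
      have h6 : M.1.1.1 = M.1.1.1.count 1 • Finset.univ.val := Multiset.ext.2 fun b => by
        have := Multiset.count_map_eq_count' _ M.1.1.1 (mul_right_injective b) 1
        rw [show M.1.1.1.map _ = M.1.1.1 from congrArg (·.1.1) (h5 b), mul_one] at this
        simpa using this
      exact ⟨_, by simpa [M.1.1.2, hG, mul_comm] using (congrArg Multiset.card h6).symm, h6⟩
    split_ifs with h5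
    · obtain ⟨k, rfl⟩ := h5
      refine Fintype.card_eq_one_iff.2 ⟨⟨⟨⟨k • Finset.univ.val, by simp [hG, mul_comm]⟩, fun b hb => ?_⟩,
        Subtype.ext (Subtype.ext ?_)⟩, fun M => ?_⟩
      · have := congrArg (·.1.count (a * b)) hb
        simp [Sym.replicate, Multiset.count_replicate, ha] at this
        simp [this] at hn
      · exact (Multiset.map_nsmul _ _ _).trans (congrArg _ (Multiset.map_univ_val_equiv (Equiv.mulLeft a)))
      · obtain ⟨l, h5, h6⟩ := h4 M
        obtain rfl := Nat.eq_of_mul_eq_mul_left hr.pos h5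
        exact Subtype.ext (Subtype.ext (Subtype.ext h6))
    · exact Fintype.card_eq_zero_iff.2 ⟨fun M => let ⟨k, h, _⟩ := h4 M; h5 ⟨k, h.symm⟩⟩
  rw [← Finset.add_sum_erase _ _ (Finset.mem_univ 1), Finset.sum_congr rfl fun a ha => h3 a (Finset.ne_of_mem_erase ha),
    Finset.sum_const, Finset.card_erase_of_mem (Finset.mem_univ _), Finset.card_univ, hG, smul_eq_mul,
    Fintype.card_congr (α := MulAction.fixedBy _ 1) (Equiv.subtypeUnivEquiv fun M => one_smul G M)] at h1
  rw [Nat.card_eq_fintype_card, ← h1, ← h2]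
  ring


/-- Number of conjugacy classes of elements of prime order r in PGL_n(q) = GL_n(q)/scalars when r divides q − 1 (n ≥ 2): the classes of elements with a diagonalisable lift correspond to the orbits of the cyclic rotation on the r-tuples of eigenvalue multiplicities (a_0, …, a_(r−1)) summing to n with every a_j < n, and when r divides n there are r − 1 further classes (lifts acting irreducibly on blocks of size r); in all (C(n+r−1, r−1) − r − [r ∣ n])/r + r·[r ∣ n] classes. -/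
theorem result {F : Type*} [Field F] [Fintype F] {q : ℕ} (hF : Fintype.card F = q) {n r : ℕ} (hn : 2 ≤ n) (hr : r.Prime) (hrq : r ∣ q - 1) : Nat.card {C : ConjClasses (GL (Fin n) F ⧸ Subgroup.center (GL (Fin n) F)) // ∃ g : GL (Fin n) F ⧸ Subgroup.center (GL (Fin n) F), ConjClasses.mk g = C ∧ orderOf g = r} = (Nat.choose (n + r - 1) (r - 1) - r - (if r ∣ n then 1 else 0)) / r + r * (if r ∣ n then 1 else 0) := by
  classical
  rw [← Nat.card_eq_fintype_card] at hF
  subst hF
  haveI := Fact.mk hr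
  haveI : Nonempty (Fin n) := ⟨⟨0, by omega⟩⟩
  set Z := Subgroup.center (GL (Fin n) F)
  have h0 : ∀ a : GL (Fin n) F, orderOf (a : GL (Fin n) F ⧸ Z) = r ↔
      (∃ c : F, toLin' a.1 ^ r = c • 1) ∧ ¬ ∃ c : F, toLin' a.1 = c • 1 := fun a => by
    rw [← orderOf_pgl_dvd_iff, ← pow_one (toLin' a.1), ← orderOf_pgl_dvd_iff, Nat.dvd_prime hr, Nat.dvd_one]
    have := hr.one_lt
    omega
  obtain ⟨ω, -, hω⟩ := exists_orderOf_eq (K := F) hrq
  have hG : Nat.card (rootsOfUnity r F) = r := (hω ▸ IsPrimitiveRoot.orderOf ω).card_rootsOfUnity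
  choose φ hφ using fun M : NC (rootsOfUnity r F) n => exists_gl_blocks (n := Fin n) (μ := lt (M.1.1.map fun a => a.1.1))
    (forall_lt.2 fun a ha => ⟨monic_X_sub_C a, by obtain ⟨b, -, rfl⟩ := Multiset.mem_map.1 ha; simp⟩)
    (by simp [lt_sum, M.1.2])
  set R := (powMonoidHom r : Fˣ →* Fˣ).range
  have hR : ∀ c : Fˣ, c ∉ R ↔ ∀ b : F, b ^ r ≠ c := fun c => by
    rw [MonoidHom.mem_range, ← not_exists]
    exact not_congr ((exists_ne_zero_pow_eq_iff c r).symm.trans ⟨fun ⟨b, h⟩ => ⟨b, h.2⟩, fun ⟨b, h⟩ =>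
      ⟨b, by rintro rfl; exact c.ne_zero (by rw [← h, zero_pow hr.ne_zero]), h⟩⟩)
  choose ψ hψ using fun x : {x : Fˣ ⧸ R // x ≠ 1 ∧ r ∣ n} => show ∃ a : GL (Fin n) F, toLin' a.1 ^ r = (x.1.out : F) • 1 by
    obtain ⟨k, hk⟩ := x.2.2
    obtain ⟨f, h1, -⟩ := exists_kummer (V := Fin n → F) hr ((hR x.1.out).1 fun h =>
      x.2.1 (by rw [← x.1.out_eq', QuotientGroup.eq_one_iff]; exact h)) (k := k) (by simp [hk, mul_comm])
    obtain ⟨a, ha⟩ := exists_gl_sim (n := Fin n) (f := f) (isUnit_pow_iff hr.ne_zero |>.1 (by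
      rw [h1, ← Algebra.algebraMap_eq_smul_one]; exact x.1.out.isUnit.map _)) (by simp)
    exact ⟨a, ha.pow_eq_smul_one_iff.2 h1⟩
  have hψ' := fun x : {x : Fˣ ⧸ R // x ≠ 1 ∧ r ∣ n} => (hR x.1.out).1 fun h =>
    x.2.1 (by rw [← x.1.out_eq', QuotientGroup.eq_one_iff]; exact h)
  have hφ' := fun M => (hφ M).lt_pow_eq_iff (k := r) (c := 1).2 fun a ha => by
    obtain ⟨b, -, rfl⟩ := Multiset.mem_map.1 ha
    exact congrArg Units.val b.2
  have hs : ∀ {f g : End F (Fin n → F)} {c a b : F}, Sim (c • f) g → f ^ r = a • 1 → g ^ r = b • 1 → c ^ r * a = b :=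
    fun h h1 h2 => smul_left_injective F (one_ne_zero (α := End F (Fin n → F)))
      (by simpa only [_root_.smul_pow, h1, smul_smul] using h.pow_eq_smul_one_iff.2 h2)
  rw [card_classes_quot _ (.ker (Sum.map (Quotient.mk (MulAction.orbitRel (rootsOfUnity r F) _)) id))
    (Sum.elim (fun M => (φ M : GL (Fin n) F ⧸ Z)) fun x => ψ x), Nat.card_congr (Setoid.quotientKerEquivOfSurjective _
      ((Quotient.mk_surjective).sumMap Function.surjective_id)), Nat.card_sum]
  · have h1 := card_orbits hr hG (n := n) (by omega)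
    have h2 : Nat.card {x : Fˣ ⧸ R // x ≠ 1 ∧ r ∣ n} = (r - 1) * if r ∣ n then 1 else 0 := by
      split_ifs with h
      · simp only [h, and_true, mul_one]
        rw [Nat.card_congr (Equiv.subtypeEquivRight (q := fun x => True ∧ x ≠ 1) (by simp)),
          Lib.Symp.card_ne_eq trivial, Nat.card_congr (Equiv.subtypeUnivEquiv fun _ => trivial), ← Subgroup.index,
          IsCyclic.index_powMonoidHom_range, Nat.card_units, Nat.gcd_eq_right hrq]
      · simp [h]
    rw [h2]
    generalize Nat.card (Quotient _) = N at h1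
    obtain ⟨r, rfl⟩ := Nat.exists_eq_add_one_of_ne_zero hr.ne_zero
    split_ifs at h1 ⊢
    · have h3 : 0 < N := Nat.pos_of_ne_zero (by
        rintro rfl
        have := Nat.choose_le_choose r (show r + 1 ≤ n + (r + 1) - 1 by omega)
        have := hr.two_le
        simp only [Nat.choose_succ_self_right, Nat.add_sub_cancel] at *
        omega)
      obtain ⟨N, rfl⟩ := Nat.exists_eq_add_one_of_ne_zero h3.ne'
      rw [show (n + (r + 1) - 1).choose (r + 1 - 1) - (r + 1) - 1 = N * (r + 1) by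
        simp only [Nat.add_sub_cancel, add_mul] at *; omega, Nat.mul_div_cancel _ r.succ_pos]
      omega
    · rw [show (n + (r + 1) - 1).choose (r + 1 - 1) - (r + 1) - 0 = N * (r + 1) by omega, Nat.mul_div_cancel _ r.succ_pos]
      simp
  · rintro (M | x)
    · refine (h0 _).2 ⟨⟨1, hφ' M⟩, fun ⟨c, hc⟩ => ?_⟩
      obtain ⟨a, ha⟩ := Multiset.card_pos_iff_exists_mem.1 (show 0 < M.1.1.card by rw [M.1.2]; omega)
      have := (hφ M).lt_eq_smul_iff.1 hc
      exact M.2 a (Sym.eq_replicate_iff.2 fun b hb => Subtype.ext (Units.ext ((this _ (Multiset.mem_map_of_mem _ hb)).trans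
        (this _ (Multiset.mem_map_of_mem _ ha)).symm)))
    · exact (h0 _).2 ⟨⟨_, hψ x⟩, fun ⟨c, hc⟩ => hψ' x c ((mul_one _).symm.trans
        (hs (f := 1) (.of_eq hc.symm) (by simp) (hψ x)))⟩
  · intro g hg
    obtain ⟨g, rfl⟩ := QuotientGroup.mk_surjective g
    obtain ⟨⟨c, h1⟩, h2⟩ := (h0 g).1 hg
    have hc := ne_zero_of_pow_eq (isUnit_toLin'_gl g) h1
    by_cases h3 : ∃ b, b ^ r = c
    · obtain ⟨b, rfl⟩ := h3
      have hb : b ≠ 0 := by rintro rfl; exact hc (zero_pow hr.ne_zero)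
      obtain ⟨M, hM⟩ := exists_lt_of_pow hrq hb h1
      have h4 := hM.smul_lt b⁻¹
      obtain ⟨N, hN⟩ : ∃ N : Multiset (rootsOfUnity r F), N.map (fun a => a.1.1) = M.map (b⁻¹ * ·) :=
        ⟨(M.map (b⁻¹ * ·)).pmap (fun a h => rootsOfUnity.mkOfPowEq a h) fun a ha => by
          obtain ⟨a, h5, rfl⟩ := Multiset.mem_map.1 ha
          rw [mul_pow, hM.lt_pow_eq_iff.1 h1 a h5, inv_pow, inv_mul_cancel₀ hc], by
          rw [Multiset.map_pmap]; exact (Multiset.pmap_eq_map _ (fun a => a) _ _).trans (Multiset.map_id' _)⟩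
      refine ⟨.inl ⟨⟨N, by simpa [hM.lt_card] using congrArg Multiset.card hN⟩, fun a ha => h2 ⟨b * a.1.1, ?_⟩⟩,
        pgl_isConj_iff.2 ⟨_, inv_ne_zero hb, h4.sim (by convert hφ _ using 2; exact hN.symm)⟩⟩
      rw [← smul_smul, ← h4.lt_eq_smul_iff.2 fun d hd => ?_, smul_inv_smul₀ hb]
      obtain ⟨d, h5, rfl⟩ := Multiset.mem_map.1 (hN ▸ hd)
      rw [Sym.eq_replicate_iff.1 ha d h5]
    · obtain ⟨k, h4, -⟩ := typ_of_kummer hr (not_exists.1 h3) h1
      lift c to Fˣ using hc.isUnit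
      set x : {x : Fˣ ⧸ R // x ≠ 1 ∧ r ∣ n} := ⟨c, mt (QuotientGroup.eq_one_iff c).1 ((hR c).2 (not_exists.1 h3)),
        k, by simpa [mul_comm] using h4.symm⟩
      obtain ⟨⟨_, b, rfl⟩, hb⟩ := QuotientGroup.mk_out_eq_mul R c
      refine ⟨.inr x, pgl_isConj_iff.2 ⟨b, b.ne_zero, sim_iff_typ_eq.2 ?_⟩⟩
      obtain ⟨l, h5, h6, -⟩ := typ_of_kummer hr (hψ' x) (hψ x)
      obtain ⟨m, h7, h8, -⟩ := typ_of_kummer (f := (b : F) • toLin' g.1) hr (hψ' x)
        (by rw [_root_.smul_pow, h1, smul_smul, show x.1.out = _ from hb, mul_comm]; rfl)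
      exact h8.trans (Nat.eq_of_mul_eq_mul_right hr.pos (h5.trans h7.symm) ▸ h6.symm)
  rintro (M | x) (N | y) <;> refine pgl_isConj_iff.trans ?_
  · refine Iff.trans ⟨fun ⟨c, hc, h⟩ => ?_, fun ⟨a, h⟩ => ⟨a.1.1, a.1.ne_zero, (((hφ M).smul_lt _).sim ?_)⟩⟩
      (show (MulAction.orbitRel (rootsOfUnity r F) _) N M ↔ _ from Quotient.eq.symm.trans (eq_comm.trans Sum.inl_injective.eq_iff.symm))
    · refine ⟨rootsOfUnity.mkOfPowEq c ((mul_one _).symm.trans (hs h (hφ' M) (hφ' N))),
        Subtype.ext (Subtype.ext (Multiset.map_injective (f := fun a : rootsOfUnity r F => a.1.1)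
          (Units.val_injective.comp Subtype.val_injective) ?_))⟩
      rw [← lt_injective (((hφ M).smul_lt c).lt_typ.symm.trans (h.typ_eq.trans (hφ N).lt_typ)), Multiset.map_map]
      exact Multiset.map_map _ _ _
    · have := hφ N
      convert this using 2
      rw [← h, Multiset.map_map]
      exact (Multiset.map_map (fun a : rootsOfUnity r F => a.1.1) (a * ·) M.1.1).symm
  · exact iff_of_false (fun ⟨c, hc, h⟩ => hψ' y c ((mul_one _).symm.trans (hs h (hφ' M) (hψ y)))) nofun
  · refine iff_of_false (fun ⟨c, hc, h⟩ => hψ' x c⁻¹ ?_) nofun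
    rw [inv_pow, inv_eq_of_mul_eq_one_right (hs h (hψ x) (hφ' N))]
  · refine Iff.trans ⟨fun ⟨c, hc, h⟩ => Subtype.ext ?_, fun h => ⟨1, one_ne_zero, .of_eq (by simp [h])⟩⟩
      (show x = y ↔ _ from Sum.inr_injective.eq_iff.symm)
    rw [← x.1.out_eq', ← y.1.out_eq', QuotientGroup.eq]
    exact ⟨.mk0 c hc, Units.ext (by simp [← hs h (hψ x) (hψ y), mul_comm])⟩

end Cfsg.Agent.S2670
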