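import Cfsg.Statements.S2581
import Cfsg.Agent.Lib.GLC.Jordan

set_option autoImplicit false
open Cfsg

namespace Cfsg.Agent.S2581

/-- Order of the centraliser in GL of a unipotent matrix of given Jordan type over the field with q elements: if the type has a_i blocks of size i (all block sizes at least 1), the invertible matrices commuting with it number q^γ · Π_i |GL_(a_i)(q)| with γ = 2 Σ_(i<j) i a_i a_j + Σ_i (i − 1) a_i² (a group of order q^γ extended by Π GL_(a_i)(q)). -/
theorem result {F : Type*} [Field F] [Fintype F] {q : ℕ} (hF : Fintype.card F = q) {t : ℕ} (d : Fin t → ℕ) (hd : ∀ k, 1 ≤ d k) : Nat.card {g : GL ((k : Fin t) × Fin (d k)) F // (g : Matrix ((k : Fin t) × Fin (d k)) ((k : Fin t) × Fin (d k)) F) * Cfsg.jordanTypeMatrix d F = Cfsg.jordanTypeMatrix d F * (g : Matrix ((k : Fin t) × Fin (d k)) ((k : Fin t) × Fin (d k)) F)} = q ^ (2 * (∑ i ∈ Finset.range (Finset.univ.sup d + 1), ∑ j ∈ Finset.range (Finset.univ.sup d + 1), if i < j then i * (Finset.univ.filter (fun k : Fin t => d k = i)).card * (Finset.univ.filter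 (fun k : Fin t => d k = j)).card else 0) + ∑ i ∈ Finset.range (Finset.univ.sup d + 1), (i - 1) * (Finset.univ.filter (fun k : Fin t => d k = i)).card ^ 2) * ∏ i ∈ Finset.range (Finset.univ.sup d + 1), ∏ j : Fin ((Finset.univ.filter (fun k : Fin t => d k = i)).card), (q ^ (Finset.univ.filter (fun k : Fin t => d k = i)).card - q ^ (j : ℕ)) := by
  open Lib.GLC Matrix Polynomial Module in
  have hD : ∀ k, d k ∈ Finset.range (Finset.univ.sup d + 1) := fun k =>
    Finset.mem_range_succ_iff.2 (Finset.le_sup (Finset.mem_univ k))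
  have := card_commute_jt hd (blocks_jordanTypeMatrix (F := F) d) hD
  rw [← card_commute_gl, sum_min_eq hd hD, pow_add, mul_right_comm, Nat.card_eq_fintype_card (α := F), hF] at this
  simp only [Fintype.card_subtype] at this
  refine (Nat.eq_of_mul_eq_mul_right (pow_pos (hF ▸ Fintype.card_pos) _) this).trans ?_
  congr 1
  refine Finset.prod_congr rfl fun i _ => ?_
  rw [← hF, ← card_GL_field, ← Fintype.card_subtype]
  exact Nat.card_congr (Units.mapEquiv (reindexAlgEquiv F F (Fintype.equivFin _)).toMulEquiv).toEquiv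

end Cfsg.Agent.S2581
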