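import Cfsg.Statements.S2582
import Cfsg.Agent.Lib.Symp.WallT
import Cfsg.Agent.Lib.GLC.Jordan

set_option autoImplicit false
open Cfsg

namespace Cfsg.Agent.S2582

/-- Which unipotent Jordan types occur in the finite symplectic group: over a finite field, a unipotent matrix with Jordan block sizes d_1, …, d_t (sum 2m, all at least 1) is similar to an element of Sp_2m(F) if and only if every odd block size occurs an even number of times. -/
theorem result {F : Type*} [Field F] [Fintype F] {m t : ℕ} (d : Fin t → ℕ) (hd : ∀ k, 1 ≤ d k) (hsum : ∑ k, d k = 2 * m) : (∃ e : ((k : Fin t) × Fin (d k)) ≃ (Fin m ⊕ Fin m), ∃ A : Matrix.symplecticGroup (Fin m) F, IsConj (Matrix.reindex e e (Cfsg.jordanTypeMatrix d F)) (A : Matrix (Fin m ⊕ Fin m) (Fin m ⊕ Fin m) F)) ↔ ∀ j : ℕ, Odd j → Even (Finset.univ.filter (fun k : Fin t => d k = j)).card := by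
  open Cfsg.Lib.Symp Cfsg.Lib.GLC in
  have hb := blocks_jordanTypeMatrix (F := F) d
  have hpp := jt_pp (1 : F) (d := Finset.univ.val.map d) (fun k hk => by obtain ⟨a, -, rfl⟩ := Multiset.mem_map.1 hk; exact hd a)
  have hc : ∀ j, (Finset.univ.filter fun k : Fin t => d k = j).card = (Finset.univ.val.map d).count j :=
    fun j => by rw [Multiset.count_map, Finset.card, Finset.filter_val]; simp [eq_comm]
  simp only [hc, ← spT_jt_one (F := F)]
  constructor
  · rintro ⟨e, A, h⟩
    exact (((isConj_iff_sim.1 h).symm.trans (sim_reindex e _)).blocks hb).typ_eq hpp ▸ (spE_sp A).spT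
  · intro h
    obtain ⟨A, hA⟩ := (h.occ fun P hP => ⟨hpp P hP, by
      obtain ⟨k, -, rfl⟩ := Multiset.mem_map.1 hP
      simp [Polynomial.coeff_zero_eq_eval_zero]⟩).exists_sp (l := Fin m) (by
        rw [jt_map_natDegree, Fintype.card_fin, ← hsum]; rfl)
    let e : ((k : Fin t) × Fin (d k)) ≃ (Fin m ⊕ Fin m) :=
      Fintype.equivOfCardEq (by simp [hsum, two_mul])
    exact ⟨e, A, isConj_iff_sim.2 (((sim_reindex e _).blocks hb).sim hA)⟩

end Cfsg.Agent.S2582
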