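import Cfsg.Statements.S2583
import Cfsg.Agent.Lib.Orth.Wall2
import Cfsg.Agent.Lib.GLC.Jordan

set_option autoImplicit false
open Cfsg

namespace Cfsg.Agent.S2583

/-- Which unipotent Jordan types occur in a finite orthogonal group in odd characteristic: over a finite field of odd order, a unipotent matrix with Jordan block sizes d_1, …, d_t (sum n, all at least 1) is similar to an isometry of some quadratic form on F^n with non-degenerate polar form if and only if every even block size occurs an even number of times. -/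
theorem result {F : Type*} [Field F] [Fintype F] (h2 : (2 : F) ≠ 0) {n t : ℕ} (d : Fin t → ℕ) (hd : ∀ k, 1 ≤ d k) (hsum : ∑ k, d k = n) : (∃ Q : QuadraticForm F (Fin n → F), (QuadraticMap.polarBilin Q).Nondegenerate ∧ ∃ e : ((k : Fin t) × Fin (d k)) ≃ Fin n, ∃ A : ↥(Cfsg.isometryGroup F ⇑Q), IsConj (Matrix.reindex e e (Cfsg.jordanTypeMatrix d F)) ((A : Matrix.GeneralLinearGroup (Fin n) F) : Matrix (Fin n) (Fin n) F)) ↔ ∀ j : ℕ, Even j → 0 < j → Even (Finset.univ.filter (fun k : Fin t => d k = j)).card := by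
  open Cfsg.Lib.Orth Cfsg.Lib.Symp Cfsg.Lib.GLC in
  have hb := blocks_jordanTypeMatrix (F := F) d
  have h0 : ∀ k ∈ Finset.univ.val.map d, 0 < k := fun k hk => by
    obtain ⟨a, -, rfl⟩ := Multiset.mem_map.1 hk; exact hd a
  have hc : ∀ j, (Finset.univ.filter fun k : Fin t => d k = j).card = (Finset.univ.val.map d).count j :=
    fun j => by rw [Multiset.count_map, Finset.card, Finset.filter_val]; simp [eq_comm]
  simp only [hc, isConj_iff_sim]
  refine ⟨fun ⟨Q, hQ, e, A, h⟩ j hj _ => ((oE_iso hQ A).fE h2).even_count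
    (((h.symm.trans (sim_reindex e _)).blocks hb).typ_eq (jt_pp 1 h0)) hj, fun h => ?_⟩
  obtain ⟨V, _, _, _, B, f, h3, h4, -⟩ := uOcc (e := 0) h2 h0 (fun j hj => j.eq_zero_or_pos.elim
    (fun e => by rw [Multiset.count_eq_zero.2 fun h => (h0 j h).ne' e]; simp) (h j hj)) (σ := 1) fun _ _ => rfl
  obtain ⟨Q', h5, -⟩ := h3.exists_oE
  obtain ⟨Q, hQ, A, hA⟩ := h5.exists_iso_of_finrank (ι := Fin n)
    (by rw [← Blocks.jt_sum (h4 ▸ blocks_typ f), Fintype.card_fin, ← hsum]; rfl)
  exact ⟨Q, hQ, Fintype.equivOfCardEq (by simp [hsum]), A,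
    (((sim_reindex _ _).blocks hb).sim (h4 ▸ blocks_typ f)).trans hA.sim⟩

end Cfsg.Agent.S2583
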