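import Cfsg.Statements.S2584
import Cfsg.Agent.Lib.Orth.Wall3
import Cfsg.Agent.Lib.GLC.Jordan

set_option autoImplicit false
open Cfsg

namespace Cfsg.Agent.S2584

/-- Which unipotent Jordan types occur in a finite orthogonal group in characteristic two: over a finite field of characteristic 2 and in even dimension 2m, a unipotent matrix with Jordan block sizes d_1, …, d_t (sum 2m, all at least 1) is similar to an isometry of some quadratic form on F^(2m) with non-degenerate polar form if and only if every odd block size occurs an even number of times (the same condition as for the symplectic group, which contains these orthogonal groups). -/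
theorem result {F : Type*} [Field F] [Fintype F] [CharP F 2] {m t : ℕ} (d : Fin t → ℕ) (hd : ∀ k, 1 ≤ d k) (hsum : ∑ k, d k = 2 * m) : (∃ Q : QuadraticForm F (Fin (2 * m) → F), (QuadraticMap.polarBilin Q).Nondegenerate ∧ ∃ e : ((k : Fin t) × Fin (d k)) ≃ Fin (2 * m), ∃ A : ↥(Cfsg.isometryGroup F ⇑Q), IsConj (Matrix.reindex e e (Cfsg.jordanTypeMatrix d F)) ((A : Matrix.GeneralLinearGroup (Fin (2 * m)) F) : Matrix (Fin (2 * m)) (Fin (2 * m)) F)) ↔ ∀ j : ℕ, Odd j → Even (Finset.univ.filter (fun k : Fin t => d k = j)).card := by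
  open Cfsg.Lib.Orth Cfsg.Lib.Symp Cfsg.Lib.GLC in
  have hb := blocks_jordanTypeMatrix (F := F) d
  have hpp := jt_pp (1 : F) (d := Finset.univ.val.map d) fun k hk => by
    obtain ⟨a, -, rfl⟩ := Multiset.mem_map.1 hk; exact hd a
  have hc : ∀ j, (Finset.univ.filter fun k : Fin t => d k = j).card = (Finset.univ.val.map d).count j :=
    fun j => by rw [Multiset.count_map, Finset.card, Finset.filter_val]; simp [eq_comm]
  simp only [hc, ← spT_jt_one (F := F), isConj_iff_sim]
  refine ⟨fun ⟨Q, hQ, e, A, h⟩ => ((h.symm.trans (sim_reindex e _)).blocks hb).typ_eq hpp ▸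
    ((oE_iso hQ A).spE CharTwo.two_eq_zero).spT, fun h => ?_⟩
  obtain ⟨A, hA⟩ := (h.occ fun P hP => ⟨hpp P hP, by
    obtain ⟨k, -, rfl⟩ := Multiset.mem_map.1 hP
    simp [Polynomial.coeff_zero_eq_eval_zero]⟩).exists_sp (l := Fin m) (by
      rw [jt_map_natDegree, Fintype.card_fin, ← hsum]; rfl)
  obtain ⟨Q', h5, -⟩ := (spE_sp A).exists_oE_two CharTwo.two_eq_zero
  obtain ⟨Q, hQ, A, hA'⟩ := h5.exists_iso_of_finrank (ι := Fin (2 * m)) (by simp [two_mul])
  exact ⟨Q, hQ, Fintype.equivOfCardEq (by simp [hsum]), A,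
    (((sim_reindex _ _).blocks hb).sim hA).trans hA'.sim⟩

end Cfsg.Agent.S2584
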