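import Cfsg.Statements.S2585
import Cfsg.Agent.Lib.Symp.Inv2

set_option autoImplicit false
open Cfsg

namespace Cfsg.Agent.S2585

/-- Over a finite field of characteristic two every element of the symplectic group is orthogonal for a suitable quadratic form: for each A in Sp_2m(F) there is a quadratic form Q on F^(2m) whose polar form is the alternating form defining Sp_2m(F) (so Q is non-degenerate) and which A preserves. Equivalently, for m ≥ 1, Sp_2m(F) is the union of the conjugates of its two orthogonal subgroups O⁺_2m(F) and O⁻_2m(F). -/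
theorem result {F : Type*} [Field F] [Fintype F] [CharP F 2] {m : ℕ} (A : Matrix.symplecticGroup (Fin m) F) : ∃ Q : QuadraticForm F (Fin m ⊕ Fin m → F), (∀ u v : Fin m ⊕ Fin m → F, QuadraticMap.polar ⇑Q u v = Cfsg.sympForm m F u v) ∧ ∀ v : Fin m ⊕ Fin m → F, Q ((A : Matrix (Fin m ⊕ Fin m) (Fin m ⊕ Fin m) F).mulVec v) = Q v := by
  open Cfsg.Lib.Symp Cfsg.Lib.Orth Matrix QuadraticMap in
  have h2 : (2 : F) = 0 := CharTwo.two_eq_zero
  simp only [sympForm_eq_bil]
  let Q : QuadraticForm F (Fin m ⊕ Fin m → F) := ∑ i, linMulLin (.proj (.inr i)) (.proj (.inl i))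
  have hQ : ∀ u v, polar Q u v = bil _ F u v := fun u v => by
    simp only [polar, Q, _root_.sum_apply, linMulLin_apply, ← Finset.sum_sub_distrib,
      bil_apply_sum, CharTwo.sub_eq_add (_ * v _)]
    exact Finset.sum_congr rfl fun i _ => by simp; ring
  have hQ' : ∀ u v, Q (u + v) = Q u + Q v + bil _ F u v := fun u v => by rw [← hQ, polar]; ring
  obtain ⟨l, hl⟩ := exists_dual_sq h2 (φ := fun v => Q (A.1 *ᵥ v) - Q v)
    (fun u v => by simp only [mulVec_add, hQ', bil_mulVec]; ring)
    fun a v => by simp only [mulVec_smul, QuadraticMap.map_smul, smul_eq_mul]; ring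
  obtain ⟨l', hl'⟩ : l ∈ LinearMap.range (toLin' A.1 - 1).dualMap := by
    rw [LinearMap.range_dualMap_eq_dualAnnihilator_ker, Submodule.mem_dualAnnihilator]
    intro v hv
    have : A.1 *ᵥ v = v := sub_eq_zero.1 hv
    simpa [this] using (hl v).symm
  refine ⟨Q + linMulLin l' l', fun u v => ?_, fun v => ?_⟩
  · simp only [polar, QuadraticMap.add_apply, linMulLin_apply, hQ', map_add]
    linear_combination l' u * l' v * h2
  · have : l' (A.1 *ᵥ v) = l v + l' v := by simp [← hl']
    simp only [QuadraticMap.add_apply, linMulLin_apply, this]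
    linear_combination hl v + (l v ^ 2 + l v * l' v) * h2

end Cfsg.Agent.S2585
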