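import Cfsg.Statements.S2590
import Cfsg.Agent.Lib.Orth.Wall2

set_option autoImplicit false
open Cfsg

namespace Cfsg.Agent.S2590

/-- Two semisimple elements of odd order of a finite orthogonal group (isometry group of a quadratic form on F^n with non-degenerate polar form, F finite of characteristic p; the elements have odd order prime to p) are conjugate in the orthogonal group if and only if they are conjugate in GL_n(F). -/
theorem result {F : Type*} [Field F] [Fintype F] {p : ℕ} [Fact p.Prime] [CharP F p] {n : ℕ} (Q : QuadraticForm F (Fin n → F)) (hQ : (QuadraticMap.polarBilin Q).Nondegenerate) (A B : ↥(Cfsg.isometryGroup F ⇑Q)) (hodd : Odd (orderOf A)) (hA : (orderOf A).Coprime p) : IsConj A B ↔ IsConj ((A : Matrix.GeneralLinearGroup (Fin n) F) : Matrix (Fin n) (Fin n) F) ((B : Matrix.GeneralLinearGroup (Fin n) F) : Matrix (Fin n) (Fin n) F) := by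
  open Cfsg.Lib.Orth Cfsg.Lib.GLC in
  have h := pow_orderOf_eq_one (Matrix.toLin' A.1.1)
  rw [iso_isConj_iff, isConj_iff_sim]
  rw [← orderOf_toLin'_iso] at hodd hA
  exact ⟨QSim.sim, fun H => (oE_iso hQ A).qsim_of_sim (oE_iso hQ B) H (isSemisimple_of_coprime p hA)
    (fun _ => fix_of_odd hodd h) (.refl _)⟩

end Cfsg.Agent.S2590
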