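import Cfsg.Statements.S2591
import Cfsg.Agent.Lib.Symp.Unip2

set_option autoImplicit false
open Cfsg

namespace Cfsg.Agent.S2591

/-- Over a finite field of odd order and for m ≥ 1, the regular unipotent elements of Sp_2m(F) (u − 1 nilpotent of rank 2m − 1, a single Jordan block) form exactly two conjugacy classes of Sp_2m(F) (one class under the similarity group, which splits in two). -/
theorem result {F : Type*} [Field F] [Fintype F] {q : ℕ} (hF : Fintype.card F = q) (hq : Odd q) {m : ℕ} (hm : 1 ≤ m) : Nat.card {C : ConjClasses ↥(Matrix.symplecticGroup (Fin m) F) // ∃ u : Matrix.symplecticGroup (Fin m) F, ConjClasses.mk u = C ∧ ((u : Matrix (Fin m ⊕ Fin m) (Fin m ⊕ Fin m) F) - 1) ^ (2 * m) = 0 ∧ ((u : Matrix (Fin m ⊕ Fin m) (Fin m ⊕ Fin m) F) - 1).rank = 2 * m - 1} = 2 := by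
  open Cfsg.Lib.Symp Cfsg.Lib.GLC Polynomial Matrix Module in
  classical
  haveI : Nonempty (Fin m) := ⟨⟨0, hm⟩⟩
  rw [card_sp_unipotent_classes (two_ne_zero_iff_odd_card.2 (hF ▸ hq)) (n := 2 * m) (by simp) _
    (· = {2 * m}) (fun g hg => ⟨_, toLin'_sub_one_pow_eq_zero_iff.2 hg.1⟩) fun g d h => ⟨fun hg => ?_, ?_⟩,
    card_supp_sum fun μ => μ.parts = {2 * m} ∧ Par 1 μ.parts, Finset.sum_eq_single_of_mem (.indiscrete _)]
  · simp [Nat.Partition.indiscrete_parts (show 2 * m ≠ 0 by omega), Finset.filter_singleton]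
  · simp only [Finset.mem_filter, Finset.mem_univ, true_and,
      Nat.Partition.indiscrete_parts (show 2 * m ≠ 0 by omega)]
    exact fun a ha => by simp [Multiset.count_singleton, show a ≠ 2 * m by grind]
  · exact fun μ hμ h => absurd (Nat.Partition.ext ((Finset.mem_filter.1 hμ).2.1.trans
      (Nat.Partition.indiscrete_parts (by omega)).symm)) h
  · exact jt_injective (1 : F) (h.symm.trans (by simpa [two_mul, jt, -map_one] using ((blocks_regular hg.1
      (by simpa [two_mul] using hg.2)).typ_eq (by simp [pp_X_sub_C_pow, -map_one, show 0 < m from hm]))))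
  · rintro rfl
    have hb := h ▸ blocks_typ (toLin' g.1)
    have h1 := hb.jt_finrank_ker_one (FE.pos_of_typ h)
    have h2 := rank_add_finrank_ker (g.1 - 1)
    rw [one_smul, ← toLin'_sub_one] at h1
    exact ⟨toLin'_sub_one_pow_eq_zero_iff.1 (by simpa using hb.jt_pow_eq_zero_iff.2 (by simp)),
      by simp [h1] at h2; omega⟩

end Cfsg.Agent.S2591
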