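import Cfsg.Statements.S2593
import Cfsg.Agent.Lib.Symp.Inv2

set_option autoImplicit false
open Cfsg

namespace Cfsg.Agent.S2593

/-- Number of conjugacy classes of involutions in the symplectic group Sp_2m(F) over a finite field of characteristic two (m ≥ 1): for each s with 1 ≤ s ≤ m there is one class with rank(t − 1) = s if s is odd and two if s is even (according as v ↦ f(v, tv), f the symplectic form, vanishes identically or not), so m + ⌊m/2⌋ classes in all. -/
theorem result {F : Type*} [Field F] [Fintype F] [CharP F 2] {m : ℕ} (hm : 1 ≤ m) : Nat.card {C : ConjClasses ↥(Matrix.symplecticGroup (Fin m) F) // ∃ g : Matrix.symplecticGroup (Fin m) F, ConjClasses.mk g = C ∧ orderOf g = 2} = m + m / 2 := by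
  open Cfsg.Lib.Symp Cfsg.Lib.Orth Cfsg.Lib.GLC Matrix Module in
  classical
  let r := fun g : symplecticGroup (Fin m) F => finrank F (LinearMap.range (toLin' g.1 - 1))
  let A := fun g : symplecticGroup (Fin m) F => ∀ v, bil _ F v (toLin' g.1 v) = 0
  have hi : ∀ g : symplecticGroup (Fin m) F, orderOf g = 2 → Inv2 (bil _ F) (toLin' g.1) :=
    fun g h => inv2_sp (h ▸ pow_orderOf_eq_one g)
  have h0 : ∀ g, r g = 0 ↔ g = 1 := fun g => by
    rw [Submodule.finrank_eq_zero, LinearMap.range_eq_bot, sub_eq_zero, End.one_eq_id, ← toLin'_one,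
      toLin'.injective.eq_iff]
    exact ⟨fun h => Subtype.ext h, fun h => h ▸ rfl⟩
  have key : ∀ s, 1 ≤ s → s ≤ m → ∀ {ι : Type} [Fintype ι] (C : LinearMap.BilinForm F (ι → F)),
      Fintype.card ι = s → (∀ x y, C x y = C y x) → C.Nondegenerate →
      ∃ g, orderOf g = 2 ∧ r g = s ∧ (A g ↔ C.IsAlt) := fun s h1 h2 ι _ C hι hs hC => by
    obtain ⟨b, hb⟩ := exists_linearIndependent_of_le_finrank (R := F) (M := lagInl (Fin m) F) (n := s)
      (by simpa [finrank_lagInl])
    obtain ⟨U, hU, hU'⟩ : ∃ U ≤ lagInl (Fin m) F, finrank F U = s :=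
      ⟨_, Submodule.span_le.2 (by rintro _ ⟨i, rfl⟩; exact (b i).2), (finrank_span_eq_card
        (hb.map' (Submodule.subtype _) (Submodule.ker_subtype _))).trans (Fintype.card_fin s)⟩
    obtain ⟨f, h3, h4, h5⟩ := exists_inv2 CharTwo.two_eq_zero (bil_isAlt _ F) (bil_nondegenerate _ F)
      (fun u hu v hv => lagInl_isotropic u (hU hu) v (hU hv))
      (LinearEquiv.ofFinrankEq U (ι → F) (by simp [hU', hι])) hs hC
    let g := (spEquiv _ F).symm h3.toSpE.toIsom
    have hg : toLin' g.1 = f := LinearMap.ext fun v => spEquiv_symm_mulVec _ v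
    have h6 : r g = s := by simp only [r]; rw [hg, h4, hU']
    refine ⟨g, orderOf_eq_prime (Subtype.ext (toLin'.injective (LinearMap.ext fun v => ?_)))
      fun h => by rw [← h0] at h; omega, h6, by simp only [A, hg, h5]⟩
    simpa [sq, ← hg] using h3.sq v
  rw [card_classes' (τ := fun g => if A g then Sum.inr (r g / 2) else Sum.inl (r g))
    (q := Sum.elim (· ∈ Finset.Icc 1 m) (· ∈ Finset.Icc 1 (m / 2)))]
  · exact (Nat.card_congr Equiv.subtypeSum).trans ((Nat.card_sum (α := Finset.Icc 1 m)
      (β := Finset.Icc 1 (m / 2))).trans (by simp [-Finset.mem_Icc]))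
  · intro a b ha hb
    rw [sp_isConj_iff]
    refine ⟨fun H => ?_, fun h => ?_⟩
    · have h1 : r a = r b := H.sim.sub_one.finrank_range
      obtain ⟨e, e1, e2⟩ := H
      have : A a ↔ A b := e.toEquiv.forall_congr fun v => by
        rw [← e1]; exact (congrArg (bil _ F (e v) · = 0) (e2 v)).to_iff
      simp only [h1, this]
    · have h1 : A a ↔ A b := by split_ifs at h <;> simp_all
      refine (hi a ha).isim (hi b hb) rfl ?_ fun _ => h1
      by_cases h2 : A a
      · obtain ⟨k, hk⟩ : Even (r a) := (hi a ha).even_of_alt h2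
        obtain ⟨l, hl⟩ : Even (r b) := (hi b hb).even_of_alt (h1.1 h2)
        simp only [h2, h1.1 h2, if_true, Sum.inr.injEq] at h
        change r a = r b
        omega
      · simpa [h2, mt h1.2 h2] using h
  · refine fun t => ⟨?_, fun ⟨g, hg, h⟩ => ?_⟩
    · rcases t with s | k <;> simp only [Sum.elim_inl, Sum.elim_inr, Finset.mem_Icc] <;> intro h
      · obtain ⟨g, h1, h2, h3⟩ := key s h.1 h.2 (toBilin' (1 : Matrix (Fin s) (Fin s) F)) (by simp)
          (fun x y => by simp [toBilin'_apply', dotProduct_comm])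
          (LinearMap.BilinForm.nondegenerate_toBilin'_of_det_ne_zero' _ (by simp))
        exact ⟨g, h1, by rw [if_neg (mt h3.1 fun h4 => by
          simpa [toBilin'_apply'] using h4 (Pi.single ⟨0, h.1⟩ 1)), h2]⟩
      · obtain ⟨g, h1, h2, h3⟩ := key (2 * k) (by omega) (by omega) (bil (Fin k) F) (by simp [two_mul])
          (fun x y => by rw [← (bil_isAlt _ F).neg_eq, CharTwo.neg_eq]) (bil_nondegenerate _ F)
        exact ⟨g, h1, by rw [if_pos (h3.2 (bil_isAlt _ F)), h2]; simp⟩
    · have h1 : r g ≠ 0 := fun h => by simp [(h0 g).1 h] at hg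
      have h2 : 2 * r g ≤ _ := two_mul_finrank_le (bil_nondegenerate _ F) (hi g hg).isotropic
      rw [finrank_bil] at h2
      subst h
      split_ifs with h3
      · obtain ⟨k, hk⟩ : Even (r g) := (hi g hg).even_of_alt h3
        simp; omega
      · simp; omega

end Cfsg.Agent.S2593
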