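import Cfsg.Statements.S2594
import Cfsg.Agent.Lib.Symp.Inv2

set_option autoImplicit false
open Cfsg

namespace Cfsg.Agent.S2594

/-- Over a finite field with q elements, q even, an element t of Sp_2m(F) with rank(t − 1) = 1 (a symplectic transvection) has centraliser in Sp_2m(F) of order q^(2m−1) · |Sp_(2m−2)(q)| = q^(2m−1) · q^((m−1)²) · Π_(i=1)^(m−1) (q^(2i) − 1). -/
theorem result {F : Type*} [Field F] [Fintype F] [CharP F 2] {q : ℕ} (hF : Fintype.card F = q) {m : ℕ} (hm : 1 ≤ m) (t : Matrix.symplecticGroup (Fin m) F) (ht : ((t : Matrix (Fin m ⊕ Fin m) (Fin m ⊕ Fin m) F) - 1).rank = 1) : Nat.card ↥(Subgroup.centralizer ({t} : Set ↥(Matrix.symplecticGroup (Fin m) F))) = q ^ (2 * m - 1) * (q ^ ((m - 1) ^ 2) * ∏ i : Fin (m - 1), (q ^ (2 * ((i : ℕ) + 1)) - 1)) := by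
  open Cfsg.Lib.Symp Cfsg.Lib.Orth Matrix in
  rw [rank_sub_one] at ht
  have h0 : Inv2 (bil _ F) (toLin' t.1) := by
    refine ⟨spE_sp t, CharTwo.two_eq_zero, fun v => ?_⟩
    obtain ⟨w, hw⟩ := (spE_sp t).exists_wall
    obtain ⟨x, -, hx⟩ := finrank_eq_one_iff'.1 ht
    have h1 : (toLin' t.1 - 1) ((toLin' t.1 - 1) v) = 0 := by
      refine congrArg Subtype.val ((hw.nondegenerate (spE_sp t)).1
        ((toLin' t.1 - 1).rangeRestrict _) fun y => ?_)
      obtain ⟨a, rfl⟩ := hx y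
      obtain ⟨b, hb⟩ := hx ((toLin' t.1 - 1).rangeRestrict v)
      rw [hw, show (toLin' t.1 - 1) v = b • x.1 from congrArg Subtype.val hb.symm]
      simp [bil_isAlt _ F x.1]
    simp only [LinearMap.sub_apply, map_sub, Module.End.one_apply] at h1
    linear_combination h1 + add_self_of_two (F := F) CharTwo.two_eq_zero (toLin' t.1 v - v)
  obtain ⟨n, h, h1, -, -⟩ := h0.card_cI (finrank_bil m) ht
  rw [card_centralizer_sp, h, h1 odd_one, cS, cS, Finset.prod_range, Finset.prod_range,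
    Nat.card_eq_fintype_card, hF]
  simp

end Cfsg.Agent.S2594
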