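import Cfsg.Statements.S2599
import Cfsg.Agent.Lib.Orth.CharTwo

set_option autoImplicit false
open Cfsg

namespace Cfsg.Agent.S2599

open Cfsg.Lib.Orth QuadraticMap

/-- An irreducible invariant subspace of a semisimple isometry is non-degenerate or totally singular: let Q be a quadratic form on F^n (F finite of characteristic p) with non-degenerate polar form f, x an isometry of Q of order prime to p, and U a non-zero x-invariant subspace containing no x-invariant subspace other than 0 and U. Then U meets its f-orthogonal trivially, or Q vanishes on U, or p = 2, U is a line spanned by a non-singular vector and x fixes U pointwise. -/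
theorem result {F : Type*} [Field F] [Fintype F] {p : ℕ} [Fact p.Prime] [CharP F p] {n : ℕ} (Q : QuadraticForm F (Fin n → F)) (hQ : (QuadraticMap.polarBilin Q).Nondegenerate) (x : ↥(Cfsg.isometryGroup F ⇑Q)) (hx : (orderOf x).Coprime p) (U : Submodule F (Fin n → F)) (hU0 : U ≠ ⊥) (hUx : ∀ u ∈ U, ((x : Matrix.GeneralLinearGroup (Fin n) F) : Matrix (Fin n) (Fin n) F).mulVec u ∈ U) (hirr : ∀ W : Submodule F (Fin n → F), W ≤ U → (∀ w ∈ W, ((x : Matrix.GeneralLinearGroup (Fin n) F) : Matrix (Fin n) (Fin n) F).mulVec w ∈ W) → W = ⊥ ∨ W = U) : U ⊓ LinearMap.BilinForm.orthogonal (QuadraticMap.polarBilin Q) U = ⊥ ∨ (∀ u ∈ U, Q u = 0) ∨ (p = 2 ∧ Module.finrank F U = 1 ∧ (∃ u ∈ U, Q u ≠ 0) ∧ ∀ u ∈ U, ((x : Matrix.GeneralLinearGroup (Fin n) F) : Matrix (Fin n) (Fin n) F).mulVec u = u) := by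
  have hx' : ∀ u ∈ U, (isoEquiv Q x).1 u ∈ U := hUx
  rcases hirr (U ⊓ perp Q U) inf_le_left (fun w hw => ⟨hUx w hw.1, O.mapsTo_perp hx' w hw.2⟩) with h | h
  · exact Or.inl h
  have hp : ∀ u ∈ U, ∀ v ∈ U, polar Q u v = 0 := fun u hu v hv => mem_perp.1 (h.ge hv).2 u hu
  let W : Submodule F (Fin n → F) :=
    { carrier := {u | u ∈ U ∧ Q u = 0}
      zero_mem' := ⟨zero_mem _, map_zero _⟩
      add_mem' := fun {a b} ha hb => ⟨add_mem ha.1 hb.1, by rw [Q_add, ha.2, hb.2, hp a ha.1 b hb.1]; ring⟩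
      smul_mem' := fun c a ha => ⟨U.smul_mem c ha.1, by rw [Q_smul, ha.2, mul_zero]⟩ }
  rcases hirr W (fun w hw => hw.1) (fun w hw => ⟨hUx w hw.1, (O.map_Q (isoEquiv Q x) w).trans hw.2⟩) with h' | h'
  swap
  · exact Or.inr (Or.inl fun u hu => (h'.ge hu).2)
  have hA : ∀ u ∈ U, Q u = 0 → u = 0 := fun u hu h0 => (Submodule.mem_bot F).1 (h'.le ⟨hu, h0⟩)
  obtain ⟨u, hu, hu0⟩ := (Submodule.ne_bot_iff U).1 hU0
  have hQu : Q u ≠ 0 := fun e => hu0 (hA u hu e)
  have h2 : (2 : F) = 0 := by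
    have := hp u hu u hu
    rw [polar_self'] at this
    exact (mul_eq_zero.1 this).resolve_right hQu
  refine Or.inr (Or.inr ⟨?_, ?_, ⟨u, hu, hQu⟩, fun v hv => ?_⟩)
  · exact ((Nat.prime_dvd_prime_iff_eq Fact.out Nat.prime_two).1
      ((CharP.cast_eq_zero_iff F p 2).1 (by exact_mod_cast h2)))
  · refine finrank_eq_one_iff'.2 ⟨⟨u, hu⟩, fun e => hu0 (congrArg Subtype.val e), fun v => ?_⟩
    obtain ⟨c, hc⟩ := isSquare_of_two_eq_zero h2 (Q v / Q u)
    refine ⟨c, Subtype.ext (sub_eq_zero.1 (hA _ (sub_mem (U.smul_mem c hu) v.2) ?_))⟩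
    change Q (c • u - v) = 0
    rw [Q_sub, hp _ (U.smul_mem c hu) _ v.2, Q_smul, pow_two, ← hc, div_mul_cancel₀ _ hQu]
    linear_combination Q v * h2
  · refine sub_eq_zero.1 (hA _ (sub_mem (hUx v hv) hv) ?_)
    rw [Q_sub, hp _ (hUx v hv) _ hv]
    have := O.map_Q (isoEquiv Q x) v
    rw [isoEquiv_apply] at this
    linear_combination this + Q v * h2

end Cfsg.Agent.S2599
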