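import Cfsg.Statements.S2612
import Cfsg.Agent.Lib.Orth.Levi

set_option autoImplicit false
open Cfsg

namespace Cfsg.Agent.S2612

open Cfsg.Lib.Orth QuadraticMap

/-- For the hyperbolic quadratic form Σ x_i y_i on F^(2m) (F finite, m ≥ 1, excluding m = 2 over the field of two elements), Ω⁺_2m(F) (the commutator subgroup of the orthogonal group) contains an element interchanging the two complementary maximal totally singular subspaces {y = 0} and {x = 0} if and only if m is even (dimension divisible by 4). -/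
theorem result {F : Type*} [Field F] [Fintype F] {m : ℕ} (hm : 1 ≤ m) (h : Fintype.card F ≠ 2 ∨ m ≠ 2) : (∃ g : ↥(Cfsg.isometryGroup F (Cfsg.quadFormPlus m F)), g ∈ Cfsg.Omega F (Cfsg.quadFormPlus m F) ∧ (∀ v : Fin m ⊕ Fin m → F, (∀ i, v (Sum.inr i) = 0) → ∀ i, (((g : Matrix.GeneralLinearGroup (Fin m ⊕ Fin m) F) : Matrix (Fin m ⊕ Fin m) (Fin m ⊕ Fin m) F).mulVec v) (Sum.inl i) = 0) ∧ (∀ v : Fin m ⊕ Fin m → F, (∀ i, v (Sum.inl i) = 0) → ∀ i, (((g : Matrix.GeneralLinearGroup (Fin m ⊕ Fin m) F) : Matrix (Fin m ⊕ Fin m) (Fin m ⊕ Fin m) F).mulVec v) (Sum.inr i) = 0)) ↔ Even m := by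
  have hQ := nd_qPlus (F := F) m
  have hE := not_exc_qPlus h
  have hp : psign (lagL m F) (lagR m F) = 1 ↔ Even m := by
    rw [psign_eq_one_iff, lagL_inf_lagR, finrank_lagL, finrank_bot, Nat.sub_zero]
  have hmap : ∀ (g : O (qPlus m F)), (∀ v ∈ lagL m F, g.1 v ∈ lagR m F) →
      (lagL m F).map (g.1 : _ →ₗ[F] _) = lagR m F := fun g hg =>
    Submodule.eq_of_le_of_finrank_eq (Submodule.map_le_iff_le_comap.2 hg)
      (by rw [LinearEquiv.finrank_map_eq, finrank_lagL, finrank_lagR])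
  refine (exists_omega_iff (Q := qPlus m F) (P := fun φ =>
    (∀ v, (∀ i, v (.inr i) = 0) → ∀ i, φ v (.inl i) = 0) ∧
    (∀ v, (∀ i, v (.inl i) = 0) → ∀ i, φ v (.inr i) = 0))).trans ⟨?_, fun he => ?_⟩
  · rintro ⟨g, hg, h1, -⟩
    rw [← hp, ← hmap g fun v hv => mem_lagR.2 (h1 v (mem_lagL.1 hv)), ← (lag_lagL m).dickson_eq hQ]
    exact ((mem_commutator_iff hQ hE g).1 hg).1
  · let s : O (qPlus m F) := O.ofLinear hQ (LinearMap.funLeft F F Sum.swap) fun v => by
      simp [qPlus_apply, LinearMap.funLeft_apply, mul_comm]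
    have hs : ∀ v k, s.1 v k = v k.swap := fun v k => rfl
    obtain ⟨k, hk, h1⟩ := exists_mul_mem_commutator_of_dickson hQ hE (K := (levi m F).range)
      (fun h2 => by
        obtain ⟨t, ht⟩ := exists_not_isSquare h2
        have ht0 := ne_zero_of_not_isSquare ht
        let A := Matrix.GeneralLinearGroup.mkOfDetNeZero
          (Matrix.diagonal (Pi.mulSingle (⟨0, hm⟩ : Fin m) t)) (by simpa using ht0)
        exact ⟨_, ⟨A, rfl⟩, dickson_levi A, by
          rw [spinor_levi]; simpa [A] using sqsign_of_not_isSquare ht⟩) (g := s)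
      (by rw [(lag_lagL m).dickson_eq hQ, hmap s fun v hv => mem_lagR.2 fun i => by
            rw [hs]; exact mem_lagL.1 hv i, hp.2 he])
    obtain ⟨A, rfl⟩ := hk
    refine ⟨_, h1, fun v hv i => ?_, fun v hv i => ?_⟩
    · exact mem_lagL.1 (apply_mem_of_mem_stab (levi_mem_stab_lagL A) (mem_lagL.2 hv)) i
    · exact mem_lagR.1 (apply_mem_of_mem_stab (levi_mem_stab_lagR A) (mem_lagR.2 hv)) i

end Cfsg.Agent.S2612
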