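import Cfsg.Statements.S2613
import Cfsg.Agent.Lib.Orth.Diag

set_option autoImplicit false
open Cfsg

namespace Cfsg.Agent.S2613

open Cfsg.Lib.Orth QuadraticMap

/-- For the hyperbolic form Σ x_j y_j on F^(2m), F finite with q elements, q odd, and 1 ≤ i ≤ m: the involution negating the first i hyperbolic pairs (x_j, y_j ↦ −x_j, −y_j for j < i) and fixing the rest lies in Ω⁺_2m(q) (commutator subgroup of the orthogonal group) if and only if q^i ≡ 1 (mod 4); its (−1)-eigenspace is a hyperbolic 2i-space. -/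
theorem result {F : Type*} [Field F] [Fintype F] {q : ℕ} (hF : Fintype.card F = q) (hq : Odd q) {m : ℕ} (i : ℕ) (hi : 1 ≤ i) (him : i ≤ m) : (∃ g : ↥(Cfsg.isometryGroup F (Cfsg.quadFormPlus m F)), g ∈ Cfsg.Omega F (Cfsg.quadFormPlus m F) ∧ ((g : Matrix.GeneralLinearGroup (Fin m ⊕ Fin m) F) : Matrix (Fin m ⊕ Fin m) (Fin m ⊕ Fin m) F) = Matrix.diagonal (fun k : Fin m ⊕ Fin m => if (Sum.elim (fun j : Fin m => (j : ℕ)) (fun j : Fin m => (j : ℕ)) k) < i then (-1 : F) else 1)) ↔ q ^ i % 4 = 1 := by
  subst hF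
  have h2 := two_ne_zero_of_odd_card hq
  set D := Matrix.diagonal (fun k : Fin m ⊕ Fin m => if (Sum.elim (fun j : Fin m => (j : ℕ)) (fun j : Fin m => (j : ℕ)) k) < i then (-1 : F) else 1) with hD
  let g : O (qPlus m F) := O.ofLinear (nd_qPlus m) (Matrix.toLin' D) fun v => by
    simp only [qPlus_apply, Matrix.toLin'_apply, hD, Matrix.mulVec_diagonal]
    refine Finset.sum_congr rfl fun j _ => ?_
    by_cases h : (j : ℕ) < i <;> simp [h]
  refine (exists_omega_coe_eq_iff (Q := qPlus m F) D g fun v => rfl).trans ?_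
  have hg : ∀ v k, g.1 v k = (if (Sum.elim (fun j : Fin m => (j : ℕ)) (fun j : Fin m => (j : ℕ)) k) < i then (-1 : F) else 1) * v k := fun v k => by
    show (D.mulVec v) k = _
    rw [hD, Matrix.mulVec_diagonal]
  have hH : IsHypFam (qPlus m F) (fun j : Fin i => Pi.single (.inl (Fin.castLE him j)) 1)
      (fun j : Fin i => Pi.single (.inr (Fin.castLE him j)) 1) := by
    have h := isHypFam_qPlus (F := F) m
    exact ⟨fun j => h.left _, fun j => h.right _, fun _ _ => h.ll _ _, fun _ _ => h.rr _ _,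
      fun _ _ => by rw [h.lr]; simp⟩
  refine hH.mem_commutator_iff (nd_qPlus m) h2 (fun j => ?_) (fun j => ?_) fun u h1 h3 => ?_
  · ext k; rw [hg]
    by_cases hk : k = .inl (Fin.castLE him j)
    · subst hk; simp
    · simp [hk]
  · ext k; rw [hg]
    by_cases hk : k = .inr (Fin.castLE him j)
    · subst hk; simp
    · simp [hk]
  · ext k; rw [hg]
    split_ifs with hk
    · rcases k with k | k
      · have := h3 ⟨k, hk⟩
        simp [polar_qPlus, Pi.single_apply, Fin.castLE] at this
        simp [this]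
      · have := h1 ⟨k, hk⟩
        simp [polar_qPlus, Pi.single_apply, Fin.castLE] at this
        simp [this]
    · simp

end Cfsg.Agent.S2613
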