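import Cfsg.Statements.S2614
import Cfsg.Agent.Lib.Orth.Diag

set_option autoImplicit false
open Cfsg

namespace Cfsg.Agent.S2614

open Cfsg.Lib.Orth QuadraticMap

/-- For the form x_0² + Σ x_j y_j on F^(2m+1), F finite with q elements, q odd, and 1 ≤ i ≤ m: the involution of determinant one negating the first i hyperbolic pairs (and fixing x_0 and the other pairs) lies in Ω_(2m+1)(q) (commutator subgroup of the orthogonal group) if and only if q^i ≡ 1 (mod 4); its (−1)-eigenspace is a hyperbolic 2i-space. -/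
theorem result {F : Type*} [Field F] [Fintype F] {q : ℕ} (hF : Fintype.card F = q) (hq : Odd q) {m : ℕ} (i : ℕ) (hi : 1 ≤ i) (him : i ≤ m) : (∃ g : ↥(Cfsg.isometryGroup F (Cfsg.quadFormOdd m F)), g ∈ Cfsg.Omega F (Cfsg.quadFormOdd m F) ∧ ((g : Matrix.GeneralLinearGroup (Unit ⊕ (Fin m ⊕ Fin m)) F) : Matrix (Unit ⊕ (Fin m ⊕ Fin m)) (Unit ⊕ (Fin m ⊕ Fin m)) F) = Matrix.diagonal (fun k : Unit ⊕ (Fin m ⊕ Fin m) => if (Sum.elim (fun _ : Unit => i) (Sum.elim (fun j : Fin m => (j : ℕ)) (fun j : Fin m => (j : ℕ))) k) < i then (-1 : F) else 1)) ↔ q ^ i % 4 = 1 := by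
  subst hF
  have h2 := two_ne_zero_of_odd_card hq
  set d := (fun k : Unit ⊕ (Fin m ⊕ Fin m) => if (Sum.elim (fun _ : Unit => i) (Sum.elim (fun j : Fin m => (j : ℕ)) (fun j : Fin m => (j : ℕ))) k) < i then (-1 : F) else 1) with hD
  let g : O (qOdd m F) := O.ofLinear (nd_qOdd h2 m) (Matrix.toLin' (Matrix.diagonal d)) fun v => by
    simp only [qOdd_apply, Matrix.toLin'_apply, hD, Matrix.mulVec_diagonal]
    congr 1
    · simp
    refine Finset.sum_congr rfl fun j _ => ?_
    by_cases h : (j : ℕ) < i <;> simp [h]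
  refine (exists_omega_coe_eq_iff (Q := qOdd m F) _ g fun v => rfl).trans ?_
  have hg : ∀ v k, g.1 v k = d k * v k := fun v k => by
    show ((Matrix.diagonal d).mulVec v) k = _
    rw [Matrix.mulVec_diagonal]
  have hH : IsHypFam (qOdd m F) (fun j : Fin i => Pi.single (.inr (.inl (Fin.castLE him j))) 1)
      (fun j : Fin i => Pi.single (.inr (.inr (Fin.castLE him j))) 1) := by
    refine ⟨fun i => ?_, fun i => ?_, fun i j => ?_, fun i j => ?_, fun i j => ?_⟩ <;>
      simp [qOdd_apply, polar_qOdd, Pi.single_apply, eq_comm]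
  refine hH.mem_commutator_iff (nd_qOdd h2 m) h2 (fun j => ?_) (fun j => ?_) fun u h1 h3 => ?_
  · ext k; rw [hg]
    by_cases hk : k = .inr (.inl (Fin.castLE him j))
    · subst hk; simp [hD]
    · simp [hk]
  · ext k; rw [hg]
    by_cases hk : k = .inr (.inr (Fin.castLE him j))
    · subst hk; simp [hD]
    · simp [hk]
  · ext k; rw [hg, hD]
    dsimp only
    split_ifs with hk
    · rcases k with k | k | k
      · simp at hk
      · have := h3 ⟨k, hk⟩
        simp [polar_qOdd, Pi.single_apply, Fin.castLE] at this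
        simp [this]
      · have := h1 ⟨k, hk⟩
        simp [polar_qOdd, Pi.single_apply, Fin.castLE] at this
        simp [this]
    · simp

end Cfsg.Agent.S2614
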