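import Cfsg.Statements.S2615
import Cfsg.Agent.Lib.Orth.Diag

set_option autoImplicit false
open Cfsg

namespace Cfsg.Agent.S2615

open Cfsg.Lib.Orth QuadraticMap

/-- For an elliptic form Σ_(j<m−1) x_j y_j + (z₁² + a z₁z₂ + b z₂²) (anisotropic binary part) on F^(2m), F finite with q elements, q odd, and 1 ≤ i ≤ m − 1: the involution negating the first i hyperbolic pairs and fixing the rest lies in Ω⁻_2m(q) (commutator subgroup of the orthogonal group) if and only if q^i ≡ 1 (mod 4). -/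
theorem result {F : Type*} [Field F] [Fintype F] {q : ℕ} (hF : Fintype.card F = q) (hq : Odd q) {m : ℕ} (a b : F) (hab : ∀ z₁ z₂ : F, z₁ ^ 2 + a * z₁ * z₂ + b * z₂ ^ 2 = 0 → z₁ = 0 ∧ z₂ = 0) (i : ℕ) (hi : 1 ≤ i) (him : i + 1 ≤ m) : (∃ g : ↥(Cfsg.isometryGroup F (Cfsg.quadFormMinus (m - 1) F a b)), g ∈ Cfsg.Omega F (Cfsg.quadFormMinus (m - 1) F a b) ∧ ((g : Matrix.GeneralLinearGroup ((Fin (m - 1) ⊕ Fin (m - 1)) ⊕ Fin 2) F) : Matrix ((Fin (m - 1) ⊕ Fin (m - 1)) ⊕ Fin 2) ((Fin (m - 1) ⊕ Fin (m - 1)) ⊕ Fin 2) F) = Matrix.diagonal (fun k : (Fin (m - 1) ⊕ Fin (m - 1)) ⊕ Fin 2 => if (Sum.elim (Sum.elim (fun j : Fin (m - 1) => (j : ℕ)) (fun j : Fin (m - 1) => (j : ℕ))) (fun _ : Fin 2 => i) k) < i then (-1 : F) else 1)) ↔ q ^ i % 4 = 1 := by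
  subst hF
  have h2 := two_ne_zero_of_odd_card hq
  have him' : i ≤ m - 1 := by omega
  have hQ := nd_qMinus (m - 1) hab
  set d := (fun k : (Fin (m - 1) ⊕ Fin (m - 1)) ⊕ Fin 2 => if (Sum.elim (Sum.elim (fun j : Fin (m - 1) => (j : ℕ)) (fun j : Fin (m - 1) => (j : ℕ))) (fun _ : Fin 2 => i) k) < i then (-1 : F) else 1) with hD
  let g : O (qMinus (m - 1) F a b) := O.ofLinear hQ (Matrix.toLin' (Matrix.diagonal d)) fun v => by
    simp only [qMinus_apply, Matrix.toLin'_apply, hD, Matrix.mulVec_diagonal]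
    congr 1
    · refine Finset.sum_congr rfl fun j _ => ?_
      by_cases h : (j : ℕ) < i <;> simp [h]
    · simp
  refine (exists_omega_coe_eq_iff (Q := qMinus (m - 1) F a b) _ g fun v => rfl).trans ?_
  have hg : ∀ v k, g.1 v k = d k * v k := fun v k => by
    show ((Matrix.diagonal d).mulVec v) k = _
    rw [Matrix.mulVec_diagonal]
  have hH : IsHypFam (qMinus (m - 1) F a b)
      (fun j : Fin i => Pi.single (.inl (.inl (Fin.castLE him' j))) 1)
      (fun j : Fin i => Pi.single (.inl (.inr (Fin.castLE him' j))) 1) := by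
    refine ⟨fun i => ?_, fun i => ?_, fun i j => ?_, fun i j => ?_, fun i j => ?_⟩ <;>
      simp [qMinus_apply, polar_qMinus, Pi.single_apply, eq_comm]
  refine hH.mem_commutator_iff hQ h2 (fun j => ?_) (fun j => ?_) fun u h1 h3 => ?_
  · ext k; rw [hg]
    by_cases hk : k = .inl (.inl (Fin.castLE him' j))
    · subst hk; simp [hD]
    · simp [hk]
  · ext k; rw [hg]
    by_cases hk : k = .inl (.inr (Fin.castLE him' j))
    · subst hk; simp [hD]
    · simp [hk]
  · ext k; rw [hg, hD]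
    dsimp only
    split_ifs with hk
    · rcases k with (k | k) | k
      · have := h3 ⟨k, hk⟩
        simp [polar_qMinus, Pi.single_apply, Fin.castLE] at this
        simp [this]
      · have := h1 ⟨k, hk⟩
        simp [polar_qMinus, Pi.single_apply, Fin.castLE] at this
        simp [this]
      · simp at hk
    · simp

end Cfsg.Agent.S2615
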