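import Cfsg.Statements.S2619
import Cfsg.Agent.Lib.Orth.Diag

set_option autoImplicit false
open Cfsg

namespace Cfsg.Agent.S2619

open Cfsg.Lib.Orth QuadraticMap

/-- Over a finite field of characteristic two, given an alternating bilinear form B on a finite-dimensional space, a basis (v_i) and scalars (λ_i), there is exactly one quadratic form whose polar form is B and whose value at each v_i is λ_i. -/
theorem result {F V ι : Type*} [Field F] [Finite F] [CharP F 2] [AddCommGroup V] [Module F V] [Fintype ι] (b : Module.Basis ι F V) (B : LinearMap.BilinForm F V) (hB : B.IsAlt) (c : ι → F) : ∃! Q : QuadraticForm F V, QuadraticMap.polarBilin Q = B ∧ ∀ i, Q (b i) = c i := by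
  classical
  have hS : ∀ x y, B x y = B y x := fun x y => by
    rw [← hB.neg_eq, CharTwo.neg_eq]
  let r := Fintype.equivFin ι
  obtain ⟨B', hB'⟩ : ∃ B' : LinearMap.BilinForm F V, ∀ i j, B' (b i) (b j) =
      if r i < r j then B (b i) (b j) else if i = j then c i else 0 :=
    ⟨b.constr F fun i => b.constr F fun j =>
      if r i < r j then B (b i) (b j) else if i = j then c i else 0, fun i j => by
      rw [b.constr_basis, b.constr_basis]⟩
  have h0 : ∀ i j, polar B'.toQuadraticMap (b i) (b j) = B (b i) (b j) := fun i j => by
    rw [LinearMap.BilinMap.polar_toQuadraticMap, hB', hB']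
    rcases lt_trichotomy (r i) (r j) with h | h | h
    · have : j ≠ i := by rintro rfl; exact lt_irrefl _ h
      simp [h, h.not_gt, this]
    · obtain rfl := r.injective h
      simp [hB.self_eq_zero, CharTwo.add_self_eq_zero]
    · have : i ≠ j := by rintro rfl; exact lt_irrefl _ h
      simp [h, h.not_gt, this, hS (b i)]
  refine ⟨B'.toQuadraticMap, ⟨b.ext fun i => b.ext fun j => h0 i j, fun i => by simp [hB']⟩,
    fun Q ⟨h1, h2⟩ => ?_⟩
  ext v
  refine isom_of_basis (Q := B'.toQuadraticMap) (Q' := Q) b LinearMap.id
    (fun i => by simp [h2, hB']) (fun i j hij => ?_) v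
  rw [LinearMap.id_apply, LinearMap.id_apply, ← polarBilin_apply_apply, h1, h0]

end Cfsg.Agent.S2619
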