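import Cfsg.Statements.S2622
import Cfsg.Agent.Lib.Orth.CharTwo

set_option autoImplicit false
open Cfsg

namespace Cfsg.Agent.S2622

open Cfsg.Lib.Orth QuadraticMap Module

theorem aux {F V : Type*} [Field F] [Finite F] [AddCommGroup V] [Module F V] [FiniteDimensional F V]
    (h2 : (2 : F) = 0) (B : LinearMap.BilinForm F V) (hS : B.IsSymm) (n : ℕ) :
    ∀ W : Submodule F V, finrank F W = n → (∀ x ∈ W, (∀ y ∈ W, B x y = 0) → x = 0) →
      (n = 0 ∨ ∃ v ∈ W, B v v ≠ 0) →
      ∃ b : Fin n → V, (∀ i, b i ∈ W) ∧ ∀ i j, B (b i) (b j) = if i = j then 1 else 0 := by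
  induction n with
  | zero => exact fun W _ _ _ => ⟨Fin.elim0, fun i => i.elim0, fun i => i.elim0⟩
  | succ n ih =>
    intro W hW hnd h
    obtain ⟨v, hv, hv0⟩ := h.resolve_left (Nat.succ_ne_zero n)
    have hs : ∀ x y, B x y = B y x := fun x y => hS.eq x y
    have h1 : ∃ v ∈ W, B v v = 1 := by
      obtain ⟨c, hc⟩ := isSquare_of_two_eq_zero h2 (B v v)⁻¹
      refine ⟨c • v, W.smul_mem c hv, ?_⟩
      simp only [map_smul, LinearMap.smul_apply, smul_eq_mul]
      rw [← mul_assoc, ← hc, inv_mul_cancel₀ hv0]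
    have h3 : ∀ v ∈ W, B v v = 1 → finrank F (W ⊓ LinearMap.ker (B v) : Submodule F V) = n ∧
        ∀ x ∈ W ⊓ LinearMap.ker (B v), (∀ y ∈ W ⊓ LinearMap.ker (B v), B x y = 0) → x = 0 :=
      fun v hv hv1 => by
        have hm : ∀ y ∈ W, y - B v y • v ∈ W ⊓ LinearMap.ker (B v) := fun y hy =>
          ⟨sub_mem hy (W.smul_mem _ hv), by simp [hv1]⟩
        refine ⟨?_, fun x hx h => hnd x hx.1 fun y hy => ?_⟩
        · have h4 : W = (W ⊓ LinearMap.ker (B v)) ⊔ F ∙ v := by
            refine le_antisymm (fun y hy => ?_) (sup_le inf_le_left ((Submodule.span_singleton_le_iff_mem _ _).2 hv))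
            rw [← sub_add_cancel y (B v y • v)]
            exact Submodule.add_mem_sup (hm y hy) (Submodule.smul_mem _ _ (Submodule.mem_span_singleton_self v))
          have h5 := finrank_sup_span_singleton' (W := W ⊓ LinearMap.ker (B v)) (v := v) fun h => by
            have := h.2; simp [hv1] at this
          rw [← h4] at h5; omega
        · have := h _ (hm y hy)
          have h6 : B x v = 0 := (hs x v).trans hx.2
          simpa [h6] using this
    have h4 : ∃ v ∈ W, B v v = 1 ∧ (n = 0 ∨ ∃ u ∈ W ⊓ LinearMap.ker (B v), B u u ≠ 0) := by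
      obtain ⟨v, hv, hv1⟩ := h1
      by_contra! hc
      obtain ⟨hn, hc'⟩ := hc v hv hv1
      obtain ⟨h5, h6⟩ := h3 v hv hv1
      obtain ⟨x, hx, hx0⟩ := (Submodule.ne_bot_iff (W ⊓ LinearMap.ker (B v))).1
        fun e => hn (by rw [← h5, e, finrank_bot])
      obtain ⟨y, hy, hxy⟩ : ∃ y ∈ W ⊓ LinearMap.ker (B v), B x y ≠ 0 := by
        by_contra! h; exact hx0 (h6 x hx h)
      have hx2 : B v x = 0 := hx.2
      have hy2 : B v y = 0 := hy.2
      have := (hc (v + x) (add_mem hv hx.1) (by simp [hv1, hx2, hs x v, hc' x hx])).2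
        (v + (B x y)⁻¹ • y) ⟨add_mem hv (W.smul_mem _ hy.1), by
          simp [hv1, hy2, hs x v, hx2, hxy, one_add_one_eq_two, h2]⟩
      simp [hv1, hy2, hs y v, hc' y hy] at this
    obtain ⟨v, hv, hv1, h5⟩ := h4
    obtain ⟨b, hb, hb'⟩ := ih _ (h3 v hv hv1).1 (h3 v hv hv1).2 h5
    have hb2 : ∀ i, B v (b i) = 0 := fun i => (hb i).2
    refine ⟨Fin.cons v b, Fin.cases hv fun i => (hb i).1, fun i j => ?_⟩
    induction i using Fin.cases <;> induction j using Fin.cases <;>
      simp [hv1, hb2, hb', hs _ v, (Fin.succ_ne_zero _).symm]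

/-- Over a finite field of characteristic two, a non-degenerate symmetric bilinear form that is not alternating (some vector v has B(v, v) ≠ 0) admits an orthonormal basis. -/
theorem result {F V : Type*} [Field F] [Finite F] [CharP F 2] [AddCommGroup V] [Module F V] [FiniteDimensional F V] {n : ℕ} (hV : Module.finrank F V = n) (B : LinearMap.BilinForm F V) (hS : B.IsSymm) (hB : B.Nondegenerate) (hna : ∃ v : V, B v v ≠ 0) : ∃ b : Module.Basis (Fin n) F V, ∀ i j, B (b i) (b j) = if i = j then 1 else 0 := by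
  obtain ⟨v, hv⟩ := hna
  obtain ⟨b, -, hb⟩ := aux CharTwo.two_eq_zero B hS n ⊤ (by simpa using hV)
    (fun x _ h => hB.1 x fun y => h y trivial) (Or.inr ⟨v, trivial, hv⟩)
  have hl : LinearIndependent F b := Fintype.linearIndependent_iff.2 fun c hc j => by
    have := congrArg (fun x => B x (b j)) hc
    simpa [hb] using this
  haveI : Nonempty (Fin n) := by
    rcases n with _ | n
    · haveI := Module.finrank_zero_iff.1 hV
      exact (hv (by simp [Subsingleton.elim v 0])).elim
    · infer_instance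
  exact ⟨basisOfLinearIndependentOfCardEqFinrank hl (by simp [hV]), by simpa using hb⟩

end Cfsg.Agent.S2622
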