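import Cfsg.Statements.S2623
import Cfsg.Agent.Lib.Orth.Class

set_option autoImplicit false
open Cfsg

namespace Cfsg.Agent.S2623

open Cfsg.Lib.Orth QuadraticMap

/-- Over a finite field of odd order, two quadratic forms on F^n with non-degenerate polar forms are isometric (related by an invertible linear change of variables) if and only if their discriminants (determinants of the Gram matrices of their polar forms) lie in the same square class. -/
theorem result {F : Type*} [Field F] [Fintype F] (h2 : (2 : F) ≠ 0) {n : ℕ} (Q₁ Q₂ : QuadraticForm F (Fin n → F)) (h₁ : (QuadraticMap.polarBilin Q₁).Nondegenerate) (h₂ : (QuadraticMap.polarBilin Q₂).Nondegenerate) : (∃ g : (Fin n → F) ≃ₗ[F] (Fin n → F), ∀ v, Q₂ (g v) = Q₁ v) ↔ IsSquare ((Matrix.of (fun i j : Fin n => QuadraticMap.polar ⇑Q₁ (Pi.single i 1) (Pi.single j 1))).det * (Matrix.of (fun i j : Fin n => QuadraticMap.polar ⇑Q₂ (Pi.single i 1) (Pi.single j 1))).det) := by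
  have h0 : ∀ Q : QuadraticForm F (Fin n → F), (Matrix.of (fun i j : Fin n => QuadraticMap.polar ⇑Q (Pi.single i 1) (Pi.single j 1))) = gram Q (Pi.basisFun F _) := fun Q => by
    ext i j; simp [gram]
  rw [h0, h0, ← sqsign_eq_one_iff, sqsign_mul (det_gram_ne_zero h₁ _) (det_gram_ne_zero h₂ _),
    ← disc_eq, ← disc_eq, ← equivalent_iff, mul_eq_one_iff_eq_inv, Int.units_inv_eq_self]
  exact ⟨disc_congr, equivalent_of_disc_eq h₁ h₂ h2 rfl⟩

end Cfsg.Agent.S2623
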