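import Cfsg.Statements.S2629
import Cfsg.Agent.Lib.Orth.Levi

set_option autoImplicit false
open Cfsg

namespace Cfsg.Agent.S2629

open Cfsg.Lib.Orth QuadraticMap

/-- For the hyperbolic form Σ x_i y_i on F^(2m) over a finite field of odd order (m ≥ 1), an isometry g preserves the class of the maximal totally singular subspace U₀ = {y = 0} (that is, m − dim(U₀ ∩ gU₀) is even) if and only if det g = 1: the stabiliser of each of the two classes of maximal totally singular subspaces is SO. -/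
theorem result {F : Type*} [Field F] [Fintype F] (h2 : (2 : F) ≠ 0) {m : ℕ} (hm : 1 ≤ m) (g : ↥(Cfsg.isometryGroup F (Cfsg.quadFormPlus m F))) : Even (m - Module.finrank F ↥(LinearMap.ker (LinearMap.funLeft F F (Sum.inr : Fin m → Fin m ⊕ Fin m)) ⊓ (LinearMap.ker (LinearMap.funLeft F F (Sum.inr : Fin m → Fin m ⊕ Fin m))).map (Matrix.mulVecLin ((g : Matrix.GeneralLinearGroup (Fin m ⊕ Fin m) F) : Matrix (Fin m ⊕ Fin m) (Fin m ⊕ Fin m) F)))) ↔ ((g : Matrix.GeneralLinearGroup (Fin m ⊕ Fin m) F) : Matrix (Fin m ⊕ Fin m) (Fin m ⊕ Fin m) F).det = 1 := by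
  have h1 := psign_eq_one_iff (U := lagL m F)
    (W := (lagL m F).map ((isoEquiv (qPlus m F) g).1 : _ →ₗ[F] _))
  rw [finrank_lagL, ← (lag_lagL m).dickson_eq (nd_qPlus m), ← det_eq_one_iff_dickson _ h2,
    det_isoEquiv (Q := qPlus m F) g, Units.ext_iff] at h1
  exact h1.symm

end Cfsg.Agent.S2629
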