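import Cfsg.Statements.S2634
import Cfsg.Agent.Lib.Orth.Levi

set_option autoImplicit false
open Cfsg

namespace Cfsg.Agent.S2634

open Cfsg.Lib.Orth QuadraticMap

/-- Over a finite field of characteristic two, Ω (the commutator subgroup of the orthogonal group of a quadratic form Q on F^n with non-degenerate polar form; excluding dimension 4 over the field of two elements) acts transitively on the non-singular 1-spaces: for u, v with Q(u) ≠ 0 and Q(v) ≠ 0 some element of Ω carries the line through u to the line through v. -/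
theorem result {F : Type*} [Field F] [Fintype F] [CharP F 2] {n : ℕ} (h : Fintype.card F ≠ 2 ∨ n ≠ 4) (Q : QuadraticForm F (Fin n → F)) (hQ : (QuadraticMap.polarBilin Q).Nondegenerate) (u v : Fin n → F) (hu : Q u ≠ 0) (hv : Q v ≠ 0) : ∃ g : ↥(Cfsg.isometryGroup F ⇑Q), g ∈ Cfsg.Omega F ⇑Q ∧ (F ∙ ((g : Matrix.GeneralLinearGroup (Fin n) F) : Matrix (Fin n) (Fin n) F).mulVec u) = F ∙ v := by
  refine (exists_omega_iff (Q := Q) (P := fun φ => (F ∙ φ u) = F ∙ v)).2 ?_
  have h2 : (2 : F) = 0 := CharTwo.two_eq_zero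
  obtain ⟨c, hc, h1⟩ := exists_sq_mul_of_sqsign_eq hv hu (by
    rw [sqsign_of_isSquare (isSquare_of_two_eq_zero h2 _),
      sqsign_of_isSquare (isSquare_of_two_eq_zero h2 _)])
  obtain ⟨g, hg⟩ := witt_vec hQ (ne_zero_of_Q_ne_zero hu)
    (smul_ne_zero hc (ne_zero_of_Q_ne_zero hv)) (by rw [Q_smul, h1])
  obtain ⟨k, hk, h3⟩ := exists_mul_mem_commutator hQ (not_exc_of_card (by simpa using h))
    (K := stab Q (F ∙ u)) ⟨_, refl_mem_stab_of_mem (Submodule.mem_span_singleton_self u),
      dickson_refl hQ hu⟩ (fun h => absurd h2 h) g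
  refine ⟨_, h3, ?_⟩
  have := map_mul_of_mem_stab g hk
  rw [Submodule.map_span, Submodule.map_span, Set.image_singleton, Set.image_singleton] at this
  rw [this, LinearEquiv.coe_coe, hg, Submodule.span_singleton_smul_eq hc.isUnit]

end Cfsg.Agent.S2634
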