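import Cfsg.Statements.S2636
import Cfsg.Agent.Lib.Linear.Descent
import Cfsg.Agent.Lib.PGroup.Basic

set_option autoImplicit false
open Cfsg

namespace Cfsg.Agent.S2636

/-- Centraliser of a field automorphism in PGL_n: let F be the field with q = q₀^r elements, σ a field automorphism of F of prime order r (so its fixed field has q₀ elements) and n ≥ 1. The invertible matrices g whose entrywise image under σ is a scalar multiple of g — those whose coset modulo scalars is fixed by σ — number (q − 1)/(q₀ − 1) · |GL_n(q₀)|; equivalently the centraliser in PGL_n(q) of the induced automorphism has the order of PGL_n(q₀). -/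
theorem result {F : Type*} [Field F] [Fintype F] {q₀ r n : ℕ} (hr : r.Prime) (hn : 1 ≤ n) (hF : Fintype.card F = q₀ ^ r) (σ : F ≃+* F) (hσ : orderOf σ = r) : Nat.card {g : GL (Fin n) F // ∃ c : F, c ≠ 0 ∧ (g : Matrix (Fin n) (Fin n) F).map σ = c • (g : Matrix (Fin n) (Fin n) F)} = (q₀ ^ r - 1) / (q₀ - 1) * ∏ i : Fin n, (q₀ ^ n - q₀ ^ (i : ℕ)) := by
  open Lib.Linear Matrix Subgroup in
  haveI : Nonempty (Fin n) := ⟨⟨0, hn⟩⟩
  have h0 := isTwist_fieldAut (ι := Fin n) σ
  have h1 : Nat.card (fixField σ) = q₀ := Nat.pow_left_injective hr.ne_zero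
    (by simpa only [hσ, Nat.card_eq_fintype_card (α := F), hF] using card_fixField_pow σ)
  have h2 : Nat.card (fixSub (fieldGL σ : MulAut (GL (Fin n) F))) = ∏ i : Fin n, (q₀ ^ n - q₀ ^ (i : ℕ)) := by
    have := Fintype.ofFinite (fixField σ)
    rw [← range_map_GL (φ := (fixField σ).subtype) fun x => ⟨fun h => ⟨⟨x, h⟩, rfl⟩, fun ⟨y, h⟩ => h ▸ y.2⟩,
      ← Nat.card_congr (MonoidHom.ofInjective fun a b h => Units.ext (Matrix.map_injective Subtype.val_injective
        (congrArg Units.val h))).toEquiv,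
      card_GL, ← Nat.card_eq_fintype_card (α := fixField σ), h1, Fintype.card_fin]
  have h3 : (GeneralLinearGroup.scalar (Fin n)).range ⊓ fixSub (fieldGL σ) =
      (fixSub (unitsAut σ)).map (GeneralLinearGroup.scalar (Fin n)) := by
    ext g
    exact ⟨fun ⟨⟨u, h⟩, h'⟩ => ⟨u, h0.inj ((h0.map_s u).trans (h ▸ h' :)), h⟩,
      fun ⟨u, h, h'⟩ => ⟨⟨u, h'⟩, h' ▸ (h0.map_s u).symm.trans (congrArg _ h)⟩⟩
  haveI : (GeneralLinearGroup.scalar (Fin n) : Fˣ →* _).range.Normal := h0.ker ▸ inferInstance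
  have h4 := Lib.PGroup.card_sup_mul_card_inf (H := (GeneralLinearGroup.scalar (Fin n)).range) (K := fixSub (fieldGL σ))
    le_normalizer_of_normal
  rw [h3, card_map_of_injective h0.inj, card_fixSub_unitsAut, h1, h2, ← Nat.card_congr (MonoidHom.ofInjective h0.inj).toEquiv,
    card_units_field, hF] at h4
  rw [Nat.div_mul_right_comm (Nat.sub_one_dvd_pow_sub_one _ _), ← h4, Nat.mul_div_cancel _
    (Nat.sub_pos_of_lt (h1 ▸ Finite.one_lt_card))]
  refine Nat.card_congr (Equiv.subtypeEquivRight fun g => ?_)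
  rw [mem_sup_of_normal_left]
  refine ⟨fun ⟨c, hc, h⟩ => ?_, ?_⟩
  · obtain ⟨u, k, hk, rfl⟩ := h0.mem_centralizer_iff (g := g).1 (by
      rw [mem_centralizer_singleton_iff, h0.comm, show fieldGL σ g = GeneralLinearGroup.scalar _ (.mk0 c hc) * g from
        Units.ext (h.trans (smul_eq_diagonal_mul ..)), map_mul, h0.ρ_s, one_mul])
    exact ⟨_, ⟨u, rfl⟩, k, hk, rfl⟩
  · rintro ⟨_, ⟨u, rfl⟩, k, hk, rfl⟩
    refine ⟨σ u / u, by simp, ?_⟩
    ext i j
    have : σ (k.1 i j) = k.1 i j := congrArg (fun x : GL (Fin n) F => x.1 i j) hk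
    simp [mul_div_assoc, div_mul_cancel₀, ← mul_assoc, this]

end Cfsg.Agent.S2636
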