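import Cfsg.Statements.S2637
import Cfsg.Agent.Lib.Symp.Cent

set_option autoImplicit false
open Cfsg

namespace Cfsg.Agent.S2637

/-- Centraliser of a fixed-point-free element of order three in Sp_2m(q) when q ≡ 2 (mod 3): if x ∈ Sp_2m(F) (|F| = q, m ≥ 1) satisfies x³ = 1 and x − 1 is invertible, then its centraliser in Sp_2m(F) has the order of the unitary group GU_m(q), namely q^(m(m−1)/2) Π_(i=1)^m (q^i − (−1)^i) (x lies in the centre of a subgroup GU_m(q) of Sp_2m(q)). -/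
theorem result {F : Type*} [Field F] [Fintype F] {q : ℕ} (hF : Fintype.card F = q) (hq : q % 3 = 2) {m : ℕ} (hm : 1 ≤ m) (x : Matrix.symplecticGroup (Fin m) F) (hx3 : x ^ 3 = 1) (hfpf : IsUnit ((x : Matrix (Fin m ⊕ Fin m) (Fin m ⊕ Fin m) F) - 1)) : (Nat.card ↥(Subgroup.centralizer ({x} : Set ↥(Matrix.symplecticGroup (Fin m) F))) : ℤ) = (q : ℤ) ^ (m * (m - 1) / 2) * ∏ i : Fin m, ((q : ℤ) ^ ((i : ℕ) + 1) - (-1) ^ ((i : ℕ) + 1)) := by
  open Cfsg.Lib.Symp Cfsg.Lib.Unitary Matrix in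
  have h1 : x.1 * x.1 + x.1 + 1 = 0 := by
    have : x.1 ^ 3 = 1 := congrArg Subtype.val hx3
    exact hfpf.mul_left_cancel (by rw [mul_zero, ← sub_eq_zero.2 this]; noncomm_ring)
  rw [card_centralizer_sp, (spE_sp x).card_cI_quadratic (a := 1) (m := m) (fun y hy => ?_)
    (fun v => by simpa [add_mulVec] using congrArg (· *ᵥ v) h1) (by simp [two_mul]),
    Nat.card_eq_fintype_card, hF, guOrder_cast (by omega)]
  have h2 : y ^ 3 = 1 := by linear_combination (y - 1) * hy
  have h3 := FiniteField.pow_card y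
  rw [hF, ← Nat.div_add_mod q 3, hq, pow_add, pow_mul, h2, one_pow, one_mul] at h3
  have h4 : y = 1 := by linear_combination y ^ 2 * h3 - (y - 1) * h2
  have h5 := FiniteField.cast_card_eq_zero F
  rw [hF, ← Nat.div_add_mod q 3, hq] at h5
  subst h4
  push_cast at h5
  exact one_ne_zero (α := F) (by linear_combination (1 + (q / 3 : ℕ)) * hy - h5)

end Cfsg.Agent.S2637
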