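import Cfsg.Statements.S2638
import Cfsg.Agent.Lib.GLC.Cent

set_option autoImplicit false
open Cfsg

namespace Cfsg.Agent.S2638

/-- If an element x of GL_n(q), n ≥ 1, has prime order r and the multiplicative order of q modulo r is n (r is a primitive prime divisor of q^n − 1, so x acts irreducibly), then the centraliser of x in GL_n(q) is cyclic of order q^n − 1 (the multiplicative group of the field with q^n elements, a Singer cycle). -/
theorem result {F : Type*} [Field F] [Fintype F] {p q : ℕ} [Fact p.Prime] [CharP F p] (hF : Fintype.card F = q) {n r : ℕ} (hn : 1 ≤ n) (hr : r.Prime) (hrp : r ≠ p) (hi : orderOf (q : ZMod r) = n) (x : GL (Fin n) F) (hx : orderOf x = r) : IsCyclic ↥(Subgroup.centralizer ({x} : Set (GL (Fin n) F))) ∧ Nat.card ↥(Subgroup.centralizer ({x} : Set (GL (Fin n) F))) = q ^ n - 1 := by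
  open Lib.GLC Matrix Polynomial in
  have hb := blocks_typ (toLin' x.1)
  have hx' := (orderOf_toLin'_gl x).trans hx
  have h1 := isSemisimple_iff_typ.1 (isSemisimple_of_coprime p (hx' ▸ (Nat.coprime_primes hr Fact.out).2 hrp))
  obtain ⟨P, hP, h2⟩ : ∃ P ∈ typ (toLin' x.1), P ≠ X - 1 := by
    by_contra! h
    exact hr.ne_one (hx' ▸ orderOf_eq_one_iff.2 ((pow_one _).symm.trans (hb.pow_eq_one_iff.2 fun P hP => by simp [h P hP])))
  have h3 := natDegree_of_dvd_X_pow_prime (hb.monic P hP) (h1 P hP) hr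
    (hb.pow_eq_one_iff.1 (hx' ▸ pow_orderOf_eq_one _) P hP) h2
  rw [Nat.card_eq_fintype_card, hF, hi] at h3
  obtain ⟨ν, e⟩ := Multiset.exists_cons_of_mem hP
  obtain rfl : ν = 0 := Multiset.eq_zero_of_forall_notMem fun Q hQ => by
    have h4 := sum_typ_toLin' x.1
    rw [e, Multiset.map_cons, Multiset.sum_cons, h3, Fintype.card_fin, add_eq_left, Multiset.sum_eq_zero_iff] at h4
    exact (typ_pp _ Q (e ▸ Multiset.mem_cons_of_mem hQ)).natDegree_pos.ne' (h4 _ (Multiset.mem_map_of_mem _ hQ))
  obtain ⟨e⟩ := centralizer_equiv (P := P) (e ▸ hb :)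
  haveI := Fact.mk (h1 P hP)
  haveI := (hb.monic P hP).finite_adjoinRoot
  haveI := Module.finite_of_finite F (M := AdjoinRoot P)
  exact ⟨e.isCyclic.1 inferInstance, by rw [← Nat.card_congr e.toEquiv, Nat.card_units,
    card_adjoinRoot (h1 P hP).ne_zero, h3, Nat.card_eq_fintype_card, hF]⟩

end Cfsg.Agent.S2638
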