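import Cfsg.Statements.S2639
import Cfsg.Agent.Lib.Symp.Cent

set_option autoImplicit false
open Cfsg

namespace Cfsg.Agent.S2639

/-- The unitary group embeds in the symplectic group of twice the dimension over the subfield: for a field K with q² elements and a field F with q elements (isomorphic to the subfield of K of order q), there is an injective homomorphism GU_m(q) → Sp_2m(F). -/
theorem result {K F : Type*} [Field K] [Fintype K] [Field F] [Fintype F] {q : ℕ} (hK : Fintype.card K = q ^ 2) (hF : Fintype.card F = q) (m : ℕ) : ∃ φ : ↥(Cfsg.GU m K q) →* ↥(Matrix.symplecticGroup (Fin m) F), Function.Injective φ := by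
  open Cfsg.Lib.Symp Cfsg.Lib.Unitary in
  obtain ⟨σ, h⟩ := exists_isBar hK
  rw [← Nat.card_eq_fintype_card] at hF
  obtain ⟨φ, hφ⟩ := h.exists_ringHom hF
  letI := φ.toAlgebra
  obtain ⟨B, τ, -, h1, h2, h3⟩ := exists_alt_of_isHerm h hF hφ (h.isHerm (ι := Fin m))
  refine exists_sp_hom h1 h2 ?_ ((resHom F K _).comp ((UG _).subtype.comp (h.guEquiv m).toMonoidHom))
    (resHom_injective.comp (Subtype.val_injective.comp (h.guEquiv m).injective)) fun x u v => ?_
  · rw [Module.finrank_pi_fintype]; simp [Lib.Orth.finrank_eq_two_of_isBar h hF]; ring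
  · rw [h3, h3]; exact congrArg τ ((h.guEquiv m x).2 u v)

end Cfsg.Agent.S2639
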