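import Cfsg.Statements.S2642
import Cfsg.Agent.Lib.Unitary.Wall2

set_option autoImplicit false
open Cfsg

namespace Cfsg.Agent.S2642

/-- Number of conjugacy classes of elements of order p in the general unitary group GU_n(q), q a power of p: every unipotent Jordan type occurs and the classes correspond to the partitions of n with all parts at most p other than the all-ones partition, exactly as in GL_n; so there are (number of partitions of n with parts ≤ p) − 1 classes. -/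
theorem result {K : Type*} [Field K] [Fintype K] {p q n : ℕ} [Fact p.Prime] [CharP K p] (hK : Fintype.card K = q ^ 2) : Nat.card {C : ConjClasses ↥(Cfsg.GU n K q) // ∃ g : ↥(Cfsg.GU n K q), ConjClasses.mk g = C ∧ orderOf g = p} = (Finset.univ.filter (fun μ : Nat.Partition n => ∀ a ∈ μ.parts, a ≤ p)).card - 1 := by
  open Lib.GLC Lib.Unitary Matrix in
  obtain ⟨σ, hσ⟩ := exists_isBar hK
  have hp : p.Prime := Fact.out
  have h : ∀ (g : GU n K q) d, Blocks (toLin' g.1.1) (jt 1 d) →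
      (orderOf g = p ↔ (∀ a ∈ d, a ≤ p) ∧ ¬ ∀ a ∈ d, a ≤ 1) := fun g d h => by
    rw [← h.jt_pow_eq_zero_iff, ← h.jt_pow_eq_zero_iff, one_smul, pow_one, sub_eq_zero, ← pow_one p,
      ← pow_char_pow_eq_one_iff, pow_one, ← Subgroup.orderOf_coe, ← orderOf_toLin'_gl,
      orderOf_eq_prime_iff]
  rw [card_classes' _ (fun g : GU n K q => typ (toLin' g.1.1)) (fun μ => ∃ d : n.Partition,
    ((∀ a ∈ d.parts, a ≤ p) ∧ ¬ ∀ a ∈ d.parts, a ≤ 1) ∧ jt 1 d.parts = μ)
    (fun _ _ _ _ => hσ.gu_isConj_iff_typ) fun μ => ⟨?_, ?_⟩]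
  · symm
    refine Eq.trans (Eq.symm ?_) (Nat.card_eq_of_bijective (α := {d : n.Partition //
      (∀ a ∈ d.parts, a ≤ p) ∧ ¬ ∀ a ∈ d.parts, a ≤ 1}) (fun d => ⟨_, d.1, d.2, rfl⟩)
      ⟨fun d e h => Subtype.ext (Nat.Partition.ext (jt_injective 1 (congrArg Subtype.val h))),
        fun ⟨_, d, hd, rfl⟩ => ⟨⟨d, hd⟩, rfl⟩⟩)
    let o : n.Partition := ⟨Multiset.replicate n 1, fun h => by
      simp [Multiset.eq_of_mem_replicate h], by simp⟩
    have ho : ∀ μ : n.Partition, (∀ a ∈ μ.parts, a ≤ 1) ↔ μ = o := fun μ =>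
      ⟨fun h => Nat.Partition.ext (by
        have := Multiset.eq_replicate_of_mem fun a ha => (h a ha).antisymm (μ.parts_pos ha)
        have h2 := μ.parts_sum
        rw [this, Multiset.sum_replicate, smul_eq_mul, mul_one] at h2
        rw [this, h2]), fun h a ha => (Multiset.eq_of_mem_replicate (h ▸ ha :)).le⟩
    classical
    rw [← Finset.card_erase_of_mem (a := o) (by
      simpa using fun a ha => ((ho o).2 rfl a ha).trans hp.one_le), Nat.subtype_card]
    simp [ho, and_comm]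
  · rintro ⟨d, hd, rfl⟩
    obtain ⟨g, hg⟩ := hσ.exists_su_jt d.parts_sum
    exact ⟨suToGU g, (h _ _ hg).2 hd, hg.typ_eq (jt_pp 1 fun _ => d.parts_pos)⟩
  · rintro ⟨g, hg, rfl⟩
    obtain ⟨d, hd, e⟩ := exists_jt_one (f := toLin' g.1.1) ((orderOf_eq_pow_iff p).1
      ⟨1, by rw [orderOf_toLin'_gl, Subgroup.orderOf_coe, hg, pow_one]⟩)
    have hb := e ▸ blocks_typ (toLin' g.1.1)
    exact ⟨⟨d, fun h => hd _ h, by simpa using hb.jt_sum⟩, (h _ _ hb).1 hg, e.symm⟩

end Cfsg.Agent.S2642
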