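import Cfsg.Statements.S2643
import Cfsg.Agent.Lib.Unitary.Wall2

set_option autoImplicit false
open Cfsg

namespace Cfsg.Agent.S2643

/-- Regular unipotent classes of SU_n(q), n ≥ 2: the elements u of the special unitary group (isometries of Σ u_i v_i^q of determinant one over the field with q² elements) with (u − 1)^n = 0 and rank(u − 1) = n − 1 form exactly gcd(n, q + 1) conjugacy classes of SU_n(q). -/
theorem result {K : Type*} [Field K] [Fintype K] {q n : ℕ} (hK : Fintype.card K = q ^ 2) (hn : 2 ≤ n) : Nat.card {C : ConjClasses ↥(Cfsg.SU n K q) // ∃ u : ↥(Cfsg.SU n K q), ConjClasses.mk u = C ∧ (((u : GL (Fin n) K) : Matrix (Fin n) (Fin n) K) - 1) ^ n = 0 ∧ (((u : GL (Fin n) K) : Matrix (Fin n) (Fin n) K) - 1).rank = n - 1} = Nat.gcd n (q + 1) := by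
  open Lib.GLC Lib.Unitary Matrix in
  obtain ⟨σ, hσ⟩ := exists_isBar hK
  haveI : Nonempty (Fin n) := ⟨⟨0, by omega⟩⟩
  obtain ⟨a, ha⟩ := hσ.exists_su_jt (n := n) (d := {n}) (by simp)
  have h1 := hσ.card_su_classes_sim (by omega) a
  rw [detC_of_blocks_singleton (c := 1) (k := n) ha (by omega), hσ.map_barHom_pow,
    IsCyclic.index_powMonoidHom_range, hσ.card_normOne, Nat.gcd_comm] at h1
  rw [← h1]
  refine Nat.card_congr (Equiv.subtypeEquivRight fun C => exists_congr fun u => and_congr_right fun _ =>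
    ⟨fun h => ha.sim (by simpa [jt] using blocks_regular h.1 (by simpa using h.2)), fun h => ?_⟩)
  have h2 := h.symm.blocks ha
  have h3 := h2.jt_finrank_ker_one (by simp; omega)
  have h4 := rank_add_finrank_ker (u.1.1 - 1)
  rw [toLin'_sub_one, ← one_smul K (1 : Module.End K _), h3] at h4
  exact ⟨by simpa [toLin'_sub_one_pow_eq_zero_iff] using h2.jt_pow_eq_zero_iff (k := n), by
    simp at h4 ⊢; omega⟩

end Cfsg.Agent.S2643
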