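import Cfsg.Statements.S2645
import Cfsg.Agent.Lib.Symp.PrimeOrd

set_option autoImplicit false
open Cfsg

namespace Cfsg.Agent.S2645

/-- Number of conjugacy classes of elements of odd prime order r, r different from the characteristic, in the symplectic group Sp_2m(q): let i be the multiplicative order of q modulo r and t = (r − 1)/i. If i is odd the eigenvalue orbits pair off (Λ ≠ Λ⁻¹) and the classes correspond to the non-zero (t/2)-tuples (a_j) with 2i Σ a_j ≤ 2m, giving C(⌊m/i⌋ + t/2, t/2) − 1 classes; if i is even (Λ = Λ⁻¹) they correspond to the non-zero t-tuples with i Σ a_j ≤ 2m, giving C(⌊2m/i⌋ + t, t) − 1 classes. -/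
theorem result {F : Type*} [Field F] [Fintype F] {p q : ℕ} [Fact p.Prime] [CharP F p] (hF : Fintype.card F = q) (m r i t : ℕ) (hr : r.Prime) (hr2 : r ≠ 2) (hrp : r ≠ p) (hi : i = orderOf (q : ZMod r)) (ht : t * i = r - 1) : Nat.card {C : ConjClasses ↥(Matrix.symplecticGroup (Fin m) F) // ∃ g : Matrix.symplecticGroup (Fin m) F, ConjClasses.mk g = C ∧ orderOf g = r} = if Odd i then Nat.choose (m / i + t / 2) (t / 2) - 1 else Nat.choose (2 * m / i + t) t - 1 := by
  open Cfsg.Lib.Symp Cfsg.Lib.GLC Polynomial Matrix in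
  classical
  have ho := hr.odd_of_ne_two hr2
  have hp := (Nat.coprime_primes hr Fact.out).2 hrp
  have h0 : (r : F) ≠ 0 := mt (CharP.cast_eq_zero_iff F p r).1
    ((Nat.Prime.coprime_iff_not_dvd Fact.out).1 hp.symm)
  obtain ⟨S, hS, h1⟩ := exists_finset_RF hr h0
  rw [← hF, ← Nat.card_eq_fintype_card] at hi
  have hi0 : 0 < i := by have := hr.two_le; rw [← hi] at h1; grind
  obtain rfl : S.card = t := Nat.eq_of_mul_eq_mul_right hi0 (by rw [ht, ← h1, hi])
  haveI := Fact.mk hr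
  have h2 : ∀ k (ν : Multiset F[X]), (∀ φ ∈ ν, RF r φ) →
      (.replicate k (X - C 1) + ν).filter (X - C 1 ≠ ·) = ν := fun k ν h => by
    rw [Multiset.filter_add, Multiset.filter_eq_nil.2 (by simp [Multiset.mem_replicate]), zero_add,
      Multiset.filter_eq_self.2 fun φ hφ => (h φ hφ).2.2.2.symm]
  have h3 := fun (g : symplecticGroup (Fin m) F) (hg : orderOf g = r) => (spE_sp g).exists_typ_RF ho h0
    (by rw [← hg, ← orderOf_toLin'_sp, pow_orderOf_eq_one])
  have h4 : ∀ (g : symplecticGroup (Fin m) F) k ν, (∀ φ ∈ ν, RF r φ) →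
      typ (toLin' g.1) = .replicate k (X - C 1) + ν → k + ν.card * i = 2 * m := fun g k ν h e => by
    simpa [e, sum_natDegree_RF hr h, hi, -map_one, two_mul] using sum_typ_toLin' g.1
  rw [card_classes' (τ := fun g => (typ (toLin' g.1)).filter (X - C 1 ≠ ·))
    (q := fun ν => ((∀ φ ∈ ν, φ ∈ S) ∧ ν.map rdual = ν ∧ ν.card ≤ 2 * m / i) ∧ ν ≠ 0),
    card_ne_eq (by simp)]
  · split_ifs with h
    · rw [card_inv_multiset fun φ hφ => ⟨(hS _).2 (((hS _).1 hφ).dual hr.ne_zero),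
        rdual_rdual ((hS _).1 hφ).1 (((hS _).1 hφ).coeff_ne hr.ne_zero),
        mt (((hS _).1 hφ).rdual_eq_iff hr ho).1 (hi ▸ Nat.not_even_iff_odd.2 h)⟩,
        Nat.div_div_eq_div_mul, mul_comm i, Nat.mul_div_mul_left _ _ two_pos]
    · rw [← card_multiset_le]
      refine congrArg (· - 1) (Nat.card_congr (Equiv.subtypeEquivRight fun ν =>
        and_congr_right fun h5 => and_iff_right ?_))
      rw [Multiset.map_congr rfl fun φ hφ => (((hS _).1 (h5 φ hφ)).rdual_eq_iff hr ho).2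
        (hi ▸ Nat.not_odd_iff_even.1 h), Multiset.map_id']
  · intro a b ha hb
    obtain ⟨k, ν, h5, -, h6⟩ := h3 a ha
    obtain ⟨l, μ, h7, -, h8⟩ := h3 b hb
    rw [sp_isConj_iff_sim p (ha ▸ hp), sim_iff_typ_eq]
    refine ⟨fun h => by rw [h], fun h => ?_⟩
    rw [h6, h8, h2 _ _ h5, h2 _ _ h7] at h
    have := h4 a _ _ h5 h6
    have := h4 b _ _ h7 h8
    subst h
    rw [h6, h8, show k = l by omega]
  refine fun ν => ⟨fun ⟨⟨h5, h6, h7⟩, h8⟩ => ?_, fun ⟨g, hg, h⟩ => ?_⟩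
  · have h5 := fun φ hφ => (hS _).1 (h5 φ hφ)
    obtain ⟨l, hl⟩ := even_sum_RF ho h5 h6
    have h9 := (Nat.le_div_iff_mul_le hi0).1 h7
    rw [hi, ← sum_natDegree_RF hr h5] at h9
    obtain ⟨g, hg⟩ := (occ_RF ho h5 h6 (m - l)).exists_sp (l := Fin m) (by simp [hl, -map_one]; omega)
    refine ⟨g, ?_, by rw [hg.typ_eq (pp_RF h5 _), h2 _ _ h5]⟩
    rw [← orderOf_toLin'_sp]
    exact orderOf_eq_prime (pow_eq_one_RF h5 hg) fun h =>
      h8 ((eq_smul_iff_RF ho h5 h6 hg).1 ⟨1, by simp [h]⟩)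
  · obtain ⟨k, μ, h5, h6, h7⟩ := h3 g hg
    rw [h7, h2 _ _ h5] at h
    subst h
    refine ⟨⟨fun φ hφ => (hS _).2 (h5 φ hφ), h6, (Nat.le_div_iff_mul_le hi0).2
      (by have := h4 g _ _ h5 h7; omega)⟩, fun h => ?_⟩
    have := pow_eq_one_RF (r := 1) (by simp [h]) (h7 ▸ blocks_typ (toLin' g.1))
    rw [← orderOf_dvd_iff_pow_eq_one, orderOf_toLin'_sp, hg] at this
    exact hr.not_dvd_one this

end Cfsg.Agent.S2645
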