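import Cfsg.Statements.S2646
import Cfsg.Agent.Lib.Unitary.CentU

set_option autoImplicit false
open Cfsg

namespace Cfsg.Agent.S2646

/-- Order of the centraliser in the general unitary group GU_n(q) of a unipotent element of given Jordan type: if u ∈ GU_n(q) (isometries of Σ u_i v_i^q over the field with q² elements) is similar to the unipotent matrix with a_i Jordan blocks of size i (all sizes at least 1), then its centraliser in GU_n(q) has order q^γ · Π_i |GU_(a_i)(q)| with γ = 2 Σ_(i<j) i a_i a_j + Σ_i (i − 1) a_i², the same exponent as in GL_n(q), where |GU_a(q)| = q^(a(a−1)/2) Π_(k=1)^a (q^k − (−1)^k). -/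
theorem result {K : Type*} [Field K] [Fintype K] {q n t : ℕ} (hK : Fintype.card K = q ^ 2) (d : Fin t → ℕ) (hd : ∀ k, 1 ≤ d k) (e : ((k : Fin t) × Fin (d k)) ≃ Fin n) (u : ↥(Cfsg.GU n K q)) (hu : IsConj (Matrix.reindex e e (Cfsg.jordanTypeMatrix d K)) ((u : GL (Fin n) K) : Matrix (Fin n) (Fin n) K)) : (Nat.card ↥(Subgroup.centralizer ({u} : Set ↥(Cfsg.GU n K q))) : ℤ) = (q : ℤ) ^ (2 * (∑ i ∈ Finset.range (Finset.univ.sup d + 1), ∑ j ∈ Finset.range (Finset.univ.sup d + 1), if i < j then i * (Finset.univ.filter (fun k : Fin t => d k = i)).card * (Finset.univ.filter (fun k : Fin t => d k = j)).card else 0) + ∑ i ∈ Finset.range (Finset.univ.sup d + 1), (i - 1) * (Finset.univ.filter (fun k : Fin t => d k = i)).card ^ 2) * ∏ i ∈ Finset.range (Finset.univ.sup d + 1), ((q : ℤ) ^ ((Finset.univ.filter (fun k : Fin t => d k = i)).card * ((Finset.univ.filter (fun k : Fin t => d k = i)).card - 1) / 2) * ∏ j : Fin (Finset.univ.filter (fun k : Fin t => d k = i)).card, ((q : ℤ)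 ^ ((j : ℕ) + 1) - (-1) ^ ((j : ℕ) + 1))) := by
  open Lib.GLC Lib.Unitary Matrix Polynomial Module in
  obtain ⟨σ, hσ⟩ := exists_isBar hK
  have hD : ∀ k, d k ∈ Finset.range (Finset.univ.sup d + 1) := fun k =>
    Finset.mem_range_succ_iff.2 (Finset.le_sup (Finset.mem_univ k))
  have h1 : Sim (toLin' (jordanTypeMatrix d K)) (toLin' u.1.1) :=
    (sim_reindex e _).symm.trans (isConj_iff_sim.1 hu)
  have := hσ.card_commute_unip (hσ.mem_GU_ct.1 u.2) hd (h1.symm.blocks (blocks_jordanTypeMatrix d)) hD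
  rw [sum_min_eq hd hD, pow_add, mul_right_comm] at this
  simp only [Fintype.card_subtype] at this
  have h2 := Nat.eq_of_mul_eq_mul_right (pow_pos (by have := hσ.two_le; omega) _) this
  have h3 : Nat.card (Subgroup.centralizer ({u} : Set (GU n K q))) =
      Nat.card {a : GL (Fin n) K // ctGL σ a = a⁻¹ ∧ Commute a u.1} :=
    Nat.card_eq_of_bijective (fun a => ⟨a.1.1, hσ.mem_GU_ct.1 a.1.2,
      congrArg Subtype.val (Subgroup.mem_centralizer_singleton_iff.1 a.2)⟩)
      ⟨fun a b e => Subtype.ext (Subtype.ext (congrArg (·.1) e)), fun a =>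
        ⟨⟨⟨a.1, hσ.mem_GU_ct.2 a.2.1⟩, Subgroup.mem_centralizer_singleton_iff.2 (Subtype.ext a.2.2)⟩, rfl⟩⟩
  rw [h3, h2]
  push_cast
  simp only [guOrder_cast (show 1 ≤ q by have := hσ.two_le; omega)]

end Cfsg.Agent.S2646
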