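import Cfsg.Statements.S2655
import Cfsg.Agent.Lib.Alt78.E7

set_option autoImplicit false
open Cfsg

namespace Cfsg.Agent.S2655

open Cfsg.Lie Cfsg.Lib.AltSec Cfsg.Lib.Alt78 Subgroup Finset Module

/-- An even permutation given by tables. -/
def ev (n : ℕ) [NeZero n] (a b : List ℕ)
    (h : ∀ i : Fin n, Fin.ofNat n (b.getD (Fin.ofNat n (a.getD i 0)) 0) = i ∧
      Fin.ofNat n (a.getD (Fin.ofNat n (b.getD i 0)) 0) = i := by decide +kernel)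
    (h' : Equiv.Perm.sign (pm n a b h) = 1 := by decide +kernel) : alternatingGroup (Fin n) := ⟨_, h'⟩

/-- A seven-cycle. -/
def t₁ := ev 14 [1, 2, 3, 4, 5, 6, 0, 7, 8, 9, 10, 11, 12, 13] [6, 0, 1, 2, 3, 4, 5, 7, 8, 9, 10, 11, 12, 13]

/-- A seven-cycle. -/
def t₂ := ev 14 [0, 1, 2, 3, 4, 5, 6, 8, 9, 10, 11, 12, 13, 7] [0, 1, 2, 3, 4, 5, 6, 13, 7, 8, 9, 10, 11, 12]

/-- Conjugating elements. -/
def y14 : List (alternatingGroup (Fin 14)) := [ev 14 [0, 1, 2, 3, 4, 5, 6, 7, 8, 9, 10, 11, 12, 13] [0, 1, 2, 3, 4, 5, 6, 7, 8, 9, 10, 11, 12, 13],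
  ev 14 [0, 2, 4, 6, 1, 3, 5, 7, 8, 9, 10, 11, 12, 13] [0, 4, 1, 5, 2, 6, 3, 7, 8, 9, 10, 11, 12, 13],
  ev 14 [0, 4, 1, 5, 2, 6, 3, 7, 8, 9, 10, 11, 12, 13] [0, 2, 4, 6, 1, 3, 5, 7, 8, 9, 10, 11, 12, 13],
  ev 14 [7, 8, 9, 10, 11, 12, 13, 0, 3, 6, 2, 5, 1, 4] [7, 12, 10, 8, 13, 11, 9, 0, 1, 2, 3, 4, 5, 6],
  ev 14 [7, 8, 9, 10, 11, 12, 13, 0, 6, 5, 4, 3, 2, 1] [7, 13, 12, 11, 10, 9, 8, 0, 1, 2, 3, 4, 5, 6],
  ev 14 [7, 8, 9, 10, 11, 12, 13, 0, 5, 3, 1, 6, 4, 2] [7, 10, 13, 9, 12, 8, 11, 0, 1, 2, 3, 4, 5, 6],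
  ev 14 [0, 3, 6, 2, 5, 1, 4, 7, 10, 13, 9, 12, 8, 11] [0, 5, 3, 1, 6, 4, 2, 7, 12, 10, 8, 13, 11, 9]]

theorem tab14 : t₁ ^ 7 = 1 ∧ t₂ ^ 7 = 1 ∧ t₁ * t₂ = t₂ * t₁ ∧ t₁ ≠ 1 ∧ t₁ * t₂ ≠ 1 ∧
    (∃ y ∈ y14, y * t₁ * y⁻¹ = t₁ ^ 3) ∧ (∃ y ∈ y14, y * (t₁ * t₂) * y⁻¹ = (t₁ * t₂) ^ 3) ∧
    (∃ y ∈ y14, y * t₁ * y⁻¹ = t₁ ^ 0 * t₂) ∧
    ∀ i : Fin 6, ∃ y ∈ y14, y * (t₁ * t₂) * y⁻¹ = t₁ ^ (i.val + 1) * t₂ := by decide +kernel

/-- A five-cycle. -/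
def u₁ := ev 15 [1, 2, 3, 4, 0, 5, 6, 7, 8, 9, 10, 11, 12, 13, 14] [4, 0, 1, 2, 3, 5, 6, 7, 8, 9, 10, 11, 12, 13, 14]

/-- A five-cycle. -/
def u₂ := ev 15 [0, 1, 2, 3, 4, 6, 7, 8, 9, 5, 10, 11, 12, 13, 14] [0, 1, 2, 3, 4, 9, 5, 6, 7, 8, 10, 11, 12, 13, 14]

/-- A five-cycle. -/
def u₃ := ev 15 [0, 1, 2, 3, 4, 5, 6, 7, 8, 9, 11, 12, 13, 14, 10] [0, 1, 2, 3, 4, 5, 6, 7, 8, 9, 14, 10, 11, 12, 13]

/-- Conjugating elements. -/
def y15 : List (alternatingGroup (Fin 15)) := [ev 15 [2, 0, 4, 1, 3, 5, 7, 9, 6, 8, 10, 12, 14, 11, 13] [1, 3, 0, 4, 2, 5, 8, 6, 9, 7, 10, 13, 11, 14, 12],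
  ev 15 [0, 2, 4, 1, 3, 7, 5, 9, 6, 8, 10, 12, 14, 11, 13] [0, 3, 1, 4, 2, 6, 8, 5, 9, 7, 10, 13, 11, 14, 12],
  ev 15 [5, 7, 9, 6, 8, 0, 2, 4, 1, 3, 10, 12, 14, 11, 13] [5, 8, 6, 9, 7, 0, 3, 1, 4, 2, 10, 13, 11, 14, 12],
  ev 15 [5, 9, 8, 7, 6, 0, 1, 2, 3, 4, 10, 12, 14, 11, 13] [5, 6, 7, 8, 9, 0, 4, 3, 2, 1, 10, 13, 11, 14, 12],
  ev 15 [5, 6, 7, 8, 9, 0, 4, 3, 2, 1, 10, 12, 14, 11, 13] [5, 9, 8, 7, 6, 0, 1, 2, 3, 4, 10, 13, 11, 14, 12],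
  ev 15 [5, 8, 6, 9, 7, 0, 3, 1, 4, 2, 10, 12, 14, 11, 13] [5, 7, 9, 6, 8, 0, 2, 4, 1, 3, 10, 13, 11, 14, 12]]

theorem tab15 : ([u₁, u₂, u₃].all fun a => decide (a ^ 5 = 1) &&
    [u₁, u₂, u₃].all fun b => decide (a * b = b * a)) = true := by
  decide +kernel

/-- The elements of the elementary abelian group. -/
def w15 (i j k : ℕ) : alternatingGroup (Fin 15) := u₁ ^ i * (u₂ ^ j * u₃ ^ k)

theorem tab15' : ∀ i j k : Fin 5, (w15 i j k = 1 → i = 0 ∧ j = 0 ∧ k = 0) ∧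
    (y15.any fun y => decide (y * w15 i j k = w15 i j k * w15 i j k * y)) = true := by
  decide +kernel

theorem isConj_of {G : Type*} [Group G] {l : List G} {a b : G} (h : ∃ y ∈ l, y * a * y⁻¹ = b) :
    IsConj a b := h.elim fun y h => isConj_iff.2 ⟨y, h.2⟩

theorem ofFn_eq (t : Fin 7 → ℕ) :
    (List.ofFn fun i => (t i : ℤ)) = [(t 0 : ℤ), t 1, t 2, t 3, t 4, t 5, t 6] := rfl

attribute [local irreducible] cn t₁ t₂ u₁ u₂ u₃ y14 y15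

section

variable {L : Type} [Group L] [Finite L] {s n : ℕ} [Fact s.Prime] {f : L →* alternatingGroup (Fin n)}
  (hf : Function.Surjective f) (hk : ¬ s ∣ Nat.card f.ker)
include hf hk

theorem conj_n {x y : L} (hx : x ^ s = 1) (hy : y ^ s = 1) (h : IsConj (f x) (f y)) : IsConj x y :=
  Cfsg.Lib.Alt78.isConj_lift hf hk hx hy h

theorem lift_n {A : Subgroup (alternatingGroup (Fin n))} (hA : IsPGroup s A) :
    ∃ g : A →* L, ∀ a, f (g a) = a :=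
  (exists_lift hf hk hA).imp fun _ h => h.1

end

theorem tab7' {t : Fin 7 → ℕ}
    (h4 : 2 * t 0 + 2 * t 1 + 3 * t 2 + 4 * t 3 + 3 * t 4 + 2 * t 5 + t 6 ≤ 7) (h5 : ¬ ∀ i, 7 ∣ t i)
    {c : ℕ → ℕ → ℕ} (h6 : ∀ m e : ℕ, c m e = cn 7 (List.ofFn fun i => (t i : ℤ)) m e)
    (h7 : ∀ e, c 1 e = c 3 e) : c 1 0 ∈ [2, 8, 20] := by
  rw [ofFn_eq] at h6
  have h9 := tab7 ⟨t 0, by omega⟩ ⟨t 1, by omega⟩ ⟨t 2, by omega⟩ ⟨t 3, by omega⟩
    ⟨t 4, by omega⟩ ⟨t 5, by omega⟩ ⟨t 6, by omega⟩ h4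
  beta_reduce at h9
  rw [h6]
  refine (h9 ((h6 1 1).symm.trans ((h7 _).trans (h6 3 1))) ((h6 1 2).symm.trans ((h7 _).trans
    (h6 3 2)))).resolve_right fun h10 => h5 fun i => Int.natCast_dvd_natCast.1 (h10 _ ?_)
  fin_cases i <;> simp

theorem tab5' {t : Fin 7 → ℕ}
    (h4 : 2 * t 0 + 2 * t 1 + 3 * t 2 + 4 * t 3 + 3 * t 4 + 2 * t 5 + t 6 ≤ 5) (h5 : ¬ ∀ i, 5 ∣ t i)
    {c : ℕ → ℕ → ℕ} (h6 : ∀ m e : ℕ, c m e = cn 5 (List.ofFn fun i => (t i : ℤ)) m e)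
    (h7 : ∀ e, c 1 e = c 2 e) : c 1 0 = 16 := by
  rw [ofFn_eq] at h6
  have h9 := tab5 ⟨t 0, by omega⟩ ⟨t 1, by omega⟩ ⟨t 2, by omega⟩ ⟨t 3, by omega⟩
    ⟨t 4, by omega⟩ ⟨t 5, by omega⟩ ⟨t 6, by omega⟩ h4
  beta_reduce at h9
  rw [h6]
  refine (h9 ((h6 1 1).symm.trans ((h7 _).trans (h6 2 1)))).resolve_right fun h10 => h5 fun i =>
    Int.natCast_dvd_natCast.1 (h10 _ ?_)
  fin_cases i <;> simp

variable {F : Type*} [Field F] [Finite F] (p : ℕ) [Fact p.Prime] [CharP F p]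

theorem not14 (hp : p ≠ 7) : ¬ Sec (chevE7.group F) 14 := fun h => by
  have := Fact.mk Nat.prime_seven
  obtain ⟨L, _, _, f, k, _, ζ, ψ, hf, hk, hζ, H⟩ := exists_rep p (.inr rfl) hp (by omega) h
  have key : ∀ x : L, x ^ 7 = 1 → f x ≠ 1 → IsConj (f x) (f x ^ 3) → ed ψ x 1 ∈ [2, 8, 20] :=
    fun x h1 h2 h3 => by
      obtain ⟨t, h4, h5, h6⟩ := H x h1 (by rintro rfl; exact h2 (map_one f))
      have := tab7' h4 h5 h6 fun e => ed_conj (conj_n hf hk (by rwa [pow_one])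
        (by rw [pow_right_comm, h1, one_pow]) (by rwa [pow_one, map_pow])) _
      rwa [pow_one, pow_zero] at this
  obtain ⟨e1, e2, e3, e4, e5, e6, e7, e8, e9⟩ := tab14
  obtain ⟨g, hg⟩ := lift_n hf hk (isPGroup_closure (s := 7) (S := {t₁, t₂})
    (by simp [e3]) (by simp [e1, e2]))
  obtain ⟨x, y, hx, hy, h1, h2, h3⟩ : ∃ x y : L, f x = t₁ ∧ f y = t₂ ∧ x ^ 7 = 1 ∧ y ^ 7 = 1 ∧
      x * y = y * x := ⟨g ⟨t₁, subset_closure (by simp)⟩, g ⟨t₂, subset_closure (by simp)⟩, hg _, hg _,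
    by rw [← map_pow, ← map_one g]; exact congrArg g (Subtype.ext e1),
    by rw [← map_pow, ← map_one g]; exact congrArg g (Subtype.ext e2),
    by rw [← map_mul, ← map_mul]; exact congrArg g (Subtype.ext e3)⟩
  have h4 : ∀ i, (x ^ i * y) ^ 7 = 1 := fun i => by
    rw [((show Commute x y from h3).pow_left i).mul_pow, pow_right_comm, h1, h2, one_pow, one_mul]
  have h5 : (x * y) ^ 7 = 1 := by simpa using h4 1
  have h6 := key x h1 (hx ▸ e4) (hx ▸ isConj_of e6)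
  have h7 := key (x * y) h5 (by rwa [map_mul, hx, hy]) (by rw [map_mul, hx, hy]; exact isConj_of e7)
  have h8 := sum_ed (ψ := ψ) hζ Nat.prime_seven h1 h2 h3
  rw [sum_range_succ', ← ed_conj (conj_n hf hk h1 (h4 0) (by
      rw [map_mul, map_pow, hx, hy]; exact isConj_of e8)), sum_congr rfl fun i hi =>
    (ed_conj (conj_n hf hk h5 (h4 (i + 1)) (by
      rw [map_mul, map_mul, map_pow, hx, hy]; exact isConj_of (e9 ⟨i, mem_range.1 hi⟩))) 1).symm,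
    sum_const, card_range, smul_eq_mul, finrank_fintype_fun_eq_card, cnt56] at h8
  simp only [List.mem_cons, List.not_mem_nil, or_false] at h6 h7
  omega

theorem not15 (hp : p ≠ 5) : ¬ Sec (chevE7.group F) 15 := fun h => by
  have := Fact.mk Nat.prime_five
  obtain ⟨L, _, _, f, k, _, ζ, ψ, hf, hk, hζ, H⟩ := exists_rep p (.inl rfl) hp (by omega) h
  have key : ∀ x : L, x ^ 5 = 1 → f x ≠ 1 → IsConj (f x) (f x ^ 2) → ed ψ x 1 = 16 :=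
    fun x h1 h2 h3 => by
      obtain ⟨t, h4, h5, h6⟩ := H x h1 (by rintro rfl; exact h2 (map_one f))
      have := tab5' h4 h5 h6 fun e => ed_conj (conj_n hf hk (by rwa [pow_one])
        (by rw [pow_right_comm, h1, one_pow]) (by rwa [pow_one, map_pow])) _
      rwa [pow_one, pow_zero] at this
  have e1 : ∀ a ∈ [u₁, u₂, u₃], a ^ 5 = 1 ∧ ∀ b ∈ [u₁, u₂, u₃], a * b = b * a := by
    simpa only [List.all_eq_true, Bool.and_eq_true, decide_eq_true_eq] using tab15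
  obtain ⟨g, hg⟩ := lift_n hf hk (isPGroup_closure (s := 5) (S := {a | a ∈ [u₁, u₂, u₃]})
    (fun a ha => (e1 a ha).2) fun a ha => (e1 a ha).1)
  have h0 : ∀ a ∈ [u₁, u₂, u₃], ∀ b ∈ [u₁, u₂, u₃], ∀ ha hb, g ⟨a, ha⟩ ^ 5 = 1 ∧
      Commute (g ⟨a, ha⟩) (g ⟨b, hb⟩) := fun a ha b hb _ _ =>
    ⟨by rw [← map_pow, ← map_one g]; exact congrArg g (Subtype.ext (e1 a ha).1),
      Commute.map (Subtype.ext ((e1 a ha).2 b hb)) g⟩
  obtain ⟨x, y, z, hx, hy, hz, h1, h2, h3, c1, c2, c3⟩ : ∃ x y z : L, f x = u₁ ∧ f y = u₂ ∧ f z = u₃ ∧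
      x ^ 5 = 1 ∧ y ^ 5 = 1 ∧ z ^ 5 = 1 ∧ Commute x y ∧ Commute x z ∧ Commute y z :=
    ⟨g ⟨u₁, subset_closure (by simp)⟩, g ⟨u₂, subset_closure (by simp)⟩,
      g ⟨u₃, subset_closure (by simp)⟩, hg _, hg _, hg _,
      (h0 _ (by simp) u₁ (by simp) _ (subset_closure (by simp))).1,
      (h0 _ (by simp) u₁ (by simp) _ (subset_closure (by simp))).1,
      (h0 _ (by simp) u₁ (by simp) _ (subset_closure (by simp))).1, (h0 _ (by simp) _ (by simp) _ _).2,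
      (h0 _ (by simp) _ (by simp) _ _).2, (h0 _ (by simp) _ (by simp) _ _).2⟩
  have c4 : ∀ j l : ℕ, Commute x (y ^ j * z ^ l) := fun j l => (c1.pow_right j).mul_right (c2.pow_right l)
  have h4 : ∀ j l : ℕ, (y ^ j * z ^ l) ^ 5 = 1 := fun j l => by
    rw [(c3.pow_pow j l).mul_pow, pow_right_comm, h2, pow_right_comm, h3, one_pow, one_pow, one_mul]
  have h5 : ∀ i < 5, ∀ j < 5, ∀ l < 5, ¬ (i = 0 ∧ j = 0 ∧ l = 0) →
      ed ψ (x ^ i * (y ^ j * z ^ l)) 1 = 16 := fun i hi j hj l hl h => by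
    obtain ⟨e3, e4⟩ := tab15' ⟨i, hi⟩ ⟨j, hj⟩ ⟨l, hl⟩
    obtain ⟨w, -, e4⟩ := List.any_eq_true.1 e4
    rw [decide_eq_true_eq] at e4
    unfold w15 at e3 e4
    refine key _ (by rw [((c4 j l).pow_left i).mul_pow, h4, pow_right_comm, h1, one_pow, one_mul])
      ?_ ?_ <;> simp only [map_mul, map_pow, hx, hy, hz]
    · exact fun e => h (by simpa [Fin.ext_iff] using e3 e)
    · exact isConj_iff.2 ⟨w, by rw [e4, mul_inv_cancel_right, sq]⟩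
  have h6 : ed ψ x 1 = 16 := by simpa using h5 1 (by omega) 0 (by omega) 0 (by omega) (by omega)
  have h7 : ∀ j < 5, ∀ l < 5, ¬ (j = 0 ∧ l = 0) →
      finrank k ↥((ψ x).eigenspace 1 ⊓ (ψ (y ^ j * z ^ l)).eigenspace 1) = 8 := fun j hj l hl h => by
    have := sum_ed (ψ := ψ) hζ Nat.prime_five h1 (h4 j l) (c4 j l)
    rw [sum_congr rfl fun i hi => h5 i (mem_range.1 hi) j hj l hl fun e => h e.2, sum_const,
      card_range, smul_eq_mul, finrank_fintype_fun_eq_card, cnt56, h6] at this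
    omega
  have h8 : ∀ {y : L}, Commute x y → ∀ v ∈ (ψ x).eigenspace 1, ψ y v ∈ (ψ x).eigenspace 1 :=
    fun {y} h => by simpa using mem_inf_eig (h.map ψ).eq (W := ⊤) (by simp) 1
  have h9 := sum_fix (a := ψ y) (b := ψ z) hζ Nat.prime_five (by rw [← map_pow, h2, map_one])
    (by rw [← map_pow, h3, map_one]) (c3.map ψ) (h8 c1) (h8 c2)
  have h10 := h7 1 (by omega) 0 (by omega) (by omega)
  rw [pow_one, pow_zero, mul_one] at h10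
  rw [sum_congr rfl fun j hj => show finrank k ↥((ψ x).eigenspace 1 ⊓ (ψ y ^ j * ψ z).eigenspace 1) = 8
    by rw [← map_pow, ← map_mul, ← h7 j (mem_range.1 hj) 1 (by omega) (by omega), pow_one], h10,
    show finrank k ((ψ x).eigenspace 1) = 16 from h6, sum_const, card_range, smul_eq_mul] at h9
  omega

open scoped MatrixGroups

/-- Alternating sections of the groups of type E₇. Let `F` be a finite field of characteristic `p` and let `G` be the Chevalley group of type E₇ over `F`. If some subgroup of `G` has a quotient isomorphic to the alternating group of degree `r`, then `r` is at most 13, or 14 in characteristic 7. (Only an upper bound is asserted.) -/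
theorem result {F : Type*} [Field F] [Fintype F] (p : ℕ) [Fact p.Prime] [CharP F p]
    (r : ℕ) (H : Subgroup ↥(Cfsg.Lie.chevE7.group F)) (K : Subgroup ↥H) [K.Normal]
    (h : Nonempty (↥H ⧸ K ≃* ↥(alternatingGroup (Fin r)))) :
    r ≤ 13 + (if p = 7 then 1 else 0) := by
  refine le_of_not_sec H K h ?_
  split_ifs with hp
  · exact not15 p (by omega)
  · exact not14 p hp

end Cfsg.Agent.S2655
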