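import Cfsg.Statements.S2665
import Cfsg.Agent.Lib.Linear.Descent

set_option autoImplicit false
open scoped MatrixGroups
open Cfsg

namespace Cfsg.Agent.S2665

open Polynomial Finset

variable {K V : Type*} [Field K] [IsAlgClosed K] [AddCommGroup V] [Module K V] [FiniteDimensional K V] {σ : K →+* K}
  {q : ℕ} (hq : 2 ≤ q) (hσ : ∀ x, σ x = x ^ q) (φ : V →ₛₗ[σ] V) (hφ : Function.Injective φ)
include hq hσ hφ

/-- An injective `q`-semilinear map has a non-zero fixed vector. -/
theorem exists_fixed [Nontrivial V] : ∃ w, w ≠ 0 ∧ φ w = w := by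
  obtain ⟨v, hv⟩ := exists_ne (0 : V)
  have h1 : ∃ m, ∃ a : ℕ → K, φ^[m] v = ∑ i ∈ range m, a i • φ^[i] v := by
    by_contra! h
    refine not_strictMono_of_wellFoundedGT (fun m => Submodule.span K ((φ^[·] v) '' range m)) (strictMono_nat_of_lt_succ
      fun m => SetLike.lt_iff_le_and_exists.2 ⟨Submodule.span_mono (Set.image_mono (by simp)), φ^[m] v,
        Submodule.subset_span ⟨m, by simp, rfl⟩, fun e => ?_⟩)
    obtain ⟨c, hc⟩ := (Submodule.mem_span_image_finset_iff_exists_fun' K).1 e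
    exact h m c hc.symm
  classical
  obtain ⟨a, ha⟩ := Nat.find_spec h1
  obtain ⟨m, hm⟩ : ∃ m, Nat.find h1 = m + 1 := Nat.exists_eq_succ_of_ne_zero fun e => hv (by simpa [e] using ha)
  rw [hm] at ha
  obtain ⟨P, h2, h3⟩ : ∃ P : ℕ → K[X], P 0 = C (a 0) * X ^ q ∧ ∀ i, P (i + 1) = P i ^ q + C (a (i + 1)) * X ^ q :=
    ⟨Nat.rec _ fun i Q => Q ^ q + C (a (i + 1)) * X ^ q, rfl, fun _ => rfl⟩
  have h4 : ∀ i, X ^ 2 ∣ P i := fun i => by
    induction i with
    | zero => exact h2 ▸ (pow_dvd_pow X hq).mul_left _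
    | succ i ih => exact h3 i ▸ dvd_add (ih.pow (by omega)) ((pow_dvd_pow X hq).mul_left _)
  have h5 : ∀ i, P i = 0 → ∀ j ≤ i, a j = 0 := fun i => by
    induction i with
    | zero => simp +contextual [h2]
    | succ i ih =>
      intro h j hj
      have h6 := X_pow_dvd_iff.1 (pow_mul (X : K[X]) 2 q ▸ pow_dvd_pow_of_dvd (h4 i) q) q (by omega)
      have h7 : a (i + 1) = 0 := by simpa [h3, h6] using congrArg (coeff · q) h
      rw [h3, h7, C_0, zero_mul, add_zero] at h
      exact (Nat.le_succ_iff.1 hj).elim (ih (eq_zero_of_pow_eq_zero h) j) fun e => e ▸ h7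
  obtain ⟨Z, hZ⟩ := h4 m
  have h6 : Z ≠ 0 := fun e => hv ((hφ.iterate (m + 1)) (by
    rw [ha, Function.iterate_fixed (map_zero φ)]
    exact sum_eq_zero fun i hi => by rw [h5 m (by rw [hZ, e, mul_zero]) i (mem_range_succ_iff.1 hi), zero_smul]))
  obtain ⟨y, hy⟩ := IsAlgClosed.exists_root (X * Z - 1) (by
    rw [degree_sub_eq_left_of_degree_lt (by simpa using degree_pos_of_root (mul_ne_zero X_ne_zero h6) (a := 0) (by simp))]
    exact (degree_pos_of_root (mul_ne_zero X_ne_zero h6) (a := 0) (by simp)).ne')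
  have h7 : y * Z.eval y = 1 := by simpa [sub_eq_zero] using hy
  have h8 : (P m).eval y = y := by simp [hZ, sq, mul_assoc, h7]
  refine ⟨∑ i ∈ range (m + 1), (P i).eval y • φ^[i] v, fun e => Nat.find_min h1 (m.lt_succ_self.trans_eq hm.symm)
    ⟨fun i => -y⁻¹ * (P i).eval y, ?_⟩, ?_⟩
  · rw [sum_range_succ, h8, add_eq_zero_iff_neg_eq] at e
    rw [← inv_smul_smul₀ (left_ne_zero_of_mul_eq_one h7) (φ^[m] v), ← e]
    simp [smul_sum, smul_smul]
  · simp only [map_sum, map_smulₛₗ, hσ, ← Function.iterate_succ_apply' φ, Nat.succ_eq_add_one]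
    rw [sum_range_succ, h8, ha, sum_range_succ', sum_range_succ' _ m]
    simp only [h2, h3, eval_add, eval_pow, eval_mul, eval_C, eval_X, add_smul, sum_add_distrib, smul_sum, smul_smul, smul_add,
      mul_comm (y ^ q), add_assoc]

theorem span_fixed : Submodule.span K {v | φ v = v} = ⊤ := by
  set W := Submodule.span K {v | φ v = v}
  have h1 : ∀ (s : K) (w), w ∈ W → ∀ c : K, ∃ u ∈ W, φ u - s • u = c • w := fun s w hw => by
    induction hw using Submodule.span_induction with
    | mem w hw =>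
      intro c
      obtain ⟨t, ht⟩ := IsAlgClosed.exists_root (X ^ q - (C s * X + C c)) (by
        rw [degree_sub_eq_left_of_degree_lt (degree_linear_le.trans_lt (by simpa using show 1 < q from hq))]; simp; omega)
      exact ⟨t • w, W.smul_mem _ (Submodule.subset_span hw), by
        rw [map_smulₛₗ, hw, hσ, smul_smul, ← sub_smul]; congr 1; simpa [← sub_sub, sub_eq_zero] using ht⟩
    | zero => exact fun c => ⟨0, W.zero_mem, by simp⟩
    | add x y _ _ hx hy =>
      intro c
      obtain ⟨u, h, h'⟩ := hx c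
      obtain ⟨v, k, k'⟩ := hy c
      exact ⟨u + v, W.add_mem h k, by rw [smul_add c, ← h', ← k', map_add, smul_add]; abel⟩
    | smul a x _ hx => exact fun c => smul_smul c a x ▸ hx _
  have h2 : W ≤ W.comap φ := fun w hw => by
    induction hw using Submodule.span_induction with
    | mem w hw => exact Submodule.subset_span (congrArg φ hw)
    | zero => exact zero_mem _
    | add x y _ _ hx hy => exact add_mem hx hy
    | smul a x _ hx => exact Submodule.smul_mem _ a hx
  by_contra h
  haveI := Submodule.Quotient.nontrivial_iff.2 h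
  obtain ⟨v, h3, h4⟩ := exists_fixed hq hσ (W.mapQ W φ h2) ((injective_iff_map_eq_zero _).2 fun v hv => by
    obtain ⟨v, rfl⟩ := W.mkQ_surjective v
    obtain ⟨u, h5, h6⟩ := h1 0 _ ((Submodule.Quotient.mk_eq_zero W).1 hv) 1
    exact (Submodule.Quotient.mk_eq_zero W).2 (hφ (by simpa using h6 : φ u = φ v) ▸ h5))
  obtain ⟨v, rfl⟩ := W.mkQ_surjective v
  obtain ⟨u, h5, h6⟩ := h1 1 _ ((Submodule.Quotient.eq W).1 h4) 1
  refine h3 ((Submodule.Quotient.mk_eq_zero W).2 (sub_add_cancel v u ▸ add_mem (Submodule.subset_span ?_) h5))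
  rw [Set.mem_setOf_eq, map_sub, sub_eq_sub_iff_sub_eq_sub, ← one_smul K (φ v - v), ← h6, one_smul]

omit hq hσ hφ

/-- The Lang–Steinberg Theorem for the general linear group. Let `K` be an algebraically closed field of prime characteristic `p`, let `q = p^f` with `f ≥ 1`, and let `σ` be the endomorphism of GL_n(K) raising every matrix entry to the `q`-th power. Then every element `g` of GL_n(K) can be written `g = x · σ(x)⁻¹` for some `x` in GL_n(K): the map `x ↦ x σ(x)⁻¹` is surjective. -/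
theorem result {K : Type*} [Field K] [IsAlgClosed K] (p : ℕ) [Fact p.Prime] [CharP K p]
    (f : ℕ) (hf : 1 ≤ f) (n : ℕ) (g : GL (Fin n) K) :
    ∃ x : GL (Fin n) K, g = x * (Matrix.GeneralLinearGroup.map (iterateFrobenius K p f) x)⁻¹ := by
  open Matrix in
  let φ : (Fin n → K) →ₛₗ[iterateFrobenius K p f] (Fin n → K) :=
    ⟨⟨fun v => g.1 *ᵥ (iterateFrobenius K p f ∘ v), fun u v => by rw [← mulVec_add]; congr 1; ext; simp⟩,
      fun c v => by rw [← mulVec_smul]; exact congrArg (g.1 *ᵥ ·) (_root_.funext fun i => map_mul (iterateFrobenius K p f) c (v i))⟩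
  obtain ⟨x, hx⟩ := Lib.Linear.exists_GL_col_mem (span_fixed ((Fact.out : p.Prime).two_le.trans (Nat.le_self_pow (by omega) p))
    (iterateFrobenius_def p f) φ fun u v h => (iterateFrobenius K p f).injective.comp_left
      (mulVec_injective_of_isUnit g.isUnit h))
  exact ⟨x, eq_mul_inv_of_mul_eq (Units.ext (Matrix.ext fun i j => congrFun (hx j) i))⟩

end Cfsg.Agent.S2665
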