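import Cfsg.Statements.S2667
import Cfsg.Agent.Lib.Alt.Shintani

set_option autoImplicit false
open Cfsg

namespace Cfsg.Agent.S2667

/-- Shintani descent, in an abstract form. Let `σ` be an automorphism of a group `X` and `e ≥ 1` (no surjectivity of the Lang maps is needed for this part; in the classical setting `X` is a connected algebraic group and `σ` a Steinberg endomorphism). Write `G` for the subgroup of fixed points of `σᵉ` and `H` for the subgroup of fixed points of `σ`. The `G`-conjugacy classes in the coset `G σ` of the semidirect product of `G` by `σ` correspond to the orbits of `G` on itself under twisted conjugation `g ↦ k g σ(k)⁻¹`, and the `e`-th power of `g σ` has `G`-part the norm `g σ(g) ⋯ σ^(e-1)(g)`. For `g` in `G` and any `a` with `g = a σ(a)⁻¹`, put `x = σᵉ(a)⁻¹ a`. Then conjugation by `a⁻¹` carries the twisted centralizer `{k ∈ G : k g σ(k)⁻¹ = g}` (the centralizer of `g σ` in `G`) exactly onto the centralizer of `x` in `H`: an element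 `k` of `X` lies in `G` and satisfies `k g σ(k)⁻¹ = g` if and only if `a⁻¹ k a` lies in `H` and commutes with `x`. In particular the two centralizers are conjugate in `X` and have the same order. -/
theorem result {X : Type*} [Group X] (σ : MulAut X) (e : ℕ) (he : 1 ≤ e)
    (g : X) (hg : g ∈ (MulEquiv.toMonoidHom (σ ^ e)).eqLocus (MonoidHom.id X)) (a : X) (ha : g = a * (σ a)⁻¹) (k : X) :
    (k ∈ (MulEquiv.toMonoidHom (σ ^ e)).eqLocus (MonoidHom.id X) ∧ k * g * (σ k)⁻¹ = g) ↔
      (a⁻¹ * k * a ∈ (MulEquiv.toMonoidHom σ).eqLocus (MonoidHom.id X) ∧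
        (a⁻¹ * k * a) * (((σ ^ e) a)⁻¹ * a) = (((σ ^ e) a)⁻¹ * a) * (a⁻¹ * k * a)) := by
  open Cfsg.Lib.Alt in
  subst ha
  simp only [shin_mem_iff] at hg ⊢
  constructor
  · rintro ⟨hk, h⟩
    have hh : σ (a⁻¹ * k * a) = a⁻¹ * k * a := by
      rw [map_mul, map_mul, map_inv]
      calc (σ a)⁻¹ * σ k * σ a = a⁻¹ * (a * (σ a)⁻¹) * σ k * σ a := by group
        _ = a⁻¹ * (k * (a * (σ a)⁻¹) * (σ k)⁻¹) * σ k * σ a := by rw [h]
        _ = a⁻¹ * k * a := by group
    refine ⟨hh, ?_⟩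
    have h2 := shin_pow_fix σ e hh
    rw [map_mul, map_mul, map_inv, hk] at h2
    calc a⁻¹ * k * a * (((σ ^ e) a)⁻¹ * a)
        = (((σ ^ e) a)⁻¹ * k * (σ ^ e) a) * (((σ ^ e) a)⁻¹ * a) := by rw [h2]
      _ = _ := by group
  · rintro ⟨hh, hx⟩
    have h2 := shin_pow_fix σ e hh
    rw [map_mul, map_mul, map_inv] at h2 hh
    constructor
    · calc (σ ^ e) k = (σ ^ e) a * (((σ ^ e) a)⁻¹ * (σ ^ e) k * (σ ^ e) a) * ((σ ^ e) a)⁻¹ := by group
        _ = (σ ^ e) a * ((a⁻¹ * k * a) * (((σ ^ e) a)⁻¹ * a)) * a⁻¹ := by rw [h2]; group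
        _ = k := by rw [hx]; group
    · calc k * (a * (σ a)⁻¹) * (σ k)⁻¹
          = a * (a⁻¹ * k * a) * ((σ a)⁻¹ * σ k * σ a)⁻¹ * (σ a)⁻¹ := by group
        _ = a * (σ a)⁻¹ := by rw [hh]; group

end Cfsg.Agent.S2667
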