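import Cfsg.Statements.S2669
import Cfsg.Agent.Lib.Alt.Shintani

set_option autoImplicit false
open Cfsg

namespace Cfsg.Agent.S2669

/-- Shintani descent preserves numbers of fixed points on coset spaces (abstract form). Let `σ` be an automorphism of a group `X` and `e ≥ 1`; write `G` for the fixed points of `σᵉ` and `H` for the fixed points of `σ`, and assume `G` is finite. Let `Y` be a `σ`-stable subgroup of `X` on which the maps `a ↦ a σ(a)⁻¹` and `a ↦ a σᵉ(a)⁻¹` are surjective (as for a closed connected `σ`-stable subgroup of an algebraic group). Let `g ∈ G`, let `a ∈ X` satisfy `g = a σ(a)⁻¹` and put `x = σᵉ(a)⁻¹ a` (the Shintani image, an element of `H`). The element `g σ` of the semidirect product acts on the cosets of `Y ∩ G` in `G` by `k (Y ∩ G) ↦ g σ(k) (Y ∩ G)`, fixing that coset exactly when `k⁻¹ g σ(k) ∈ Y`; and `x` fixes the coset `h (Y ∩ H)`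 of `H` exactly when `h⁻¹ x h ∈ Y`. Then the two numbers of fixed cosets agree; in cross-multiplied form, `#{k ∈ G : k⁻¹ g σ(k) ∈ Y} · |Y ∩ H| = #{h ∈ H : h⁻¹ x h ∈ Y} · |Y ∩ G|`. -/
theorem result {X : Type*} [Group X] (σ : MulAut X) (e : ℕ) (he : 1 ≤ e)
    [Finite ↥((MulEquiv.toMonoidHom (σ ^ e)).eqLocus (MonoidHom.id X))]
    (Y : Subgroup X) (hY : ∀ y : X, y ∈ Y ↔ σ y ∈ Y)
    (hYL : ∀ y ∈ Y, ∃ a ∈ Y, y = a * (σ a)⁻¹) (hYLe : ∀ y ∈ Y, ∃ a ∈ Y, y = a * ((σ ^ e) a)⁻¹)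
    (g : X) (hg : g ∈ (MulEquiv.toMonoidHom (σ ^ e)).eqLocus (MonoidHom.id X)) (a : X) (ha : g = a * (σ a)⁻¹) :
    Nat.card {k : ↥((MulEquiv.toMonoidHom (σ ^ e)).eqLocus (MonoidHom.id X)) // (k : X)⁻¹ * g * σ k ∈ Y} *
        Nat.card ↥(Y ⊓ (MulEquiv.toMonoidHom σ).eqLocus (MonoidHom.id X)) =
      Nat.card {h : ↥((MulEquiv.toMonoidHom σ).eqLocus (MonoidHom.id X)) // (h : X)⁻¹ * (((σ ^ e) a)⁻¹ * a) * h ∈ Y} *
        Nat.card ↥(Y ⊓ (MulEquiv.toMonoidHom (σ ^ e)).eqLocus (MonoidHom.id X)) := by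
  open Cfsg.Lib.Alt in
  subst ha
  have hYσ : ∀ c ∈ Y, σ c ∈ Y := fun c hc => (hY c).1 hc
  have hYτ : ∀ (n : ℕ), ∀ c ∈ Y, (σ ^ n) c ∈ Y := by
    intro n c hc
    induction n with
    | zero => exact hc
    | succ n ih =>
      have : (σ ^ (n + 1)) c = σ ((σ ^ n) c) := by rw [pow_succ']; rfl
      rw [this]; exact hYσ _ ih
  rw [shin_mem_iff] at hg
  have hx := (shin_fix_iff σ e a).1 hg
  have e1 := shin_fiber_card σ Y
    (fun k : ↥((MulEquiv.toMonoidHom (σ ^ e)).eqLocus (MonoidHom.id X)) =>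
      (k : X)⁻¹ * (a * (σ a)⁻¹) * σ k) hYL hYσ
  have e2 := shin_fiber_card (σ ^ e) Y
    (fun h : ↥((MulEquiv.toMonoidHom σ).eqLocus (MonoidHom.id X)) =>
      ((h : X)⁻¹ * (((σ ^ e) a)⁻¹ * a) * h)⁻¹) hYLe (hYτ e)
  simp only [Y.inv_mem_iff] at e2
  rw [e1, e2]
  refine Nat.card_congr
    { toFun := fun p => ⟨(⟨a⁻¹ * p.1.1 * p.1.2, ?_⟩, p.1.2⁻¹), Y.inv_mem p.2.1, ?_⟩
      invFun := fun p => ⟨(⟨a * p.1.1 * p.1.2, ?_⟩, p.1.2⁻¹), Y.inv_mem p.2.1, ?_⟩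
      left_inv := ?_
      right_inv := ?_ }
  · obtain ⟨⟨⟨k, hk⟩, c⟩, hc, h⟩ := p
    simp only at h ⊢
    rw [shin_mem_iff, map_mul, map_mul, map_inv]
    calc (σ a)⁻¹ * σ k * σ c = a⁻¹ * k * (k⁻¹ * (a * (σ a)⁻¹) * σ k) * σ c := by group
      _ = _ := by rw [h]; group
  · obtain ⟨⟨⟨k, hk⟩, c⟩, hc, h⟩ := p
    simp only at h ⊢
    have h1 : σ (a⁻¹ * k * c) = a⁻¹ * k * c := by
      rw [map_mul, map_mul, map_inv]
      calc (σ a)⁻¹ * σ k * σ c = a⁻¹ * k * (k⁻¹ * (a * (σ a)⁻¹) * σ k) * σ c := by group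
        _ = _ := by rw [h]; group
    have h2 := shin_pow_fix σ e h1
    rw [shin_mem_iff] at hk
    rw [map_mul, map_mul, map_inv, hk] at h2
    rw [map_inv, inv_inv]
    calc ((a⁻¹ * k * c)⁻¹ * (((σ ^ e) a)⁻¹ * a) * (a⁻¹ * k * c))⁻¹
        = ((((σ ^ e) a)⁻¹ * k * (σ ^ e) c)⁻¹ * (((σ ^ e) a)⁻¹ * a) * (a⁻¹ * k * c))⁻¹ := by rw [h2]
      _ = _ := by group
  · obtain ⟨⟨⟨h, hh⟩, c⟩, hc, hp⟩ := p
    simp only at hp ⊢
    rw [shin_mem_iff] at hh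
    have h2 := shin_pow_fix σ e hh
    rw [shin_mem_iff, map_mul, map_mul, h2]
    calc (σ ^ e) a * h * (σ ^ e) c = (σ ^ e) a * h * (c * ((σ ^ e) c)⁻¹)⁻¹ * c := by group
      _ = _ := by rw [← hp]; group
  · obtain ⟨⟨⟨h, hh⟩, c⟩, hc, hp⟩ := p
    simp only at hp ⊢
    rw [shin_mem_iff] at hh
    rw [map_mul, map_mul, hh, map_inv]; group
  · rintro ⟨⟨⟨k, hk⟩, c⟩, hc, h⟩
    ext
    · simp [mul_assoc]
    · simp
  · rintro ⟨⟨⟨k, hk⟩, c⟩, hc, h⟩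
    ext
    · simp [mul_assoc]
    · simp

end Cfsg.Agent.S2669
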