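import Cfsg.Statements.S2671
import Cfsg.Agent.Lib.Unitary.PrimeOrd

set_option autoImplicit false
open Cfsg

namespace Cfsg.Agent.S2671

/-- Number of conjugacy classes of elements of odd prime order r in the general unitary group GU_n(q), for r not dividing q(q + 1): let i be the multiplicative order of q modulo r, b = i if i is odd and b = i/2 if i is even, and s = (r − 1)/b. If i ≢ 2 (mod 4) the eigenvalue orbits pair off into dual pairs of totally isotropic blocks and there are C(⌊n/(2b)⌋ + s/2, s/2) − 1 classes; if i ≡ 2 (mod 4) each orbit gives a non-degenerate block of dimension i/2 and there are C(⌊2n/i⌋ + s, s) − 1 classes. -/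
theorem result {K : Type*} [Field K] [Fintype K] {p q n r i b s : ℕ} [Fact p.Prime] [CharP K p] (hK : Fintype.card K = q ^ 2) (hr : r.Prime) (hr2 : r ≠ 2) (hrp : r ≠ p) (hi : i = orderOf (q : ZMod r)) (hi2 : i ≠ 2) (hb : b = if Odd i then i else i / 2) (hs : s * b = r - 1) : Nat.card {C : ConjClasses ↥(Cfsg.GU n K q) // ∃ g : ↥(Cfsg.GU n K q), ConjClasses.mk g = C ∧ orderOf g = r} = if i % 4 = 2 then Nat.choose (2 * n / i + s) s - 1 else Nat.choose (n / (2 * b) + s / 2) (s / 2) - 1 := by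
  open Cfsg.Lib.Symp Cfsg.Lib.Unitary Cfsg.Lib.GLC Polynomial Matrix in
  classical
  obtain ⟨σ, hσ⟩ := exists_isBar hK
  have hp := (Nat.coprime_primes hr Fact.out).2 hrp
  have h0 : (r : K) ≠ 0 := mt (CharP.cast_eq_zero_iff K p r).1
    ((Nat.Prime.coprime_iff_not_dvd Fact.out).1 hp.symm)
  obtain ⟨S, hS, h1⟩ := exists_finset_RF hr h0
  have hb0 : 0 < b := by have := hr.two_le; rcases b with _ | b <;> omega
  have hi0 : 0 < i := by split_ifs at hb <;> omega
  have hbo : orderOf ((Nat.card K : ℕ) : ZMod r) = b := by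
    rw [hσ.card, orderOf_sq_zmod (hi ▸ hi0), ← hi, hb]
  rw [hbo] at h1
  obtain rfl : S.card = s := Nat.eq_of_mul_eq_mul_right hb0 (by rw [hs, ← h1])
  haveI := Fact.mk hr
  have h2 : ∀ k (ν : Multiset K[X]), (∀ φ ∈ ν, RF r φ) →
      (.replicate k (X - C 1) + ν).filter (X - C 1 ≠ ·) = ν := fun k ν h => by
    rw [Multiset.filter_add, Multiset.filter_eq_nil.2 (by simp [Multiset.mem_replicate]), zero_add,
      Multiset.filter_eq_self.2 fun φ hφ => (h φ hφ).2.2.2.symm]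
  have h3 := fun (g : GU n K q) (hg : orderOf g = r) => hσ.exists_typ_rf g h0
    (by rw [← hg, pow_orderOf_eq_one])
  have h4 : ∀ (g : GU n K q) k ν, (∀ φ ∈ ν, RF r φ) →
      typ (toLin' g.1.1) = .replicate k (X - C 1) + ν → k + ν.card * b = n := fun g k ν h e => by
    simpa [e, sum_natDegree_RF hr h, hbo, -map_one, -Nat.card_eq_fintype_card] using sum_typ_toLin' g.1.1
  rw [card_classes' (τ := fun g => (typ (toLin' g.1.1)).filter (X - C 1 ≠ ·))
    (q := fun ν => ((∀ φ ∈ ν, φ ∈ S) ∧ ν.map (dual σ) = ν ∧ ν.card ≤ n / b) ∧ ν ≠ 0),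
    card_ne_eq (by simp)]
  · split_ifs with h
    · have : 2 * n / i = n / b := by
        rw [hb, if_neg (Nat.not_odd_iff_even.2 (Nat.even_iff.2 (by omega)))]
        conv_lhs => rw [show i = 2 * (i / 2) by omega, Nat.mul_div_mul_left _ _ two_pos]
      rw [this, ← card_multiset_le]
      refine congrArg (· - 1) (Nat.card_congr (Equiv.subtypeEquivRight fun ν =>
        and_congr_right fun h5 => and_iff_right ?_))
      rw [Multiset.map_congr rfl fun φ hφ => (hσ.rf_dual_eq_iff ((hS _).1 (h5 φ hφ)) hr hr2).2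
        (hi ▸ h), Multiset.map_id']
    · rw [card_inv_multiset fun φ hφ => ⟨(hS _).2 (hσ.rf_dual ((hS _).1 hφ) hr.ne_zero),
        hσ.dual_dual ((hS _).1 hφ).1 (((hS _).1 hφ).coeff_ne hr.ne_zero),
        mt (hσ.rf_dual_eq_iff ((hS _).1 hφ) hr hr2).1 (hi ▸ h)⟩,
        Nat.div_div_eq_div_mul, mul_comm b]
  · intro a c ha hc
    obtain ⟨k, ν, h5, -, h6⟩ := h3 a ha
    obtain ⟨l, μ, h7, -, h8⟩ := h3 c hc
    rw [hσ.gu_isConj_iff_typ]
    refine ⟨fun h => by rw [h], fun h => ?_⟩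
    rw [h6, h8, h2 _ _ h5, h2 _ _ h7] at h
    have := h4 a _ _ h5 h6
    have := h4 c _ _ h7 h8
    subst h
    rw [h6, h8, show k = l by omega]
  refine fun ν => ⟨fun ⟨⟨h5, h6, h7⟩, h8⟩ => ?_, fun ⟨g, hg, h⟩ => ?_⟩
  · have h5 := fun φ hφ => (hS _).1 (h5 φ hφ)
    have h9 := (Nat.le_div_iff_mul_le hb0).1 h7
    rw [← hbo, ← sum_natDegree_RF hr h5] at h9
    obtain ⟨g, hg⟩ := hσ.exists_gu_rf (n := n) hr.ne_zero h5 h6 (Nat.sub_add_cancel h9)
    refine ⟨g, ?_, by rw [hg.typ_eq (pp_RF h5 _), h2 _ _ h5]⟩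
    rw [← orderOf_toLin'_gu]
    refine orderOf_eq_prime (pow_eq_one_RF h5 hg) fun h => h8 (Multiset.eq_zero_of_forall_notMem fun φ hφ => ?_)
    have := hg.pow_eq_one_iff.1 ((pow_one _).trans h) φ (Multiset.mem_add.2 (.inr hφ))
    exact (h5 φ hφ).2.2.2 (eq_of_monic_of_associated (h5 φ hφ).1 (monic_X_sub_C 1)
      ((h5 φ hφ).2.1.associated_of_dvd (irreducible_X_sub_C 1) (by simpa using this)))
  · obtain ⟨k, μ, h5, h6, h7⟩ := h3 g hg
    rw [h7, h2 _ _ h5] at h
    subst h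
    refine ⟨⟨fun φ hφ => (hS _).2 (h5 φ hφ), h6, (Nat.le_div_iff_mul_le hb0).2
      (by have := h4 g _ _ h5 h7; omega)⟩, fun h => ?_⟩
    have := pow_eq_one_RF (r := 1) (by simp [h]) (h7 ▸ blocks_typ (toLin' g.1.1))
    rw [← orderOf_dvd_iff_pow_eq_one, orderOf_toLin'_gu, hg] at this
    exact hr.not_dvd_one this

end Cfsg.Agent.S2671
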