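import Cfsg.Statements.S2672
import Cfsg.Agent.Lib.Unitary.Wall5
import Cfsg.Agent.S2670

set_option autoImplicit false
open Cfsg

namespace Cfsg.Agent.S2672

open Cfsg.Lib.GLC Cfsg.Lib.Unitary Polynomial Module Matrix Cfsg.Agent.S2670

theorem pgu_isConj_iff {F : Type*} [Field F] {q n : ℕ} {σ : F →+* F} (hσ : IsBar q σ) (hn : 2 ≤ n)
    {a b : GU n F q} : IsConj (a : GU n F q ⧸ Subgroup.center (GU n F q)) b ↔
      ∃ c : F, c * σ c = 1 ∧ Sim (c • toLin' a.1.1) (toLin' b.1.1) := by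
  rw [isConj_quot_center_iff]
  have : ∀ c : normOne σ, toLin' (a * hσ.scalGU n c).1.1 = (c.1 : F) • toLin' a.1.1 := fun c => by
    rw [Subgroup.mem_center_iff.1 (hσ.scalGU_mem_center c), hσ.scalGU_mul_coe, map_smul]
  constructor
  · rintro ⟨z, hz, h⟩
    rw [hσ.center_GU_eq hn] at hz
    obtain ⟨c, rfl⟩ := hz
    exact ⟨c.1, c.2, this c ▸ hσ.gu_isConj_iff_sim.1 h⟩
  · rintro ⟨c, hc, h⟩
    exact ⟨_, hσ.scalGU_mem_center ⟨.mk0 c (left_ne_zero_of_mul_eq_one hc), hc⟩,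
      hσ.gu_isConj_iff_sim.2 (this _ ▸ h)⟩

/-- Number of conjugacy classes of elements of odd prime order r in PGU_n(q) = GU_n(q)/scalars (n ≥ 3) when r divides q + 1: as in the linear case with q − 1 replaced by q + 1, the classes correspond to the rotation orbits on r-tuples of eigenvalue multiplicities summing to n with every entry < n, plus r − 1 further classes when r divides n; in all (C(n+r−1, r−1) − r − [r ∣ n])/r + r·[r ∣ n]. -/
theorem result {K : Type*} [Field K] [Fintype K] {q n r : ℕ} (hK : Fintype.card K = q ^ 2) (hn : 3 ≤ n) (hr : r.Prime) (hr2 : r ≠ 2) (hrq : r ∣ q + 1) : Nat.card {C : ConjClasses (↥(Cfsg.GU n K q) ⧸ Subgroup.center ↥(Cfsg.GU n K q)) // ∃ g : ↥(Cfsg.GU n K q) ⧸ Subgroup.center ↥(Cfsg.GU n K q), ConjClasses.mk g = C ∧ orderOf g = r} = (Nat.choose (n + r - 1) (r - 1) - r - (if r ∣ n then 1 else 0)) / r + r * (if r ∣ n then 1 else 0) := by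
  classical
  obtain ⟨σ, hσ⟩ := exists_isBar hK
  haveI := Fact.mk hr
  haveI : Nonempty (Fin n) := ⟨⟨0, by omega⟩⟩
  have hn2 : 2 ≤ n := by omega
  have hrq' : r ∣ Nat.card K - 1 := hσ.card_sub_one ▸ hrq.mul_left _
  set Z := Subgroup.center (GU n K q)
  have h0 : ∀ a : GU n K q, orderOf (a : GU n K q ⧸ Z) = r ↔
      (∃ c : K, toLin' a.1.1 ^ r = c • 1) ∧ ¬ ∃ c : K, toLin' a.1.1 = c • 1 := fun a => by
    rw [← hσ.orderOf_pgu_dvd_iff hn2, ← pow_one (toLin' a.1.1), ← hσ.orderOf_pgu_dvd_iff hn2,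
      Nat.dvd_prime hr, Nat.dvd_one]
    have := hr.one_lt
    omega
  have hN : ∀ {b c : K}, c * σ c = 1 → b ^ r = c → b * σ b = 1 := fun {b c} hc hb => by
    have hb0 : b ≠ 0 := by
      rintro rfl
      rw [zero_pow hr.ne_zero] at hb
      simp [← hb] at hc
    have h1 : (b * σ b) ^ r = 1 := by rw [mul_pow, ← map_pow, hb, hc]
    have h2 : (b * σ b) ^ (q - 1) = 1 := (hσ.fixed_iff (mul_ne_zero hb0 ((map_ne_zero σ).2 hb0))).1
      (by rw [map_mul, hσ.invol, mul_comm])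
    have h3 : r.Coprime (q - 1) := (Nat.Prime.coprime_iff_not_dvd hr).2 fun h => hr2
      ((Nat.prime_dvd_prime_iff_eq hr Nat.prime_two).1 (by
        have := Nat.dvd_sub hrq h
        rwa [show q + 1 - (q - 1) = 2 by have := hσ.two_le; omega] at this))
    rw [← pow_one (b * σ b), ← h3.gcd_eq_one]
    exact pow_gcd_eq_one.2 ⟨h1, h2⟩
  obtain ⟨ω, -, hω⟩ := exists_orderOf_eq (K := K) hrq'
  have hG : Nat.card (rootsOfUnity r K) = r := (hω ▸ IsPrimitiveRoot.orderOf ω).card_rootsOfUnity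
  have hU : ∀ b : rootsOfUnity r K, (b.1.1 : K) * σ b.1.1 = 1 := fun b =>
    hN (by simp) (congrArg Units.val b.2)
  choose φ hφ using fun M : NC (rootsOfUnity r K) n => hσ.exists_gu_blocks (n := n)
    (μ := lt (M.1.1.map fun a => a.1.1))
    (forall_lt.2 fun a ha => ⟨monic_X_sub_C a, by obtain ⟨b, -, rfl⟩ := Multiset.mem_map.1 ha; simp⟩)
    (by simp [lt_sum, M.1.2]) ((Multiset.map_congr rfl (forall_lt.2 fun a ha => by
      obtain ⟨b, -, rfl⟩ := Multiset.mem_map.1 ha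
      rw [dual_X_sub_C b.1.ne_zero, ← eq_inv_of_mul_eq_one_left (hU b)])).trans (Multiset.map_id' _))
  set R := (powMonoidHom r : normOne σ →* normOne σ).range
  have hR : ∀ c : normOne σ, c ∉ R ↔ ∀ b : K, b ^ r ≠ c.1 := fun c => by
    rw [MonoidHom.mem_range, ← not_exists]
    exact not_congr ⟨fun ⟨b, h⟩ => ⟨b.1, congrArg (fun z : normOne σ => (z.1 : K)) h⟩, fun ⟨b, h⟩ =>
      ⟨⟨.mk0 b (left_ne_zero_of_mul_eq_one (hN c.2 h)), hN c.2 h⟩, Subtype.ext (Units.ext h)⟩⟩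
  have hψ' := fun x : {x : normOne σ ⧸ R // x ≠ 1 ∧ r ∣ n} => (hR x.1.out).1 fun h =>
    x.2.1 (by rw [← x.1.out_eq', QuotientGroup.eq_one_iff]; exact h)
  choose ψ hψ using fun x : {x : normOne σ ⧸ R // x ≠ 1 ∧ r ∣ n} =>
      show ∃ a : GU n K q, toLin' a.1.1 ^ r = (x.1.out.1 : K) • 1 by
    obtain ⟨k, hk⟩ := x.2.2
    obtain ⟨a, ha⟩ := hσ.exists_gu_blocks (n := n) (μ := .replicate k (X ^ r - C (x.1.out.1 : K)))
      (fun P hP => Multiset.eq_of_mem_replicate hP ▸ ⟨monic_X_pow_sub_C _ hr.ne_zero, by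
        simp [coeff_X_pow, hr.ne_zero.symm]⟩) (by simp [hk, mul_comm]) (by
        rw [Multiset.map_replicate, dual_X_pow_sub_C x.1.out.1.ne_zero hr.ne_zero,
          ← eq_inv_of_mul_eq_one_left x.1.out.2])
    exact ⟨a, ha.pow_eq_smul_one_iff.2 fun P hP => Multiset.eq_of_mem_replicate hP ▸ dvd_rfl⟩
  have hφ' := fun M => (hφ M).lt_pow_eq_iff (k := r) (c := 1).2 fun a ha => by
    obtain ⟨b, -, rfl⟩ := Multiset.mem_map.1 ha
    exact congrArg Units.val b.2
  have hs : ∀ {f g : End K (Fin n → K)} {c a b : K}, Sim (c • f) g → f ^ r = a • 1 → g ^ r = b • 1 →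
      c ^ r * a = b :=
    fun h h1 h2 => smul_left_injective K (one_ne_zero (α := End K (Fin n → K)))
      (by simpa only [_root_.smul_pow, h1, smul_smul] using h.pow_eq_smul_one_iff.2 h2)
  rw [card_classes_quot _ (.ker (Sum.map (Quotient.mk (MulAction.orbitRel (rootsOfUnity r K) _)) id))
    (Sum.elim (fun M => (φ M : GU n K q ⧸ Z)) fun x => ψ x), Nat.card_congr
      (Setoid.quotientKerEquivOfSurjective _
      ((Quotient.mk_surjective).sumMap Function.surjective_id)), Nat.card_sum]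
  · have h1 := card_orbits hr hG (n := n) (by omega)
    have h2 : Nat.card {x : normOne σ ⧸ R // x ≠ 1 ∧ r ∣ n} = (r - 1) * if r ∣ n then 1 else 0 := by
      split_ifs with h
      · simp only [h, and_true, mul_one]
        rw [Nat.card_congr (Equiv.subtypeEquivRight (q := fun x => True ∧ x ≠ 1) (by simp)),
          Lib.Symp.card_ne_eq trivial, Nat.card_congr (Equiv.subtypeUnivEquiv fun _ => trivial),
          ← Subgroup.index, IsCyclic.index_powMonoidHom_range, hσ.card_normOne, Nat.gcd_eq_right hrq]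
      · simp [h]
    rw [h2]
    generalize Nat.card (Quotient _) = N at h1
    obtain ⟨r, rfl⟩ := Nat.exists_eq_add_one_of_ne_zero hr.ne_zero
    split_ifs at h1 ⊢
    · have h3 : 0 < N := Nat.pos_of_ne_zero (by
        rintro rfl
        have := Nat.choose_le_choose r (show r + 1 ≤ n + (r + 1) - 1 by omega)
        have := hr.two_le
        simp only [Nat.choose_succ_self_right, Nat.add_sub_cancel] at *
        omega)
      obtain ⟨N, rfl⟩ := Nat.exists_eq_add_one_of_ne_zero h3.ne'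
      rw [show (n + (r + 1) - 1).choose (r + 1 - 1) - (r + 1) - 1 = N * (r + 1) by
        simp only [Nat.add_sub_cancel, add_mul] at *; omega, Nat.mul_div_cancel _ r.succ_pos]
      omega
    · rw [show (n + (r + 1) - 1).choose (r + 1 - 1) - (r + 1) - 0 = N * (r + 1) by omega,
        Nat.mul_div_cancel _ r.succ_pos]
      simp
  · rintro (M | x)
    · refine (h0 _).2 ⟨⟨1, hφ' M⟩, fun ⟨c, hc⟩ => ?_⟩
      obtain ⟨a, ha⟩ := Multiset.card_pos_iff_exists_mem.1 (show 0 < M.1.1.card by rw [M.1.2]; omega)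
      have := (hφ M).lt_eq_smul_iff.1 hc
      exact M.2 a (Sym.eq_replicate_iff.2 fun b hb => Subtype.ext (Units.ext
        ((this _ (Multiset.mem_map_of_mem _ hb)).trans (this _ (Multiset.mem_map_of_mem _ ha)).symm)))
    · exact (h0 _).2 ⟨⟨_, hψ x⟩, fun ⟨c, hc⟩ => hψ' x c ((mul_one _).symm.trans
        (hs (f := 1) (.of_eq hc.symm) (by simp) (hψ x)))⟩
  · intro g hg
    obtain ⟨g, rfl⟩ := QuotientGroup.mk_surjective g
    obtain ⟨⟨c, h1⟩, h2⟩ := (h0 g).1 hg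
    have hc1 := hσ.norm_eq_one_of_pow (hσ.sd_gu g) h1
    have hc := left_ne_zero_of_mul_eq_one hc1
    by_cases h3 : ∃ b, b ^ r = c
    · obtain ⟨b, rfl⟩ := h3
      have hb1 := hN hc1 rfl
      have hb : b ≠ 0 := left_ne_zero_of_mul_eq_one hb1
      obtain ⟨M, hM⟩ := exists_lt_of_pow hrq' hb h1
      have h4 := hM.smul_lt b⁻¹
      obtain ⟨N, hN⟩ : ∃ N : Multiset (rootsOfUnity r K), N.map (fun a => a.1.1) = M.map (b⁻¹ * ·) :=
        ⟨(M.map (b⁻¹ * ·)).pmap (fun a h => rootsOfUnity.mkOfPowEq a h) fun a ha => by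
          obtain ⟨a, h5, rfl⟩ := Multiset.mem_map.1 ha
          rw [mul_pow, hM.lt_pow_eq_iff.1 h1 a h5, inv_pow, inv_mul_cancel₀ hc], by
          rw [Multiset.map_pmap]
          exact (Multiset.pmap_eq_map _ (fun a => a) _ _).trans (Multiset.map_id' _)⟩
      refine ⟨.inl ⟨⟨N, by simpa [hM.lt_card] using congrArg Multiset.card hN⟩,
        fun a ha => h2 ⟨b * a.1.1, ?_⟩⟩, (pgu_isConj_iff hσ hn2).2 ⟨_, by
          rw [map_inv₀, ← mul_inv, hb1, inv_one], h4.sim (by convert hφ _ using 2; exact hN.symm)⟩⟩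
      rw [← smul_smul, ← h4.lt_eq_smul_iff.2 fun d hd => ?_, smul_inv_smul₀ hb]
      obtain ⟨d, h5, rfl⟩ := Multiset.mem_map.1 (hN ▸ hd)
      rw [Sym.eq_replicate_iff.1 ha d h5]
    · obtain ⟨k, h4, -⟩ := typ_of_kummer hr (not_exists.1 h3) h1
      obtain ⟨c, rfl⟩ : ∃ c' : normOne σ, (c'.1 : K) = c := ⟨⟨.mk0 c hc, hc1⟩, rfl⟩
      set x : {x : normOne σ ⧸ R // x ≠ 1 ∧ r ∣ n} := ⟨c, mt (QuotientGroup.eq_one_iff c).1
        ((hR c).2 (not_exists.1 h3)), k, by simpa [mul_comm] using h4.symm⟩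
      obtain ⟨⟨_, b, rfl⟩, hb⟩ := QuotientGroup.mk_out_eq_mul R c
      refine ⟨.inr x, (pgu_isConj_iff hσ hn2).2 ⟨b.1, b.2, sim_iff_typ_eq.2 ?_⟩⟩
      obtain ⟨l, h5, h6, -⟩ := typ_of_kummer hr (hψ' x) (hψ x)
      obtain ⟨m, h7, h8, -⟩ := typ_of_kummer (f := (b.1 : K) • toLin' g.1.1) hr (hψ' x)
        (by rw [_root_.smul_pow, h1, smul_smul, show x.1.out = _ from hb, mul_comm]; rfl)
      exact h8.trans (Nat.eq_of_mul_eq_mul_right hr.pos (h5.trans h7.symm) ▸ h6.symm)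
  rintro (M | x) (N | y) <;> refine (pgu_isConj_iff hσ hn2).trans ?_
  · refine Iff.trans ⟨fun ⟨c, hc, h⟩ => ?_, fun ⟨a, h⟩ => ⟨a.1.1, hU a, (((hφ M).smul_lt _).sim ?_)⟩⟩
      (show (MulAction.orbitRel (rootsOfUnity r K) _) N M ↔ _ from
        Quotient.eq.symm.trans (eq_comm.trans Sum.inl_injective.eq_iff.symm))
    · refine ⟨rootsOfUnity.mkOfPowEq c ((mul_one _).symm.trans (hs h (hφ' M) (hφ' N))),
        Subtype.ext (Subtype.ext (Multiset.map_injective (f := fun a : rootsOfUnity r K => a.1.1)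
          (Units.val_injective.comp Subtype.val_injective) ?_))⟩
      rw [← lt_injective (((hφ M).smul_lt c).lt_typ.symm.trans (h.typ_eq.trans (hφ N).lt_typ)),
        Multiset.map_map]
      exact Multiset.map_map _ _ _
    · have := hφ N
      convert this using 2
      rw [← h, Multiset.map_map]
      exact (Multiset.map_map (fun a : rootsOfUnity r K => a.1.1) (a * ·) M.1.1).symm
  · exact iff_of_false (fun ⟨c, hc, h⟩ => hψ' y c ((mul_one _).symm.trans (hs h (hφ' M) (hψ y))))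
      nofun
  · refine iff_of_false (fun ⟨c, hc, h⟩ => hψ' x c⁻¹ ?_) nofun
    rw [inv_pow, inv_eq_of_mul_eq_one_right (hs h (hψ x) (hφ' N))]
  · refine Iff.trans ⟨fun ⟨c, hc, h⟩ => Subtype.ext ?_, fun h => ⟨1, by simp, .of_eq (by simp [h])⟩⟩
      (show x = y ↔ _ from Sum.inr_injective.eq_iff.symm)
    rw [← x.1.out_eq', ← y.1.out_eq', QuotientGroup.eq]
    exact ⟨⟨.mk0 c (left_ne_zero_of_mul_eq_one hc), hc⟩,
      Subtype.ext (Units.ext (by simp [← hs h (hψ x) (hψ y), mul_comm]))⟩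

end Cfsg.Agent.S2672
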