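import Cfsg.Statements.S2674
import Cfsg.Agent.Lib.Orth.Wall2

set_option autoImplicit false
open Cfsg

namespace Cfsg.Agent.S2674

/-- Number of conjugacy classes of elements of odd prime order r ≠ p in the orthogonal group O⁺_2m(q) of Σ x_j y_j (m ≥ 1): with i the multiplicative order of q mod r and t = (r − 1)/i — if i is odd, C(⌊m/i⌋ + t/2, t/2) − 1; if i is even, C(⌊2m/i⌋ + t, t) − 1 minus, when i divides 2m with odd quotient, the C(2m/i + t − 1, t − 1) tuples using the whole space (an odd number of elliptic i-blocks fills an elliptic, not a hyperbolic, space). -/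
theorem result {F : Type*} [Field F] [Fintype F] {p q : ℕ} [Fact p.Prime] [CharP F p] (hF : Fintype.card F = q) (m r i t : ℕ) (hm : 1 ≤ m) (hr : r.Prime) (hr2 : r ≠ 2) (hrp : r ≠ p) (hi : i = orderOf (q : ZMod r)) (ht : t * i = r - 1) : Nat.card {C : ConjClasses ↥(Cfsg.isometryGroup F (Cfsg.quadFormPlus m F)) // ∃ g : ↥(Cfsg.isometryGroup F (Cfsg.quadFormPlus m F)), ConjClasses.mk g = C ∧ orderOf g = r} = if Odd i then Nat.choose (m / i + t / 2) (t / 2) - 1 else Nat.choose (2 * m / i + t) t - 1 - (if i ∣ 2 * m ∧ Odd (2 * m / i) then Nat.choose (2 * m / i + t - 1) (t - 1) else 0) := by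
  open Cfsg.Lib.Orth Cfsg.Lib.Symp in
  have h := OP.of hF hr hr2 hrp hi rfl
  have h0 := h.i_pos
  have h1 : ∀ k, k * i = 2 * m ↔ i ∣ 2 * m ∧ k = 2 * m / i := fun k =>
    ⟨fun e => by simp [← e, h0], fun e => by rw [e.2, Nat.div_mul_cancel e.1]⟩
  refine (card_iso_RF' (nd_qPlus m) h ht (N := 2 * m / i - if Even i ∧ i ∣ 2 * m ∧ Odd (2 * m / i) then 1 else 0)
    fun k _ => ?_).trans ?_
  · rw [qsg_even (by simp), osign_qPlus, Fintype.card_sum, Fintype.card_fin, ← two_mul,
      ← Nat.le_div_iff_mul_le h0, h1, eq_comm (a := (1 : ℤˣ)), neg_one_pow_eq_one_iff_even (by decide)]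
    grind
  · rcases i.even_or_odd with hi | hi
    · obtain ⟨t, rfl⟩ : ∃ s, t = s + 1 := ⟨t - 1, by have := hr.two_le; grind⟩
      simp only [hi, Nat.not_odd_iff_even.2 hi, true_and, if_false]
      split_ifs with h2
      · obtain ⟨n, hn⟩ := h2.2
        rw [hn, show 2 * n + 1 + (t + 1) = (2 * n + 1 + t) + 1 from rfl, Nat.choose_succ_succ']
        simp [add_assoc, add_comm 1 t]; omega
      · rfl
    · simp [hi, Nat.not_even_iff_odd.2 hi, Nat.div_div_eq_div_mul, mul_comm i, Nat.mul_div_mul_left]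

end Cfsg.Agent.S2674
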