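import Cfsg.Statements.S2675
import Cfsg.Agent.Lib.Orth.Wall2

set_option autoImplicit false
open Cfsg

namespace Cfsg.Agent.S2675

/-- Number of conjugacy classes of elements of odd prime order r ≠ p in the orthogonal group O⁻_2m(q) of an elliptic form Σ_(j<m−1) x_j y_j + z₁² + a z₁z₂ + c z₂² (binary part anisotropic, m ≥ 1): with i the multiplicative order of q mod r and t = (r − 1)/i — if i is odd, C(⌊m/i⌋ + t/2, t/2) − 1 minus, when i divides m, the C(m/i + t/2 − 1, t/2 − 1) tuples filling the whole space (dual pairs of totally singular blocks fill a hyperbolic space); if i is even, C(⌊2m/i⌋ + t, t) − 1 minus, when i divides 2m with even quotient, the C(2m/i + t − 1, t − 1) tuples filling the whole space with an even number of elliptic blocks. -/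
theorem result {F : Type*} [Field F] [Fintype F] {p q : ℕ} [Fact p.Prime] [CharP F p] (hF : Fintype.card F = q) (m r i t : ℕ) (hm : 1 ≤ m) (a c : F) (hac : ∀ z₁ z₂ : F, z₁ ^ 2 + a * z₁ * z₂ + c * z₂ ^ 2 = 0 → z₁ = 0 ∧ z₂ = 0) (hr : r.Prime) (hr2 : r ≠ 2) (hrp : r ≠ p) (hi : i = orderOf (q : ZMod r)) (ht : t * i = r - 1) : Nat.card {C : ConjClasses ↥(Cfsg.isometryGroup F (Cfsg.quadFormMinus (m - 1) F a c)) // ∃ g : ↥(Cfsg.isometryGroup F (Cfsg.quadFormMinus (m - 1) F a c)), ConjClasses.mk g = C ∧ orderOf g = r} = if Odd i then Nat.choose (m / i + t / 2) (t / 2) - 1 - (if i ∣ m then Nat.choose (m / i + t / 2 - 1) (t / 2 - 1) else 0) else Nat.choose (2 * m / i + t) t - 1 - (if i ∣ 2 * m ∧ Even (2 * m / i) then Nat.choose (2 * m / i + t - 1) (t - 1) else 0) := by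
  open Cfsg.Lib.Orth Cfsg.Lib.Symp in
  have h := OP.of hF hr hr2 hrp hi rfl
  have h0 := h.i_pos
  have h1 : ∀ k, k * i = 2 * m ↔ i ∣ 2 * m ∧ k = 2 * m / i := fun k =>
    ⟨fun e => by simp [← e, h0], fun e => by rw [e.2, Nat.div_mul_cancel e.1]⟩
  have h3 : i ∣ 2 * m → 0 < 2 * m / i := fun h => Nat.div_pos (Nat.le_of_dvd (by omega) h) h0
  have h4 : ∀ n t, 0 < n → 0 < t → (n - 1 + t).choose t - 1 = (n + t).choose t - 1 - (n + t - 1).choose (t - 1) := by
    rintro (_ | n) (_ | t) h h' <;> try omega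
    rw [show n + 1 + (t + 1) = (n + 1 + t) + 1 from rfl, Nat.choose_succ_succ']
    simp [add_assoc, add_comm 1 t]; omega
  refine (card_iso_RF' (nd_qMinus (m - 1) hac) h ht
    (N := 2 * m / i - if i ∣ 2 * m ∧ (Odd i ∨ Even (2 * m / i)) then 1 else 0) fun k _ => ?_).trans ?_
  · rw [qsg_even (by simp [parity_simps]), osign_qMinus _ hac, show Fintype.card _ = 2 * m by simp; omega,
      ← Nat.le_div_iff_mul_le h0, h1, eq_comm (a := (-1 : ℤˣ)), neg_one_pow_eq_neg_one_iff_odd (by decide)]
    grind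
  · have h5 : 0 < t := by have := hr.two_le; grind
    rcases i.even_or_odd with hi | hi
    · simp only [Nat.not_odd_iff_even.2 hi, false_or, if_false]
      split_ifs with h2
      · exact h4 _ _ (h3 h2.1) h5
      · rfl
    · have h6 : i ∣ 2 * m ↔ i ∣ m := (Nat.coprime_two_right.2 hi).dvd_mul_left
      obtain ⟨s, hs⟩ : Even t := by
        have := (h.odd.tsub_odd odd_one); rw [← ht] at this; grind
      simp only [hi, h6, true_or, and_true, if_true]
      split_ifs with h2
      · obtain ⟨n, rfl⟩ := h2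
        have := h3 (h6.2 (dvd_mul_right _ _))
        rw [mul_left_comm, Nat.mul_div_cancel_left _ h0] at this ⊢
        rw [Nat.mul_div_cancel_left _ h0, ← h4 _ _ (by omega) (by omega), show (2 * n - 1) / 2 = n - 1 by omega]
      · simp [Nat.div_div_eq_div_mul, mul_comm i, Nat.mul_div_mul_left]

end Cfsg.Agent.S2675
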