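import Cfsg.Statements.S2676
import Cfsg.Agent.Lib.Symp.Unip2

set_option autoImplicit false
open Classical
open Cfsg

namespace Cfsg.Agent.S2676

/-- Number of conjugacy classes of elements of order p in Sp_2m(q), q a power of the odd prime p: the classes correspond to the signed partitions of 2m — partitions with all parts at most p in which every odd part has even multiplicity, each even part size that occurs carrying a sign — other than the all-ones partition; so the count is the sum over such partitions of 2^(number of distinct even parts), minus one. -/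
theorem result {F : Type*} [Field F] [Fintype F] {p : ℕ} [Fact p.Prime] [CharP F p] (hp : p ≠ 2) (m : ℕ) : Nat.card {C : ConjClasses ↥(Matrix.symplecticGroup (Fin m) F) // ∃ g : Matrix.symplecticGroup (Fin m) F, ConjClasses.mk g = C ∧ orderOf g = p} = (∑ μ ∈ Finset.univ.filter (fun μ : Nat.Partition (2 * m) => (∀ a ∈ μ.parts, a ≤ p) ∧ ∀ j : ℕ, Odd j → Even (μ.parts.count j)), 2 ^ ((μ.parts.toFinset.filter (fun j : ℕ => Even j)).card)) - 1 := by
  open Cfsg.Lib.Symp Cfsg.Lib.GLC Polynomial Matrix Module in
  classical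
  have hp' : p.Prime := Fact.out
  have h2 : (2 : F) ≠ 0 := mt (CharP.cast_eq_zero_iff F p 2).1
    (mt (Nat.prime_dvd_prime_iff_eq hp' Nat.prime_two).1 hp)
  rw [card_sp_unipotent_classes h2 (n := 2 * m) (by simp) _ (fun d => (∀ a ∈ d, a ≤ p) ∧ ¬ ∀ a ∈ d, a ≤ 1)
    (fun g hg => (orderOf_eq_pow_iff p).1 ⟨1, by rw [orderOf_toLin'_sp, hg, pow_one]⟩) fun g d h => by
      have h := h ▸ blocks_typ (toLin' g.1)
      rw [← h.jt_pow_eq_zero_iff, ← h.jt_pow_eq_zero_iff, one_smul, pow_one, sub_eq_zero, ← pow_one p,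
        ← pow_char_pow_eq_one_iff, pow_one, ← orderOf_toLin'_sp, orderOf_eq_prime_iff],
    card_supp_sum fun μ => ((∀ a ∈ μ.parts, a ≤ p) ∧ ¬ ∀ a ∈ μ.parts, a ≤ 1) ∧ Par 1 μ.parts]
  let o : (2 * m).Partition := ⟨Multiset.replicate (2 * m) 1, fun h => by
    simp [Multiset.eq_of_mem_replicate h], by simp⟩
  have ho : ∀ μ : (2 * m).Partition, (∀ a ∈ μ.parts, a ≤ 1) ↔ μ = o := fun μ =>
    ⟨fun h => Nat.Partition.ext (by
      have := Multiset.eq_replicate_of_mem fun a ha => (h a ha).antisymm (μ.parts_pos ha)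
      have h2 := μ.parts_sum
      rw [this, Multiset.sum_replicate, smul_eq_mul, mul_one] at h2
      rw [this, h2]), fun h a ha => (Multiset.eq_of_mem_replicate (h ▸ ha :)).le⟩
  conv_rhs => rw [← Finset.add_sum_erase _ _ (a := o) (by
    simpa using ⟨fun a ha => ((ho o).2 rfl a ha).trans hp'.one_le, fun j _ => by
      simp only [o, Multiset.count_replicate]; split_ifs <;> simp⟩), Finset.filter_false_of_mem
        fun a ha => by simp [Multiset.eq_of_mem_replicate (Multiset.mem_toFinset.1 ha)]]
  simp only [Finset.card_empty, pow_zero, Nat.add_sub_cancel_left, Nat.odd_add_one, Nat.not_odd_iff_even]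
  congr 1
  ext μ
  simp [ho, Par, Nat.even_add_one, and_comm, and_assoc, and_left_comm]

end Cfsg.Agent.S2676
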