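import Cfsg.Statements.S2677
import Cfsg.Agent.Lib.Unitary.Lang

set_option autoImplicit false
open Cfsg

namespace Cfsg.Agent.S2677

open Cfsg.Lib.Unitary

/-- Centraliser of a field automorphism of odd prime order in PGU_n(q): let q = q₀^r with r an odd prime, K the field with q² elements and σ a field automorphism of K of order r (fixed field of order q₀²). The elements g of GU_n(q) whose entrywise image under σ is a scalar multiple of g — those whose coset modulo the q + 1 unitary scalars is fixed by σ — number (q + 1)/(q₀ + 1) · |GU_n(q₀)|; equivalently the centraliser in PGU_n(q) of the induced automorphism has the order of PGU_n(q₀). -/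
theorem result {K : Type*} [Field K] [Fintype K] {q₀ q r n : ℕ} (hr : r.Prime) (hr2 : r ≠ 2) (hn : 1 ≤ n) (hq : q = q₀ ^ r) (hK : Fintype.card K = q ^ 2) (σ : K ≃+* K) (hσ : orderOf σ = r) : (Nat.card {g : ↥(Cfsg.GU n K q) // ∃ c : K, c ≠ 0 ∧ ((g : GL (Fin n) K) : Matrix (Fin n) (Fin n) K).map σ = c • ((g : GL (Fin n) K) : Matrix (Fin n) (Fin n) K)} : ℤ) = ((q + 1) / (q₀ + 1) : ℕ) * ((q₀ : ℤ) ^ (n * (n - 1) / 2) * ∏ i : Fin n, ((q₀ : ℤ) ^ ((i : ℕ) + 1) - (-1) ^ ((i : ℕ) + 1))) := by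
  obtain ⟨s, hs⟩ := exists_isBar hK
  have hodd : Odd (orderOf σ) := hσ ▸ hr.odd_of_ne_two hr2
  have := Fintype.ofFinite (fixedField (σ : K →+* K))
  have hc : Fintype.card (fixedField (σ : K →+* K)) = q₀ ^ 2 := by
    rw [← Nat.card_eq_fintype_card]
    refine Nat.pow_left_injective hr.ne_zero ?_
    simp only
    rw [← hσ, ← card_eq_card_fixedField_pow, hs.card, hq, hσ, ← pow_mul, ← pow_mul, mul_comm]
  obtain ⟨ρ, hρ⟩ := exists_isBar hc
  obtain ⟨φ, h1, h2⟩ := exists_ringHom_of_odd hs hρ hodd (hσ ▸ hq)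
  have hN : (hs.scalGU n).range.Normal := ⟨by
    rintro _ ⟨a, rfl⟩ g
    rw [Subgroup.mem_center_iff.mp (hs.scalGU_mem_center a), mul_inv_cancel_right]
    exact ⟨a, rfl⟩⟩
  have e1 : Nat.card {g : ↥(Cfsg.GU n K q) // ∃ c : K, c ≠ 0 ∧
      ((g : GL (Fin n) K) : Matrix (Fin n) (Fin n) K).map σ =
        c • ((g : GL (Fin n) K) : Matrix (Fin n) (Fin n) K)} =
      Nat.card ↥((hs.scalGU n).range ⊔ (mapGU hs hρ h1 n).range) := by
    refine Nat.card_congr (Equiv.subtypeEquivRight fun g => ?_)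
    rw [mem_sup_range_mapGU_iff hs hρ h1 h2 hodd hn]
    refine exists_congr fun c => ⟨fun h => h.2, fun h => ⟨?_, h⟩⟩
    obtain ⟨z, rfl, -⟩ := hs.exists_scalGU hn (g := fieldGU σ g) (h := g) h
    exact z.1.ne_zero
  have e2 := Subgroup.card_mul_index ((hs.scalGU n).range.subgroupOf
    ((hs.scalGU n).range ⊔ (mapGU hs hρ h1 n).range))
  rw [Nat.card_congr (Subgroup.subgroupOfEquivOfLe le_sup_left).toEquiv,
    ← Nat.card_congr (MonoidHom.ofInjective (hs.scalGU_injective hn)).toEquiv, hs.card_normOne,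
    ← Subgroup.relIndex, Subgroup.relIndex_sup_left, ← Subgroup.index_comap,
    comap_mapGU_range_scalGU hs hρ h1 hn] at e2
  have e3 := Subgroup.card_mul_index (hρ.scalGU n).range
  rw [← Nat.card_congr (MonoidHom.ofInjective (hρ.scalGU_injective hn)).toEquiv, hρ.card_normOne,
    card_GU hc] at e3
  obtain ⟨k, hk⟩ := (range_mapNormOne hs hρ h1).1
  rw [e1, ← e2, ← guOrder_cast (by have := hρ.two_le; omega), ← e3, hk,
    Nat.mul_div_cancel_left _ (Nat.succ_pos _)]
  push_cast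
  ring

end Cfsg.Agent.S2677
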