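import Cfsg.Statements.S2678
import Cfsg.Agent.Lib.Symp.Cent

set_option autoImplicit false
open Cfsg

namespace Cfsg.Agent.S2678

/-- Field-extension embedding of symplectic groups: for a field K with q² elements and a field F with q elements there is an injective homomorphism Sp_2a(K) → Sp_4a(F). -/
theorem result {K F : Type*} [Field K] [Fintype K] [Field F] [Fintype F] {q : ℕ} (hK : Fintype.card K = q ^ 2) (hF : Fintype.card F = q) (a : ℕ) : ∃ φ : ↥(Matrix.symplecticGroup (Fin a) K) →* ↥(Matrix.symplecticGroup (Fin (2 * a)) F), Function.Injective φ := by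
  open Cfsg.Lib.Symp Cfsg.Lib.Unitary in
  obtain ⟨σ, h⟩ := exists_isBar hK
  rw [← Nat.card_eq_fintype_card] at hF
  obtain ⟨φ, -⟩ := h.exists_ringHom hF
  letI := φ.toAlgebra
  obtain ⟨τ, hτ⟩ := Module.Projective.exists_dual_ne_zero (R := F) (one_ne_zero (α := K))
  obtain ⟨B, h1, h2, h3⟩ := exists_trForm (F := F) (σ := RingHom.id K) (τ := τ) (fun _ => rfl) (bil (Fin a) K)
    (by rintro rfl; exact hτ rfl) (fun v => by rw [bil_isAlt, map_zero]) (bil_nondegenerate _ _).1
  refine exists_sp_hom h1 h2 ?_ ((resHom F K _).comp ((isom _).subtype.comp (spEquiv _ K).toMonoidHom))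
    (resHom_injective.comp (Subtype.val_injective.comp (spEquiv _ K).injective)) fun x u v => ?_
  · rw [Module.finrank_pi_fintype]; simp [Lib.Orth.finrank_eq_two_of_isBar h hF]; ring
  · rw [h3, h3]; exact congrArg τ (bil_mulVec x u v)

end Cfsg.Agent.S2678
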