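import Cfsg.Statements.S2679
import Cfsg.Agent.Lib.Orth.Herm

set_option autoImplicit false
open Cfsg

namespace Cfsg.Agent.S2679

open Cfsg.Lib.Orth QuadraticMap

/-- An elliptic orthogonal group embeds in the hyperbolic orthogonal group of the same dimension over the quadratic extension: for a field F with q elements and a field K with q² elements there is an injective homomorphism from O⁻_2m(F) (isometries of Σ_(j<m−1) x_j y_j + z₁² + a z₁z₂ + c z₂², binary part anisotropic) to O⁺_2m(K) (isometries of Σ_(j<m) x_j y_j over K). -/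
theorem result {F K : Type*} [Field F] [Fintype F] [Field K] [Fintype K] {q : ℕ} (hF : Fintype.card F = q) (hK : Fintype.card K = q ^ 2) {m : ℕ} (hm : 1 ≤ m) (a c : F) (hac : ∀ z₁ z₂ : F, z₁ ^ 2 + a * z₁ * z₂ + c * z₂ ^ 2 = 0 → z₁ = 0 ∧ z₂ = 0) : ∃ φ : ↥(Cfsg.isometryGroup F (Cfsg.quadFormMinus (m - 1) F a c)) →* ↥(Cfsg.isometryGroup K (Cfsg.quadFormPlus m K)), Function.Injective φ := by
  obtain ⟨σ, h⟩ := Lib.Unitary.exists_isBar hK
  rw [← Nat.card_eq_fintype_card] at hF
  obtain ⟨φ, -⟩ := h.exists_ringHom hF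
  letI := φ.toAlgebra
  have h1 := not_aniso_of_even (by rw [finrank_eq_two_of_isBar h hF]; exact even_two) a c
  have h2 := qMinus_comp φ (m - 1) a c
  have h3 : 4 * φ c - φ a ^ 2 ≠ 0 := by
    simpa [map_ofNat] using (map_ne_zero φ).2 (disc_ne_zero_of_anisotropic hac)
  obtain ⟨e⟩ := nonempty_O_equiv (equivalent_qPlus_of_osign (nd_qMinus' (m - 1) h3) (m := m)
    (by simp; omega) (osign_qMinus_of_not_aniso _ h3 h1))
  let e' := ((isoEquiv _).trans e).trans (isoEquiv (qPlus m K)).symm
  exact ⟨e'.toMonoidHom.comp (mapIso h2), e'.injective.comp (mapIso_injective h2)⟩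

end Cfsg.Agent.S2679
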