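import Cfsg.Statements.S2682
import Cfsg.Agent.Lib.Symp.Inv2

set_option autoImplicit false
open Cfsg

namespace Cfsg.Agent.S2682

/-- Centraliser order of an involution t of Sp_2m(q), q even, with s = rank(t − 1) even and f(v, tv) ≠ 0 for some v, f the symplectic form (type c_s): |C(t)| = q^(2ms − (3s² − 3s)/2 − 1) · |Sp_(s−2)(q)| · |Sp_(2m−2s)(q)|. -/
theorem result {F : Type*} [Field F] [Fintype F] [CharP F 2] {q : ℕ} (hF : Fintype.card F = q) {m s : ℕ} (t : Matrix.symplecticGroup (Fin m) F) (ht : t ^ 2 = 1) (hs : ((t : Matrix (Fin m ⊕ Fin m) (Fin m ⊕ Fin m) F) - 1).rank = s) (heven : Even s) (hna : ∃ v : Fin m ⊕ Fin m → F, Cfsg.sympForm m F v ((t : Matrix (Fin m ⊕ Fin m) (Fin m ⊕ Fin m) F).mulVec v) ≠ 0) : Nat.card ↥(Subgroup.centralizer ({t} : Set ↥(Matrix.symplecticGroup (Fin m) F))) = q ^ (2 * m * s - (3 * s ^ 2 - 3 * s) / 2 - 1) * ((q : ℕ) ^ (((s - 2) / 2) ^ 2) * ∏ i : Fin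 ((s - 2) / 2), (q ^ (2 * ((i : ℕ) + 1)) - 1)) * ((q : ℕ) ^ ((m - s) ^ 2) * ∏ i : Fin (m - s), (q ^ (2 * ((i : ℕ) + 1)) - 1)) := by
  open Cfsg.Lib.Symp Cfsg.Lib.Orth Matrix in
  obtain ⟨n, h, -, -, h1⟩ := (inv2_sp ht).card_cI (finrank_bil m) ((rank_sub_one _).symm.trans hs)
  simp only [sympForm_eq_bil] at hna
  obtain ⟨h2, h3, rfl⟩ := h1 heven (not_forall.2 hna)
  rw [card_centralizer_sp, h, cS, cS, Finset.prod_range, Finset.prod_range,
    Nat.card_eq_fintype_card, hF, ← mul_assoc (q ^ _), ← pow_add]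
  congr 3
  have := Nat.le_self_pow two_ne_zero s
  have h4 : s ^ 2 ≤ m * s := by rw [sq]; gcongr
  obtain ⟨k, hk⟩ := Nat.even_mul_succ_self s
  rw [mul_add, ← sq] at hk
  rw [mul_assoc]
  omega

end Cfsg.Agent.S2682
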