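import Cfsg.Statements.S2683
import Cfsg.Agent.Lib.Orth.Wall3

set_option autoImplicit false
open Cfsg

namespace Cfsg.Agent.S2683

/-- For the hyperbolic form Σ x_j y_j on F^(2m) over a finite field with q elements, q even (excluding m = 2 over the field of two elements), and an involution x of the orthogonal group with s = rank(x − 1) odd (type b_s; such x lie outside Ω): the elements of Ω (the commutator subgroup of the orthogonal group) commuting with x number q^(2m(s−1) − (3s² − 3s)/2) · |Sp_(s−1)(q)| · |Sp_(2m−2s)(q)|, where |Sp_2k(q)| = q^(k²) Π_(i=1)^k (q^(2i) − 1). -/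
theorem result {F : Type*} [Field F] [Fintype F] [CharP F 2] {q : ℕ} (hF : Fintype.card F = q) {m s : ℕ} (h : Fintype.card F ≠ 2 ∨ m ≠ 2) (x : ↥(Cfsg.isometryGroup F (Cfsg.quadFormPlus m F))) (hx : x ^ 2 = 1) (hs : (((x : Matrix.GeneralLinearGroup (Fin m ⊕ Fin m) F) : Matrix (Fin m ⊕ Fin m) (Fin m ⊕ Fin m) F) - 1).rank = s) (hodd : Odd s) : Nat.card {g : ↥(Cfsg.Omega F (Cfsg.quadFormPlus m F)) // (g : ↥(Cfsg.isometryGroup F (Cfsg.quadFormPlus m F))) * x = x * (g : ↥(Cfsg.isometryGroup F (Cfsg.quadFormPlus m F)))} = q ^ (2 * m * (s - 1) - (3 * s ^ 2 - 3 * s) / 2) * ((q : ℕ) ^ (((s - 1) / 2) ^ 2) * ∏ i : Fin ((s - 1) / 2), (q ^ (2 * ((i : ℕ) + 1)) - 1)) * ((q : ℕ) ^ ((m - s) ^ 2) * ∏ i : Fin (m - s), (q ^ (2 * ((i : ℕ) + 1)) - 1)) := by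
  open Cfsg.Lib.Orth Cfsg.Lib.Symp Matrix in
  have h2 : (2 : F) = 0 := CharTwo.two_eq_zero
  have hf := oE_iso (nd_qPlus m) x
  have h3 := (card_cI_eq_omega (nd_qPlus m) (not_exc_qPlus h) h2 hx).1
  have h4 := (rank_sub_one _).symm.trans hs
  obtain ⟨n, h5, h6, -, -⟩ := (hf.inv2 h2 h3).card_cI (finrank_bil m) h4
  have h7 := h4 ▸ hf.two_mul_le h2 h3
  rw [card_cI_of_not_ts (nd_qPlus m) (not_exc_qPlus h) h2 hx fun h => Nat.not_even_iff_odd.2 hodd
    (h4 ▸ hf.even_of_ts h2 h3 h), hs, h6 hodd, cS, cS, Finset.prod_range, Finset.prod_range,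
    Nat.card_eq_fintype_card, hF] at h5
  refine Nat.eq_of_mul_eq_mul_left (pow_pos (hF ▸ Fintype.card_pos) _) (h5.trans ?_)
  rw [← mul_assoc _ (_ * _) (_ * _), ← mul_assoc (q ^ (_ - s)), ← pow_add]
  congr 3
  obtain ⟨k, rfl⟩ := hodd
  obtain ⟨l, rfl⟩ : ∃ l, m = 2 * k + 1 + l := ⟨m - (2 * k + 1), by simp at h7; omega⟩
  simp; ring_nf; omega

end Cfsg.Agent.S2683
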