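import Cfsg.Statements.S2684
import Cfsg.Agent.Lib.Orth.Wall3

set_option autoImplicit false
open Cfsg

namespace Cfsg.Agent.S2684

/-- For the hyperbolic form Q = Σ x_j y_j on F^(2m) over a finite field with q elements, q even (excluding m = 2 over the field of two elements), and an involution x ≠ 1 of the orthogonal group with s = rank(x − 1) even and Q vanishing on the image of x − 1 (equivalently f(v, xv) = 0 for all v, where f(u, w) = Q(u + w) − Q(u) − Q(w) is the bilinear form of Q; type a_s, which lies in Ω): its centraliser in Ω (the commutator subgroup of the orthogonal group) has order q^(2ms − (3s² + s)/2) · |Sp_s(q)| · |Ω⁺_(2m−2s)(q)|, where |Ω⁺_2k(q)| = q^(k(k−1)) (q^k − 1) Π_(i=1)^(k−1) (q^(2i) − 1) for k ≥ 1 and the last factor is 1 when s = m. -/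
theorem result {F : Type*} [Field F] [Fintype F] [CharP F 2] {q : ℕ} (hF : Fintype.card F = q) {m s : ℕ} (h : Fintype.card F ≠ 2 ∨ m ≠ 2) (x : ↥(Cfsg.isometryGroup F (Cfsg.quadFormPlus m F))) (hx : x ^ 2 = 1) (hx1 : x ≠ 1) (hs : (((x : Matrix.GeneralLinearGroup (Fin m ⊕ Fin m) F) : Matrix (Fin m ⊕ Fin m) (Fin m ⊕ Fin m) F) - 1).rank = s) (heven : Even s) (halt : ∀ v : Fin m ⊕ Fin m → F, Cfsg.quadFormPlus m F ((((x : Matrix.GeneralLinearGroup (Fin m ⊕ Fin m) F) : Matrix (Fin m ⊕ Fin m) (Fin m ⊕ Fin m) F) - 1).mulVec v) = 0) : Nat.card {g : ↥(Cfsg.Omega F (Cfsg.quadFormPlus m F)) // (g : ↥(Cfsg.isometryGroup F (Cfsg.quadFormPlus m F))) * x = x * (g : ↥(Cfsg.isometryGroup F (Cfsg.quadFormPlus m F)))} = q ^ (2 * m * s - (3 * s ^ 2 + s) / 2) * ((q : ℕ) ^ ((s / 2) ^ 2) * ∏ i : Fin (s / 2), (q ^ (2 * ((i : ℕ) + 1)) - 1)) * (if s = m then 1 else q ^ ((m - s) * (m - s - 1)) * (q ^ (m - s) - 1) * ∏ i : Fin (m - s - 1), (q ^ (2 *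 ((i : ℕ) + 1)) - 1)) := by
  open Cfsg.Lib.Orth Cfsg.Lib.Symp Matrix in
  have h2 : (2 : F) = 0 := CharTwo.two_eq_zero
  have hf := oE_iso (nd_qPlus m) x
  obtain ⟨h3, h8⟩ := card_cI_eq_omega (nd_qPlus m) (not_exc_qPlus h) h2 hx
  have h4 := (rank_sub_one _).symm.trans hs
  have h0 : TS (qPlus m F) (LinearMap.range (toLin' x.1.1 - 1)) := by
    rintro _ ⟨v, rfl⟩; simpa [sub_mulVec, coe_qPlus] using halt v
  obtain ⟨n, h5, -, h6, -⟩ := (hf.inv2 h2 h3).card_cI (finrank_bil m) h4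
  have h7 := h4 ▸ hf.two_mul_le h2 h3
  simp only [Module.finrank_fintype_fun_eq_card, Fintype.card_sum, Fintype.card_fin] at h7
  have h9 := wp_one_mul (nd_qPlus (F := F) (m - s)) h2 (finrank_bil _)
  have h10 := Nat.pos_of_mul_pos_right (h9 ▸ cS_pos (F := F) (m - s))
  rw [h8, hf.wp_of_ts h2 h3 h0 (nd_qPlus (m - s)) (by simp [h4]; omega) (by simp [qsg_qPlus]), h4,
    h6 ((hf.ts_range_iff h2).1 h0), ← h9, mul_right_comm, mul_comm (wp _ _), ← mul_assoc (_ * cS _ _),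
    Nat.mul_left_inj h10.ne', cS, Finset.prod_range, Nat.card_eq_fintype_card, hF] at h5
  have h11 : 2 * m * s - (3 * s ^ 2 - s) / 2 = s + (2 * m * s - (3 * s ^ 2 + s) / 2) := by
    obtain ⟨k, rfl⟩ := heven
    obtain ⟨l, rfl⟩ : ∃ l, m = k + k + l := ⟨m - (k + k), by omega⟩
    have := Nat.le_self_pow two_ne_zero k
    ring_nf at this ⊢; omega
  rw [h11, pow_add, mul_assoc, mul_assoc, Nat.mul_right_inj (pow_pos (hF ▸ Fintype.card_pos) _).ne'] at h5
  simp only [Lag, h0, h4, true_and, finrank_bil, Nat.mul_right_inj two_ne_zero] at h5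
  split_ifs at h5 ⊢ with h12
  · subst h12
    rw [Nat.sub_self, card_O_of_subsingleton] at h5
    exact (one_mul _).symm.trans (h5.trans (by ring))
  · obtain ⟨k, hk⟩ : ∃ k, m - s = k + 1 := ⟨m - s - 1, by omega⟩
    rw [hk, card_O_plus (nd_qPlus _) (finrank_bil _) (wittIndex_qPlus _), Finset.prod_range,
      Nat.card_eq_fintype_card (α := F), hF] at h5
    refine Nat.eq_of_mul_eq_mul_left two_pos (h5.trans ?_)
    rw [hk, Nat.add_sub_cancel]; ring

end Cfsg.Agent.S2684
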