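import Cfsg.Statements.S2685
import Cfsg.Agent.Lib.Orth.Wall3

set_option autoImplicit false
open Cfsg

namespace Cfsg.Agent.S2685

/-- For the hyperbolic form Q = Σ x_j y_j on F^(2m) over a finite field with q elements, q even (excluding m = 2 over the field of two elements), and an involution x of the orthogonal group with s = rank(x − 1) even and Q not vanishing on the image of x − 1 (f(v, xv) ≠ 0 for some v, where f(u, w) = Q(u + w) − Q(u) − Q(w) is the bilinear form of Q; type c_s, which lies in Ω): its centraliser in Ω (the commutator subgroup of the orthogonal group) has order q^(2m(s−1) − (3s² − 5s)/2 − 1) · |Sp_(s−2)(q)| · |Sp_(2m−2s)(q)|. -/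
theorem result {F : Type*} [Field F] [Fintype F] [CharP F 2] {q : ℕ} (hF : Fintype.card F = q) {m s : ℕ} (h : Fintype.card F ≠ 2 ∨ m ≠ 2) (x : ↥(Cfsg.isometryGroup F (Cfsg.quadFormPlus m F))) (hx : x ^ 2 = 1) (hs : (((x : Matrix.GeneralLinearGroup (Fin m ⊕ Fin m) F) : Matrix (Fin m ⊕ Fin m) (Fin m ⊕ Fin m) F) - 1).rank = s) (heven : Even s) (hna : ∃ v : Fin m ⊕ Fin m → F, Cfsg.quadFormPlus m F ((((x : Matrix.GeneralLinearGroup (Fin m ⊕ Fin m) F) : Matrix (Fin m ⊕ Fin m) (Fin m ⊕ Fin m) F) - 1).mulVec v) ≠ 0) : Nat.card {g : ↥(Cfsg.Omega F (Cfsg.quadFormPlus m F)) // (g : ↥(Cfsg.isometryGroup F (Cfsg.quadFormPlus m F))) * x = x * (g : ↥(Cfsg.isometryGroup F (Cfsg.quadFormPlus m F)))} = q ^ (2 * m * (s - 1) - (3 * s ^ 2 - 5 * s) / 2 - 1) * ((q : ℕ) ^ (((s - 2) / 2) ^ 2) * ∏ i : Fin ((s - 2) / 2), (q ^ (2 * ((i : ℕ) + 1)) - 1)) * ((q : ℕ) ^ ((m - s) ^ 2) * ∏ i : Fin (m - s), (q ^ (2 * ((i : ℕ) + 1))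 - 1)) := by
  open Cfsg.Lib.Orth Cfsg.Lib.Symp Matrix in
  have h2 : (2 : F) = 0 := CharTwo.two_eq_zero
  have hf := oE_iso (nd_qPlus m) x
  have h3 := (card_cI_eq_omega (nd_qPlus m) (not_exc_qPlus h) h2 hx).1
  have h4 := (rank_sub_one _).symm.trans hs
  have h0 : ¬ TS (qPlus m F) (LinearMap.range (toLin' x.1.1 - 1)) := fun h => hna.elim fun v hv =>
    hv (h _ ⟨v, by simp [sub_mulVec]⟩)
  obtain ⟨n, h5, -, -, h6⟩ := (hf.inv2 h2 h3).card_cI (finrank_bil m) h4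
  obtain ⟨h6, h7, rfl⟩ := h6 heven (mt (hf.ts_range_iff h2).2 h0)
  rw [card_cI_of_not_ts (nd_qPlus m) (not_exc_qPlus h) h2 hx h0, hs, cS, cS, Finset.prod_range,
    Finset.prod_range, Nat.card_eq_fintype_card, hF, ← mul_assoc, ← mul_assoc, ← mul_assoc, ← pow_add] at h5
  refine Nat.eq_of_mul_eq_mul_left (pow_pos (hF ▸ Fintype.card_pos) _) (h5.trans ?_)
  simp only [← mul_assoc, ← pow_add]
  congr 4
  obtain ⟨k, rfl⟩ : ∃ k, s = 2 * (k + 1) := let ⟨k, hk⟩ := heven; ⟨k - 1, by omega⟩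
  obtain ⟨l, rfl⟩ := Nat.exists_eq_add_of_le h7
  rw [show 2 * (k + 1) - 1 = 2 * k + 1 by omega]
  simp; ring_nf; omega

end Cfsg.Agent.S2685
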