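import Cfsg.Statements.S2697
import Cfsg.Agent.Lib.Linear.GraphField

set_option autoImplicit false
open Cfsg

namespace Cfsg.Agent.S2697

/-- Let T = PSL_n(F) be simple over a finite field (n ≥ 2; |F| ≥ 4 when n = 2) and let x be a field automorphism or a graph-field automorphism of T of prime order r. Then an element y of the coset Inndiag(T)·x (that is, y = δ x with δ in the inner-diagonal group, the image of PGL_n(F)) has order r if and only if y is conjugate to x by an element of Inndiag(T). -/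
theorem result {F : Type*} [Field F] [Fintype F] {p f : ℕ} [Fact p.Prime] (hF : Fintype.card F = p ^ f) (hf : 1 ≤ f) {n : ℕ} (hn : 2 ≤ n) (hs : n = 2 → 4 ≤ Fintype.card F) (x δ : MulAut (Matrix.ProjectiveSpecialLinearGroup (Fin n) F)) (hx : Cfsg.IsFieldAutClassPSL x ∨ Cfsg.IsGraphFieldAutClassPSL x) {r : ℕ} (hr : r.Prime) (hxr : orderOf x = r) (hδ : δ ∈ Cfsg.inndiagPSL n F) :
    orderOf (δ * x) = r ↔ Cfsg.IsConjUnder (Cfsg.inndiagPSL n F) x (δ * x) := by
  have hne : Nonempty (Fin n) := ⟨⟨0, by omega⟩⟩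
  have hnt : Nontrivial (Fin n) := Fin.nontrivial_iff_two_le.2 hn
  have hN := Cfsg.Lib.Linear.normal_range_innDiag (F := F) hn
  rw [Cfsg.Lib.Linear.inndiagPSL_eq] at hδ ⊢
  rcases hx with hx | hx
  · obtain ⟨a, σ, -, ha⟩ := Cfsg.Lib.Linear.isFieldAutClassPSL_iff.1 hx
    have hx' : x = a⁻¹ * Cfsg.Lib.Linear.fieldAut σ * a⁻¹⁻¹ := by rw [← ha]; group
    have ho : orderOf σ = r := by
      rw [← hxr, ← orderOf_injective _ (Cfsg.Lib.Linear.fieldAut_injective (ι := Fin n)) σ, ← ha]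
      exact (MulAut.conj a).orderOf_eq x
    have hT := (Cfsg.Lib.Linear.isTwist_fieldAut (ι := Fin n) σ).conj a⁻¹
    rw [← hx', ho] at hT
    rw [← Cfsg.Lib.Linear.range_conj_comp _ a⁻¹] at hδ ⊢
    exact hT.orderOf_eq_iff hxr hδ
  · obtain ⟨h3, a, σ, hσ, ha⟩ := Cfsg.Lib.Linear.isGraphFieldAutClassPSL_iff.1 hx
    have hx' : x = a⁻¹ * (Cfsg.Lib.Linear.fieldAut σ * Cfsg.Lib.Linear.graphAut) * a⁻¹⁻¹ := by
      rw [← ha]; group
    obtain ⟨rfl, h2⟩ := Cfsg.Lib.Linear.sq_eq_one_of_orderOf_fieldGraph (ι := Fin n)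
      (by simpa using h3) (σ := σ) hr (by
        rw [← hxr, ← ha]
        exact (MulAut.conj a).orderOf_eq x)
    have hT := (Cfsg.Lib.Linear.isTwist_fieldGraph (ι := Fin n) hσ h2).conj a⁻¹
    rw [← hx'] at hT
    rw [← Cfsg.Lib.Linear.range_conj_comp _ a⁻¹] at hδ ⊢
    exact hT.orderOf_eq_iff hxr hδ

end Cfsg.Agent.S2697
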