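import Cfsg.Statements.S2698
import Cfsg.Agent.Lib.Linear.Descent

set_option autoImplicit false
open Cfsg

namespace Cfsg.Agent.S2698

/-- Let T = PSL_n(F) be simple over the field F with p^f elements (n ≥ 2; p^f ≥ 4 when n = 2), G = Inndiag(T) the image of PGL_n(F) in Aut(T), and x a field automorphism of T of prime order r. Then r divides f; the centralizer C_G(x) is isomorphic to PGL_n(F₀) for the subfield size |F₀| = p^(f/r); and the G-class of x is the union of exactly gcd(n, (p^f − 1)/(p^(f/r) − 1)) classes under conjugation by T (the inner automorphism group). -/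
theorem result {F : Type*} [Field F] [Fintype F] {p f : ℕ} [Fact p.Prime] (hF : Fintype.card F = p ^ f) (hf : 1 ≤ f) {n : ℕ} (hn : 2 ≤ n) (hs : n = 2 → 4 ≤ Fintype.card F) (x : MulAut (Matrix.ProjectiveSpecialLinearGroup (Fin n) F)) (hx : Cfsg.IsFieldAutClassPSL x) {r : ℕ} (hr : r.Prime) (hxr : orderOf x = r) (F₀ : Type*) [Field F₀] [Fintype F₀] (hF₀ : Fintype.card F₀ = p ^ (f / r)) :
    r ∣ f ∧ Nonempty (↥(Cfsg.inndiagPSL n F ⊓ Subgroup.centralizer {x}) ≃* Matrix.ProjGenLinGroup (Fin n) F₀) ∧ Cfsg.splitClassCount (Cfsg.inndiagPSL n F) (Cfsg.Inn (Matrix.ProjectiveSpecialLinearGroup (Fin n) F)) x = Nat.gcd n ((p ^ f - 1) / (p ^ (f / r) - 1)) := by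
  obtain ⟨a, σ, -, ha⟩ := Cfsg.Lib.Linear.isFieldAutClassPSL_iff.1 hx
  have hne : Nonempty (Fin n) := ⟨⟨0, by omega⟩⟩
  have hnt : Nontrivial (Fin n) := Fin.nontrivial_iff_two_le.2 hn
  have hN := Cfsg.Lib.Linear.normal_range_innDiag (F := F) hn
  have hx' : x = a⁻¹ * Cfsg.Lib.Linear.fieldAut σ * a⁻¹⁻¹ := by rw [← ha]; group
  have ho : orderOf σ = r := by
    rw [← hxr, ← orderOf_injective _ (Cfsg.Lib.Linear.fieldAut_injective (ι := Fin n)) σ, ← ha]
    exact (MulAut.conj a).orderOf_eq x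
  have hT := (Cfsg.Lib.Linear.isTwist_fieldAut (ι := Fin n) σ).conj a⁻¹
  rw [← hx'] at hT
  rw [Cfsg.Lib.Linear.inndiagPSL_eq, ← Cfsg.Lib.Linear.range_conj_comp _ a⁻¹]
  subst ho
  refine ⟨Cfsg.Lib.Linear.orderOf_ringAut_dvd hF σ, ?_, ?_⟩
  · obtain ⟨φ, hφ⟩ := Cfsg.Lib.Linear.exists_ringHom_range_fixField (σ := σ) (K := F₀)
      (by rw [Cfsg.Lib.Linear.card_fixField hF, Nat.card_eq_fintype_card, hF₀])
    refine hT.nonempty_centralizer_equiv _ (Cfsg.Lib.Linear.range_map_GL hφ) _ fun l => ?_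
    rw [← Matrix.GeneralLinearGroup.center_eq_range_scalar, Cfsg.Lib.Linear.map_GL_mem_center_iff]
  · rw [hT.splitClassCount_eq _ _ _ Cfsg.Lib.Linear.det_GL_surjective _ (fun g =>
      (Cfsg.Lib.Linear.conj_comp_mem_iff _ _ _ g).trans Cfsg.Lib.Linear.innDiag_mem_inn_iff_det),
      Cfsg.Lib.Linear.map_det_fixSub_fieldGL, Cfsg.Lib.Linear.index_pow_sup,
      Cfsg.Lib.Linear.index_fixSub_unitsAut hF, Fintype.card_fin]
    rw [Cfsg.Lib.Linear.range_conj_comp]
    exact Cfsg.Lib.Linear.inn_le_range_innDiag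

end Cfsg.Agent.S2698
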