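import Cfsg.Statements.S2700
import Cfsg.Agent.Lib.Linear.GraphInv

set_option autoImplicit false
open Cfsg

namespace Cfsg.Agent.S2700

open Cfsg.Lib Cfsg.Lib.Linear Cfsg.Lib.Orth Module

/-- Let T = PSL_n(F) over a finite field of odd order with n = 2m ≥ 4 even, and G = Inndiag(T) the image of PGL_n(F). The involutory graph automorphisms of T fall into exactly three G-classes, with representatives γ₁, γ₂, γ₃ whose centralizers in G are isomorphic respectively to the projective conformal symplectic group PGSp_n(F), the projective conformal orthogonal group of the plus-type form Σ xᵢ yᵢ, and that of a minus-type form Σ xᵢ yᵢ + z₁² + a z₁ z₂ + b z₂² (anisotropic binary part) in dimension n. -/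
theorem result {F : Type*} [Field F] [Fintype F] (hodd : Odd (Fintype.card F)) {n m : ℕ} (hm : 2 ≤ m) (hnm : n = 2 * m) :
    ∃ (γ₁ γ₂ γ₃ : MulAut (Matrix.ProjectiveSpecialLinearGroup (Fin n) F)) (a b : F), (∀ z₁ z₂ : F, z₁ ^ 2 + a * z₁ * z₂ + b * z₂ ^ 2 = 0 → z₁ = 0 ∧ z₂ = 0) ∧ Cfsg.IsGraphAutClassPSL γ₁ ∧ orderOf γ₁ = 2 ∧ Cfsg.IsGraphAutClassPSL γ₂ ∧ orderOf γ₂ = 2 ∧ Cfsg.IsGraphAutClassPSL γ₃ ∧ orderOf γ₃ = 2 ∧ ¬ Cfsg.IsConjUnder (Cfsg.inndiagPSL n F) γ₁ γ₂ ∧ ¬ Cfsg.IsConjUnder (Cfsg.inndiagPSL n F) γ₁ γ₃ ∧ ¬ Cfsg.IsConjUnder (Cfsg.inndiagPSL n F) γ₂ γ₃ ∧ (∀ γ : MulAut (Matrix.ProjectiveSpecialLinearGroup (Fin n) F), Cfsg.IsGraphAutClassPSL γ → orderOf γ = 2 → Cfsg.IsConjUnder (Cfsg.inndiagPSL n F) γ₁ γ ∨ Cfsg.IsConjUnder (Cfsg.inndiagPSL n F) γ₂ γ ∨ Cfsg.IsConjUnder (Cfsg.inndiagPSL n F) γ₃ γ) ∧ Nonempty (↥(Cfsg.inndiagPSL n F ⊓ Subgroup.centralizer {γ₁}) ≃* Cfsg.PGSp m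 F) ∧ Nonempty (↥(Cfsg.inndiagPSL n F ⊓ Subgroup.centralizer {γ₂}) ≃* Cfsg.PGO F (Cfsg.quadFormPlus m F)) ∧ Nonempty (↥(Cfsg.inndiagPSL n F ⊓ Subgroup.centralizer {γ₃}) ≃* Cfsg.PGO F (Cfsg.quadFormMinus (m - 1) F a b)) := by
  have h2 := two_ne_zero_of_odd_card hodd
  obtain ⟨m, rfl⟩ := Nat.exists_eq_add_of_le' (one_le_two.trans hm)
  haveI : NeZero n := ⟨by omega⟩
  have hV : finrank F (Fin n → F) = 2 * (m + 1) := by simpa using hnm
  have h3 : 3 ≤ n := by omega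
  have ho := fun M => orderOf_grAut (ι := Fin n) (M := M) (F := F) (by simpa using h3)
  have hg := fun M => (isGraphAutClassPSL_iff' (F := F)).2 ⟨h3, M, rfl⟩
  obtain ⟨b, hb⟩ := exists_aniso_one F
  obtain ⟨M₁, e₁, h₁⟩ := exists_frm (ι := Fin n) (Symp.bil_nondegenerate (Fin (m + 1)) F)
    (by simp; omega)
  have a₁ : (frm M₁).IsAlt := fun v => (h₁ v v).symm.trans (Symp.bil_isAlt _ F _)
  obtain ⟨M₂, e₂, s₂, h₂⟩ := exists_frm_quad (ι := Fin n) h2 (nd_qPlus (m + 1)) (by simp; omega)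
  obtain ⟨M₃, e₃, s₃, h₃⟩ := exists_frm_quad (ι := Fin n) h2 (nd_qMinus m hb) (by simp; omega)
  have hd : ∀ {W : Type _} [AddCommGroup W] [Module F W] [FiniteDimensional F W]
      {Q : QuadraticForm F W} {M : GL (Fin n) F} (e : (Fin n → F) ≃ₗ[F] W) {c : F}, (frm M).IsSymm →
      c ≠ 0 → (∀ v, Q (e v) = c * frm M v v) → disc Q = disc (frm M).toQuadraticMap :=
    fun e c hM hc he => by
      rw [disc_sim (nd_frm_quad h2 hM) e hc he, hV, pow_mul, Int.units_sq, one_pow, one_mul]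
  have d₂ := hd e₂ s₂ (inv_ne_zero h2) h₂
  have d₃ := hd e₃ s₃ (inv_ne_zero h2) h₃
  rw [disc_qPlus] at d₂
  rw [disc_qMinus h2 m hb, d₂] at d₃
  have hn : ∀ M, (frm M).IsSymm → ¬ IsConjUnder (innDiag : GL (Fin n) F →* _).range (grAut M₁)
      (grAut M) := fun M hM h => by
    obtain ⟨e, c, -, he⟩ := isConjUnder_grAut_iff.1 h
    exact not_isAlt_of_isSymm h2 hM (e.surjective.forall.2 fun v => by rw [he, a₁, mul_zero])
  rw [inndiagPSL_eq]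
  refine ⟨_, _, _, 1, b, hb, hg M₁, (ho _).2 (.inr a₁), hg M₂, (ho _).2 (.inl s₂), hg M₃,
    (ho _).2 (.inl s₃), hn _ s₂, hn _ s₃, fun h => ?_, fun γ hγ hγ2 => ?_,
    nonempty_cent_equiv_PGSp a₁ (by simpa using hnm),
    nonempty_cent_equiv_PGO h2 s₂ e₂ (inv_ne_zero h2) h₂,
    nonempty_cent_equiv_PGO h2 s₃ e₃ (inv_ne_zero h2) h₃⟩
  · obtain ⟨e, c, hc, he⟩ := isConjUnder_grAut_iff.1 h
    rw [hd (Q := (frm M₃).toQuadraticMap) e s₂ hc fun v => he v v] at d₃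
    exact (by decide : ∀ x : ℤˣ, -x ≠ x) _ d₃
  obtain ⟨-, M, rfl⟩ := isGraphAutClassPSL_iff'.1 hγ
  rcases (ho M).1 hγ2 with hM | hM
  · have key : ∀ N, (frm N).IsSymm → disc (frm N).toQuadraticMap = disc (frm M).toQuadraticMap →
        IsConjUnder (innDiag : GL (Fin n) F →* _).range (grAut N) (grAut M) := fun N hN h => by
      obtain ⟨e⟩ := equivalent_of_disc_eq (nd_frm_quad h2 hN) (nd_frm_quad h2 hM) h2 rfl h
      exact isConjUnder_grAut_of_sim h2 hN hM e.toLinearEquiv one_ne_zero fun v =>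
        (e.map_app v).trans (one_mul _).symm
    exact .inr ((eq_or_ne _ _).imp (key _ s₂) fun h => key _ s₃ (by
      rw [← d₃, Int.units_ne_iff_eq_neg.1 h, neg_neg]))
  · obtain ⟨e, he⟩ := Symp.exists_isometry_of_finrank_eq a₁ (nd_frm _) hM (nd_frm _) rfl
    exact .inl (isConjUnder_grAut_iff.2 ⟨e, 1, one_ne_zero, by simpa using he⟩)

end Cfsg.Agent.S2700
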