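import Cfsg.Statements.S2701
import Cfsg.Agent.Lib.Linear.GraphInv
import Cfsg.Agent.Lib.Orth.CharTwo

set_option autoImplicit false
open Cfsg

namespace Cfsg.Agent.S2701

open Cfsg.Lib Cfsg.Lib.Linear Cfsg.Lib.Orth Module

/-- Let T = PSL_n(F) over a finite field of characteristic 2 with n = 2m ≥ 4 even, and G = Inndiag(T) the image of PGL_n(F). The involutory graph automorphisms of T fall into exactly two G-classes, with representatives γ₁ and γ₃ whose centralizers in G are isomorphic respectively to the symplectic group Sp_n(F) and to the centralizer in Sp_n(F) of a symplectic transvection. -/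
theorem result {F : Type*} [Field F] [Fintype F] [CharP F 2] {n m : ℕ} (hm : 2 ≤ m) (hnm : n = 2 * m) :
    ∃ (γ₁ γ₃ : MulAut (Matrix.ProjectiveSpecialLinearGroup (Fin n) F)) (t : ↥(Matrix.symplecticGroup (Fin m) F)), Cfsg.IsTransvection (t : Matrix (Fin m ⊕ Fin m) (Fin m ⊕ Fin m) F) ∧ Cfsg.IsGraphAutClassPSL γ₁ ∧ orderOf γ₁ = 2 ∧ Cfsg.IsGraphAutClassPSL γ₃ ∧ orderOf γ₃ = 2 ∧ ¬ Cfsg.IsConjUnder (Cfsg.inndiagPSL n F) γ₁ γ₃ ∧ (∀ γ : MulAut (Matrix.ProjectiveSpecialLinearGroup (Fin n) F), Cfsg.IsGraphAutClassPSL γ → orderOf γ = 2 → Cfsg.IsConjUnder (Cfsg.inndiagPSL n F) γ₁ γ ∨ Cfsg.IsConjUnder (Cfsg.inndiagPSL n F) γ₃ γ) ∧ Nonempty (↥(Cfsg.inndiagPSL n F ⊓ Subgroup.centralizer {γ₁}) ≃* ↥(Matrix.symplecticGroup (Fin m) F)) ∧ Nonempty (↥(Cfsg.inndiagPSL n F ⊓ Subgroup.centralizer {γ₃}) ≃* ↥(Subgroup.centralizer ({t} : Set ↥(Matrix.symplecticGroup (Fin m) F)))) := by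
  have h2 : (2 : F) = 0 := CharTwo.two_eq_zero
  haveI : NeZero n := ⟨by omega⟩
  have hV : finrank F (Fin n → F) = 2 * m := by simpa using hnm
  have h3 : 3 ≤ n := by omega
  have ho := fun M => orderOf_grAut (ι := Fin n) (M := M) (F := F) (by simpa using h3)
  have hg := fun M => (isGraphAutClassPSL_iff' (F := F)).2 ⟨h3, M, rfl⟩
  obtain ⟨M, e, h⟩ := exists_frm (ι := Fin n) (Symp.bil_nondegenerate (Fin m) F) (by simp; omega)
  have a₁ : (frm M).IsAlt := fun v => (h v v).symm.trans (Symp.bil_isAlt _ F _)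
  have s₃ : (frm (1 : GL (Fin n) F)).IsSymm := ⟨fun u v => by
    simp [Matrix.toBilin'_apply', dotProduct_comm]⟩
  have a₃ : ¬ (frm (1 : GL (Fin n) F)).IsAlt := fun h => by
    simpa [Matrix.toBilin'_apply'] using h (Pi.single 0 1)
  obtain ⟨c, hc⟩ := Symp.exists_symC h2 s₃.eq (nd_frm _)
  obtain ⟨v, hv, ⟨e₃⟩⟩ := nonempty_isom_equiv_even hc (mt hc.eq_zero_iff.1 a₃) hV
  have key := fun M : GL (Fin n) F =>
    (nonempty_cent_equiv M).map2 MulEquiv.trans (nonempty_projQuot_equiv_isom h2 (nd_frm M))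
  rw [inndiagPSL_eq]
  refine ⟨_, _, _, isTransvection_tvSp hv, hg M, (ho _).2 (.inr a₁), hg 1, (ho _).2 (.inl s₃),
    fun h => ?_, fun γ hγ hγ2 => ?_, (key M).map2 .trans (Symp.nonempty_isom_equiv a₁ (nd_frm M)
      (by simpa using hnm)), (key 1).map (·.trans e₃)⟩
  · obtain ⟨e, c, -, he⟩ := isConjUnder_grAut_iff.1 h
    exact a₃ (e.surjective.forall.2 fun v => by rw [he, a₁, mul_zero])
  obtain ⟨-, N, rfl⟩ := isGraphAutClassPSL_iff'.1 hγ
  by_cases hN : (frm N).IsAlt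
  · obtain ⟨e, he⟩ := Symp.exists_isometry_of_finrank_eq a₁ (nd_frm _) hN (nd_frm _) rfl
    exact .inl (isConjUnder_grAut_iff.2 ⟨e, 1, one_ne_zero, by simpa using he⟩)
  · obtain ⟨d, hd⟩ := Symp.exists_symC h2 (((ho N).1 hγ2).resolve_right hN).eq (nd_frm _)
    obtain ⟨e, he⟩ := hc.exists_isometry hd rfl fun _ => by
      rw [hc.eq_zero_iff, hd.eq_zero_iff, iff_false_intro a₃, iff_false_intro hN]
    exact .inr (isConjUnder_grAut_iff.2 ⟨e, 1, one_ne_zero, by simpa using he⟩)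

end Cfsg.Agent.S2701
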