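import Cfsg.Statements.S2702
import Cfsg.Agent.Lib.Linear.GraphInv

set_option autoImplicit false
open Cfsg

namespace Cfsg.Agent.S2702

open Cfsg.Lib Cfsg.Lib.Linear Cfsg.Lib.Orth Module Subgroup

/-- Let T = PSL_n(F) over the field with q = p^f elements, n ≥ 3, G = Inndiag(T) the image of PGL_n(F), and γ an involutory graph automorphism of T. The G-class of γ is the union of exactly c T-classes, where: if n is even and q is odd, c = gcd(n/2, q − 1) when C_G(γ) is isomorphic to the projective conformal symplectic group PGSp_n(F) (symplectic type) and c = gcd(n, q − 1)/2 otherwise; and c = gcd(n, q − 1) when n is odd or q is even. -/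
theorem result {F : Type*} [Field F] [Fintype F] {p f : ℕ} [Fact p.Prime] (hF : Fintype.card F = p ^ f) (hf : 1 ≤ f) {n : ℕ} (hn : 3 ≤ n) (γ : MulAut (Matrix.ProjectiveSpecialLinearGroup (Fin n) F)) (hγ : Cfsg.IsGraphAutClassPSL γ) (hγ2 : orderOf γ = 2) :
    ((Even n ∧ Odd p ∧ Nonempty (↥(Cfsg.inndiagPSL n F ⊓ Subgroup.centralizer {γ}) ≃* Cfsg.PGSp (n / 2) F)) → Cfsg.splitClassCount (Cfsg.inndiagPSL n F) (Cfsg.Inn (Matrix.ProjectiveSpecialLinearGroup (Fin n) F)) γ = Nat.gcd (n / 2) (p ^ f - 1)) ∧ ((Even n ∧ Odd p ∧ ¬ Nonempty (↥(Cfsg.inndiagPSL n F ⊓ Subgroup.centralizer {γ}) ≃* Cfsg.PGSp (n / 2) F)) → Cfsg.splitClassCount (Cfsg.inndiagPSL n F) (Cfsg.Inn (Matrix.ProjectiveSpecialLinearGroup (Fin n) F)) γ = Nat.gcd n (p ^ f - 1) / 2) ∧ (¬ (Even n ∧ Odd p) → Cfsg.splitClassCount (Cfsg.inndiagPSL n F) (Cfsg.Inn (Matrix.ProjectiveSpecialLinearGroup (Fin n) F)) γ = Nat.gcd n (p ^ f - 1)) := by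
  obtain ⟨-, M, rfl⟩ := isGraphAutClassPSL_iff'.1 hγ
  haveI : NeZero n := ⟨by omega⟩
  have hM := (orderOf_grAut (by simpa using hn)).1 hγ2
  have hp : Odd p ↔ (2 : F) ≠ 0 := by
    rw [← odd_card_iff, hF, Nat.odd_pow_iff (by omega)]
  have hi : ∀ k, (powMonoidHom k : Fˣ →* Fˣ).range.index = k.gcd (p ^ f - 1) := fun k =>
    hF ▸ card_units_quot_pow k
  rw [inndiagPSL_eq, splitClassCount_grAut, Fintype.card_fin]
  refine ⟨fun ⟨⟨m, hm⟩, h1, ⟨e⟩⟩ => ?_, fun ⟨⟨m, hm⟩, h1, h⟩ => ?_, fun h => ?_⟩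
  · obtain rfl := hm.trans (two_mul m).symm
    haveI : NeZero m := ⟨by omega⟩
    rw [Nat.mul_div_cancel_left _ two_pos] at e ⊢
    rw [map_det_of_isAlt (hM.resolve_left fun hM => ?_) (Fintype.card_fin _), sup_eq_right.2, hi]
    · rintro _ ⟨x, rfl⟩
      exact ⟨x ^ 2, (pow_mul _ _ _).symm⟩
    obtain ⟨m, rfl⟩ := Nat.exists_eq_succ_of_ne_zero (NeZero.ne m)
    obtain ⟨e'⟩ := nonempty_cent_equiv_PGO (hp.1 h1) hM (Q := (frm M).toQuadraticMap) (.refl _ _)
      one_ne_zero fun v => (one_mul _).symm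
    exact (card_PGO_lt (hp.1 h1) (nd_frm_quad (hp.1 h1) hM) (Fintype.card_fin _)).ne
      (Nat.card_congr (e'.symm.trans e).toEquiv)
  · obtain rfl := hm.trans (two_mul m).symm
    rw [Nat.mul_div_cancel_left _ two_pos] at h
    rw [map_det_of_isSymm (hp.1 h1) (hM.resolve_right fun hM => h (nonempty_cent_equiv_PGSp hM
      (Fintype.card_fin _))) (Fintype.card_fin _), sup_eq_right.2, index_comap, ← hi,
      ← relIndex_mul_index (K := (powMonoidHom 2).range), hi, Nat.gcd_eq_left, Nat.mul_div_cancel _ two_pos]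
    · exact (Nat.Odd.sub_odd h1.pow odd_one).two_dvd
    · rintro _ ⟨x, rfl⟩
      exact ⟨x ^ m, (pow_mul' _ _ _).symm⟩
    · rintro _ ⟨x, rfl⟩
      exact ⟨x ^ 2, pow_right_comm _ _ _⟩
  · rw [sup_eq_left.2, hi]
    simpa using map_det_le (by rw [Fintype.card_fin, ← Nat.not_even_iff_odd]; tauto) M

end Cfsg.Agent.S2702
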