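import Cfsg.Statements.S2703
import Cfsg.Agent.Lib.Linear.GraphInv

set_option autoImplicit false
open Cfsg

namespace Cfsg.Agent.S2703

open Cfsg.Lib Cfsg.Lib.Linear Cfsg.Lib.Orth Module

/-- Let T = PSL_n(F) over the field with q elements, q odd, n = 2m ≥ 4 even, and ι the inverse-transpose automorphism. Its centralizer in G = Inndiag(T) (the image of PGL_n(F)) is isomorphic to the projective conformal orthogonal group of the plus-type form Σ xᵢ yᵢ in dimension n when n(q − 1)/4 is even, and to that of a minus-type form (Σ xᵢ yᵢ + z₁² + a z₁ z₂ + b z₂² with anisotropic binary part) when n(q − 1)/4 is odd. -/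
theorem result {F : Type*} [Field F] [Fintype F] (hodd : Odd (Fintype.card F)) {n m : ℕ} (hm : 2 ≤ m) (hnm : n = 2 * m) (ι : MulAut (Matrix.ProjectiveSpecialLinearGroup (Fin n) F)) (hι : Cfsg.IsInverseTransposeAutPSL ι) :
    (Even (n * (Fintype.card F - 1) / 4) → Nonempty (↥(Cfsg.inndiagPSL n F ⊓ Subgroup.centralizer {ι}) ≃* Cfsg.PGO F (Cfsg.quadFormPlus m F))) ∧ (¬ Even (n * (Fintype.card F - 1) / 4) → ∃ a b : F, (∀ z₁ z₂ : F, z₁ ^ 2 + a * z₁ * z₂ + b * z₂ ^ 2 = 0 → z₁ = 0 ∧ z₂ = 0) ∧ Nonempty (↥(Cfsg.inndiagPSL n F ⊓ Subgroup.centralizer {ι}) ≃* Cfsg.PGO F (Cfsg.quadFormMinus (m - 1) F a b))) := by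
  obtain rfl := isInverseTransposeAutPSL_iff.1 hι
  subst hnm
  have h2 := two_ne_zero_of_odd_card hodd
  have hM : (frm (1 : GL (Fin (2 * m)) F)).IsSymm := ⟨fun u v => by
    simp [Matrix.toBilin'_apply', dotProduct_comm]⟩
  have hQ := nd_frm_quad h2 hM
  have hd : disc (frm (1 : GL (Fin (2 * m)) F)).toQuadraticMap = 1 := by
    rw [show (frm (1 : GL (Fin (2 * m)) F)).toQuadraticMap = qDiag fun _ => 1 by
      ext v; simp [Matrix.toBilin'_apply', qDiag_apply, dotProduct, pow_two], disc_qDiag]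
    simp [pow_mul', pow_two, sqsign_eq_one_iff]
  have h4 := pow_mod_four_eq_one_or hodd m
  rw [inndiagPSL_eq, ← grAut_one, mul_assoc, show 4 = 2 * 2 from rfl, Nat.mul_div_mul_left _ _ two_pos,
    even_mul_div_two_iff hodd]
  rw [← neg_sqsign_neg_one_pow h2] at h4
  refine ⟨fun h => ?_, fun h => ?_⟩
  · obtain ⟨e⟩ := equivalent_of_disc_eq hQ (nd_qPlus m) h2 (by simp [two_mul]) (by
      rw [hd, disc_qPlus]
      refine ((Int.units_eq_one_or _).resolve_right fun e => ?_).symm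
      have := (neg_sqsign_neg_one_pow h2 m).1 (by rw [e]; rfl)
      omega)
    exact nonempty_cent_equiv_PGO h2 hM e.toLinearEquiv one_ne_zero fun v =>
      (e.map_app v).trans (one_mul _).symm
  · obtain ⟨b, hb⟩ := exists_aniso_one F
    obtain ⟨m, rfl⟩ := Nat.exists_eq_add_of_le' (one_le_two.trans hm)
    obtain ⟨e⟩ := equivalent_of_disc_eq hQ (nd_qMinus m hb) h2 (by simp; omega) (by
      rw [hd, disc_qMinus h2 m hb, h4.resolve_left h])
    exact ⟨1, b, hb, nonempty_cent_equiv_PGO h2 hM e.toLinearEquiv one_ne_zero fun v =>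
      (e.map_app v).trans (one_mul _).symm⟩

end Cfsg.Agent.S2703
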