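import Cfsg.Statements.S2704
import Cfsg.Agent.Lib.Linear.GraphField

set_option autoImplicit false
open Cfsg

namespace Cfsg.Agent.S2704

/-- Let T = PSL_n(F) over the field F with p^f elements, n ≥ 3, and G = Inndiag(T) the image of PGL_n(F). If x is an involutory graph-field automorphism of T then f is even; x is G-conjugate to every other involutory graph-field automorphism; C_G(x) is isomorphic to the projective general unitary group PGU_n(q₀) with q₀² = p^f, realised over F itself through the Hermitian form Σ uᵢ vᵢ^{q₀}; and the G-class of x is the union of exactly gcd(n, q₀ − 1) T-classes. -/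
theorem result {F : Type*} [Field F] [Fintype F] {p f : ℕ} [Fact p.Prime] (hF : Fintype.card F = p ^ f) (hf : 1 ≤ f) {n : ℕ} (hn : 3 ≤ n) (x : MulAut (Matrix.ProjectiveSpecialLinearGroup (Fin n) F)) (hx : Cfsg.IsGraphFieldAutClassPSL x) (hx2 : orderOf x = 2) :
    Even f ∧ (∀ y : MulAut (Matrix.ProjectiveSpecialLinearGroup (Fin n) F), Cfsg.IsGraphFieldAutClassPSL y → orderOf y = 2 → Cfsg.IsConjUnder (Cfsg.inndiagPSL n F) x y) ∧ Nonempty (↥(Cfsg.inndiagPSL n F ⊓ Subgroup.centralizer {x}) ≃* Cfsg.PGU n F (p ^ (f / 2))) ∧ Cfsg.splitClassCount (Cfsg.inndiagPSL n F) (Cfsg.Inn (Matrix.ProjectiveSpecialLinearGroup (Fin n) F)) x = Nat.gcd n (p ^ (f / 2) - 1) := by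
  have hne : Nonempty (Fin n) := ⟨⟨0, by omega⟩⟩
  have hnt : Nontrivial (Fin n) := Fin.nontrivial_iff_two_le.2 (by omega)
  have hN := Cfsg.Lib.Linear.normal_range_innDiag (F := F) (n := n) (by omega)
  have h3 : 3 ≤ Fintype.card (Fin n) := by simpa using hn
  have key : ∀ y : MulAut (Matrix.ProjectiveSpecialLinearGroup (Fin n) F),
      Cfsg.IsGraphFieldAutClassPSL y → orderOf y = 2 → ∃ a σ, σ ≠ 1 ∧ σ ^ 2 = 1 ∧
        y = a⁻¹ * (Cfsg.Lib.Linear.fieldAut σ * Cfsg.Lib.Linear.graphAut) * a⁻¹⁻¹ := by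
    intro y hy hy2
    obtain ⟨-, a, σ, hσ, ha⟩ := Cfsg.Lib.Linear.isGraphFieldAutClassPSL_iff.1 hy
    refine ⟨a, σ, hσ, ?_, by rw [← ha]; group⟩
    exact (Cfsg.Lib.Linear.sq_eq_one_of_orderOf_fieldGraph (ι := Fin n) h3 (σ := σ) Nat.prime_two
      (by rw [← hy2, ← ha]; exact (MulAut.conj a).orderOf_eq y)).2
  obtain ⟨a, σ, hσ, h2, hx'⟩ := key x hx hx2
  have hT := (Cfsg.Lib.Linear.isTwist_fieldGraph (ι := Fin n) hσ h2).conj a⁻¹
  rw [← hx'] at hT
  have hf2 : 2 ∣ f := Cfsg.Lib.Linear.orderOf_eq_two_of_invol hσ h2 ▸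
    Cfsg.Lib.Linear.orderOf_ringAut_dvd hF σ
  obtain ⟨q, hq⟩ := Cfsg.Lib.Unitary.exists_isBar_of_invol (Cfsg.Lib.Linear.ringAut_ne_id hσ)
    (Cfsg.Lib.Linear.ringAut_invol h2)
  have hq' : q = p ^ (f / 2) := by
    apply Nat.pow_left_injective two_ne_zero
    dsimp only
    rw [← hq.card, ← pow_mul, Nat.div_mul_cancel hf2, Nat.card_eq_fintype_card, hF]
  subst hq'
  rw [Cfsg.Lib.Linear.inndiagPSL_eq]
  refine ⟨even_iff_two_dvd.2 hf2, fun y hy hy2 => ?_, ?_, ?_⟩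
  · obtain ⟨b, τ, hτ, h2', hy'⟩ := key y hy hy2
    obtain rfl := Cfsg.Lib.Linear.invol_unique hσ h2 hτ h2'
    obtain ⟨t, ht, -⟩ := Cfsg.Lib.Linear.exists_autType (F := F) h3
    have hc : ∀ u v : (F ≃+* F) × Multiplicative (ZMod 2), u * v = v * u := fun u v =>
      Prod.ext (mul_comm' _ _) (mul_comm _ _)
    have h1 : y * x⁻¹ ∈ t.ker := by
      rw [MonoidHom.mem_ker, map_mul, map_inv, mul_inv_eq_one, hx', hy', map_mul, map_mul,
        map_mul _ (a⁻¹ * _), map_mul _ a⁻¹, hc (t a⁻¹), hc (t b⁻¹), mul_assoc, mul_assoc,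
        ← map_mul, ← map_mul t a⁻¹, mul_inv_cancel, mul_inv_cancel]
    rw [ht, ← Cfsg.Lib.Linear.range_conj_comp _ a⁻¹] at h1
    have := hT.isConjUnder_of_pow_eq_one h1 (by
      rw [inv_mul_cancel_right, ← hy2, pow_orderOf_eq_one])
    rwa [inv_mul_cancel_right, Cfsg.Lib.Linear.range_conj_comp] at this
  · rw [← Cfsg.Lib.Linear.range_conj_comp _ a⁻¹]
    refine hT.nonempty_centralizer_equiv (Cfsg.GU n F _).subtype ?_ _ fun l => Iff.rfl
    rw [Subgroup.range_subtype, Cfsg.Lib.Linear.fixSub_fieldGraphGL hq]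
  · rw [← Cfsg.Lib.Linear.range_conj_comp _ a⁻¹,
      hT.splitClassCount_eq _ _ _ Cfsg.Lib.Linear.det_GL_surjective _ (fun g =>
      (Cfsg.Lib.Linear.conj_comp_mem_iff _ _ _ g).trans Cfsg.Lib.Linear.innDiag_mem_inn_iff_det),
      Cfsg.Lib.Linear.map_det_fixSub_fieldGraphGL, Cfsg.Lib.Linear.index_pow_sup,
      Cfsg.Lib.Linear.index_normOne hq, Fintype.card_fin]
    rw [Cfsg.Lib.Linear.range_conj_comp]
    exact Cfsg.Lib.Linear.inn_le_range_innDiag

end Cfsg.Agent.S2704
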