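import Cfsg.Statements.S2705
import Cfsg.Agent.Lib.Unitary.Lang

set_option autoImplicit false
open Cfsg

namespace Cfsg.Agent.S2705

open Cfsg.Lib.Unitary

/-- Let T = PSU_n(q) be simple (n ≥ 3, (n, q) ≠ (3, 2), q = p^f), realised over the field F with q² elements, G = Inndiag(T) the image of PGU_n(q) in Aut(T), and x a field automorphism of T (conjugate to a standard field automorphism of odd order) of odd prime order r. Then r divides f; C_G(x) is isomorphic to PGU_n(q₀) with q₀ = p^(f/r), realised over a field F₀ with q₀² elements; and the G-class of x is the union of exactly gcd(n, (q + 1)/(q₀ + 1)) T-classes. -/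
theorem result {F : Type*} [Field F] [Fintype F] {p f q : ℕ} [Fact p.Prime] (hq : q = p ^ f) (hf : 1 ≤ f) (hF : Fintype.card F = q ^ 2) {n : ℕ} (hn : 3 ≤ n) (hs : ¬ (n = 3 ∧ q = 2)) (x : MulAut (Cfsg.PSU n F q)) (hx : Cfsg.IsFieldAutClassPSU x) {r : ℕ} (hr : r.Prime) (hro : Odd r) (hxr : orderOf x = r) (F₀ : Type*) [Field F₀] [Fintype F₀] (hF₀ : Fintype.card F₀ = p ^ (2 * (f / r))) :
    r ∣ f ∧ Nonempty (↥(Cfsg.inndiagPSU n F q ⊓ Subgroup.centralizer {x}) ≃* Cfsg.PGU n F₀ (p ^ (f / r))) ∧ Cfsg.splitClassCount (Cfsg.inndiagPSU n F q) (Cfsg.Inn (Cfsg.PSU n F q)) x = Nat.gcd n ((q + 1) / (p ^ (f / r) + 1)) := by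
  obtain ⟨σ, hσ⟩ := exists_isBar hF
  have := normal_range_diagAut hF hn hs
  obtain ⟨α, τ, -, hodd, e⟩ := isFieldAutClassPSU_iff.mp hx
  have hτ : orderOf τ = r := by
    rw [← orderOf_injective _ (hσ.fieldAut_injective hn) τ, ← e, ← hxr]
    exact MulEquiv.orderOf_eq (MulAut.conj α) x
  have hrf : r ∣ f := by
    have h1 := orderOf_dvd_natCard τ
    rw [Cfsg.Lib.Linear.card_ringAut (p := p) (f := 2 * f)
      (by rw [hF, hq, ← pow_mul, mul_comm]), hτ] at h1
    exact (Nat.Coprime.dvd_mul_left (Nat.coprime_two_right.mpr hro)).mp h1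
  obtain ⟨ρ, hρ⟩ := exists_isBar (F := F₀) (q := p ^ (f / r)) (by rw [hF₀, ← pow_mul, mul_comm])
  obtain ⟨φ, h1, h2⟩ := exists_ringHom_of_odd hσ hρ hodd
    (by rw [hτ, ← pow_mul, Nat.div_mul_cancel hrf, hq])
  rw [inndiagPSU_eq, ← splitClassCount_conj _ _ α, e]
  obtain ⟨e'⟩ := nonempty_centralizer_fieldAut_equiv hσ hρ h1 h2 hodd (n := n) (by omega)
  exact ⟨hrf, ⟨(infCentralizerConj _ α x).trans (e ▸ e')⟩,
    splitClassCount_fieldAut hσ hρ h1 h2 hodd (by omega)⟩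

end Cfsg.Agent.S2705
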