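import Cfsg.Statements.S2707
import Cfsg.Agent.Lib.Unitary.GraphU2

set_option autoImplicit false
open Cfsg

namespace Cfsg.Agent.S2707

open Cfsg.Lib Cfsg.Lib.Unitary Cfsg.Lib.Linear Cfsg.Lib.Orth Module

/-- Let T = PSU_n(q) with n = 2m ≥ 4 even and q odd, realised over the field F with q² elements, and G = Inndiag(T) the image of PGU_n(q). The involutory graph automorphisms of T fall into exactly three G-classes, with representatives whose centralizers in G are isomorphic respectively to the projective conformal symplectic group PGSp_n(F₀), the projective conformal orthogonal group of the plus-type form Σ xᵢ yᵢ, and that of a minus-type form Σ xᵢ yᵢ + z₁² + a z₁ z₂ + b z₂² (anisotropic binary part) in dimension n, all over a field F₀ with q elements. -/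
theorem result {F : Type*} [Field F] [Fintype F] {q : ℕ} (hodd : Odd q) (hF : Fintype.card F = q ^ 2) {n m : ℕ} (hm : 2 ≤ m) (hnm : n = 2 * m) (F₀ : Type*) [Field F₀] [Fintype F₀] (hF₀ : Fintype.card F₀ = q) :
    ∃ (γ₁ γ₂ γ₃ : MulAut (Cfsg.PSU n F q)) (a b : F₀), (∀ z₁ z₂ : F₀, z₁ ^ 2 + a * z₁ * z₂ + b * z₂ ^ 2 = 0 → z₁ = 0 ∧ z₂ = 0) ∧ Cfsg.IsGraphAutClassPSU γ₁ ∧ orderOf γ₁ = 2 ∧ Cfsg.IsGraphAutClassPSU γ₂ ∧ orderOf γ₂ = 2 ∧ Cfsg.IsGraphAutClassPSU γ₃ ∧ orderOf γ₃ = 2 ∧ ¬ Cfsg.IsConjUnder (Cfsg.inndiagPSU n F q) γ₁ γ₂ ∧ ¬ Cfsg.IsConjUnder (Cfsg.inndiagPSU n F q) γ₁ γ₃ ∧ ¬ Cfsg.IsConjUnder (Cfsg.inndiagPSU n F q) γ₂ γ₃ ∧ (∀ γ : MulAut (Cfsg.PSU n F q), Cfsg.IsGraphAutClassPSU γ → orderOf γ = 2 → Cfsg.IsConjUnder (Cfsg.inndiagPSU n F q) γ₁ γ ∨ Cfsg.IsConjUnder (Cfsg.inndiagPSU n F q) γ₂ γ ∨ Cfsg.IsConjUnder (Cfsg.inndiagPSU n F q) γ₃ γ)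 ∧ Nonempty (↥(Cfsg.inndiagPSU n F q ⊓ Subgroup.centralizer {γ₁}) ≃* Cfsg.PGSp m F₀) ∧ Nonempty (↥(Cfsg.inndiagPSU n F q ⊓ Subgroup.centralizer {γ₂}) ≃* Cfsg.PGO F₀ (Cfsg.quadFormPlus m F₀)) ∧ Nonempty (↥(Cfsg.inndiagPSU n F q ⊓ Subgroup.centralizer {γ₃}) ≃* Cfsg.PGO F₀ (Cfsg.quadFormMinus (m - 1) F₀ a b)) := by
  obtain ⟨σ, hσ⟩ := exists_isBar hF
  obtain ⟨τ, hτ⟩ := exists_bar_equiv hσ
  obtain ⟨φ, hφ⟩ := hσ.exists_ringHom (K := F₀) (by rw [Nat.card_eq_fintype_card, hF₀])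
  have h2 := two_ne_zero_of_odd_card (F := F₀) (hF₀ ▸ hodd)
  obtain ⟨m, rfl⟩ := Nat.exists_eq_add_of_le' (one_le_two.trans hm)
  haveI : NeZero n := ⟨by omega⟩
  have hV : finrank F₀ (Fin n → F₀) = 2 * (m + 1) := by simpa using hnm
  have h3 : 3 ≤ n := by omega
  have hn2 : 2 ≤ n := by omega
  obtain ⟨b, hb⟩ := exists_aniso_one F₀
  obtain ⟨M₁, e₁, h₁⟩ := exists_frm (ι := Fin n) (Symp.bil_nondegenerate (Fin (m + 1)) F₀)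
    (by simp; omega)
  have a₁ : (frm M₁).IsAlt := fun v => (h₁ v v).symm.trans (Symp.bil_isAlt _ F₀ _)
  obtain ⟨M₂, e₂, s₂, h₂⟩ := exists_frm_quad (ι := Fin n) h2 (nd_qPlus (m + 1)) (by simp; omega)
  obtain ⟨M₃, e₃, s₃, h₃⟩ := exists_frm_quad (ι := Fin n) h2 (nd_qMinus m hb) (by simp; omega)
  obtain ⟨γ₁, P₁, δ₁, g₁⟩ := exists_isGr hσ hτ hφ (.inr a₁)
  obtain ⟨γ₂, P₂, δ₂, g₂⟩ := exists_isGr hσ hτ hφ (.inl s₂)
  obtain ⟨γ₃, P₃, δ₃, g₃⟩ := exists_isGr hσ hτ hφ (.inl s₃)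
  have hd : ∀ {W : Type _} [AddCommGroup W] [Module F₀ W] [FiniteDimensional F₀ W]
      {Q : QuadraticForm F₀ W} {M : GL (Fin n) F₀} (e : (Fin n → F₀) ≃ₗ[F₀] W) {c : F₀},
      (frm M).IsSymm → c ≠ 0 → (∀ v, Q (e v) = c * frm M v v) →
      disc Q = disc (frm M).toQuadraticMap :=
    fun e c hM hc he => by
      rw [disc_sim (nd_frm_quad h2 hM) e hc he, hV, pow_mul, Int.units_sq, one_pow, one_mul]
  have d₂ := hd e₂ s₂ (inv_ne_zero h2) h₂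
  have d₃ := hd e₃ s₃ (inv_ne_zero h2) h₃
  rw [disc_qPlus] at d₂
  rw [disc_qMinus h2 m hb, d₂] at d₃
  have hn : ∀ {γ P M δ}, IsGr σ τ φ γ P M δ → (frm M).IsSymm →
      ¬ IsConjUnder (diagAut : GU n F q →* _).range γ₁ γ := fun g hM h => by
    obtain ⟨e, c, -, he⟩ := (g₁.isConjUnder_iff hσ hτ hφ hn2 g).1 h
    exact not_isAlt_of_isSymm h2 hM (e.surjective.forall.2 fun v => by rw [he, a₁, mul_zero])
  rw [inndiagPSU_eq]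
  refine ⟨γ₁, γ₂, γ₃, 1, b, hb, (g₁.isGraph hσ hτ h3).1, (g₁.isGraph hσ hτ h3).2,
    (g₂.isGraph hσ hτ h3).1, (g₂.isGraph hσ hτ h3).2, (g₃.isGraph hσ hτ h3).1,
    (g₃.isGraph hσ hτ h3).2, hn g₂ s₂, hn g₃ s₃, fun h => ?_, fun γ hγ hγ2 => ?_,
    g₁.nonempty_cent_equiv_PGSp hσ hτ hφ hn2 a₁ hnm,
    g₂.nonempty_cent_equiv_PGO hσ hτ hφ hn2 h2 s₂ e₂ (inv_ne_zero h2) h₂,
    g₃.nonempty_cent_equiv_PGO hσ hτ hφ hn2 h2 s₃ e₃ (inv_ne_zero h2) h₃⟩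
  · obtain ⟨e, c, hc, he⟩ := (g₂.isConjUnder_iff hσ hτ hφ hn2 g₃).1 h
    rw [hd (Q := (frm M₃).toQuadraticMap) e s₂ hc fun v => he v v] at d₃
    exact (by decide : ∀ x : ℤˣ, -x ≠ x) _ d₃
  obtain ⟨P, M, δ, g⟩ := exists_isGr_of_graph hσ hτ hφ h3 hγ hγ2
  rcases g.isSymm_or_isAlt hσ.invol hφ with hM | hM
  · have key : ∀ {γ' P' N δ'}, IsGr σ τ φ γ' P' N δ' → (frm N).IsSymm →
        disc (frm N).toQuadraticMap = disc (frm M).toQuadraticMap →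
        IsConjUnder (diagAut : GU n F q →* _).range γ' γ := fun g' hN h => by
      obtain ⟨e⟩ := equivalent_of_disc_eq (nd_frm_quad h2 hN) (nd_frm_quad h2 hM) h2 rfl h
      exact g'.isConjUnder_of_sim hσ hτ hφ hn2 g h2 hN hM e.toLinearEquiv one_ne_zero fun v =>
        (e.map_app v).trans (one_mul _).symm
    exact .inr ((eq_or_ne _ _).imp (key g₂ s₂) fun h => key g₃ s₃ (by
      rw [← d₃, Int.units_ne_iff_eq_neg.1 h, neg_neg]))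
  · obtain ⟨e, he⟩ := Symp.exists_isometry_of_finrank_eq a₁ (nd_frm _) hM (nd_frm _) rfl
    exact .inl ((g₁.isConjUnder_iff hσ hτ hφ hn2 g).2 ⟨e, 1, one_ne_zero, by simpa using he⟩)

end Cfsg.Agent.S2707
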