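import Cfsg.Statements.S2709
import Cfsg.Agent.Lib.Unitary.GraphU2

set_option autoImplicit false
open Cfsg

namespace Cfsg.Agent.S2709

open Cfsg.Lib Cfsg.Lib.Unitary Cfsg.Lib.Linear Cfsg.Lib.Orth Module

/-- Let T = PSU_n(q) be simple (n ≥ 3, (n,q) ≠ (3,2), q = p^f), realised over the field F with q² elements, G = Inndiag(T) the image of PGU_n(q), and γ an involutory graph automorphism of T. The G-class of γ is the union of exactly c T-classes, where: if n is even and q is odd, c = gcd(n/2, q + 1) when C_G(γ) is isomorphic to PGSp_n(F₀) for a field F₀ with q elements (symplectic type) and c = gcd(n, q + 1)/2 otherwise; and c = gcd(n, q + 1) when n is odd or q is even. -/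
theorem result {F : Type*} [Field F] [Fintype F] {p f q : ℕ} [Fact p.Prime] (hq : q = p ^ f) (hf : 1 ≤ f) (hF : Fintype.card F = q ^ 2) {n : ℕ} (hn : 3 ≤ n) (hs : ¬ (n = 3 ∧ q = 2)) (F₀ : Type*) [Field F₀] [Fintype F₀] (hF₀ : Fintype.card F₀ = q) (γ : MulAut (Cfsg.PSU n F q)) (hγ : Cfsg.IsGraphAutClassPSU γ) (hγ2 : orderOf γ = 2) :
    ((Even n ∧ Odd q ∧ Nonempty (↥(Cfsg.inndiagPSU n F q ⊓ Subgroup.centralizer {γ}) ≃* Cfsg.PGSp (n / 2) F₀)) → Cfsg.splitClassCount (Cfsg.inndiagPSU n F q) (Cfsg.Inn (Cfsg.PSU n F q)) γ = Nat.gcd (n / 2) (q + 1)) ∧ ((Even n ∧ Odd q ∧ ¬ Nonempty (↥(Cfsg.inndiagPSU n F q ⊓ Subgroup.centralizer {γ}) ≃* Cfsg.PGSp (n / 2) F₀)) → Cfsg.splitClassCount (Cfsg.inndiagPSU n F q) (Cfsg.Inn (Cfsg.PSU n F q)) γ = Nat.gcd n (q + 1) / 2) ∧ (¬ (Even n ∧ Odd q) → Cfsg.splitClassCount (Cfsg.inndiagPSU n F q) (Cfsg.Inn (Cfsg.PSU n F q)) γ = Nat.gcd n (q + 1)) := by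
  obtain ⟨σ, hσ⟩ := exists_isBar hF
  obtain ⟨τ, hτ⟩ := exists_bar_equiv hσ
  obtain ⟨φ, hφ⟩ := hσ.exists_ringHom (K := F₀) (by rw [Nat.card_eq_fintype_card, hF₀])
  obtain ⟨P, M, δ, g⟩ := exists_isGr_of_graph hσ hτ hφ hn hγ hγ2
  have hM := g.isSymm_or_isAlt hσ.invol hφ
  have hn2 : 2 ≤ n := by omega
  have hp : Odd q → (2 : F₀) ≠ 0 := fun h => two_ne_zero_of_odd_card (hF₀ ▸ h)
  rw [inndiagPSU_eq]
  refine ⟨fun ⟨⟨m, hm⟩, h1, ⟨e⟩⟩ => ?_, fun ⟨⟨m, hm⟩, h1, h⟩ => ?_, fun h => ?_⟩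
  · obtain rfl := hm.trans (two_mul m).symm
    rw [Nat.mul_div_cancel_left _ two_pos] at e ⊢
    refine g.splitClassCount_of_isAlt hσ hτ hφ hn2 (hM.resolve_left fun hM => ?_) rfl
    obtain ⟨m, rfl⟩ := Nat.exists_eq_succ_of_ne_zero (show m ≠ 0 by omega)
    obtain ⟨e'⟩ := g.nonempty_cent_equiv_PGO hσ hτ hφ hn2 (hp h1) hM (Q := (frm M).toQuadraticMap)
      (.refl _ _) one_ne_zero fun v => (one_mul _).symm
    exact (card_PGO_lt (hp h1) (nd_frm_quad (hp h1) hM) (Fintype.card_fin _)).ne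
      (Nat.card_congr (e'.symm.trans e).toEquiv)
  · obtain rfl := hm.trans (two_mul m).symm
    rw [Nat.mul_div_cancel_left _ two_pos] at h
    exact g.splitClassCount_of_isSymm hσ hτ hφ hn2 (hM.resolve_right fun hM =>
      h (g.nonempty_cent_equiv_PGSp hσ hτ hφ hn2 hM rfl)) rfl (hp h1) h1
  · exact g.splitClassCount_of_odd hσ hτ hφ hn2 
      ((not_and_or.1 h).imp Nat.not_even_iff_odd.1 Nat.not_odd_iff_even.1)

end Cfsg.Agent.S2709
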