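import Cfsg.Statements.S2710
import Cfsg.Agent.Lib.Unitary.GraphU2

set_option autoImplicit false
open Cfsg

namespace Cfsg.Agent.S2710

open Cfsg.Lib Cfsg.Lib.Unitary Cfsg.Lib.Linear Cfsg.Lib.Orth Module

/-- Let T = PSU_n(q) with n ≥ 4 divisible by 4 (n = 2m) and q odd, realised over the field F with q² elements, G = Inndiag(T) the image of PGU_n(q), and φ the standard field automorphism of T attached to the q-th power map of F (it induces inverse-transpose on the unitary matrices and is a graph automorphism). Its centralizer in G is isomorphic to the projective conformal orthogonal group of the plus-type form Σ xᵢ yᵢ in dimension n over a field F₀ with q elements. (Dimensions n ≡ 2 (mod 4) are not covered.) -/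
theorem result {F : Type*} [Field F] [Fintype F] {q : ℕ} (hodd : Odd q) (hF : Fintype.card F = q ^ 2) {n m : ℕ} (hm : 2 ≤ m) (hnm : n = 2 * m) (h4 : 4 ∣ n) (F₀ : Type*) [Field F₀] [Fintype F₀] (hF₀ : Fintype.card F₀ = q) (σ : F ≃+* F) (hσ : ∀ a : F, σ a = a ^ q) (φ : MulAut (Cfsg.PSU n F q)) (hφ : Cfsg.IsFieldAutPSUOf σ φ) :
    Nonempty (↥(Cfsg.inndiagPSU n F q ⊓ Subgroup.centralizer {φ}) ≃* Cfsg.PGO F₀ (Cfsg.quadFormPlus m F₀)) := by
  obtain ⟨ρ, hρ⟩ := exists_isBar hF
  have hτ : ∀ a, σ a = ρ a := fun a => (hσ a).trans (hρ.eq a).symm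
  obtain ⟨ψ, hψ⟩ := hρ.exists_ringHom (K := F₀) (by rw [Nat.card_eq_fintype_card, hF₀])
  obtain rfl := isFieldAutPSUOf_iff.1 hφ
  subst hnm
  have h2 := two_ne_zero_of_odd_card (F := F₀) (hF₀ ▸ hodd)
  have hM : (frm (1 : GL (Fin (2 * m)) F₀)).IsSymm := ⟨fun u v => by
    simp [Matrix.toBilin'_apply', dotProduct_comm]⟩
  have hQ := nd_frm_quad h2 hM
  have hd : disc (frm (1 : GL (Fin (2 * m)) F₀)).toQuadraticMap = 1 := by
    rw [show (frm (1 : GL (Fin (2 * m)) F₀)).toQuadraticMap = qDiag fun _ => 1 by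
      ext v; simp [Matrix.toBilin'_apply', qDiag_apply, dotProduct, pow_two], disc_qDiag]
    simp [pow_mul', pow_two, sqsign_eq_one_iff]
  obtain ⟨k, rfl⟩ : 2 ∣ m := by omega
  obtain ⟨e⟩ := equivalent_of_disc_eq hQ (nd_qPlus (2 * k)) h2 (by simp [two_mul]) (by
    rw [hd, disc_qPlus]
    simp [pow_mul, eq_comm (a := (1 : ℤˣ)), sqsign_eq_one_iff])
  rw [inndiagPSU_eq]
  exact (isGr_one hρ hτ).nonempty_cent_equiv_PGO hρ hτ hψ (by omega) h2 hM e.toLinearEquiv
    one_ne_zero fun v => (e.map_app v).trans (one_mul _).symm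

end Cfsg.Agent.S2710
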