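import Cfsg.Statements.S2712
import Cfsg.Agent.Lib.Symp.Descent

set_option autoImplicit false
open Cfsg

namespace Cfsg.Agent.S2712

/-- Let T = PSp_{2m}(F) be simple over the field F with p^f elements (m ≥ 2, (2m, |F|) ≠ (4, 2)), G = Inndiag(T) the image of the projective conformal symplectic group PGSp_{2m}(F), and x a field automorphism of T of prime order r. Then r divides f; C_G(x) is isomorphic to PGSp_{2m}(F₀) for a field F₀ with p^(f/r) elements; and the G-class of x is the union of exactly gcd(gcd(2, p^f − 1), r) T-classes. -/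
theorem result {F : Type*} [Field F] [Fintype F] {p f : ℕ} [Fact p.Prime] (hF : Fintype.card F = p ^ f) (hf : 1 ≤ f) {m : ℕ} (hm : 2 ≤ m) (hs : m = 2 → 3 ≤ Fintype.card F) (x : MulAut (Cfsg.PSp m F)) (hx : Cfsg.IsFieldAutClassPSp x) {r : ℕ} (hr : r.Prime) (hxr : orderOf x = r) (F₀ : Type*) [Field F₀] [Fintype F₀] (hF₀ : Fintype.card F₀ = p ^ (f / r)) :
    r ∣ f ∧ Nonempty (↥(Cfsg.inndiagPSp m F ⊓ Subgroup.centralizer {x}) ≃* Cfsg.PGSp m F₀) ∧ Cfsg.splitClassCount (Cfsg.inndiagPSp m F) (Cfsg.Inn (Cfsg.PSp m F)) x = Nat.gcd (Nat.gcd 2 (p ^ f - 1)) r := by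
  obtain ⟨a, σ, -, ha⟩ := Cfsg.Lib.Symp.isFieldAutClassPSp_iff.1 hx
  have hne : NeZero m := ⟨by omega⟩
  have hN := Cfsg.Lib.Symp.normal_range_innDiagSp (F := F) hm
  have hx' : x = a⁻¹ * Cfsg.Lib.Symp.fieldAutSp σ * a⁻¹⁻¹ := by rw [← ha]; group
  have ho : orderOf σ = r := by
    rw [← hxr, ← orderOf_injective _ (Cfsg.Lib.Symp.fieldAutSp_injective (m := m)) σ, ← ha]
    exact (MulAut.conj a).orderOf_eq x
  have hT := (Cfsg.Lib.Symp.isTwist_fieldAutSp (m := m) σ).conj a⁻¹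
  rw [← hx'] at hT
  rw [Cfsg.Lib.Symp.inndiagPSp_eq, ← Cfsg.Lib.Linear.range_conj_comp _ a⁻¹]
  subst ho
  have hd := Cfsg.Lib.Linear.orderOf_ringAut_dvd hF σ
  refine ⟨hd, ?_, ?_⟩
  · obtain ⟨φ, hφ⟩ := Cfsg.Lib.Linear.exists_ringHom_range_fixField (σ := σ) (K := F₀)
      (by rw [Cfsg.Lib.Linear.card_fixField hF, Nat.card_eq_fintype_card, hF₀])
    exact hT.nonempty_centralizer_equiv _ (Cfsg.Lib.Symp.range_mapGSp hφ) _
      (Cfsg.Lib.Symp.mapGSp_mem_range_scalarGSp φ)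
  · rw [hT.splitClassCount_eq _ _ _ Cfsg.Lib.Symp.mult_surjective _ (fun g =>
      (Cfsg.Lib.Linear.conj_comp_mem_iff _ _ _ g).trans Cfsg.Lib.Symp.innDiagSp_mem_inn_iff_mult),
      Cfsg.Lib.Symp.map_mult_fixSub, Cfsg.Lib.Linear.index_pow_sup,
      Cfsg.Lib.Linear.index_fixSub_unitsAut hF]
    · have h1 : p ^ f = (p ^ (f / orderOf σ)) ^ orderOf σ := by
        rw [← pow_mul, Nat.div_mul_cancel hd]
      rw [h1]
      exact Cfsg.Lib.Symp.gcd_two_geom (hF₀ ▸ Fintype.one_lt_card) hr.pos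
    · rw [Cfsg.Lib.Linear.range_conj_comp]
      exact Cfsg.Lib.Symp.inn_le_range_innDiagSp

end Cfsg.Agent.S2712
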