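import Cfsg.Statements.S2713
import Cfsg.Agent.Lib.Symp.Descent

set_option autoImplicit false
open Cfsg

namespace Cfsg.Agent.S2713

/-- Let T = PSp_{2m}(F) be simple over a finite field (m ≥ 2, (2m, |F|) ≠ (4, 2)) and let x be a field automorphism of T of prime order r. Then an element y of the coset Inndiag(T)·x (y = δ x with δ in the image of the projective conformal symplectic group) has order r if and only if y is conjugate to x by an element of Inndiag(T). -/
theorem result {F : Type*} [Field F] [Fintype F] {m : ℕ} (hm : 2 ≤ m) (hs : m = 2 → 3 ≤ Fintype.card F) (x δ : MulAut (Cfsg.PSp m F)) (hx : Cfsg.IsFieldAutClassPSp x) {r : ℕ} (hr : r.Prime) (hxr : orderOf x = r) (hδ : δ ∈ Cfsg.inndiagPSp m F) :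
    orderOf (δ * x) = r ↔ Cfsg.IsConjUnder (Cfsg.inndiagPSp m F) x (δ * x) := by
  obtain ⟨a, σ, -, ha⟩ := Cfsg.Lib.Symp.isFieldAutClassPSp_iff.1 hx
  have hne : NeZero m := ⟨by omega⟩
  have hN := Cfsg.Lib.Symp.normal_range_innDiagSp (F := F) hm
  have hx' : x = a⁻¹ * Cfsg.Lib.Symp.fieldAutSp σ * a⁻¹⁻¹ := by rw [← ha]; group
  have ho : orderOf σ = r := by
    rw [← hxr, ← orderOf_injective _ (Cfsg.Lib.Symp.fieldAutSp_injective (m := m)) σ, ← ha]
    exact (MulAut.conj a).orderOf_eq x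
  have hT := (Cfsg.Lib.Symp.isTwist_fieldAutSp (m := m) σ).conj a⁻¹
  rw [← hx', ho] at hT
  rw [Cfsg.Lib.Symp.inndiagPSp_eq, ← Cfsg.Lib.Linear.range_conj_comp _ a⁻¹] at hδ ⊢
  exact hT.orderOf_eq_iff hxr hδ

end Cfsg.Agent.S2713
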