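import Cfsg.Statements.S2714
import Cfsg.Agent.Lib.Orth.Split

set_option autoImplicit false
open Cfsg

namespace Cfsg.Agent.S2714

open Cfsg.Lib Cfsg.Lib.Orth Cfsg.Lib.Orth.Gam

/-- Let T = Ω_{2m+1}(F) (m ≥ 3, |F| = p^f odd; realised as PΩ of the form x₀² + Σ xᵢ yᵢ), G = Inndiag(T) the image of the conformal orthogonal group in Aut(T), and x a field automorphism of T of prime order r. Then r divides f; C_G(x) is isomorphic to Inndiag(Ω_{2m+1}(F₀)) for a field F₀ with p^(f/r) elements; and the G-class of x is a single T-class when r is odd and the union of exactly two T-classes when r = 2. -/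
theorem result {F : Type*} [Field F] [Fintype F] {p f : ℕ} [Fact p.Prime] (hF : Fintype.card F = p ^ f) (hf : 1 ≤ f) (hodd : Odd (Fintype.card F)) {m : ℕ} (hm : 3 ≤ m) (x : MulAut (Cfsg.POmega F (Cfsg.quadFormOdd m F))) (hx : Cfsg.IsFieldAutClassPOmega (Cfsg.quadFormOdd m F) x) {r : ℕ} (hr : r.Prime) (hxr : orderOf x = r) (F₀ : Type*) [Field F₀] [Fintype F₀] (hF₀ : Fintype.card F₀ = p ^ (f / r)) :
    r ∣ f ∧ Nonempty (↥(Cfsg.inndiagPOmegaOdd m F ⊓ Subgroup.centralizer {x}) ≃* ↥(Cfsg.inndiagPOmegaOdd m F₀)) ∧ (Odd r → Cfsg.splitClassCount (Cfsg.inndiagPOmegaOdd m F) (Cfsg.Inn (Cfsg.POmega F (Cfsg.quadFormOdd m F))) x = 1) ∧ (r = 2 → Cfsg.splitClassCount (Cfsg.inndiagPOmegaOdd m F) (Cfsg.Inn (Cfsg.POmega F (Cfsg.quadFormOdd m F))) x = 2) := by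
  have h2 := two_ne_zero_of_odd_card hodd
  obtain ⟨a, σ, rfl⟩ := exists_of_isFieldAutClass (Q := qOdd m F)
    (fun σ => qOdd_comp (σ : F →+* F) m) hx
  have L := langData_odd (nd_qOdd h2 m) (by simp [add_comm, ← two_mul]) (by simp; omega)
    (range_rhoM_odd h2 hm) (field_pow_orderOf (σ := σ) (qOdd_comp (σ : F →+* F) m))
  obtain rfl : orderOf σ = r := (L.orderOf_conj a).symm.trans hxr
  obtain ⟨φ, hφ⟩ := exists_ringHom_of_card hF σ hF₀
  let D := formDataField (σ := σ) (qOdd_comp (σ : F →+* F) m) (qOdd_comp φ m)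
    fun a => (hφ _).2 ⟨a, rfl⟩
  have h2' : (2 : F₀) ≠ 0 := fun h => h2 (by rw [← map_ofNat φ 2, h, map_zero])
  have ho : Odd (Module.finrank F (Unit ⊕ (Fin m ⊕ Fin m) → F)) := by simp [add_comm, ← two_mul]
  have hs := L.splitClassCount_eq a
  rw [← inn_eq] at hs
  rw [inndiagPOmegaOdd_eq, inndiagPOmegaOdd_eq]
  exact ⟨Linear.orderOf_ringAut_dvd hF σ, L.nonempty_centralizer_equiv (nd_qOdd h2 m) D
    (fun x => (hφ x).1) (ker_rhoM (nd_qOdd h2' m) (not_exc_of_two_ne_zero h2') (by simp; omega))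
    le_rfl (fun g => iff_of_true rfl g.2) a,
    fun h => hs.trans (D.relIndex_odd_of_sqsign (nd_qOdd h2 m) ho (by simp; omega)
      (sqsign_map_of_odd hφ h)),
    fun h => hs.trans (D.relIndex_odd_of_isSquare (nd_qOdd h2 m) ho (by simp; omega)
      (fun x => (hφ x).1) (isSquare_map_of_even hφ (h ▸ even_two)))⟩

end Cfsg.Agent.S2714
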