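import Cfsg.Statements.S2715
import Cfsg.Agent.Lib.Orth.Split
import Cfsg.Agent.Lib.Orth.Triality

set_option autoImplicit false
open Cfsg

namespace Cfsg.Agent.S2715

open Cfsg.Lib Cfsg.Lib.Orth Cfsg.Lib.Orth.Gam

/-- Let T = PΩ⁺_{2m}(F) (m ≥ 4, |F| = p^f; the form Σ xᵢ yᵢ), G = Inndiag(T) the image of the class-preserving similarities in Aut(T), and x a field automorphism of T of prime order r. Then r divides f; C_G(x) is isomorphic to Inndiag(PΩ⁺_{2m}(F₀)) for a field F₀ with p^(f/r) elements; and the G-class of x is the union of exactly c T-classes, where c = 1 if r is odd or p = 2, and otherwise (r = 2, p odd) c = 2 when m is odd and p^(f/2) ≡ 1 (mod 4), and c = 4 in the remaining cases. -/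
theorem result {F : Type*} [Field F] [Fintype F] {p f : ℕ} [Fact p.Prime] (hF : Fintype.card F = p ^ f) (hf : 1 ≤ f) {m : ℕ} (hm : 4 ≤ m) (x : MulAut (Cfsg.POmega F (Cfsg.quadFormPlus m F))) (hx : Cfsg.IsFieldAutClassPOmega (Cfsg.quadFormPlus m F) x) {r : ℕ} (hr : r.Prime) (hxr : orderOf x = r) (F₀ : Type*) [Field F₀] [Fintype F₀] (hF₀ : Fintype.card F₀ = p ^ (f / r)) :
    r ∣ f ∧ Nonempty (↥(Cfsg.inndiagPOmegaPlus m F ⊓ Subgroup.centralizer {x}) ≃* ↥(Cfsg.inndiagPOmegaPlus m F₀)) ∧ ((Odd r ∨ p = 2) → Cfsg.splitClassCount (Cfsg.inndiagPOmegaPlus m F) (Cfsg.Inn (Cfsg.POmega F (Cfsg.quadFormPlus m F))) x = 1) ∧ ((r = 2 ∧ p ≠ 2 ∧ Odd m ∧ p ^ (f / 2) % 4 = 1) → Cfsg.splitClassCount (Cfsg.inndiagPOmegaPlus m F) (Cfsg.Inn (Cfsg.POmega F (Cfsg.quadFormPlus m F))) x = 2) ∧ ((r = 2 ∧ p ≠ 2 ∧ ¬ (Odd m ∧ p ^ (f / 2) % 4 = 1)) → Cfsg.splitClassCount (Cfsg.inndiagPOmegaPlus m F) (Cfsg.Inn (Cfsg.POmega F (Cfsg.quadFormPlus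 m F))) x = 4) := by
  haveI : NeZero m := ⟨by omega⟩
  obtain ⟨a, σ, rfl⟩ := exists_of_isFieldAutClass (Q := qPlus m F)
    (fun σ => qPlus_comp (σ : F →+* F) m) hx
  have L := langData_even (nd_qPlus m) _ (by simp; omega) (normal_map_GOz_plus hm)
    (field_pow_orderOf (σ := σ) (qPlus_comp (σ : F →+* F) m))
  obtain rfl : orderOf σ = r := (L.orderOf_conj a).symm.trans hxr
  obtain ⟨φ, hφ⟩ := exists_ringHom_of_card hF σ hF₀
  let D := formDataField (σ := σ) (qPlus_comp (σ : F →+* F) m) (qPlus_comp φ m)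
    fun a => (hφ _).2 ⟨a, rfl⟩
  have hs := L.splitClassCount_eq a
  rw [← inn_eq] at hs
  rw [inndiagPOmegaPlus_eq, inndiagPOmegaPlus_eq]
  have key := fun (h : orderOf σ = 2) (hp : p ≠ 2) => relIndex_field_plus hφ h
    (mt (two_eq_zero_iff_of_card hF₀).1 hp) (by omega) (qPlus_comp (σ : F →+* F) m)
  refine ⟨Linear.orderOf_ringAut_dvd hF σ, L.nonempty_centralizer_equiv (nd_qPlus m) D
    (fun x => (hφ x).1) (ker_rhoM (nd_qPlus m) (not_exc_of_five_le (by simp; omega))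
      (by simp; omega)) (GOz_le_GO _ _) (fun g => D.j_mem_GOz g) a,
    fun h => hs.trans (D.relIndex_even_of_sqsign (nd_qPlus m) (not_exc_of_five_le (by simp; omega))
      _ ?_), fun ⟨h1, h2, h3⟩ => hs.trans ((key h1 h2).trans (if_pos (by rwa [hF₀, h1]))),
    fun ⟨h1, h2, h3⟩ => hs.trans ((key h1 h2).trans (if_neg (by rwa [hF₀, h1])))⟩
  rcases h with h | h
  · exact sqsign_map_of_odd hφ h
  · exact fun a => by
      rw [sqsign_of_isSquare (isSquare_of_two_eq_zero ((two_eq_zero_iff_of_card hF).2 h) _),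
        sqsign_of_isSquare (isSquare_of_two_eq_zero ((two_eq_zero_iff_of_card hF₀).2 h) _)]

end Cfsg.Agent.S2715
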