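import Cfsg.Statements.S2716
import Cfsg.Agent.Lib.Orth.Split

set_option autoImplicit false
open Cfsg

namespace Cfsg.Agent.S2716

open Cfsg.Lib Cfsg.Lib.Orth Cfsg.Lib.Orth.Gam

/-- Let T = PΩ⁻_{2m+2}(F) (m ≥ 3, |F| = p^f; the form Σ xᵢ yᵢ + z₁² + a z₁ z₂ + b z₂² with anisotropic binary part), G = Inndiag(T), and x a field automorphism of T of prime order r. Then r is odd and divides f; C_G(x) is isomorphic to Inndiag(PΩ⁻_{2m+2}(F₀)) for a field F₀ with p^(f/r) elements and some anisotropic binary part over F₀; and the G-class of x is a single T-class. -/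
theorem result {F : Type*} [Field F] [Fintype F] {p f : ℕ} [Fact p.Prime] (hF : Fintype.card F = p ^ f) (hf : 1 ≤ f) {m : ℕ} (hm : 3 ≤ m) (a b : F) (hab : (∀ z₁ z₂ : F, z₁ ^ 2 + a * z₁ * z₂ + b * z₂ ^ 2 = 0 → z₁ = 0 ∧ z₂ = 0)) (x : MulAut (Cfsg.POmega F (Cfsg.quadFormMinus m F a b))) (hx : Cfsg.IsFieldAutClassPOmegaMinus m x) {r : ℕ} (hr : r.Prime) (hxr : orderOf x = r) (F₀ : Type*) [Field F₀] [Fintype F₀] (hF₀ : Fintype.card F₀ = p ^ (f / r)) :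
    Odd r ∧ r ∣ f ∧ (∃ a₀ b₀ : F₀, (∀ z₁ z₂ : F₀, z₁ ^ 2 + a₀ * z₁ * z₂ + b₀ * z₂ ^ 2 = 0 → z₁ = 0 ∧ z₂ = 0) ∧ Nonempty (↥(Cfsg.inndiagPOmegaMinus m F a b ⊓ Subgroup.centralizer {x}) ≃* ↥(Cfsg.inndiagPOmegaMinus m F₀ a₀ b₀))) ∧ Cfsg.splitClassCount (Cfsg.inndiagPOmegaMinus m F a b) (Cfsg.Inn (Cfsg.POmega F (Cfsg.quadFormMinus m F a b))) x = 1 := by
  obtain ⟨α, ψ, hx', h, ho⟩ := exists_of_isFieldAutClassMinus hab hx
  have L := langData_even (nd_qMinus m hab) (even_finrank_minus m) (by simp; omega)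
    (Subgroup.Normal.map inferInstance _ (MonoidHom.range_eq_top.1 (range_rhoM_minus hm hab))) h
  have h1 := L.orderOf_conj α
  rw [← hx'] at h1
  obtain rfl : orderOf ψ.σ = r := h1.symm.trans hxr
  obtain ⟨φ, hφ⟩ := exists_ringHom_of_card hF ψ.σ hF₀
  obtain ⟨b₀, hb₀⟩ := exists_aniso_one F₀
  obtain ⟨D⟩ := nonempty_formData_minus (nd_qMinus m hab) (m := m) (by simp [two_mul]) h hφ
    (fun U hU => (not_lag_qMinus hab U hU).elim) hb₀
  have hs := L.splitClassCount_eq α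
  have hc := L.nonempty_centralizer_equiv (nd_qMinus m hab) D (fun x => (hφ x).1)
    (ker_rhoM (nd_qMinus m hb₀) (not_exc_of_five_le (by simp; omega)) (by simp; omega))
    (GOz_le_GO (nd_qMinus m hb₀) (even_finrank_minus m)) (fun g => D.j_mem_GOz g) α
  rw [← inn_eq, ← hx', D.relIndex_even_of_sqsign _ (not_exc_of_five_le (by simp; omega)) _
      (sqsign_map_of_odd hφ ho), ← inndiagPOmegaMinus_eq m hab] at hs
  rw [← hx', ← inndiagPOmegaMinus_eq m hab, ← inndiagPOmegaMinus_eq m hb₀] at hc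
  exact ⟨ho, Linear.orderOf_ringAut_dvd hF _, ⟨1, b₀, hb₀, hc⟩, hs⟩

end Cfsg.Agent.S2716
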