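import Cfsg.Statements.S2717
import Cfsg.Agent.Lib.Orth.Split
import Cfsg.Agent.Lib.Orth.Triality

set_option autoImplicit false
open Cfsg

namespace Cfsg.Agent.S2717

open Cfsg.Lib Cfsg.Lib.Orth Cfsg.Lib.Orth.Gam

theorem isConjUnder_of_isGF {F : Type*} [Field F] [Finite F] {m : ℕ} [NeZero m]
    {ψ ψ' : Gam (qPlus m F)} (h : IsGF ψ) (h' : IsGF ψ') :
    Cfsg.IsConjUnder ((GOz (nd_qPlus m) (even_finrank_plus m)).map (rhoM (qPlus m F)))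
      (rhoM _ ψ) (rhoM _ ψ') := by
  obtain ⟨g, hg, rfl⟩ := h.exists_conj h'
  exact ⟨_, ⟨g, hg, rfl⟩, by rw [map_mul, map_mul, map_inv]⟩

/-- Let T = PΩ⁺_{2m}(F) with m ≥ 5 (dimension 2m ≠ 8) and |F| = p^f, G = Inndiag(T), and x an involutory graph-field automorphism of T. Then f is even; any two involutory graph-field automorphisms of T are G-conjugate; C_G(x) is isomorphic to Inndiag(PΩ⁻_{2m}(F₀)) for a field F₀ with p^(f/2) elements (some anisotropic binary part over F₀); and the G-class of x is the union of exactly c T-classes with c = 1 if p = 2, c = 4 if p is odd, m is odd and p^(f/2) ≡ 1 (mod 4), and c = 2 otherwise. -/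
theorem result {F : Type*} [Field F] [Fintype F] {p f : ℕ} [Fact p.Prime] (hF : Fintype.card F = p ^ f) (hf : 1 ≤ f) {m : ℕ} (hm : 5 ≤ m) (x : MulAut (Cfsg.POmega F (Cfsg.quadFormPlus m F))) (hx : Cfsg.IsGraphFieldAutClassPOmegaPlus m x) (hx2 : orderOf x = 2) (F₀ : Type*) [Field F₀] [Fintype F₀] (hF₀ : Fintype.card F₀ = p ^ (f / 2)) :
    Even f ∧ (∀ y : MulAut (Cfsg.POmega F (Cfsg.quadFormPlus m F)), Cfsg.IsGraphFieldAutClassPOmegaPlus m y → orderOf y = 2 → Cfsg.IsConjUnder (Cfsg.inndiagPOmegaPlus m F) x y) ∧ (∃ a₀ b₀ : F₀, (∀ z₁ z₂ : F₀, z₁ ^ 2 + a₀ * z₁ * z₂ + b₀ * z₂ ^ 2 = 0 → z₁ = 0 ∧ z₂ = 0) ∧ Nonempty (↥(Cfsg.inndiagPOmegaPlus m F ⊓ Subgroup.centralizer {x}) ≃* ↥(Cfsg.inndiagPOmegaMinus (m - 1) F₀ a₀ b₀))) ∧ (p = 2 → Cfsg.splitClassCount (Cfsg.inndiagPOmegaPlus m F) (Cfsg.Inn (Cfsg.POmega F (Cfsg.quadFormPlus m F))) x = 1) ∧ ((p ≠ 2 ∧ Odd m ∧ p ^ (f / 2)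 % 4 = 1) → Cfsg.splitClassCount (Cfsg.inndiagPOmegaPlus m F) (Cfsg.Inn (Cfsg.POmega F (Cfsg.quadFormPlus m F))) x = 4) ∧ ((p ≠ 2 ∧ ¬ (Odd m ∧ p ^ (f / 2) % 4 = 1)) → Cfsg.splitClassCount (Cfsg.inndiagPOmegaPlus m F) (Cfsg.Inn (Cfsg.POmega F (Cfsg.quadFormPlus m F))) x = 2) := by
  obtain ⟨k, rfl⟩ : ∃ k, m = k + 1 := ⟨m - 1, by omega⟩
  obtain ⟨ψ₀, h₀, hx₀⟩ := exists_isGF hm hx (hx2 ▸ Nat.prime_two)
  have hσ : ∀ v, qPlus (k + 1) F (ψ₀.σ ∘ v) = ψ₀.σ (qPlus (k + 1) F v) :=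
    qPlus_comp (F := F) (ψ₀.σ : F →+* F) (k + 1)
  have hy := (isHypFam_qPlus (F := F) (k + 1)).isHyp 0
  have h := isGF_refl_mul h₀.ord hσ (v := Pi.single (.inl 0) 1 - Pi.single (.inr 0) 1)
    (by simp [Q_sub, hy.left, hy.right, hy.polar_eq])
    (by ext i; simp [Pi.single_apply, apply_ite ψ₀.σ])
  obtain ⟨a, -, ha⟩ := isConjUnder_of_isGF h h₀
  have L := langData_even (nd_qPlus _) _ (by simp; omega) (normal_map_GOz_plus (by omega)) h.pow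
  obtain ⟨φ, hφ⟩ := exists_ringHom_of_card hF ψ₀.σ (h₀.ord ▸ hF₀)
  obtain ⟨b₀, hb₀⟩ := exists_aniso_one F₀
  obtain ⟨D⟩ := nonempty_formData_minus (nd_qPlus _) (m := k) (by simp; omega) h.pow hφ h.sign hb₀
  have hs := L.splitClassCount_eq a
  have hc := L.nonempty_centralizer_equiv (nd_qPlus _) D (fun x => (hφ x).1)
    (ker_rhoM (nd_qMinus k hb₀) (not_exc_of_five_le (by simp; omega)) (by simp; omega))
    (GOz_le_GO (nd_qMinus k hb₀) (even_finrank_minus k)) (fun g => D.j_mem_GOz g) a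
  have key := fun hp : p ≠ 2 => hs.trans (relIndex_graphField hφ h₀.ord
    (mt (two_eq_zero_iff_of_card hF₀).1 hp) 0 hσ D)
  have key' := fun hp : p = 2 => hs.trans (D.relIndex_even_of_sqsign _
      (not_exc_of_five_le (by simp; omega)) _ fun a => by
    rw [sqsign_of_isSquare (isSquare_of_two_eq_zero ((two_eq_zero_iff_of_card hF).2 hp) _),
      sqsign_of_isSquare (isSquare_of_two_eq_zero ((two_eq_zero_iff_of_card hF₀).2 hp) _)])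
  rw [← ha, ← hx₀, ← inndiagPOmegaPlus_eq] at hc key key'
  rw [← inn_eq] at key key'
  rw [← inndiagPOmegaMinus_eq k hb₀] at hc
  refine ⟨even_iff_two_dvd.2 (h₀.ord ▸ Linear.orderOf_ringAut_dvd hF ψ₀.σ), fun y hy hy2 => ?_,
    ⟨1, b₀, hb₀, hc⟩, key', fun ⟨h1, h2⟩ => (key h1).trans (if_pos (by rwa [hF₀])),
    fun ⟨h1, h2⟩ => (key h1).trans (if_neg (by rwa [hF₀]))⟩
  obtain ⟨ψ₁, h₁, hy₁⟩ := exists_isGF hm hy (hy2 ▸ Nat.prime_two)
  have := isConjUnder_of_isGF h₀ h₁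
  rw [← hx₀, ← hy₁, ← inndiagPOmegaPlus_eq] at this
  exact this

end Cfsg.Agent.S2717
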