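import Cfsg.Statements.S2718
import Cfsg.Agent.Lib.Orth.Fus3

set_option autoImplicit false
open Cfsg

namespace Cfsg.Agent.S2718

/-- Let T = PΩ⁺_{2m}(F) with m ≥ 4 and |F| = q odd, G = Inndiag(T), and γ an involutory graph automorphism of T induced by a similarity (one interchanging the two classes of maximal totally singular subspaces). Then the G-class of γ is either a single T-class or the union of exactly two T-classes, and it is the union of two unless m is odd and q ≡ 3 (mod 4). -/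
theorem result {F : Type*} [Field F] [Fintype F] (hodd : Odd (Fintype.card F)) {m : ℕ} (hm : 4 ≤ m) (γ : MulAut (Cfsg.POmega F (Cfsg.quadFormPlus m F))) (hγ : Cfsg.IsSimilarityGraphAutPOmegaPlus m γ) (hγ2 : orderOf γ = 2) :
    (Cfsg.splitClassCount (Cfsg.inndiagPOmegaPlus m F) (Cfsg.Inn (Cfsg.POmega F (Cfsg.quadFormPlus m F))) γ = 1 ∨ Cfsg.splitClassCount (Cfsg.inndiagPOmegaPlus m F) (Cfsg.Inn (Cfsg.POmega F (Cfsg.quadFormPlus m F))) γ = 2) ∧ (¬ (Odd m ∧ Fintype.card F % 4 = 3) → Cfsg.splitClassCount (Cfsg.inndiagPOmegaPlus m F) (Cfsg.Inn (Cfsg.POmega F (Cfsg.quadFormPlus m F))) γ = 2) := by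
  have h2 : (2 : F) ≠ 0 := Ring.two_ne_zero fun h => by
    have := FiniteField.even_card_of_char_two h
    obtain ⟨k, hk⟩ := hodd
    omega
  obtain ⟨g, hg, hd, rfl⟩ := Lib.Orth.Gam.isSimilarityGraphAutPOmegaPlus_iff.1 hγ
  have hQ := Lib.Orth.nd_qPlus (F := F) m
  haveI : ((Lib.Orth.Gam.ZOm (Lib.Orth.qPlus m F)).map (Lib.Orth.Gam.rhoM _)).Normal :=
    Lib.Orth.Gam.inn_eq (Q := Lib.Orth.qPlus m F) ▸
      (inferInstance : (MulAut.conj (G := POmega F ⇑(Lib.Orth.qPlus m F))).range.Normal)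
  have h := Lib.Orth.split_graph hQ h2 (Lib.Orth.Gam.even_finrank_plus m) (k := m)
    (by simp [two_mul]) (by omega)
    (Lib.Orth.Gam.ker_rhoM hQ (Lib.Orth.not_exc_of_two_ne_zero h2) (by simp; omega)) hg hd
    (hγ2 ▸ pow_orderOf_eq_one _)
  rw [← Lib.Orth.Gam.inn_eq, ← Lib.Orth.Gam.inndiagPOmegaPlus_eq] at h
  exact ⟨h.1, fun h' => h.2 (.inr ((Lib.Orth.neg_mem_plus_iff hodd m).2 h'))⟩

end Cfsg.Agent.S2718
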