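import Cfsg.Statements.S2719
import Cfsg.Agent.Lib.Orth.Fus3

set_option autoImplicit false
open Cfsg

namespace Cfsg.Agent.S2719

/-- Let T = PΩ⁻_{2m+2}(F) with m ≥ 3 and |F| = q odd (form with anisotropic binary part z₁² + a z₁ z₂ + b z₂²), G = Inndiag(T), and γ an involutory graph automorphism of T (an automorphism in the image of the semisimilarity group, not inner-diagonal, of order 2). Then the G-class of γ is either a single T-class or the union of exactly two T-classes, and it is the union of two unless m is even and q ≡ 1 (mod 4). -/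
theorem result {F : Type*} [Field F] [Fintype F] (hodd : Odd (Fintype.card F)) {m : ℕ} (hm : 3 ≤ m) (a b : F) (hab : (∀ z₁ z₂ : F, z₁ ^ 2 + a * z₁ * z₂ + b * z₂ ^ 2 = 0 → z₁ = 0 ∧ z₂ = 0)) (γ : MulAut (Cfsg.POmega F (Cfsg.quadFormMinus m F a b))) (hγ : Cfsg.IsGraphAutClassPOmegaMinus m a b γ) (hγ2 : orderOf γ = 2) :
    (Cfsg.splitClassCount (Cfsg.inndiagPOmegaMinus m F a b) (Cfsg.Inn (Cfsg.POmega F (Cfsg.quadFormMinus m F a b))) γ = 1 ∨ Cfsg.splitClassCount (Cfsg.inndiagPOmegaMinus m F a b) (Cfsg.Inn (Cfsg.POmega F (Cfsg.quadFormMinus m F a b))) γ = 2) ∧ (¬ (Even m ∧ Fintype.card F % 4 = 1) → Cfsg.splitClassCount (Cfsg.inndiagPOmegaMinus m F a b) (Cfsg.Inn (Cfsg.POmega F (Cfsg.quadFormMinus m F a b))) γ = 2) := by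
  have h2 : (2 : F) ≠ 0 := Ring.two_ne_zero fun h => by
    have := FiniteField.even_card_of_char_two h
    obtain ⟨k, hk⟩ := hodd
    omega
  have hQ := Lib.Orth.nd_qMinus (F := F) m hab
  have hρ := Lib.Orth.Gam.ker_rhoM hQ (Lib.Orth.not_exc_of_two_ne_zero h2) (by simp; omega)
  obtain ⟨h1, h3, -⟩ := hγ
  obtain ⟨g, rfl⟩ := (Lib.Orth.Gam.gammaPOmega_eq (Q := Lib.Orth.qMinus m F a b)).le h1
  have hg := Lib.Orth.σ_eq_one_of_minus hQ (m := m) (by simp [two_mul])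
    (Lib.Orth.osign_qMinus m hab) hρ hγ2
  rw [Lib.Orth.Gam.inndiagPOmegaMinus_eq m hab] at h3
  haveI : ((Lib.Orth.Gam.ZOm (Lib.Orth.qMinus m F a b)).map (Lib.Orth.Gam.rhoM _)).Normal :=
    Lib.Orth.Gam.inn_eq (Q := Lib.Orth.qMinus m F a b) ▸
      (inferInstance : (MulAut.conj (G := POmega F ⇑(Lib.Orth.qMinus m F a b))).range.Normal)
  have h := Lib.Orth.split_graph hQ h2 (Lib.Orth.Gam.even_finrank_minus m) (k := m + 1)
    (by simp; omega) (by omega) hρ hg ((Int.units_eq_one_or _).resolve_left fun h =>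
      h3 ⟨g, Lib.Orth.Gam.mem_GOz.2 ⟨hg, h⟩, rfl⟩) (orderOf_dvd_iff_pow_eq_one.1 hγ2.dvd)
  rw [← Lib.Orth.Gam.inn_eq, ← Lib.Orth.Gam.inndiagPOmegaMinus_eq m hab] at h
  refine ⟨h.1, fun h' => h.2 ?_⟩
  by_cases hm : Even m
  · refine .inr ((Lib.Orth.neg_mem_minus_iff hodd m hab).2 ⟨hm, ?_⟩)
    obtain ⟨k, hk⟩ := hodd
    have := not_and.1 h' hm
    omega
  · exact .inl (Nat.even_add_one.2 hm)

end Cfsg.Agent.S2719
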