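import Cfsg.Statements.S2723
import Cfsg.Agent.Lib.Orth.GammaStd

set_option autoImplicit false
open Cfsg

namespace Cfsg.Agent.S2723

open Cfsg.Lib.Orth Cfsg.Lib.Orth.Gam

/-- Let T = PΩ⁺_{2m}(F) with m ≥ 4 and |F| = q odd. The image of the special orthogonal group in Aut(T) contains the inner automorphism group T with index 1 (they coincide) when m is odd and q ≡ 3 (mod 4), and with index 2 otherwise (the index is 2 exactly when the discriminant of the form is a square). -/
theorem result {F : Type*} [Field F] [Fintype F] (hodd : Odd (Fintype.card F)) {m : ℕ} (hm : 4 ≤ m) :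
    ((Odd m ∧ Fintype.card F % 4 = 3) → (Cfsg.Inn (Cfsg.POmega F (Cfsg.quadFormPlus m F))).relIndex (Cfsg.psoAut F (Cfsg.quadFormPlus m F)) = 1) ∧ (¬ (Odd m ∧ Fintype.card F % 4 = 3) → (Cfsg.Inn (Cfsg.POmega F (Cfsg.quadFormPlus m F))).relIndex (Cfsg.psoAut F (Cfsg.quadFormPlus m F)) = 2) := by
  have h2 := two_ne_zero_of_odd_card hodd
  have hQ := nd_qPlus (F := F) m
  have hE : ¬ Exc (qPlus m F) := not_exc_of_two_ne_zero h2
  rw [← coe_qPlus, inn_eq, psoAut_eq hQ h2]
  refine ⟨fun h => ?_, fun h => ?_⟩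
  · rw [ZSO_eq_ZOm hQ hE (even_finrank_plus m)
      (Or.inr ((neg_mem_plus_iff hodd m).not.2 (not_not.2 h))), Subgroup.relIndex_self]
  · rw [((hasQuot_ZSO hQ h2 (by simp; omega) ((neg_mem_plus_iff hodd m).2 h)).map _
      (ker_rhoM_le hQ hE (by simp; omega))).relIndex_eq]
    simp

end Cfsg.Agent.S2723
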