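import Cfsg.Statements.S2724
import Cfsg.Agent.Lib.Orth.GammaStd

set_option autoImplicit false
open Cfsg

namespace Cfsg.Agent.S2724

open Cfsg.Lib.Orth Cfsg.Lib.Orth.Gam

/-- Let T = PΩ⁺_{2m}(F) with m ≥ 4 and |F| = q odd. The image G̃ of the conformal orthogonal group in Aut(T), taken modulo the inner automorphism group T, is elementary abelian of order 4 when m is odd and q ≡ 3 (mod 4), and dihedral of order 8 otherwise. -/
theorem result {F : Type*} [Field F] [Fintype F] (hodd : Odd (Fintype.card F)) {m : ℕ} (hm : 4 ≤ m) :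
    ((Odd m ∧ Fintype.card F % 4 = 3) → (∃ φ : ↥(Cfsg.pgoAut F (Cfsg.quadFormPlus m F)) →* Multiplicative (ZMod 2 × ZMod 2), Function.Surjective φ ∧ φ.ker = (Cfsg.Inn (Cfsg.POmega F (Cfsg.quadFormPlus m F))).subgroupOf (Cfsg.pgoAut F (Cfsg.quadFormPlus m F)))) ∧ (¬ (Odd m ∧ Fintype.card F % 4 = 3) → (∃ φ : ↥(Cfsg.pgoAut F (Cfsg.quadFormPlus m F)) →* DihedralGroup 4, Function.Surjective φ ∧ φ.ker = (Cfsg.Inn (Cfsg.POmega F (Cfsg.quadFormPlus m F))).subgroupOf (Cfsg.pgoAut F (Cfsg.quadFormPlus m F)))) := by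
  have h2 := two_ne_zero_of_odd_card hodd
  have hQ := nd_qPlus (F := F) m
  have hE : ¬ Exc (qPlus m F) := not_exc_of_two_ne_zero h2
  have hk := ker_rhoM_le hQ hE (by simp; omega)
  rw [← coe_qPlus, inn_eq, pgoAut_eq]
  refine ⟨fun h => ?_, fun h => ?_⟩
  · have hZ := ZSO_eq_ZOm hQ hE (even_finrank_plus m)
      (Or.inr ((neg_mem_plus_iff hodd m).not.2 (not_not.2 h)))
    exact ((hZ ▸ hasQuot_GO_ZSO hQ h2 (even_finrank_plus m) (by simp; omega)).congr
      unitsIntProdEquiv).map _ hk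
  · exact (hasQuot_GO_dihedral hQ h2 (by simp; omega) ((neg_mem_plus_iff hodd m).2 h)).map _ hk

end Cfsg.Agent.S2724
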