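import Cfsg.Statements.S2725
import Cfsg.Agent.Lib.Orth.GammaStd

set_option autoImplicit false
open Cfsg

namespace Cfsg.Agent.S2725

open Cfsg.Lib.Orth Cfsg.Lib.Orth.Gam

/-- Let T = PΩ⁺_{2m}(F) with m ≥ 4 and |F| = q odd. The inner-diagonal group G = Inndiag(T) (image of the class-preserving similarities) taken modulo the inner automorphism group T is cyclic of order 2 when m is odd and q ≡ 3 (mod 4), cyclic of order 4 when m is odd and q ≡ 1 (mod 4), and elementary abelian of order 4 when m is even. -/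
theorem result {F : Type*} [Field F] [Fintype F] (hodd : Odd (Fintype.card F)) {m : ℕ} (hm : 4 ≤ m) :
    ((Odd m ∧ Fintype.card F % 4 = 3) → (∃ φ : ↥(Cfsg.inndiagPOmegaPlus m F) →* Multiplicative (ZMod 2), Function.Surjective φ ∧ φ.ker = (Cfsg.Inn (Cfsg.POmega F (Cfsg.quadFormPlus m F))).subgroupOf (Cfsg.inndiagPOmegaPlus m F))) ∧ ((Odd m ∧ Fintype.card F % 4 = 1) → (∃ φ : ↥(Cfsg.inndiagPOmegaPlus m F) →* Multiplicative (ZMod 4), Function.Surjective φ ∧ φ.ker = (Cfsg.Inn (Cfsg.POmega F (Cfsg.quadFormPlus m F))).subgroupOf (Cfsg.inndiagPOmegaPlus m F))) ∧ (Even m → (∃ φ : ↥(Cfsg.inndiagPOmegaPlus m F) →* Multiplicative (ZMod 2 × ZMod 2), Function.Surjective φ ∧ φ.ker = (Cfsg.Inn (Cfsg.POmega F (Cfsg.quadFormPlus m F))).subgroupOf (Cfsg.inndiagPOmegaPlus m F))) := by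
  have h2 := two_ne_zero_of_odd_card hodd
  have hQ := nd_qPlus (F := F) m
  have hE : ¬ Exc (qPlus m F) := not_exc_of_two_ne_zero h2
  have hk := ker_rhoM_le hQ hE (by simp; omega)
  have hn : Module.finrank F (Fin m ⊕ Fin m → F) = 2 * m := by simp [two_mul]
  have e1 := inndiagPOmegaPlus_eq (F := F) m
  have e2 := inn_eq (Q := qPlus m F)
  refine ⟨fun h => ?_, fun h => ?_, fun h => ?_⟩
  · have hZ := ZSO_eq_ZOm hQ hE (even_finrank_plus m)
      (Or.inr ((neg_mem_plus_iff hodd m).not.2 (not_not.2 h)))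
    exact ((((hasQuot_GOz_ZSO hQ h2 (even_finrank_plus m) (by omega)).of_eq rfl hZ.symm).congr
      unitsIntEquiv).map _ hk).of_eq e1 e2
  · exact ((hasQuot_GOz_four hQ h2 _ hn h.1 ((neg_mem_plus_iff hodd m).2 (by omega))).map _
      hk).of_eq e1 e2
  · exact ((hasQuot_GOz_klein hQ h2 _ hn h (by omega) ((neg_mem_plus_iff hodd m).2
      fun h' => Nat.not_even_iff_odd.2 h'.1 h)).map _ hk).of_eq e1 e2

end Cfsg.Agent.S2725
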