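import Cfsg.Statements.S2726
import Cfsg.Agent.Lib.Orth.GammaStd

set_option autoImplicit false
open Cfsg

namespace Cfsg.Agent.S2726

open Cfsg.Lib.Orth Cfsg.Lib.Orth.Gam

/-- Let T = PΩ⁻_{2m+2}(F) with m ≥ 3 and |F| = q odd (form with anisotropic binary part). Inside Aut(T), the image G̃ of the conformal orthogonal group of the form modulo the image of the special orthogonal group is elementary abelian of order 4. -/
theorem result {F : Type*} [Field F] [Fintype F] (hodd : Odd (Fintype.card F)) {m : ℕ} (hm : 3 ≤ m) (a b : F) (hab : (∀ z₁ z₂ : F, z₁ ^ 2 + a * z₁ * z₂ + b * z₂ ^ 2 = 0 → z₁ = 0 ∧ z₂ = 0)) :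
    (∃ φ : ↥(Cfsg.pgoAut F (Cfsg.quadFormMinus m F a b)) →* Multiplicative (ZMod 2 × ZMod 2), Function.Surjective φ ∧ φ.ker = (Cfsg.psoAut F (Cfsg.quadFormMinus m F a b)).subgroupOf (Cfsg.pgoAut F (Cfsg.quadFormMinus m F a b))) := by
  have h2 := two_ne_zero_of_odd_card hodd
  have hQ := nd_qMinus m hab
  rw [← coe_qMinus, pgoAut_eq, psoAut_eq hQ h2]
  exact ((hasQuot_GO_ZSO hQ h2 (even_finrank_minus m) (by simp)).congr
    unitsIntProdEquiv).map _ ((ker_rhoM_le hQ (not_exc_of_two_ne_zero h2)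
      (by simp; omega)).trans (ZOm_le_ZSO _))

end Cfsg.Agent.S2726
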