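import Cfsg.Statements.S2727
import Cfsg.Agent.Lib.Orth.GammaStd

set_option autoImplicit false
open Cfsg

namespace Cfsg.Agent.S2727

open Cfsg.Lib.Orth Cfsg.Lib.Orth.Gam

/-- Let T = PΩ⁻_{2m+2}(F) with m ≥ 3 and |F| = q odd (form with anisotropic binary part). The image of the special orthogonal group in Aut(T) contains the inner automorphism group T with index 2 when m is even and q ≡ 3 (mod 4), and coincides with it otherwise (the index is 2 exactly when the discriminant of the form is a square). -/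
theorem result {F : Type*} [Field F] [Fintype F] (hodd : Odd (Fintype.card F)) {m : ℕ} (hm : 3 ≤ m) (a b : F) (hab : (∀ z₁ z₂ : F, z₁ ^ 2 + a * z₁ * z₂ + b * z₂ ^ 2 = 0 → z₁ = 0 ∧ z₂ = 0)) :
    ((Even m ∧ Fintype.card F % 4 = 3) → (Cfsg.Inn (Cfsg.POmega F (Cfsg.quadFormMinus m F a b))).relIndex (Cfsg.psoAut F (Cfsg.quadFormMinus m F a b)) = 2) ∧ (¬ (Even m ∧ Fintype.card F % 4 = 3) → (Cfsg.Inn (Cfsg.POmega F (Cfsg.quadFormMinus m F a b))).relIndex (Cfsg.psoAut F (Cfsg.quadFormMinus m F a b)) = 1) := by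
  have h2 := two_ne_zero_of_odd_card hodd
  have hQ := nd_qMinus m hab
  have hE : ¬ Exc (qMinus m F a b) := not_exc_of_two_ne_zero h2
  rw [← coe_qMinus, inn_eq, psoAut_eq hQ h2]
  refine ⟨fun h => ?_, fun h => ?_⟩
  · rw [((hasQuot_ZSO hQ h2 (by simp) ((neg_mem_minus_iff hodd m hab).2 h)).map _
      (ker_rhoM_le hQ hE (by simp; omega))).relIndex_eq]
    simp
  · rw [ZSO_eq_ZOm hQ hE (even_finrank_minus m)
      (Or.inr ((neg_mem_minus_iff hodd m hab).not.2 h)), Subgroup.relIndex_self]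

end Cfsg.Agent.S2727
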