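import Cfsg.Statements.S2729
import Cfsg.Agent.Lib.Orth.GammaStd

set_option autoImplicit false
open Cfsg

namespace Cfsg.Agent.S2729

open Cfsg.Lib.Orth Cfsg.Lib.Orth.Gam

/-- Let T = PΩ⁻_{2m+2}(F) with m ≥ 3 and |F| = q odd (form with anisotropic binary part). The inner-diagonal group G = Inndiag(T) (image of the class-preserving similarities) taken modulo the inner automorphism group T is cyclic of order 4 when m is even and q ≡ 3 (mod 4), and of order 2 otherwise. -/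
theorem result {F : Type*} [Field F] [Fintype F] (hodd : Odd (Fintype.card F)) {m : ℕ} (hm : 3 ≤ m) (a b : F) (hab : (∀ z₁ z₂ : F, z₁ ^ 2 + a * z₁ * z₂ + b * z₂ ^ 2 = 0 → z₁ = 0 ∧ z₂ = 0)) :
    ((Even m ∧ Fintype.card F % 4 = 3) → (∃ φ : ↥(Cfsg.inndiagPOmegaMinus m F a b) →* Multiplicative (ZMod 4), Function.Surjective φ ∧ φ.ker = (Cfsg.Inn (Cfsg.POmega F (Cfsg.quadFormMinus m F a b))).subgroupOf (Cfsg.inndiagPOmegaMinus m F a b))) ∧ (¬ (Even m ∧ Fintype.card F % 4 = 3) → (∃ φ : ↥(Cfsg.inndiagPOmegaMinus m F a b) →* Multiplicative (ZMod 2), Function.Surjective φ ∧ φ.ker = (Cfsg.Inn (Cfsg.POmega F (Cfsg.quadFormMinus m F a b))).subgroupOf (Cfsg.inndiagPOmegaMinus m F a b))) := by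
  have h2 := two_ne_zero_of_odd_card hodd
  have hQ := nd_qMinus m hab
  have hE : ¬ Exc (qMinus m F a b) := not_exc_of_two_ne_zero h2
  have hk := ker_rhoM_le hQ hE (by simp; omega)
  have hn : Module.finrank F ((Fin m ⊕ Fin m) ⊕ Fin 2 → F) = 2 * (m + 1) := by simp; omega
  have e1 := inndiagPOmegaMinus_eq m hab
  have e2 := inn_eq (Q := qMinus m F a b)
  refine ⟨fun h => ?_, fun h => ?_⟩
  · exact ((hasQuot_GOz_four hQ h2 _ hn h.1.add_one ((neg_mem_minus_iff hodd m hab).2 h)).map _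
      hk).of_eq e1 e2
  · have hZ := ZSO_eq_ZOm hQ hE (even_finrank_minus m)
      (Or.inr ((neg_mem_minus_iff hodd m hab).not.2 h))
    exact ((((hasQuot_GOz_ZSO hQ h2 (even_finrank_minus m) (by omega)).of_eq rfl hZ.symm).congr
      unitsIntEquiv).map _ hk).of_eq e1 e2

end Cfsg.Agent.S2729
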