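import Cfsg.Statements.S2736
import Cfsg.Agent.Lib.Orth.Split
import Cfsg.Agent.Lib.Orth.Triality

set_option autoImplicit false
open Cfsg

namespace Cfsg.Agent.S2736

open Cfsg.Lib Cfsg.Lib.Orth Cfsg.Lib.Orth.Gam

/-- Let T = PΩ⁺_{2m}(F) with m ≥ 5 (dimension ≠ 8) and x a field automorphism or a graph-field automorphism of T of prime order r. Then an element y of the coset Inndiag(T)·x (y = δ x with δ induced by a class-preserving similarity) has order r if and only if y is conjugate to x by an element of Inndiag(T). -/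
theorem result {F : Type*} [Field F] [Fintype F] {m : ℕ} (hm : 5 ≤ m) (x δ : MulAut (Cfsg.POmega F (Cfsg.quadFormPlus m F))) (hx : Cfsg.IsFieldAutClassPOmega (Cfsg.quadFormPlus m F) x ∨ Cfsg.IsGraphFieldAutClassPOmegaPlus m x) {r : ℕ} (hr : r.Prime) (hxr : orderOf x = r) (hδ : δ ∈ Cfsg.inndiagPOmegaPlus m F) :
    orderOf (δ * x) = r ↔ Cfsg.IsConjUnder (Cfsg.inndiagPOmegaPlus m F) x (δ * x) := by
  haveI : NeZero m := ⟨by omega⟩
  obtain ⟨a, ψ, rfl, h⟩ : ∃ (a : MulAut (POmega F ⇑(qPlus m F))) (ψ : Gam (qPlus m F)),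
      x = a * rhoM _ ψ * a⁻¹ ∧ ψ ^ orderOf ψ.σ = 1 := by
    rcases hx with hx | hx
    · obtain ⟨a, σ, h⟩ := exists_of_isFieldAutClass (Q := qPlus m F)
        (fun σ => qPlus_comp (σ : F →+* F) m) hx
      exact ⟨a, _, h, field_pow_orderOf _⟩
    · obtain ⟨ψ, h, h'⟩ := exists_isGF hm hx (hxr ▸ hr)
      exact ⟨1, ψ, h'.trans (by simp), h.pow⟩
  rw [inndiagPOmegaPlus_eq] at hδ ⊢
  rw [← hxr]
  exact (langData_even (nd_qPlus m) _ (by simp; omega) (normal_map_GOz_plus (by omega))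
    h).orderOf_eq_iff a hδ

end Cfsg.Agent.S2736
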