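import Cfsg.Statements.S2738
import Cfsg.Agent.Lib.Linear.Simple

set_option autoImplicit false
open Cfsg

namespace Cfsg.Agent.S2738

open Cfsg.Lib
open scoped commutatorElement

/-- The special linear group SL(3, 4) has centre of order 3 and does not split over it: no subgroup is a complement to the centre (so SL(3, 4) is a non-split central extension of PSL(3, 4) by a group of order 3). -/
theorem result (F : Type*) [Field F] [Fintype F] (hF : Fintype.card F = 4) : Nat.card ↥(Subgroup.center (Matrix.SpecialLinearGroup (Fin 3) F)) = 3 ∧ ¬ ∃ K : Subgroup (Matrix.SpecialLinearGroup (Fin 3) F), Subgroup.IsComplement' (Subgroup.center (Matrix.SpecialLinearGroup (Fin 3) F)) K := by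
  have hc : Nat.card ↥(Subgroup.center (Matrix.SpecialLinearGroup (Fin 3) F)) = 3 := by
    have h1 := Linear.card_PSL_mul (ι := Fin 3) (F := F)
    have h2 := Subgroup.card_eq_card_quotient_mul_card_subgroup
      (Subgroup.center (Matrix.SpecialLinearGroup (Fin 3) F))
    rw [hF, Fintype.card_fin] at h1
    have h3 : 0 < Nat.card (Matrix.ProjectiveSpecialLinearGroup (Fin 3) F) := Nat.card_pos
    have h4 : Nat.card (Matrix.ProjectiveSpecialLinearGroup (Fin 3) F) * 3 =
        Nat.card (Matrix.ProjectiveSpecialLinearGroup (Fin 3) F) *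
          Nat.card ↥(Subgroup.center (Matrix.SpecialLinearGroup (Fin 3) F)) := by
      rw [mul_comm _ 3]
      exact h1.trans h2
    exact (Nat.eq_of_mul_eq_mul_left h3 h4).symm
  refine ⟨hc, ?_⟩
  rintro ⟨K, hK⟩
  have hp := Linear.commutator_SL_eq_top (ι := Fin 3) (F := F) (Or.inl (by simp))
  have hle : commutator (Matrix.SpecialLinearGroup (Fin 3) F) ≤ K := by
    rw [commutator_def, Subgroup.commutator_le]
    intro a _ b _
    obtain ⟨⟨⟨z, hz⟩, ⟨k, hk⟩⟩, rfl⟩ := hK.2 a
    obtain ⟨⟨⟨z', hz'⟩, ⟨k', hk'⟩⟩, rfl⟩ := hK.2 b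
    have h1 := Subgroup.mem_center_iff.1 hz
    have h2 := Subgroup.mem_center_iff.1 hz'
    have : ⁅z * k, z' * k'⁆ = k * k' * k⁻¹ * k'⁻¹ := by
      rw [commutatorElement_def]
      calc _ = z * (k * (z' * (k' * k⁻¹))) * z⁻¹ * k'⁻¹ * z'⁻¹ := by group
        _ = (k * (z' * (k' * k⁻¹))) * k'⁻¹ * z'⁻¹ := by rw [← h1]; group
        _ = z' * (k * k' * k⁻¹ * k'⁻¹) * z'⁻¹ := by rw [← mul_assoc k, h2]; group
        _ = _ := by rw [← h2]; group
    show ⁅z * k, z' * k'⁆ ∈ K
    rw [this]
    exact K.mul_mem (K.mul_mem (K.mul_mem hk hk') (K.inv_mem hk)) (K.inv_mem hk')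
  rw [hp, top_le_iff] at hle
  have := hK.disjoint
  rw [hle, disjoint_top] at this
  rw [this, Subgroup.card_bot] at hc
  omega

end Cfsg.Agent.S2738
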