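import Cfsg.Statements.S2739
import Cfsg.Agent.Lib.GLC.Elus
import Cfsg.Agent.Lib.GLC.Diag

set_option autoImplicit false
open scoped Pointwise
open Cfsg

namespace Cfsg.Agent.S2739

open Cfsg.Lib.GLC Matrix Module

theorem key {F : Type*} [Field F] [Fintype F] [DecidableEq F] (hF : Fintype.card F = 4)
    (x : SpecialLinearGroup (Fin 3) F)
    (hx : orderOf (x : ProjectiveSpecialLinearGroup (Fin 3) F) = 3) :
    Blocks (toLin' x.1) (lt (Finset.univ.erase (0 : F)).val) := by
  obtain ⟨c, hc⟩ := orderOf_psl_dvd_iff.1 hx.dvd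
  have hns : ∀ c : F, toLin' x.1 ≠ c • 1 := by
    intro c h
    have : orderOf (x : ProjectiveSpecialLinearGroup (Fin 3) F) ∣ 1 :=
      orderOf_psl_dvd_iff.2 ⟨c, by rw [pow_one, h]⟩
    rw [hx] at this; omega
  have hdet : LinearMap.det (toLin' x.1) = 1 := by rw [LinearMap.det_toLin', x.2]
  have h3 : ∀ a : F, a ≠ 0 → a ^ 3 = 1 := fun a ha => by
    have := FiniteField.pow_card_sub_one_eq_one a ha
    rwa [hF] at this
  have hc1 : c = 1 := by
    by_cases h : ∃ b : F, b ^ 3 = c
    · obtain ⟨b, rfl⟩ := h
      apply h3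
      rintro rfl
      have := congrArg LinearMap.det hc
      rw [map_pow, hdet, det_smul_one] at this
      simp at this
    · push Not at h
      obtain ⟨k, hk, -, h2⟩ := typ_of_kummer Nat.prime_three h hc
      rw [finrank_fin_fun] at hk
      have : k = 1 := by omega
      subst this
      rw [hdet] at h2
      linear_combination -h2
  subst hc1
  obtain ⟨M, hM⟩ := exists_lt_of_pow (f := toLin' x.1) (r := 3) (c := (1 : F))
    (by rw [Nat.card_eq_fintype_card, hF]) one_ne_zero (by rw [hc, one_pow])
  have hcard := hM.lt_card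
  rw [finrank_fin_fun] at hcard
  have hprod := hM.lt_det
  rw [hdet] at hprod
  have hM3 := hM.lt_pow_eq_iff.1 hc
  have hne : ∀ c, ¬ ∀ a ∈ M, a = c := fun c h => hns c (hM.lt_eq_smul_iff.2 h)
  obtain ⟨a, b, d, rfl⟩ := Multiset.card_eq_three.1 hcard
  have ha := hM3 a (by simp)
  have hb := hM3 b (by simp)
  have hd := hM3 d (by simp)
  have ha0 : a ≠ 0 := by rintro rfl; simp at ha
  have hb0 : b ≠ 0 := by rintro rfl; simp at hb
  have hd0 : d ≠ 0 := by rintro rfl; simp at hd
  simp only [Multiset.insert_eq_cons, Multiset.prod_cons, Multiset.prod_singleton] at hprod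
  have hab : a ≠ b := by
    rintro rfl
    have : d = a := by linear_combination -d * ha + a * (-hprod) + a * 0
    exact hne a (by simp [this])
  have had : a ≠ d := by
    rintro rfl
    have : b = a := by linear_combination -b * ha + a * (-hprod)
    exact hne a (by simp [this])
  have hbd : b ≠ d := by
    rintro rfl
    have : a = b := by linear_combination -a * hb + b * (-hprod)
    exact hne a (by simp [this])
  have : ({a, b, d} : Finset F) = Finset.univ.erase 0 := by
    apply Finset.eq_of_subset_of_card_le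
    · intro z hz
      simp only [Finset.mem_insert, Finset.mem_singleton] at hz
      rcases hz with rfl | rfl | rfl <;> simp [*]
    · rw [Finset.card_erase_of_mem (Finset.mem_univ _), Finset.card_univ, hF,
        Finset.card_eq_three.2 ⟨a, b, d, hab, had, hbd, rfl⟩]
  rw [← this]
  convert hM using 2
  simp [Finset.insert_val, hab, had, hbd]

/-- In the projective special linear group PSL(3, 4) all subgroups of order 3 are conjugate. -/
theorem result (F : Type*) [Field F] [Fintype F] (hF : Fintype.card F = 4) (X Y : Subgroup (Matrix.ProjectiveSpecialLinearGroup (Fin 3) F)) (hX : Nat.card ↥X = 3) (hY : Nat.card ↥Y = 3) : ∃ g : Matrix.ProjectiveSpecialLinearGroup (Fin 3) F, MulAut.conj g • X = Y := by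
  classical
  haveI := Fact.mk Nat.prime_three
  haveI := isCyclic_of_prime_card hX
  haveI := isCyclic_of_prime_card hY
  obtain ⟨x, hx⟩ := (Subgroup.isCyclic_iff_exists_zpowers_eq_top X).1 inferInstance
  obtain ⟨y, hy⟩ := (Subgroup.isCyclic_iff_exists_zpowers_eq_top Y).1 inferInstance
  rw [← hx, Nat.card_zpowers] at hX
  rw [← hy, Nat.card_zpowers] at hY
  obtain ⟨a, rfl⟩ := QuotientGroup.mk_surjective x
  obtain ⟨b, rfl⟩ := QuotientGroup.mk_surjective y
  have ha := key hF a hX
  have hb := key hF b hY
  obtain ⟨g, hg⟩ := isConj_iff.1 (sl_isConj_of_sim (ha.sim hb)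
    (detC_eq_top_of_isSemisimple ha.lt_isSemisimple))
  refine ⟨g, ?_⟩
  rw [← hx, ← hy, Subgroup.pointwise_smul_def, ← hg]
  exact MonoidHom.map_zpowers _ _

end Cfsg.Agent.S2739
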