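import Cfsg.Statements.S2751
import Cfsg.Agent.Lib.Amalgam.GMain

set_option autoImplicit false
open Cfsg

namespace Cfsg.Agent.S2751

open Cfsg.Lib.Loc Cfsg.Lib.BG Cfsg.Lib.Core Cfsg.Lib.Transfer Cfsg.Lib.Amalgam Subgroup

/-- Goldschmidt's bound for amalgams of index (3, 3): let M₁ and M₂ be finite subgroups of a group G such that M₁ ⊓ M₂ is a Sylow 2-subgroup of both M₁ and M₂, each quotient Mᵢ / O₂(Mᵢ) is isomorphic to the symmetric group of degree 3, and no nontrivial subgroup of M₁ ⊓ M₂ is normal in both M₁ and M₂. Then M₁ ⊓ M₂ has order at most 2^7. -/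
theorem result {G : Type*} [Group G] (M₁ M₂ : Subgroup G) [Finite M₁] [Finite M₂] (ha₁ : ∃ P : Sylow 2 M₁, (P : Subgroup M₁) = (M₁ ⊓ M₂).subgroupOf M₁) (ha₂ : ∃ P : Sylow 2 M₂, (P : Subgroup M₂) = (M₁ ⊓ M₂).subgroupOf M₂) (hb₁ : Nonempty (M₁ ⧸ Cfsg.pCore 2 M₁ ≃* Equiv.Perm (Fin 3))) (hb₂ : Nonempty (M₂ ⧸ Cfsg.pCore 2 M₂ ≃* Equiv.Perm (Fin 3))) (hc : ∀ N : Subgroup G, N ≤ M₁ ⊓ M₂ → (N.subgroupOf M₁).Normal → (N.subgroupOf M₂).Normal → N = ⊥) : Nat.card ↥(M₁ ⊓ M₂) ≤ 2 ^ 7 := by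
  have k : ∀ (P : Subgroup G) [Finite P], (∃ S : Sylow 2 P, (S : Subgroup P) = (M₁ ⊓ M₂).subgroupOf P) →
      M₁ ⊓ M₂ ≤ P → FSyl 2 (M₁ ⊓ M₂) P := fun P _ ⟨S, hS⟩ hle => by
    have := fsyl_of_sylow S
    rwa [hS, subOf_map hle] at this
  have := (s3am_subgroupOf (isS3_of_equiv hb₁) (isS3_of_equiv hb₂) (k _ ha₁ inf_le_left) (k _ ha₂ inf_le_right)
    fun N hN a b => hc N hN ((normal_subgroupOf_iff_le_normalizer (hN.trans inf_le_left)).2 a)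
      ((normal_subgroupOf_iff_le_normalizer (hN.trans inf_le_right)).2 b)).card_le
  rwa [← subOf_inf, Nat.card_congr (subgroupOfEquivOfLe (inf_le_left.trans le_sup_left)).toEquiv] at this

end Cfsg.Agent.S2751
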