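import Cfsg.Statements.S2753
import Cfsg.Agent.Lib.S4F.Factor

set_option autoImplicit false
universe u
open Cfsg

set_option linter.unusedVariables false
open Cfsg.Lib

namespace Cfsg.Agent.S2753

/-- Glauberman's 2-factorization Theorem: let G be a finite group with C_G(O₂(G)) ≤ O₂(G) in which the symmetric group of degree 4 is not involved and every non-abelian composition factor is a Suzuki group Sz(2^(2n+1)) or a group PSL₂(3^(2n+1)). Then for a Sylow 2-subgroup S, G = C(Z(S)) N(J_e(S)) = C(Z(S)) N(Ĵ(S)) = C(Ω₁(Z(Ĵ(S)))) N(J_e(S)), where J_e(S) is the Thompson subgroup generated by the elementary abelian subgroups of largest order and Ĵ(S) the subgroup generated by the E-subgroups of S containing J_e(S); each product is written elementwise. -/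
theorem result {G : Type u} [Group G] [Finite G] (hchar : Subgroup.centralizer (Cfsg.pCore 2 G : Set G) ≤ Cfsg.pCore 2 G) (hfree : ¬ Cfsg.Involves (Equiv.Perm (Fin 4)) G) (hc : Cfsg.IsCompositionKGroupWith Cfsg.IsSuzukiOrPSL2OddPowerThree G) (S : Sylow 2 G) : (∀ g : G, ∃ c ∈ Subgroup.centralizer ((((S : Subgroup G) ⊓ Subgroup.centralizer ((S : Subgroup G) : Set G)) : Subgroup G) : Set G), ∃ n ∈ Subgroup.normalizer (((Cfsg.thompsonSubgroupOf 2 (S : Subgroup G)) : Subgroup G) : Set G), g = c * n) ∧ (∀ g : G, ∃ c ∈ Subgroup.centralizer ((((S : Subgroup G) ⊓ Subgroup.centralizer ((S : Subgroup G) : Set G)) : Subgroup G) : Set G), ∃ n ∈ Subgroup.normalizer ((((Cfsg.jHat ↥(S : Subgroup G)).map (S : Subgroup G).subtype) : Subgroup G) : Set G), g = c * n) ∧ (∀ g : G, ∃ c ∈ Subgroup.centralizer ((Cfsg.omegaOne 2 (((Cfsg.jHat ↥(S : Subgroup G)).map (S : Subgroup G).subtype) ⊓ Subgroup.centralizer (((Cfsg.jHat ↥(S : Subgroup G)).map (S : Subgroup G).subtype) : Set G))) : Set G), ∃ n ∈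 Subgroup.normalizer (((Cfsg.thompsonSubgroupOf 2 (S : Subgroup G)) : Subgroup G) : Set G), g = c * n) := by
  open Cfsg.Lib.S4F Cfsg.Lib.PLocal Cfsg.Lib.BG Cfsg.Lib.Loc in
  have : Fact (Nat.Prime 2) := ⟨Nat.prime_two⟩
  have h1 := isChP_top.2 hchar
  have h2 := fr_top hchar fun e => hfree (hasSection_iff.1 e)
  have h3 := ks_of_comp hc
  have h4 : KS (⊤ : Subgroup G) := h3.of_section hasSection_refl.of_subgroup
  have hi := Transfer.sylow_not_dvd_relIndex S le_top
  rw [jHat_eq]
  exact ⟨fun g => fact_one h1 h2 h4 le_top S.isPGroup' hi trivial, fact_two S.isPGroup' h1 h2 h3 hi,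
    fun g => fact_three h1 h2 h4 le_top S.isPGroup' hi trivial⟩

end Cfsg.Agent.S2753
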