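import Cfsg.Statements.S2758
import Cfsg.Agent.Lib.PLocal.Invert

set_option autoImplicit false
open Cfsg

set_option linter.unusedVariables false
open Cfsg.Lib

namespace Cfsg.Agent.S2758

/-- For an odd prime p and a finite group G the following are equivalent: the dihedral group of order 2p is involved in G; some element of 2-power order normalizes but does not centralize some p-subgroup of G; some element of 2-power order inverts some nonidentity element of p-power order. -/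
theorem result {G : Type*} [Group G] [Finite G] {p : ℕ} [Fact p.Prime] (hp : p ≠ 2) : (Cfsg.Involves (DihedralGroup p) G ↔ ∃ (x : G) (P : Subgroup G), (∃ k : ℕ, orderOf x = 2 ^ k) ∧ IsPGroup p ↥P ∧ x ∈ Subgroup.normalizer (P : Set G) ∧ x ∉ Subgroup.centralizer (P : Set G)) ∧ (Cfsg.Involves (DihedralGroup p) G ↔ ∃ x y : G, (∃ k : ℕ, orderOf x = 2 ^ k) ∧ (∃ k : ℕ, orderOf y = p ^ k) ∧ y ≠ 1 ∧ x * y * x⁻¹ = y⁻¹) := by
  open Subgroup PLocal in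
  have h1 : ∀ {q : ℕ} [Fact q.Prime] {x : G}, (∃ k, orderOf x = q ^ k) ↔ ∃ k, x ^ q ^ k = 1 :=
    fun {q} hq x => ⟨fun ⟨k, hk⟩ => ⟨k, hk ▸ pow_orderOf_eq_one x⟩, fun ⟨k, hk⟩ =>
      ((Nat.dvd_prime_pow hq.out).mp (orderOf_dvd_of_pow_eq_one hk)).imp fun _ h => h.2⟩
  have := Fact.mk Nat.prime_two
  simp only [h1]
  have h2 : (∃ (x : G) (P : Subgroup G), (∃ k : ℕ, x ^ 2 ^ k = 1) ∧ IsPGroup p ↥P ∧
      x ∈ normalizer (P : Set G) ∧ x ∉ centralizer (P : Set G)) → ∃ x y : G,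
      (∃ k : ℕ, x ^ 2 ^ k = 1) ∧ (∃ k : ℕ, y ^ p ^ k = 1) ∧ y ≠ 1 ∧ x * y * x⁻¹ = y⁻¹ := by
    rintro ⟨x, P, ⟨k, hk⟩, hP, hn, hc⟩
    obtain ⟨j, y, hy, h⟩ := exists_pow_inverts hk hn hc
    exact ⟨_, y, ⟨k, by rw [← pow_mul, mul_comm, pow_mul, hk, one_pow]⟩,
      Core.isPGroup_subgroup_iff.mp hP y hy, h⟩
  have h3 : (∃ x y : G, (∃ k : ℕ, x ^ 2 ^ k = 1) ∧ (∃ k : ℕ, y ^ p ^ k = 1) ∧ y ≠ 1 ∧
      x * y * x⁻¹ = y⁻¹) → Involves (DihedralGroup p) G := fun ⟨x, y, ⟨k, hk⟩, ⟨l, hl⟩, h, h'⟩ =>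
    hasSection_iff.mp (hasSection_dihedral_of_inverts hp hk hl h h')
  have h4 := fun h : Involves (DihedralGroup p) G =>
    exists_normalizes_of_hasSection_dihedral hp (hasSection_iff.mpr h)
  exact ⟨⟨h4, fun h => h3 (h2 h)⟩, fun h => h2 (h4 h), h3⟩

end Cfsg.Agent.S2758
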