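import Cfsg.Statements.S2762
import Cfsg.Agent.Lib.PLocal.QdOver

set_option autoImplicit false
open Cfsg

set_option linter.unusedVariables false
open Cfsg.Lib

namespace Cfsg.Agent.S2762

/-- Structure of Qd over a finite field F of characteristic p (the affine subgroup of SL₃(F)): its largest normal p-subgroup is the group of translations (matrices with upper-left block the identity), the block-diagonal matrices form a complement isomorphic to SL₂(F), and the translation subgroup is a natural SL₂(F)-module for that complement. -/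
theorem result {F : Type*} [Field F] [Fintype F] {p : ℕ} [Fact p.Prime] [CharP F p] : (∀ M : ↥(Cfsg.qdOver F), M ∈ Cfsg.pCore p ↥(Cfsg.qdOver F) ↔ ((M : Matrix.SpecialLinearGroup (Fin 3) F) : Matrix (Fin 3) (Fin 3) F) 0 0 = 1 ∧ ((M : Matrix.SpecialLinearGroup (Fin 3) F) : Matrix (Fin 3) (Fin 3) F) 0 1 = 0 ∧ ((M : Matrix.SpecialLinearGroup (Fin 3) F) : Matrix (Fin 3) (Fin 3) F) 1 0 = 0 ∧ ((M : Matrix.SpecialLinearGroup (Fin 3) F) : Matrix (Fin 3) (Fin 3) F) 1 1 = 1) ∧ ∃ K : Subgroup ↥(Cfsg.qdOver F), (∀ M : ↥(Cfsg.qdOver F), M ∈ K ↔ ((M : Matrix.SpecialLinearGroup (Fin 3) F) : Matrix (Fin 3) (Fin 3) F) 0 2 = 0 ∧ ((M : Matrix.SpecialLinearGroup (Fin 3) F) : Matrix (Fin 3) (Fin 3) F) 1 2 = 0) ∧ K ⊓ Cfsg.pCore p ↥(Cfsg.qdOver F) = ⊥ ∧ K ⊔ Cfsg.pCore p ↥(Cfsg.qdOver F) = ⊤ ∧ Nonempty (↥K ≃* Matrix.SpecialLinearGroup (Fin 2) F) ∧ Cfsg.IsNaturalSL2Module F (Cfsg.pCore p ↥(Cfsg.qdOver F)) K := by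
  open Subgroup PLocal.QdF in
  rw [pCore_eq]
  refine ⟨fun M => ?_, lin.range, fun M => ?_, eq_bot_iff.mpr fun M hM => ?_,
    eq_top_iff.mpr fun M _ => ?_, ⟨(MonoidHom.ofInjective lin_injective).symm⟩, isNaturalSL2Module⟩
  all_goals obtain ⟨A, v, rfl⟩ := exists_elt M
  · rw [elt_mem_tr]
    refine ⟨fun h => h ▸ ⟨rfl, rfl, rfl, rfl⟩, fun ⟨h1, h2, h3, h4⟩ => Subtype.ext ?_⟩
    ext i j
    fin_cases i <;> fin_cases j
    exacts [h1, h2, h3, h4]
  · rw [elt_mem_lin]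
    refine ⟨fun h => h ▸ ⟨rfl, rfl⟩, fun ⟨h1, h2⟩ => funext fun i => ?_⟩
    fin_cases i
    exacts [h1, h2]
  · rw [elt_mem_lin.mp hM.1, elt_mem_tr.mp hM.2]
    exact elt_one
  · have : elt A v = elt 1 v * elt A 0 := by rw [elt_mul, one_mul, Matrix.mulVec_zero, add_zero]
    exact this ▸ mul_mem (mem_sup_right (elt_mem_tr.mpr rfl)) (mem_sup_left (elt_mem_lin.mpr rfl))

end Cfsg.Agent.S2762
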