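import Cfsg.Statements.S2763
import Cfsg.Agent.Lib.PLocal.QdFacts

set_option autoImplicit false
open Cfsg

set_option linter.unusedVariables false
open Cfsg.Lib

namespace Cfsg.Agent.S2763

open Subgroup Transfer PLocal Matrix in
theorem qdB_le {p : ℕ} [Fact p.Prime] :
    (qdB : Subgroup (qd p)) ≤ normalizer ((qdT : Subgroup (qd p)) : Set (qd p)) := fun g hg => by
  refine mem_normalizer_of_conj_le (conj_le_iff.mpr ?_)
  rintro _ ⟨b, c, d, rfl⟩
  obtain ⟨A, v, rfl⟩ := exists_qdElt g
  have h0 := qdElt_mem_qdB.mp hg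
  have h1 : A.1 0 0 * A.1 1 1 = 1 := by
    have := A.2
    rwa [det_fin_two, show A.1 1 0 = 0 from h0, mul_zero, sub_zero] at this
  have h2 : A * unip b = unip (A.1 0 0 * A.1 0 0 * b) * A := Subtype.ext (by
    change A.1 * !![1, b; 0, 1] = !![1, _; 0, 1] * A.1
    ext i j
    fin_cases i <;> fin_cases j <;>
      simp [mul_apply, Fin.sum_univ_two, show A.1 1 0 = 0 from h0]
    linear_combination (-(A.1 0 0 * b)) * h1)
  rw [heis, qdElt_mul, qdElt_inv, qdElt_mul, h2, mul_inv_cancel_right]
  exact ⟨_, _, _, congrArg (qdElt _) (funext fun i => by fin_cases i <;> rfl)⟩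

/-- In the group Qd(p) (p prime; the natural semidirect product of an elementary abelian group of order p² by SL₂(p)), the normalizer of every nontrivial characteristic subgroup of a Sylow p-subgroup S equals the normalizer of S, which is a proper subgroup; in particular no such characteristic subgroup is normal. -/
theorem result {p : ℕ} [Fact p.Prime] (S : Sylow p ↥(Cfsg.qd p)) (T : Subgroup ↥(S : Subgroup ↥(Cfsg.qd p))) (hT : T ≠ ⊥) (hTc : T.Characteristic) : Subgroup.normalizer ((T.map (S : Subgroup ↥(Cfsg.qd p)).subtype : Subgroup ↥(Cfsg.qd p)) : Set ↥(Cfsg.qd p)) = Subgroup.normalizer ((S : Subgroup ↥(Cfsg.qd p)) : Set ↥(Cfsg.qd p)) ∧ Subgroup.normalizer ((S : Subgroup ↥(Cfsg.qd p)) : Set ↥(Cfsg.qd p)) ≠ ⊤ := by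
  open Subgroup Transfer PLocal in
  obtain ⟨e, he⟩ := exists_equiv_map_eq_qdT (MulEquiv.refl _) S
  obtain ⟨B, V, hB, -, hV0, hVS, -, h⟩ := exists_borel_of_equiv_qd (MulEquiv.refl _) S
  have h0 : (S : Subgroup (qd p)) ≠ ⊥ := fun h => hV0 (eq_bot_iff.mpr (h ▸ hVS))
  have h1 : normalizer (((S : Subgroup (qd p)) : Subgroup (qd p)) : Set (qd p)) ≤ B :=
    h _ le_rfl (by rw [subgroupOf_self]; infer_instance) h0
  refine ⟨le_antisymm ?_ (Coprime.normalizer_le_normalizer_map_subtype T),
    fun h => hB (eq_top_iff.mpr (h ▸ h1))⟩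
  let φ : S ≃* (qdT : Subgroup (qd p)) := (e.subgroupMap S).trans (MulEquiv.subgroupCongr he)
  have h2 : ((T.map φ.toMonoidHom).map qdT.subtype) =
      (T.map (S : Subgroup (qd p)).subtype).map e.toMonoidHom := by
    rw [Subgroup.map_map, Subgroup.map_map]; rfl
  have : (((T.map φ.toMonoidHom).map qdT.subtype).subgroupOf qdT).Characteristic := by
    rw [subgroupOf, comap_map_eq_self_of_injective (subtype_injective _)]
    refine characteristic_iff_map_eq.mpr fun ψ => ?_
    have := characteristic_iff_map_eq.mp hTc (φ.trans (ψ.trans φ.symm))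
    conv_rhs => rw [← this]
    rw [Subgroup.map_map, Subgroup.map_map]
    congr 1
    ext; simp
  have h3 := (normalizer_le_qdB (U := (T.map φ.toMonoidHom).map qdT.subtype) (map_subtype_le _)
    (by rwa [Ne, map_eq_bot_iff_of_injective _ (subtype_injective _),
      map_eq_bot_iff_of_injective _ φ.injective])).trans qdB_le
  intro x hx
  rw [h2, ← he] at h3
  have h4 := h3 (le_normalizer_map _ (mem_map_of_mem e.toMonoidHom hx))
  refine mem_normalizer_iff.mpr fun y => ?_
  have := mem_normalizer_iff.mp h4 (e y)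
  rwa [← mem_map_iff_mem (f := e.toMonoidHom) e.injective, ← mem_map_iff_mem (f := e.toMonoidHom)
    e.injective (x := x * y * x⁻¹), map_mul, map_mul, map_inv]

end Cfsg.Agent.S2763
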