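import Cfsg.Statements.S2768
import Cfsg.Agent.Lib.PU.Baumann
import Cfsg.Agent.Lib.PGroup.RankTwo

set_option autoImplicit false
open Cfsg

set_option linter.unusedVariables false
open Cfsg.Lib

namespace Cfsg.Agent.S2768

/-- Let G be a finite group and p a prime with C_G(O_p(G)) ≤ O_p(G), such that a Sylow p-subgroup S lies in exactly one maximal subgroup of G and G/K ≅ PSL₂(p^n) for some normal K and n ≥ 1. Put J̃(S) = C_S(Z(J(S))), where J(S) is generated by the abelian subgroups of S of largest order. If Z(S) is not normal in G, then J̃(S) is a Sylow p-subgroup of its normal closure ⟨J̃(S)^G⟩. -/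
theorem result {G : Type*} [Group G] [Finite G] {p : ℕ} [Fact p.Prime] (S : Sylow p G) (hE₁ : Subgroup.centralizer (Cfsg.pCore p G : Set G) ≤ Cfsg.pCore p G) (hE₂ : ∃! M : Subgroup G, IsCoatom M ∧ (S : Subgroup G) ≤ M) (K : Subgroup G) [K.Normal] (F : Type) [Field F] [Fintype F] (n : ℕ) (hn : 1 ≤ n) (hF : Fintype.card F = p ^ n) (hE₃ : Nonempty (G ⧸ K ≃* Matrix.ProjectiveSpecialLinearGroup (Fin 2) F)) (hZ : ¬ ((S : Subgroup G) ⊓ Subgroup.centralizer ((S : Subgroup G) : Set G)).Normal) : ∃ P : Sylow p ↥(Subgroup.normalClosure (((S : Subgroup G) ⊓ Subgroup.centralizer (Cfsg.centerThompsonAOf (S : Subgroup G) : Set G)) : Set G)), (P : Subgroup ↥(Subgroup.normalClosure (((S : Subgroup G) ⊓ Subgroup.centralizer (Cfsg.centerThompsonAOf (S : Subgroup G) : Set G)) : Set G))) = (((S : Subgroup G) ⊓ Subgroup.centralizer (Cfsg.centerThompsonAOf (S : Subgroup G) : Set G))).subgroupOf (Subgroup.normalClosure (((S : Subgroup G) ⊓ Subgroup.centralizer (Cfsg.centerThompsonAOf (S : Subgroup G) : Set G)) :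 Set G)) := by
  open Subgroup Transfer PLocal PU in
  have := charP_of_card_eq hF
  obtain ⟨M, hM, -⟩ := exists_hyp_of_psl S hE₁ hE₂ (hE₃.some.toMonoidHom.comp (QuotientGroup.mk' K))
    (hE₃.some.surjective.comp (QuotientGroup.mk'_surjective K))
  have h := hM.inf_normalClosure_baum (e := 0) fun h =>
    hZ (PGroup.normal_of_le_center (omegaCenter_zero (S : Subgroup G) ▸ h))
  refine exists_sylow_of_not_dvd_relIndex (S.isPGroup'.to_le inf_le_left) ?_
  have h1 := sylow_not_dvd_relIndex_normal S (normalClosure (baum 0 (S : Subgroup G) : Set G))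
  rwa [← inf_relIndex_right, h, ← baum_zero] at h1

end Cfsg.Agent.S2768
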