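import Cfsg.Statements.S2770
import Cfsg.Agent.Lib.PU.Baumann
import Cfsg.Agent.Lib.PGroup.RankTwo

set_option autoImplicit false
open Cfsg

set_option linter.unusedVariables false
open Cfsg.Lib

namespace Cfsg.Agent.S2770

/-- Let G be a finite group and p a prime with C_G(O_p(G)) ≤ O_p(G), S a Sylow p-subgroup lying in exactly one maximal subgroup of G, and G/K ≅ PSL₂(p^n) for some normal K and n ≥ 1. If Z(S) is not elementary abelian, then either ℧¹(Z(S)) (the subgroup generated by the p-th powers of the elements of Z(S)) is normal in G or C_S(Z(J(S))) is normal in G, J(S) being generated by the abelian subgroups of S of largest order. -/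
theorem result {G : Type*} [Group G] [Finite G] {p : ℕ} [Fact p.Prime] (S : Sylow p G) (hE₁ : Subgroup.centralizer (Cfsg.pCore p G : Set G) ≤ Cfsg.pCore p G) (hE₂ : ∃! M : Subgroup G, IsCoatom M ∧ (S : Subgroup G) ≤ M) (K : Subgroup G) [K.Normal] (F : Type) [Field F] [Fintype F] (n : ℕ) (hn : 1 ≤ n) (hF : Fintype.card F = p ^ n) (hE₃ : Nonempty (G ⧸ K ≃* Matrix.ProjectiveSpecialLinearGroup (Fin 2) F)) (h : ¬ Cfsg.IsElementaryAbelian p ((S : Subgroup G) ⊓ Subgroup.centralizer ((S : Subgroup G) : Set G))) : (Cfsg.powerClosure p 1 ((S : Subgroup G) ⊓ Subgroup.centralizer ((S : Subgroup G) : Set G))).Normal ∨ (((S : Subgroup G) ⊓ Subgroup.centralizer (Cfsg.centerThompsonAOf (S : Subgroup G) : Set G))).Normal := by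
  open Subgroup Transfer PLocal PU in
  have := charP_of_card_eq hF
  obtain ⟨M, hM, -⟩ := exists_hyp_of_psl S hE₁ hE₂ (hE₃.some.toMonoidHom.comp (QuotientGroup.mk' K))
    (hE₃.some.surjective.comp (QuotientGroup.mk'_surjective K))
  rw [baum_zero, ← omegaCenter_zero]
  by_cases hZ : omegaCenter 0 (S : Subgroup G) ≤ center G
  · exact Or.inl (PGroup.normal_of_le_center ((PGroup.powerClosure_le _ _).trans hZ))
  by_cases hJ : thompsonSubgroupOf 0 (S : Subgroup G) ≤ pCore p G
  · exact Or.inr ((hM.normal_baum_or hJ).resolve_right fun h =>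
      hZ ((le_inf (omegaCenter_le_zj _) (omegaCenter_le_centralizer _)).trans h))
  obtain ⟨A, hA, hne⟩ : ∃ A ∈ maxIn 0 (S : Subgroup G), ¬ A ≤ pCore p G := by
    simpa [thompsonSubgroupOf_le_iff] using hJ
  refine Or.inl (PGroup.normal_of_le_center (PGroup.powerClosure_le_iff.2 fun x hx => ?_))
  rw [pow_one]
  exact hM.pow_mem_center hM.omegaCenterSup_le (isElementaryAbelian_omegaCenterSup hE₁)
    (hM.centralizer_omegaCenterSup_le hZ) hA hne (hM.omegaCenter_le hx)

end Cfsg.Agent.S2770
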