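import Cfsg.Statements.S2772
import Cfsg.Agent.Lib.Amalgam.S3Iso
import Cfsg.Agent.Lib.PLocal.Offender
import Cfsg.Agent.Lib.Transfer.Criteria
-- import your own Cfsg.Agent.* helpers here

set_option autoImplicit false
open Cfsg

namespace Cfsg.Agent.S2772

open Cfsg.Lib.Loc Cfsg.Lib.BG Cfsg.Lib.Core Cfsg.Lib.Transfer Cfsg.Lib.Amalgam Cfsg.Lib.PLocal Subgroup

/-- Sims' Theorem in local form: let H be a finite non-abelian simple group and G a maximal subgroup of H with C_G(O₂(G)) ≤ O₂(G), such that N_H(S) is not contained in G for a Sylow 2-subgroup S of G and G/O₂(G) is dihedral of order 2q for a prime q. Then G is isomorphic to the symmetric group of degree 4 or to its direct product with a group of order 2. -/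
theorem result {H : Type*} [Group H] [Finite H] [IsSimpleGroup H] (hna : ¬ IsMulCommutative H) (G : Subgroup H) (hG : IsCoatom G) (hchar : Subgroup.centralizer (Cfsg.pCore 2 ↥G : Set ↥G) ≤ Cfsg.pCore 2 ↥G) (S : Sylow 2 ↥G) (hN : ¬ Subgroup.normalizer (((S : Subgroup ↥G).map G.subtype : Subgroup H) : Set H) ≤ G) (q : ℕ) (hq : q.Prime) (hD : Nonempty (↥G ⧸ Cfsg.pCore 2 ↥G ≃* DihedralGroup q)) : Nonempty (↥G ≃* Equiv.Perm (Fin 4)) ∨ Nonempty (↥G ≃* Equiv.Perm (Fin 4) × Multiplicative (ZMod 2)) := by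
    obtain ⟨e⟩ := hD
    haveI : Fact q.Prime := ⟨hq⟩
    haveI : NeZero q := ⟨hq.ne_zero⟩
    have hT := Syl.of_sylow S
    generalize (S : Subgroup G).map G.subtype = T at hT hN
    have hc : IsChP 2 G := isChP_iff.2 hchar
    have hi : (pCoreOf 2 G).relIndex G = 2 * q := by
      rw [relIndex, core_subgroupOf_self, index, Nat.card_congr e.toEquiv, DihedralGroup.nat_card]
    have hQT : pCoreOf 2 G ≤ T := core_le_of_not_dvd hT.not_dvd'
    have hq2 : q ≠ 2 := by
      rintro rfl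
      have h1 : IsPGroup 2 G := by
        obtain ⟨k, hk⟩ := IsPGroup.iff_card.1 (core_pgroup 2 G)
        exact IsPGroup.of_card (n := k + 2) (by
          rw [← Lib.BG.card_mul_relIndex (core_le 2 G), hi, hk]; ring)
      rw [core_eq_self_iff.2 h1, relIndex_self] at hi
      omega
    have hi2 : (pCoreOf 2 G).relIndex T = 2 ∧ T.relIndex G = q := by
      have e1 := relIndex_mul_relIndex _ T G hQT hT.le
      rw [hi] at e1
      obtain ⟨k, hk⟩ := IsPGroup.iff_card.1 hT.pgroup
      have h1 : (pCoreOf 2 G).relIndex T ∣ 2 := (Nat.Coprime.dvd_mul_right (Nat.Coprime.coprime_dvd_left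
        (hk ▸ Lib.BG.relIndex_dvd_card _ T) (Nat.Coprime.pow_left k
          ((Nat.coprime_primes Nat.prime_two hq).2 hq2.symm)))).1 (Dvd.intro _ e1)
      rcases (Nat.dvd_prime Nat.prime_two).1 h1 with h2 | h2 <;> rw [h2] at e1
      · exact absurd (Dvd.intro q (by omega)) hT.not_dvd'
      · exact ⟨h2, by omega⟩
    have hmax : ∀ K, T ≤ K → ¬ K ⊓ G ≤ T → G ≤ K := fun K h1 h2 =>
      ((eq_or_eq_of_relIndex_prime (hi2.2 ▸ hq) (le_inf h1 hT.le) inf_le_right).resolve_left h2).trans inf_le_left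
    obtain ⟨x, hx, hxG⟩ := SetLike.not_le_iff_exists.1 hN
    have hnn : ∀ N : Subgroup H, N ≤ G → G ≤ 𝐍(N) → x ∈ 𝐍(N) → N = ⊥ := fun N h1 h2 h3 => by
      haveI : N.Normal := normalizer_eq_top_iff.1 (hG.2 _ (lt_of_le_of_ne h2 fun e => hxG (e ▸ h3)))
      exact (IsSimpleGroup.eq_bot_or_eq_top_of_normal N this).resolve_right fun e => hG.1 (top_le_iff.1 (e ▸ h1))
    have hT0 : T ≠ ⊥ := fun e => by
      have := hi2.1
      rw [e, relIndex_bot_right] at this
      omega
    have hT2 : Syl 2 T (x ⋆ G) := by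
      have := hT.conj x
      rwa [conj_eq_of_norm hx] at this
    have hGx : ¬ G ≤ x ⋆ G := fun h => hT0 (eq_bot_mono (hnn G le_rfl (le_norm _)
      (norm_of_conj_eq (eq_of_le_of_card_le h (card_conj x G).le).symm)) hT.le)
    have hI : G ⊓ x ⋆ G = T := le_antisymm (by
      by_contra h
      exact hGx (hmax _ hT2.le (by rwa [inf_comm]))) (le_inf hT.le hT2.le)
    have hz : ¬ G ≤ 𝐂(omegaOneCenter 2 T) := fun h => oz_ne_bot hT.pgroup hT0
      (hnn _ ((oz_le T).trans hT.le) (norm_of_cent h) (normalizer_le_normalizer_oz T hx))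
    have hq3 : q = 3 := by
      have hJ : ¬ thompsonSubgroupOf 2 T ≤ pCoreOf 2 G := fun h => thompsonSubgroupOf_ne_bot (Or.inr rfl) hT.pgroup hT0
        (hnn _ ((thompsonSubgroupOf_le T).trans hT.le) (by
          rw [← thompsonSubgroupOf_eq_of_le h hQT]
          exact (le_normalizer_core 2 G).trans (normalizer_le_normalizer_thompsonSubgroupOf _))
          (normalizer_le_normalizer_thompsonSubgroupOf T hx))
      rw [thompsonSubgroupOf_le_iff] at hJ
      push Not at hJ
      obtain ⟨A, hA, hAQ⟩ := hJ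
      set Q := pCoreOf 2 G with hQ
      set V := omegaOneCenter 2 Q with hV
      have hGV : G ≤ 𝐍(V) := (le_normalizer_core 2 G).trans (normalizer_le_normalizer_oz _)
      have hC : G ⊓ 𝐂(V) ≤ Q := le_core inf_le_left (norm_inf (le_norm _) (norm_cent hGV)) (pgroup_of_le hT.pgroup (by
        by_contra h
        exact hz ((hmax (𝐂(V) ⊔ T) le_sup_right fun h' => h ((le_inf (inf_le_right.trans le_sup_left)
          inf_le_left).trans h')).trans (sup_le (cent_anti (hc.oz_le_oz_core hT.le hQT)) (le_centralizer_oz T)))))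
      have h1 : 𝐂(A).relIndex V ≤ 2 := by
        have h2 := offMeasure_le_of_mem_maxIn hA ((oz_le Q).trans hQT) (oz_elemAb Q) (inf_le_right : Q ⊓ A ≤ A)
        rw [offMeasure, offMeasure, inf_eq_left.2 (cent_symm (inf_le_left.trans (le_centralizer_oz Q))),
          ← Lib.BG.card_mul_relIndex (inf_le_right : Q ⊓ A ≤ A), inf_relIndex_right,
          ← Lib.BG.card_mul_relIndex (inf_le_left : V ⊓ 𝐂(A) ≤ V), inf_relIndex_left] at h2
        have h3 := Nat.le_of_dvd two_pos (hi2.1 ▸ relIndex_dvd_of_norm hA.1 (hT.le.trans (le_normalizer_core 2 G)))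
        have h4 := Nat.card_pos (α := ↥(Q ⊓ A))
        have h5 := Nat.card_pos (α := ↥(V ⊓ 𝐂(A)))
        rw [mul_assoc, mul_comm (Q.relIndex A)] at h2
        exact (Nat.le_of_mul_le_mul_left (Nat.le_of_mul_le_mul_left h2 h4) h5).trans h3
      obtain ⟨g, hg, hgA⟩ : ∃ g ∈ G, ¬ g ⋆ A ≤ T := by
        by_contra h
        push Not at h
        exact hAQ ((le_ncl A G).trans (le_core (ncl_le (hA.1.trans hT.le) (le_norm _)) (norm_ncl A G)
          (pgroup_of_le hT.pgroup (ncl_le_iff.2 h))))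
      have h2 : 𝐂(g ⋆ A).relIndex V ≤ 2 := by
        rwa [← conj_centralizer, ← conj_eq_of_norm (hGV hg), relIndex_conj]
      have h3 : G ≤ 𝐂(V ⊓ (𝐂(A) ⊓ 𝐂(g ⋆ A))) := hmax _ (fun t ht => by
        obtain ⟨a, ha, ha'⟩ := SetLike.not_le_iff_exists.1 hAQ
        have hQc : Q ≤ 𝐂(V ⊓ (𝐂(A) ⊓ 𝐂(g ⋆ A))) := (le_centralizer_oz Q).trans (cent_anti inf_le_left)
        by_cases h : t ∈ Q
        · exact hQc h
        · simpa using mul_mem (cent_symm (inf_le_right.trans inf_le_left) ha)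
            (hQc (inv_mul_mem_of_relIndex_two hi2.1 (hA.1 ha) ht ha' h))) fun h =>
        hgA ((le_inf (cent_symm (inf_le_right.trans inf_le_right)) (conj_le_of_mem (hA.1.trans hT.le) hg)).trans h)
      obtain ⟨D, hD, hDq⟩ := exists_card_eq_prime hq ((Dvd.intro_left 2 rfl).trans
        (hi ▸ Lib.BG.relIndex_dvd_card Q G))
      have h4 := card_modEq_card_inf_centralizer (IsPGroup.of_card (hDq.trans (pow_one q).symm)) (hD.trans hGV)
      have h5 : 𝐂(D).relIndex V ≤ 2 * 2 := by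
        refine le_trans ?_ (relIndex_inf_le.trans (Nat.mul_le_mul h1 h2))
        rw [← inf_relIndex_left V (𝐂(A) ⊓ _)]
        exact relIndex_le_of_le_left (cent_symm (hD.trans h3)) index_ne_zero_of_finite
      obtain ⟨k, hk⟩ := IsPGroup.iff_card.1 (pgroup_of_le (core_pgroup 2 G) (oz_le Q))
      have hcop : q.Coprime (2 ^ k) := Nat.Coprime.pow_right k ((Nat.coprime_primes hq Nat.prime_two).2 hq2)
      have h6 := Lib.BG.card_mul_relIndex (inf_le_left : V ⊓ 𝐂(D) ≤ V)
      rw [inf_relIndex_left] at h6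
      have h7 : 𝐂(D).relIndex V ≠ 1 := fun h => by
        have := card_dvd ((le_inf hD (cent_symm (relIndex_eq_one.1 h))).trans (hC.trans hQT))
        obtain ⟨j, hj⟩ := IsPGroup.iff_card.1 hT.pgroup
        rw [hDq, hj] at this
        exact hq2 ((Nat.prime_dvd_prime_iff_eq hq Nat.prime_two).1 (hq.dvd_of_dvd_pow this))
      have h8 : 𝐂(D).relIndex V ≡ 1 [MOD q] := Nat.ModEq.cancel_left_of_coprime (c := Nat.card ↥(V ⊓ 𝐂(D)))
        (Nat.Coprime.coprime_dvd_right (hk ▸ card_dvd inf_le_left) hcop) (by rwa [h6, mul_one])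
      have h9 : ¬ 3 ∣ 𝐂(D).relIndex V := fun h => by
        have := Nat.prime_three.dvd_of_dvd_pow (hk ▸ h.trans (Lib.BG.relIndex_dvd_card _ V))
        omega
      have h10 : 𝐂(D).relIndex V ≠ 0 := index_ne_zero_of_finite
      have h11 := (Nat.modEq_iff_dvd' (by omega)).1 h8.symm
      generalize 𝐂(D).relIndex V = n at *
      interval_cases n
      · omega
      · omega
      · exact absurd (Nat.dvd_one.1 h11) hq.ne_one
      · omega
      · exact (Nat.prime_dvd_prime_iff_eq hq Nat.prime_three).1 h11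
    subst hq3
    have s : IsS3 G := ⟨inferInstance, hi⟩
    refine (s3_main s (s.conj x) (hI ▸ ⟨hT.le, hT.pgroup, hT.not_dvd'⟩) (hI ▸ ⟨hT2.le, hT.pgroup, hT2.not_dvd'⟩)
      (fun N h1 h2 h3 => ?_) hc (hc.conj x) (hI ▸ hz) (hI ▸ fun h => hz ?_)).imp And.left
      fun ⟨⟨a⟩, _⟩ => ⟨a.trans MulEquiv.prodComm⟩
    · haveI : N.Normal := normalizer_eq_top_iff.1 (hG.2 _ (lt_of_le_of_ne h2 fun e =>
        hGx (eq_of_le_of_card_le (h3.trans e.ge) (card_conj x G).ge).ge))
      exact (IsSimpleGroup.eq_bot_or_eq_top_of_normal N this).resolve_right fun e =>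
        hG.1 (top_le_iff.1 ((e ▸ h1).trans inf_le_left))
    · rwa [← conj_eq_of_norm (normalizer_le_normalizer_oz T hx), ← conj_centralizer, conj_le_conj_iff] at h

end Cfsg.Agent.S2772
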