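import Cfsg.Statements.S2773
import Cfsg.Agent.Lib.CharDeg.TrThree

set_option autoImplicit false
universe u
open Cfsg

namespace Cfsg.Agent.S2773

open Subgroup Cfsg.Lib.BG Cfsg.Lib.Transfer Cfsg.Lib.CharDeg.TrBlk in

/-- For every nontrivial finite 3-group S there is a nontrivial characteristic subgroup K of S such that, in every finite group G containing S as a Sylow 3-subgroup, S ∩ G' is the product of S ∩ (C_G(Z(S)))' and S ∩ (N_G(K))' (derived subgroups; product taken elementwise). -/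
theorem result {S : Type u} [Group S] [Finite S] [Nontrivial S] (hS : IsPGroup 3 S) : ∃ K : Subgroup S, K ≠ ⊥ ∧ K.Characteristic ∧ ∀ (G : Type u) [Group G] [Finite G] (τ : S →* G), Function.Injective τ → (∃ P : Sylow 3 G, (P : Subgroup G) = τ.range) → ∀ g : G, g ∈ τ.range ⊓ commutator G ↔ ∃ a ∈ τ.range ⊓ ⁅Subgroup.centralizer ((τ.range ⊓ Subgroup.centralizer (τ.range : Set G) : Subgroup G) : Set G), Subgroup.centralizer ((τ.range ⊓ Subgroup.centralizer (τ.range : Set G) : Subgroup G) : Set G)⁆, ∃ b ∈ τ.range ⊓ ⁅Subgroup.normalizer ((K.map τ : Subgroup G) : Set G), Subgroup.normalizer ((K.map τ : Subgroup G) : Set G)⁆, g = a * b := by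
  have : Fact (Nat.Prime 3) := ⟨Nat.prime_three⟩
  have hK := isChar_KF.{u} (p := 3) (by decide)
  refine ⟨KF 3 S, hK.1 S hS ‹_›, characteristic_iff_map_eq.2 fun φ => hK.2 _ _ hS φ, ?_⟩
  rintro G _ _ τ hτ ⟨P, hP⟩ g
  have e : (KF 3 S).map τ = (KF 3 (P : Subgroup G)).map (P : Subgroup G).subtype := by
    rw [hP, ← hK.2 _ _ hS (MonoidHom.ofInjective hτ), map_map]; rfl
  rw [e, ← hP]
  refine ⟨fun hg => ?_, ?_⟩
  · have h1 := inf_le_sup (p := 3) (by decide) P hg
    have h2 : (P : Subgroup G) ≤ 𝐂((P : Subgroup G) ⊓ 𝐂((P : Subgroup G))) := cent_symm inf_le_right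
    obtain ⟨a, ha, b, hb, rfl⟩ := (mem_sup_left_norm (inf_le_left.trans (norm_inf (le_norm _)
      (h2.trans (left_norm_comm _ _))))).1 h1
    exact ⟨a, ha, b, hb, rfl⟩
  · rintro ⟨a, ha, b, hb, rfl⟩
    exact mul_mem (inf_le_inf_left _ (commutator_mono le_top le_top) ha)
      (inf_le_inf_left _ (commutator_mono le_top le_top) hb)

end Cfsg.Agent.S2773
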