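import Cfsg.Statements.S2774
import Cfsg.Agent.Lib.CharDeg.TrBlk

set_option autoImplicit false
open Cfsg

namespace Cfsg.Agent.S2774

open Cfsg.Lib.Transfer Cfsg.Lib.CharDeg.TrBlk in

/-- Let p be an odd prime and S a nontrivial Sylow p-subgroup of a finite group G. Then S ∩ G' is generated by the subgroups S ∩ (N_G(K))' as K ranges over the nontrivial characteristic subgroups of S (derived subgroups of the normalizers). -/
theorem result {G : Type*} [Group G] [Finite G] {p : ℕ} [Fact p.Prime] (hp : p ≠ 2) (S : Sylow p G) (hS : (S : Subgroup G) ≠ ⊥) : (S : Subgroup G) ⊓ commutator G = ⨆ K : {K : Subgroup ↥(S : Subgroup G) // K ≠ ⊥ ∧ K.Characteristic}, (S : Subgroup G) ⊓ ⁅Subgroup.normalizer ((((K : Subgroup ↥(S : Subgroup G))).map (S : Subgroup G).subtype : Subgroup G) : Set G), Subgroup.normalizer ((((K : Subgroup ↥(S : Subgroup G))).map (S : Subgroup G).subtype : Subgroup G) : Set G)⁆ := by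
  refine le_antisymm ?_ (iSup_le fun K => inf_le_inf_left _ (Subgroup.commutator_mono le_top le_top))
  have h := (familyControlsTransferIn_top_iff (𝓦 := {W | IsCharPFunctor p W}) (fun _ h => h) S).1
    (controls hp G)
  rw [trSub_ind_top] at h
  refine h.trans (iSup₂_le fun W hW => ?_)
  have hnt : Nontrivial (S : Subgroup G) := (Subgroup.nontrivial_iff_ne_bot _).2 hS
  exact le_iSup_of_le ⟨W _, hW.1 _ S.2 hnt,
    Subgroup.characteristic_iff_map_eq.2 fun φ => hW.2 _ _ S.2 φ⟩ le_rfl

end Cfsg.Agent.S2774
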