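import Cfsg.Statements.S2779
import Cfsg.Agent.Lib.PLocal.NatFacts

set_option autoImplicit false
open Cfsg

set_option linter.unusedVariables false
open Cfsg.Lib

namespace Cfsg.Agent.S2779

/-- Let L act on the elementary abelian p-group V (inside a finite group, by conjugation, faithfully) as SL₂(F) on its natural module, F a field with p^n elements, and let S be a Sylow p-subgroup of L. Then [V, S, S] = 1; |V| = p^(2n) and |C_V(S)| = p^n; and for every nonidentity s ∈ S and every v ∈ V outside C_V(S): C_V(s) = C_V(S) = [V, S] = [V, s] = the subgroup generated by the commutators [v, t], t ∈ S. -/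
theorem result {G : Type*} [Group G] [Finite G] {p : ℕ} [Fact p.Prime] {F : Type*} [Field F] [Fintype F] (n : ℕ) (hF : Fintype.card F = p ^ n) (V L : Subgroup G) (hnat : Cfsg.IsNaturalSL2Module F V L) (hf : L ⊓ Subgroup.centralizer (V : Set G) = ⊥) (S : Sylow p ↥L) (T : Subgroup G) (hT : T = ((S : Subgroup ↥L).map L.subtype)) : ⁅⁅V, T⁆, T⁆ = ⊥ ∧ Nat.card V = p ^ (2 * n) ∧ Nat.card ↥(V ⊓ Subgroup.centralizer ((T : Subgroup G) : Set G)) = p ^ n ∧ ∀ s ∈ T, s ≠ 1 → (V ⊓ Subgroup.centralizer ({s} : Set G)) = (V ⊓ Subgroup.centralizer ((T : Subgroup G) : Set G)) ∧ ⁅V, T⁆ = (V ⊓ Subgroup.centralizer ((T : Subgroup G) : Set G)) ∧ ⁅V, Subgroup.zpowers s⁆ = (V ⊓ Subgroup.centralizer ((T : Subgroup G) : Set G)) ∧ ∀ v ∈ V, v ∉ Subgroup.centralizer (T : Set G) → Subgroup.closure {x : G | ∃ t ∈ T, x = v * t * v⁻¹ * t⁻¹} = (V ⊓ Subgroup.centralizer ((T : Subgroup G) : Set G)) := by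
  open Subgroup Transfer PLocal in
  have := charP_of_card_eq hF
  obtain ⟨n₀⟩ := nonempty_natSec_of_isNatural hnat
  have hS : SylIn p T L := sylIn_iff.2 ⟨S, hT.symm⟩
  obtain ⟨m, hm⟩ := n₀.exists_upper hS
  have hTL := hS.1
  have hc := m.inf_centralizer_upper hm hTL
  have h1 : ⁅V, T⁆ ≤ m.line := commutator_comm T V ▸ commutator_le.2 fun t ht v hv =>
    m.commutator_mem_line (l := ⟨t, hTL ht⟩) (m.rho_mem hm ht) hv
  rw [← Nat.card_eq_fintype_card] at hF
  refine ⟨commutator_eq_bot_iff_le_centralizer.2 (h1.trans (hc.ge.trans inf_le_right)), ?_, ?_,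
    fun s hs hs1 => ?_⟩
  · rw [← relIndex_bot_left, m.relIndex_eq, hF, ← pow_mul, mul_comm]
  · rw [hc, ← relIndex_bot_left, m.relIndex_le_line, hF]
  have h2 := m.rho_mem hm (l := ⟨s, hTL hs⟩) hs
  have h3 : m.ρ ⟨s, hTL hs⟩ ≠ 1 := fun e => hs1 (congrArg Subtype.val
    ((injective_iff_map_eq_one _).1 (m.injective_of_bot hf) _ e))
  have h4 : m.line ≤ ⁅V, zpowers s⁆ := fun u hu => by
    obtain ⟨v, hv, e⟩ := m.exists_commutator h2 h3 hu
    rw [mul_inv_eq_one.1 e, commutator_comm]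
    exact commutator_mem_commutator (mem_zpowers s) hv
  have h5 : ⁅V, zpowers s⁆ ≤ ⁅V, T⁆ := commutator_mono le_rfl (zpowers_le.2 hs)
  rw [hc]
  refine ⟨m.inf_centralizer_singleton h2 h3, le_antisymm h1 (h4.trans h5),
    le_antisymm (h5.trans h1) h4, fun v hv hv' => le_antisymm ((Subgroup.closure_le _).2 ?_)
      fun u hu => ?_⟩
  · rintro _ ⟨t, ht, rfl⟩
    exact h1 (commutator_mem_commutator hv ht)
  · obtain ⟨t, ht⟩ := m.exists_commutator' hv (fun h => hv' (hc.ge h).2) hu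
    obtain ⟨l, hl, e⟩ := m.exists_rho_eq hm t
    rw [mul_inv_eq_one.1 (ht l e), ← commutatorElement_inv]
    exact inv_mem (Subgroup.subset_closure ⟨l, hl, rfl⟩)

end Cfsg.Agent.S2779
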