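import Cfsg.Statements.S2780
import Cfsg.Agent.Lib.PLocal.NatFacts

set_option autoImplicit false
open Cfsg

set_option linter.unusedVariables false
open Cfsg.Lib

namespace Cfsg.Agent.S2780

/-- Let L act on the elementary abelian p-group V (inside a finite group, faithfully) as SL₂(F) on its natural module, F a field with p^n elements, S a Sylow p-subgroup of L. Then: for every g ∈ L not normalizing S, V is the internal direct product of C_V(S) and C_V(gSg⁻¹); every nonidentity element of L of order prime to p acts on V without nonidentity fixed points; and C_V(S) and V/C_V(S) are irreducible for N_L(S): the only N_L(S)-invariant subgroups of C_V(S) are 1 and C_V(S), and the only N_L(S)-invariant subgroups between C_V(S) and V are those two. -/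
theorem result {G : Type*} [Group G] [Finite G] {p : ℕ} [Fact p.Prime] {F : Type*} [Field F] [Fintype F] (n : ℕ) (hF : Fintype.card F = p ^ n) (V L : Subgroup G) (hnat : Cfsg.IsNaturalSL2Module F V L) (hf : L ⊓ Subgroup.centralizer (V : Set G) = ⊥) (S : Sylow p ↥L) (T : Subgroup G) (hT : T = ((S : Subgroup ↥L).map L.subtype)) : (∀ g ∈ L, g ∉ Subgroup.normalizer (T : Set G) → Cfsg.IsInternalDirectProduct (V ⊓ Subgroup.centralizer ((T : Subgroup G) : Set G)) (V ⊓ Subgroup.centralizer ((T.map (MulAut.conj g).toMonoidHom : Subgroup G) : Set G)) V) ∧ (∀ x ∈ L, x ≠ 1 → (orderOf x).Coprime p → (V ⊓ Subgroup.centralizer ({x} : Set G)) = ⊥) ∧ (∀ U : Subgroup G, U ≤ (V ⊓ Subgroup.centralizer ((T : Subgroup G) : Set G)) → L ⊓ Subgroup.normalizer (T : Set G) ≤ Subgroup.normalizer (U : Set G) → U = ⊥ ∨ U = (V ⊓ Subgroup.centralizer ((T : Subgroup G) : Set G))) ∧ (∀ U : Subgroup G, (V ⊓ Subgroup.centralizer ((T : Subgroup G) : Set G)) ≤ U → U ≤ V → L ⊓ Subgroup.normalizer (T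 : Set G) ≤ Subgroup.normalizer (U : Set G) → U = (V ⊓ Subgroup.centralizer ((T : Subgroup G) : Set G)) ∨ U = V) := by
  open Subgroup Transfer PLocal in
  have := charP_of_card_eq hF
  obtain ⟨n₀⟩ := nonempty_natSec_of_isNatural hnat
  have hS : SylIn p T L := sylIn_iff.2 ⟨S, hT.symm⟩
  obtain ⟨m, hm⟩ := n₀.exists_upper hS
  have hTL := hS.1
  have hc := m.inf_centralizer_upper hm hTL
  have hi := (injective_iff_map_eq_one _).1 (m.injective_of_bot hf)
  have hN : ∀ l : L, m.ρ l 1 0 = 0 → (l : G) ∈ L ⊓ normalizer (T : Set G) := fun l hl =>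
    ⟨l.2, m.mem_normalizer hm hTL (fun k hk => hi k hk ▸ one_mem T) hl⟩
  rw [hc]
  refine ⟨fun g hg hg' => ?_, fun x hx hx1 hxp => ?_, fun U hU hn => ?_, fun U hU hUV hn => ?_⟩
  · have h1 : m.ρ ⟨g, hg⟩ 1 0 ≠ 0 := fun e => hg' (hN _ e).2
    have h2 : V ⊓ centralizer ((g ⋆ T : Subgroup G) : Set G) = g ⋆ m.line := by
      rw [← hc, conj_inf, conj_centralizer, conj_eq_self_iff.2 (m.norm hg)]
    have := m.isMulCommutative_of_bot
    refine ⟨m.line_le, inf_le_left, fun a ha b hb => setLike_mul_comm (s := V) ha.1 hb.1, ?_,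
      le_antisymm (sup_le m.line_le inf_le_left) ?_⟩
    · rw [h2]; exact eq_bot_iff.2 (m.line_inf_conj (l := ⟨g, hg⟩) h1)
    · rw [h2]; exact m.le_line_sup_conj (l := ⟨g, hg⟩) h1
  · refine eq_bot_iff.2 fun v hv => ?_
    by_contra h
    have h1 := pow_char_eq_one_of_mulVec (p := p) (mt (m.ker v hv.1).1 h) (s := m.ρ ⟨x, hx⟩) (by
      rw [← m.conj _ v hv.1]
      exact congrArg _ (mul_inv_eq_iff_eq_mul.2 (hv.2 x rfl)))
    rw [← map_pow] at h1
    exact hx1 (orderOf_eq_one_iff.1 ((Nat.coprime_self _).1 (hxp.coprime_dvd_right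
      (orderOf_dvd_of_pow_eq_one (congrArg Subtype.val (hi _ h1))))))
  · refine (bot_or_exists_ne_one U).imp_right fun ⟨u, hu, hu1⟩ => le_antisymm hU fun w hw => ?_
    by_cases hw1 : w = 1
    · exact hw1 ▸ one_mem _
    obtain ⟨l, hl, e⟩ := m.exists_conj_line (hU hu) hu1 hw hw1
    rw [mul_inv_eq_one.1 e]
    exact (mem_normalizer_iff.1 (hn (hN l hl)) u).1 hu
  · refine (hU.eq_or_lt.imp Eq.symm fun h => le_antisymm hUV fun w hw => ?_)
    obtain ⟨u, hu, hu1⟩ := SetLike.exists_of_lt h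
    by_cases hw1 : w ∈ m.line
    · exact hU hw1
    obtain ⟨l, hl, e⟩ := m.exists_conj_mod_line (hUV hu) hu1 hw hw1
    exact (mul_mem_cancel_right (inv_mem ((mem_normalizer_iff.1 (hn (hN l hl)) u).1 hu))).1 (hU e)

end Cfsg.Agent.S2780
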