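import Cfsg.Statements.S2781
import Cfsg.Agent.Lib.PLocal.Offender
import Cfsg.Agent.Lib.Coprime.Gaschutz

set_option autoImplicit false
open Cfsg

set_option linter.unusedVariables false
open Cfsg.Lib

namespace Cfsg.Agent.S2781

/-- Let H act faithfully by conjugation on the elementary abelian p-subgroup V of a finite group, let O^p(H) be the subgroup of H generated by its elements of order prime to p, and T a Sylow p-subgroup of O^p(H). If V is generated by the H-conjugates of C_V(T) (V is the smallest H-invariant subgroup containing C_V(T)), then V = [V, O^p(H)]·C_V(O^p(H)). -/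
theorem result {G : Type*} [Group G] [Finite G] {p : ℕ} [Fact p.Prime] (V H : Subgroup G) (hV : Cfsg.IsElementaryAbelian p V) (hHV : H ≤ Subgroup.normalizer (V : Set G)) (hf : H ⊓ Subgroup.centralizer (V : Set G) = ⊥) (R : Subgroup G) (hR : R = (Cfsg.pResidual p ↥H).map H.subtype) (S : Sylow p ↥R) (T : Subgroup G) (hT : T = ((S : Subgroup ↥R).map R.subtype)) (hgen : ∀ W : Subgroup G, H ≤ Subgroup.normalizer (W : Set G) → (V ⊓ Subgroup.centralizer ((T : Subgroup G) : Set G)) ≤ W → V ≤ W) : ⁅V, R⁆ ⊔ (V ⊓ Subgroup.centralizer ((R : Subgroup G) : Set G)) = V := by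
  open Subgroup Transfer PLocal in
  have hRH : R ≤ H := hR ▸ map_subtype_le _
  have hHR : H ≤ normalizer (R : Set G) :=
    hR ▸ le_normalizer.trans (normalizer_le_normalizer_map_subtype_pResidual H)
  have hM := commutator_le_of_le (hRH.trans hHV) (le_refl V)
  have hHM : H ≤ normalizer ((⁅V, R⁆ : Subgroup G) : Set G) := fun x hx => conj_eq_self_iff.1 (by
    rw [conj_commutator, conj_eq_self_iff.2 (hHV hx), conj_eq_self_iff.2 (hHR hx)])
  refine le_antisymm (sup_le hM inf_le_left) (hgen _ (fun x hx => conj_eq_self_iff.1 ?_) fun v hv => ?_)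
  · rw [conj_sup, conj_inf, conj_centralizer, conj_eq_self_iff.2 (hHM hx),
      conj_eq_self_iff.2 (hHV hx), conj_eq_self_iff.2 (hHR hx)]
  have := PGroup.isMulCommutative_of_le hM hV.1
  obtain ⟨k, hk⟩ := IsPGroup.iff_card.1 (IsPGroup.to_le (p := p)
    (fun v => ⟨1, Subtype.ext (by simpa using hV.2 v v.2)⟩) hM)
  obtain ⟨n, hn, h⟩ := Coprime.exists_conj_of_homs_of_index ⁅V, R⁆
    ((MulAut.conj v).toMonoidHom.comp R.subtype) R.subtype (fun a => hHM (hRH a.2))
    (fun a => commutator_mem_commutator hv.1 a.2) S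
    (fun b hb => mul_inv_eq_iff_eq_mul.2 (hv.2 _ (hT ▸ ⟨b, hb, rfl⟩)).symm)
    (hk ▸ ((Nat.Prime.coprime_iff_not_dvd Fact.out).2 S.not_dvd_index).pow_left k)
  have h1 : v⁻¹ * n ∈ V ⊓ centralizer (R : Set G) := ⟨V.mul_mem (V.inv_mem hv.1) (hM hn), fun a ha => by
    have : v * a * v⁻¹ * n = n * a := h ⟨a, ha⟩
    rw [mul_assoc, ← this]; group⟩
  exact inv_mem_iff.1 ((mul_mem_cancel_right (mem_sup_left hn)).1 (mem_sup_right h1))

end Cfsg.Agent.S2781
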