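import Cfsg.Statements.S2787
import Cfsg.Agent.Lib.PLocal.SL2Mod
import Cfsg.Agent.Lib.PLocal.Stable
import Cfsg.Agent.Lib.Ree.Inv
import Cfsg.Agent.Lib.Ree.Inst

set_option autoImplicit false
open Cfsg

set_option linter.unusedVariables false
open Cfsg.Lib

namespace Cfsg.Agent.S2787

theorem ring_aux {E : Type*} [Ring E] {n m : E} (hn : n * n = 0) (hm : m * m = 0)
    (hb : (1 + n) * (1 + m) * (1 + n) = (1 + m) * (1 + n) * (1 + m))
    (hw : (1 + n) * (1 + m) * (1 + n) * ((1 + n) * (1 + m) * (1 + n)) = 1) :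
    2 • (n * m * n) = 0 ∧ n + n * m * n = m + m * n * m := by
  have hn' : ∀ x, n * (n * x) = 0 := fun x => by rw [← mul_assoc, hn, zero_mul]
  have hm' : ∀ x, m * (m * x) = 0 := fun x => by rw [← mul_assoc, hm, zero_mul]
  have h1 := congrArg (n * · * (1 - n)) hw
  have h2 := congrArg (n * ·) hb
  simp only [mul_add, add_mul, mul_sub, mul_one, one_mul, mul_assoc, hn, hm, hn', hm', mul_zero,
    add_zero, sub_zero, zero_mul, zero_add] at h1 h2 hb ⊢
  constructor
  · linear_combination (norm := abel1) h1 + h2 + h2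
  · linear_combination (norm := abel1) hb

open Root PSL2 in
open scoped MatrixGroups in
theorem psl_aux {F E : Type*} [Field F] [Ring E] (Φ : SL(2, F) →* E) (h1 : Φ (-1) = 1) {t : F}
    (ht : t ≠ 0) (h : (Φ (xU t) - 1) * (Φ (xU t) - 1) = 0) :
    2 • (Φ (xU t) - Φ (xL (-t⁻¹))) = 0 := by
  have hw : wS t * wS t = -1 := sl2_ext (by simp [wS_coe ht, ht]) (by simp [wS_coe ht])
    (by simp [wS_coe ht]) (by simp [wS_coe ht, ht])
  have h2 := congrArg Φ (wS_mul_xU ht t)
  rw [show -t / t ^ 2 = -t⁻¹ by field_simp, map_mul, map_mul] at h2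
  have hw' := congrArg Φ hw
  rw [map_mul, h1] at hw'
  have h3 : (Φ (xL (-t⁻¹)) - 1) * Φ (wS t) = Φ (wS t) * (Φ (xU t) - 1) := by
    rw [sub_mul, mul_sub, h2, one_mul, mul_one]
  have h4 : (Φ (xL (-t⁻¹)) - 1) * (Φ (xL (-t⁻¹)) - 1) = 0 := by
    refine (mul_one _).symm.trans ((congrArg _ hw'.symm).trans ?_)
    rw [← mul_assoc, mul_assoc (_ - 1), h3, ← mul_assoc, h3, mul_assoc (Φ _), h, mul_zero,
      zero_mul]
  have h5 := congrArg Φ (wS_eq ht)
  have h6 : Φ (wS t) = _ := congrArg Φ (show wS t = xU t * xL (-t⁻¹) * xU t from rfl)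
  rw [map_mul, map_mul] at h5 h6
  obtain ⟨a1, a2⟩ := ring_aux h h4 (by simp only [add_sub_cancel]; rw [← h5, ← h6])
    (by simp only [add_sub_cancel]; rw [← h6, hw'])
  obtain ⟨a3, -⟩ := ring_aux h4 h (by simp only [add_sub_cancel]; rw [← h5, ← h6])
    (by simp only [add_sub_cancel]; rw [← h5, hw'])
  rw [← sub_sub_sub_cancel_right _ _ 1, sub_eq_sub_iff_add_eq_add.2 (a2.trans (add_comm _ _)),
    smul_sub, a1, a3, sub_zero]

/-- Let p be a prime and let H act by conjugation on the elementary abelian p-subgroup V of a finite group, irreducibly (no H-invariant subgroups of V other than 1 and V) and nontrivially, and suppose H/C_H(V) is isomorphic to PSL₂(F) for a field F with p^n elements, p^n odd, or p = 3 and H/C_H(V) is isomorphic to a Ree group ²G₂(3^(2m+1)), m ≥ 1. Then no subgroup A of H acting nontrivially on V acts quadratically: [V, A, A] = 1 forces [V, A] = 1. -/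
theorem result {G : Type*} [Group G] [Finite G] {p : ℕ} [Fact p.Prime] (V H : Subgroup G) (hV : Cfsg.IsElementaryAbelian p V) (hHV : H ≤ Subgroup.normalizer (V : Set G)) (hirr : ∀ U : Subgroup G, U ≤ V → H ≤ Subgroup.normalizer (U : Set G) → U = ⊥ ∨ U = V) (hnt : ¬ H ≤ Subgroup.centralizer (V : Set G)) [hn : ((Subgroup.centralizer (V : Set G)).subgroupOf H).Normal] (hq : (∃ (F : Type) (_ : Field F) (_ : Fintype F) (n : ℕ), Fintype.card F = p ^ n ∧ Odd (Fintype.card F) ∧ Nonempty (↥H ⧸ (Subgroup.centralizer (V : Set G)).subgroupOf H ≃* Matrix.ProjectiveSpecialLinearGroup (Fin 2) F)) ∨ (p = 3 ∧ Cfsg.Lie.IsoRee (↥H ⧸ (Subgroup.centralizer (V : Set G)).subgroupOf H))) (A : Subgroup G) (hA : A ≤ H) (hquad : ⁅⁅V, A⁆, A⁆ = ⊥) : ⁅V, A⁆ = ⊥ := by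
  open Subgroup Transfer PLocal in
  have hp := (Fact.out : p.Prime)
  refine commutator_eq_bot_iff_le_centralizer.2 (le_centralizer_iff.1 fun a ha => ?_)
  have hqa := quadratic_zpowers_of_mem hquad ha
  have haH := hA ha
  rcases hq with ⟨F, _, _, n, hF, hodd, ⟨e⟩⟩ | ⟨rfl, K, _, _, m, -, hK, ⟨e⟩⟩
  · have := charP_of_card_eq hF
    have hp2 : Odd p := hp.odd_of_ne_two fun h => by
      have := (CharP.cast_eq_zero_iff F p 2).2 (h ▸ dvd_rfl)
      exact PSL2.two_ne_zero_iff_odd.2 (Nat.card_eq_fintype_card (α := F) ▸ hodd) this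
    obtain ⟨W, _, ⟨r⟩⟩ := exists_secRep (Z := ⊥) hV.1 hHV ((normalizer_eq_top _).ge.trans' le_top)
    have hk : ∀ l : H, r.φ l = 1 ↔ (l : G) ∈ centralizer (V : Set G) := fun l =>
      ⟨fun h v hv => (commutatorElement_eq_one_iff_mul_comm.1 ((r.ker _
        (commutatorElement_mem_of_normalizer (hHV l.2) hv)).1 (by
          rw [← r.sub_one hHV l hv, h, sub_self]; rfl))).symm,
      fun h => r.ext fun v hv => by rw [r.conj l v hv, ← h v hv, mul_inv_cancel_right]; rfl⟩
    let φ := QuotientGroup.lift ((centralizer (V : Set G)).subgroupOf H) r.φ fun l => (hk l).2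
    let Φ := φ.comp (e.symm.toMonoidHom.comp PSL2.toL)
    have hΦ : ∀ s (l : H), PSL2.toL s = e l → Φ s = r.φ l := fun s l h => by
      change φ (e.symm (PSL2.toL s)) = _
      rw [h, e.symm_apply_apply]; rfl
    have hΦ1 : ∀ s, Φ s = 1 → PSL2.toL s = 1 := fun s h => by
      obtain ⟨x, hx⟩ := e.surjective (PSL2.toL s)
      obtain ⟨l, rfl⟩ := QuotientGroup.mk_surjective x
      rw [← hx, (QuotientGroup.eq_one_iff l).2 ((hk l).1 ((hΦ s l hx.symm).symm.trans h)), map_one]
    obtain ⟨s, hs, hsp⟩ : ∃ s, PSL2.toL s = e (⟨a, haH⟩ : H) ∧ s ^ p = 1 := by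
      obtain ⟨s, hs⟩ := PSL2.toL_surjective (e (⟨a, haH⟩ : H))
      have : PSL2.toL (s ^ p) = 1 := by
        rw [map_pow, hs, ← map_pow, ← QuotientGroup.mk_pow, (QuotientGroup.eq_one_iff ((⟨a, haH⟩ : H) ^ p)).2
          (pow_mem_centralizer_of_quadratic hV.2 (hHV haH) hqa), map_one]
      rcases PSL2.toL_eq_one_iff.1 this with h | h
      · exact ⟨s, hs, h⟩
      · exact ⟨-s, by rwa [PSL2.toL_neg], by rw [hp2.neg_pow, h, neg_neg]⟩
    obtain ⟨g, -, hg⟩ := exists_conj_le_of_not_dvd_relIndex' (sylIn_upper (F := F) (p := p)).2.2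
      (Q := zpowers s) (fun x => ⟨1, by
        obtain ⟨_, i, rfl⟩ := x
        exact Subtype.ext (by
          change (s ^ i) ^ p ^ 1 = 1
          rw [pow_one, ← zpow_natCast, ← zpow_mul, mul_comm, zpow_mul, zpow_natCast, hsp, one_zpow])⟩)
      le_top
    obtain ⟨t, ht⟩ := Root.mem_upper_iff.1 (hg (conj_mem_conj.2 (mem_zpowers s)))
    have h1 : (Φ s - 1) * (Φ s - 1) = 0 := by
      rw [hΦ s _ hs]
      refine r.ext fun v hv => ?_
      have h2 := commutatorElement_mem_of_quadratic (zpowers_le.2 (hHV haH)) hqa (mem_zpowers a) hv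
      change (r.φ _ - 1) ((r.φ _ - 1) _) = 0
      rw [r.sub_one hHV _ hv, r.sub_one hHV _ h2.1, r.ker _ (commutatorElement_mem_of_normalizer
        (hHV haH) h2.1)]
      exact commutatorElement_eq_one_iff_mul_comm.2 (h2.2 a (mem_zpowers a))
    have h2 : Φ (Root.xU t) - 1 = Φ g * (Φ s - 1) * Φ g⁻¹ := by
      rw [← ht, mul_sub, sub_mul, mul_one, ← map_mul Φ g g⁻¹, mul_inv_cancel, map_one, map_mul,
        map_mul]
    by_cases h0 : t = 0
    · rw [h0, Root.xU_zero, conj_eq_one_iff] at ht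
      exact (hk ⟨a, haH⟩).1 (by rw [← hΦ s _ hs, ht, map_one])
    have h3 := psl_aux Φ (hΦ _ 1 (by rw [PSL2.toL_neg, map_one]; exact (map_one e).symm) |>.trans (map_one _)) h0 (by
      rw [h2, mul_assoc, ← mul_assoc (Φ g⁻¹), ← mul_assoc (Φ g⁻¹), ← map_mul, inv_mul_cancel, map_one,
        one_mul, mul_assoc, ← mul_assoc (_ - 1), h1, zero_mul, mul_zero])
    have h4 : Φ (Root.xU t) = Φ (Root.xL (-t⁻¹)) := sub_eq_zero.1 (AddMonoidHom.ext fun w => by
      have h5 : 2 • (Φ (Root.xU t) - Φ (Root.xL (-t⁻¹))) w = 0 := DFunLike.congr_fun h3 w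
      obtain ⟨v, hv, h6⟩ := r.surj ((Φ (Root.xU t) - Φ (Root.xL (-t⁻¹))) w)
      obtain ⟨k, hk⟩ := hp2
      have h7 := hV.2 v hv
      rw [← h6, two_smul, ← r.add v hv v hv, r.ker _ (mul_mem hv hv), mem_bot, ← sq] at h5
      rw [hk, pow_succ, pow_mul, h5, one_pow, one_mul] at h7
      exact h6.symm.trans (h7 ▸ r.map_one))
    have h5 := PSL2.toL_eq_one_iff.1 (hΦ1 (Root.xU t * Root.xL t⁻¹) (by
      rw [map_mul, h4, ← map_mul, ← Root.xL_add, neg_add_cancel, Root.xL_zero, map_one]))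
    exact absurd (by rcases h5 with h | h <;> simpa using congrArg (fun s => s 0 1) h) h0
  by_contra h
  have hVp : IsPGroup 3 V := fun v => ⟨1, Subtype.ext (by simpa using hV.2 v v.2)⟩
  obtain ⟨g, hg⟩ := exists_conj_of_mk_not_mem_pCore (p := 3) (a := (⟨a, haH⟩ : H))
    (N := (centralizer (V : Set G)).subgroupOf H) fun h1 => by
      obtain ⟨M, haM, hMH, hHM, hM⟩ := mk_mem_pCore_iff_inCoreMod.1 h1
      have h2 := commutator_lt_of_pow_mem hVp (hMH.trans hHV) hM fun e => hnt (by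
        rw [e]; exact le_centralizer_iff.1 bot_le)
      exact h (le_centralizer_iff.1 (commutator_eq_bot_iff_le_centralizer.1 ((hirr _ h2.le fun x hx =>
        conj_eq_self_iff.1 (by rw [conj_commutator, conj_eq_self_iff.2 (hHV hx),
          conj_eq_self_iff.2 (hHM hx)])).resolve_right h2.ne)) haM)
  set L := closure {a, g * a * (g : G)⁻¹}
  have hb := mul_mem (mul_mem g.2 haH) (inv_mem g.2)
  have hLH : L ≤ H := closure_pair_le haH hb
  obtain ⟨c⟩ := nonempty_elemAbCoord hV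
  obtain ⟨μ, φ, ι, hμ, hdet, h1, h2, hι, h3⟩ := exists_pair_of_quadratic c (hLH.trans hHV)
    (closure_pair_eq_top rfl (Subgroup.subset_closure (by simp)) (Subgroup.subset_closure (by simp)))
    hqa (quadratic_conj (hHV g.2) hqa) (fun h4 => hg fun x hx => h4 x (by
      have : closure {(⟨a, haH⟩ : H), g * ⟨a, haH⟩ * g⁻¹} ≤ L.subgroupOf H :=
        closure_pair_le (Subgroup.subset_closure (by simp)) (Subgroup.subset_closure (by simp))
      exact this hx)) (AlgebraicClosure (ZMod 3))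
  let f := (e.toMonoidHom.comp (QuotientGroup.mk' _)).comp (inclusion hLH)
  have hf : f.rangeRestrict.ker ≤ φ.toHomUnits.ker := fun l hl => Units.ext (by
    have h4 := (c.rho_eq_one_iff (inclusion (hLH.trans hHV) l)).2 ((QuotientGroup.eq_one_iff
      (inclusion hLH l)).1 ((map_eq_one_iff _ e.injective).1 (congrArg Subtype.val hl)))
    refine Matrix.ext_of_mulVec_single fun i => hι ?_
    have h5 := h3 l (Pi.single i 1)
    rw [h4] at h5
    rw [Units.val_one, Matrix.one_mulVec]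
    simpa using h5.symm)
  let ψ := (Units.coeHom _).comp (MonoidHom.liftOfSurjective _ f.rangeRestrict_surjective ⟨_, hf⟩)
  have hψ : ∀ l, ψ (f.rangeRestrict l) = φ l := fun l =>
    congrArg Units.val (MonoidHom.liftOfRightInverse_comp_apply _ _ _ _ l)
  obtain ⟨M, -⟩ := Ree.exists_model hK
  obtain ⟨T⟩ : Nonempty (Sylow 2 f.range) := inferInstance
  exact not_isMulCommutative_sylow_two_of_pair (p := 3) (by decide) ψ (fun x => by
    obtain ⟨l, rfl⟩ := f.rangeRestrict_surjective x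
    rw [hψ, hdet]) hμ ((hψ _).trans h1) ((hψ _).trans h2) T
    (isMulCommutative_sylow_of_hasSection hasSection_refl.of_subgroup M.isMulCommutative_sylow T)

end Cfsg.Agent.S2787
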