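import Cfsg.Statements.S2788
import Cfsg.Agent.Lib.PLocal.SL2Mod
import Cfsg.Agent.Lib.CharDeg.PSL2Prod
import Cfsg.Agent.Lib.GLC.Zsig
import Cfsg.Agent.Lib.PSL2.Count

set_option autoImplicit false
open Cfsg

set_option linter.unusedVariables false
open Cfsg.Lib

namespace Cfsg.Agent.S2788

open Subgroup Root GLTwo in
open scoped MatrixGroups in
theorem ord {F : Type*} [Field F] {N : SL(2, F)} (hN : Odd (orderOf N)) (hN1 : N ≠ 1) {t : F}
    (ht : t ≠ 0) : ∃ g : SL(2, F), orderOf ((xU t * (g * xU t * g⁻¹)) ^ 2) = orderOf N := by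
  obtain ⟨k, hk⟩ := id hN
  have he : N ^ (k + 1) * N ^ (k + 1) = N := by
    rw [← pow_add, show k + 1 + (k + 1) = orderOf N + 1 by omega, pow_succ, pow_orderOf_eq_one,
      one_mul]
  have h1 : N ≠ -1 := fun e => hN1 (orderOf_eq_one_iff.1 ((Nat.coprime_self _).1
    ((Nat.coprime_two_right.2 hN).coprime_dvd_right (orderOf_dvd_of_pow_eq_one (by
      rw [e, neg_one_sq])))))
  generalize N ^ (k + 1) = e at he
  have h2 : trs e ≠ 0 := fun h => h1 (he ▸ (mul_self_eq_neg_one_iff fun hs => hN1 (by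
    rcases scal_sl_iff.1 hs with rfl | rfl <;> simp [← he])).2 h)
  have h3 := div_ne_zero ht h2
  refine ⟨wS (t / trs e), ?_⟩
  rw [wS_mul_xU h3, mul_inv_cancel_right, ← neg_sq]
  have h4 : ¬ Scal ((-(xU t * xL (-t / (t / trs e) ^ 2)) : SL(2, F)) : Matrix (Fin 2) (Fin 2) F) :=
    fun h => ht (by simpa [Matrix.mul_apply, Fin.sum_univ_two] using h.1)
  have h5 : trs (-(xU t * xL (-t / (t / trs e) ^ 2))) = trs N := by
    have := sl2_det e
    rw [trs_neg, ← he]
    simp only [trs, sl_mul_apply] at h2 ⊢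
    simp
    field_simp
    linear_combination 2 * this
  have h6 : ¬ Scal (N : Matrix (Fin 2) (Fin 2) F) := fun h => (scal_sl_iff.1 h).elim hN1 h1
  obtain ⟨φ, hφ, -⟩ := exists_hom_of_trs h4 h6 h5
  obtain ⟨ψ, hψ, -⟩ := exists_hom_of_trs h6 h4 h5.symm
  have h7 := Nat.dvd_antisymm (hψ ▸ orderOf_map_dvd ψ N) (hφ ▸ orderOf_map_dvd φ _)
  rw [Nat.Coprime.orderOf_pow (h7 ▸ Nat.coprime_two_right.2 hN), h7]

open Subgroup Transfer in
theorem bound {G : Type*} [Group G] [Finite G] {p : ℕ} [hp : Fact p.Prime] {V : Subgroup G}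
    (hV : IsPGroup p V) {a g : G} (ha : a ∈ normalizer (V : Set G))
    (hg : g ∈ normalizer (V : Set G)) {m c : ℕ} (hm : orderOf ((a * (g * a * g⁻¹)) ^ 2) = m)
    (hmp : m.Coprime p) (hc : ((a * (g * a * g⁻¹)) ^ 2) ^ c ∉ centralizer (V : Set G))
    (hc' : ∀ i, ¬ m ∣ i → ∃ j, i * j ≡ c [MOD m]) :
    ∃ k, 0 < k ∧ m ∣ p ^ k - 1 ∧ p ^ k ≤ (V ⊓ centralizer {a}).relIndex V ^ 2 := by
  set d := (a * (g * a * g⁻¹)) ^ 2 with hd
  have hdV : d ∈ normalizer (V : Set G) :=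
    pow_mem (mul_mem ha (mul_mem (mul_mem hg ha) (inv_mem hg))) 2
  set C := V ⊓ centralizer {d ^ c}
  obtain ⟨k, hk⟩ := (hV.index (C.subgroupOf V))
  obtain ⟨l, hl⟩ := IsPGroup.iff_card.1 (hV.to_le (inf_le_left : C ≤ V))
  have h1 := card_mul_relIndex (inf_le_left : C ≤ V)
  refine ⟨k, Nat.pos_of_ne_zero fun e => hc fun v hv => ?_, ?_, ?_⟩
  · rw [e, pow_zero, index_eq_one, subgroupOf_eq_top] at hk
    exact ((hk hv).2 _ rfl).symm
  · letI : MulAction (zpowers d) G := MulAction.compHom G (MulAut.conj.comp (zpowers d).subtype)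
    have := PSL2.card_dvd_ncard_of_free (⊤ : Subgroup (zpowers d)) ((V : Set G) \ C)
      (by
        rintro ⟨x, hx⟩ - v hv
        obtain ⟨i, rfl⟩ := mem_powers_iff_mem_zpowers.2 hx
        refine ⟨(mem_normalizer_iff.1 (pow_mem hdV i) v).1 hv.1, fun h => hv.2 ⟨hv.1, ?_⟩⟩
        have h2 : d ^ c * (d ^ i * v * (d ^ i)⁻¹) = d ^ i * v * (d ^ i)⁻¹ * d ^ c := h.2 _ rfl
        rw [← mul_assoc, ← mul_assoc, pow_mul_comm, mul_assoc _ _ (d ^ c),
          ((Commute.refl d).pow_pow i c).inv_left.eq, ← mul_assoc, mul_left_inj, mul_assoc,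
          mul_assoc, mul_right_inj] at h2
        exact mem_centralizer_singleton_iff.2 h2.symm)
      (by
        rintro ⟨x, hx⟩ - v hv h
        obtain ⟨i, rfl⟩ := mem_powers_iff_mem_zpowers.2 hx
        have h : Commute (d ^ i) v := mul_inv_eq_iff_eq_mul.1 h
        by_contra h2
        obtain ⟨j, hj⟩ := hc' i fun e => h2 (Subtype.ext (orderOf_dvd_iff_pow_eq_one.1 (hm ▸ e)))
        refine hv.2 ⟨hv.1, mem_centralizer_singleton_iff.2 ?_⟩
        rw [← pow_eq_pow_iff_modEq.2 (hm ▸ hj), pow_mul]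
        exact (h.pow_left j).symm)
    rw [card_top, Nat.card_zpowers, hm,
      Set.ncard_diff (inf_le_left : C ≤ V), ← Nat.card_coe_set_eq, ← Nat.card_coe_set_eq] at this
    change m ∣ Nat.card V - Nat.card C at this
    rw [← h1, relIndex, hk, ← Nat.mul_sub_one, hl] at this
    exact (hmp.pow_right l).dvd_of_dvd_mul_left this
  · have h2 : (V ⊓ centralizer {a}) ⊓ g ⋆ (V ⊓ centralizer {a}) ≤ C := fun v hv =>
      ⟨hv.1.1, mem_centralizer_singleton_iff.2 (by
        have h3 : Commute v a := mem_centralizer_singleton_iff.1 hv.1.2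
        have h4 : Commute v (g * a * g⁻¹) := by
          have := mem_centralizer_singleton_iff.1 (mem_conj.1 hv.2).2
          calc v * (g * a * g⁻¹) = g * (g⁻¹ * v * g * a) * g⁻¹ := by group
            _ = _ := by rw [this]; group
        exact ((h3.mul_right h4).pow_right 2).pow_right c)⟩
    rw [← hk, sq]
    refine (Nat.le_of_dvd (Nat.pos_of_ne_zero index_ne_zero_of_finite)
      (relIndex_dvd_of_le_left V h2)).trans (relIndex_inf_le.trans (Nat.mul_le_mul_left _ ?_))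
    have := relIndex_conj g (V ⊓ centralizer {a}) V
    rw [conj_eq_self_iff.2 hg] at this
    exact this.le

/-- Let H act faithfully by conjugation on the elementary abelian p-subgroup V of a finite group with H ≅ SL₂(F), F a field with p^n elements, S a Sylow p-subgroup of H, and A ≤ S a subgroup of order at least 3 acting quadratically on V ([V, A, A] = 1). Then |V/C_V(a)| ≥ p^n for every nonidentity a ∈ A. -/
theorem result {G : Type*} [Group G] [Finite G] {p : ℕ} [Fact p.Prime] (V H : Subgroup G) (hV : Cfsg.IsElementaryAbelian p V) (hHV : H ≤ Subgroup.normalizer (V : Set G)) (hf : H ⊓ Subgroup.centralizer (V : Set G) = ⊥) {F : Type*} [Field F] [Fintype F] (n : ℕ) (hF : Fintype.card F = p ^ n) (hiso : Nonempty (↥H ≃* Matrix.SpecialLinearGroup (Fin 2) F)) (S : Sylow p ↥H) (T : Subgroup G) (hT : T = ((S : Subgroup ↥H).map H.subtype)) (A : Subgroup G) (hA : A ≤ T) (hA3 : 3 ≤ Nat.card A) (hquad : ⁅⁅V, A⁆, A⁆ = ⊥) : ∀ a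 ∈ A, a ≠ 1 → p ^ n ≤ ((V ⊓ Subgroup.centralizer ({a} : Set G))).relIndex V := by
  open Subgroup Transfer PLocal in
  intro a ha ha1
  have := charP_of_card_eq hF
  have hp := (Fact.out : p.Prime)
  have hS : SylIn p T H := sylIn_iff.2 ⟨S, hT.symm⟩
  obtain ⟨e, he⟩ := exists_equiv_upper hiso.some hS
  have haH := hS.1 (hA ha)
  have hVp : IsPGroup p V := fun v => ⟨1, Subtype.ext (by simpa using hV.2 v v.2)⟩
  have hne : ∀ x ∈ H, x ≠ 1 → x ∉ centralizer (V : Set G) := fun x hx h1 h2 =>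
    h1 (mem_bot.1 (hf ▸ (⟨hx, h2⟩ : x ∈ H ⊓ centralizer (V : Set G))))
  rcases le_or_gt n 1 with hn | hn
  · obtain ⟨k, hk⟩ := hVp.index ((V ⊓ centralizer {a}).subgroupOf V)
    rw [relIndex, hk]
    refine Nat.pow_le_pow_right hp.pos (hn.trans (Nat.pos_of_ne_zero fun h => hne a haH ha1
      fun v hv => ?_))
    rw [h, pow_zero, index_eq_one, subgroupOf_eq_top] at hk
    exact ((hk hv).2 _ rfl).symm
  obtain ⟨m, c, hm, hodd, hmp, hord, hc, hc'⟩ : ∃ m c, m ∣ p ^ n + 1 ∧ Odd m ∧ m.Coprime p ∧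
      orderOf (p : ZMod m) = 2 * n ∧ ¬ m ∣ c ∧ ∀ i, ¬ m ∣ i → ∃ j, i * j ≡ c [MOD m] := by
    by_cases h6 : p = 2 ∧ 2 * n = 6
    · obtain ⟨rfl, h6⟩ := h6
      obtain rfl : n = 3 := by omega
      refine ⟨9, 3, by norm_num, by decide, by norm_num, ?_, by norm_num, fun i hi => ?_⟩
      · exact orderOf_eq_iff (by norm_num) |>.2 ⟨by decide, by decide⟩
      · have : ∀ i < 9, i ≠ 0 → ∃ j < 9, i * j % 9 = 3 := by decide
        obtain ⟨j, -, hj⟩ := this (i % 9) (Nat.mod_lt _ (by norm_num))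
          fun h => hi (Nat.dvd_of_mod_eq_zero h)
        exact ⟨j, by rw [Nat.ModEq, ← Nat.mod_mul_mod, hj]⟩
    obtain ⟨r, hr, hord⟩ := GLC.zsigmondy hp.one_lt (by omega) h6 (by omega)
    have := Fact.mk hr
    have h1 : (p : ZMod r) ^ n * p ^ n = 1 := by rw [← pow_add, ← two_mul, ← hord, pow_orderOf_eq_one]
    have h2 : (p : ZMod r) ^ n ≠ 1 := pow_ne_one_of_lt_orderOf (by omega) (by omega)
    have h3 := (mul_self_eq_one_iff.1 h1).resolve_left h2
    refine ⟨r, 1, (ZMod.natCast_eq_zero_iff _ _).1 (by push_cast; rw [h3, neg_add_cancel]),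
      hr.odd_of_ne_two ?_, (Nat.coprime_primes hr hp).2 ?_, hord, hr.not_dvd_one, fun i hi => ?_⟩
    · rintro rfl
      exact h2 (h3.trans (CharTwo.neg_eq 1))
    · rintro rfl
      rw [ZMod.natCast_self, zero_pow (by omega), zero_mul] at h1
      exact zero_ne_one h1
    · obtain ⟨j, -, hj⟩ := Nat.exists_mul_mod_eq_one_of_coprime
        ((Nat.coprime_comm.1 ((Nat.Prime.coprime_iff_not_dvd hr).2 hi))) hr.one_lt
      exact ⟨j, by rw [Nat.ModEq, hj, Nat.mod_eq_of_lt hr.one_lt]⟩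
  obtain ⟨s, hs⟩ := GLTwo.exists_ell_orderOf (F := F)
  have h1 := orderOf_pow_orderOf_div (x := s) (by rw [hs]; omega) (hs ▸ hF ▸ hm)
  obtain ⟨t, ht⟩ := Root.mem_upper_iff.1 ((he ⟨a, haH⟩).1 (hA ha))
  obtain ⟨g, hg⟩ := ord (h1.symm ▸ hodd) (fun e => hc (by rw [← h1, e, orderOf_one]; exact one_dvd _))
    (t := t) fun h => ha1 (congrArg Subtype.val (e.injective (by rw [ht, h, Root.xU_zero, map_one])
      : (⟨a, haH⟩ : H) = 1))
  obtain ⟨g, rfl⟩ := e.surjective g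
  rw [h1, ← ht, ← map_inv, ← map_mul, ← map_mul, ← map_mul, ← map_pow, MulEquiv.orderOf_eq,
    ← orderOf_coe] at hg
  obtain ⟨k, hk, h2, h3⟩ := bound hVp (hHV haH) (hHV g.2) hg hmp (hne _ (pow_mem (pow_mem (mul_mem haH
    (mul_mem (mul_mem g.2 haH) (inv_mem g.2))) 2) c)
    fun h => hc (hg ▸ orderOf_dvd_of_pow_eq_one h)) hc'
  have h4 : 2 * n ∣ k := by
    rw [← hord, orderOf_dvd_iff_pow_eq_one, ← Nat.cast_pow, ← Nat.cast_one (R := ZMod m), eq_comm,
      ZMod.natCast_eq_natCast_iff, Nat.modEq_iff_dvd' (Nat.one_le_pow _ _ hp.pos)]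
    exact h2
  refine (Nat.pow_le_pow_iff_left two_ne_zero).1 (le_trans ?_ h3)
  rw [← pow_mul, mul_comm]
  exact Nat.pow_le_pow_right hp.pos (Nat.le_of_dvd hk h4)

end Cfsg.Agent.S2788
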