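import Cfsg.Statements.S2794
import Cfsg.Agent.Lib.PLocal.QdFacts
import Cfsg.Agent.Lib.PLocal.StableSL2

set_option autoImplicit false
open Cfsg

set_option linter.unusedVariables false
open Cfsg.Lib

namespace Cfsg.Agent.S2794

/-- For an odd prime p and a finite group G, the group Qd(p) is not involved in G if and only if in every section K/R of G, for every Sylow p-subgroup S* of K/R, the centre of J(S*) (J generated by the abelian subgroups of largest order) controls strong fusion in K/R. -/
theorem result {G : Type*} [Group G] [Finite G] {p : ℕ} [Fact p.Prime] (hp : p ≠ 2) : ¬ Cfsg.Involves ↥(Cfsg.qd p) G ↔ ∀ (K R : Subgroup G) [hR : (R.subgroupOf K).Normal], ∀ T : Sylow p (K ⧸ R.subgroupOf K), Cfsg.ControlsStrongFusion p (Cfsg.centerThompsonAOf (T : Subgroup (K ⧸ R.subgroupOf K))) := by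
  simp only [PLocal.centerThompsonAOf_eq]
  refine ⟨fun h K R _ T => ?_, fun h h' =>
    (PLocal.subFunctor_centerThompsonOf (Or.inl rfl)).not_hasSection_qd h
      (PLocal.hasSection_iff.mpr h')⟩
  exact (PLocal.controls_of_secStable (PLocal.subFunctor_centerThompsonOf (Or.inl rfl))
    (PLocal.zjLike_centerThompsonOf hp (Or.inl rfl))
    ((PLocal.secStable_of_qd_free hp fun h' => h (PLocal.hasSection_iff.mp h')).section K R) T
    ⟨le_rfl, fun _ _ _ h => h⟩).controlsStrongFusion (PLocal.centerThompsonOf_le _)

end Cfsg.Agent.S2794
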