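import Cfsg.Statements.S2795
import Cfsg.Agent.Lib.PLocal.QdFacts
import Cfsg.Agent.Lib.PLocal.KInfCor
import Cfsg.Agent.Lib.PLocal.StableSL2

set_option autoImplicit false
open Cfsg

set_option linter.unusedVariables false
open Cfsg.Lib

namespace Cfsg.Agent.S2795

/-- For an odd prime p and a finite group G, the group Qd(p) is not involved in G if and only if every section of G is p-stable in the normalizer form (for every p-subgroup P of the section and every g in its normalizer acting quadratically on P, the image of g in N(P)/C(P) lies in O_p(N(P)/C(P))). -/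
theorem result {G : Type*} [Group G] [Finite G] {p : ℕ} [Fact p.Prime] (hp : p ≠ 2) : ¬ Cfsg.Involves ↥(Cfsg.qd p) G ↔ ∀ (K R : Subgroup G) [hR : (R.subgroupOf K).Normal], Cfsg.IsNormalizerPStable p (K ⧸ R.subgroupOf K) := by
  refine ⟨fun h K R _ => ((PLocal.secStable_of_qd_free hp fun h' =>
    h (PLocal.hasSection_iff.mp h')).section K R).isNormalizerPStable, fun h h' => ?_⟩
  exact (PLocal.subFunctor_inducedFunctor PLocal.isCharPFunctor_kInfLower).not_hasSection_qd
    (fun K R _ T => PLocal.controlsStrongFusion_kInfLower
      ((PLocal.secStable_of_forall_section h).section K R) T) (PLocal.hasSection_iff.mpr h')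

end Cfsg.Agent.S2795
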