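import Cfsg.Statements.S2796
import Cfsg.Agent.Lib.S4F.Ctl

set_option autoImplicit false
universe u
open Cfsg

set_option linter.unusedVariables false
open Cfsg.Lib

namespace Cfsg.Agent.S2796

/-- Let G be a finite group in which the symmetric group of degree 4 is not involved, such that for every section K/R of G with C(O₂(K/R)) ≤ O₂(K/R) every non-abelian composition factor of K/R is a Suzuki group Sz(2^(2n+1)) or PSL₂ over a field with 3^(2n+1) elements. Let S be a Sylow 2-subgroup, J_e(S) the subgroup generated by its elementary abelian subgroups of largest order, and A the normal closure of Ω₁(Z(S)) in N_G(J_e(S)). Then A is an elementary abelian subgroup of S, strongly closed in S with respect to G, and A controls strong fusion in G. -/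
theorem result {G : Type u} [Group G] [Finite G] (hfree : ¬ Cfsg.Involves (Equiv.Perm (Fin 4)) G) (hsec : ∀ (K R : Subgroup G) [hR : (R.subgroupOf K).Normal], Subgroup.centralizer (Cfsg.pCore 2 (K ⧸ R.subgroupOf K) : Set (K ⧸ R.subgroupOf K)) ≤ Cfsg.pCore 2 (K ⧸ R.subgroupOf K) → Cfsg.IsCompositionKGroupWith Cfsg.IsSuzukiOrPSL2OddPowerThree (K ⧸ R.subgroupOf K)) (S : Sylow 2 G) (N : Subgroup G) (hN : N = Subgroup.normalizer (Cfsg.thompsonSubgroupOf 2 (S : Subgroup G) : Set G)) (A : Subgroup G) (hA : A = (Subgroup.normalClosure (((Cfsg.omegaOne 2 ((S : Subgroup G) ⊓ Subgroup.centralizer ((S : Subgroup G) : Set G))).subgroupOf N : Subgroup ↥N) : Set ↥N)).map N.subtype) : A ≤ S ∧ Cfsg.IsElementaryAbelian 2 A ∧ Cfsg.IsStronglyClosed A (S : Subgroup G) ∧ Cfsg.ControlsStrongFusion 2 A := by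
  open Cfsg.Lib.S4F Cfsg.Lib.PLocal Cfsg.Lib.BG Cfsg.Lib.Loc in
  have : Fact (Nat.Prime 2) := ⟨Nat.prime_two⟩
  have h := controls_wg (fun e => hfree (hasSection_iff.1 e)) (fun X _ _ hX hc => by
    obtain ⟨K, R, _, ⟨e⟩⟩ := hasSection_iff.1 hX
    refine (ks_of_comp (hsec K R ?_)).of_section (hasSection_refl.congr_left e)
    have h1 := Subgroup.comap_mono (f := e.toMonoidHom) hc
    rw [← Core.map_pCore_equiv e, Subgroup.comap_map_eq_self_of_injective e.injective] at h1
    exact fun x hx => h1 ((mem_cent_map e.injective).2 hx)) S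
  have h1 : omegaOne 2 ((S : Subgroup G) ⊓ 𝐂((S : Subgroup G))) ≤ N := hN ▸ le_norm_of_le
    ((omegaOne_center_le_centerThompsonOf _).trans ((PGroup.omegaOne_le _).trans inf_le_left))
  rw [map_normalClosure_eq_ncl h1, hN] at hA
  have h2 : A ≤ Wg (S : Subgroup G) := hA ▸ ncl_omega_le h
  have h3 := h.mono (norm_wg_le S.isPGroup' (Transfer.sylow_not_dvd_relIndex S le_top) h2 (hA ▸ norm_ncl _ _)) le_rfl
  have h4 := h2.trans (wg_le _)
  exact ⟨h4, PGroup.elemAb_of_le (good_wg _).elem h2, h3.stronglyClosed h4, h3.controlsStrongFusion h4⟩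

end Cfsg.Agent.S2796
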