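import Cfsg.Statements.S2856
import Cfsg.Agent.Lib.Amalgam.CharP
-- import your own Cfsg.Agent.* helpers here

set_option autoImplicit false
open Cfsg

namespace Cfsg.Agent.S2856

open Cfsg.Lib.Amalgam Cfsg.Lib.Loc Cfsg.Lib.BG Cfsg.Lib.Core Cfsg.Lib.Transfer Subgroup

/-- Let (M₁, M₂) be an amalgam pair in X satisfying the rank-two standing hypothesis (characteristic p, the normalizers in M₁ and in M₂ of a Sylow p-subgroup of M₁ ∩ M₂ equal and contained in M₁ ∩ M₂, and strongly p-embedded residues), λ a vertex of the coset graph, L_λ the subgroup of its stabilizer generated by the p-elements, Q_λ = O_p of the stabilizer, O^p(L_λ) the subgroup of L_λ generated by its elements of order prime to p, and V_λ^{(k)} the subgroup generated by the Z_μ over the vertices μ at distance at most k from λ (Z_μ being generated by the Ω₁(Z(S)), S a Sylow p-subgroup of the stabilizer of μ). If n ≥ 1 and V_λ^{(n)} ≤ Q_λ, then O^p(L_λ) does not centralize V_λ^{(n)}/[V_λ^{(n)}, Q_λ], that is, [V_λ^{(n)},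 O^p(L_λ)] is not contained in [V_λ^{(n)}, Q_λ]. -/
theorem result {X : Type*} [Group X] {p : ℕ} [Fact p.Prime] (M₁ M₂ : Subgroup X) (h : Cfsg.IsSpeAmalgamPair p M₁ M₂) (lam : Cfsg.CosetVertex M₁ M₂) (n : ℕ) (hn : 1 ≤ n) (V : Subgroup X) (hV : V = Cfsg.vertexVIter p M₁ M₂ n lam) (hVQ : V ≤ Cfsg.vertexQ p lam) : ¬ ⁅V, ((Cfsg.pResidual p ↥(Cfsg.pElementClosure p (MulAction.stabilizer X lam))).map (Cfsg.pElementClosure p (MulAction.stabilizer X lam)).subtype)⁆ ≤ ⁅V, Cfsg.vertexQ p lam⁆ := by
    intro hle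
    obtain ⟨n, rfl⟩ := Nat.exists_eq_add_of_le' hn
    obtain ⟨μ, hμ⟩ := exists_adj lam
    subst hV
    haveI := finite_stab h.1 lam
    haveI : Finite (vertexQ p lam) := Finite.of_injective _ (inclusion_injective (core_le p _))
    refine not_V_le h.1 hμ hVQ (eq_of_le_sup_comm (core_pgroup p _) hVQ
      (((Q_le_edge h.1 hμ).trans inf_le_right).trans (norm_V h.1 n μ)) ?_)
    refine (V_le_ncl h.1 hμ n (spe_norm h hμ)).trans ?_
    rw [ncl_eq_sup]
    exact sup_le_sup_left ((commutator_mono (V_le_V h.1 hμ n) le_rfl).trans hle) _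

end Cfsg.Agent.S2856
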