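import Cfsg.Statements.S2945
import Cfsg.Agent.Lib.JComp.Exist
-- import your own Cfsg.Agent.* helpers here

set_option autoImplicit false
open Cfsg

namespace Cfsg.Agent.S2945

open Subgroup Lib.JComp Lib.Transfer Lib.PLocal Lib.Core

/-- Let G be a finite group of characteristic 2 type in which every 2-local subgroup is solvable and the centralizer of Ω₁(Z(S)) lies in N_G(S) for every Sylow 2-subgroup S, and let T be a nontrivial 2-subgroup (below, J is the Thompson subgroup generated by the elementary abelian 2-subgroups of largest order), L a subgroup in which T is a Sylow 2-subgroup with J(T) not contained in O₂(L) and C_G(O₂(L)) ≤ O₂(L), and K ≤ L a subgroup that is subnormal in ⟨K, J(T)⟩. If for some conjugate Tᵍ of T, K is a J(Tᵍ)-component with J(Tᵍ) the Thompson subgroup of every Sylow 2-subgroup of N_G(W_K) containing J(Tᵍ) (W_K = [Ω₁(Z(O₂(K))), K]), then K is a J(T)-component. -/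
theorem result {G : Type*} [Group G] [Finite G] (hL : Cfsg.IsCharacteristicTwoType G) (hN : ∀ N : Subgroup G, Cfsg.IsTwoLocal N → Group.IsSolvable ↥N)
    (hZ : ∀ S : Sylow 2 G, Subgroup.centralizer (Cfsg.omegaCenterOf (S : Subgroup G) : Set G) ≤ Subgroup.normalizer ((S : Subgroup G) : Set G)) (T : Subgroup G) (hT : IsPGroup 2 ↥T) (hT1 : T ≠ ⊥) (L : Subgroup G) (hLT : L ∈ Cfsg.jOvergroups T)
    (K : Subgroup G) (hKL : K ≤ L) (hKsn : (K.subgroupOf (K ⊔ Cfsg.thompsonSubgroupOf 2 T)).IsSubnormal)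
    (g : G) (hKg : K ∈ Cfsg.jComponentsZero (T.map (MulAut.conj g).toMonoidHom)) : Cfsg.IsJComponent T K := by
  have h := (mem_jComponentsZero_iff (isPGroup_conj hT g)).1 hKg
  have hG := zn_of hL hN hZ
  have hLT := mem_jOvergroups_iff.1 hLT
  have hle := sup_le hKL ((thompsonSubgroupOf_le (e := 2) T).trans hLT.syl.le)
  have h1 := h.toJC.le_norm_W (Lib.BG.sol_of_le (hLT.sol hG) hle) ((isSubnormal_subgroupOf_iff le_sup_left).1 hKsn)
    fun N hN => thompsonSubgroupOf_le_iff.2 fun A hA => hN A (mem_maxIn_of_le (hLT.mem_maxIn hA)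
      ((le_thompsonSubgroupOf hA).trans le_sup_right) hle)
  have e : g⁻¹ ⋆ thompsonSubgroupOf 2 (g ⋆ T) = thompsonSubgroupOf 2 T := by
    rw [← conj_thompsonSubgroupOf, inv_conj_conj]
  exact (isJComponent_iff hT).2 (e ▸ h.jc_conj hG (e.le.trans h1))

end Cfsg.Agent.S2945
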