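import Cfsg.Statements.S2953
import Cfsg.Agent.Lib.JComp.Pair
-- import your own Cfsg.Agent.* helpers here

set_option autoImplicit false
open Cfsg

namespace Cfsg.Agent.S2953

open Subgroup Lib.JComp Lib.BG Lib.Loc Lib.PLocal

theorem aux {G : Type*} [Group G] [Finite G] {T K L P : Subgroup G} (h : GT T K L) (hP : P = K ⊔ T) :
    centralizer (pCoreOf 2 P : Set G) ≤ pCoreOf 2 P ∧ IsSylowTwoIn T P ∧ (pCoreOf 2 P).relIndex P = 6 ∧
      ¬ ⁅P, P⁆ ≤ pCoreOf 2 P ∧ ⁅omegaCenterOf T, P⁆ ≠ ⊥ ∧ ∃ L : Subgroup G, IsMaximalTwoLocal L ∧ P ≤ L ∧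
      IsSylowTwoIn T L ∧ ∀ L' : Subgroup G, IsMaximalTwoLocal L' → P ≤ L' → L' = L := by
  subst hP
  have hJ := sup_le_sup_left (thompsonSubgroupOf_le (e := 2) T) K
  exact ⟨h.cent, isSylowTwoIn_iff.2 h.syl, h.isS3.idx, fun e => h.jc.not_le (core_pgroup 2 _) (h.jc.comm.ge.trans
    ((commutator_mono le_sup_left (le_sup_right.trans hJ)).trans e)),
    fun e => h.ncent (le_sup_left.trans (comm_eq_bot_iff'.1 e)), L, h.toGC.isMax, h.P_le,
    isSylowTwoIn_iff.2 h.lt.syl, fun L' h1 h2 => h.toGC.eq_of_max h1 (hJ.trans h2)⟩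

/-- Let G be a finite group of characteristic 2 type in which every 2-local subgroup is solvable and the centralizer of Ω₁(Z(S)) lies in N_G(S) for every Sylow 2-subgroup S; suppose O₂(G) = 1, fix a Sylow 2-subgroup S and a 2-local subgroup M containing N_G(J(S)) (J the Thompson subgroup generated by the elementary abelian 2-subgroups of largest order). Let T be maximal (for the order of a largest elementary abelian subgroup, then the order of J(T), then the order of T) among the nontrivial 2-subgroups of M lying in a 2-local subgroup not inside M. Then there are two distinct J(T)-components K₁, K₂ such that, with Pᵢ = ⟨Kᵢ, T⟩: C_G(O₂(Pᵢ)) ≤ O₂(Pᵢ), T is a Sylow 2-subgroup of Pᵢ, O₂(Pᵢ) has index 6 in Pᵢ with Pᵢ/O₂(Pᵢ) non-abelian, [Ω₁(Z(T)), Pᵢ] ≠ 1, O₂(⟨P₁, P₂⟩) = 1, and each Pᵢ lies in exactly one maximal 2-local subgroup Lᵢ of G, in which T is a Sylow 2-subgroup. -/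
theorem result {G : Type*} [Group G] [Finite G] (hL : Cfsg.IsCharacteristicTwoType G) (hN : ∀ N : Subgroup G, Cfsg.IsTwoLocal N → Group.IsSolvable ↥N)
    (hZ : ∀ S : Sylow 2 G, Subgroup.centralizer (Cfsg.omegaCenterOf (S : Subgroup G) : Set G) ≤ Subgroup.normalizer ((S : Subgroup G) : Set G)) (hO : Cfsg.pCore 2 G = ⊥) (S : Sylow 2 G) (M : Subgroup G) (hM : Cfsg.IsTwoLocal M)
    (hMJ : Subgroup.normalizer (Cfsg.thompsonSubgroupOf 2 (S : Subgroup G) : Set G) ≤ M) (T : Subgroup G) (hT : T ∈ Cfsg.maxStraddlingTwoSubgroups M) :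
    ∃ K₁ K₂ : Subgroup G, K₁ ≠ K₂ ∧ Cfsg.IsJComponent T K₁ ∧ Cfsg.IsJComponent T K₂ ∧
      Cfsg.pCoreOf 2 ((K₁ ⊔ T) ⊔ (K₂ ⊔ T)) = ⊥ ∧
      ∀ P ∈ [K₁ ⊔ T, K₂ ⊔ T],
        Subgroup.centralizer (Cfsg.pCoreOf 2 P : Set G) ≤ Cfsg.pCoreOf 2 P ∧ Cfsg.IsSylowTwoIn T P ∧
        (Cfsg.pCoreOf 2 P).relIndex P = 6 ∧ ¬ ⁅P, P⁆ ≤ Cfsg.pCoreOf 2 P ∧ ⁅Cfsg.omegaCenterOf T, P⁆ ≠ ⊥ ∧
        ∃ L : Subgroup G, Cfsg.IsMaximalTwoLocal L ∧ P ≤ L ∧ Cfsg.IsSylowTwoIn T L ∧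
          ∀ L' : Subgroup G, Cfsg.IsMaximalTwoLocal L' → P ≤ L' → L' = L := by
  obtain ⟨K, L, K', L', h⟩ := MJ.exists_gp ⟨hM, S, hMJ⟩ hT (zn_of hL hN hZ) hO
  refine ⟨K, K', fun e => h.ne (e ▸ h.l.le), (isJComponent_iff hT.1.1).2 h.l.jc, (isJComponent_iff hT.1.1).2 h.r.jc,
    h.eq_bot (core_pgroup 2 _) (le_sup_left.trans (le_normalizer_core 2 _))
      (le_sup_left.trans (le_sup_right.trans (le_normalizer_core 2 _))), fun P hP => ?_⟩
  rcases List.mem_pair.1 hP with e | e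
  exacts [aux h.l e, aux h.r e]

end Cfsg.Agent.S2953
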