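import Cfsg.Statements.S3084
import Cfsg.Agent.Lib.Extraspecial.Basic

set_option autoImplicit false
open Cfsg

namespace Cfsg.Agent.S3084

open Cfsg.Lib.ES

section
variable {E U A : Type*} [Group E] [Fintype E] [AddCommGroup U] [Module (ZMod 2) U]
  [Ring A] [Algebra (ZMod 3) A] (D : Ext 2 E U) (ω : E →* A)

/-- averaging operator -/
noncomputable def av (x : A) : A := ∑ e : E, ω e⁻¹ * x * ω e

theorem av_conj (x : A) (w : E) : av ω (ω w⁻¹ * x * ω w) = av ω x := by
  unfold av
  refine Fintype.sum_equiv (Equiv.mulLeft w) _ _ fun e => ?_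
  simp only [Equiv.coe_mulLeft, mul_inv_rev, map_mul, mul_assoc]

theorem av_smul (c : ZMod 3) (x : A) : av ω (c • x) = c • av ω x := by
  simp only [av, Finset.smul_sum, mul_smul_comm, smul_mul_assoc]

theorem av_add (x y : A) : av ω (x + y) = av ω x + av ω y := by
  simp only [av, mul_add, add_mul, Finset.sum_add_distrib]

theorem ι_cases (a : ZMod 2) : D.ι a = 1 ∨ D.ι a = D.ι 1 := by
  have : a = 0 ∨ a = 1 := by revert a; decide
  rcases this with rfl | rfl
  · exact Or.inl D.ι_zero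
  · exact Or.inr rfl

variable {D ω} (hz : ω (D.ι 1) = -1) (hB : D.B.Nondegenerate)
include hz hB

open Classical in
theorem av_of (u : E) : av ω (ω u) = if D.π u = 0 then (Fintype.card E : ZMod 3) • ω u else 0 := by
  classical
  split_ifs with h
  · obtain ⟨a, rfl⟩ := (D.π_eq_zero u).1 h
    have : ∀ e : E, ω e⁻¹ * ω (D.ι a) * ω e = ω (D.ι a) := fun e => by
      rw [← map_mul, ← map_mul, ← D.ι_comm, inv_mul_cancel_right]
    simp only [av, this, Finset.sum_const, Finset.card_univ, Nat.cast_smul_eq_nsmul]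
  · obtain ⟨v, hv⟩ : ∃ v, D.B v (D.π u) ≠ 0 := by
      by_contra hh
      push Not at hh
      exact h (hB.2 _ hh)
    obtain ⟨w, rfl⟩ := D.π_surj v
    have h1 : D.B (D.π w) (D.π u) = 1 := by
      revert hv; generalize D.B (D.π w) (D.π u) = a; revert a; decide
    have h2 := av_conj ω (ω u) w⁻¹
    rw [inv_inv, ← map_mul, ← map_mul, D.conj_eq, h1, map_mul, hz, neg_one_mul,
      ← neg_one_smul (ZMod 3), av_smul] at h2
    have h3 : (2 : ZMod 3) • av ω (ω u) = 0 := by
      rw [two_smul]; nth_rewrite 1 [← h2]; simp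
    have h4 := congrArg (fun x => (2 : ZMod 3) • x) h3
    simpa [smul_smul, show (2 : ZMod 3) * 2 = 1 by decide] using h4

theorem kappa : ∃ c : ZMod 3, c ≠ 0 ∧ ∑ u : E, av ω (ω u) * ω u⁻¹ = c • (1 : A) := by
  classical
  have hc : (Fintype.card E : ZMod 3) ≠ 0 := by
    obtain ⟨k, hk⟩ := (IsPGroup.iff_card (p := 2)).1 D.isPGroup
    rw [← Nat.card_eq_fintype_card, hk]
    push_cast
    exact pow_ne_zero _ (by decide)
  refine ⟨2 * Fintype.card E, mul_ne_zero (by decide) hc, ?_⟩
  have : ∀ u : E, av ω (ω u) * ω u⁻¹ = if u ∈ D.Z then (Fintype.card E : ZMod 3) • (1 : A) else 0 := by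
    intro u
    simp only [av_of hz hB, D.mem_Z]
    split_ifs
    · rw [smul_mul_assoc, ← map_mul, mul_inv_cancel, map_one]
    · rw [zero_mul]
  rw [Finset.sum_congr rfl fun u _ => this u, ← Finset.sum_filter, Finset.sum_const, mul_smul,
    ← Nat.cast_smul_eq_nsmul (ZMod 3)]
  congr 1
  have h2 := D.card_Z
  rw [Nat.card_eq_fintype_card, Fintype.card_subtype] at h2
  rw [h2]; rfl

variable (hs : ∀ x : A, x ∈ Submodule.span (ZMod 3) (Set.range ω))
include hs

theorem av_scalar (x : A) : ∃ c : ZMod 3, av ω x = c • (1 : A) := by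
  induction hs x using Submodule.span_induction with
  | mem x hx =>
    obtain ⟨u, rfl⟩ := hx
    rw [av_of hz hB]
    split_ifs with h
    · obtain ⟨a, rfl⟩ := (D.π_eq_zero u).1 h
      rcases ι_cases D a with h | h
      · exact ⟨_, by rw [h, map_one]⟩
      · exact ⟨-(Fintype.card E : ZMod 3), by rw [h, hz]; simp⟩
    · exact ⟨0, by simp⟩
  | zero => exact ⟨0, by simp [av]⟩
  | add x y _ _ hx hy =>
    obtain ⟨c, hc⟩ := hx; obtain ⟨d, hd⟩ := hy
    exact ⟨c + d, by rw [av_add, hc, hd, add_smul]⟩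
  | smul a x _ hx =>
    obtain ⟨c, hc⟩ := hx
    exact ⟨a * c, by rw [av_smul, hc, mul_smul]⟩

theorem exists_av_ne {x : A} (hx : x ≠ 0) :
    ∃ (y : E) (c : ZMod 3), c ≠ 0 ∧ av ω (x * ω y⁻¹) = c • (1 : A) := by
  obtain ⟨k, hk, hκ⟩ := kappa hz hB
  have key : ∀ x : A, ∑ y : E, av ω (x * ω y⁻¹) * ω y = k • x := by
    intro x
    induction hs x using Submodule.span_induction with
    | mem x hx =>
      obtain ⟨w, rfl⟩ := hx
      rw [← one_mul (ω w), ← smul_mul_assoc, ← hκ, Finset.sum_mul, one_mul]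
      refine Fintype.sum_equiv ((Equiv.inv E).trans (Equiv.mulLeft w)) _ _ fun y => ?_
      simp only [Equiv.trans_apply, Equiv.inv_apply, Equiv.coe_mulLeft, ← map_mul, mul_assoc]
      congr 2
      group
    | zero => simp [av]
    | add x y _ _ hx hy => simp only [add_mul, av_add, Finset.sum_add_distrib, hx, hy, smul_add]
    | smul a x _ hx =>
      simp only [smul_mul_assoc, av_smul, ← Finset.smul_sum, hx]
      rw [smul_comm]
  by_contra h
  push Not at h
  have h0 : ∀ y : E, av ω (x * ω y⁻¹) = 0 := fun y => by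
    obtain ⟨c, hc⟩ := av_scalar hz hB hs (x * ω y⁻¹)
    by_cases h1 : c = 0
    · rw [hc, h1, zero_smul]
    · exact absurd hc (h y c h1)
  have h1 := key x
  simp only [h0, zero_mul, Finset.sum_const_zero] at h1
  have h2 := congrArg (fun x => k⁻¹ • x) h1
  simp only [smul_zero, smul_smul, inv_mul_cancel₀ hk, one_smul] at h2
  exact hx h2.symm

theorem exists_unit [Finite A] [Nontrivial A] (f : E →* E) (hf : ∀ x, D.π (f x) = 0 → D.π x = 0)
    (hι : ∀ a, f (D.ι a) = D.ι a) : ∃ g : Aˣ, ∀ v, g * ω v * ↑g⁻¹ = ω (f v) := by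
  let T : A → A := fun x => ∑ e : E, ω (f e) * x * ω e⁻¹
  have hT : ∀ x v, T x * ω v = ω (f v) * T x := fun x v => by
    simp only [T, Finset.sum_mul, Finset.mul_sum]
    refine Fintype.sum_equiv (Equiv.mulLeft v⁻¹) _ _ fun e => ?_
    simp only [Equiv.coe_mulLeft, mul_inv_rev, inv_inv, map_mul, ← mul_assoc]
    rw [← map_mul ω (f v), ← map_mul f, mul_inv_cancel, map_one, map_one, one_mul]
  obtain ⟨k, hk, hκ⟩ := kappa hz hB
  obtain ⟨w, hw⟩ : ∃ w, T (ω w) ≠ 0 := by
    by_contra h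
    push Not at h
    have h1 : ∑ w : E, ω w⁻¹ * T (ω w) = k • (1 : A) := by
      simp only [T, Finset.mul_sum]
      rw [Finset.sum_comm, ← hκ]
      refine Finset.sum_congr rfl fun e _ => ?_
      have : av ω (ω e) = av ω (ω (f e)) := by
        by_cases h0 : D.π e = 0
        · obtain ⟨a, rfl⟩ := (D.π_eq_zero e).1 h0
          rw [hι]
        · rw [av_of hz hB, av_of hz hB, if_neg h0, if_neg fun h => h0 (hf _ h)]
      rw [this, av, Finset.sum_mul]
      simp only [mul_assoc]
    simp only [h, mul_zero, Finset.sum_const_zero] at h1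
    have h2 := congrArg (fun x => k⁻¹ • x) h1
    simp only [smul_zero, smul_smul, inv_mul_cancel₀ hk, one_smul] at h2
    exact zero_ne_one h2
  obtain ⟨y, c, hc, h⟩ := exists_av_ne hz hB hs hw
  have h1 : (c⁻¹ • ∑ e : E, ω e⁻¹ * ω (f (y⁻¹ * e))) * T (ω w) = 1 := by
    rw [smul_mul_assoc, Finset.sum_mul, inv_smul_eq_iff₀ hc, ← h, av]
    refine Finset.sum_congr rfl fun e _ => ?_
    rw [mul_assoc, ← hT, map_mul]; simp only [mul_assoc]
  obtain ⟨g, hg⟩ := IsUnit.of_mul_eq_one_right _ h1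
  exact ⟨g, fun v => by rw [hg, hT, ← hg, Units.mul_inv_cancel_right]⟩

theorem exists_eq [Nontrivial A] (g : Aˣ)
    (hg : ∀ v, ∃ v', D.π v' = D.π v ∧ g * ω v * ↑g⁻¹ = ω v') : ∃ y, (g : A) = ω y := by
  obtain ⟨y, c, hc, h⟩ := exists_av_ne hz hB hs g.ne_zero
  have h1 : ∀ e : E, ∃ m : ZMod 3, ω e⁻¹ * (g * ω y⁻¹) * ω e = m • (g * ω y⁻¹) := fun e => by
    obtain ⟨v', h1, h2⟩ := hg (y⁻¹ * e * y)
    have h3 : D.π e = D.π v' := by rw [h1]; simpa using (D.π_conj y⁻¹ e).symm
    obtain ⟨a, rfl⟩ := D.π_eq_iff.1 h3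
    have h4 : (g : A) * ω y⁻¹ * ω e = ω (e * D.ι a) * (g * ω y⁻¹) := by
      rw [← h2]
      simp only [mul_assoc, Units.inv_mul_cancel_left, ← map_mul, mul_inv_cancel, mul_one]
    rw [mul_assoc, h4, ← mul_assoc, ← map_mul, inv_mul_cancel_left]
    rcases ι_cases D a with h | h
    · exact ⟨1, by rw [h, map_one, one_mul, one_smul]⟩
    · exact ⟨-1, by rw [h, hz]; simp⟩
  choose m hm using h1
  rw [av, Finset.sum_congr rfl fun e _ => hm e, ← Finset.sum_smul] at h
  have hm0 : ∑ e, m e ≠ 0 := fun h0 => by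
    rw [h0, zero_smul] at h
    have h2 := congrArg (fun x => c⁻¹ • x) h
    simp only [smul_zero, smul_smul, inv_mul_cancel₀ hc, one_smul] at h2
    exact zero_ne_one h2
  have h2 : (g : A) = ((∑ e, m e)⁻¹ * c) • ω y := by
    rw [mul_smul, eq_inv_smul_iff₀ hm0, ← one_mul (ω y), ← smul_mul_assoc c, ← h, smul_mul_assoc,
      mul_assoc, ← map_mul, inv_mul_cancel, map_one, mul_one]
  have h3 : (∑ e, m e)⁻¹ * c ≠ 0 := mul_ne_zero (inv_ne_zero hm0) hc
  have h4 : ∀ a : ZMod 3, a ≠ 0 → a = 1 ∨ a = -1 := by decide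
  rcases h4 _ h3 with h | h
  · exact ⟨y, by rw [h2, h, one_smul]⟩
  · exact ⟨D.ι 1 * y, by rw [h2, h, map_mul, hz]; simp⟩

omit hs in
theorem inj [Nontrivial A] : Function.Injective ω.toHomUnits := by
  rw [injective_iff_map_eq_one]
  intro y hy
  have hy' : ω y = 1 := congrArg Units.val hy
  have h1 := av_of hz hB y
  have h2 := av_of hz hB 1
  obtain ⟨k, hk⟩ := (IsPGroup.iff_card (p := 2)).1 D.isPGroup
  have hc : (Fintype.card E : ZMod 3) ≠ 0 := by
    rw [← Nat.card_eq_fintype_card, hk]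
    push_cast
    exact pow_ne_zero _ (by decide)
  rw [map_one, if_pos D.π_one] at h2
  rw [hy', h2] at h1
  have h3 : D.π y = 0 := by
    by_contra h
    rw [if_neg h] at h1
    have h2 := congrArg (fun x => (Fintype.card E : ZMod 3)⁻¹ • x) h1
    simp only [smul_zero, smul_smul, inv_mul_cancel₀ hc, one_smul] at h2
    exact one_ne_zero h2
  obtain ⟨a, rfl⟩ := (D.π_eq_zero y).1 h3
  rcases ι_cases D a with h | h
  · exact h
  · rw [h, hz] at hy'
    have h3 : (2 : ZMod 3) • (1 : A) = 0 := by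
      rw [two_smul]; nth_rewrite 1 [← hy']; simp
    have h4 := congrArg (fun x => (2 : ZMod 3) • x) h3
    simp [smul_smul, show (2 : ZMod 3) * 2 = 1 by decide] at h4

end

universe u

theorem exists_alg {E : Type u} [Group E] [Finite E] (z : E) (hz : ∀ x, z * x = x * z) (h2 : z * z = 1)
    (h1 : z ≠ 1) : ∃ (A : Type u) (_ : Ring A) (_ : Algebra (ZMod 3) A) (_ : Finite A) (_ : Nontrivial A)
      (ω : E →* A), ω z = -1 ∧ ∀ x : A, x ∈ Submodule.span (ZMod 3) (Set.range ω) := by
  let M := MonoidAlgebra (ZMod 3) E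
  have : Finite M := Module.finite_of_finite (ZMod 3)
  let t : M := MonoidAlgebra.of (ZMod 3) E z
  have ht : ∀ x : M, t * x = x * t := fun x => by
    induction x using MonoidAlgebra.induction_on with
    | of g => rw [← map_mul, ← map_mul, hz]
    | add x y hx hy => rw [mul_add, add_mul, hx, hy]
    | smul c x hx => rw [mul_smul_comm, smul_mul_assoc, hx]
  let I : Ideal M := Ideal.span {t + 1}
  have : I.IsTwoSided := ⟨fun b ha => by
    obtain ⟨c, rfl⟩ := Ideal.mem_span_singleton'.1 ha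
    refine Ideal.mem_span_singleton'.2 ⟨c * b, ?_⟩
    simp only [mul_assoc, mul_add, add_mul, ht, mul_one, one_mul]⟩
  refine ⟨M ⧸ I, inferInstance, inferInstance, Finite.of_surjective _ Ideal.Quotient.mk_surjective,
    Ideal.Quotient.nontrivial_iff.2 ?_,
    (Ideal.Quotient.mkₐ (ZMod 3) I : M →* M ⧸ I).comp (MonoidAlgebra.of (ZMod 3) E), ?_, fun x => ?_⟩
  · rw [Ne, Ideal.eq_top_iff_one]
    intro h
    obtain ⟨c, hc⟩ := Ideal.mem_span_singleton'.1 h
    have h3 : t * t = 1 := by rw [← map_mul, h2, map_one]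
    have h4 : t - 1 = 0 := by
      have h5 : (t + 1) * (t - 1) = 0 := by rw [add_mul, mul_sub, h3]; simp
      rw [← one_mul (t - 1)]
      nth_rewrite 1 [← hc]
      rw [mul_assoc, h5, mul_zero]
    exact h1 (MonoidAlgebra.of_injective (R := ZMod 3) ((sub_eq_zero.1 h4).trans (map_one _).symm))
  · rw [← add_eq_zero_iff_eq_neg]
    change Ideal.Quotient.mk I t + 1 = 0
    rw [← map_one (Ideal.Quotient.mk I), ← map_add, Ideal.Quotient.eq_zero_iff_mem]
    exact Ideal.subset_span rfl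
  · obtain ⟨x, rfl⟩ := Ideal.Quotient.mkₐ_surjective (ZMod 3) I x
    induction x using MonoidAlgebra.induction_on with
    | of g => exact Submodule.subset_span ⟨g, rfl⟩
    | add x y hx hy => rw [map_add]; exact add_mem hx hy
    | smul c x hx => rw [map_smul]; exact Submodule.smul_mem _ _ hx

theorem main {K E U : Type*} [Group K] [Finite K] [Group E] [Finite E] [AddCommGroup U]
    [Module (ZMod 2) U] (D : Ext 2 E U) (hB : D.B.Nondegenerate) (ρ : Representation (ZMod 2) K U)
    (hρ : ∀ k, ∃ f : E →* E, (∀ x, D.π (f x) = ρ k (D.π x)) ∧ ∀ a, f (D.ι a) = D.ι a) :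
    ∃ (R : Type) (_ : Group R) (_ : Finite R) (π : R →* K) (j : E →* R), Function.Surjective π ∧
      Function.Injective j ∧ j.range = π.ker ∧
      ∀ r y, ∃ y', r * j y * r⁻¹ = j y' ∧ D.π y' = ρ (π r) (D.π y) := by
  have := Fintype.ofFinite E
  obtain ⟨A, _, _, _, _, ω, hz, hs⟩ := exists_alg (D.ι 1) (D.ι_comm 1)
    (by rw [← D.ι_add]; exact D.ι_zero) (fun h => absurd (D.ι_inj (h.trans D.ι_zero.symm)) (by decide))
  let S : Set (K × Aˣ) := {p | ∀ v, ∃ v', D.π v' = ρ p.1 (D.π v) ∧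
    p.2 * ω.toHomUnits v * p.2⁻¹ = ω.toHomUnits v'}
  let R₀ : Submonoid (K × Aˣ) :=
    { carrier := S
      one_mem' := fun v => ⟨v, by simp, by simp⟩
      mul_mem' := fun {a b} ha hb v => by
        obtain ⟨v', h1, h2⟩ := hb v
        obtain ⟨v'', h3, h4⟩ := ha v'
        refine ⟨v'', by rw [h3, h1]; simp, ?_⟩
        rw [← h4, ← h2]; simp [mul_assoc] }
  let R : Subgroup (K × Aˣ) :=
    { toSubmonoid := R₀
      inv_mem' := fun {a} ha => by
        rw [← mul_one a⁻¹, ← pow_orderOf_eq_one a, ← Nat.succ_pred_eq_of_pos (orderOf_pos a), pow_succ',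
          inv_mul_cancel_left]
        exact R₀.pow_mem ha _ }
  let π : R →* K := (MonoidHom.fst K Aˣ).comp R.subtype
  let j : E →* R := ((1 : E →* K).prod ω.toHomUnits).codRestrict R fun y v =>
    ⟨y * v * y⁻¹, by simp [D.π_conj], by simp⟩
  have hπ : Function.Surjective π := fun k => by
    obtain ⟨f, h1, h2⟩ := hρ k
    obtain ⟨g, hg⟩ := exists_unit hz hB hs f (fun x hx => by
      rw [h1] at hx
      simpa using congrArg (ρ k⁻¹) hx) h2
    exact ⟨⟨(k, g), fun v => ⟨f v, h1 v, Units.ext (hg v)⟩⟩, rfl⟩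
  have hj : Function.Injective j := fun a b h => inj hz hB (congrArg (fun r : R => r.1.2) h)
  have hr : ∀ r : R, π r = 1 → ∃ y, j y = r := by
    rintro ⟨⟨k, g⟩, hr⟩ (rfl : k = 1)
    obtain ⟨y, hy⟩ := exists_eq hz hB hs g fun v => by
      obtain ⟨v', h1, h2⟩ := hr v
      exact ⟨v', by simpa using h1, congrArg Units.val h2⟩
    exact ⟨y, Subtype.ext (Prod.ext rfl (Units.ext hy.symm))⟩
  let e : Shrink.{0} R ≃* R := Shrink.mulEquiv
  refine ⟨Shrink.{0} R, inferInstance, Finite.of_equiv _ e.toEquiv.symm, π.comp e.toMonoidHom,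
    e.symm.toMonoidHom.comp j, hπ.comp e.surjective, e.symm.injective.comp hj, ?_, fun r y => ?_⟩
  · ext r
    constructor
    · rintro ⟨y, rfl⟩
      simp [MonoidHom.mem_ker, π, j]
    · intro h
      obtain ⟨y, hy⟩ := hr (e r) h
      exact ⟨y, by simp [hy]⟩
  · obtain ⟨v', h1, h2⟩ := (e r).2 y
    refine ⟨v', e.injective ?_, h1⟩
    simp only [map_mul, map_inv, MulEquiv.toMonoidHom_eq_coe, MonoidHom.coe_comp, MonoidHom.coe_coe,
      Function.comp_apply, MulEquiv.apply_symm_apply]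
    exact Subtype.ext (Prod.ext (by simp [j]) h2)

/-- Let K be a group acting faithfully and linearly on a finite-dimensional vector space U of dimension 2n ≥ 2 over the field with two elements, preserving a quadratic form q whose polar bilinear form is non-degenerate and which vanishes on some n-dimensional subspace (a non-singular form of plus type). Then there is a finite group R with a normal extraspecial 2-subgroup Q of order 2^(2n+1), an isomorphism of R/Q with K, and a surjective homomorphism χ from Q onto (the additive group of) U with kernel the centre of Q, such that χ carries conjugation by any r in R to the action of the image of r in K, and an element a of Q squares to the identity exactly when q vanishes at χ(a). -/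
theorem result {K : Type*} [Group K] {U : Type*} [AddCommGroup U] [Module (ZMod 2) U] [Module.Finite (ZMod 2) U] (n : ℕ) (hn1 : 1 ≤ n) (hn : Module.finrank (ZMod 2) U = 2 * n) (ρ : Representation (ZMod 2) K U) (hρ : Function.Injective ρ) (q : QuadraticForm (ZMod 2) U) (hq : ∀ (k : K) (u : U), q (ρ k u) = q u) (hnd : (QuadraticMap.polarBilin q).Nondegenerate) (hplus : ∃ W : Submodule (ZMod 2) U, Module.finrank (ZMod 2) ↥W = n ∧ ∀ w ∈ W, q w = 0) : ∃ (R : Type) (_ : Group R) (_ : Finite R) (Q : Subgroup R) (hN : Q.Normal) (e : R ⧸ Q ≃* K) (χ : ↥Q →* Multiplicative U), Cfsg.IsExtraspecial 2 ↥Q ∧ Nat.card ↥Q = 2 ^ (2 * n + 1) ∧ Function.Surjective χ ∧ χ.ker = Subgroup.center ↥Q ∧ (∀ (r : R) (a : ↥Q), χ ⟨r * a * r⁻¹, hN.conj_mem (a : R) a.2 r⟩ = Multiplicative.ofAdd (ρ (e (r : R ⧸ Q)) (Multiplicative.toAdd (χ a)))) ∧ ∀ a : ↥Q, a * a = 1 ↔ q (Multiplicative.toAdd (χ a)) = 0 := by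
  have : Finite U := Module.finite_of_finite (ZMod 2)
  have : Finite (U →ₗ[ZMod 2] U) := Finite.of_injective _ DFunLike.coe_injective
  have : Finite K := Finite.of_injective _ hρ
  obtain ⟨β, rfl⟩ := LinearMap.BilinMap.toQuadraticMap_surjective q
  let D := Heis.ext' β
  have hP : ∀ v, D.P v = β v v := fun v => by rw [Heis.ext'_P]; simp
  have hBq : D.B = QuadraticMap.polarBilin (LinearMap.BilinMap.toQuadraticMap β) := by
    ext u v
    rw [Heis.ext'_B_apply, QuadraticMap.polarBilin_apply_apply, LinearMap.BilinMap.polar_toQuadraticMap,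
      sub_eq_add_neg, ZMod.neg_eq_self_mod_two]
  have hB : D.B.Nondegenerate := hBq ▸ hnd
  obtain ⟨R, _, _, π, j, hπ, hj, hr, hc⟩ := main D hB ρ fun k => D.exists_hom D (ρ k)
    (fun u v => by
      rw [hBq, QuadraticMap.polarBilin_apply_apply, QuadraticMap.polarBilin_apply_apply,
        QuadraticMap.polar, QuadraticMap.polar, ← map_add, hq, hq, hq])
    (fun v => by rw [hP, hP]; exact hq k v)
  let φ : Heis β ≃* π.ker := (MonoidHom.ofInjective hj).trans (MulEquiv.subgroupCongr hr)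
  have hφ : ∀ y, (φ y : R) = j y := fun y => rfl
  have hU : Nontrivial U := Module.nontrivial_of_finrank_pos (R := ZMod 2) (by omega)
  refine ⟨R, inferInstance, inferInstance, π.ker, inferInstance,
    QuotientGroup.quotientKerEquivOfSurjective π hπ, D.πHom.comp φ.symm.toMonoidHom,
    isExtraspecial_congr φ (D.isExtraspecial_iff.2 ⟨hB, hU⟩), ?_, ?_, ?_, ?_, ?_⟩
  · rw [← Nat.card_congr φ.toEquiv, D.card_eq_pow, hn]
  · intro u
    obtain ⟨y, hy⟩ := D.π_surj u.toAdd
    exact ⟨φ y, by simp [hy]⟩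
  · ext a
    obtain ⟨y, rfl⟩ := φ.surjective a
    have h1 : φ y ∈ Subgroup.center π.ker ↔ y ∈ Subgroup.center (Heis β) := by
      simp only [Subgroup.mem_center_iff, φ.surjective.forall, ← map_mul, φ.injective.eq_iff]
    rw [h1, D.nondegenerate_iff.1 hB, D.mem_Z]
    simp [MonoidHom.mem_ker]
  · intro r a
    obtain ⟨y, rfl⟩ := φ.surjective a
    obtain ⟨y', h1, h2⟩ := hc r y
    have h3 : (⟨r * φ y * r⁻¹, (inferInstance : π.ker.Normal).conj_mem _ (φ y).2 r⟩ : π.ker) = φ y' :=
      Subtype.ext h1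
    rw [h3]
    simp only [MulEquiv.toMonoidHom_eq_coe, MonoidHom.coe_comp, MonoidHom.coe_coe, Function.comp_apply,
      MulEquiv.symm_apply_apply, Ext.πHom_apply, toAdd_ofAdd, h2]
    rfl
  · intro a
    obtain ⟨y, rfl⟩ := φ.surjective a
    rw [← map_mul, map_eq_one_iff _ φ.injective, ← pow_two, D.pow_eq_one_iff, hP]
    simp

end Cfsg.Agent.S3084
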