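import Cfsg.Statements.S3085
import Cfsg.Agent.Lib.Extraspecial.Basic
-- import your own Cfsg.Agent.* helpers here

set_option autoImplicit false
open Cfsg

namespace Cfsg.Agent.S3085

open Cfsg.Lib.ES Subgroup

section
variable {Q V : Type*} [Group Q] [AddCommGroup V] [Module (ZMod 2) V] (D : Ext 2 Q V)

theorem z2 (a : ZMod 2) : a = 0 ∨ a = 1 := by revert a; decide

theorem add_self' (v : V) : v + v = 0 := by
  rw [← two_smul (ZMod 2) v]; exact (by rw [show (2 : ZMod 2) = 0 from rfl, zero_smul])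

/-- the reflection map -/
noncomputable def rf (x y : Q) : Q := by
  classical exact if D.B (D.π x) (D.π y) = 0 then y else y * x

theorem rf_zero {x y : Q} (h : D.B (D.π x) (D.π y) = 0) : rf D x y = y := by
  simp [rf, h]

theorem rf_one {x y : Q} (h : D.B (D.π x) (D.π y) = 1) : rf D x y = y * x := by
  simp [rf, h]

theorem π_rf (x y : Q) : D.π (rf D x y) = D.π y + D.B (D.π x) (D.π y) • D.π x := by
  rcases z2 (D.B (D.π x) (D.π y)) with h | h
  · rw [rf_zero D h, h, zero_smul, add_zero]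
  · rw [rf_one D h, h, one_smul, D.π_mul]

theorem sq_eq {x : Q} (hx : D.P (D.π x) = 1) : x * x = D.ι 1 := by
  rw [← pow_two, D.pow_eq, hx]

theorem swap_one {x y : Q} (h : D.B (D.π x) (D.π y) = 1) : x * y = D.ι 1 * (y * x) := by
  have := D.conj_eq x y
  rw [h] at this
  calc x * y = x * y * x⁻¹ * x := by group
    _ = _ := by rw [this, mul_assoc]

theorem ι_one_sq : D.ι 1 * D.ι 1 = 1 := by
  rw [← D.ι_add, show (1 + 1 : ZMod 2) = 0 from rfl, D.ι_zero]

theorem rf_mul {x : Q} (hx : D.P (D.π x) = 1) (y w : Q) : rf D x (y * w) = rf D x y * rf D x w := by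
  have hB : D.B (D.π x) (D.π (y * w)) = D.B (D.π x) (D.π y) + D.B (D.π x) (D.π w) := by
    rw [D.π_mul, map_add]
  rcases z2 (D.B (D.π x) (D.π y)) with h | h <;> rcases z2 (D.B (D.π x) (D.π w)) with h' | h'
  · rw [rf_zero D h, rf_zero D h', rf_zero D (by rw [hB, h, h', add_zero])]
  · rw [rf_zero D h, rf_one D h', rf_one D (by rw [hB, h, h', zero_add]), mul_assoc]
  · rw [rf_one D h, rf_zero D h', rf_one D (by rw [hB, h, h', add_zero]), mul_assoc, mul_assoc,
      D.mul_comm_iff.2 h']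
  · rw [rf_one D h, rf_one D h', rf_zero D (by rw [hB, h, h']; rfl)]
    have e : x * (w * x) = w := by
      rw [← mul_assoc, swap_one D h', mul_assoc, mul_assoc, sq_eq D hx, ← D.ι_comm 1 w, ← mul_assoc,
        ι_one_sq, one_mul]
    rw [mul_assoc, e]

theorem B_rf (x y : Q) : D.B (D.π x) (D.π (rf D x y)) = D.B (D.π x) (D.π y) := by
  rw [π_rf, map_add, map_smul, D.isAlt.self_eq_zero, smul_zero, add_zero]

theorem rf_rf {x : Q} (hx : D.P (D.π x) = 1) (y : Q) : rf D x (rf D x y) = x * y * x⁻¹ := by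
  rw [D.conj_eq]
  rcases z2 (D.B (D.π x) (D.π y)) with h | h
  · rw [rf_zero D (by rw [B_rf, h]), rf_zero D h, h, D.ι_zero, one_mul]
  · rw [rf_one D (by rw [B_rf, h]), rf_one D h, h, mul_assoc, sq_eq D hx, D.ι_comm]

/-- the reflection automorphism -/
noncomputable def rfa {x : Q} (hx : D.P (D.π x) = 1) : MulAut Q where
  toFun := rf D x
  invFun y := rf D x (x⁻¹ * y * x)
  left_inv y := by
    have h0 : D.B (D.π x) (D.π x) = 0 := D.isAlt.self_eq_zero _
    have h1 : D.B (D.π x) (D.π x⁻¹) = 0 := by rw [D.π_inv, map_neg, h0, neg_zero]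
    show rf D x (x⁻¹ * rf D x y * x) = y
    rw [rf_mul D hx, rf_mul D hx, rf_rf D hx, rf_zero D h0, rf_zero D h1]; group
  right_inv y := by
    show rf D x (rf D x (x⁻¹ * y * x)) = y
    rw [rf_rf D hx]; group
  map_mul' := rf_mul D hx

theorem rfa_apply {x : Q} (hx : D.P (D.π x) = 1) (y : Q) : rfa D hx y = rf D x y := rfl

theorem rf_comm {x x' : Q} (h : D.B (D.π x) (D.π x') = 0) (y : Q) :
    rf D x (rf D x' y) = rf D x' (rf D x y) := by
  have h' : D.B (D.π x') (D.π x) = 0 := by rw [D.B_swap, h, neg_zero]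
  have e1 : D.B (D.π x) (D.π (rf D x' y)) = D.B (D.π x) (D.π y) := by
    rw [π_rf, map_add, map_smul, h, smul_zero, add_zero]
  have e2 : D.B (D.π x') (D.π (rf D x y)) = D.B (D.π x') (D.π y) := by
    rw [π_rf, map_add, map_smul, h', smul_zero, add_zero]
  rcases z2 (D.B (D.π x) (D.π y)) with a | a <;> rcases z2 (D.B (D.π x') (D.π y)) with b | b
  · rw [rf_zero D (e1.trans a), rf_zero D (e2.trans b), rf_zero D a, rf_zero D b]
  · rw [rf_zero D (e1.trans a), rf_one D (e2.trans b), rf_zero D a, rf_one D b]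
  · rw [rf_one D (e1.trans a), rf_zero D (e2.trans b), rf_one D a, rf_zero D b]
  · rw [rf_one D (e1.trans a), rf_one D (e2.trans b), rf_one D a, rf_one D b, mul_assoc, mul_assoc,
      D.mul_comm_iff.2 h]

theorem conj_mul_aut (u u' : Q) (a b : MulAut Q) :
    MulAut.conj u * a * (MulAut.conj u' * b) = MulAut.conj (u * a u') * (a * b) := by
  ext y; simp [mul_assoc]

variable {D} {L : Subgroup (MulAut Q)}

theorem exists_lift (hL : (Inn Q).IsComplement' L) (a : MulAut Q) : ∃ u : Q, MulAut.conj u * a ∈ L := by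
  obtain ⟨⟨⟨h, u, rfl⟩, l⟩, e⟩ := hL.2 a
  refine ⟨u⁻¹, ?_⟩
  have : a = MulAut.conj u * l := e.symm
  rw [this, map_inv, inv_mul_cancel_left]; exact l.2

theorem π_eq_of_mem (hZ : D.Z = center Q) (hL : (Inn Q).IsComplement' L) {u : Q}
    (h : MulAut.conj u ∈ L) : D.π u = 0 := by
  have : MulAut.conj u = 1 := (Subgroup.disjoint_def.1 hL.disjoint) ⟨u, rfl⟩ h
  rw [← D.mem_Z, hZ, Subgroup.mem_center_iff]
  intro g
  have := congrArg (fun f : MulAut Q => f g) this
  simp only [MulAut.conj_apply, MulAut.one_apply] at this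
  calc g * u = u * g * u⁻¹ * u := by rw [this]
    _ = u * g := by group

theorem lift_self (hZ : D.Z = center Q) (hL : (Inn Q).IsComplement' L) {x u : Q}
    (hx : D.P (D.π x) = 1) (h : MulAut.conj u * rfa D hx ∈ L) : D.B (D.π x) (D.π u) = 1 := by
  have h2 := L.mul_mem h h
  rw [conj_mul_aut] at h2
  have e : rfa D hx * rfa D hx = MulAut.conj x := by
    ext y; exact rf_rf D hx y
  rw [e, ← map_mul] at h2
  have h3 := π_eq_of_mem hZ hL h2
  rw [D.π_mul, D.π_mul, rfa_apply, π_rf, ← add_assoc, add_self', zero_add] at h3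
  rcases z2 (D.B (D.π x) (D.π u)) with a | a
  · rw [a, zero_smul, zero_add] at h3
    rw [h3, D.P_zero] at hx; exact absurd hx (by decide)
  · exact a

theorem lift_pair (hZ : D.Z = center Q) (hL : (Inn Q).IsComplement' L) {x x' u : Q}
    (hx : D.P (D.π x) = 1) (hx' : D.P (D.π x') = 1) (hB : D.B (D.π x) (D.π x') = 0)
    (hne : D.π x ≠ D.π x') (h : MulAut.conj u * rfa D hx ∈ L) : D.B (D.π x') (D.π u) = 0 := by
  obtain ⟨u', h'⟩ := exists_lift hL (rfa D hx')
  have h2 := L.mul_mem (L.mul_mem h h') (L.inv_mem (L.mul_mem h' h))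
  have e : rfa D hx' * rfa D hx = rfa D hx * rfa D hx' := by
    ext y; exact (rf_comm D hB y).symm
  rw [conj_mul_aut, conj_mul_aut, e, mul_inv_rev, mul_assoc, mul_inv_cancel_left, ← map_inv,
    ← map_mul] at h2
  have h3 := π_eq_of_mem hZ hL h2
  rw [D.π_mul, D.π_inv, D.π_mul, D.π_mul, rfa_apply, rfa_apply, π_rf, π_rf] at h3
  have h4 : D.B (D.π x) (D.π u') • D.π x = D.B (D.π x') (D.π u) • D.π x' := by
    rw [← sub_eq_zero, ← h3]; abel
  rcases z2 (D.B (D.π x') (D.π u)) with b | b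
  · exact b
  · exfalso
    rcases z2 (D.B (D.π x) (D.π u')) with a | a
    · rw [a, b, zero_smul, one_smul] at h4
      rw [← h4, D.P_zero] at hx'; exact absurd hx' (by decide)
    · rw [a, b, one_smul, one_smul] at h4; exact hne h4

theorem P_add' (u v : V) : D.P (u + v) = D.P u + D.P v + D.B v u := by
  rw [D.P_add]; simp

theorem exists_next [Module.Finite (ZMod 2) V] (hd : 5 ≤ Module.finrank (ZMod 2) V) {a b : V}
    (ha : D.P a = 1) (hab : D.B a b = 0) :
    ∃ c : V, D.P c = 1 ∧ D.B a c = 0 ∧ D.B b c = 0 ∧ c ≠ a ∧ c ≠ b := by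
  let f : V →ₗ[ZMod 2] ZMod 2 × ZMod 2 := LinearMap.prod (D.B a) (D.B b)
  have h1 := f.finrank_range_add_finrank_ker
  have h2 : Module.finrank (ZMod 2) (LinearMap.range f) ≤ 2 := by
    have := Submodule.finrank_le (LinearMap.range f)
    simpa using this
  have h3 : Module.finrank (ZMod 2) (Submodule.span (ZMod 2) ({a, b} : Set V)) ≤ 2 := by
    classical
    have := finrank_span_finset_le_card (R := ZMod 2) ({a, b} : Finset V)
    rw [Set.finrank, Finset.coe_pair] at this
    exact this.trans Finset.card_le_two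
  have h4 : ¬ LinearMap.ker f ≤ Submodule.span (ZMod 2) ({a, b} : Set V) := fun h => by
    have := Submodule.finrank_mono h
    omega
  obtain ⟨w, hw, hw'⟩ := SetLike.not_le_iff_exists.1 h4
  have hwa : D.B a w = 0 := congrArg Prod.fst (LinearMap.mem_ker.1 hw)
  have hwb : D.B b w = 0 := congrArg Prod.snd (LinearMap.mem_ker.1 hw)
  have ma : a ∈ Submodule.span (ZMod 2) ({a, b} : Set V) := Submodule.subset_span (by simp)
  have mb : b ∈ Submodule.span (ZMod 2) ({a, b} : Set V) := Submodule.subset_span (by simp)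
  rcases z2 (D.P w) with h | h
  · refine ⟨w + a, by rw [P_add', h, ha, hwa]; rfl, by rw [map_add, hwa, D.isAlt.self_eq_zero]; rfl,
      by rw [map_add, hwb, D.B_swap, hab]; rfl, fun e => hw' ?_, fun e => hw' ?_⟩
    · rw [eq_sub_of_add_eq e]; exact Submodule.sub_mem _ ma ma
    · rw [eq_sub_of_add_eq e]; exact Submodule.sub_mem _ mb ma
  · exact ⟨w, h, hwa, hwb, fun e => hw' (e ▸ ma), fun e => hw' (e ▸ mb)⟩

end

/-- Let Q be an extraspecial 2-group of order 2^(2n+1) with n ≥ 3 that is of plus type (it contains an elementary abelian subgroup of order 2^(n+1)). Then the group of inner automorphisms of Q has no complement in the full automorphism group of Q: the extension of the inner automorphism group (elementary abelian of order 2^(2n)) by the outer automorphism group (the orthogonal group of plus type) does not split. -/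
theorem result {Q : Type*} [Group Q] [Finite Q] (n : ℕ) (hn : 3 ≤ n) (hQ : Cfsg.IsExtraspecial 2 Q) (hcard : Nat.card Q = 2 ^ (2 * n + 1)) (hplus : ∃ E : Subgroup Q, Cfsg.IsElementaryAbelian 2 E ∧ Nat.card ↥E = 2 ^ (n + 1)) (L : Subgroup (MulAut Q)) : ¬ (Cfsg.Inn Q).IsComplement' L := by
  intro hL
  obtain ⟨D, h1, hZ, hB⟩ := exists_ext_of_isExtraspecial_card hQ hcard
  have hd : 5 ≤ Module.finrank (ZMod 2) (Fin (2 * n) → ZMod 2) := by simp; omega
  haveI : Nonempty (Fin (2 * n)) := ⟨⟨0, by omega⟩⟩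
  obtain ⟨a, ha⟩ : ∃ a, D.P a = 1 := by
    have h0 := D.B_ne_zero_of_nondegenerate hB
    by_contra hc
    push Not at hc
    have hc' : ∀ a, D.P a = 0 := fun a => (z2 _).resolve_right (hc a)
    apply h0
    ext u v
    have := P_add' (D := D) (Pi.single v 1) (Pi.single u 1)
    rw [hc', hc', hc'] at this
    simpa using this.symm
  obtain ⟨b, hb, hab, -, hba, -⟩ := exists_next (b := a) hd ha (D.isAlt.self_eq_zero _)
  obtain ⟨c, hc, hac, hbc, hca, hcb⟩ := exists_next hd ha hab
  obtain ⟨x, rfl⟩ := D.π_surj a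
  obtain ⟨y, rfl⟩ := D.π_surj b
  obtain ⟨w, rfl⟩ := D.π_surj c
  obtain ⟨u, hu⟩ := exists_lift hL (rfa D ha)
  have e1 := lift_self hZ hL ha hu
  have e2 := lift_pair hZ hL ha hb hab hba.symm hu
  have e3 := lift_pair hZ hL ha hc hac hca.symm hu
  have hπ : D.π (x * y * w) = D.π x + D.π y + D.π w := by rw [D.π_mul, D.π_mul]
  have hP : D.P (D.π (x * y * w)) = 1 := by
    rw [hπ, P_add', P_add', ha, hb, hc, map_add, D.B_swap (D.π x) (D.π y), D.B_swap (D.π x) (D.π w),
      D.B_swap (D.π y) (D.π w), hab, hac, hbc]; rfl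
  have e4 := lift_pair hZ hL ha hP
    (by rw [hπ, map_add, map_add, hab, hac, D.isAlt.self_eq_zero]; rfl)
    (fun e => hcb (by
      rw [hπ, add_assoc, left_eq_add] at e
      rw [← add_zero (D.π w), ← add_self' (D.π y), ← add_assoc, add_comm (D.π w), e, zero_add])) hu
  rw [hπ, map_add, map_add, LinearMap.add_apply, LinearMap.add_apply, e1, e2, e3] at e4
  exact absurd e4 (by decide)

end Cfsg.Agent.S3085
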