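import Cfsg.Statements.S3110
import Cfsg.Agent.Lib.Sig.Core3

set_option autoImplicit false
open Cfsg

namespace Cfsg.Agent.S3110

open Subgroup Cfsg.Lib Cfsg.Lib.BG Cfsg.Lib.Sig
open scoped Cfsg.Lib.Transfer

/-- Let G be a finite group in which every 2-local subgroup is 2-constrained and some Sylow 2-subgroup has a self-centralizing abelian normal subgroup of 2-rank at least 3, and let S be any Sylow 2-subgroup of G. Then there is a subgroup W of G of odd order such that, for every subgroup B of S of 2-rank at least 2, W is generated by the largest normal odd-order subgroups O(C_G(b)) of the centralizers of the non-identity elements b of B, and W is normalized by the normalizer of every such B. -/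
theorem result {G : Type*} [Group G] [Finite G]
    (h2c : ∀ T : Subgroup G, IsPGroup 2 T → T ≠ ⊥ → Cfsg.IsPConstrained 2 ↥(Subgroup.normalizer (T : Set G)))
    (S : Sylow 2 G) (A : Subgroup ↥(S : Subgroup G)) (hAn : A.Normal) (hAab : IsMulCommutative ↥A)
    (hAC : Subgroup.centralizer (A : Set ↥(S : Subgroup G)) = A) (hA3 : ¬ Cfsg.PRankLE 2 2 ↥A) (S' : Sylow 2 G) :
    ∃ W : Subgroup G, Odd (Nat.card ↥W) ∧
      ∀ B : Subgroup G, B ≤ (S' : Subgroup G) → ¬ Cfsg.PRankLE 2 1 ↥B →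
        W = (⨆ b : {b : G // b ∈ B ∧ b ≠ 1}, Cfsg.centralizerPPrimeCore 2 (b : G)) ∧
        Subgroup.normalizer (B : Set G) ≤ Subgroup.normalizer (W : Set G) := by
  have hL := pLayer_cent_eq_bot_of_locals h2c
  obtain ⟨E₀, hE₀, h8₀, hn₀⟩ := exists_normal_elab' A hAab hA3
  obtain ⟨g, -, hg⟩ := Syl.exists_conj_eq (Syl.of_sylow_top S) (Syl.of_sylow_top S')
  have hn := hn₀.conj g
  rw [← hg] at hn
  have hE := (elab_conj g).2 hE₀
  have h8 := (Transfer.card_conj g E₀).symm ▸ h8₀
  have hW := (glob_core hL).const_of_normal S'.2 hE h8 hn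
  refine ⟨_, odd_iff_two'.2 ((glob_core hL).closure_two' hE h8), fun B hB h1 => ?_⟩
  obtain ⟨V, hV⟩ := exists_elem_of_le_rk (lt_rk_iff.2 h1)
  refine ⟨?_, hW.norm_le core_conj hB hV.le hV.elem hV.card.ge⟩
  change _ = signalizerClosure B (centralizerPPrimeCore 2)
  refine le_antisymm ?_ (Sig.closure_le fun b hb hb1 => ?_)
  · rw [← hW V (hV.le.trans hB) hV.elem hV.card.ge]
    exact Sig.closure_mono hV.le
  have hb2 : IsPGroup 2 (zpowers b) := S'.2.to_le ((zpowers_le.2 hb).trans hB)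
  obtain ⟨Z, hZ⟩ := Elem.exists_one_of_pgroup hb2 (by simpa using hb1)
  obtain ⟨t, ht, ht1⟩ := exists_ne_one (hZ.ne_bot one_ne_zero)
  have ht2 := hZ.orderOf_eq ht ht1
  have hc : 𝐂[b] ≤ 𝐂[t] := (cent_zpowers b).ge.trans (cent_le_cent1 (hZ.le ht))
  obtain ⟨F, hF, h2, h3, h4⟩ := exists_cube_of_normal hE h8 hn
    (hB (zpowers_le.2 hb (hZ.le ht))) ht2
  rw [← hW F hF h2 (le_trans (by norm_num) h3)]
  refine le_trans ?_ (le_closure h4 ht1)
  exact (le_inf le_rfl ((core_eq (p := 2) b ▸ pcore_le _ _ : _ ≤ 𝐂[b]).trans hc)).trans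
    (core_inf_le (hL t ht2) hb2 (hc (self_mem_cent1 b)))

end Cfsg.Agent.S3110
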