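import Cfsg.Statements.S3117
import Cfsg.Agent.Lib.PGroup.Critical
import Cfsg.Agent.S0144

set_option autoImplicit false
open Cfsg

namespace Cfsg.Agent.S3117

open Subgroup Cfsg.Lib.PGroup Finset
open scoped commutatorElement

section
variable {K : Type*} [Group K]

theorem four [Finite K] (h : Nat.card {x : K // x * x = 1} = 4) {z a : K} (hz : z * z = 1) (ha : a * a = 1)
    (hc : a * z = z * a) (h1 : z ≠ 1) (h2 : a ≠ 1) (h3 : a ≠ z) {w : K} (hw : w * w = 1) :
    w = 1 ∨ w = z ∨ w = a ∨ w = a * z := by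
  classical
  by_contra! k
  have a3 : a * z ≠ 1 := fun h => h3 (by rw [← hz] at h; exact mul_right_cancel h)
  have a4 : a * z * (a * z) = 1 := by rw [mul_assoc, ← mul_assoc z, ← hc, mul_assoc, hz, mul_one, ha]
  have := Set.ncard_le_ncard (s := (({1, z, a, a * z, w} : Finset K) : Set K)) (t := {x : K | x * x = 1}) (by
    simp [Set.insert_subset_iff, hz, ha, a4, hw])
  rw [Set.ncard_coe_finset, show Set.ncard {x : K | x * x = 1} = 4 from h, card_insert_of_notMem (by
    simp [h1.symm, h2.symm, a3.symm, k.1.symm]), card_insert_of_notMem (by simp [h3.symm, h2, k.2.1.symm]),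
    card_insert_of_notMem (by simp [h1, k.2.2.1.symm]), card_pair k.2.2.2.symm] at this
  omega

/-- A `2`-group of exponent at most `4` with three involutions, all central. -/
structure Hyp (K : Type*) [Group K] : Prop where
  two : IsPGroup 2 K
  cen : ∀ x : K, x * x = 1 → ∀ y, y * x = x * y
  ex : ∀ x : K, x * x * (x * x) = 1
  card : Nat.card {x : K // x * x = 1} = 4

theorem Hyp.ex2 [Finite K] (h : Hyp K) {z : K} (h1 : z ≠ 1) : ∃ a : K, a * a = 1 ∧ a ≠ 1 ∧ a ≠ z := by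
  by_contra! k
  have := Set.ncard_le_ncard (s := {x : K | x * x = 1}) (t := {1, z}) fun x hx => by
    by_cases e : x = 1
    · exact Or.inl e
    · exact Or.inr (k x hx e)
  rw [Set.ncard_pair h1.symm, show Set.ncard {x : K | x * x = 1} = 4 from h.card] at this
  omega

theorem Hyp.mul (h : Hyp K) {x y : K} (hx : x * x = 1) (hy : y * y = 1) : x * y * (x * y) = 1 := by
  rw [mul_assoc, ← mul_assoc y, h.cen x hx y, mul_assoc, hy, mul_one, hx]

theorem Hyp.comm (h : Hyp K) (x y : K) : ⁅x, y⁆ * ⁅x, y⁆ = 1 ∧ x * y * (x * y) = x * x * (y * y) * ⁅x, y⁆ := by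
  have e : ∀ x y : K, ⁅x⁻¹, y⁆ = x⁻¹ * x⁻¹ * (x * y * (x * y)) * (y⁻¹ * y⁻¹) := fun x y => by
    simp [commutatorElement_def, mul_assoc]
  have k : ∀ x y : K, ⁅x, y⁆ * ⁅x, y⁆ = 1 := fun x y => by
    rw [← inv_inv x, e]; exact h.mul (h.mul (h.ex _) (h.ex _)) (h.ex _)
  refine ⟨k x y, ?_⟩
  have e2 : y * x = x * y * ⁅x, y⁆ := by
    rw [h.cen _ (k x y), ← inv_eq_of_mul_eq_one_right (k x y)]; simp [commutatorElement_def, mul_assoc]
  rw [mul_assoc, ← mul_assoc y, e2, mul_assoc (x * y), ← h.cen _ (k x y)]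
  simp only [mul_assoc]

theorem Hyp.gauss [Fintype K] [DecidableEq K] (h : Hyp K) {z : K} (hz : z * z = 1) (h1 : z ≠ 1) :
    ∃ c : ℕ, (c = 0 ∨ ∃ i, c = 2 ^ i) ∧ (2 * (#{x : K | x * x = z} : ℤ) + 8 - Fintype.card K) ^ 2 =
      Fintype.card K * 4 * c := by
  classical
  obtain ⟨a, a1, a2, a3⟩ := h.ex2 h1
  let l : K → ℤ := fun w => if w = 1 ∨ w = z then 1 else -1
  have a4 : a * z ≠ 1 := fun h => a3 (by rw [← hz] at h; exact mul_right_cancel h)
  have lm : ∀ x y, x * x = 1 → y * y = 1 → l (x * y) = l x * l y := fun x y hx hy => by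
    have c := h.cen z hz a
    have c1 : a * (a * z) = z := by rw [← mul_assoc, a1, one_mul]
    have c2 : a * z * z = a := by rw [mul_assoc, hz, mul_one]
    have c3 : z * (a * z) = a := by rw [← mul_assoc, ← c, c2]
    have c4 : a * z * a = z := by rw [mul_assoc, ← c, c1]
    have c5 := h.mul a1 hz
    rcases four h.card hz a1 c h1 a2 a3 hx with e | e | e | e <;>
      rcases four h.card hz a1 c h1 a2 a3 hy with e' | e' | e' | e' <;> rw [e, e'] <;>
      simp [l, hz, a1, c1, c2, c3, c4, c5, h1, a2, a3, a4, c.symm]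
  have l2 : ∀ x, l x * l x = 1 := fun x => by simp only [l]; split_ifs <;> rfl
  have cl : ∀ x y t : K, ⁅x * y, t⁆ = ⁅y, t⁆ * ⁅x, t⁆ := fun x y t =>
    commutator_mul_left_of_commute (h.cen _ (h.comm y t).1 x)
  have cr : ∀ x y t : K, ⁅t, x * y⁆ = ⁅t, x⁆ * ⁅t, y⁆ := fun x y t =>
    commutator_mul_right_of_commute (h.cen _ (h.comm t y).1 x)
  let χ : K → K →* ℤ := fun t => ⟨⟨fun x => l ⁅x, t⁆, by simp [l]⟩, fun x y => by
    simp only [cl]; rw [lm _ _ (h.comm _ _).1 (h.comm _ _).1, mul_comm]⟩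
  let R : Subgroup K := ⟨⟨⟨{t | χ t = 1}, fun {s t} hs ht => MonoidHom.ext fun x => by
      change l _ = 1
      rw [cr, lm _ _ (h.comm _ _).1 (h.comm _ _).1]
      exact (congrArg₂ (· * ·) (DFunLike.congr_fun hs x) (DFunLike.congr_fun ht x)).trans (one_mul 1)⟩,
      MonoidHom.ext fun x => by simp [χ, l]⟩, fun {t} ht => MonoidHom.ext fun x => by
      have := congrArg l (cr t t⁻¹ x)
      rw [lm _ _ (h.comm _ _).1 (h.comm _ _).1, show l ⁅x, t⁆ = 1 from DFunLike.congr_fun ht x, one_mul] at this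
      change l _ = 1
      simpa [l] using this.symm⟩
  have f : ∀ x t, l (x * t * (x * t)) = l (x * x) * l (t * t) * χ t x := fun x t => by
    rw [(h.comm x t).2, lm _ _ (h.mul (h.ex _) (h.ex _)) (h.comm _ _).1, lm _ _ (h.ex _) (h.ex _)]; rfl
  let g : R →* ℤ := ⟨⟨fun t => l (t * t), by simp [l]⟩, fun s t => by
    simp only [Subgroup.coe_mul]; rw [f, show χ t = 1 from t.2, MonoidHom.one_apply, mul_one]⟩
  have S : (∑ x : K, l (x * x)) ^ 2 = Fintype.card K * ∑ t : R, g t := by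
    rw [sq, sum_mul_sum, sum_congr rfl fun x _ => (Equiv.sum_comp (Equiv.mulLeft x) fun y => l (x * x) * l (y * y)).symm,
      sum_comm]
    simp only [Equiv.coe_mulLeft, f]
    simp only [← mul_assoc (l _), l2, one_mul, ← mul_sum]
    rw [mul_comm, sum_mul, ← sum_filter_add_sum_filter_not univ (· ∈ R), sum_subtype _ (p := (· ∈ R)) (by simp),
      sum_eq_zero (s := filter _ _) fun t ht => by
        rw [sum_hom_units_eq_zero _ (mem_filter.1 ht).2, mul_zero], add_zero]
    exact sum_congr rfl fun t _ => by simp [show χ t = 1 from t.2, g]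
  have S2 : ∑ x : K, l (x * x) = 2 * (#{x : K | x * x = z} : ℤ) + 8 - Fintype.card K := by
    have : #{x : K | x * x = 1} = 4 := by rw [← h.card, Nat.card_eq_fintype_card, Fintype.card_subtype]
    have e := card_filter_add_card_filter_not (s := univ) fun x : K => x * x = 1 ∨ x * x = z
    simp only [l, sum_ite, sum_const, nsmul_eq_mul, mul_one, mul_neg]
    rw [filter_or, card_union_of_disjoint (disjoint_filter.2 fun x _ k1 k2 => h1 (k2.symm.trans k1)), this,
      card_univ] at e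
    rw [filter_or, card_union_of_disjoint (disjoint_filter.2 fun x _ k1 k2 => h1 (k2.symm.trans k1)), this]
    omega
  rw [← S2, S]
  by_cases e : g = 1
  · obtain ⟨i, hi⟩ := IsPGroup.iff_card.1 (h.two.to_subgroup R)
    have : 4 ≤ Nat.card R := h.card ▸ Nat.card_le_card_of_injective (fun x : {x : K // x * x = 1} =>
      (⟨x.1, MonoidHom.ext fun y => by
        simp [χ, l, commutatorElement_eq_one_iff_mul_comm.2 (h.cen _ x.2 y)]⟩ : R))
      fun x y k => Subtype.ext (congrArg (·.1) k)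
    obtain ⟨i, rfl⟩ : ∃ j, i = j + 2 := ⟨i - 2, by rcases i with _ | _ | i <;> simp_all⟩
    refine ⟨2 ^ i, Or.inr ⟨i, rfl⟩, ?_⟩
    simp [e, ← Nat.card_eq_fintype_card, hi]; ring
  · exact ⟨0, Or.inl rfl, by simp [sum_hom_units_eq_zero _ e]⟩

/-- The arithmetic condition on the number of square roots of an involution. -/
def P (m A : ℕ) : Prop :=
  2 * A + 8 = 2 ^ m ∨ ∃ k, m + 2 ≤ 2 * k ∧ (2 * A + 8 = 2 ^ m + 2 ^ k ∨ 2 * A + 8 + 2 ^ k = 2 ^ m)

theorem Hyp.gauss' [Fintype K] [DecidableEq K] (h : Hyp K) {z : K} (hz : z * z = 1) (h1 : z ≠ 1) {m : ℕ}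
    (hm : Fintype.card K = 2 ^ m) : P m #{x : K | x * x = z} := by
  obtain ⟨c, rfl | ⟨i, rfl⟩, e⟩ := h.gauss hz h1 <;> rw [hm] at e
  · left
    rw [Nat.cast_zero, mul_zero, pow_eq_zero_iff two_ne_zero] at e
    omega
  have e2 := congrArg Int.natAbs e
  rw [Int.natAbs_pow, show (((2 ^ m : ℕ) : ℤ) * 4 * (2 ^ i : ℕ)).natAbs = 2 ^ (m + 2 + i) by
    simp [Int.natAbs_mul, Int.natAbs_pow, pow_add]] at e2
  obtain ⟨k, -, hk⟩ := (Nat.dvd_prime_pow Nat.prime_two).1 (e2 ▸ dvd_pow_self _ two_ne_zero)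
  rw [hk, ← pow_mul] at e2
  have := Nat.pow_right_injective le_rfl e2
  exact Or.inr ⟨k, by omega, by omega⟩

theorem ar1 {m A B C : ℕ} (a : P m A) (b : P m B) (c : P m C) (h : A + B + C + 4 = 2 ^ m) : m ≤ 6 := by
  by_contra! k
  have e : ∀ {A}, P m A → (2 * A + 8) % 32 = 0 := fun {A} a => by
    have := pow_dvd_pow 2 (show 5 ≤ m by omega)
    rcases a with a | ⟨k, k1, a⟩
    · omega
    have := pow_dvd_pow 2 (show 5 ≤ k by omega)
    omega
  have := e a; have := e b; have := e c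
  have := pow_dvd_pow 2 (show 5 ≤ m by omega)
  omega

theorem ar2 {m A : ℕ} (a : P m A) (h : A ≤ 60) :
    (m = 6 → A = 12 ∨ A = 20 ∨ A = 28 ∨ A = 36 ∨ A = 44 ∨ A = 60) ∧ (m = 5 → A = 4 ∨ A = 12 ∨ A = 20 ∨ 28 ≤ A) ∧
    (m = 4 → A = 0 ∨ A = 4 ∨ A = 8 ∨ 12 ≤ A) := by
  rcases a with a | ⟨k, k1, a⟩
  · refine ⟨?_, ?_, ?_⟩ <;> rintro rfl <;> omega
  by_cases j : k < 8
  · refine ⟨?_, ?_, ?_⟩ <;> rintro rfl <;> interval_cases k <;> omega
  have := Nat.pow_le_pow_right two_pos (not_lt.1 j)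
  refine ⟨?_, ?_, ?_⟩ <;> rintro rfl <;> omega

set_option maxHeartbeats 1000000 in
theorem ar3 {r m l A B D A' B' D' : ℕ} (hr : r.Prime) (hr2 : r ≠ 2) (lt : l < m) (x1 : P m A) (x2 : P l A')
    (x3 : A' ≡ A [MOD r]) (y1 : P m B) (y2 : P l B') (y3 : B' ≡ B [MOD r]) (z1 : P m D) (z2 : P l D')
    (z3 : D' ≡ D [MOD r]) (s1 : A + B + D + 4 = 2 ^ m) (s2 : A' + B' + D' + 4 = 2 ^ l) (t : 2 ^ l ≡ 2 ^ m [MOD r]) :
    (r = 3 ∨ r = 5) ∧ (r = 5 ↔ 2 ^ m = 64 ∧ A = 20 ∧ B = 20) := by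
  have m6 := ar1 x1 y1 z1 s1
  have l2 : 2 ≤ l := by rcases l with _ | _ | l <;> omega
  have := Nat.pow_le_pow_right two_pos m6
  have := Nat.pow_le_pow_right two_pos (lt.le.trans m6)
  have u1 := ar2 x1 (by omega); have u2 := ar2 y1 (by omega); have u3 := ar2 z1 (by omega)
  have v1 := ar2 x2 (by omega); have v2 := ar2 y2 (by omega); have v3 := ar2 z2 (by omega)
  have r3 : r = 3 ∨ r = 5 ∨ r = 7 := by
    have d : r ∣ 2 ^ 6 * (3 * (5 * 7)) :=
      ((Nat.modEq_iff_dvd' (Nat.pow_le_pow_right two_pos lt.le)).1 t).trans (by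
        interval_cases m <;> interval_cases l <;> decide)
    simp only [hr.dvd_mul, Nat.prime_dvd_prime_iff_eq hr Nat.prime_three, Nat.prime_dvd_prime_iff_eq hr Nat.prime_five,
      Nat.prime_dvd_prime_iff_eq hr Nat.prime_seven] at d
    exact d.resolve_left fun d => hr2 ((Nat.prime_dvd_prime_iff_eq hr Nat.prime_two).1 (hr.dvd_of_dvd_pow d))
  clear x1 x2 y1 y2 z1 z2
  unfold Nat.ModEq at x3 y3 z3 t
  rcases r3 with rfl | rfl | rfl <;> interval_cases m <;> interval_cases l <;> simp at t <;>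
    simp only [Nat.reduceEqDiff, false_implies, true_implies, true_and, and_true] at u1 u2 u3 v1 v2 v3 <;> omega

theorem cong {α : Type*} [Fintype α] [DecidableEq α] {r : ℕ} [Fact r.Prime] {f : Equiv.Perm α} (hf : f ^ r = 1)
    (p : α → Prop) [DecidablePred p] (hp : ∀ x, p (f x) ↔ p x) : #{x | p x ∧ f x = x} ≡ #{x | p x} [MOD r] := by
  have := Equiv.Perm.card_compl_support_modEq (p := r) (n := 1) (σ := f.subtypePerm hp)
    (by rw [pow_one, Equiv.Perm.subtypePerm_pow]; ext x; simp [hf])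
  rw [Fintype.card_subtype] at this
  convert this using 1
  refine (card_bij (fun x _ => x.1) (fun x hx => ?_) (fun _ _ _ _ => Subtype.ext) fun x hx => ?_).symm
  · simpa [x.2, Subtype.ext_iff] using hx
  · exact ⟨⟨x, (mem_filter.1 hx).2.1⟩, by simpa [Subtype.ext_iff] using (mem_filter.1 hx).2.2, rfl⟩

theorem Hyp.sum [Fintype K] [DecidableEq K] (h : Hyp K) {z a : K} (hz : z * z = 1) (ha : a * a = 1) (h1 : z ≠ 1) (h2 : a ≠ 1)
    (h3 : a ≠ z) (p : K → Prop) [DecidablePred p] (hp : ∀ x, x * x = 1 → p x) : #{x | x * x = z ∧ p x} + #{x | x * x = a ∧ p x} +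
      #{x | x * x = a * z ∧ p x} + 4 = #{x | p x} := by
  have a3 : a * z ≠ 1 := fun h => h3 (by rw [← hz] at h; exact mul_right_cancel h)
  have : #{x : K | x * x = 1 ∧ p x} = 4 := by
    rw [← h.card, Nat.card_eq_fintype_card, Fintype.card_subtype]
    exact congrArg _ (filter_congr fun x _ => and_iff_left_of_imp (hp x))
  rw [card_eq_sum_card_fiberwise (f := fun x => x * x) (s := {x | p x}) (t := {z, a, a * z, 1}) fun x _ => by
    simpa [or_comm, or_assoc, or_left_comm] using four h.card hz ha (h.cen z hz a) h1 h2 h3 (h.ex x),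
    sum_insert (by simp [h3.symm, h2, h1]), sum_insert (by simp [h1, h2]), sum_pair a3, ← this]
  simp only [filter_filter, and_comm, add_assoc]

theorem Hyp.prime [Fintype K] [DecidableEq K] (h : Hyp K) {z a : K} (hz : z * z = 1) (ha : a * a = 1) (h1 : z ≠ 1) (h2 : a ≠ 1)
    (h3 : a ≠ z) {r : ℕ} (hr : r.Prime) (hr2 : r ≠ 2) {α : MulAut K} (hα : orderOf α = r)
    (hW : ∀ x, x * x = 1 → α x = x) : (r = 3 ∨ r = 5) ∧ (r = 5 ↔ Fintype.card K = 64 ∧ #{x : K | x * x = z} = 20 ∧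
      #{x : K | x * x = a} = 20) := by
  haveI := Fact.mk hr
  have a3 : a * z ≠ 1 := fun h => h3 (by rw [← hz] at h; exact mul_right_cancel h)
  let C : Subgroup K := α.toMonoidHom.eqLocus (MonoidHom.id K)
  have hC : Hyp C := ⟨h.two.to_subgroup C, fun x hx y => Subtype.ext (h.cen x (congrArg Subtype.val hx) y),
    fun x => Subtype.ext (h.ex x), h.card ▸ Nat.card_congr
      ⟨fun x => ⟨x.1.1, congrArg Subtype.val x.2⟩, fun x => ⟨⟨x.1, hW _ x.2⟩, Subtype.ext x.2⟩, fun _ => rfl, fun _ => rfl⟩⟩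
  obtain ⟨m, hm⟩ := IsPGroup.iff_card.1 h.two
  obtain ⟨l, hl⟩ := IsPGroup.iff_card.1 hC.two
  have lt : l < m := by
    rw [← Nat.pow_lt_pow_iff_right one_lt_two, ← hm, ← hl]
    refine lt_of_le_of_ne (card_le_card_group C) fun e => hr.ne_one ?_
    rw [← hα, orderOf_eq_one_iff]
    exact MulEquiv.ext fun x => show x ∈ C from eq_top_of_card_eq C e ▸ mem_top x
  have hl' : #{x | α x = x} = 2 ^ l := by rw [← hl, ← Fintype.card_subtype, ← Nat.card_eq_fintype_card]; rfl
  haveI := Fintype.ofFinite C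
  rw [Nat.card_eq_fintype_card] at hm hl
  have f : ∀ w, w * w = 1 → w ≠ 1 → P m #{x : K | x * x = w} ∧ P l #{x : K | x * x = w ∧ α x = x} ∧
      #{x : K | x * x = w ∧ α x = x} ≡ #{x : K | x * x = w} [MOD r] := fun w w1 w2 => by
    refine ⟨h.gauss' w1 w2 hm, ?_, cong (f := α.toEquiv) (by
      rw [← hα]; exact (map_pow (MulAut.toPerm K) α _).symm.trans (by rw [pow_orderOf_eq_one, map_one])) _ fun x => ?_⟩
    · convert hC.gauss' (z := ⟨w, hW w w1⟩) (Subtype.ext w1) (fun e => w2 (congrArg Subtype.val e)) hl using 1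
      refine (card_bij (fun x _ => x.1) (fun x hx => ?_) (fun _ _ _ _ => Subtype.ext) fun x hx => ?_).symm
      · exact mem_filter.2 ⟨mem_univ _, congrArg Subtype.val (mem_filter.1 hx).2, x.2⟩
      · exact ⟨⟨x, (mem_filter.1 hx).2.2⟩, mem_filter.2 ⟨mem_univ _, Subtype.ext (mem_filter.1 hx).2.1⟩, rfl⟩
    · change α x * α x = w ↔ _
      rw [← map_mul, hW _ (h.ex x)]
  have s1 := h.sum hz ha h1 h2 h3 (fun _ => True) fun _ _ => trivial
  have s2 := h.sum hz ha h1 h2 h3 (fun x => α x = x) hW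
  rw [hl'] at s2
  simp only [and_true, filter_true, card_univ, hm] at s1 ⊢
  obtain ⟨x1, x2, x3⟩ := f z hz h1
  obtain ⟨y1, y2, y3⟩ := f a ha h2
  obtain ⟨z1, z2, z3⟩ := f _ (h.mul ha hz) a3
  have t := ((x3.add y3).add z3).add_right 4
  rw [s1, s2] at t
  exact ar3 hr hr2 lt x1 x2 x3 y1 y2 y3 z1 z2 z3 s1 s2 t

theorem solv_of_primes {G : Type*} [Group G] [Finite G] {q : ℕ} (hq : q.Prime)
    (h : ∀ r, r.Prime → r ∣ Nat.card G → r = 2 ∨ r = q) : Group.IsSolvable G := by
  by_cases e : q = 2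
  · exact S0144.result 2 2 ((Nat.card G).factorization 2) 0 Nat.prime_two Nat.prime_two (by
      rw [pow_zero, mul_one]
      refine Nat.eq_pow_of_factorization_eq_single Nat.card_pos.ne' (Finsupp.ext fun r => ?_)
      by_cases k : r = 2
      · simp [k]
      · rw [Finsupp.single_eq_of_ne k]
        exact Nat.factorization_eq_zero_iff _ _ |>.2 (by have := h r; grind))
  refine S0144.result 2 q ((Nat.card G).factorization 2) ((Nat.card G).factorization q) Nat.prime_two hq ?_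
  conv_lhs => rw [← Nat.prod_factorization_pow_eq_self (Nat.card_pos (α := G)).ne']
  rw [Finsupp.prod_of_support_subset _ (s := {2, q}) (fun r hr => by
    simpa using h r (Nat.prime_of_mem_primeFactors hr) (Nat.dvd_of_mem_primeFactors hr)) _ (by simp),
    prod_pair (Ne.symm e)]

theorem Hyp.solv [Finite K] (h : Hyp K) : Group.IsSolvable (MulAut K) := by
  classical
  haveI := Fintype.ofFinite K
  let ψ : MulAut K →* Equiv.Perm {x : K // x * x = 1} :=
    ⟨⟨fun α => Equiv.Perm.subtypePerm α.toEquiv fun x => by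
      change α x * α x = 1 ↔ _
      rw [← map_mul, map_eq_one_iff _ α.injective], rfl⟩, fun _ _ => rfl⟩
  obtain ⟨z, hz, h1⟩ : ∃ z : K, z * z = 1 ∧ z ≠ 1 := by
    haveI := Finite.one_lt_card_iff_nontrivial.1 (show 1 < Nat.card {x : K // x * x = 1} by rw [h.card]; omega)
    obtain ⟨z, hz⟩ := exists_ne (⟨1, one_mul 1⟩ : {x : K // x * x = 1})
    exact ⟨z, z.2, fun e => hz (Subtype.ext e)⟩
  obtain ⟨a, ha, h2, h3⟩ := h.ex2 h1
  have k : ∀ r, r.Prime → r ∣ Nat.card ψ.ker → r ≠ 2 → (r = 3 ∨ r = 5) ∧ (r = 5 ↔ Fintype.card K = 64 ∧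
      #{x : K | x * x = z} = 20 ∧ #{x : K | x * x = a} = 20) := fun r hr d r2 => by
    haveI := Fact.mk hr
    obtain ⟨α, hα⟩ := exists_prime_orderOf_dvd_card' r d
    exact h.prime hz ha h1 h2 h3 hr r2 ((orderOf_coe α).trans hα)
      fun x hx => congrArg (fun f : Equiv.Perm _ => (f ⟨x, hx⟩).1) α.2
  haveI : Group.IsSolvable ψ.ker := by
    by_cases e : 5 ∣ Nat.card ψ.ker
    · exact solv_of_primes Nat.prime_five fun r hr d => or_iff_not_imp_left.2 fun r2 =>
        (k r hr d r2).2.2 ((k 5 Nat.prime_five e (by decide)).2.1 rfl)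
    · exact solv_of_primes Nat.prime_three fun r hr d => or_iff_not_imp_left.2 fun r2 =>
        (k r hr d r2).1.resolve_right fun j => e (j ▸ d)
  haveI : Group.IsSolvable (Equiv.Perm {x : K // x * x = 1}) :=
    S0144.result 2 3 3 1 Nat.prime_two Nat.prime_three (by rw [Nat.card_perm, h.card]; rfl)
  exact Group.isSolvable_of_ker_le_range ψ.ker.subtype ψ (by simp)

end

/-- If X is a finite 2-group containing exactly three involutions, then the automorphism group of X is solvable. -/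
theorem result {X : Type*} [Group X] [Finite X] (h2 : IsPGroup 2 X) (h3 : Nat.card {x : X // orderOf x = 2} = 3) : Group.IsSolvable (MulAut X) := by
  classical
  have c4 : Nat.card {x : X // x * x = 1} = 4 := by
    haveI := Fintype.ofFinite X
    rw [Nat.card_eq_fintype_card, Fintype.card_subtype] at h3 ⊢
    rw [show ({x : X | x * x = 1} : Finset X) = insert 1 ({x : X | orderOf x = 2} : Finset X) from ?_,
      card_insert_of_notMem (by simp), h3]
    ext x
    simp only [mem_filter, mem_univ, true_and, mem_insert, orderOf_eq_prime_iff, sq]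
    by_cases e : x = 1 <;> simp [e]
  haveI : Nontrivial X := Finite.one_lt_card_iff_nontrivial.1
    (lt_of_lt_of_le (by omega) (Finite.card_subtype_le fun x : X => x * x = 1))
  obtain ⟨z, -, zc, z2⟩ := exists_mem_center_orderOf_eq h2 ⊤ top_ne_bot
  obtain ⟨hz, h1⟩ := orderOf_eq_prime_iff.1 z2
  rw [sq] at hz
  have cm : ∀ x y : X, x * x = 1 → y * y = 1 → x * y = y * x := fun x y hx hy => by
    have c := mem_center_iff.1 zc
    by_cases e : x = 1 ∨ x = z
    · rcases e with rfl | rfl <;> simp [c]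
    push Not at e
    rcases four c4 hz hx (c x) h1 e.1 e.2 hy with rfl | rfl | rfl | rfl
    · simp
    · exact c x
    · rfl
    · rw [mul_assoc, c x]
  have ax : ∀ (α : MulAut X) x, α x * α x = 1 ↔ x * x = 1 := fun α x => by
    rw [← map_mul, map_eq_one_iff _ α.injective]
  let W : Subgroup X := ⟨⟨⟨{x | x * x = 1}, fun {x y} hx hy => by
    change x * y * (x * y) = 1
    rw [mul_assoc, ← mul_assoc y, ← cm x y hx hy, mul_assoc, hy, mul_one, hx]⟩, one_mul 1⟩, fun {x} hx => by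
    change x⁻¹ * x⁻¹ = 1
    rw [← mul_inv_rev, hx, inv_one]⟩
  haveI : W.Characteristic := characteristic_iff_le_comap.2 fun α x hx => (ax α x).2 hx
  obtain ⟨H, p0, hH, p1, p2, p3⟩ := exists_critical_ge h2 W ⟨⟨fun x y => Subtype.ext (cm _ _ x.2 y.2)⟩⟩
  have q1 : ∀ x ∈ H, ∀ y ∈ H, ∀ w ∈ H, Commute w ⁅x, y⁆ := fun x hx y _ w hw =>
    (p2 (commutator_mem_commutator hx (mem_top y))).2 w hw
  have q2 : ∀ x ∈ H, ∀ y ∈ H, x ^ 4 = 1 → y ^ 4 = 1 → (x * y) ^ 4 = 1 := fun x hx y hy e1 e2 => by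
    rw [mul_pow_of_commute_commutator (q1 y hy x hx x hx) (q1 y hy x hx y hy), e1, e2, show Nat.choose 4 2 = 2 * 3 from rfl,
      pow_mul, ← commutator_pow_left_of_commute (q1 y hy x hx y hy),
      commutatorElement_eq_one_iff_mul_comm.2 (p1 y hy x hx).symm]
    simp
  let K : Subgroup X := ⟨⟨⟨{x | x ∈ H ∧ x ^ 4 = 1 ∧ x ∈ centralizer (W : Set X)}, fun hx hy =>
    ⟨mul_mem hx.1 hy.1, q2 _ hx.1 _ hy.1 hx.2.1 hy.2.1, mul_mem hx.2.2 hy.2.2⟩⟩, one_mem H, one_pow 4, one_mem _⟩,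
    fun hx => ⟨inv_mem hx.1, by rw [inv_pow, hx.2.1, inv_one], inv_mem hx.2.2⟩⟩
  haveI : K.Characteristic := characteristic_iff_le_comap.2 fun α x hx =>
    ⟨characteristic_iff_le_comap.1 hH α hx.1, by simp [← map_pow, hx.2.1],
      characteristic_iff_le_comap.1 (inferInstance : (centralizer (W : Set X)).Characteristic) α hx.2.2⟩
  have wk : ∀ x, x * x = 1 → x ∈ K := fun x hx => ⟨p0 hx, by
    rw [show 4 = 2 * 2 from rfl, pow_mul, sq x, hx, one_pow], fun y hy => cm y x hy hx⟩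
  have hK : Hyp K := ⟨h2.to_subgroup K, fun x hx y => Subtype.ext (y.2.2.2 x (congrArg Subtype.val hx)).symm,
    fun x => Subtype.ext (by simpa [pow_succ, mul_assoc] using x.2.2.1), c4 ▸ Nat.card_congr
      ⟨fun x => ⟨x.1.1, congrArg Subtype.val x.2⟩, fun x => ⟨⟨x.1, wk _ x.2⟩, Subtype.ext x.2⟩, fun _ => rfl, fun _ => rfl⟩⟩
  haveI := hK.solv
  haveI : Group.IsSolvable (MulAut.characteristic K).ker := solv_of_primes Nat.prime_two fun r hr d => by
    haveI := Fact.mk hr
    obtain ⟨⟨α, hα⟩, e⟩ := exists_prime_orderOf_dvd_card' r d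
    replace e : orderOf α = r := (orderOf_coe (⟨α, hα⟩ : (MulAut.characteristic K).ker)).trans e
    by_contra! k
    have co : (orderOf α).Coprime 2 := by rw [e]; exact (Nat.coprime_primes hr Nat.prime_two).2 k.1
    have f1 : ∀ x ∈ K, α x = x := fun x hx => congrArg (fun f : MulAut K => (f ⟨x, hx⟩).1) hα
    have f2 : ∀ x ∈ H, x ^ 4 = 1 → α x = x := fun x hx h4 => by
      have hy : x⁻¹ * α x ∈ K := ⟨mul_mem (inv_mem hx) (characteristic_iff_le_comap.1 hH α hx),
        q2 _ (inv_mem hx) _ (characteristic_iff_le_comap.1 hH α hx) (by rw [inv_pow, h4, inv_one])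
          (by rw [← map_pow, h4, map_one]), fun w hw => by
          have := f1 _ (wk _ ((ax (MulAut.conj x) w).2 hw))
          simp only [MulAut.conj_apply, map_mul, map_inv, f1 w (wk w hw)] at this
          rw [mul_inv_eq_iff_eq_mul] at this
          rw [mul_assoc, this]; group⟩
      have it : ∀ n : ℕ, (α ^ n) x = x * (x⁻¹ * α x) ^ n := fun n => by
        induction n with
        | zero => simp
        | succ n ih => rw [pow_succ', MulAut.mul_apply, ih, map_mul, map_pow, f1 _ hy, pow_succ', ← mul_assoc,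
            mul_inv_cancel_left]
      have := it (orderOf α)
      rw [pow_orderOf_eq_one, MulAut.one_apply, left_eq_mul] at this
      exact (inv_mul_eq_one.1 (orderOf_eq_one_iff.1 (Nat.eq_one_of_dvd_coprimes (co.pow_right 2)
        (orderOf_dvd_of_pow_eq_one this) (orderOf_dvd_of_pow_eq_one hy.2.1)))).symm
    have f3 := mulAut_eq_one_of_fixes_pow_eq_one (Or.inr ⟨rfl, rfl⟩) (h2.to_subgroup H)
      (a := MulAut.characteristic H α) (co.coprime_dvd_left (orderOf_map_dvd _ α))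
      fun x hx => Subtype.ext (f2 x x.2 (congrArg Subtype.val hx))
    rw [mulAut_eq_one_of_fixes_self_centralizing h2 p3 co
      fun x hx => congrArg (fun f : MulAut H => (f ⟨x, hx⟩).1) f3, orderOf_one] at e
    exact hr.ne_one e.symm
  exact Group.isSolvable_of_ker_le_range (MulAut.characteristic K).ker.subtype (MulAut.characteristic K) (by simp)

end Cfsg.Agent.S3117
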