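import Cfsg.Statements.S3355
import Cfsg.Agent.Lib.FT.Main

set_option autoImplicit false
open Cfsg

namespace Cfsg.Agent.S3355

/-- Let G be a finite group with a faithful irreducible rational representation of degree 23 (an injective homomorphism into GL(23, ℚ) leaving no proper non-zero subspace invariant) and with no subgroup of index 23 or 24. Then G is isomorphic to a subgroup of the direct product of a group of order 2 with the second Conway group, or of a group of order 2 with the third Conway group. -/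
theorem result {G : Type*} [Group G] [Finite G]
    (ρ : G →* GL (Fin 23) ℚ) (hρ : Function.Injective ρ)
    (hirr : ∀ W : Submodule ℚ (Fin 23 → ℚ), (∀ g : G, ∀ w ∈ W, ((ρ g : GL (Fin 23) ℚ) : Matrix (Fin 23) (Fin 23) ℚ).mulVec w ∈ W) → W = ⊥ ∨ W = ⊤)
    (hidx : ∀ H : Subgroup G, H.index ≠ 23 ∧ H.index ≠ 24) :
    (∃ f : G →* Multiplicative (ZMod 2) × Cfsg.Spor.Co2, Function.Injective f) ∨
    (∃ f : G →* Multiplicative (ZMod 2) × Cfsg.Spor.Co3, Function.Injective f) := by
  let φ : G →* Module.End ℚ (Fin 23 → ℚ) :=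
    (Matrix.toLinAlgEquiv' (R := ℚ) (n := Fin 23)).toAlgHom.toMonoidHom.comp
      ((Units.coeHom _).comp ρ)
  have hφ : ∀ g x, φ g x = ((ρ g : GL (Fin 23) ℚ) : Matrix (Fin 23) (Fin 23) ℚ).mulVec x :=
    fun _ _ => rfl
  letI : DistribMulAction G (Fin 23 → ℚ) := DistribMulAction.compHom _ φ
  haveI : SMulCommClass G ℚ (Fin 23 → ℚ) := ⟨fun g c x => (φ g).map_smul c x⟩
  refine Lib.FT.Irr.feit (V := Fin 23 → ℚ) ⟨by simp, fun g hg => hρ ?_, hirr, hidx⟩
  rw [map_one]
  refine Units.ext (Matrix.toLin'.injective (LinearMap.ext fun x => ?_))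
  rw [Matrix.toLin'_apply, ← hφ]
  exact (hg x).trans (by simp)

end Cfsg.Agent.S3355
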