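import Cfsg.Statements.S3356
import Cfsg.Agent.Lib.Perm.Half

set_option autoImplicit false
open Cfsg

namespace Cfsg.Agent.S3356

open MulAction Subgroup Cfsg.Lib.Perm Cfsg.Lib

/-- Let G be a finite 3/2-transitive permutation group: G acts faithfully and transitively on a finite set, the point stabilizers are non-trivial, and for each point a all orbits of G_a on the remaining points have the same size. Suppose G has a regular normal subgroup N and G is not a Frobenius group (some two-point stabilizer is non-trivial). Then N is an elementary abelian p-group for some prime p, and every non-trivial normal subgroup of G contains N (so N is the unique minimal normal subgroup). -/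
theorem result {G Ω : Type*} [Group G] [Finite G]
    [MulAction G Ω] [FaithfulSMul G Ω] [Finite Ω] (htrans : MulAction.IsPretransitive G Ω)
    (hne : ∀ a : Ω, MulAction.stabilizer G a ≠ ⊥)
    (hhalf : ∀ a b c : Ω, b ≠ a → c ≠ a →
      Nat.card (MulAction.orbit (MulAction.stabilizer G a) b) = Nat.card (MulAction.orbit (MulAction.stabilizer G a) c))
    (N : Subgroup G) [hN : N.Normal] (hNt : MulAction.IsPretransitive N Ω) (hNr : ∀ a : Ω, MulAction.stabilizer N a = ⊥)
    (hnotF : ∃ a b : Ω, a ≠ b ∧ MulAction.stabilizer G a ⊓ MulAction.stabilizer G b ≠ ⊥) :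
    (∃ p : ℕ, p.Prime ∧ IsMulCommutative N ∧ ∀ x ∈ N, x ^ p = 1) ∧
    (∀ M : Subgroup G, M.Normal → M ≠ ⊥ → N ≤ M) := by
  obtain ⟨a, b, hab, h0⟩ := hnotF
  letI : MulDistribMulAction (stabilizer G a) N :=
    MulDistribMulAction.compHom N ((MulAut.conjNormal (H := N)).comp (stabilizer G a).subtype)
  have sm : ∀ (g : stabilizer G a) (n : N), ((g • n : N) : G) = g * n * (g : G)⁻¹ := fun _ _ => rfl
  have st : ∀ n : N, stabilizer (stabilizer G a) n = stabilizer (stabilizer G a) ((n : G) • a) :=
    fun n => Subgroup.ext fun g => by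
      rw [mem_stabilizer_iff, mem_stabilizer_iff, Subtype.ext_iff, sm, mul_inv_eq_iff_eq_mul]
      exact (smul_fix_iff hNr g.2 n.2).symm
  have h : ∀ n : N, n ≠ 1 → (orbit (stabilizer G a) n).ncard = (orbit (stabilizer G a) b).ncard :=
    fun n hn => by
      rw [← index_stabilizer, st, index_stabilizer]
      exact hhalf a _ b (fun e => hn (Subtype.ext (eq_one_of_regular hNr n.2 e))) hab.symm
  have : FaithfulSMul (stabilizer G a) N := ⟨fun {g k} e => Subtype.ext
    (eq_of_smul_eq_smul (α := Ω) fun x => by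
      obtain ⟨n, hn, rfl⟩ := exists_regular_smul hNt a x
      rw [smul_smul_of_fix g.2, smul_smul_of_fix k.2, ← sm g ⟨n, hn⟩, e, sm])⟩
  have h1 : ∃ n : N, n ≠ 1 ∧ stabilizer (stabilizer G a) n ≠ ⊥ := by
    obtain ⟨n, hn, rfl⟩ := exists_regular_smul hNt a b
    obtain ⟨g, hg, hg1⟩ := (bot_or_exists_ne_one _).resolve_left h0
    refine ⟨⟨n, hn⟩, fun e => hab (by rw [show n = 1 from congrArg Subtype.val e, one_smul]),
      fun e => hg1 (congrArg Subtype.val (show (⟨g, hg.1⟩ : stabilizer G a) = 1 from ?_))⟩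
    rw [← mem_bot, ← e, st]
    exact hg.2
  obtain ⟨hc, p, hp, hpow⟩ := half_elementary h h1
  refine ⟨⟨p, hp, hc, fun x hx => congrArg Subtype.val (hpow ⟨x, hx⟩)⟩, fun M hM hM0 => ?_⟩
  rcases half_irreducible h h1 (W := M.subgroupOf N) (fun g x hx => hM.conj_mem _ hx g) with e | e
  · have : Nonempty Ω := ⟨a⟩
    have e1 : M ⊓ N = ⊥ := disjoint_iff.1 (subgroupOf_eq_bot.1 e)
    have e2 := Core.le_centralizer_of_inf_eq_bot le_normalizer_of_normal le_normalizer_of_normal e1
    rw [centralizer_eq_of_transitive hNt hNt (le_centralizer_iff_isMulCommutative.2 hc)] at e2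
    exact absurd (by rwa [inf_eq_left.2 e2] at e1) hM0
  · exact subgroupOf_eq_top.1 e

end Cfsg.Agent.S3356
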