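import Cfsg.Statements.S3357
import Cfsg.Agent.Lib.Frobenius.Compl

set_option autoImplicit false
open Cfsg

namespace Cfsg.Agent.S3357

theorem aux {K G U : Type*} [Field K] [Group G] [AddCommGroup U] [Module K U] [Module.Finite K U]
    (τ : Representation K G U) (h : ∀ g v, τ g v = v → g = 1 ∨ v = 0) :
    ∃ ρ : G →* GL (Fin (Module.finrank K U)) K, ∀ g v, (ρ g).1.mulVec v = v → g = 1 ∨ v = 0 := by
  let b := Module.finBasis K U
  refine ⟨((LinearMap.toMatrixAlgEquiv b).toMonoidHom.comp τ).toHomUnits, fun g v e => ?_⟩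
  obtain ⟨u, rfl⟩ := b.equivFun.surjective v
  refine (h g u (b.equivFun.injective ?_)).imp_right fun e => by simp [e]
  rw [← e]
  exact (LinearMap.toMatrix_mulVec_repr b b (τ g) u).symm

/-- Let G be a finite group that occurs as a Frobenius complement. Then G has a faithful irreducible representation over an algebraic closure of the rationals in which no non-identity element of G has 1 as an eigenvalue: there are n ≥ 1 and an injective homomorphism ρ from G to GL(n) over that field, with no invariant subspace other than 0 and the whole space, such that for g ≠ 1 the only vector fixed by ρ(g) is 0. -/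
theorem result {G : Type*} [Group G] [Finite G]
    (hFC : ∃ (L : Type) (_ : Group L) (_ : Finite L) (H : Subgroup L), Cfsg.IsFrobeniusComplement H ∧ Nonempty (G ≃* H)) :
    ∃ (n : ℕ) (ρ : G →* GL (Fin n) (AlgebraicClosure ℚ)), 0 < n ∧ Function.Injective ρ ∧
      (∀ W : Submodule (AlgebraicClosure ℚ) (Fin n → AlgebraicClosure ℚ),
        (∀ g : G, ∀ w ∈ W, ((ρ g : GL (Fin n) (AlgebraicClosure ℚ)) : Matrix (Fin n) (Fin n) (AlgebraicClosure ℚ)).mulVec w ∈ W) → W = ⊥ ∨ W = ⊤) ∧
      ∀ g : G, g ≠ 1 → ∀ v : Fin n → AlgebraicClosure ℚ,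
        ((ρ g : GL (Fin n) (AlgebraicClosure ℚ)) : Matrix (Fin n) (Fin n) (AlgebraicClosure ℚ)).mulVec v = v → v = 0 := by
  obtain ⟨L, _, _, H, hH, ⟨e⟩⟩ := hFC
  obtain ⟨n, σ, hσ⟩ := Cfsg.Lib.Frobenius.fpf_of_fc hH e
  haveI : Algebra.IsAlgebraic ℚ (AlgebraicClosure ℚ) := AlgebraicClosure.isAlgebraic ℚ
  letI : Algebra (AlgebraicClosure ℚ) ℂ :=
    (IsAlgClosed.lift : AlgebraicClosure ℚ →ₐ[ℚ] ℂ).toRingHom.toAlgebra
  let τ : Representation (AlgebraicClosure ℚ) G (Fin (n + 1) → ℂ) :=
    { toFun := fun g => (σ g).restrictScalars _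
      map_one' := by ext; simp
      map_mul' := fun a b => by ext; simp }
  let U := Submodule.span (AlgebraicClosure ℚ) (Set.range fun g => τ g 1)
  haveI : Module.Finite (AlgebraicClosure ℚ) U := Module.Finite.span_of_finite _ (Set.finite_range _)
  have hU : ∀ g, U ≤ U.comap (τ g) := fun g => Submodule.span_le.2 (by
    rintro _ ⟨a, rfl⟩
    exact Submodule.subset_span ⟨g * a, by simp⟩)
  have h0 : ∃ d, 0 < d ∧ ∃ ρ : G →* GL (Fin d) (AlgebraicClosure ℚ),
      ∀ g v, (ρ g).1.mulVec v = v → g = 1 ∨ v = 0 := by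
    refine ⟨_, ?_, aux (τ.subrepresentation U hU) fun g v e =>
      (hσ g v (congrArg Subtype.val e)).imp_right Subtype.ext⟩
    haveI : Nontrivial U := (Submodule.nontrivial_iff_ne_bot).2 ((Submodule.ne_bot_iff _).2
      ⟨1, Submodule.subset_span ⟨1, by simp⟩, one_ne_zero⟩)
    exact Module.finrank_pos
  classical
  obtain ⟨h1, ρ, hρ⟩ := Nat.find_spec h0
  refine ⟨_, ρ, h1, (injective_iff_map_eq_one ρ).2 fun g hg => (hρ g 1 (by simp [hg])).resolve_right
    fun e => one_ne_zero (congrFun e ⟨0, h1⟩), fun W hW => ?_,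
    fun g g1 v e => (hρ g v e).resolve_left g1⟩
  by_contra! h2
  let τ' : Representation (AlgebraicClosure ℚ) G (Fin (Nat.find h0) → AlgebraicClosure ℚ) :=
    Matrix.toLinAlgEquiv'.toMonoidHom.comp ((Units.coeHom _).comp ρ)
  refine Nat.find_min h0 (m := Module.finrank (AlgebraicClosure ℚ) W)
    (by simpa using Submodule.finrank_lt h2.2) ⟨?_, aux (τ'.subrepresentation W hW) fun g v e =>
      (hρ g v (congrArg Subtype.val e)).imp_right Subtype.ext⟩
  haveI := Submodule.nontrivial_iff_ne_bot.2 h2.1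
  exact Module.finrank_pos

end Cfsg.Agent.S3357
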