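import Cfsg.Statements.S3358
import Cfsg.Agent.Lib.Frobenius.Compl

set_option autoImplicit false
open Cfsg

namespace Cfsg.Agent.S3358

open Subgroup Cfsg.Lib.Frobenius in
theorem aux1 {G : Type*} [Group G] [Finite G] (hsol : Group.IsSolvable G) (h : Fpf G) :
    ∃ f : G →* Equiv.Perm (Fin 4), IsZGroup f.ker := by
  rcases h.structure_cases with h1 | ⟨f, -, h1⟩ | ⟨f, h1, -⟩ | ⟨f, -, h1⟩
  · exact ⟨1, inferInstance⟩
  · let e : DihedralGroup 2 ≃ Fin 4 := Fintype.equivFinOfCardEq (by decide)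
    refine ⟨(e.permCongrHom.toMonoidHom.comp (MulAction.toPermHom _ _)).comp f, ?_⟩
    rwa [MonoidHom.ker_comp_of_injective _ _
      (e.permCongrHom.injective.comp (MulAction.toPerm_injective (α := DihedralGroup 2)))]
  · exact ⟨f, h1⟩
  · have := le_ker_of_isSolvable (N := ⊤) inferInstance h1
    rw [top_le_iff, MonoidHom.ker_eq_top_iff] at this
    rw [this, MonoidHom.range_one, le_bot_iff] at h1
    have h2 := congrArg Subgroup.index h1
    rw [alternatingGroup.index_eq_two, index_bot] at h2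
    simp [Fintype.card_perm, Nat.factorial] at h2

open Subgroup Cfsg.Lib.Frobenius Cfsg.Lib.BG in
theorem aux2 {G : Type*} [Group G] [Finite G] (h : Fpf G) [IsZGroup G] {x y : G} {r : ℕ}
    (hs : closure {x, y} = ⊤) (hr : x⁻¹ * y * x = y ^ r) (hc : (orderOf x).Coprime (orderOf y)) :
    y * x ^ (orderOf x / ∏ p ∈ (orderOf x).primeFactors, p) =
      x ^ (orderOf x / ∏ p ∈ (orderOf x).primeFactors, p) * y := by
  have ho := orderOf_pow_orderOf_div (orderOf_pos x).ne' (Nat.prod_primeFactors_dvd (orderOf x))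
  have hsq : Squarefree (∏ p ∈ (orderOf x).primeFactors, p) :=
    Finset.squarefree_prod_of_pairwise_isCoprime (fun p hp q hq hpq => Nat.coprime_iff_isRelPrime.1
      ((Nat.coprime_primes (Nat.prime_of_mem_primeFactors hp)
        (Nat.prime_of_mem_primeFactors hq)).2 hpq))
      fun p hp => (Nat.prime_of_mem_primeFactors hp).squarefree
  have hd : orderOf (x ^ (orderOf x / ∏ p ∈ (orderOf x).primeFactors, p)) ∣ orderOf x :=
    orderOf_pow_dvd _
  rw [← ho] at hsq
  generalize x ^ (orderOf x / ∏ p ∈ (orderOf x).primeFactors, p) = u at *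
  haveI : (zpowers y).Normal := normalizer_eq_top_iff.1 (eq_top_iff.2 (hs ▸ (closure_le _).2 (by
    rintro _ (rfl | rfl)
    · refine (inv_mem_iff (H := 𝐍(zpowers y))).1 (Cfsg.Lib.Transfer.mem_normalizer_of_conj_le ?_)
      rw [Cfsg.Lib.Transfer.conj_zpowers, inv_inv, hr]
      exact zpowers_le.2 (pow_mem (mem_zpowers y) r)
    · exact le_normalizer (mem_zpowers _))))
  refine (le_of_forall_pelt (C := zpowers u) (H := 𝐂[y]) (fun p hp v hv ⟨k, hk⟩ => ?_)
    (mem_zpowers u)) y rfl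
  have h1 := orderOf_dvd_of_mem_zpowers hv
  obtain ⟨l, -, hl⟩ := (Nat.dvd_prime_pow hp).1 (orderOf_dvd_of_pow_eq_one hk)
  by_cases v1 : v = 1
  · exact v1 ▸ one_mem _
  have hl1 : l = 1 := ((Nat.squarefree_pow_iff hp.ne_one (by
    rintro rfl; exact v1 (by simpa using hl))).1 (hl ▸ hsq.squarefree_of_dvd h1)).2
  rw [hl1, pow_one] at hl
  haveI : (zpowers v).Normal := normalizer_eq_top_iff.1 (eq_top_iff.2 (h.le_norm_of_prime
    (A := ⊤) inferInstance le_top (by rwa [Nat.card_zpowers, hl])))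
  rintro _ rfl
  refine (commute_of_normal_of_disjoint (zpowers _) (zpowers v) inferInstance inferInstance
    (disjoint_of_coprime_natCard ?_) _ _ (mem_zpowers _) (mem_zpowers _)).eq
  rw [Nat.card_zpowers, Nat.card_zpowers]
  exact (hc.coprime_dvd_left (h1.trans hd)).symm

/-- Structure of solvable Frobenius complements. Let G be a finite solvable group that occurs as a Frobenius complement. Then G has a normal subgroup G₀ such that G/G₀ is isomorphic to a subgroup of Sym(4) (G₀ is the kernel of a homomorphism to Sym(4)), all Sylow subgroups of G₀ are cyclic, and G₀ has a presentation ⟨x, y | x^n = 1, y^m = 1, x⁻¹ y x = y^r⟩ with n, m ≥ 1, gcd(r − 1, m) = gcd(n, m) = 1 and r^(n/n′) ≡ 1 (mod m), where n′ is the product of the distinct primes dividing n. -/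
theorem result {G : Type*} [Group G] [Finite G] (hsol : Group.IsSolvable G)
    (hFC : ∃ (L : Type) (_ : Group L) (_ : Finite L) (H : Subgroup L), Cfsg.IsFrobeniusComplement H ∧ Nonempty (G ≃* H)) :
    ∃ G₀ : Subgroup G, G₀.Normal ∧
      (∃ f : G →* Equiv.Perm (Fin 4), f.ker = G₀) ∧
      (∀ (p : ℕ) [Fact p.Prime] (P : Sylow p G₀), IsCyclic P) ∧
      ∃ n m r : ℕ, 0 < n ∧ 0 < m ∧ Nat.Coprime (r - 1) m ∧ Nat.Coprime n m ∧ 1 ≤ r ∧
        r ^ (n / ∏ p ∈ n.primeFactors, p) % m = 1 % m ∧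
        Nonempty (G₀ ≃* PresentedGroup
          ({FreeGroup.of (0 : Fin 2) ^ n, FreeGroup.of (1 : Fin 2) ^ m,
            (FreeGroup.of (0 : Fin 2))⁻¹ * FreeGroup.of 1 * FreeGroup.of 0 * (FreeGroup.of (1 : Fin 2) ^ r)⁻¹} :
            Set (FreeGroup (Fin 2)))) := by
  obtain ⟨L, _, _, H, hH, ⟨e⟩⟩ := hFC
  have h := Cfsg.Lib.Frobenius.fpf_of_fc hH e
  obtain ⟨f, hf⟩ := aux1 hsol h
  obtain ⟨x, y, r, h1, h2, h3, h4, h5, h6⟩ := Cfsg.Lib.Frobenius.exists_gens_of_isZGroup (G := f.ker)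
  exact ⟨f.ker, inferInstance, ⟨f, rfl⟩, fun p _ P => inferInstance, orderOf x, orderOf y, r,
    orderOf_pos x, orderOf_pos y, h3, h4, h5,
    Cfsg.Lib.Frobenius.pow_mod_eq_of_comm h2 (aux2 (h.subgroup _) h1 h2 h4),
    Cfsg.Lib.Frobenius.nonempty_equiv_presented (orderOf_pos x) (orderOf_pos y)
      (pow_orderOf_eq_one x) (pow_orderOf_eq_one y) h2 h1 h6⟩

end Cfsg.Agent.S3358
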