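import Cfsg.Statements.S3359
import Cfsg.Agent.Lib.Frobenius.Compl

set_option autoImplicit false
open Cfsg

namespace Cfsg.Agent.S3359

/-- Structure of non-solvable Frobenius complements. Let G be a finite non-solvable group that occurs as a Frobenius complement. Then G has a normal subgroup G₀ of index 1 or 2 which is the direct product of a subgroup isomorphic to SL(2,5) and a subgroup M of order prime to 30 all of whose Sylow subgroups are cyclic. -/
theorem result {G : Type*} [Group G] [Finite G] (hns : ¬ Group.IsSolvable G)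
    (hFC : ∃ (L : Type) (_ : Group L) (_ : Finite L) (H : Subgroup L), Cfsg.IsFrobeniusComplement H ∧ Nonempty (G ≃* H)) :
    ∃ G₀ : Subgroup G, G₀.Normal ∧ (G₀.index = 1 ∨ G₀.index = 2) ∧
      ∃ S M : Subgroup G, S ⊔ M = G₀ ∧ S ⊓ M = ⊥ ∧ (∀ s ∈ S, ∀ x ∈ M, s * x = x * s) ∧
        Nonempty (S ≃* Matrix.SpecialLinearGroup (Fin 2) (ZMod 5)) ∧
        (∀ (p : ℕ) [Fact p.Prime] (P : Sylow p M), IsCyclic P) ∧ (Nat.card M).Coprime 30 := by
  obtain ⟨L, _, _, H, hH, ⟨e⟩⟩ := hFC
  have h := Cfsg.Lib.Frobenius.fpf_of_fc hH e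
  obtain ⟨J, M, f, _, _, hJ, h1, h2, h3, h4, h5⟩ := h.nonsolvable_structure hns
  have h6 : J ⊔ M = (alternatingGroup (Fin 5)).comap f := by
    rw [h4, ← h2, Subgroup.comap_map_eq, h1]
  refine ⟨J ⊔ M, inferInstance, ?_, J, M, rfl, ?_, fun s hs x hx => h3 hx s hs, hJ,
    fun p _ P => ?_, h5⟩
  · rw [h6, Subgroup.index_comap]
    have := Subgroup.relIndex_dvd_index_of_normal (alternatingGroup (Fin 5)) f.range
    rwa [alternatingGroup.index_eq_two, Nat.dvd_prime Nat.prime_two] at this
  · obtain ⟨e⟩ := hJ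
    refine (Subgroup.disjoint_of_coprime_natCard ?_).eq_bot
    rw [Nat.card_congr e.toEquiv, Cfsg.Lib.Frobenius.card_sl_two_five]
    exact ((h5.pow_right 3).coprime_dvd_right (by decide)).symm
  · haveI := h.isZGroup_of_odd (Nat.coprime_two_right.1 (h5.coprime_dvd_right (by decide)))
    infer_instance

end Cfsg.Agent.S3359
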