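import Cfsg.Statements.S3361
import Cfsg.Agent.Lib.Frobenius.NearField

set_option autoImplicit false
open Cfsg

namespace Cfsg.Agent.S3361

/-- Let q be a prime and V a non-trivial finite vector space over the field with q elements, and let G be a finite solvable group acting faithfully and linearly on V and regularly on the non-zero vectors (transitively, with only the identity fixing a non-zero vector). Then either V can be identified with the additive group of a finite field F so that every element of G acts as x ↦ a·σ(x) (a ∈ F, σ a field automorphism), or V has 5^2, 7^2, 11^2 or 23^2 elements. Moreover, if q ≠ 2 then G has a normal subgroup of index 2, except that when V has 25 elements G may be isomorphic to SL(2,3) and when V has 121 elements G may be isomorphic to SL(2,3) × C₅. -/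
theorem result
    (q : ℕ) [Fact q.Prime] {V : Type*} [AddCommGroup V] [Module (ZMod q) V] [Finite V] [Nontrivial V]
    {G : Type*} [Group G] [Finite G] (hsol : Group.IsSolvable G)
    (ρ : G →* (V ≃ₗ[ZMod q] V)) (hρ : Function.Injective ρ)
    (htrans : ∀ v w : V, v ≠ 0 → w ≠ 0 → ∃ g : G, ρ g v = w)
    (hreg : ∀ v : V, v ≠ 0 → ∀ g : G, ρ g v = v → g = 1) :
    ((∃ (F : Type) (_ : Field F) (_ : Fintype F) (e : V ≃+ F),
        ∀ g : G, ∃ (a : F) (σ : F ≃+* F), ∀ v : V, e (ρ g v) = a * σ (e v)) ∨
      Nat.card V ∈ ({25, 49, 121, 529} : Set ℕ)) ∧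
    (q ≠ 2 → (∃ N : Subgroup G, N.Normal ∧ N.index = 2) ∨
      (Nat.card V = 25 ∧ Nonempty (G ≃* Matrix.SpecialLinearGroup (Fin 2) (ZMod 3))) ∨
      (Nat.card V = 121 ∧ Nonempty (G ≃* Matrix.SpecialLinearGroup (Fin 2) (ZMod 3) × Multiplicative (ZMod 5)))) := by
  have h : Cfsg.Lib.Frobenius.Reg ρ :=
    ⟨htrans, fun g v e => or_iff_not_imp_right.2 fun hv => hreg v hv g e⟩
  refine ⟨?_, fun hq => or_iff_not_imp_left.2 fun h1 =>
    h.exists_sl_two_three hq fun N hN e => h1 ⟨N, hN, e⟩⟩
  by_cases hI : ∀ A : Subgroup G, A.Normal → IsCyclic A → Cfsg.Lib.Frobenius.Red ρ A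
  · obtain ⟨-, -, r, -, -, -, -, hr, h1, -⟩ := h.exists_q8 hI
    right
    rcases hr with rfl | rfl | rfl | rfl <;> simp [h1]
  · push Not at hI
    obtain ⟨A, _, hA, h1⟩ := hI
    refine Or.inl (Cfsg.Lib.Frobenius.exists_semilinear (fun a ha b hb => ?_) h1)
    rw [← map_mul, ← map_mul, (Subgroup.le_centralizer A ha b hb)]

end Cfsg.Agent.S3361
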