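import Cfsg.Statements.S3362
import Cfsg.Agent.Lib.Golay.SteinerCheck
import Cfsg.Agent.Lib.Grp.Hom
import Cfsg.Agent.S0425

set_option autoImplicit false
open Cfsg

namespace Cfsg.Agent.S3362

open Cfsg.Lib.Golay Cfsg.Lib.Calc Cfsg.Lib.Grp Cfsg.Lib.Mathieu MulAction

/-- the hexads -/
def hx : List ℕ := [219, 237, 246, 350, 363, 373, 413, 430, 435, 455, 504, 591, 627, 636, 670, 679, 697, 725, 746, 791, 813, 826, 857, 870, 907, 948, 972, 978, 993, 1117, 1127, 1146, 1175, 1195, 1212, 1230, 1265, 1295, 1334, 1337, 1363, 1388, 1434, 1445, 1481, 1492, 1506, 1563, 1582, 1589, 1622, 1641, 1677, 1714, 1731, 1752, 1764, 1820, 1827, 1861, 1866, 1904, 1926, 1937, 1960, 2135, 2158, 2169, 2191, 2229, 2234, 2268, 2275, 2331, 2343, 2364, 2381, 2418, 2454, 2473, 2506, 2513, 2532, 2589, 2603, 2614, 2650, 2661, 2707, 2732, 2758, 2761, 2800, 2830, 2865, 2883, 2900, 2920, 2949, 2968, 2978, 3102, 3117, 3123, 3147, 3188, 3225, 3238, 3269, 3282, 3304,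 3349, 3370, 3398, 3416, 3425, 3459, 3468, 3504, 3591, 3640, 3660, 3665, 3682, 3722, 3732, 3745, 3849, 3858, 3876, 4032]

theorem steiner : Cfsg.IsSteinerSystem 5 6 (sysOf (ixFin 11) (63 :: hx)) :=
  steiner_sysOf (by decide) (by decide +kernel) (by decide +kernel) (by decide +kernel)

theorem mem_aut {g : Equiv.Perm (Fin 12)} {c : ℕ} (h : Rep 12 4 (finPt 12) g c)
    (e : Cfsg.Lib.Golay.allL (63 :: hx) (fun m => memL (imgF 12 (get 4 c) m) (63 :: hx)) = true) :
    g ∈ Cfsg.setSystemAut (sysOf (ixFin 11) (63 :: hx)) := by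
  refine mem_setSystemAut_of_mapsTo ?_
  rintro _ ⟨m, hm, rfl⟩
  rw [(ixFin 11).image_toF (ixFin 11) (g := g) (f := get 4 c) h.2]
  exact ⟨_, memL_iff.1 (Cfsg.Lib.Golay.allL_iff.1 e m hm), rfl⟩

/-- An explicit construction of the Mathieu groups of degrees 11 and 12. On the points 0, …, 11 let s = (3 4 5)(6 7 8)(9 10 11), t = (3 6 9)(4 7 10)(5 8 11), u = (4 6 5 9)(7 8 11 10), v = (4 7 5 11)(6 10 9 8), w = (4 10 5 8)(6 11 9 7), x₁ = (0 3)(6 7)(8 10)(9 11), x₂ = (0 1)(6 9)(7 10)(8 11), x₃ = (1 2)(6 11)(7 9)(8 10) (each written as a product of transpositions). Then the group M₁₂ generated by all eight permutations is sharply 5-transitive on the 12 points and has order 95040, and the group M₁₁ generated by the first seven has order 7920 and is the stabilizer of the point 2 in M₁₂. -/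
theorem result
    (s t u v w x₁ x₂ x₃ : Equiv.Perm (Fin 12))
    (hs : s = Equiv.swap (3 : Fin 12) 5 * Equiv.swap (3 : Fin 12) 4 * Equiv.swap (6 : Fin 12) 8 * Equiv.swap (6 : Fin 12) 7 * Equiv.swap (9 : Fin 12) 11 * Equiv.swap (9 : Fin 12) 10) (ht : t = Equiv.swap (3 : Fin 12) 9 * Equiv.swap (3 : Fin 12) 6 * Equiv.swap (4 : Fin 12) 10 * Equiv.swap (4 : Fin 12) 7 * Equiv.swap (5 : Fin 12) 11 * Equiv.swap (5 : Fin 12) 8)
    (hu : u = Equiv.swap (4 : Fin 12) 9 * Equiv.swap (4 : Fin 12) 5 * Equiv.swap (4 : Fin 12) 6 * Equiv.swap (7 : Fin 12) 10 * Equiv.swap (7 : Fin 12) 11 * Equiv.swap (7 : Fin 12) 8) (hv : v = Equiv.swap (4 : Fin 12) 11 * Equiv.swap (4 : Fin 12) 5 * Equiv.swap (4 : Fin 12) 7 * Equiv.swap (6 : Fin 12) 8 * Equiv.swap (6 : Fin 12) 9 * Equiv.swap (6 : Fin 12) 10) (hw : w = Equiv.swap (4 : Fin 12) 8 * Equiv.swap (4 : Fin 12) 5 * Equiv.swap (4 : Fin 12) 10 * Equiv.swap (6 : Fin 12) 7 * Equiv.swap (6 : Fin 12) 9 * Equiv.swap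 (6 : Fin 12) 11)
    (hx₁ : x₁ = Equiv.swap (0 : Fin 12) 3 * Equiv.swap (6 : Fin 12) 7 * Equiv.swap (8 : Fin 12) 10 * Equiv.swap (9 : Fin 12) 11) (hx₂ : x₂ = Equiv.swap (0 : Fin 12) 1 * Equiv.swap (6 : Fin 12) 9 * Equiv.swap (7 : Fin 12) 10 * Equiv.swap (8 : Fin 12) 11)
    (hx₃ : x₃ = Equiv.swap (1 : Fin 12) 2 * Equiv.swap (6 : Fin 12) 11 * Equiv.swap (7 : Fin 12) 9 * Equiv.swap (8 : Fin 12) 10)
    (M₁₂ M₁₁ : Subgroup (Equiv.Perm (Fin 12))) (hM₁₂ : M₁₂ = Subgroup.closure {s, t, u, v, w, x₁, x₂, x₃})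
    (hM₁₁ : M₁₁ = Subgroup.closure {s, t, u, v, w, x₁, x₂}) :
    MulAction.IsMultiplyPretransitive M₁₂ (Fin 12) 5 ∧ (∀ y : Fin 5 ↪ Fin 12, MulAction.stabilizer M₁₂ y = ⊥) ∧
    Nat.card M₁₂ = 95040 ∧ Nat.card M₁₁ = 7920 ∧
    M₁₁ = M₁₂ ⊓ MulAction.stabilizer (Equiv.Perm (Fin 12)) (2 : Fin 12) := by
  have r0 : Rep 12 4 (finPt 12) s 171139535290896 := by
    subst hs
    exact Rep.of_tabOK (by decide +kernel) (by decide +kernel)
  have r1 : Rep 12 4 (finPt 12) t 92615224025616 := by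
    subst ht
    exact Rep.of_tabOK (by decide +kernel) (by decide +kernel)
  have r2 : Rep 12 4 (finPt 12) u 183942805598736 := by
    subst hu
    exact Rep.of_tabOK (by decide +kernel) (by decide +kernel)
  have r3 : Rep 12 4 (finPt 12) v 80841396400656 := by
    subst hv
    exact Rep.of_tabOK (by decide +kernel) (by decide +kernel)
  have r4 : Rep 12 4 (finPt 12) w 164327252963856 := by
    subst hw
    exact Rep.of_tabOK (by decide +kernel) (by decide +kernel)
  have r5 : Rep 12 4 (finPt 12) x₁ 167926364897811 := by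
    subst hx₁
    exact Rep.of_tabOK (by decide +kernel) (by decide +kernel)
  have r6 : Rep 12 4 (finPt 12) x₂ 148896472117761 := by
    subst hx₂
    exact Rep.of_tabOK (by decide +kernel) (by decide +kernel)
  have r7 : Rep 12 4 (finPt 12) x₃ 114875801284896 := by
    subst hx₃
    exact Rep.of_tabOK (by decide +kernel) (by decide +kernel)
  have hA := Cfsg.Agent.S0425.result (by decide) steiner
  have c12 : Nat.card (Cfsg.setSystemAut (sysOf (ixFin 11) (63 :: hx))) = 95040 := hA.1.2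
  have l12 : 95040 ≤ Nat.card M₁₂ := by
    refine le_card_of_surOK (inj_finPt 12) (faithful_finPt 12) (cs := [171139535290896, 92615224025616, 183942805598736, 80841396400656, 164327252963856, 167926364897811, 148896472117761, 114875801284896])
      (show surOK 12 4 _ 95040 [99455883293106, 95285065495056, 186368582235771, 201565064673801, 118340735742576, 160948385233056, 42286800189456, 111221274851856]
    [0, 0, 0, 0, 0, 0, 0, 0, 102653240732173, 69891, 2303743495, 537787652361, 1210058253065, 511747, 375864552200, 1908504282754059]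
    [(3, [0, 1, 2, 3, 4, 5, 6, 7], 12), (4, [8, 9], 11), (0, [10, 11], 10), (1, [12, 13], 9), (2, [14, 15], 8)] = true by decide +kernel) ?_
    simp only [List.mem_cons, List.not_mem_nil, or_false, forall_eq_or_imp, forall_eq]
    refine ⟨⟨_, ?_, r0⟩, ⟨_, ?_, r1⟩, ⟨_, ?_, r2⟩, ⟨_, ?_, r3⟩, ⟨_, ?_, r4⟩, ⟨_, ?_, r5⟩, ⟨_, ?_, r6⟩, ⟨_, ?_, r7⟩⟩ <;>
      exact hM₁₂ ▸ Subgroup.subset_closure (by simp only [Set.mem_insert_iff, Set.mem_singleton_iff, true_or, or_true])
  have l11 : 7920 ≤ Nat.card M₁₁ := by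
    refine le_card_of_surOK (inj_finPt 12) (faithful_finPt 12) (cs := [171139535290896, 92615224025616, 183942805598736, 80841396400656, 164327252963856, 167926364897811, 148896472117761])
      (show surOK 12 4 _ 7920 [117052917690891, 106078272041496, 24878989456011, 118340735742576, 96854324032176]
    [0, 0, 0, 0, 0, 0, 0, 579016456, 11270415455500, 184067, 25031674828743438, 64527625087755]
    [(3, [0, 1, 2, 3, 4, 5, 6], 11), (4, [7, 8], 10), (0, [7, 9], 9), (1, [10, 11], 8)] = true by decide +kernel) ?_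
    simp only [List.mem_cons, List.not_mem_nil, or_false, forall_eq_or_imp, forall_eq]
    refine ⟨⟨_, ?_, r0⟩, ⟨_, ?_, r1⟩, ⟨_, ?_, r2⟩, ⟨_, ?_, r3⟩, ⟨_, ?_, r4⟩, ⟨_, ?_, r5⟩, ⟨_, ?_, r6⟩⟩ <;>
      exact hM₁₁ ▸ Subgroup.subset_closure (by simp only [Set.mem_insert_iff, Set.mem_singleton_iff, true_or, or_true])
  have e12 : M₁₂ = Cfsg.setSystemAut (sysOf (ixFin 11) (63 :: hx)) := by
    refine Subgroup.eq_of_le_of_card_ge ?_ (c12 ▸ l12)
    rw [hM₁₂, Subgroup.closure_le]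
    simp only [Set.insert_subset_iff, Set.singleton_subset_iff]
    exact ⟨mem_aut r0 (by decide +kernel), mem_aut r1 (by decide +kernel), mem_aut r2 (by decide +kernel),
      mem_aut r3 (by decide +kernel), mem_aut r4 (by decide +kernel), mem_aut r5 (by decide +kernel),
      mem_aut r6 (by decide +kernel), mem_aut r7 (by decide +kernel)⟩
  have tr : IsMultiplyPretransitive M₁₂ (Fin 12) 5 := e12 ▸ hA.2.1
  have c11 : Nat.card ↥(M₁₂ ⊓ stabilizer (Equiv.Perm (Fin 12)) (2 : Fin 12)) = 7920 := by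
    have h1 := card_eq_ncard_orbit_mul M₁₂ (2 : Fin 12)
    have : IsPretransitive M₁₂ (Fin 12) :=
      is_one_pretransitive_iff.1 (isMultiplyPretransitive_of_le (n := 5) (by decide) (by simp))
    have h2 : Nat.card M₁₂ = 95040 := e12 ▸ c12
    rw [orbit_eq_univ, Set.ncard_univ, Nat.card_fin, h2] at h1
    omega
  have e11 : M₁₁ = M₁₂ ⊓ stabilizer (Equiv.Perm (Fin 12)) (2 : Fin 12) := by
    refine Subgroup.eq_of_le_of_card_ge (le_inf ?_ ?_) (c11 ▸ l11)
    · rw [hM₁₁, hM₁₂]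
      refine Subgroup.closure_mono fun x hx => ?_
      simp only [Set.mem_insert_iff, Set.mem_singleton_iff] at hx ⊢
      tauto
    · rw [hM₁₁, Subgroup.closure_le]
      simp only [Set.insert_subset_iff, Set.singleton_subset_iff]
      exact ⟨(r0.2 2 (by decide)).2, (r1.2 2 (by decide)).2, (r2.2 2 (by decide)).2, (r3.2 2 (by decide)).2, (r4.2 2 (by decide)).2,
        (r5.2 2 (by decide)).2, (r6.2 2 (by decide)).2⟩
  exact ⟨tr, e12 ▸ hA.2.2, e12 ▸ c12, e11 ▸ c11, e11⟩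

end Cfsg.Agent.S3362
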