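import Cfsg.Statements.S3374
import Cfsg.Agent.Lib.Frobenius.NearField

set_option autoImplicit false
open Cfsg

namespace Cfsg.Agent.S3374

local instance fact11 : Fact (Nat.Prime 11) := ⟨by norm_num⟩

/-- SL(2,5) occurs as a Frobenius complement: there is a finite group L with a subgroup H isomorphic to SL(2,5) which is a non-trivial proper subgroup meeting each conjugate gHg⁻¹ with g outside H trivially. -/
theorem result :
    ∃ (L : Type) (_ : Group L) (_ : Finite L) (H : Subgroup L),
      Cfsg.IsFrobeniusComplement H ∧ Nonempty (H ≃* Matrix.SpecialLinearGroup (Fin 2) (ZMod 5)) := by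
  haveI : Nontrivial (Matrix.SpecialLinearGroup (Fin 2) (ZMod 5)) := ⟨1, -1, by decide⟩
  obtain ⟨f, -, -, -, h1, -⟩ := Cfsg.Lib.Frobenius.exists_hom_sl_two_five
    (G := Matrix.SpecialLinearGroup (Fin 2) (ZMod 11)) (x := ⟨!![0, 1; 10, 10], by decide⟩)
    (y := ⟨!![1, 4; 2, 9], by decide⟩) (w := ⟨!![5, 3; 8, 5], by decide⟩) (z := -1)
    (by decide) (by decide) (by decide) (by decide) (by decide) (by decide) (by decide)
    (by decide) (by decide) (by decide)
  have h2 := Cfsg.Lib.Frobenius.injective_of_sl_two_five f (by rw [h1]; decide)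
  obtain ⟨L, _, _, C, hC, ⟨e⟩, -⟩ := Cfsg.Lib.FGS.exists_fc_of_matrix.{0}
    (Matrix.SpecialLinearGroup.coeMonoidHom.comp f) fun g v h => or_iff_not_imp_right.2 fun hv =>
      Cfsg.Lib.Transfer.eq_one_of_pow_pow_eq_one_of_coprime (p := 11) (k := 1)
        (h2 (Subtype.ext (by
          simpa using Cfsg.Lib.Frobenius.pow_eq_one_of_mulVec_eq (f g).2 hv h)))
        (Nat.Coprime.coprime_dvd_left (orderOf_dvd_natCard g)
          (by rw [Cfsg.Lib.Frobenius.card_sl_two_five]; decide))
  exact ⟨L, inferInstance, inferInstance, C, hC, ⟨e.symm⟩⟩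

end Cfsg.Agent.S3374
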