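import Cfsg.Statements.S3375

set_option autoImplicit false
open Cfsg

namespace Cfsg.Agent.S3375

/-- Let γ be an automorphism of order 2 of a finite group H. (i) If γ fixes only the identity, then H is abelian and γ inverts every element. (ii) If γ has exactly two fixed points and H has a subgroup of index 2, then H has a γ-invariant abelian subgroup of index 2 on which γ acts by inversion. -/
theorem result {H : Type*} [Group H] [Finite H] (γ : MulAut H) (hγ : orderOf γ = 2) :
    ((∀ h : H, γ h = h → h = 1) → (∀ a b : H, a * b = b * a) ∧ ∀ h : H, γ h = h⁻¹) ∧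
    ((Nat.card {h : H // γ h = h} = 2 ∧ ∃ M : Subgroup H, M.index = 2) →
      ∃ A : Subgroup H, A.index = 2 ∧ IsMulCommutative A ∧ (∀ a ∈ A, γ a ∈ A) ∧ ∀ a ∈ A, γ a = a⁻¹) := by
  have h2 : ∀ x, γ (γ x) = x := fun x => by
    rw [← MulAut.mul_apply, ← pow_two, ← hγ, pow_orderOf_eq_one, MulAut.one_apply]
  refine ⟨fun h => ⟨fun a b => MonoidHom.FixedPointFree.commute_all_of_involutive h h2 a b,
    congrFun (MonoidHom.FixedPointFree.coe_eq_inv_of_involutive h h2)⟩, fun ⟨hc, M, hM⟩ => ?_⟩
  obtain ⟨N, hN, hi⟩ : ∃ N : Subgroup H, N.index = 2 ∧ ∀ x, γ x ∈ N ↔ x ∈ N := by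
    by_cases h : ∀ x, γ x ∈ M ↔ x ∈ M
    · exact ⟨M, hM, h⟩
    obtain ⟨a, ha⟩ := not_forall.1 h
    refine ⟨{ carrier := {x | γ x ∈ M ↔ x ∈ M}, mul_mem' := fun {x y} hx hy => ?_, one_mem' := by simp,
              inv_mem' := fun hx => by simpa using hx }, Subgroup.index_eq_two_iff.2 ⟨a, fun b => ?_⟩,
      fun x => ?_⟩
    · simp only [Set.mem_ofPred_eq, map_mul, Subgroup.mul_mem_iff_of_index_two hM] at *
      tauto
    · change Xor (γ (b * a) ∈ M ↔ b * a ∈ M) (γ b ∈ M ↔ b ∈ M)
      simp only [map_mul, Subgroup.mul_mem_iff_of_index_two hM, Xor]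
      tauto
    · change (γ (γ x) ∈ M ↔ γ x ∈ M) ↔ (γ x ∈ M ↔ x ∈ M)
      rw [h2]; tauto
  have key : ∀ a ∈ N, γ a = a⁻¹ := by
    let X : Set H := {y | y ∈ N ∧ γ y = y⁻¹}
    let f : H → X := fun x => ⟨x * (γ x)⁻¹, by
      rw [Subgroup.mul_mem_iff_of_index_two hN, inv_mem_iff, hi], by simp [h2]⟩
    have h1 : Nat.card H ≤ Nat.card (X × {h : H // γ h = h}) := by
      classical
      let s : X → H := fun y => if h : ∃ x, f x = y then h.choose else 1
      have hs : ∀ x, f (s (f x)) = f x := fun x => by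
        have : ∃ z, f z = f x := ⟨x, rfl⟩
        simp only [s, dif_pos this]
        exact this.choose_spec
      refine Nat.card_le_card_of_injective (fun x => (f x, ⟨x⁻¹ * s (f x), ?_⟩)) fun x y e => ?_
      · have := congrArg Subtype.val (hs x)
        simp only [f] at this
        rw [map_mul, map_inv, inv_mul_eq_iff_eq_mul, ← mul_assoc, ← inv_inj, mul_inv_rev,
          eq_inv_mul_iff_mul_eq, this]
        group
      · have e1 : f x = f y := congrArg Prod.fst e
        have e2 : x⁻¹ * s (f x) = y⁻¹ * s (f y) := congrArg (fun p => (p.2 : H)) e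
        simpa [e1] using e2
    have h3 := N.card_mul_index
    rw [Nat.card_prod, hc, Nat.card_coe_set_eq] at h1
    have : X = N := Set.eq_of_subset_of_ncard_le (fun _ h => h.1) (by
      rw [← Nat.card_coe_set_eq (N : Set H), SetLike.coe_sort_coe]; rw [hN] at h3; omega)
    exact fun k hk => (this.ge hk).2
  refine ⟨N, hN, ⟨⟨fun a b => Subtype.ext ?_⟩⟩, fun a ha => (hi a).2 ha, key⟩
  have := key _ (mul_mem a.2 b.2)
  rw [map_mul, key a a.2, key b b.2, ← mul_inv_rev, inv_inj] at this
  exact this.symm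

end Cfsg.Agent.S3375
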