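import Cfsg.Statements.S3380
import Cfsg.Agent.Lib.BG.Hall
import Cfsg.Agent.Lib.FGS.LinDer
import Cfsg.Agent.Lib.PGroup.RankOne

set_option autoImplicit false
open Cfsg

namespace Cfsg.Agent.S3380

/-- Let a finite p-group G act faithfully and irreducibly on a non-trivial finite vector space V over the field with q elements (q prime), and suppose G is not cyclic, generalized quaternion, dihedral or semidihedral. Then G has a subgroup H of index p and V is the direct sum of p subspaces, each invariant under H, on none of which H acts faithfully, and which every element of G outside H permutes in a single p-cycle. -/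
theorem result
    (q : ℕ) [Fact q.Prime] {V : Type*} [AddCommGroup V] [Module (ZMod q) V] [Finite V] [Nontrivial V]
    {G : Type*} [Group G] [Finite G] (p : ℕ) [Fact p.Prime] (hG : IsPGroup p G)
    (ρ : G →* (V ≃ₗ[ZMod q] V)) (hρ : Function.Injective ρ)
    (hirr : ∀ W : Submodule (ZMod q) V, (∀ g : G, ∀ w ∈ W, ρ g w ∈ W) → W = ⊥ ∨ W = ⊤)
    (hnc : ¬ IsCyclic G) (hnq : ∀ n : ℕ, ¬ Nonempty (G ≃* QuaternionGroup n))
    (hnd : ∀ n : ℕ, ¬ Nonempty (G ≃* DihedralGroup n)) (hnsd : ¬ Cfsg.IsQuasiDihedral G) :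
    ∃ (H : Subgroup G) (W : Fin p → Submodule (ZMod q) V), H.index = p ∧
      iSup W = ⊤ ∧ iSupIndep W ∧
      (∀ h ∈ H, ∀ i, ∀ w ∈ W i, ρ h w ∈ W i) ∧
      (∀ i, ∃ h ∈ H, h ≠ 1 ∧ ∀ w ∈ W i, ρ h w = w) ∧
      ∀ g : G, g ∉ H → ∃ σ : Equiv.Perm (Fin p), orderOf σ = p ∧ ∀ i, (W i).map (ρ g : V →ₗ[ZMod q] V) = W (σ i) := by
  open Subgroup Cfsg.Lib Cfsg.Lib.BG Cfsg.Lib.Transfer in
  open Cfsg.Lib Cfsg.Lib.FGS Cfsg.Lib.BG Subgroup commutatorElement in
  classical
  have hp : p.Prime := Fact.out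
  have : NeZero p := ⟨hp.ne_zero⟩
  obtain ⟨E, hE, hel, hc⟩ : ∃ E : Subgroup G, E.Normal ∧ IsElementaryAbelian p E ∧ Nat.card E = p ^ 2 := by
    by_contra! n
    rcases PGroup.isCyclic_or_of_no_normal_rank_two hG n with h1 | ⟨rfl, a, b, m, hm, ha, hc, hba, hsup, h | h | h⟩
    · exact hnc h1
    · exact hnd _ (PGroup.nonempty_mulEquiv_dihedral ha h.2.1 h.2.2 hba hsup)
    · obtain ⟨m, rfl⟩ : ∃ m', m = m' + 1 := ⟨m - 1, by omega⟩
      exact hnq (2 ^ m) (PGroup.nonempty_mulEquiv_quaternion (by rw [ha, pow_succ']) h.1 h.2 hba hsup)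
    · exact hnsd ⟨m, h.1, hc, a, b, ha, orderOf_eq_prime h.2.1 (fun e => hba (e ▸ one_mem _)), h.2.2⟩
  let r : Representation (ZMod q) G V := LinearEquiv.automorphismGroup.toLinearMapMonoidHom.comp ρ
  have mul : ∀ g h v, r (g * h) v = r g (r h v) := fun g h v => by rw [map_mul]; rfl
  have triv : ∀ g, (∀ v, r g v = v) → g = 1 := fun g h => hρ (by rw [map_one]; exact LinearEquiv.ext h)
  have h0 : (p : ZMod q) ≠ 0 := fun e => by
    have := (CharP.charP_iff_prime_eq_zero hp).2 e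
    obtain ⟨v, -, v0, hv⟩ := Perm.exists_fixed_vector hG r ⊤ (fun _ _ _ => trivial) top_ne_bot
    rcases hirr r.invariants (fun g w hw => by rw [show ρ g w = w from hw g]; exact hw) with k | k
    · exact v0 ((Submodule.mem_bot _).1 (k.le hv))
    · have : Subsingleton G := subsingleton_of_forall_eq 1 fun g => triv g fun v => (k.ge trivial : v ∈ r.invariants) g
      exact hnc inferInstance
  let N : G → V → V := fun g v => ∑ k ∈ Finset.range p, r (g ^ k) v
  have N1 : ∀ g v, g ^ p = 1 → r g (N g v) = N g v := fun g v h => by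
    simp only [N, map_sum, ← mul, ← pow_succ']
    have := Finset.sum_range_succ' (fun k => r (g ^ k) v) p
    rw [Finset.sum_range_succ, h, pow_zero] at this
    exact (add_right_cancel this).symm
  have N0 : ∀ z ∈ center G, z ≠ 1 → z ^ p = 1 → ∀ v, N z v = 0 := fun z hz z1 h v => by
    rcases hirr (LinearMap.eqLocus (r z) LinearMap.id) (fun g w hw => by
      change r z (r g w) = r g w
      rw [← mul, ← mem_center_iff.1 hz, mul, show r z w = w from hw]) with k | k
    · exact (Submodule.mem_bot _).1 (k.le (N1 z v h))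
    · exact (z1 (triv z fun v => (k.ge trivial : v ∈ LinearMap.eqLocus (r z) LinearMap.id))).elim
  have NS : ∀ z ∈ center G, orderOf z = p → ∀ a v, ∑ i : Fin p, N (a * z ^ (i : ℕ)) v = (p : ZMod q) • v := fun z hz h a v => by
    have c : ∀ i : ℕ, Commute a (z ^ i) := fun i => mem_center_iff.1 (pow_mem hz i) a
    simp only [N, (c _).mul_pow, mul]
    rw [Finset.sum_comm, Finset.sum_eq_single 0 (fun k hk k0 => ?_) (by simp [hp.ne_zero])]
    · simp [Nat.cast_smul_eq_nsmul]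
    rw [← map_sum, Fin.sum_univ_eq_sum_range (fun i => r ((z ^ i) ^ k) v)]
    simp only [pow_right_comm z _ k]
    exact (congrArg _ (N0 _ (pow_mem hz k) (pow_ne_one_of_lt_orderOf k0 (h ▸ Finset.mem_range.1 hk))
      (by rw [pow_right_comm, ← h, pow_orderOf_eq_one, one_pow]) v)).trans (map_zero _)
  have gen : ∀ D : Subgroup G, Nat.card D = p → D ≤ E → ∃ z a, orderOf z = p ∧ zpowers z = D ∧ a ∈ E ∧ a ∉ D := fun D h1 h2 => by
    obtain ⟨z, hz⟩ := exists_prime_orderOf_dvd_card' (G := D) p h1.symm.dvd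
    obtain ⟨a, ha⟩ := SetLike.not_le_iff_exists.1 fun e : E ≤ D => by
      have := card_le_of_le e
      have := hp.two_le
      nlinarith
    exact ⟨z, a, by rw [orderOf_coe, hz], eq_of_le_of_card_ge (zpowers_le.2 z.2) (by rw [Nat.card_zpowers, orderOf_coe, hz, h1]), ha⟩
  have ne : ∀ {z a : G} (i : ℕ), a ∉ zpowers z → a * z ^ i ≠ 1 := fun i h e =>
    h (eq_inv_of_mul_eq_one_left e ▸ inv_mem (pow_mem (mem_zpowers _) i))
  have nc : ⁅E, ⊤⁆ ≠ ⊥ := fun e => by
    have k : E ≤ center G := by rw [commutator_eq_bot_iff_le_centralizer, coe_top, centralizer_univ] at e; exact e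
    obtain ⟨D, h1, h2⟩ := Sylow.exists_subgroup_le_card_pow_prime_of_le_card hp hG (H := E) (n := 1)
      (hc ▸ pow_le_pow_right₀ hp.one_lt.le one_le_two)
    obtain ⟨z, a, z1, rfl, a1, a2⟩ := gen D (by rw [h2, pow_one]) h1
    obtain ⟨v, hv⟩ := exists_ne (0 : V)
    have zE := h1 (mem_zpowers z)
    refine hv ((smul_eq_zero.1 ((NS z (k zE) z1 a v).symm.trans (Finset.sum_eq_zero fun i _ => ?_))).resolve_left h0)
    exact N0 _ (k (mul_mem a1 (pow_mem zE _))) (ne i a2) (hel.2 _ (mul_mem a1 (pow_mem zE _))) v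
  have hD : Nat.card ↥⁅E, (⊤ : Subgroup G)⁆ = p := by
    have h1 := PGroup.commutator_lt (hG.to_subgroup E) (hG.to_subgroup ⊤) le_normalizer_of_normal fun e => nc (by simp [e])
    obtain ⟨k, hk, e⟩ := (Nat.dvd_prime_pow hp).1 (hc ▸ card_dvd_of_le h1.le)
    interval_cases k
    · exact (nc (card_eq_one.1 e)).elim
    · rw [e, pow_one]
    · exact (h1.ne (eq_of_le_of_card_ge h1.le (by rw [e, hc]))).elim
  obtain ⟨z, a, z1, z2, a1, a2⟩ := gen _ hD (commutator_le_left E ⊤)
  have zc : z ∈ center G := PGroup.le_center_of_card_eq hG _ hD (z2 ▸ mem_zpowers z)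
  have zp : z ^ p = 1 := z1 ▸ pow_orderOf_eq_one z
  have c : ∀ (g) (i : ℕ), Commute g (z ^ i) := fun g i => mem_center_iff.1 (pow_mem zc i) g
  have bp : ∀ i : ℕ, (a * z ^ i) ^ p = 1 := fun i => by rw [(c a i).mul_pow, hel.2 a a1, pow_right_comm, zp, one_pow, one_mul]
  have ca : ∀ g, ⁅g, a⁆ ∈ ⁅E, (⊤ : Subgroup G)⁆ := fun g => (Subgroup.commutator_comm ⊤ E).le (commutator_mem_commutator trivial a1)
  let W : Fin p → Submodule (ZMod q) V := fun i => LinearMap.eqLocus (r (a * z ^ (i : ℕ))) LinearMap.id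
  have mW : ∀ i v, v ∈ W i ↔ r (a * z ^ (i : ℕ)) v = v := fun _ _ => Iff.rfl
  have fx : ∀ g v (k : ℕ), r g v = v → r (g ^ k) v = v := fun g v k h => by
    induction k with
    | zero => simp
    | succ k ih => rw [pow_succ, mul, h, ih]
  refine ⟨𝐂[a], W, ?_, eq_top_iff.2 fun v _ => ?_, (iSupIndep_iff_finsetSum_eq_zero_imp_eq_zero _).2 fun s w hw e i hi => ?_,
    fun h hh i w hw => ?_, fun i => ⟨_, mem_cent1.2 ((Commute.refl a).mul_left (c a i).symm), ne i (z2 ▸ a2), fun w hw => hw⟩,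
    fun g hg => ?_⟩
  · obtain ⟨k, hk⟩ := hG.index 𝐂[a]
    have h1 := hD ▸ index_centralizer_le_card ca
    rw [hk] at h1 ⊢
    have := (Nat.pow_le_pow_iff_right hp.one_lt).1 (h1.trans_eq (pow_one p).symm)
    interval_cases k
    · refine (nc (commutator_eq_bot_iff_le_centralizer.2 fun x hx => ?_)).elim
      rw [coe_top, centralizer_univ]
      have : zpowers z ⊔ zpowers a = E := by
        have h1 : zpowers z ⊔ zpowers a ≤ E := sup_le (z2 ▸ commutator_le_left E ⊤) (zpowers_le.2 a1)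
        obtain ⟨k, hk, e⟩ := (Nat.dvd_prime_pow hp).1 (hc ▸ card_dvd_of_le h1)
        refine eq_of_le_of_card_ge h1 (by_contra fun n => a2 (z2 ▸ (eq_of_le_of_card_ge le_sup_left ?_).ge
          (mem_sup_right (mem_zpowers a))))
        rw [e, hc, not_le, Nat.pow_lt_pow_iff_right hp.one_lt] at n
        rw [e, z2, hD]
        exact (Nat.pow_le_pow_right hp.pos (Nat.le_of_lt_succ n)).trans_eq (pow_one p)
      exact (sup_le (zpowers_le.2 zc) (zpowers_le.2 (index_cent1_eq_one.1 hk)) :) (this.ge hx)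
    · exact pow_one p
  · rw [← one_smul (ZMod q) v, ← inv_mul_cancel₀ h0, mul_smul, ← NS z zc z1 a v]
    exact Submodule.smul_mem _ _ (sum_mem fun i _ => Submodule.mem_iSup_of_mem i (N1 _ v (bp i)))
  · have : N (a * z ^ (i : ℕ)) (∑ j ∈ s, w j) = (p : ZMod q) • w i := by
      simp only [N, map_sum]
      rw [Finset.sum_comm, Finset.sum_eq_single i (fun j hj ji => ?_) fun k => (k hi).elim]
      · simp only [fx _ _ _ (hw i hi), Finset.sum_const, Finset.card_range, Nat.cast_smul_eq_nsmul]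
      have uc : z ^ (i : ℕ) * (z ^ (j : ℕ))⁻¹ ∈ center G := mul_mem (pow_mem zc _) (inv_mem (pow_mem zc _))
      rw [← N0 _ uc (fun k => ji (Fin.ext (pow_injOn_Iio_orderOf (z1 ▸ j.2) (z1 ▸ i.2) (mul_inv_eq_one.1 k).symm)))
        (by rw [(c _ j).inv_right.mul_pow, inv_pow, pow_right_comm, pow_right_comm z j, zp]; simp) (w j)]
      refine Finset.sum_congr rfl fun k _ => ?_
      rw [show a * z ^ (i : ℕ) = z ^ (i : ℕ) * (z ^ (j : ℕ))⁻¹ * (a * z ^ (j : ℕ)) by
        rw [(c a j).eq, mul_assoc, inv_mul_cancel_left, (c a i).eq], Commute.mul_pow (mem_center_iff.1 uc _).symm, mul,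
        fx _ _ _ (hw j hj)]
    rw [e] at this
    exact (smul_eq_zero.1 (this.symm.trans (by simp [N]))).resolve_left h0
  · change r _ (r h w) = r h w
    rw [← mul, ← (Commute.mul_right (mem_cent1.1 hh) (c h i)).eq, mul, (mW _ _).1 hw]
  · obtain ⟨n, hn, e⟩ : ∃ n < p, z ^ n = ⁅g, a⁆ := by
      obtain ⟨n, hn⟩ := mem_powers_iff_mem_zpowers.2 (z2 ▸ ca g)
      exact ⟨n % p, Nat.mod_lt _ hp.pos, by rw [← hn, ← z1, pow_mod_orderOf]⟩
    refine ⟨Equiv.addRight (⟨n, hn⟩ : Fin p), orderOf_eq_prime (by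
      have : ∀ (m : ℕ) (x y : Fin p), (Equiv.addRight x ^ m) y = y + m • x := fun m x y => by
        induction m with
        | zero => simp
        | succ m ih => rw [pow_succ', Equiv.Perm.mul_apply, ih, succ_nsmul, ← add_assoc]; rfl
      refine Equiv.ext fun y => ?_
      rw [this, show p • (⟨n, hn⟩ : Fin p) = 0 by simpa using card_nsmul_eq_zero (x := (⟨n, hn⟩ : Fin p))]; simp) fun k => hg ?_, fun i => ?_⟩
    · have : n = 0 := by simpa [Fin.ext_iff] using Equiv.congr_fun k 0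
      rw [this, pow_zero, eq_comm, commutatorElement_eq_one_iff_mul_comm] at e
      exact mem_cent1.2 e
    have k : a * z ^ ((i + ⟨n, hn⟩ : Fin p) : ℕ) * g = g * (a * z ^ (i : ℕ)) := by
      rw [Fin.val_add, ← pow_eq_pow_mod _ zp, add_comm, pow_add, ← mul_assoc, (c a n).eq, e, mul_assoc, ← (c g i).eq]
      group
    refine le_antisymm ?_ fun w hw => ⟨r g⁻¹ w, ?_, ?_⟩
    · rintro _ ⟨w, hw, rfl⟩
      change r (a * z ^ ((i + ⟨n, hn⟩ : Fin p) : ℕ)) (r g w) = r g w
      rw [← mul, k, mul, (mW _ _).1 hw]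
    · change r _ (r g⁻¹ w) = r g⁻¹ w
      rw [← mul, eq_inv_mul_iff_mul_eq.2 k.symm, mul_assoc, mul_inv_cancel_right, mul]
      exact congrArg _ hw
    · change r g (r g⁻¹ w) = w
      rw [← mul, mul_inv_cancel, map_one]; rfl

end Cfsg.Agent.S3380
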