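import Cfsg.Statements.S3382
import Cfsg.Agent.Lib.Inv.Misc
import Cfsg.Agent.Lib.PGroup.Critical

set_option autoImplicit false
open Cfsg

namespace Cfsg.Agent.S3382

section
open Subgroup Cfsg.Lib

theorem fix_pow {G : Type*} [Group G] [Finite G] {α : MulAut G} (hα : Odd (orderOf α)) {x : G}
    {i : ℕ} (h : (α ^ 2 ^ i) x = x) : α x = x :=
  PGroup.apply_eq_of_mem_zpowers (mem_zpowers_pow_iff.2
    (Nat.Coprime.pow_left i (Nat.coprime_two_left.2 hα))) h

theorem fix_zp {G : Type*} [Group G] [Finite G] {α : MulAut G} (hα : Odd (orderOf α)) {x : G}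
    (hx : ∃ j, x ^ 2 ^ j = 1) (h : α x ∈ zpowers x) : α x = x := by
  obtain ⟨j, hx⟩ := hx
  obtain ⟨k, hk⟩ := mem_powers_iff_mem_zpowers.2 h
  replace hk : x ^ k = α x := hk
  have h1 : ∀ n, (α ^ n) x = x ^ k ^ n := fun n => by
    induction n with
    | zero => simp
    | succ n ih => rw [pow_succ', MulAut.mul_apply, ih, map_pow, ← hk, ← pow_mul, pow_succ']
  rcases Nat.even_or_odd k with ⟨l, rfl⟩ | ho
  · have h2 := h1 j
    rw [← two_mul, mul_pow, pow_mul, hx, one_pow, EmbeddingLike.map_eq_one_iff] at h2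
    rw [h2, map_one]
  · refine fix_pow hα (i := j) ?_
    have h2 := Nat.ModEq.pow_totient (Nat.Coprime.pow_right (j + 1) (Nat.coprime_two_right.2 ho))
    rw [Nat.totient_prime_pow_succ Nat.prime_two, show 2 - 1 = 1 from rfl, mul_one] at h2
    rw [h1, pow_eq_pow_iff_modEq.2 (h2.of_dvd ((orderOf_dvd_of_pow_eq_one hx).trans
      (pow_dvd_pow 2 j.le_succ))), pow_one]

theorem fix_two {G : Type*} [Group G] [Finite G] (hG : IsPGroup 2 G) {α : MulAut G}
    (hα : Odd (orderOf α)) {x y : G} {n : ℕ} (hx : x ^ n ≠ 1) (hy : y ^ n ≠ 1)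
    (h : ∀ z, z ^ n ≠ 1 → z ∈ zpowers x ∨ z ∈ zpowers y) : α x = x := by
  have h1 : ∀ z, z ^ n ≠ 1 → α z ^ n ≠ 1 := fun z hz => by
    rwa [← map_pow, Ne, EmbeddingLike.map_eq_one_iff]
  rcases h _ (h1 x hx) with h2 | ⟨k, hk⟩
  · exact fix_zp hα (hG x) h2
  replace hk : y ^ k = α x := hk
  rcases h _ (h1 y hy) with h3 | h3
  · refine fix_pow hα (i := 1) (fix_zp (Odd.of_dvd_nat hα (orderOf_pow_dvd _)) (hG x) ?_)
    rw [pow_one, sq, MulAut.mul_apply, ← hk, map_zpow]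
    exact zpow_mem h3 k
  · apply α.injective
    rw [← hk, map_zpow, fix_zp hα (hG y) h3]

variable {F : Type*} [Field F]

/-- diagonal maps -/
def IsD (f : (Fin 2 → F) ≃ₗ[F] (Fin 2 → F)) (a s : F) : Prop :=
  ∀ v, f v = ![a * v 0, s * a⁻¹ * v 1]

/-- antidiagonal maps -/
def IsW (f : (Fin 2 → F) ≃ₗ[F] (Fin 2 → F)) (a s : F) : Prop :=
  ∀ v, f v = ![s * a⁻¹ * v 1, a * v 0]

variable {f g : (Fin 2 → F) ≃ₗ[F] (Fin 2 → F)} {a b s t : F}

theorem exists_isD (ha : a ≠ 0) (hs : s ≠ 0) : ∃ f, IsD f a s :=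
  ⟨LinearEquiv.piCongrRight fun i => LinearEquiv.smulOfNeZero F F (![a, s * a⁻¹] i)
    (by fin_cases i <;> simp [ha, hs]), fun v => by ext i; fin_cases i <;> simp⟩

theorem IsD.mul (hf : IsD f a s) (hg : IsD g b t) : IsD (f * g) (a * b) (s * t) := fun v => by
  rw [LinearEquiv.mul_apply, hg, hf]; ext i; fin_cases i <;> simp <;> ring

theorem IsD.eq (hf : IsD f a s) (hg : IsD g a s) : f = g := LinearEquiv.ext fun v => by
  rw [hf, hg]

theorem isD_one : IsD (1 : (Fin 2 → F) ≃ₗ[F] (Fin 2 → F)) 1 1 := fun v => by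
  ext i; fin_cases i <;> simp

theorem IsD.pow (hf : IsD f a s) (n : ℕ) : IsD (f ^ n) (a ^ n) (s ^ n) := by
  induction n with
  | zero => simpa using isD_one
  | succ n ih => simpa [pow_succ] using ih.mul hf

theorem IsD.inj (hf : IsD f a s) (hg : IsD f b t) : a = b := by
  simpa using congrFun ((hf 1).symm.trans (hg 1)) 0

theorem IsD.eq_one (hf : IsD f a s) (h : f = 1) : a = 1 := hf.inj (h ▸ isD_one)

theorem zm2 : (-1 : ZMod 2) = 1 := by decide

theorem zm3 : ∀ a : ZMod 3, a ≠ 0 → a = 1 ∨ a = -1 := by decide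

theorem zm3' : (-1 : ZMod 3) ≠ 1 := by decide

theorem IsW.sq (hf : IsW f a s) (ha : a ≠ 0) (hs : s = 1 ∨ s = -1) : IsD (f ^ 2) s 1 := fun v => by
  rw [pow_two, LinearEquiv.mul_apply, hf, hf]; ext i
  rcases hs with rfl | rfl <;> fin_cases i <;> simp [ha]

theorem IsW.four (hf : IsW f a s) (ha : a ≠ 0) (hs : s = 1 ∨ s = -1) : f ^ 4 = 1 := by
  have h := (hf.sq ha hs).pow 2
  rw [← pow_mul, one_pow, show s ^ 2 = 1 by rcases hs with rfl | rfl <;> simp] at h
  exact h.eq isD_one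

theorem IsW.not_comm (hf : IsW f a s) (hg : IsD g b t) (ha : a ≠ 0) (h : f * g = g * f) :
    b = t * b⁻¹ := by
  have h1 := congrFun (LinearEquiv.congr_fun h 1) 1
  rw [LinearEquiv.mul_apply, LinearEquiv.mul_apply, hf, hg, hg, hf] at h1
  simp only [Matrix.cons_val_one, Matrix.cons_val_zero, Pi.one_apply, mul_one] at h1
  exact mul_left_cancel₀ ha (h1.trans (mul_comm _ _))

theorem exists_isW (ha : a ≠ 0) (hs : s = 1 ∨ s = -1) : ∃ f, IsW f a s := by
  obtain ⟨g, hg⟩ := exists_isD (a := s * a⁻¹) (s := s) (by rcases hs with rfl | rfl <;> simp [ha])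
    (by rcases hs with rfl | rfl <;> simp)
  refine ⟨g * LinearEquiv.funCongrLeft F F (Equiv.swap 0 1), fun v => ?_⟩
  rw [LinearEquiv.mul_apply, hg]; ext i
  rcases hs with rfl | rfl <;> fin_cases i <;> simp

theorem IsW.eq (hf : IsW f a s) (hg : IsW g a s) : f = g := LinearEquiv.ext fun v => by
  rw [hf, hg]

theorem IsD.mulW (hf : IsD f a s) (hg : IsW g b t) (hs : s = 1 ∨ s = -1) :
    IsW (f * g) (s * a⁻¹ * b) (s * t) := fun v => by
  rw [LinearEquiv.mul_apply, hg, hf]; ext i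
  rcases hs with rfl | rfl <;> fin_cases i <;> simp <;> ring

end

/-- Let q = 2^m + 1 be a prime other than 5. Then the automorphism group of the group of linear maps of F_q² of the forms (x, y) ↦ (a x, ± a⁻¹ y) and (x, y) ↦ (± a⁻¹ y, a x) with a ≠ 0 is itself a 2-group. -/
theorem result (q m : ℕ) [Fact q.Prime] (hq : q = 2 ^ m + 1) (hq5 : q ≠ 5)
    (T : Subgroup ((Fin 2 → ZMod q) ≃ₗ[ZMod q] (Fin 2 → ZMod q)))
    (hT : ∀ f, f ∈ T ↔ ∃ a s : ZMod q, a ≠ 0 ∧ (s = 1 ∨ s = -1) ∧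
      ((∀ v, f v = ![a * v 0, s * a⁻¹ * v 1]) ∨ (∀ v, f v = ![s * a⁻¹ * v 1, a * v 0]))) :
    IsPGroup 2 (MulAut T) := by
  open Subgroup Cfsg.Lib in
  replace hT : ∀ f, f ∈ T ↔ ∃ a s : ZMod q, a ≠ 0 ∧ (s = 1 ∨ s = -1) ∧ (IsD f a s ∨ IsW f a s) := hT
  have : Finite ((Fin 2 → ZMod q) ≃ₗ[ZMod q] (Fin 2 → ZMod q)) := DFunLike.finite _
  have hF : ∀ a : ZMod q, a ≠ 0 → a ^ 2 ^ m = 1 := fun a ha => by
    rw [← ZMod.pow_card_sub_one_eq_one ha, Nat.sub_eq_of_eq_add hq]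
  have hs2 : ∀ s : ZMod q, s = 1 ∨ s = -1 → ∀ j, s ^ 2 ^ (j + 1) = 1 := by
    rintro s (rfl | rfl) j
    · exact one_pow _
    · exact Even.neg_one_pow ⟨2 ^ j, by ring⟩
  have hP : IsPGroup 2 T := by
    rintro ⟨f, hf⟩
    obtain ⟨a, s, ha, hs, h | h⟩ := (hT f).1 hf
    · refine ⟨m + 1, Subtype.ext ?_⟩
      have h1 := h.pow (2 ^ (m + 1))
      rw [hs2 s hs, pow_succ 2 m, pow_mul a, hF a ha, one_pow] at h1
      exact (pow_succ 2 m ▸ h1).eq isD_one
    · exact ⟨2, Subtype.ext (h.four ha hs)⟩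
  refine Inv.isPGroup_two_of_odd fun α hα => ?_
  have hα' := Nat.coprime_two_right.2 hα
  rcases m with _ | _ | _ | m
  · obtain rfl : q = 2 := hq
    have h1 : ∀ f : T, f ≠ 1 → IsW f.1 1 1 := by
      rintro ⟨f, hf⟩ h1
      obtain ⟨a, s, ha, hs, h⟩ := (hT f).1 hf
      obtain rfl : a = 1 := by simpa using hF a ha
      obtain rfl : s = 1 := hs.elim id fun h => h.trans zm2
      exact h.resolve_left fun h => h1 (Subtype.ext (h.eq isD_one))
    ext1 f
    by_cases hf : f = 1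
    · rw [hf, map_one, map_one]
    · exact Subtype.ext ((h1 _ (by rwa [Ne, EmbeddingLike.map_eq_one_iff])).eq (h1 f hf))
  · obtain rfl : q = 3 := hq
    obtain ⟨x, hx⟩ := exists_isW (a := (1 : ZMod 3)) one_ne_zero (Or.inr rfl)
    have hx2 := hx.sq one_ne_zero (Or.inr rfl)
    have hx3 := hx2.mulW hx (Or.inl rfl)
    rw [← pow_succ] at hx3
    have ha1 : ∀ a : ZMod 3, a ≠ 0 → a = 1 ∨ a = -1 := zm3
    let x' : T := ⟨x, (hT x).2 ⟨1, -1, one_ne_zero, Or.inr rfl, Or.inr hx⟩⟩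
    have hW : ∀ f : T, ∀ a, a ≠ 0 → IsW f.1 a (-1) → f ∈ zpowers x' := by
      intro f a ha h
      rcases ha1 a ha with rfl | rfl
      · exact (Subtype.ext (h.eq hx) : f = x') ▸ mem_zpowers x'
      · exact (Subtype.ext (h.eq (by simpa using hx3)) : f = x' ^ 3) ▸ pow_mem (mem_zpowers x') 3
    have h2 : x' ^ 2 ≠ 1 := fun h => zm3' (hx2.eq_one (congrArg Subtype.val h))
    have h3 := fix_two hP hα h2 h2 fun f hf => by
      obtain ⟨a, s, ha, hs, h | h⟩ := (hT f).1 f.2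
      · have h1 := h.pow (2 ^ (0 + 1))
        rw [hs2 s hs, hs2 a (ha1 a ha)] at h1
        exact absurd (Subtype.ext (h1.eq isD_one)) hf
      · rcases hs with rfl | rfl
        · exact absurd (Subtype.ext ((h.sq ha (Or.inl rfl)).eq isD_one)) hf
        · exact Or.inl (hW f a ha h)
    refine PGroup.mulAut_eq_one_of_fixes_self_centralizing hP (H := zpowers x') (fun f hf => ?_) hα'
      (by rintro _ ⟨k, rfl⟩; rw [map_zpow, h3])
    have hc : x * f.1 = f.1 * x := congrArg Subtype.val (hf x' (mem_zpowers x'))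
    obtain ⟨a, s, ha, hs, h | h⟩ := (hT f).1 f.2
    · have h4 := hx.not_comm h one_ne_zero hc
      rcases hs with rfl | rfl
      · rcases ha1 a ha with rfl | rfl
        · exact (Subtype.ext (h.eq isD_one) : f = 1) ▸ one_mem _
        · exact (Subtype.ext (h.eq hx2) : f = x' ^ 2) ▸ pow_mem (mem_zpowers x') 2
      · rcases ha1 a ha with rfl | rfl
        · exact absurd (by simpa using h4.symm) zm3'
        · exact absurd (by simpa using h4) zm3'
    · rcases hs with rfl | rfl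
      · have h4 := congrFun (LinearEquiv.congr_fun hc 1) 1
        rw [LinearEquiv.mul_apply, LinearEquiv.mul_apply, hx, h, h, hx] at h4
        rcases ha1 a ha with rfl | rfl
        · exact absurd (by simpa using h4.symm) zm3'
        · exact absurd (by simpa using h4) zm3'
      · exact hW f a ha h
  · exact absurd hq hq5
  obtain ⟨g, hg⟩ := IsCyclic.exists_generator (α := (ZMod q)ˣ)
  have ho : orderOf (g : ZMod q) = 2 ^ (m + 3) := by
    rw [orderOf_units, orderOf_eq_card_of_forall_mem_zpowers hg, Nat.card_eq_fintype_card,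
      ZMod.card_units, Nat.sub_eq_of_eq_add hq]
  have hgen : ∀ a : ZMod q, a ≠ 0 → ∃ i : ℕ, (g : ZMod q) ^ i = a := fun a ha => by
    obtain ⟨i, hi⟩ := mem_powers_iff_mem_zpowers.2 (hg (Units.mk0 a ha))
    exact ⟨i, by simpa using congrArg Units.val hi⟩
  have hg1 : (g : ZMod q) ^ 2 ^ (m + 2) ≠ 1 := pow_ne_one_of_lt_orderOf (by positivity) (by
    rw [ho]; exact Nat.pow_lt_pow_right one_lt_two (by omega))
  obtain ⟨x, hx⟩ := exists_isD (s := 1) g.ne_zero one_ne_zero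
  obtain ⟨y, hy⟩ := exists_isD (s := -1) g.ne_zero (by simp)
  let x' : T := ⟨x, (hT x).2 ⟨g, 1, g.ne_zero, Or.inl rfl, Or.inl hx⟩⟩
  let y' : T := ⟨y, (hT y).2 ⟨g, -1, g.ne_zero, Or.inr rfl, Or.inl hy⟩⟩
  have hx1 : x' ^ 2 ^ (m + 2) ≠ 1 := fun h => hg1 ((hx.pow _).eq_one (congrArg Subtype.val h))
  have hy1 : y' ^ 2 ^ (m + 2) ≠ 1 := fun h => hg1 ((hy.pow _).eq_one (congrArg Subtype.val h))
  have key : ∀ f : T, f ^ 2 ^ (m + 2) ≠ 1 → f ∈ zpowers x' ∨ f ∈ zpowers y' := by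
    intro f hf
    obtain ⟨a, s, ha, hs, h | h⟩ := (hT f).1 f.2
    · obtain ⟨i, rfl⟩ := hgen a ha
      rcases Nat.even_or_odd i with ⟨j, rfl⟩ | hi
      · have h1 := h.pow (2 ^ (m + 1 + 1))
        rw [hs2 s hs, ← pow_mul, show (j + j) * 2 ^ (m + 1 + 1) = 2 ^ (m + 3) * j by ring, pow_mul,
          hF _ g.ne_zero, one_pow] at h1
        exact absurd (Subtype.ext (h1.eq isD_one)) hf
      · rcases hs with rfl | rfl
        · exact Or.inl ((Subtype.ext (h.eq (by simpa using hx.pow i)) : f = x' ^ i) ▸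
            pow_mem (mem_zpowers x') i)
        · exact Or.inr ((Subtype.ext (h.eq (by simpa [hi.neg_one_pow] using hy.pow i)) :
            f = y' ^ i) ▸ pow_mem (mem_zpowers y') i)
    · refine absurd (Subtype.ext ?_) hf
      show f.1 ^ 2 ^ (m + 2) = 1
      rw [pow_add, mul_comm, pow_mul, show 2 ^ 2 = 4 from rfl, h.four ha hs, one_pow]
  have h1 := fix_two hP hα hx1 hy1 key
  have h2 := fix_two hP hα hy1 hx1 fun f hf => (key f hf).symm
  refine PGroup.mulAut_eq_one_of_fixes_self_centralizing hP (H := α.toMonoidHom.eqLocus (MonoidHom.id _))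
    (fun f hf => ?_) hα' fun f hf => hf
  have hx' : x' ∈ α.toMonoidHom.eqLocus (MonoidHom.id _) := h1
  have hy' : y' ∈ α.toMonoidHom.eqLocus (MonoidHom.id _) := h2
  obtain ⟨a, s, ha, hs, h | h⟩ := (hT f).1 f.2
  · rcases hs with rfl | rfl
    · obtain ⟨i, rfl⟩ := hgen a ha
      exact (Subtype.ext (h.eq (by simpa using hx.pow i)) : f = x' ^ i) ▸ pow_mem hx' i
    · obtain ⟨i, hi⟩ := hgen (a * (g : ZMod q)⁻¹) (mul_ne_zero ha (inv_ne_zero g.ne_zero))
      have h3 := (hx.pow i).mul hy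
      rw [hi, inv_mul_cancel_right₀ g.ne_zero, one_pow, one_mul] at h3
      exact (Subtype.ext (h.eq h3) : f = x' ^ i * y') ▸ mul_mem (pow_mem hx' i) hy'
  · have h3 := h.not_comm hx ha (congrArg Subtype.val (hf x' hx')).symm
    refine absurd ?_ hg1
    rw [pow_succ', pow_mul, show (g : ZMod q) ^ 2 = 1 by
      rw [sq]; nth_rw 2 [h3]; rw [one_mul, mul_inv_cancel₀ g.ne_zero], one_pow]

end Cfsg.Agent.S3382
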