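import Cfsg.Statements.S3383
import Cfsg.Agent.Lib.Frobenius.Theorem

set_option autoImplicit false
open Cfsg

namespace Cfsg.Agent.S3383

/-- Let H be a Frobenius complement in a finite group L and K the Frobenius kernel (as a subgroup). Then K is characteristic in L, and every normal subgroup of L either contains K or is contained in K. -/
theorem result {L : Type*} [Group L] [Finite L]
    (H : Subgroup L) (hH : Cfsg.IsFrobeniusComplement H)
    (K : Subgroup L) (hK : (K : Set L) = Cfsg.frobeniusKernel H) :
    K.Characteristic ∧ ∀ N : Subgroup L, N.Normal → K ≤ N ∨ N ≤ K := by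
  obtain ⟨hn, -, hs, hf⟩ := Cfsg.Lib.Frobenius.kernel_of_coe_eq hH hK
  refine ⟨Subgroup.characteristic_iff_comap_eq.2 fun φ => ?_,
    fun N hN => Cfsg.Lib.Frobenius.le_or_le_of_normal hs hf N⟩
  have hc : Nat.card (K.comap φ.toMonoidHom) = Nat.card K := by
    exact Nat.card_congr (φ.toEquiv.subtypeEquiv fun x => Iff.rfl)
  rcases Cfsg.Lib.Frobenius.le_or_le_of_normal hs hf (K.comap φ.toMonoidHom) with h | h
  · exact (Subgroup.eq_of_le_of_card_ge h hc.le).symm
  · exact Subgroup.eq_of_le_of_card_ge h hc.ge

end Cfsg.Agent.S3383
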