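import Cfsg.Statements.S3704
import Cfsg.Agent.S0157
import Cfsg.Agent.Lib.Induce.Character
import Cfsg.Agent.Lib.Perm.Frob

set_option autoImplicit false
open Cfsg

namespace Cfsg.Agent.S3704

open Cfsg.Lib.Char Cfsg.Lib.Induce Cfsg.Lib.Perm MulAction

/-- Let G be a finite group acting faithfully and 2-transitively on a finite set Ω of size n, and let H be a subgroup of index n in G which is not transitive on Ω and fixes no point of Ω. Then H has exactly two orbits on Ω. -/
theorem result {G Ω : Type*} [Group G] [Finite G] [MulAction G Ω] [FaithfulSMul G Ω] [Finite Ω] (h2 : MulAction.IsMultiplyPretransitive G Ω 2) (H : Subgroup G) (hidx : H.index = Nat.card Ω) (hnt : ¬ MulAction.IsPretransitive H Ω) (hfix : ∀ a : Ω, ∃ h : H, h • a ≠ a) : Nat.card (MulAction.orbitRel.Quotient H Ω) = 2 := by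
  classical
  have := Fintype.ofFinite G
  have hn0 : Nat.card Ω ≠ 0 := hidx ▸ H.index_ne_zero_of_finite
  have : Nonempty Ω := (Nat.card_ne_zero.1 hn0).1
  have hnt' : Nontrivial Ω := by
    by_contra h
    rw [not_nontrivial_iff_subsingleton] at h
    exact hnt ⟨fun a b => ⟨1, Subsingleton.elim _ _⟩⟩
  have hn : 2 ≤ Nat.card Ω := Finite.one_lt_card_iff_nontrivial.2 hnt'
  have : IsPretransitive G Ω := (isPreprimitive_of_is_two_pretransitive h2).toIsPretransitive
  have hχ := (S0157.result Ω hn).2 h2
  set χ : G → ℂ := fun g => (Nat.card (MulAction.fixedBy Ω g) : ℂ) - 1 with hχd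
  set t := Nat.card (orbitRel.Quotient H Ω) with ht
  have hπ : IsCharacter G (indFun H fun _ => 1) := isCharacter_indFun H isCharacter_one
  have hHc := card_ne_zero_complex H
  have h1 : classInner (indFun H fun _ => 1) χ = t - 1 := by
    rw [frobenius_reciprocity H _ hχ.isClassFunction,
      isCharacter_one.inner_comm (hχ.isCharacter.restrict H), classInner_one_right]
    have := sum_card_fixedBy (G := H) (α := Ω)
    have e : ∑ g : H, χ g = (t * Nat.card H : ℕ) - Nat.card H := by
      rw [← this]
      simp only [hχd, Finset.sum_sub_distrib, Finset.sum_const, Finset.card_univ, nsmul_eq_mul,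
        mul_one, Nat.cast_sum, Nat.card_eq_fintype_card (α := H)]
      rfl
    rw [e]
    field_simp
    push_cast
    ring
  have hχ1 : classInner χ (fun _ => 1) = 0 := by
    rw [classInner_one_right]
    have e : ∑ g : G, χ g = (∑ g : G, Nat.card (fixedBy Ω g) : ℕ) - Nat.card G := by
      simp [hχd]
    rw [e, sum_card_fixedBy_of_transitive, sub_self, mul_zero]
  have h3 := hπ.sub_inner_smul_irr hχ
  obtain ⟨b, hb⟩ := h3.exists_apply_one
  have h4 : 1 ≤ b := h3.degree_le_of_constituent isIrrCharacter_one (by
    rw [classInner_sub_left, classInner_smul_left, hχ1, classInner_indFun_one,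
      isIrrCharacter_one.inner_self]
    simp) (by simp) hb
  have h5 : (Nat.card Ω : ℂ) - (t - 1) * (Nat.card Ω - 1) = b := by
    rw [← hb, h1, Pi.sub_apply, indFun_one, hidx]
    simp [hχd]
  have h6 : (Nat.card Ω : ℤ) - (t - 1) * (Nat.card Ω - 1) = b := by exact_mod_cast h5
  have h7 : 1 < t := by
    rw [ht, Finite.one_lt_card_iff_nontrivial]
    by_contra h
    rw [not_nontrivial_iff_subsingleton] at h
    exact hnt ((pretransitive_iff_subsingleton_quotient H Ω).2 h)
  by_contra h
  have h8 : (3 : ℤ) ≤ t := by omega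
  have h9 : (2 : ℤ) ≤ Nat.card Ω := by exact_mod_cast hn
  have h10 : (1 : ℤ) ≤ b := by exact_mod_cast h4
  nlinarith

end Cfsg.Agent.S3704
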