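import Cfsg.Statements.S3705
import Cfsg.Agent.Lib.Perm.Ito

set_option autoImplicit false
open Cfsg

namespace Cfsg.Agent.S3705

/-- Let G be a finite group acting faithfully and 2-transitively on a finite set Ω of size n, and let H be a subgroup of index n in G which is not transitive on Ω and fixes no point of Ω. Suppose H has a nontrivial solvable normal subgroup N that fixes some point of Ω. Then there are an integer m ≥ 2 and a finite field F with #Ω = (#F^(m+1) − 1)/(#F − 1), and G has a normal subgroup isomorphic to PSL_{m+1}(F) whose centralizer in G is trivial (so that G lies between PSL_{m+1}(F) and its automorphism group). -/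
theorem result {G Ω : Type*} [Group G] [Finite G] [MulAction G Ω] [FaithfulSMul G Ω] [Finite Ω] (h2 : MulAction.IsMultiplyPretransitive G Ω 2) (H : Subgroup G) (hidx : H.index = Nat.card Ω) (hnt : ¬ MulAction.IsPretransitive H Ω) (hfix : ∀ a : Ω, ∃ h : H, h • a ≠ a) (N : Subgroup H) (hN : N.Normal) (hN1 : N ≠ ⊥) (hsol : Group.IsSolvable N) (hNfix : ∃ a : Ω, ∀ x ∈ N, x • a = a) : ∃ (m : ℕ) (F : Type) (_ : Field F) (_ : Fintype F), 2 ≤ m ∧ Nat.card Ω = (Fintype.card F ^ (m + 1) - 1) / (Fintype.card F - 1) ∧ ∃ N : Subgroup G, N.Normal ∧ Nonempty (N ≃* Matrix.ProjectiveSpecialLinearGroup (Fin (m + 1)) F) ∧ Subgroup.centralizer (N : Set G) = ⊥ := by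
  have hf : ∀ g : G, (∀ x : Ω, g • x = x) → g = 1 := fun g h => eq_of_smul_eq_smul (α := Ω) fun x => by
    rw [h, one_smul]
  obtain ⟨a, ha⟩ := hNfix
  let D := Cfsg.Lib.Perm.symOfOrbit h2 H hidx hnt a
  haveI : Finite (G ⧸ H) := inferInstance
  have hs : ∀ g : G, g • ((1 : G) : G ⧸ H) = (1 : G) ↔ g ∈ H := fun g => by
    rw [← MulAction.mem_stabilizer_iff, MulAction.stabilizer_quotient]
  obtain ⟨g, hg⟩ := hfix a
  refine Cfsg.Lib.Perm.concl_of_proj D.card (D.faith hf) (D.proj_of_fitting hf ((1 : G) : G ⧸ H) (N.map H.subtype)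
    ?_ ?_ (Cfsg.Lib.Core.fittingOf_ne_bot ?_ ?_) ?_ ((hs g).2 g.2) hg)
  · rintro _ ⟨t, -, rfl⟩
    exact (hs _).2 t.2
  · rintro k hk _ ⟨t, ht, rfl⟩
    exact ⟨_, hN.conj_mem t ht ⟨k, (hs k).1 hk⟩, rfl⟩
  · exact Group.isSolvable_of_surjective (f := H.subtype.subgroupMap N) (H.subtype.subgroupMap_surjective N)
  · rwa [Ne, Subgroup.map_eq_bot_iff_of_injective _ H.subtype_injective]
  · rintro _ ⟨t, ht, rfl⟩
    exact ha t ht

end Cfsg.Agent.S3705
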