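import Cfsg.Statements.S3706
import Cfsg.Agent.Lib.Perm.Ito

set_option autoImplicit false
open Cfsg

namespace Cfsg.Agent.S3706

/-- Let G be a finite group acting faithfully and 2-transitively on a finite set Ω of size n, and let H be a subgroup of index n in G which is not transitive on Ω and fixes no point of Ω. Suppose H acts unfaithfully on one of its orbits: some non-identity element of H fixes every point of that orbit. Then there are an integer m ≥ 2 and a finite field F with #Ω = (#F^(m+1) − 1)/(#F − 1), and G has a normal subgroup isomorphic to PSL_{m+1}(F) whose centralizer in G is trivial (so that G lies between PSL_{m+1}(F) and its automorphism group). -/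
theorem result {G Ω : Type*} [Group G] [Finite G] [MulAction G Ω] [FaithfulSMul G Ω] [Finite Ω] (h2 : MulAction.IsMultiplyPretransitive G Ω 2) (H : Subgroup G) (hidx : H.index = Nat.card Ω) (hnt : ¬ MulAction.IsPretransitive H Ω) (hfix : ∀ a : Ω, ∃ h : H, h • a ≠ a) (hunf : ∃ a : Ω, ∃ h : H, h ≠ 1 ∧ ∀ b ∈ MulAction.orbit H a, h • b = b) : ∃ (m : ℕ) (F : Type) (_ : Field F) (_ : Fintype F), 2 ≤ m ∧ Nat.card Ω = (Fintype.card F ^ (m + 1) - 1) / (Fintype.card F - 1) ∧ ∃ N : Subgroup G, N.Normal ∧ Nonempty (N ≃* Matrix.ProjectiveSpecialLinearGroup (Fin (m + 1)) F) ∧ Subgroup.centralizer (N : Set G) = ⊥ := by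
  have hf : ∀ g : G, (∀ x : Ω, g • x = x) → g = 1 := fun g h => eq_of_smul_eq_smul (α := Ω) fun x => by
    rw [h, one_smul]
  obtain ⟨a, x, hx1, hx⟩ := hunf
  let D := Cfsg.Lib.Perm.symOfOrbit h2 H hidx hnt a
  haveI : Finite (G ⧸ H) := inferInstance
  have hI : ∀ b, D.I b ((1 : G) : G ⧸ H) ↔ b ∈ MulAction.orbit H a := fun b =>
    ⟨fun ⟨g, h1, h2⟩ => ⟨⟨g, by simpa using QuotientGroup.eq.1 h1.symm⟩, h2⟩,
      fun ⟨g, h⟩ => ⟨g, (QuotientGroup.eq.2 (by simpa using g.2)).symm, h⟩⟩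
  refine Cfsg.Lib.Perm.concl_of_proj D.card (D.faith hf) (Cfsg.Lib.Perm.Sym.NT.proj (D := D) hf ⟨?_, ?_⟩
    (fun e => hx1 (Subtype.ext e)) fun b hb => hx b ((hI b).1 hb))
  · obtain ⟨g, hg⟩ := hfix a
    exact ⟨_, a, hg, (hI _).2 (MulAction.mem_orbit a g), (hI a).2 (MulAction.mem_orbit_self a)⟩
  · obtain ⟨-, b, y, -, hb⟩ := D.ex
    obtain ⟨k, hk⟩ := D.tr y ((1 : G) : G ⧸ H)
    rw [← D.inv k, hk] at hb
    obtain ⟨g, hg⟩ := hfix (k • b)
    refine ⟨_, _, hg, fun h => hb ?_, hb⟩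
    rw [hI] at h ⊢
    simpa using MulAction.mem_orbit_of_mem_orbit g⁻¹ h

end Cfsg.Agent.S3706
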