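import Cfsg.Statements.S3733
import Cfsg.Agent.Lib.Core.Basic

set_option autoImplicit false
open Cfsg

namespace Cfsg.Agent.S3733

/-- Let A and V be subgroups of a finite group with V abelian and nontrivial and A normalizing V. Suppose a nonempty finite family of proper subgroups of A partitions A: every non-identity element of A lies in exactly one member. If the number of members minus one is coprime to the order of V, then some member B of the family has a non-identity fixed point on V, that is V ∩ C(B) ≠ 1. -/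
theorem result {G : Type*} [Group G] [Finite G] (A V : Subgroup G) (hVab : IsMulCommutative V) (hV : V ≠ ⊥) (hAV : A ≤ Subgroup.normalizer (V : Set G)) (𝒜 : Finset (Subgroup G)) (hne : 𝒜.Nonempty) (hprop : ∀ B ∈ 𝒜, B < A) (hpart : ∀ a ∈ A, a ≠ 1 → ∃! B, B ∈ 𝒜 ∧ a ∈ B) (hk : (𝒜.card - 1).Coprime (Nat.card V)) : ∃ B ∈ 𝒜, V ⊓ Subgroup.centralizer (B : Set G) ≠ ⊥ := by
  open Cfsg.Lib Subgroup in
  open scoped IsMulCommutative in
  classical
  by_contra hcon
  push Not at hcon
  have := Fintype.ofFinite A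
  let ρ : A →* MulAut V := (normalizerMonoidHom V).comp (inclusion hAV)
  have hρ : ∀ (a : A) (v : V), (ρ a v : G) = a * v * (a : G)⁻¹ := fun _ _ => rfl
  have key : ∀ (C : Subgroup G) (B : Subgroup G), B ∈ 𝒜 → B ≤ C → ∀ v : V,
      ∏ g : A, (if (g : G) ∈ C then ρ g v else 1) = 1 := by
    intro C B hB hBC v
    have h1 : ((∏ g : A, (if (g : G) ∈ C then ρ g v else 1) : V) : G) ∈ V ⊓ centralizer (B : Set G) := by
      refine ⟨Subtype.prop _, fun b hb => ?_⟩
      rw [← mul_inv_eq_iff_eq_mul]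
      refine (hρ ⟨b, (hprop B hB).le hb⟩ _).symm.trans (congrArg Subtype.val ?_)
      rw [map_prod]
      refine Fintype.prod_equiv (Equiv.mulLeft ⟨b, (hprop B hB).le hb⟩) _ _ fun g => ?_
      simp only [Equiv.coe_mulLeft, coe_mul, C.mul_mem_cancel_left (hBC hb), map_mul]
      split_ifs
      · rfl
      · exact map_one _
    rw [hcon B hB] at h1
    exact Subtype.ext h1
  obtain ⟨B₀, hB₀⟩ := hne
  apply hV
  rw [eq_bot_iff]
  intro v hv
  have h1 : ∏ B ∈ 𝒜, ∏ g : A, (if (g : G) ∈ B then ρ g ⟨v, hv⟩ else 1) = 1 :=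
    Finset.prod_eq_one fun B hB => key B B hB le_rfl _
  have h2 := key ⊤ B₀ hB₀ le_top ⟨v, hv⟩
  simp only [mem_top, if_true] at h2
  rw [Finset.prod_comm] at h1
  have h3 : ∀ g : A, ∏ B ∈ 𝒜, (if (g : G) ∈ B then ρ g ⟨v, hv⟩ else 1) =
      (if g = 1 then (⟨v, hv⟩ : V) ^ (𝒜.card - 1) else 1) * ρ g ⟨v, hv⟩ := fun g => by
    rw [← Finset.prod_filter, Finset.prod_const]
    split_ifs with hg
    · subst hg
      rw [Finset.filter_true_of_mem fun B _ => (show ((1 : A) : G) ∈ B from one_mem B), map_one, MulAut.one_apply, ← pow_succ,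
        Nat.sub_add_cancel (Finset.card_pos.mpr ⟨B₀, hB₀⟩)]
    · obtain ⟨B, hB, hu⟩ := hpart g g.2 fun h => hg (Subtype.ext h)
      have : 𝒜.filter (fun B => (g : G) ∈ B) = {B} := by
        ext C
        simp only [Finset.mem_filter, Finset.mem_singleton]
        exact ⟨hu C, fun h => h ▸ hB⟩
      rw [this, Finset.card_singleton, pow_one, one_mul]
  simp only [h3] at h1
  rw [Finset.prod_mul_distrib, h2, mul_one, Finset.prod_ite_eq'] at h1
  simp only [Finset.mem_univ, if_true] at h1
  have h4 := pow_gcd_eq_one.mpr ⟨h1, pow_card_eq_one'⟩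
  rw [hk, pow_one] at h4
  exact congrArg Subtype.val h4

end Cfsg.Agent.S3733
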