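import Cfsg.Statements.S3735
import Cfsg.Agent.Lib.Coprime.Action
import Cfsg.Agent.Lib.Core.MinNormal
import Cfsg.Agent.Lib.PGroup.Omega

set_option autoImplicit false
open Cfsg

namespace Cfsg.Agent.S3735

/-- Clifford's Theorem for actions on finite abelian groups, first part. Let H and V be subgroups of a finite group with V abelian and H normalizing V, and let A be a normal subgroup of H. If every H-invariant subgroup of V has an H-invariant complement in V, then every A-invariant subgroup of V has an A-invariant complement in V. -/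
theorem result {G : Type*} [Group G] [Finite G] (H A V : Subgroup G) (hVab : IsMulCommutative V) (hHV : H ≤ Subgroup.normalizer (V : Set G)) (hAH : A ≤ H) (hAn : H ≤ Subgroup.normalizer (A : Set G)) (hss : ∀ U : Subgroup G, U ≤ V → H ≤ Subgroup.normalizer (U : Set G) → ∃ W : Subgroup G, W ≤ V ∧ H ≤ Subgroup.normalizer (W : Set G) ∧ U ⊓ W = ⊥ ∧ U ⊔ W = V) (U : Subgroup G) (hUV : U ≤ V) (hAU : A ≤ Subgroup.normalizer (U : Set G)) : ∃ W : Subgroup G, W ≤ V ∧ A ≤ Subgroup.normalizer (W : Set G) ∧ U ⊓ W = ⊥ ∧ U ⊔ W = V := by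
  let S : Set (Subgroup G) := {M | M ≤ V ∧ A ≤ Subgroup.normalizer (M : Set G) ∧ M ≠ ⊥ ∧
    ∀ K : Subgroup G, A ≤ Subgroup.normalizer (K : Set G) → K ≤ M → K = ⊥ ∨ K = M}
  have hSV : sSup S ≤ V := sSup_le fun M hM => hM.1
  have hconj : ∀ h ∈ H, ∀ M : Subgroup G, A ≤ Subgroup.normalizer (M : Set G) →
      A ≤ Subgroup.normalizer ((M.map (MulAut.conj h).toMonoidHom : Subgroup G) : Set G) :=
    fun h hh M hM a ha => Lib.Coprime.mem_normalizer_map_conj_iff.mpr
      (hM (Lib.Coprime.conj_mem_of_mem_normalizer' (hAn hh) ha))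
  have hHS : H ≤ Subgroup.normalizer ((sSup S : Subgroup G) : Set G) := fun h hh => by
    refine Lib.Core.mem_normalizer_of_map_conj_le ?_
    rw [Subgroup.map_le_iff_le_comap, sSup_le_iff]
    intro M hM
    rw [← Subgroup.map_le_iff_le_comap]
    refine le_sSup ⟨Lib.Coprime.map_conj_le_of_mem_normalizer hM.1 (hHV hh), hconj h hh M hM.2.1,
      fun e => hM.2.2.1 ((Subgroup.map_eq_bot_iff_of_injective _ (MulAut.conj h).injective).mp e),
      fun K hK hKM => ?_⟩
    rcases hM.2.2.2 _ (hconj h⁻¹ (H.inv_mem hh) K hK) (by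
      refine (Subgroup.map_mono hKM).trans ?_
      rw [Lib.Coprime.map_conj_map_conj, inv_mul_cancel, Lib.Coprime.map_conj_one]) with e | e
    · exact Or.inl ((Subgroup.map_eq_bot_iff_of_injective _ (MulAut.conj h⁻¹).injective).mp e)
    · right
      rw [← e, Lib.Coprime.map_conj_map_conj, mul_inv_cancel, Lib.Coprime.map_conj_one]
  have hS : sSup S = V := by
    obtain ⟨W, h1, h2, h3, h4⟩ := hss _ hSV hHS
    rcases eq_or_ne W ⊥ with rfl | hW
    · rwa [sup_bot_eq] at h4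
    obtain ⟨M, h5, h6, h7, h8⟩ := Lib.Core.exists_minimal_invariant_le (hAH.trans h2) hW
    exact absurd (le_bot_iff.mp (h3 ▸ le_inf (le_sSup ⟨h5.trans h1, h6, h7, h8⟩) h5)) h7
  obtain ⟨W, -, ⟨h1, h2, h3⟩, hmax⟩ := Lib.Core.exists_maximal_ge
    (P := fun W : Subgroup G => W ≤ V ∧ A ≤ Subgroup.normalizer (W : Set G) ∧ U ⊓ W = ⊥)
    (H := ⊥) ⟨bot_le, Subgroup.le_normalizer_of_normal, inf_bot_eq _⟩
  have hn : ∀ X Y : Subgroup G, X ≤ V → Y ≤ V → X ≤ Subgroup.normalizer (Y : Set G) :=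
    fun X Y hX hY => (hX.trans ((Subgroup.le_centralizer_iff_isMulCommutative.mpr hVab).trans
      (Subgroup.centralizer_le hY))).trans (Subgroup.centralizer_le_normalizer _)
  refine ⟨W, h1, h2, h3, le_antisymm (sup_le hUV h1) ?_⟩
  rw [← hS, sSup_le_iff]
  intro M hM
  rcases hM.2.2.2 (M ⊓ (U ⊔ W)) (Lib.Coprime.le_normalizer_inf hM.2.1
    (Lib.Coprime.le_normalizer_sup hAU h2)) inf_le_left with e | e
  · have := hmax (W ⊔ M) ⟨sup_le h1 hM.1, Lib.Coprime.le_normalizer_sup h2 hM.2.1, ?_⟩ le_sup_left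
    · exact (le_sup_right.trans this.le).trans le_sup_right
    rw [eq_bot_iff]
    rintro u ⟨hu, hu'⟩
    obtain ⟨w, hw, m, hm, rfl⟩ := (Lib.Coprime.mem_sup_left_of_le_normalizer
      (hn M W hM.1 h1)).mp hu'
    have h4 : m = 1 := by
      rw [← Subgroup.mem_bot, ← e]
      refine ⟨hm, ?_⟩
      simpa using mul_mem (inv_mem (Subgroup.mem_sup_right (S := U) hw)) (Subgroup.mem_sup_left hu)
    rw [h4, mul_one] at hu ⊢
    exact h3 ▸ ⟨hu, hw⟩
  · exact e ▸ inf_le_right

end Cfsg.Agent.S3735
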