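import Cfsg.Statements.S3736
import Cfsg.Agent.Lib.Coprime.Gaschutz
import Cfsg.Agent.Lib.Coprime.Nilpotent
import Cfsg.Agent.Lib.PGroup.Critical
import Cfsg.Agent.Lib.Core.Frattini

set_option autoImplicit false
open Cfsg

namespace Cfsg.Agent.S3736

/-- The Hall–Higman reduction for a minimal non-trivial action. Let B, A and P be subgroups of a finite group with P a p-group, B normalizing P, and A a normal subgroup of B of order prime to p. Suppose A does not centralize P but centralizes every proper B-invariant subgroup of P. Then [P, A] = P; P is elementary abelian or special; B acts irreducibly on P/Φ(P), that is, the only B-invariant subgroups of P containing Φ(P) are Φ(P) and P; and if p is odd then every element of P has order dividing p. -/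
theorem result {X : Type*} [Group X] [Finite X] {p : ℕ} [Fact p.Prime] (B A P : Subgroup X) (hP : IsPGroup p P) (hBP : B ≤ Subgroup.normalizer (P : Set X)) (hAB : A ≤ B) (hAn : B ≤ Subgroup.normalizer (A : Set X)) (hAp : (Nat.card A).Coprime p) (hnt : ⁅P, A⁆ ≠ ⊥) (hmin : ∀ U : Subgroup X, U < P → B ≤ Subgroup.normalizer (U : Set X) → ⁅U, A⁆ = ⊥) : ⁅P, A⁆ = P ∧ (Cfsg.IsElementaryAbelian p P ∨ Cfsg.IsSpecial p ↥P) ∧ (∀ U : Subgroup X, (frattini ↥P).map P.subtype ≤ U → U ≤ P → B ≤ Subgroup.normalizer (U : Set X) → U = (frattini ↥P).map P.subtype ∨ U = P) ∧ (p ≠ 2 → ∀ x ∈ P, x ^ p = 1) := by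
  have hAP := hAB.trans hBP
  have hcop := Lib.Coprime.coprime_card_of_isPGroup hP hAp
  have hnc : ¬ A ≤ Subgroup.centralizer (P : Set X) := fun h => hnt
    (Subgroup.commutator_eq_bot_iff_le_centralizer.mpr (Subgroup.le_centralizer_iff.mp h))
  have hmin' : ∀ U : Subgroup X, U < P → B ≤ Subgroup.normalizer (U : Set X) →
      U ≤ Subgroup.centralizer (A : Set X) := fun U h1 h2 =>
    Subgroup.commutator_eq_bot_iff_le_centralizer.mp (hmin U h1 h2)
  have h1 : ⁅P, A⁆ = P := by
    by_contra h
    exact hnc (Lib.Coprime.le_centralizer_of_commutator_commutator_eq_bot hAP hcop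
      (hmin _ ((Lib.Coprime.commutator_le_of_le_normalizer hAP).lt_of_ne h)
        (Lib.Coprime.le_normalizer_commutator hBP hAn)))
  have hne : P ≠ ⊥ := fun h => hnt (by rw [h, Subgroup.commutator_bot_left])
  have hΦ := hmin' _ (Lib.Core.frattiniOf_lt hne)
    (hBP.trans (Lib.Core.normalizer_le_normalizer_frattiniOf P))
  have key : (IsElementaryAbelian p P ∨ IsSpecial p P) ∧
      P ⊓ Subgroup.centralizer (A : Set X) = (frattini P).map P.subtype ∧ ⁅⁅P, P⁆, P⁆ = ⊥ := by
    by_cases hc : IsMulCommutative P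
    · have h2 := Lib.Coprime.centralizer_inf_commutator_eq_bot hc hAP hcop
      rw [h1, inf_comm] at h2
      have h3 : (frattini P).map P.subtype = ⊥ :=
        le_bot_iff.mp (h2 ▸ le_inf (Subgroup.map_subtype_le _) hΦ)
      refine ⟨Or.inl ⟨hc, fun x hx => ?_⟩, h2.trans h3.symm, ?_⟩
      · rw [← Subgroup.mem_bot, ← h3]
        exact Lib.PGroup.pow_mem_map_subtype_frattini hP hx
      · rw [Subgroup.commutator_eq_bot_iff_le_centralizer.mpr
          (Subgroup.le_centralizer_iff_isMulCommutative.mpr hc), Subgroup.commutator_bot_left]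
    · obtain ⟨h2, h3⟩ := Lib.PGroup.isSpecial_of_centralizes_char_abelian hP hAP hAp h1
        fun H _ hH => Subgroup.le_centralizer_iff.mp (hmin' _ ((Subgroup.map_subtype_le H).lt_of_ne
          fun e => hc (e ▸ inferInstance))
          (hBP.trans (Lib.Coprime.normalizer_le_normalizer_map_subtype H)))
      refine ⟨Or.inr h2, by rw [h3, h2.2.1, Lib.Core.map_subtype_center], ?_⟩
      rw [Subgroup.commutator_eq_bot_iff_le_centralizer, ← Subgroup.map_subtype_commutator, h2.2.2,
        Lib.Core.map_subtype_center]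
      exact inf_le_right
  refine ⟨h1, key.1, fun U h2 h3 h4 => ?_, fun hp x hx => ?_⟩
  · exact h3.lt_or_eq.imp_left fun h => le_antisymm (key.2.1 ▸ le_inf h3 (hmin' U h h4)) h2
  · refine Lib.PGroup.pow_eq_one_of_mem_omegaOne_of_class_two
      ((Fact.out : p.Prime).odd_of_ne_two hp) key.2.2 ?_
    rcases (Lib.PGroup.omegaOne_le (p := p) P).lt_or_eq with h | h
    · exact absurd (Lib.PGroup.le_centralizer_of_le_centralizer_omegaOne hp hP hAP hAp
        (Subgroup.le_centralizer_iff.mp (hmin' _ h
          (hBP.trans (Lib.PGroup.normalizer_le_normalizer_omegaOne P))))) hnc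
    · exact h.symm ▸ hx

end Cfsg.Agent.S3736
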