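import Cfsg.Statements.S3738
import Cfsg.Agent.Lib.CharDeg.Aniso
import Cfsg.Agent.Lib.BG.T01_Coprime
import Cfsg.Agent.Lib.BG.Rank
import Cfsg.Agent.Lib.Inv.Misc
import Cfsg.Agent.Lib.Inv.MaxClass
import Cfsg.Agent.Lib.Grp.Orb

set_option autoImplicit false
open Cfsg

namespace Cfsg.Agent.S3738

open Subgroup Cfsg.Lib Cfsg.Lib.BG Cfsg.Lib.Transfer Cfsg.Lib.Inv

theorem main {X : Type*} [Group X] [Finite X] (d : X) (m : ℕ) (hd : orderOf d = 3 ^ (m + 2))
    (P : Subgroup X) (hP : IsPGroup 2 P) (hdP : d ∈ 𝐍(P)) (hfpf : P ⊓ 𝐂[d] = ⊥)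
    (hrank : ∀ V : Subgroup X, V ≤ P → IsElementaryAbelian 2 V → Nat.card V ≤ 4) :
    d ^ 3 ^ (m + 1) ∈ 𝐂(P) := by
  set e := d ^ 3 ^ (m + 1) with he
  have heo : orderOf e = 3 := by
    rw [he, orderOf_pow_of_dvd (by positivity) (by rw [hd]; exact pow_dvd_pow 3 (by omega)), hd,
      pow_succ 3 (m + 1), Nat.mul_div_cancel_left _ (by positivity)]
  have hdo : Odd (orderOf d) := by rw [hd]; exact Odd.pow (by decide)
  have hA : Nat.card (zpowers e) = 3 := by rw [Nat.card_zpowers, heo]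
  have hcop : (Nat.card (zpowers e)).Coprime 2 := by rw [hA]; decide
  have hcases : ∀ V : Subgroup X, IsElementaryAbelian 2 V → Nat.card V ≤ 4 →
      IsCyclic V ∨ IsKleinFour V := fun V hV h4 => by
    obtain ⟨k, hk⟩ := IsPGroup.iff_card.1 (elab_pgroup hV)
    have hk2 : k ≤ 2 := by
      rw [hk] at h4
      exact (Nat.pow_le_pow_iff_right (by norm_num : 1 < 2)).1 h4
    interval_cases k
    · left; rw [card_eq_one.1 hk]; infer_instance
    · exact Or.inl (cyclic_of_prime (hk ▸ Nat.prime_two))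
    · exact Or.inr (k4_of_elemAb hV hk)
  induction hn : Nat.card P using Nat.strong_induction_on generalizing P with | _ n ih
  have hen : zpowers e ≤ 𝐍(P) := zpowers_le.2 (pow_mem hdP _)
  have ih' : ∀ Q : Subgroup X, Q < P → d ∈ 𝐍(Q) → e ∈ 𝐂(Q) := fun Q hQ hdQ =>
    ih _ (hn ▸ Core.card_lt_card_of_lt hQ) Q (hP.to_le hQ.le) hdQ
      (eq_bot_mono hfpf (inf_le_inf_right _ hQ.le)) (fun V hV => hrank V (hV.trans hQ.le)) rfl
  have hcop' : (Nat.card (zpowers e)).Coprime (Nat.card P) := by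
    obtain ⟨k, hk⟩ := IsPGroup.iff_card.1 hP
    rw [hk]; exact hcop.pow_right k
  by_cases hPA : ⁅P, zpowers e⁆ = P
  swap
  · have h1 := ih' _ (lt_of_le_of_ne (comm_le_left hen) hPA) (zpowers_le.1 (norm_comm
      (zpowers_le.2 hdP) (norm_of_cent (by rw [cent_zpowers, zpowers_le, mem_cent1, he]; group))))
    have h2 := coprime_commGid hen hcop'
    rw [comm_eq_bot_iff'.2 (zpowers_le.2 h1)] at h2
    exact zpowers_le.1 (comm_eq_bot_iff'.1 h2.symm)
  by_cases hab : IsMulCommutative P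
  · refine zpowers_le.1 (coprime_abelian_cent_Ohm1 hen hcop hP hab (zpowers_le.2 ?_))
    have h1 : d ∈ 𝐍(omegaOne 2 P) := zpowers_le.1 (norm_Ohm1 (zpowers_le.2 hdP) 2)
    rcases hcases _ (elab_Ohm1 hab) (hrank _ (Ohm1_le 2 P) (elab_Ohm1 hab)) with h | h
    · exact pow_mem (mem_centralizer_of_odd_of_isCyclic (elab_pgroup (elab_Ohm1 hab)) h h1 hdo) _
    · refine mem_of_odd_of_sq_mem (by rw [heo]; decide) ?_
      obtain ⟨k, hk⟩ := k4_relIndex_dvd_six h
      have h2 : d ^ 6 ∈ 𝐂(omegaOne 2 P) := by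
        rw [hk, pow_mul]
        exact pow_mem (pow_relIndex_mem_of_le_normalizer (norm_cent le_rfl) h1) k
      have := pow_mem h2 (3 ^ m)
      rwa [← pow_mul, show 6 * 3 ^ m = 3 ^ (m + 1) + 3 ^ (m + 1) by ring, pow_add] at this
  exfalso
  obtain ⟨hs, hC⟩ := PGroup.isSpecial_of_centralizes_char_abelian hP hen hcop hPA fun H hH hc =>
    zpowers_le.2 (ih' _ (lt_of_le_of_ne (map_subtype_le H) fun e' => hab (e' ▸ abelian_map _ hc))
      (PGroup.normalizer_le_normalizer_map_subtype H hdP))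
  have hsq : ∀ x : P, x * x ∈ center P := fun x => by
    rw [← sq, ← hs.2.1]; exact PGroup.pow_mem_frattini hP x
  have hc : ∀ x y : P, x * y * x⁻¹ * y⁻¹ ∈ center P := fun x y => by
    rw [← hs.2.2]; exact commutator_mem_commutator (mem_top x) (mem_top y)
  have hZ2 : ∀ x ∈ center P, x * x = 1 := by
    rw [← hs.2.2]
    intro x hx
    rw [commutator_eq_closure] at hx
    refine (closure_induction (p := fun x _ => x ∈ center P ∧ x * x = 1) ?_ ⟨one_mem _, mul_one 1⟩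
      ?_ ?_ hx).2
    · rintro _ ⟨u, v, rfl⟩
      refine ⟨hc u v, ?_⟩
      have h1 := mem_center_iff.1 (hc u v) u
      have h2 := mem_center_iff.1 (hsq u) v
      change (u * v * u⁻¹ * v⁻¹) * (u * v * u⁻¹ * v⁻¹) = 1
      calc _ = (u * v * u⁻¹ * v⁻¹) * u * v * u⁻¹ * v⁻¹ := by group
        _ = u * u * (v * (u * u)⁻¹) * v⁻¹ := by rw [← h1]; group
        _ = 1 := by
          rw [show v * (u * u)⁻¹ = (u * u)⁻¹ * v from by
            rw [mul_inv_eq_iff_eq_mul, mul_assoc, h2, inv_mul_cancel_left]]; group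
    · rintro a b - - ⟨h1, h2⟩ ⟨h3, h4⟩
      refine ⟨mul_mem h1 h3, ?_⟩
      calc a * b * (a * b) = a * (b * a) * b := by group
        _ = a * a * (b * b) := by rw [mem_center_iff.1 h1 b]; group
        _ = 1 := by rw [h2, h4, mul_one]
    · rintro a - ⟨h1, h2⟩
      exact ⟨inv_mem h1, by rw [← mul_inv_rev, h2, inv_one]⟩
  have hZe : IsElementaryAbelian 2 𝐙(P) := ⟨abelian_center P, fun a ha => by
    rw [← Core.map_subtype_center] at ha
    obtain ⟨y, hy, rfl⟩ := ha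
    rw [sq]; exact congrArg Subtype.val (hZ2 y hy)⟩
  have hP0 : P ≠ ⊥ := fun e' => hab (e' ▸ abelian_bot)
  have hZn : d ∈ 𝐍(𝐙(P)) := zpowers_le.1 (norm_center (zpowers_le.2 hdP))
  have hZ4 : Nat.card ↥𝐙(P) = 4 := by
    rcases hcases _ hZe (hrank _ inf_le_left hZe) with h | h
    · refine absurd (eq_bot_mono hfpf (le_inf inf_le_left ?_)) (center_ne_bot_of_nil (pgroup_nil hP) hP0)
      exact le_cent1_iff.2 (mem_centralizer_of_odd_of_isCyclic (elab_pgroup hZe) h hZn hdo)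
    · exact h.card_four
  have h4 : Nat.card (center P) = 4 := by
    rw [← hZ4, ← Core.map_subtype_center, Core.card_map_subtype]
  have hinv : ∀ x : P, x * x = 1 ↔ x ∈ center P := fun x => ⟨fun h => by
    have h1 : IsElementaryAbelian 2 (zpowers (x : X)) := ⟨inferInstance, by
      rintro _ ⟨k, rfl⟩
      have h2 : (x : X) ^ 2 = 1 := by rw [sq]; exact congrArg Subtype.val h
      change ((x : X) ^ k) ^ 2 = 1
      rw [← zpow_natCast, ← zpow_mul, mul_comm, zpow_mul, zpow_natCast, h2, one_zpow]⟩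
    have h2 := elab_sup hZe h1 (inf_le_right.trans (cent_anti (zpowers_le.2 x.2)))
    have h3 := eq_of_le_of_card_le (le_sup_left : 𝐙(P) ≤ 𝐙(P) ⊔ zpowers (x : X))
      (hZ4 ▸ hrank _ (sup_le inf_le_left (zpowers_le.2 x.2)) h2)
    have h5 : (x : X) ∈ 𝐙(P) := h3 ▸ mem_sup_right (mem_zpowers _)
    exact mem_center_iff.2 fun y => Subtype.ext (mem_cent.1 h5.2 y y.2), hZ2 x⟩
  have hle := CharDeg.Aniso.card_le hsq hc h4 hinv
  haveI : Finite (ConjAct X) := ‹Finite X›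
  have hdiv := Grp.card_dvd_ncard_of_free (Q := zpowers (ConjAct.toConjAct d))
    (S := (P : Set X) \ (𝐙(P) : Subgroup X)) ?_ ?_
  · rw [Nat.card_zpowers, MulEquiv.orderOf_eq, hd, Set.ncard_diff (SetLike.coe_subset_coe.2 inf_le_left),
      ← Nat.card_coe_set_eq, ← Nat.card_coe_set_eq] at hdiv
    change _ ∣ Nat.card P - Nat.card ↥𝐙(P) at hdiv
    have h9 : 9 ∣ Nat.card P - 4 := hZ4 ▸ (Dvd.intro (3 ^ m) (by ring)).trans hdiv
    have hlt : 4 < Nat.card P := hZ4 ▸ Core.card_lt_card_of_lt (lt_of_le_of_ne inf_le_left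
      fun e' => hab (e' ▸ abelian_center P))
    obtain ⟨k, hk⟩ := IsPGroup.iff_card.1 hP
    rw [hk] at hle h9 hlt
    have hk7 : k ≤ 7 := (Nat.pow_le_pow_iff_right (by norm_num : 1 < 2)).1 hle
    interval_cases k <;> omega
  · rintro _ ⟨k, rfl⟩ y hy
    have h1 : d ^ k ∈ 𝐍(P) := zpow_mem hdP k
    have h2 : d ^ k ∈ 𝐍(𝐙(P)) := zpow_mem hZn k
    exact ⟨conj_mem_of_norm h1 hy.1, fun h => hy.2 ((mem_normalizer_iff.1 h2 y).2 h)⟩
  · rintro _ ⟨k, rfl⟩ y hy h
    by_contra h1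
    have h2 : zpowers (d ^ k) ≠ ⊥ := fun e' => h1 (zpowers_eq_bot.1 e')
    have h3 : IsPGroup 3 (zpowers d) := IsPGroup.of_card (by rw [Nat.card_zpowers, hd])
    have h5 : zpowers (d ^ k) ≤ zpowers d := zpowers_le.2 (zpow_mem (mem_zpowers d) k)
    haveI := Fact.mk Nat.prime_three
    obtain ⟨R, h6, h7⟩ := exists_card_eq_prime Nat.prime_three (pgroup_dvd_card (h3.to_le h5) h2)
    have h8 : R = zpowers e := cyclic_eq_of_card inferInstance (h6.trans h5)
      (zpowers_le.2 (pow_mem (mem_zpowers d) _)) (h7.trans hA.symm)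
    refine hy.2 ?_
    rw [← hC]
    refine ⟨hy.1, ?_⟩
    rw [← h8]
    refine cent_anti h6 ?_
    rw [cent_zpowers, mem_cent1]
    exact (mul_inv_eq_iff_eq_mul.1 h).symm

/-- Let d be a non-identity 3-element of a finite group and P a 2-subgroup normalized by d on which ⟨d⟩ acts faithfully (no non-identity power of d centralizes P) and without non-identity fixed points (C_P(d) = 1). If every abelian subgroup of P has 2-rank at most 2, then d has order 3. -/
theorem result {X : Type*} [Group X] [Finite X] (d : X) (n : ℕ) (hn : 1 ≤ n) (hd : orderOf d = 3 ^ n) (P : Subgroup X) (hP : IsPGroup 2 P) (hdP : d ∈ Subgroup.normalizer (P : Set X)) (hfaith : Subgroup.zpowers d ⊓ Subgroup.centralizer (P : Set X) = ⊥) (hfpf : P ⊓ Subgroup.centralizer {d} = ⊥) (hrank : ∀ V : Subgroup X, V ≤ P → IsMulCommutative V → Cfsg.PRankLE 2 2 V) : orderOf d = 3 := by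
  obtain ⟨n, rfl⟩ := Nat.exists_eq_add_of_le' hn
  rcases n with _ | m
  · simpa using hd
  exfalso
  have h1 := main d m hd P hP hdP hfpf fun V hV he => by
    have := hrank V hV he.1 ⊤ ⟨⟨fun a b => Subtype.ext (he.1.is_comm.comm _ _)⟩⟩
      fun a _ => Subtype.ext (he.2 a a.2)
    rwa [card_top] at this
  have h2 : d ^ 3 ^ (m + 1) = 1 := mem_bot.1 (hfaith ▸ ⟨pow_mem (mem_zpowers d) _, h1⟩)
  have h3 := orderOf_dvd_of_pow_eq_one h2
  rw [hd, Nat.pow_dvd_pow_iff_le_right (by norm_num)] at h3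
  omega

end Cfsg.Agent.S3738
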