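import Cfsg.Statements.S3739
import Cfsg.Agent.Lib.PGroup.Critical
import Cfsg.Agent.Lib.Core.Fitting

set_option autoImplicit false
open Cfsg

namespace Cfsg.Agent.S3739

open Subgroup Cfsg.Lib
open scoped commutatorElement

variable {G : Type*} [Group G] [Finite G]

theorem fib (P : Subgroup G) {β : Type*} [Finite β] (f : P → β) (D : Set G)
    (h : ∀ u u' : P, f u = f u' → (u : G)⁻¹ * u' ∈ D) :
    Nat.card P ≤ Nat.card β * Nat.card D := by
  rw [← Nat.card_prod]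
  refine Nat.card_le_card_of_injective (fun u => (f u, ⟨((Function.invFun f (f u) : P) : G)⁻¹ * u,
    h _ _ (Function.invFun_eq ⟨u, rfl⟩)⟩)) fun u u' huu => ?_
  have h1 := congrArg Prod.fst huu
  have h2 := congrArg (fun x => (x.2 : G)) huu
  simp only at h1 h2
  rw [h1] at h2
  exact Subtype.ext (mul_left_cancel h2)

theorem upper (P W : Subgroup G) (hWP : W ≤ P) (h4 : Nat.card W = 4)
    (K4 : ∀ a ∈ W, ∀ b ∈ W, ∀ c ∈ W, a ≠ 1 → b ≠ 1 → a ≠ b → c ≠ 1 → c ≠ a → c ≠ b → c = a * b)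
    (e2 : ∀ w ∈ W, w * w = 1) (cen : ∀ u ∈ P, ∀ w ∈ W, u * w = w * u)
    (sq : ∀ u ∈ P, u * u ∈ W) (cm : ∀ u ∈ P, ∀ v ∈ P, ⁅u, v⁆ ∈ W)
    (inv : ∀ u ∈ P, u * u = 1 → u ∈ W) (v : G) (hv : v ∈ P) (hvW : v ∉ W) :
    Nat.card P ≤ 128 := by
  classical
  have hv2 : v * v ≠ 1 := fun h => hvW (inv v hv h)
  have pr : ∀ b ∈ W, ∀ c ∈ W, ¬ (b = 1 ∨ b = v * v) → ¬ (c = 1 ∨ c = v * v) →
      (b * c = 1 ∨ b * c = v * v) := by
    intro b hb c hc h1 h2
    rw [not_or] at h1 h2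
    by_cases hbc : b = c
    · left; rw [hbc, e2 c hc]
    · right
      exact (K4 b hb c hc _ (sq v hv) h1.1 h2.1 hbc hv2 (Ne.symm h1.2) (Ne.symm h2.2)).symm
  have A : ∀ u ∈ P, u * v = v * u → (u * u = 1 ∨ u * u = v * v) → u ∈ W ∨ v⁻¹ * u ∈ W := by
    rintro u hu huv (h | h)
    · exact Or.inl (inv u hu h)
    · refine Or.inr (inv _ (P.mul_mem (P.inv_mem hv) hu) ?_)
      calc v⁻¹ * u * (v⁻¹ * u) = v⁻¹ * v⁻¹ * (v * u) * v⁻¹ * u := by group
        _ = v⁻¹ * v⁻¹ * (u * u) := by rw [← huv]; group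
        _ = 1 := by rw [h]; group
  have cmul : ∀ a ∈ P, ∀ b ∈ P, ∀ y ∈ P, ⁅a * b, y⁆ = ⁅a, y⁆ * ⁅b, y⁆ := by
    intro a ha b hb y hy
    calc ⁅a * b, y⁆ = a * ⁅b, y⁆ * a⁻¹ * ⁅a, y⁆ := by simp only [commutatorElement_def]; group
      _ = ⁅b, y⁆ * ⁅a, y⁆ := by rw [cen a ha _ (cm b hb y hy)]; group
      _ = _ := cen _ (hWP (cm b hb y hy)) _ (cm a ha y hy)
  obtain ⟨t, ht, htv, hB⟩ : ∃ t ∈ P, t * v = v * t ∧ ∀ u ∈ P, u * v = v * u →
      (⁅u, t⁆ = 1 ∨ ⁅u, t⁆ = v * v) → (u ∈ W ∨ v⁻¹ * u ∈ W) ∨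
        (t⁻¹ * u ∈ W ∨ v⁻¹ * (t⁻¹ * u) ∈ W) := by
    by_cases h : ∃ t ∈ P, t * v = v * t ∧ ¬ (t * t = 1 ∨ t * t = v * v)
    · obtain ⟨t, ht, htv, h2⟩ := h
      refine ⟨t, ht, htv, fun u hu huv h3 => ?_⟩
      by_cases h5 : u * u = 1 ∨ u * u = v * v
      · exact Or.inl (A u hu huv h5)
      refine Or.inr (A _ (P.mul_mem (P.inv_mem ht) hu) ?_ ?_)
      · rw [mul_assoc, huv, ← mul_assoc, ← mul_assoc]
        congr 1
        rw [inv_mul_eq_iff_eq_mul, ← mul_assoc, htv, mul_inv_cancel_right]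
      · have h6 : t⁻¹ * u * (t⁻¹ * u) = ⁅u, t⁆ * (u * u * (t * t)) := by
          have h7 : t⁻¹ * t⁻¹ = t * t := by
            rw [← mul_inv_rev]; exact inv_eq_of_mul_eq_one_right (e2 _ (sq t ht))
          have h8 : ⁅u, t⁆⁻¹ = ⁅u, t⁆ := inv_eq_of_mul_eq_one_right (e2 _ (cm u hu t ht))
          calc t⁻¹ * u * (t⁻¹ * u) = t⁻¹ * t⁻¹ * ⁅u, t⁆⁻¹ * (u * u) := by
                simp only [commutatorElement_def]; group
            _ = t * t * ⁅u, t⁆ * (u * u) := by rw [h7, h8]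
            _ = _ := by
              rw [cen _ (P.mul_mem ht ht) _ (cm u hu t ht), mul_assoc,
                cen _ (P.mul_mem ht ht) _ (sq u hu)]
        rw [h6]
        rcases pr _ (sq u hu) _ (sq t ht) h5 h2 with h9 | h9 <;> rcases h3 with h3 | h3 <;>
          rw [h9, h3] <;> simp [e2 _ (sq v hv)]
    · refine ⟨1, P.one_mem, by simp, fun u hu huv _ => Or.inl (A u hu huv ?_)⟩
      by_contra h5
      exact h ⟨u, hu, huv, h5⟩
  have := fib P (fun u => ((⟨⁅(u : G), v⁆, cm _ u.2 v hv⟩ : W),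
      decide (⁅(u : G), t⁆ = 1 ∨ ⁅(u : G), t⁆ = v * v)))
    (Set.range fun p : Bool × Bool × W =>
      (if p.1 then t else 1) * ((if p.2.1 then v else 1) * p.2.2)) (by
      rintro ⟨a, ha⟩ ⟨b, hb⟩ hab
      simp only [Prod.mk.injEq, Subtype.mk.injEq, decide_eq_decide] at hab
      have hu := P.mul_mem (P.inv_mem ha) hb
      have key : ∀ y ∈ P, ⁅a⁻¹ * b, y⁆ = ⁅a, y⁆ * ⁅b, y⁆ := fun y hy => by
        have := cmul a ha _ hu y hy
        rw [mul_inv_cancel_left] at this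
        rw [this, ← mul_assoc, e2 _ (cm a ha y hy), one_mul]
      have h1 : a⁻¹ * b * v = v * (a⁻¹ * b) := by
        rw [← commutatorElement_eq_one_iff_mul_comm, key v hv, hab.1, e2 _ (cm b hb v hv)]
      have h2 : ⁅a⁻¹ * b, t⁆ = 1 ∨ ⁅a⁻¹ * b, t⁆ = v * v := by
        rw [key t ht]
        by_cases h3 : ⁅a, t⁆ = 1 ∨ ⁅a, t⁆ = v * v
        · rcases hab.2.1 h3 with h9 | h9 <;> rcases h3 with h3 | h3 <;>
            rw [h9, h3] <;> simp [e2 _ (sq v hv)]
        · exact pr _ (cm a ha t ht) _ (cm b hb t ht) h3 (fun h => h3 (hab.2.2 h))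
      rcases hB _ hu h1 h2 with (h | h) | (h | h)
      · exact ⟨(false, false, ⟨_, h⟩), by simp⟩
      · exact ⟨(false, true, ⟨_, h⟩), by simp⟩
      · exact ⟨(true, false, ⟨_, h⟩), by simp⟩
      · exact ⟨(true, true, ⟨_, h⟩), by simp⟩)
  have h2 := Finite.card_range_le fun p : Bool × Bool × W =>
      (if p.1 then t else 1) * ((if p.2.1 then v else 1) * p.2.2)
  simp only [Nat.card_prod, h4, Nat.card_eq_fintype_card, Fintype.card_bool] at this h2
  omega

theorem lower (P W : Subgroup G) (hWP : W ≤ P) (h4 : Nat.card W = 4)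
    (e2 : ∀ w ∈ W, w * w = 1) (sq : ∀ u ∈ P, u * u ∈ W) (inv : ∀ u ∈ P, u * u = 1 → u ∈ W)
    (x d : G) (hx : ∀ u ∈ P, x * u * x⁻¹ ∈ P) (hd : d ∈ normalizer (P : Set G)) (x3 : x ^ 3 = 1)
    (xW : ∀ w ∈ W, x * w * x⁻¹ = w) (fx : ∀ u ∈ P, x * u * x⁻¹ = u → u ∈ W) (a b c : G)
    (hab : d * a * d⁻¹ = b) (hbc : d * b * d⁻¹ = c) (ha : a ∈ W) (a1 : a ≠ 1) (b1 : b ≠ 1)
    (c1 : c ≠ 1) (ab : a ≠ b) (ac : a ≠ c) (bc : b ≠ c)
    (all : ∀ w ∈ W, w = 1 ∨ w = a ∨ w = b ∨ w = c) : Nat.card P % 9 = 4 := by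
  classical
  have := Fintype.ofFinite G
  let S : G → Finset G := fun w => Finset.univ.filter fun u => u ∈ P ∧ u * u = w
  have hS : ∀ w, (S (d * w * d⁻¹)).card = (S w).card := fun w => by
    refine (Finset.card_bij (fun u _ => d * u * d⁻¹) (fun u hu => ?_) (fun u _ u' _ h => ?_)
      (fun u hu => ⟨d⁻¹ * u * d, ?_, by group⟩)).symm
    · simp only [S, Finset.mem_filter, Finset.mem_univ, true_and] at hu ⊢
      exact ⟨(mem_normalizer_iff.1 hd u).1 hu.1, by rw [← hu.2]; group⟩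
    · simpa using h
    · simp only [S, Finset.mem_filter, Finset.mem_univ, true_and] at hu ⊢
      refine ⟨by simpa using (mem_normalizer_iff.1 (inv_mem hd) u).1 hu.1, ?_⟩
      calc _ = d⁻¹ * (u * u) * d := by group
        _ = w := by rw [hu.2]; group
  have h3 : (S a).card % 3 = 0 := by
    have : Fact (Nat.Prime 3) := ⟨Nat.prime_three⟩
    let f : Function.End (S a) := fun u => ⟨x * u * x⁻¹, by
      have hu := u.2
      simp only [S, Finset.mem_filter, Finset.mem_univ, true_and] at hu ⊢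
      exact ⟨hx _ hu.1, by
        calc _ = x * ((u : G) * u) * x⁻¹ := by group
          _ = a := by rw [hu.2, xW a ha]⟩⟩
    have hf : f ^ 3 ^ 1 = 1 := by
      funext u
      apply Subtype.ext
      change x * (x * (x * u * x⁻¹) * x⁻¹) * x⁻¹ = u
      calc _ = x ^ 3 * u * (x ^ 3)⁻¹ := by simp only [pow_succ, pow_zero]; group
        _ = _ := by rw [x3]; group
    have h1 := Equiv.Perm.card_fixedPoints_modEq hf
    have h2 : IsEmpty f.fixedPoints := ⟨fun u => by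
      have hu := u.1.2
      simp only [S, Finset.mem_filter, Finset.mem_univ, true_and] at hu
      exact a1 (hu.2.symm.trans (e2 _ (fx _ hu.1 (congrArg Subtype.val u.2))))⟩
    rw [Fintype.card_eq_zero (α := f.fixedPoints), Fintype.card_coe] at h1
    exact h1
  have h1 : (S 1).card = 4 := by
    rw [← h4, Nat.card_eq_fintype_card, Fintype.card_subtype]
    congr 1
    ext u
    simp only [S, Finset.mem_filter, Finset.mem_univ, true_and]
    exact ⟨fun h => inv u h.1 h.2, fun h => ⟨hWP h, e2 u h⟩⟩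
  have h5 : Nat.card P = ∑ w ∈ ({1, a, b, c} : Finset G), (S w).card := by
    rw [Nat.card_eq_fintype_card, Fintype.card_subtype,
      Finset.card_eq_sum_card_fiberwise (f := fun u => u * u) (t := {1, a, b, c})]
    · refine Finset.sum_congr rfl fun w _ => ?_
      rw [Finset.filter_filter]
    · intro u hu
      simpa using all _ (sq u (by simpa using hu))
  rw [Finset.sum_insert (by simp [a1.symm, b1.symm, c1.symm]), Finset.sum_insert (by simp [ab, ac]),
    Finset.sum_insert (by simp [bc]), Finset.sum_singleton, ← hbc, hS, ← hab, hS, h1] at h5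
  omega

/-- Let G be a finite group with C_G(O₂(G)) ≤ O₂(G) containing an element of order 6, and let d be a non-identity 3-element of G normalizing a nontrivial elementary abelian 2-subgroup W with C_W(d) = 1. Then G has an elementary abelian subgroup of order 8. -/
theorem result {G : Type*} [Group G] [Finite G] (hchar : Subgroup.centralizer (Cfsg.pCore 2 G : Set G) ≤ Cfsg.pCore 2 G) (hsix : ∃ g : G, orderOf g = 6) (d : G) (hd1 : d ≠ 1) (hd : IsPGroup 3 ↥(Subgroup.zpowers d)) (W : Subgroup G) (hW : Cfsg.IsElementaryAbelian 2 W) (hW1 : W ≠ ⊥) (hdW : d ∈ Subgroup.normalizer (W : Set G)) (hfpf : W ⊓ Subgroup.centralizer {d} = ⊥) : ∃ E : Subgroup G, Cfsg.IsElementaryAbelian 2 E ∧ Nat.card E = 8 := by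
  by_contra hE
  have : Fact (Nat.Prime 2) := ⟨Nat.prime_two⟩
  have : Fact (Nat.Prime 3) := ⟨Nat.prime_three⟩
  have hle : ∀ A : Subgroup G, IsElementaryAbelian 2 A → Nat.card A ≤ 4 := fun A hA => by
    by_contra h
    obtain ⟨k, hk⟩ := PGroup.elemAb_card hA
    have h3 : 3 ≤ k := by
      by_contra h3
      have : 2 ^ k ≤ 2 ^ 2 := Nat.pow_le_pow_right (by norm_num) (by omega)
      omega
    obtain ⟨B, hB⟩ := Sylow.exists_subgroup_card_pow_prime 2 (G := A) (n := 3)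
      (hk ▸ pow_dvd_pow 2 h3)
    exact hE ⟨B.map A.subtype, PGroup.elemAb_of_le hA (map_subtype_le _), by
      rw [card_map_of_injective A.subtype_injective, hB]; rfl⟩
  have e2 : ∀ w ∈ W, w * w = 1 := fun w hw => by rw [← pow_two]; exact hW.2 w hw
  have nf : ∀ w ∈ W, w ≠ 1 → d * w * d⁻¹ ≠ w := fun w hw h1 h => h1 (by
    rw [← mem_bot, ← hfpf]
    exact ⟨hw, mem_centralizer_singleton_iff.2 (mul_inv_eq_iff_eq_mul.1 h).symm⟩)
  have cne : ∀ g w : G, w ≠ 1 → g * w * g⁻¹ ≠ 1 := fun g w h1 h => h1 (by simpa using h)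
  have h4 : Nat.card W = 4 := by
    obtain ⟨⟨w, hw⟩, hw1⟩ := ne_bot_iff_exists_ne_one.1 hW1
    have hw1 : w ≠ 1 := fun h => hw1 (Subtype.ext h)
    obtain ⟨k, hk⟩ := PGroup.elemAb_card hW
    have h1 := hle W hW
    have h2 : 2 < Nat.card W := by
      have := Fintype.ofFinite W
      rw [Nat.card_eq_fintype_card, Fintype.two_lt_card_iff]
      exact ⟨1, ⟨w, hw⟩, ⟨_, (mem_normalizer_iff.1 hdW w).1 hw⟩,
        fun h => hw1 (congrArg Subtype.val h).symm,
        fun h => cne d w hw1 (congrArg Subtype.val h).symm,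
        fun h => nf w hw hw1 (congrArg Subtype.val h).symm⟩
    rw [hk] at h1 h2 ⊢
    have : k < 3 := by
      by_contra h
      have : 2 ^ 3 ≤ 2 ^ k := Nat.pow_le_pow_right (by norm_num) (by omega)
      omega
    interval_cases k <;> omega
  have hK := PGroup.isKleinFour_iff.2 ⟨hW, h4⟩
  have K4 : ∀ a ∈ W, ∀ b ∈ W, ∀ c ∈ W, a ≠ 1 → b ≠ 1 → a ≠ b → c ≠ 1 → c ≠ a → c ≠ b →
      c = a * b := fun a ha b hb c hc h1 h2 h3 h5 h6 h7 =>
    congrArg Subtype.val (IsKleinFour.eq_mul_of_ne_all (x := (⟨a, ha⟩ : W)) (y := ⟨b, hb⟩)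
      (z := ⟨c, hc⟩) (by simpa using h1) (by simpa using h2) (by simpa using h3)
      (by simpa using h5) (by simpa using h6) (by simpa using h7))
  have mx : ∀ c : G, c * c = 1 → c ∈ centralizer (W : Set G) → c ∈ W := fun c h1 h2 => by
    have h3 := hle _ (PGroup.elemAb_sup_zpowers hW h2 (by rw [pow_two, h1]))
    rw [eq_of_le_of_card_ge (le_sup_left : W ≤ W ⊔ zpowers c) (by omega)]
    exact mem_sup_right (mem_zpowers c)
  have fix2 : ∀ g : G, ∀ a ∈ W, ∀ b ∈ W, a ≠ 1 → b ≠ 1 → a ≠ b → g * a * g⁻¹ = a →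
      g * b * g⁻¹ = b → ∀ c ∈ W, g * c * g⁻¹ = c := by
    intro g a ha b hb a1 b1 ab h1 h2 c hc
    by_cases c1 : c = 1
    · simp [c1]
    by_cases ca : c = a
    · rw [ca, h1]
    by_cases cb : c = b
    · rw [cb, h2]
    rw [K4 a ha b hb c hc a1 b1 ab c1 ca cb]
    calc _ = g * a * g⁻¹ * (g * b * g⁻¹) := by group
      _ = _ := by rw [h1, h2]
  have sqf : ∀ g : G, Odd (orderOf g) → ∀ c : G, g * (g * c * g⁻¹) * g⁻¹ = c →
      g * c * g⁻¹ = c := by
    rintro g ⟨k, hk⟩ c h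
    have h1 : Commute (g ^ 2) c := by
      calc g ^ 2 * c = g * (g * c * g⁻¹) * g⁻¹ * g ^ 2 := by simp only [pow_two]; group
        _ = _ := by rw [h]
    have h2 : g = (g ^ 2) ^ (k + 1) := by
      rw [← pow_mul, show 2 * (k + 1) = (2 * k + 1) + 1 by ring, pow_succ, ← hk,
        pow_orderOf_eq_one, one_mul]
    rw [mul_inv_eq_iff_eq_mul, h2]
    exact (h1.pow_left _).eq
  have fix1 : ∀ g : G, Odd (orderOf g) → (∀ w ∈ W, g * w * g⁻¹ ∈ W) → ∀ a ∈ W, a ≠ 1 →
      g * a * g⁻¹ = a → ∀ c ∈ W, g * c * g⁻¹ = c := by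
    intro g ho hg a ha a1 h1 c hc
    by_cases c1 : c = 1
    · simp [c1]
    by_cases ca : c = a
    · rw [ca, h1]
    by_contra h
    have h2 := K4 a ha c hc _ (hg c hc) a1 c1 (Ne.symm ca) (cne g c c1)
      (fun h3 => ca (by rw [← h1] at h3; simpa using h3)) h
    refine h (sqf g ho c ?_)
    rw [h2]
    calc _ = g * a * g⁻¹ * (g * c * g⁻¹) := by group
      _ = _ := by rw [h1, h2, ← mul_assoc, e2 a ha, one_mul]
  have od : Odd (orderOf d) := by
    obtain ⟨k, hk⟩ := IsPGroup.iff_card.1 hd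
    rw [← Nat.card_zpowers, hk]
    exact Odd.pow (by decide)
  set Q := pCore 2 G with hQ
  have hQp : IsPGroup 2 Q := Core.pCore_isPGroup 2 G
  obtain ⟨a, ha, a1, haQ⟩ : ∃ a ∈ W, a ≠ 1 ∧ a ∈ centralizer (Q : Set G) := by
    have hP : IsPGroup 2 ↥(Q ⊔ W) := hQp.to_sup_of_normal_left (PGroup.elemAb_isPGroup hW)
    have hn : Nontrivial ↥(Q ⊔ W) := (nontrivial_iff_ne_bot _).2 fun h =>
      hW1 (le_bot_iff.1 (h ▸ le_sup_right))
    have h1 := PGroup.omegaOne_ne_bot (hP.to_subgroup (center _))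
      ((nontrivial_iff_ne_bot _).1 hP.center_nontrivial)
    obtain ⟨⟨z, hz⟩, hz1⟩ := ne_bot_iff_exists_ne_one.1 h1
    rw [PGroup.mem_omegaOne_iff_of_isMulCommutative inferInstance] at hz
    have hc : ∀ y ∈ Q ⊔ W, y * z = z * y := fun y hy =>
      congrArg Subtype.val (mem_center_iff.1 hz.1 ⟨y, hy⟩)
    refine ⟨z, mx _ ?_ fun y hy => hc y (mem_sup_right hy), fun h => hz1 ?_,
      fun y hy => hc y (mem_sup_left hy)⟩
    · rw [← pow_two]; exact congrArg Subtype.val hz.2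
    · exact Subtype.ext (Subtype.ext h)
  have dW : ∀ w ∈ W, d * w * d⁻¹ ∈ W := fun w hw => (mem_normalizer_iff.1 hdW w).1 hw
  have all : ∀ w ∈ W, w = 1 ∨ w = a ∨ w = d * a * d⁻¹ ∨ w = a * (d * a * d⁻¹) := fun w hw => by
    by_contra h
    simp only [not_or] at h
    exact h.2.2.2 (K4 a ha _ (dW a ha) w hw a1 (cne d a a1) (nf a ha a1).symm h.1 h.2.1 h.2.2.1)
  have WC : W ≤ centralizer (Q : Set G) := fun w hw => by
    have := (inferInstance : (centralizer (Q : Set G)).Normal).conj_mem a haQ d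
    rcases all w hw with h | h | h | h <;> rw [h]
    exacts [one_mem _, haQ, this, mul_mem haQ this]
  have WQ : W ≤ Q := WC.trans hchar
  have inv : ∀ u ∈ Q, u * u = 1 → u ∈ W := fun u hu h => mx u h fun w hw => (WC hw u hu).symm
  have nW : ∀ g : G, ∀ w ∈ W, g * w * g⁻¹ ∈ W := fun g w hw =>
    inv _ ((inferInstance : Q.Normal).conj_mem w (WQ hw) g) (by
      calc _ = g * (w * w) * g⁻¹ := by group
        _ = 1 := by rw [e2 w hw]; group)
  have Wn : W.Normal := ⟨fun w hw g => nW g w hw⟩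
  obtain ⟨y, y3, hyW⟩ : ∃ y : G, orderOf y = 3 ∧ ∀ w ∈ W, y * w * y⁻¹ = w := by
    obtain ⟨g, hg⟩ := hsix
    have h3 : orderOf (g ^ 2) = 3 := by rw [orderOf_pow' _ (by norm_num), hg]; rfl
    have h2 : orderOf (g ^ 3) = 2 := by rw [orderOf_pow' _ (by norm_num), hg]; rfl
    refine ⟨g ^ 2, h3, ?_⟩
    set y := g ^ 2
    set t := g ^ 3
    have hc : y * t = t * y := (Commute.refl g).pow_pow 2 3
    have tt : t * t = 1 := by rw [← pow_two, ← h2, pow_orderOf_eq_one]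
    have t1 : t ≠ 1 := fun h => by rw [h, orderOf_one] at h2; omega
    have oy : Odd (orderOf y) := by rw [h3]; decide
    obtain ⟨v, hv, v1, hvt⟩ : ∃ v ∈ W, v ≠ 1 ∧ t * v * t⁻¹ = v := by
      by_cases h : t * a * t⁻¹ = a
      · exact ⟨a, ha, a1, h⟩
      refine ⟨a * (t * a * t⁻¹), mul_mem ha (nW t a ha), fun h1 => h ?_, ?_⟩
      · rw [← e2 a ha] at h1; exact mul_left_cancel h1
      · calc _ = t * a * t⁻¹ * ((t * t) * a * (t * t)⁻¹) := by group
          _ = _ := by rw [tt, one_mul, inv_one, mul_one, PGroup.elemAb_comm hW (nW t a ha) ha]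
    by_cases h : y * v * y⁻¹ = v
    · exact fix1 y oy (nW y) v hv v1 h
    have h5 := fix2 t v hv _ (nW y v hv) v1 (cne y v v1) (Ne.symm h) hvt (by
      calc _ = (t * y) * v * (t * y)⁻¹ := by group
        _ = y * (t * v * t⁻¹) * y⁻¹ := by rw [← hc]; group
        _ = _ := by rw [hvt])
    exact fix1 y oy (nW y) t (mx t tt fun w hw => (mul_inv_eq_iff_eq_mul.1 (h5 w hw)).symm) t1
      (by rw [hc]; group)
  obtain ⟨x, x3, x1, xd, xW⟩ : ∃ x : G, x ^ 3 = 1 ∧ x ≠ 1 ∧ x * d = d * x ∧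
      x ∈ centralizer (W : Set G) := by
    obtain ⟨R, hR⟩ := hd.exists_le_sylow
    have hy : IsPGroup 3 (zpowers y) := IsPGroup.of_card (n := 1) (by rw [Nat.card_zpowers, y3]; rfl)
    obtain ⟨R', hR'⟩ := hy.exists_le_sylow
    obtain ⟨g, rfl⟩ := MulAction.exists_smul_eq G R' R
    have hN : (centralizer (W : Set G)).subgroupOf (g • R' : Sylow 3 G) ≠ ⊥ := by
      intro h
      have h1 : g * y * g⁻¹ ∈ ((g • R' : Sylow 3 G) : Subgroup G) :=
        smul_mem_pointwise_smul _ (MulAut.conj g) _ (hR' (mem_zpowers y))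
      have h2 : (⟨_, h1⟩ : ((g • R' : Sylow 3 G) : Subgroup G)) ∈
          (centralizer (W : Set G)).subgroupOf (g • R' : Sylow 3 G) :=
        (inferInstance : (centralizer (W : Set G)).Normal).conj_mem y
          (fun w hw => (mul_inv_eq_iff_eq_mul.1 (hyW w hw)).symm) g
      rw [h, mem_bot, Subtype.ext_iff] at h2
      exact cne g y (fun h => by rw [h, orderOf_one] at y3; omega) h2
    have := (g • R' : Sylow 3 G).isPGroup'.isNilpotent
    have h1 := PGroup.omegaOne_ne_bot ((g • R' : Sylow 3 G).isPGroup'.to_subgroup _)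
      (PGroup.normal_inf_center_ne_bot _ hN)
    obtain ⟨⟨z, hz⟩, hz1⟩ := ne_bot_iff_exists_ne_one.1 h1
    rw [PGroup.mem_omegaOne_iff_of_isMulCommutative
      (PGroup.isMulCommutative_of_le_center inf_le_right)] at hz
    exact ⟨z, congrArg Subtype.val hz.2, fun h => hz1 (Subtype.ext (Subtype.ext h)),
      (congrArg Subtype.val (mem_center_iff.1 hz.1.2 ⟨d, hR (mem_zpowers d)⟩)).symm, hz.1.1⟩
  have xo : orderOf x = 3 := orderOf_eq_prime x3 x1
  have xW' : ∀ w ∈ W, x * w * x⁻¹ = w := fun w hw => by rw [← xW w hw]; group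
  have hcop : (Nat.card (zpowers x)).Coprime 2 := by rw [Nat.card_zpowers, xo]; decide
  set P := ⁅Q, zpowers x⁆ with hP
  have PQ : P ≤ Q := commutator_le_left _ _
  have hPp : IsPGroup 2 P := hQp.to_le PQ
  have xP : zpowers x ≤ normalizer (P : Set G) :=
    Coprime.le_normalizer_commutator le_normalizer_of_normal le_normalizer
  have dP : d ∈ normalizer (P : Set G) := zpowers_le.1 (Coprime.le_normalizer_commutator
    le_normalizer_of_normal (zpowers_le.2 (centralizer_le_normalizer _ (by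
      rintro _ ⟨k, rfl⟩
      exact (Commute.zpow_left xd k).eq))))
  have hPx : ⁅P, zpowers x⁆ = P := Coprime.commutator_commutator_eq le_normalizer_of_normal
    (Coprime.coprime_card_of_isPGroup hQp hcop) (Or.inr (have := hQp.isNilpotent; inferInstance))
  have P1 : P ≠ ⊥ := fun h => by
    rw [hP, commutator_comm, commutator_eq_bot_iff_le_centralizer] at h
    obtain ⟨k, hk⟩ := hQp ⟨x, hchar (h (mem_zpowers x))⟩
    have := orderOf_dvd_of_pow_eq_one (congrArg Subtype.val hk : x ^ 2 ^ k = 1)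
    rw [xo] at this
    exact absurd (Nat.prime_three.dvd_of_dvd_pow this) (by decide)
  obtain ⟨⟨-, hs1, hs2⟩, hs3⟩ := PGroup.isSpecial_of_centralizes_char_abelian hPp xP hcop hPx
    fun H hH hc => by
      have hn := xP.trans (Coprime.normalizer_le_normalizer_map_subtype H)
      have hHP : H.map P.subtype ≤ P := map_subtype_le _
      have hc' : IsMulCommutative (H.map P.subtype) := inferInstance
      refine PGroup.le_centralizer_of_fixes_order_four (hPp.to_le hHP) hn hcop fun u hu u4 => ?_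
      have hxu := (mem_normalizer_iff.1 (hn (mem_zpowers x)) u).1 hu
      have h1 : u * u ∈ W := inv _ (PQ (hHP (mul_mem hu hu))) (by rw [← u4]; simp only [pow_succ, pow_zero]; group)
      have h2 : x * u * x⁻¹ * u⁻¹ ∈ W := inv _ (PQ (hHP (mul_mem hxu (inv_mem hu)))) (by
        calc _ = x * u * x⁻¹ * (u⁻¹ * (x * u * x⁻¹)) * u⁻¹ := by group
          _ = x * (u * u) * x⁻¹ * (u * u)⁻¹ := by
            rw [PGroup.isMulCommutative_iff.1 hc' _ (inv_mem hu) _ hxu]; group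
          _ = 1 := by rw [xW' _ h1]; group)
      have h3 := sqf x (by rw [xo]; decide) u (by
        calc _ = x * (x * u * x⁻¹ * u⁻¹) * x⁻¹ * (x * u * x⁻¹ * u⁻¹) * u := by group
          _ = _ := by rw [xW' _ h2, e2 _ h2, one_mul])
      rintro _ ⟨k, rfl⟩
      exact (Commute.zpow_left (mul_inv_eq_iff_eq_mul.1 h3) k).eq
  have sqZ : ∀ u : P, u * u ∈ center P := fun u => by
    rw [← hs1, ← pow_two]; exact PGroup.pow_mem_frattini hPp u
  have cm : ∀ u ∈ P, ∀ v ∈ P, ⁅u, v⁆ ∈ W := fun u hu v hv => by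
    have h1 : ⁅(⟨u, hu⟩ : P), (⟨v, hv⟩ : P)⁆ ∈ center P :=
      hs2 ▸ commutator_mem_commutator (mem_top _) (mem_top _)
    have h2 : u * ⁅u, v⁆ = ⁅u, v⁆ * u := congrArg Subtype.val (mem_center_iff.1 h1 ⟨u, hu⟩)
    have h3 : v * (u * u) = u * u * v :=
      congrArg Subtype.val (mem_center_iff.1 (sqZ ⟨u, hu⟩) ⟨v, hv⟩)
    refine inv _ (PQ (⁅(⟨u, hu⟩ : P), (⟨v, hv⟩ : P)⁆).2) ?_
    calc ⁅u, v⁆ * ⁅u, v⁆ = ⁅u, v⁆ * u * u⁻¹ * ⁅u, v⁆ := by group
      _ = u * u * v * (v * (u * u))⁻¹ := by rw [← h2]; simp only [commutatorElement_def]; group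
      _ = 1 := by rw [h3]; group
  have ZW : ∀ z ∈ center P, (z : G) ∈ W := fun z hz => by
    rw [← hs2] at hz
    have : commutator P ≤ W.subgroupOf P := commutator_le.2 fun u _ v _ => cm _ u.2 _ v.2
    exact this hz
  have sq : ∀ u ∈ P, u * u ∈ W := fun u hu => ZW _ (sqZ ⟨u, hu⟩)
  have fx : ∀ u ∈ P, x * u * x⁻¹ = u → u ∈ W := fun u hu h => by
    have h1 : u ∈ P ⊓ centralizer (zpowers x : Set G) := ⟨hu, by
      rintro _ ⟨k, rfl⟩
      exact (Commute.zpow_left (mul_inv_eq_iff_eq_mul.1 h) k).eq⟩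
    rw [hs3] at h1
    exact ZW ⟨u, hu⟩ (mem_center_iff.2 fun v => Subtype.ext (h1.2 v v.2))
  obtain ⟨v, hv, hvW⟩ : ∃ v ∈ P, v ∉ W := by
    by_contra h
    push Not at h
    apply P1
    rw [← hPx, commutator_eq_bot_iff_le_centralizer]
    rintro u hu _ ⟨k, rfl⟩
    exact (Commute.zpow_left (xW u (h u hu)).symm k).eq
  have v1 : v * v ≠ 1 := fun h => hvW (inv v (PQ hv) h)
  have dv := dW _ (sq v hv)
  have n1 := nf _ (sq v hv) v1
  have n2 : v * v ≠ d * (d * (v * v) * d⁻¹) * d⁻¹ := fun h => n1 (sqf d od _ h.symm)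
  have n3 := nf _ dv (cne d _ v1)
  have all' : ∀ w ∈ W, w = 1 ∨ w = v * v ∨ w = d * (v * v) * d⁻¹ ∨
      w = d * (d * (v * v) * d⁻¹) * d⁻¹ := fun w hw => by
    by_contra h
    simp only [not_or] at h
    apply h.2.2.2
    rw [K4 _ (sq v hv) _ dv w hw v1 (cne d _ v1) n1.symm h.1 h.2.1 h.2.2.1,
      ← K4 _ (sq v hv) _ dv _ (dW _ dv) v1 (cne d _ v1) n1.symm (cne d _ (cne d _ v1)) n2.symm n3]
  have WP : W ≤ P := fun w hw => by
    have dd := fun u => (mem_normalizer_iff.1 dP u).1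
    rcases all' w hw with h | h | h | h <;> rw [h]
    exacts [one_mem _, mul_mem hv hv, dd _ (mul_mem hv hv), dd _ (dd _ (mul_mem hv hv))]
  have U := upper P W WP h4 K4 e2 (fun u hu w hw => WC hw u (PQ hu)) sq cm
    (fun u hu => inv u (PQ hu)) v hv hvW
  have L := lower P W WP h4 e2 sq (fun u hu => inv u (PQ hu)) x d
    (fun u => (mem_normalizer_iff.1 (xP (mem_zpowers x)) u).1) dP x3 xW' fx _ _ _ rfl rfl
    (sq v hv) v1 (cne d _ v1) (cne d _ (cne d _ v1)) n1.symm n2 n3.symm all'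
  have h5 : Nat.card P ≠ 4 := fun h =>
    hvW ((eq_of_le_of_card_ge WP (by omega)).symm ▸ hv)
  obtain ⟨m, hm⟩ := IsPGroup.iff_card.1 hPp
  rw [hm] at U L h5
  have : m < 8 := by
    by_contra h
    have : 2 ^ 8 ≤ 2 ^ m := Nat.pow_le_pow_right (by norm_num) (by omega)
    omega
  interval_cases m <;> omega

end Cfsg.Agent.S3739
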