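import Cfsg.Statements.S3740
import Cfsg.Agent.Lib.PSL2.Trace
import Cfsg.Agent.Lib.Frobenius.Binary

set_option autoImplicit false
open Cfsg

namespace Cfsg.Agent.S3740

open Cfsg.Lib.PSL2 Cfsg.Lib.Frobenius Matrix
open scoped MatrixGroups

theorem coset_pow {G : Type*} [Group G] {R : Subgroup G} {a r : G}
    (ha : a ∈ Subgroup.normalizer (R : Set G)) (hr : r ∈ R) (n : ℕ) :
    ∃ r' ∈ R, (r * a) ^ n = r' * a ^ n := by
  induction n with
  | zero => exact ⟨1, R.one_mem, by simp⟩
  | succ n ih =>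
    obtain ⟨r', h1, h2⟩ := ih
    refine ⟨r' * (a ^ n * r * (a ^ n)⁻¹), R.mul_mem h1
      ((Subgroup.mem_normalizer_iff.1 (Subgroup.pow_mem _ ha n) r).1 hr), ?_⟩
    rw [pow_succ, h2, pow_succ]; group

/-- Let F be a finite field of odd characteristic p and let a be a p-element of SL₂(F) normalizing a subgroup R of order prime to p with [R, a] ≠ 1. Then p = 3, R is a quaternion group of order 8, and R⟨a⟩ is isomorphic to SL₂(3). -/
theorem result (F : Type) [Field F] [Fintype F] {p : ℕ} [Fact p.Prime] [CharP F p] (hp : p ≠ 2) (a : Matrix.SpecialLinearGroup (Fin 2) F) (ha : IsPGroup p ↥(Subgroup.zpowers a)) (R : Subgroup (Matrix.SpecialLinearGroup (Fin 2) F)) (hR : (Nat.card R).Coprime p) (haR : a ∈ Subgroup.normalizer (R : Set (Matrix.SpecialLinearGroup (Fin 2) F))) (hnt : ⁅R, Subgroup.zpowers a⁆ ≠ ⊥) : p = 3 ∧ Nonempty (↥R ≃* QuaternionGroup 2) ∧ Nonempty (↥(R ⊔ Subgroup.zpowers a) ≃* Matrix.SpecialLinearGroup (Fin 2) (ZMod 3)) := by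
  have pp : p.Prime := Fact.out
  have h2 : (2 : F) ≠ 0 := fun h => hp ((Nat.prime_dvd_prime_iff_eq pp Nat.prime_two).1
    ((CharP.cast_eq_zero_iff F p 2).1 (by exact_mod_cast h)))
  have h4 : (4 : F) ≠ 0 := by rw [show (4 : F) = 2 * 2 by norm_num]; exact mul_ne_zero h2 h2
  have cj : ∀ r ∈ R, ∀ n : ℕ, a ^ n * r * (a ^ n)⁻¹ ∈ R := fun r hr n =>
    (Subgroup.mem_normalizer_iff.1 (Subgroup.pow_mem _ haR n) r).1 hr
  have R1 : ∀ r ∈ R, r ^ p = 1 → r = 1 := fun r hr h => by
    rw [← orderOf_eq_one_iff]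
    exact Nat.eq_one_of_dvd_coprimes hR (Subgroup.orderOf_dvd_natCard R hr) (orderOf_dvd_of_pow_eq_one h)
  obtain ⟨n, hn⟩ := ha ⟨a, Subgroup.mem_zpowers a⟩
  have ta : trS a = 2 := trS_eq_two_of_pow p (n := n) (congrArg Subtype.val hn)
  have ap : a ^ p = 1 := pow_char_of_trS p ta
  obtain ⟨r, hr, hra⟩ : ∃ r ∈ R, r * a ≠ a * r := by
    by_contra h
    push Not at h
    refine hnt (Subgroup.commutator_eq_bot_iff_le_centralizer.2 fun r hr => ?_)
    rintro _ ⟨m, rfl⟩
    exact ((show Commute r a from h r hr).zpow_right m).eq.symm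
  have a1 : a ≠ 1 := by rintro rfl; simp at hra
  have oa : orderOf a = p := orderOf_eq_prime ap a1
  have cos : ∀ s ∈ R, ∀ k : ℕ, ¬ p ∣ k → trS (s * a ^ k) ^ 2 = 4 := by
    intro s hs k hk
    refine trS_sq_of_dvd_orderOf p ?_
    obtain ⟨r', h1, h3⟩ := coset_pow (Subgroup.pow_mem _ haR k) hs (orderOf (s * a ^ k))
    rw [pow_orderOf_eq_one, eq_comm, mul_eq_one_iff_eq_inv'] at h3
    have := R1 _ (h3 ▸ R.inv_mem h1) (by rw [← pow_mul, ← pow_mul, ← mul_assoc, mul_comm, pow_mul, ap, one_pow])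
    rw [← pow_mul, ← orderOf_dvd_iff_pow_eq_one, oa] at this
    exact (pp.dvd_mul.1 this).resolve_left hk
  have p2 : ¬ p ∣ 2 := fun h => hp ((Nat.prime_dvd_prime_iff_eq pp Nat.prime_two).1 h)
  set b := r * a * r⁻¹ with hb
  have tb : trS b = 2 := by rw [hb, trS_conj, ta]
  have mi : a * b⁻¹ ∈ R := by
    have := R.mul_mem (cj r hr 1) (R.inv_mem hr)
    convert this using 1
    rw [hb]; group
  have ti2 : trS (a * b⁻¹) ≠ 2 := fun h => hra (by
    have := R1 _ mi (pow_char_of_trS p h)
    rw [mul_inv_eq_one, hb, eq_mul_inv_iff_mul_eq] at this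
    exact this.symm)
  have e1 := trS_mul_add a b
  have e2 : trS (a * b) ^ 2 = 4 := by
    have := cos _ (R.mul_mem (cj r hr 1) (cj _ (R.inv_mem hr) 2)) 2 p2
    convert this using 3
    rw [hb]; group
  rw [ta, tb] at e1
  have e3 : trS (a * b) = -2 := by
    have : (trS (a * b) - 2) * (trS (a * b) + 2) = 0 := by linear_combination e2
    rcases mul_eq_zero.1 this with h | h
    · exact absurd (by linear_combination e1 - h) ti2
    · linear_combination h
  have p3 : p = 3 := by
    by_contra h3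
    have e4 : trS (a * b * b) ^ 2 = 4 := by
      have := cos _ (R.mul_mem (cj r hr 1) (cj _ (R.inv_mem hr) 3)) 3
        (fun h => h3 ((Nat.prime_dvd_prime_iff_eq pp Nat.prime_three).1 h))
      convert this using 3
      rw [hb]; simp only [pow_succ, pow_zero, one_mul]; group
    have e5 := trS_mul_add (a * b) b
    rw [mul_inv_cancel_right, ta, tb, e3] at e5
    have : (2 : F) ^ 5 = 0 := by
      have : trS (a * b * b) = -6 := by linear_combination e5
      rw [this] at e4
      linear_combination e4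
    exact pow_ne_zero 5 h2 this
  subst p3
  have h3 : (3 : F) = 0 := by exact_mod_cast CharP.cast_eq_zero F 3
  set i := a * b⁻¹ with hi
  have ti : trS i = 0 := by linear_combination e1 - e3 + 2 * h3
  have tR : ∀ s ∈ R, s = 1 ∨ s = -1 ∨ trS s = 0 := by
    intro s hs
    have f1 := cos s hs 1 (by norm_num)
    have f2 := cos s hs 2 (by norm_num)
    have f3 := trS_mul_add s a
    have : a⁻¹ = a ^ 2 := by rw [inv_eq_iff_mul_eq_one, ← pow_succ', ap]
    rw [this, ta] at f3
    rw [pow_one] at f1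
    have f4 : (trS s - 2) * ((trS s + 2) * trS s) = 0 := by
      have g1 : (trS (s * a) - 2) * (trS (s * a) + 2) = 0 := by linear_combination f1
      have g2 : (trS (s * a ^ 2) - 2) * (trS (s * a ^ 2) + 2) = 0 := by linear_combination f2
      rcases mul_eq_zero.1 g1 with g1 | g1 <;> rcases mul_eq_zero.1 g2 with g2 | g2
      · rw [show trS s = 2 from mul_right_cancel₀ h2 (by linear_combination g1 + g2 - f3)]; simp
      · rw [show trS s = 0 from mul_right_cancel₀ h2 (by linear_combination g1 + g2 - f3)]; simp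
      · rw [show trS s = 0 from mul_right_cancel₀ h2 (by linear_combination g1 + g2 - f3)]; simp
      · rw [show trS s = -2 from mul_right_cancel₀ h2 (by linear_combination g1 + g2 - f3)]; simp
    rcases mul_eq_zero.1 f4 with f4 | f4
    · exact Or.inl (R1 s hs (pow_char_of_trS 3 (by linear_combination f4)))
    rcases mul_eq_zero.1 f4 with f4 | f4
    · have g1 : (-s) ^ 3 = 1 := pow_char_of_trS 3 (by rw [trS_neg]; linear_combination -f4)
      have g2 : s * s = 1 := R1 _ (R.mul_mem hs hs) (by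
        have : (s * s) ^ 3 = (-s) ^ 3 * (-s) ^ 3 := by simp [pow_succ, mul_assoc]
        rw [this, g1, one_mul])
      exact (eq_one_or_neg_one_of_mul_self h2 g2).imp_right Or.inl
    · exact Or.inr (Or.inr f4)
  have nc : ∀ u : SL(2, F), trS u = 2 → u ≠ 1 → i * u ≠ u * i := fun u h1 h5 h => by
    have := trS_sq_of_commute h1 h5 h
    rw [ti] at this
    exact h4 (by linear_combination -this)
  set j := a * i * a⁻¹ with hj
  have mj : j ∈ R := by simpa using cj i mi 1
  have tj : trS j = 0 := by rw [hj, trS_conj, ti]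
  have hij : i * j = -(j * i) := by
    refine anticomm_of_trS ti tj ?_
    rcases tR _ (R.mul_mem mi mj) with h | h | h
    · have g1 : j = -i := by rw [← inv_of_trS ti]; exact eq_inv_of_mul_eq_one_right h
      have g2 : a * i = -(i * a) := by rw [← neg_mul, ← g1, hj, inv_mul_cancel_right]
      refine absurd ?_ (nc (a * a) ?_ ?_)
      · rw [mul_assoc a a i, g2, mul_neg, ← mul_assoc a i a, g2, neg_mul, neg_neg, mul_assoc i a a]
      · have := trS_mul_add a a
        rw [mul_inv_cancel, ta, trS_one] at this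
        linear_combination this
      · intro h5
        exact a1 (by rw [← ap, pow_succ, sq, h5, one_mul])
    · have g1 : j = i := mul_left_cancel (h.trans (mul_self_of_trS ti).symm)
      exact absurd (by rw [hj, mul_inv_eq_iff_eq_mul] at g1; exact g1.symm) (nc a ta a1)
    · exact h
  have hRQ := eq_sup_of_trS h2 tR mi mj ti tj hij
  refine ⟨rfl, hRQ ▸ equiv_quaternion_of_anticomm h2 ti tj hij, ?_⟩
  have := equiv_sl_two_three (x := a) (y := b⁻¹) (z := -1) ap
    (by rw [inv_pow, pow_char_of_trS 3 tb, inv_one]) (orderOf_neg_one_sl h2)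
    (by rw [sq]; exact mul_self_of_trS ti) (by simp) (by simp)
  have hK : R ⊔ Subgroup.zpowers a = Subgroup.closure {a, b⁻¹} := by
    have ma : a ∈ Subgroup.closure {a, b⁻¹} := Subgroup.subset_closure (by simp)
    have mb : b⁻¹ ∈ Subgroup.closure {a, b⁻¹} := Subgroup.subset_closure (by simp)
    refine le_antisymm (sup_le ?_ (Subgroup.zpowers_le_of_mem ma)) ?_
    · rw [hRQ]
      exact sup_le (Subgroup.zpowers_le_of_mem (mul_mem ma mb))
        (Subgroup.zpowers_le_of_mem (mul_mem (mul_mem ma (mul_mem ma mb)) (inv_mem ma)))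
    · rw [Subgroup.closure_le]
      have m1 : a ∈ R ⊔ Subgroup.zpowers a := Subgroup.mem_sup_right (Subgroup.mem_zpowers a)
      have m2 : r ∈ R ⊔ Subgroup.zpowers a := Subgroup.mem_sup_left hr
      rintro _ (rfl | rfl)
      · exact m1
      · exact inv_mem (mul_mem (mul_mem m2 m1) (inv_mem m2))
  rwa [hK]

end Cfsg.Agent.S3740
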