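import Cfsg.Statements.S3741
import Cfsg.Agent.Lib.PGroup.Basic
import Cfsg.Agent.Lib.FGS.Basic

set_option autoImplicit false
open Cfsg

namespace Cfsg.Agent.S3741

/-- Let A and B be subgroups of a finite p-group with [A, B] ≤ A ∩ B and [A, B] of order at most p. Then |A : C_A(B)| = |B : C_B(A)|. -/
theorem result {G : Type*} [Group G] [Finite G] {p : ℕ} [Fact p.Prime] (hG : IsPGroup p G) (A B : Subgroup G) (hAB : ⁅A, B⁆ ≤ A ⊓ B) (hcard : Nat.card ↥⁅A, B⁆ ≤ p) : (A ⊓ Subgroup.centralizer (B : Set G)).relIndex A = (B ⊓ Subgroup.centralizer (A : Set G)).relIndex B := by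
  open Cfsg.Lib Cfsg.Lib.PGroup Subgroup in
  have hp : p.Prime := Fact.out
  rw [inf_relIndex_left, inf_relIndex_left]
  obtain ⟨k, hk⟩ := (hG.to_subgroup ⁅A, B⁆).exists_card_eq
  have hk1 : k ≤ 1 := (Nat.pow_le_pow_iff_right hp.one_lt).mp (by rwa [← hk, pow_one])
  have hc : IsCyclic (⁅A, B⁆ : Subgroup G) := isCyclic_of_card_dvd_prime (p := p)
    (by rw [hk]; exact (pow_dvd_pow p hk1).trans (pow_one p).dvd)
  interval_cases k
  · have h0 : ⁅A, B⁆ = ⊥ := card_eq_one.mp hk
    exact FGS.relIndex_centralizer_eq_of_cyclic hc le_rfl (h0 ▸ bot_le) (h0 ▸ bot_le)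
  · exact FGS.relIndex_centralizer_eq_of_cyclic hc le_rfl
      (le_centralizer_of_card_eq (hG.to_subgroup A) (normalizer_commutator_ge_left A B) (hk.trans (pow_one p)))
      (le_centralizer_of_card_eq (hG.to_subgroup B) (normalizer_commutator_ge_right A B) (hk.trans (pow_one p)))

end Cfsg.Agent.S3741
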