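import Cfsg.Statements.S3744
import Cfsg.Agent.Lib.Hall.Solvable
import Cfsg.Agent.Lib.Coprime.Nilpotent
import Cfsg.Agent.Lib.Core.PCore

set_option autoImplicit false
open Cfsg

namespace Cfsg.Agent.S3744

open Cfsg.Lib in
theorem sep {G : Type*} [Group G] [Finite G] {p : ℕ} [hp : Fact p.Prime]
    (hG : Cfsg.IsPSolvable p G) (N : Subgroup G) [N.Normal] (hN : N ≠ ⊤) :
    ∃ M : Subgroup G, M.Normal ∧ N < M ∧
      ((∀ q : ℕ, q.Prime → q ∣ N.relIndex M → q ∈ ({p}ᶜ : Set ℕ)) ∨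
      ((∀ q : ℕ, q.Prime → q ∈ ({p}ᶜ : Set ℕ) → ¬ q ∣ N.relIndex M) ∧
        Group.IsSolvable (M.map (QuotientGroup.mk' N)))) := by
  obtain ⟨n, H, h0, hl, hm, hn, hs⟩ := hG
  have : ∃ i : Fin n, H i.castSucc ≤ N ∧ ¬ H i.succ ≤ N := by
    by_contra hc
    push Not at hc
    have : ∀ i, H i ≤ N := fun i => by
      induction i using Fin.induction with
      | zero => rw [h0]; exact bot_le
      | succ i ih => exact hc i ih
    exact hN (top_le_iff.mp (hl ▸ this _))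
  obtain ⟨i, h1, h2⟩ := this
  have := hn i.succ
  have hd : N.relIndex (N ⊔ H i.succ) ∣ (H i.castSucc).relIndex (H i.succ) := by
    rw [Coprime.relIndex_sup_of_le_normalizer Subgroup.le_normalizer_of_normal]
    exact Subgroup.relIndex_dvd_of_le_left _ h1
  refine ⟨N ⊔ H i.succ, inferInstance, left_lt_sup.mpr h2, ?_⟩
  rcases hs i with ⟨m, hm⟩ | h
  · rw [hm] at hd
    obtain ⟨k, -, hk⟩ := (Nat.dvd_prime_pow hp.out).mp hd
    refine Or.inr ⟨hk ▸ Hall.pi'_prime_pow hp.out (by simp), Coprime.isSolvable_of_isPGroup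
      (IsPGroup.of_card (p := p) (n := k) ?_)⟩
    rw [Core.card_map_mk'_eq_relIndex, hk]
  · exact Or.inl ((Hall.pi_compl_singleton_iff hp.out).mpr (h.coprime_dvd_left hd))


/-- A finite p-soluble group has a p-complement, all its p-complements are conjugate, and every subgroup of order prime to p lies in one of them. Here a p-complement is a subgroup of order prime to p whose index is a power of p. -/
theorem result {G : Type*} [Group G] [Finite G] {p : ℕ} [Fact p.Prime] (hG : Cfsg.IsPSolvable p G) : (∃ H : Subgroup G, (Nat.card H).Coprime p ∧ ∃ n : ℕ, H.index = p ^ n) ∧ (∀ H₁ H₂ : Subgroup G, (Nat.card H₁).Coprime p → (∃ n : ℕ, H₁.index = p ^ n) → (Nat.card H₂).Coprime p → (∃ n : ℕ, H₂.index = p ^ n) → ∃ g : G, H₂ = H₁.map (MulAut.conj g).toMonoidHom) ∧ (∀ U : Subgroup G, (Nat.card U).Coprime p → ∃ H : Subgroup G, (Nat.card H).Coprime p ∧ (∃ n : ℕ, H.index = p ^ n) ∧ ∃ g : G, U.map (MulAut.conj g).toMonoidHom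 ≤ H) := by
  have hp : p.Prime := Fact.out
  obtain ⟨H, hH⟩ := Lib.Hall.exists_isPiHall_of_separable (G := G) (π := {p}ᶜ) fun N _ hN => by
    obtain ⟨M, h1, h2, h3⟩ := sep hG N hN
    exact ⟨M, h1, h2, h3.imp id And.left⟩
  have hc : ∀ H U : Subgroup G, IsPiHall {p}ᶜ H → (Nat.card U).Coprime p →
      ∃ g : G, U.map (MulAut.conj g).toMonoidHom ≤ H := fun H U hH hU =>
    Lib.Hall.exists_conj_le_of_separable hH.2 ((Lib.Hall.pi_compl_singleton_iff hp).mpr hU)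
      fun N _ hN => by
        obtain ⟨M, h1, h2, h3⟩ := sep hG N hN
        exact ⟨M, h1, h2, h3.imp id fun h => ⟨h.1, Or.inr h.2⟩⟩
  have hH' := (Lib.Hall.isPiHall_compl_singleton_iff hp).mp hH
  refine ⟨⟨H, hH'⟩, fun H₁ H₂ h1 h2 h3 h4 => ?_, fun U hU => ⟨H, hH'.1, hH'.2, hc H U hH hU⟩⟩
  have h5 := (Lib.Hall.isPiHall_compl_singleton_iff hp).mpr ⟨h1, h2⟩
  have h6 := (Lib.Hall.isPiHall_compl_singleton_iff hp).mpr ⟨h3, h4⟩
  obtain ⟨g, hg⟩ := Lib.Hall.exists_conj_eq_of_conj_le h5 h6 (hc H₂ H₁ h6 h1)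
  exact ⟨g, hg.symm⟩

end Cfsg.Agent.S3744
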