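import Cfsg.Statements.S3746
import Cfsg.Agent.Lib.Comp.Component
import Cfsg.Agent.Lib.Core.Basic

set_option autoImplicit false
open Cfsg

namespace Cfsg.Agent.S3746

/-- Let Z ≤ Z(G) be a central subgroup of a finite group G and E a subgroup of G containing Z whose image E/Z is a component of G/Z (subnormal and quasisimple). Then the derived subgroup [E, E] is a component of G. -/
theorem result {G : Type*} [Group G] [Finite G] (Z : Subgroup G) (hZ : Z ≤ Subgroup.center G) [Z.Normal] (E : Subgroup G) (hZE : Z ≤ E) (hE : Cfsg.IsComponent (E.map (QuotientGroup.mk' Z))) : Cfsg.IsComponent ⁅E, E⁆ := by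
  open Cfsg.Lib Cfsg.Lib.Comp Subgroup in
  have hsub : E.IsSubnormal := by
    have := hE.1.comap (QuotientGroup.mk' Z)
    rwa [Core.comap_map_mk', sup_eq_left.mpr hZE] at this
  have h1 : ⁅E, E⁆.map (QuotientGroup.mk' Z) = E.map (QuotientGroup.mk' Z) := by
    rw [map_commutator, isComponent_commutator_self hE]
  have h2 : ⁅E, E⁆ ⊔ Z = E := by
    have := congrArg (comap (QuotientGroup.mk' Z)) h1
    rwa [Core.comap_map_mk', Core.comap_map_mk', sup_eq_left.mpr hZE] at this
  have h3 : ⁅E, E⁆ = ⁅⁅E, E⁆, ⁅E, E⁆⁆ :=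
    commutator_le_of_sup_centralizer (commutator_le_self E) (hZ.trans (center_le_centralizer _)) h2
  refine ⟨?_, ?_⟩
  · refine IsSubnormal.trans (commutator_le_self E) ?_ hsub
    exact isSubnormal_subgroupOf_of_le_normalizer
      (Core.le_normalizer_commutator le_normalizer le_normalizer)
  · have hq : IsQuasisimple (⁅E, E⁆.map (QuotientGroup.mk' Z)) := h1 ▸ hE.2
    refine isQuasisimple_of_ker_le_center ?_ (f := (QuotientGroup.mk' Z).subgroupMap ⁅E, E⁆)
      (MonoidHom.subgroupMap_surjective _ _) (fun x hx => ?_) hq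
    · apply map_injective (subtype_injective _)
      rw [map_subtype_commutator, ← h3, Core.map_subtype_top]
    · have hx' : (x : G) ∈ Z := (QuotientGroup.eq_one_iff _).mp (congrArg Subtype.val hx)
      exact mem_center_iff.mpr fun g => Subtype.ext (mem_center_iff.mp (hZ hx') g)

end Cfsg.Agent.S3746
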