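import Cfsg.Statements.S3747
import Cfsg.Agent.Lib.Comp.GenFitting
import Cfsg.Agent.Lib.Core.MinNormal

set_option autoImplicit false
open Cfsg

namespace Cfsg.Agent.S3747

/-- Let G be a finite group. (a) If K is a component of G with trivial centre, then the normal closure of K in G is a minimal normal subgroup of G. (b) If the Fitting subgroup of G is trivial, then the layer E(G) is generated by the minimal normal subgroups of G. -/
theorem result {G : Type*} [Group G] [Finite G] : (∀ K : Subgroup G, Cfsg.IsComponent K → Subgroup.center ↥K = ⊥ → (Subgroup.normalClosure (K : Set G) ≠ ⊥ ∧ ∀ N : Subgroup G, N.Normal → N ≤ Subgroup.normalClosure (K : Set G) → N = ⊥ ∨ N = Subgroup.normalClosure (K : Set G))) ∧ (Cfsg.fittingSubgroup G = ⊥ → sSup {N : Subgroup G | N ≠ ⊥ ∧ N.Normal ∧ ∀ N' : Subgroup G, N'.Normal → N' ≤ N → N' = ⊥ ∨ N' = N} = Cfsg.layer G) := by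
  open Cfsg.Lib Cfsg.Lib.Comp Subgroup in
  have key : ∀ K : Subgroup G, Cfsg.IsComponent K → Subgroup.center ↥K = ⊥ → (Subgroup.normalClosure (K : Set G) ≠ ⊥ ∧ ∀ N : Subgroup G, N.Normal → N ≤ Subgroup.normalClosure (K : Set G) → N = ⊥ ∨ N = Subgroup.normalClosure (K : Set G)) := by
    intro K hK hc
    refine ⟨fun h => isComponent_ne_bot hK (eq_bot_iff.mpr (h ▸ le_normalClosure)), fun N hN hle => ?_⟩
    rcases isComponent_le_or_commutator_eq_bot_of_normal hK N with h | h
    · exact Or.inr (le_antisymm hle (normalClosure_le_normal h))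
    · left
      have h1 : normalClosure (K : Set G) ≤ centralizer (N : Set G) :=
        normalClosure_le_normal (commutator_eq_bot_iff_le_centralizer.mp h)
      have h2 : N ≤ centralizer (normalClosure (K : Set G) : Set G) := le_centralizer_iff.mp h1
      have h3 := le_inf hle h2
      rw [Core.normalClosure_eq_iSup_conj, ← sSup_range, center_sSup_components (Set.toFinite _)
        (by rintro _ ⟨g, rfl⟩; exact isComponent_map_conj hK g)] at h3
      rw [eq_bot_iff]
      refine h3.trans (iSup₂_le ?_)
      rintro _ ⟨g, rfl⟩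
      have h4 : K ⊓ centralizer (K : Set G) = ⊥ := by rw [← map_center_subtype, hc, Subgroup.map_bot]
      rw [← Core.map_equiv_centralizer, ← Core.map_equiv_inf, h4, Subgroup.map_bot]
  refine ⟨key, fun hF => le_antisymm (sSup_le ?_) (layer_le fun L hL => ?_)⟩
  · rintro N ⟨h0, hN, hmin⟩
    rcases hmin (N ⊓ layer G) inferInstance inf_le_left with h | h
    · exfalso
      have h1 : N ≤ centralizer (layer G : Set G) :=
        Core.le_centralizer_of_inf_eq_bot le_normalizer_of_normal le_normalizer_of_normal h
      have h2 := le_fitting_of_centralizes h1 (by rw [hF]; exact le_centralizer_iff.mp bot_le)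
      exact h0 (eq_bot_iff.mpr (hF ▸ h2))
    · exact inf_eq_left.mp h
  · have hc : center L = ⊥ := by
      rw [← Core.map_subtype_eq_bot_iff, map_center_subtype, eq_bot_iff, ← hF]
      exact center_component_le_fitting hL
    obtain ⟨h1, h2⟩ := key L hL hc
    exact le_normalClosure.trans (le_sSup ⟨h1, inferInstance, h2⟩)

end Cfsg.Agent.S3747
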