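import Cfsg.Statements.S3748
import Cfsg.Agent.Lib.Core.Subnormal

set_option autoImplicit false
open Cfsg

namespace Cfsg.Agent.S3748

open Subgroup Cfsg.Lib Cfsg.Lib.Core
open scoped Cfsg.Lib.Transfer

/-- Call a proper subgroup M of G primitive when M = N_G(N) for every non-trivial normal subgroup N of M. If M is a primitive subgroup of the finite group G, then no non-trivial subnormal subgroup of G is contained in M; in particular M ∩ F(G) = 1. -/
theorem result {G : Type*} [Group G] [Finite G] (M : Subgroup G) (hM : M ≠ ⊤) (hprim : ∀ N : Subgroup G, N ≤ M → M ≤ Subgroup.normalizer (N : Set G) → N ≠ ⊥ → Subgroup.normalizer (N : Set G) = M) : (∀ L : Subgroup G, L.IsSubnormal → L ≤ M → L = ⊥) ∧ M ⊓ Cfsg.fittingSubgroup G = ⊥ := by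
  have key : ∀ L : Subgroup G, L.IsSubnormal → L ≤ M → L = ⊥ := by
    intro L hL hLM
    let S : Set (Subgroup G) := {K | K.IsSubnormal ∧ K ≤ M}
    have h1 : (sSup S).IsSubnormal := isSubnormal_sSup fun A hA => hA.1
    have h2 : sSup S ≤ M := sSup_le fun A hA => hA.2
    have h3 : ∀ x : G, x ⋆ sSup S ≤ M → x ∈ normalizer ((sSup S : Subgroup G) : Set G) := fun x hx =>
      Transfer.mem_normalizer_of_conj_le (le_sSup ⟨subnormalIn_top.1
        ((subnormalIn_top.2 h1).conj_of_mem (mem_top x)), hx⟩)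
    by_contra h0
    have h4 := hprim _ h2 (fun x hx => h3 x (map_conj_le_of_mem h2 hx))
      fun e => h0 (le_bot_iff.1 (e ▸ le_sSup ⟨hL, hLM⟩))
    obtain ⟨x, -, h5, h6⟩ := (subnormalIn_top.2 h1).exists_conj_le_normalizer
      fun h => hM (top_le_iff.1 (h4 ▸ h))
    exact h5 (h3 x (h4 ▸ h6))
  exact ⟨key, key _ (isSubnormal_of_le_fittingSubgroup inf_le_right) inf_le_left⟩

end Cfsg.Agent.S3748
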