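import Cfsg.Statements.S3749
import Cfsg.Agent.Lib.Comp.Bender

set_option autoImplicit false
open Cfsg

namespace Cfsg.Agent.S3749

open Subgroup Cfsg.Lib Cfsg.Lib.BG Cfsg.Lib.Core Cfsg.Lib.Comp
open scoped Cfsg.Lib.Transfer commutatorElement

/-- Call a proper subgroup M of G primitive when M = N_G(N) for every non-trivial normal subgroup N of M. Let M be a primitive subgroup of the finite group G, p a prime with O_p(M) ≠ 1, and N a normal subgroup of G with M ∩ N = 1. Then p does not divide the order of N; for every prime q there is exactly one Sylow q-subgroup of N normalized by M; and if the order of N has at least two prime divisors then M is not a maximal subgroup of G. -/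
theorem result {G : Type*} [Group G] [Finite G] (M : Subgroup G) (hM : M ≠ ⊤) (hprim : ∀ N : Subgroup G, N ≤ M → M ≤ Subgroup.normalizer (N : Set G) → N ≠ ⊥ → Subgroup.normalizer (N : Set G) = M) {p : ℕ} [Fact p.Prime] (hOp : Cfsg.pCore p ↥M ≠ ⊥) (N : Subgroup G) [N.Normal] (hMN : M ⊓ N = ⊥) : ¬ p ∣ Nat.card N ∧ (∀ q : ℕ, [Fact q.Prime] → ∃! Q : Sylow q ↥N, M ≤ Subgroup.normalizer ((Q : Subgroup ↥N).map N.subtype : Set G)) ∧ ((∃ q r : ℕ, q.Prime ∧ r.Prime ∧ q ≠ r ∧ q ∣ Nat.card N ∧ r ∣ Nat.card N) → ¬ IsCoatom M) := by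
  have hN : Nml N ⊤ := Nml.top_iff.2 inferInstance
  have hP : 𝐎({p}, M) ≠ ⊥ := by
    rwa [pcore_p_eq, Ne, Subgroup.map_eq_bot_iff_of_injective _ M.subtype_injective]
  have hP' := pcore_pgroup p M
  have hPN : 𝐎({p}, M) ≤ 𝐍(N) := le_top.trans hN.norm
  have hC : N ⊓ 𝐂(𝐎({p}, M)) = ⊥ := eq_bot_mono hMN (le_inf ((norm_of_cent inf_le_right).trans
    (hprim _ (BG.pcore_le _ _) (pcore_nml _ _).norm hP).le) inf_le_left)
  have h1 : ¬ p ∣ Nat.card N := fun e => by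
    obtain ⟨S, hS, h2⟩ := Syl.exists_ge hP' (le_top (a := 𝐎({p}, M)))
    have h3 := Hall.ne_bot (hS.inf_nml hN) (Fact.out : p.Prime) e rfl
    exact nil_meet_center hS.nil inf_le_left (norm_inf (le_norm S) (le_top.trans hN.norm)) h3
      (eq_bot_mono hC (inf_le_inf inf_le_right (cent_anti h2)))
  have hc : (Nat.card 𝐎({p}, M)).Coprime (Nat.card N) :=
    ((PiGrp.p'_iff.2 h1).coprime_pgroup hP').symm
  have huniq : ∀ (q : ℕ) [Fact q.Prime] (Q R : Subgroup G), Syl q Q N → Syl q R N →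
      𝐎({p}, M) ≤ 𝐍(Q) → 𝐎({p}, M) ≤ 𝐍(R) → R = Q := fun q _ Q R hQ hR h2 h3 => by
    obtain ⟨c, hc, rfl⟩ := hQ.inv_trans hR hPN hc (Or.inl (pgroup_sol hP')) h2 h3
    rw [hC, mem_bot] at hc
    rw [hc, Transfer.conj_one]
  have hex : ∀ (q : ℕ) [Fact q.Prime], ∃ Q, Syl q Q N ∧ M ≤ 𝐍(Q) := fun q _ => by
    obtain ⟨Q, hQ, h2⟩ := Syl.exists_inv q hPN hc (Or.inl (pgroup_sol hP'))
    refine ⟨Q, hQ, le_norm_of_conj fun g hg => huniq q _ _ hQ (hQ.conj_of_norm (hN.norm trivial)) h2 ?_⟩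
    rw [← Transfer.conj_normalizer, ← (pcore_nml {p} M).conj_eq hg]
    exact Transfer.conj_mono g h2
  refine ⟨h1, fun q _ => ?_, fun ⟨q, r, hq, hr, hne, hd, hd'⟩ hmax => ?_⟩
  · obtain ⟨Q, hQ, h2⟩ := hex q
    obtain ⟨Q, rfl⟩ := Syl.iff_sylow.1 hQ
    refine ⟨Q, h2, fun R hR => Sylow.ext (Subgroup.map_injective N.subtype_injective ?_)⟩
    exact huniq q _ _ hQ (Syl.of_sylow R) ((BG.pcore_le _ _).trans h2) ((BG.pcore_le _ _).trans hR)
  · haveI := Fact.mk hq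
    obtain ⟨Q, hQ, h2⟩ := hex q
    have h3 : Q ⊔ M = ⊤ := hmax.2 _ (lt_of_le_of_ne le_sup_right fun e => hQ.ne_bot' hd
      (eq_bot_mono hMN (le_inf (le_sup_left.trans e.ge) hQ.le)))
    have h4 := modular_left hQ.le h2
    rw [h3, hMN, top_inf_eq, sup_bot_eq] at h4
    exact hne (pgroup_eq_of_dvd hQ.pgroup hr (h4 ▸ hd')).symm

end Cfsg.Agent.S3749
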