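import Cfsg.Statements.S3750
import Cfsg.Agent.Lib.Comp.Bender

set_option autoImplicit false
open Cfsg

namespace Cfsg.Agent.S3750

open Subgroup Cfsg.Lib Cfsg.Lib.BG Cfsg.Lib.Core Cfsg.Lib.Comp
open scoped Cfsg.Lib.Transfer commutatorElement

/-- Call a proper subgroup M of G primitive when M = N_G(N) for every non-trivial normal subgroup N of M. Let M be a primitive subgroup of the finite group G and N a normal subgroup of G with M ∩ F*(N) ≠ 1. Then F(G) = 1 and F*(N) = F*(G) = E(G); in particular every minimal normal subgroup of G is contained in N. -/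
theorem result {G : Type*} [Group G] [Finite G] (M : Subgroup G) (hM : M ≠ ⊤) (hprim : ∀ N : Subgroup G, N ≤ M → M ≤ Subgroup.normalizer (N : Set G) → N ≠ ⊥ → Subgroup.normalizer (N : Set G) = M) (N : Subgroup G) [N.Normal] (hMF : M ⊓ (Cfsg.generalizedFittingSubgroup ↥N).map N.subtype ≠ ⊥) : Cfsg.fittingSubgroup G = ⊥ ∧ (Cfsg.generalizedFittingSubgroup ↥N).map N.subtype = Cfsg.generalizedFittingSubgroup G ∧ Cfsg.generalizedFittingSubgroup G = Cfsg.layer G ∧ ∀ K : Subgroup G, K.Normal → K ≠ ⊥ → (∀ K' : Subgroup G, K'.Normal → K' ≤ K → K' = ⊥ ∨ K' = K) → K ≤ N := by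
  have hN : Nml N ⊤ := Nml.top_iff.2 inferInstance
  have hG : Nml 𝐆(N) ⊤ := ⟨le_top, norm_gF hN.norm⟩
  have h0 : ∀ X : Subgroup G, Nml X ⊤ → X ≤ 𝐂(𝐆(N)) → X = ⊥ := fun X hX h => by_contra fun e => by
    have h1 := hprim _ inf_le_left (norm_inf (le_norm M) (le_top.trans hG.norm)) hMF
    have h2 := hprim X ((norm_of_cent (h.trans (cent_anti inf_le_right))).trans h1.le)
      (le_top.trans hX.norm) e
    exact hM (top_le_iff.1 (hX.norm.trans h2.le))
  have hF : 𝐅(N) = ⊥ := by_contra fun e => center_ne_bot_of_nil (Fitting_nil N) e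
    (h0 _ hN.Fitting.center (gF_eq N ▸ le_cent_sup (inf_le_left.trans
      (cent_symm (layer_cent_Fitting N))) inf_le_right))
  have hE : 𝐆(N) = 𝐄(N) := by rw [gF_eq, hF, sup_bot_eq]
  have hF' : 𝐅((⊤ : Subgroup G)) = ⊥ := h0 _ (Fitting_nml _) (hE ▸ cent_symm
    ((sn_layer_le (sn_of_nml hN)).trans (layer_cent_Fitting _)))
  have hE' : 𝐄((⊤ : Subgroup G)) ≤ 𝐄(N) := layer_le_of_cmp fun K hK =>
    (hK.le_or_cent le_top (le_top.trans hN.norm)).elim (fun e => (hK.mono e le_top).le_layer)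
      fun e => absurd (eq_bot_mono (h0 _ (Nml.cent hG.norm) inf_le_right)
        (le_inf le_top (e.trans (cent_anti (gF_le N))))) hK.ne_bot
  have h1 : 𝐆((⊤ : Subgroup G)) = 𝐄((⊤ : Subgroup G)) := by rw [gF_eq, hF', sup_bot_eq]
  refine ⟨eq_bot_mono hF' (Fitting_max (Core.fittingSubgroup_isNilpotent G)
    (Nml.top_iff.2 inferInstance)), ?_, by rw [← gF_top, h1, layer_top], fun K hK h2 h3 => ?_⟩
  · rw [← gF_top (G := G), h1, hE]
    exact le_antisymm (sn_layer_le (sn_of_nml hN)) hE'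
  · have h4 := (Nml.top_iff.2 hK).inf hG
    rcases h3 _ (Nml.top_iff.1 h4) inf_le_left with e | e
    · exact absurd (h0 K (Nml.top_iff.2 hK) ((Nml.top_iff.2 hK).cent_of_disjoint hG e)) h2
    · exact e.ge.trans (inf_le_right.trans (gF_le N))

end Cfsg.Agent.S3750
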