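import Cfsg.Statements.S3754
import Cfsg.Agent.Lib.Comp.TwoConj

set_option autoImplicit false
open Cfsg

namespace Cfsg.Agent.S3754

open Subgroup Cfsg.Lib Cfsg.Lib.BG Cfsg.Lib.Core Cfsg.Lib.Comp
open scoped Cfsg.Lib.Transfer commutatorElement

/-- Let M be a finite p-soluble group and A a p-subgroup of M with Φ(A) ≤ O_p(M) but A ≰ O_p(M). Then there is x ∈ O_{p,p'}(M) such that L = ⟨A, xAx⁻¹⟩ satisfies: x ∈ O^p(L) and O^p(L) ≤ O_{p,p'}(M); [O^p(L), A] = O^p(L); A ∩ O_p(L) has index p in A; and [A ∩ O_p(L), L] ≤ O_p(M). Here O^p(L) is the subgroup generated by the p'-elements of L and O_{p,p'}(M) the preimage of O_{p'}(M/O_p(M)). -/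
theorem result {M : Type*} [Group M] [Finite M] {p : ℕ} [Fact p.Prime] (hM : Cfsg.IsPSolvable p M) (A : Subgroup M) (hA : IsPGroup p A) (hΦ : (frattini ↥A).map A.subtype ≤ Cfsg.pCore p M) (hnot : ¬ A ≤ Cfsg.pCore p M) : ∃ x ∈ (Cfsg.pPrimeCore p (M ⧸ Cfsg.pCore p M)).comap (QuotientGroup.mk' (Cfsg.pCore p M)), x ∈ (Cfsg.pResidual p ↥(A ⊔ A.map (MulAut.conj x).toMonoidHom)).map (A ⊔ A.map (MulAut.conj x).toMonoidHom).subtype ∧ (Cfsg.pResidual p ↥(A ⊔ A.map (MulAut.conj x).toMonoidHom)).map (A ⊔ A.map (MulAut.conj x).toMonoidHom).subtype ≤ (Cfsg.pPrimeCore p (M ⧸ Cfsg.pCore p M)).comap (QuotientGroup.mk' (Cfsg.pCore p M)) ∧ ⁅(Cfsg.pResidual p ↥(A ⊔ A.map (MulAut.conj x).toMonoidHom)).map (A ⊔ A.map (MulAut.conj x).toMonoidHom).subtype, A⁆ = (Cfsg.pResidual p ↥(A ⊔ A.map (MulAut.conj x).toMonoidHom)).map (A ⊔ A.map (MulAut.conj x).toMonoidHom).subtype ∧ (A ⊓ (Cfsg.pCore p ↥(A ⊔ A.map (MulAut.conj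 x).toMonoidHom)).map (A ⊔ A.map (MulAut.conj x).toMonoidHom).subtype).relIndex A = p ∧ ⁅A ⊓ (Cfsg.pCore p ↥(A ⊔ A.map (MulAut.conj x).toMonoidHom)).map (A ⊔ A.map (MulAut.conj x).toMonoidHom).subtype, A ⊔ A.map (MulAut.conj x).toMonoidHom⁆ ≤ Cfsg.pCore p M := by
  have hQ : 𝐎({p}, (⊤ : Subgroup M)) = pCore p M := (pcore_p_eq p _).trans Loc.core_top
  have hn : ∀ X : Subgroup M, X ≤ 𝐍(𝐎({p}, (⊤ : Subgroup M))) := fun X =>
    le_top.trans (pcore_nml _ _).norm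
  have ht : quo (⊤ : Subgroup M) 𝐎({p}, (⊤ : Subgroup M)) = ⊤ := by
    rw [quo_def, top_subgroupOf, map_top_of_surjective _ (QuotientGroup.mk'_surjective _)]
  obtain ⟨K, B, h⟩ := exists_minK (H := (⊤ : Subgroup M)) (A := A) (p := p) (by
      have := pcore_quo_pcore {p} (⊤ : Subgroup M)
      rw [ht] at this
      rw [ht, core_top, top_inf_eq]
      exact centralizer_pPrimeCore_le_of_isPSolvable (isPSolvable_quotient
        (isPSolvable_subgroup hM _) _) (Loc.core_top.symm.trans ((pcore_p_eq p _).symm.trans this))) le_top hA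
    ⟨(quo_abelian_iff (hn A)).2 (hQ ▸ (commutator_le_frattiniOf_of_isNilpotent
      (pgroup_nil hA)).trans hΦ), fun y hy => by
        obtain ⟨a, ha, rfl⟩ := mem_quo.1 hy
        rw [← map_pow, ← MonoidHom.mem_ker, qhom_ker, mem_subgroupOf]
        exact hQ.ge <| hΦ (PGroup.pow_mem_map_subtype_frattini hA ha)⟩ (hQ ▸ hnot)
  obtain ⟨x, hx, hx'⟩ := h.exists_nc
  have h1 : K ≤ (pPrimeCore p (M ⧸ pCore p M)).comap (QuotientGroup.mk' (pCore p M)) := by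
    have h2 := Nml.top_iff.1 (Nml.copre (pcore_nml {p} ⊤)
      (pcore_nml {p}ᶜ (quo (⊤ : Subgroup M) 𝐎({p}, (⊤ : Subgroup M)))))
    refine ((le_copre_iff (hn K)).2 h.p').trans (map_le_iff_le_comap.1 (le_pPrimeCore
      (h2.map _ (QuotientGroup.mk'_surjective _)) ?_))
    rw [← relIndex_ker, QuotientGroup.ker_mk', ← hQ, relIndex_copre]
    exact (pcore_pi _ _).coprime_p
  have h2 := h.res_eq hx hx'
  have h3 := h.inf_core
  rw [← h.sup_eq hx hx', pcore_p_eq] at h3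
  unfold pResidualOf at h2
  refine ⟨x, h1 hx, ?_⟩
  rw [h2, h3, h.sup_eq hx hx']
  exact ⟨hx, h1, h.comm, h.idx, h.comm_B.trans hQ.le⟩

end Cfsg.Agent.S3754
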