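import Cfsg.Statements.S3755
import Cfsg.Agent.Lib.Comp.TwoConj

set_option autoImplicit false
open Cfsg

namespace Cfsg.Agent.S3755

open Subgroup Cfsg.Lib Cfsg.Lib.BG Cfsg.Lib.Core Cfsg.Lib.Comp
open scoped Cfsg.Lib.Transfer commutatorElement

/-- Let M and V be subgroups of a finite group with V an elementary abelian 2-group, M normalizing V and acting faithfully on it (M ∩ C(V) = 1), and C_M(O_{2'}(M)) ≤ O_{2'}(M). If some elementary abelian 2-subgroup A of M satisfies |V : C_V(A)| < |A|², then M has a section isomorphic to the symmetric group of degree 3. -/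
theorem result {X : Type*} [Group X] [Finite X] (M V : Subgroup X) (hV : Cfsg.IsElementaryAbelian 2 V) (hMV : M ≤ Subgroup.normalizer (V : Set X)) (hfaith : M ⊓ Subgroup.centralizer (V : Set X) = ⊥) (hcon : Subgroup.centralizer (Cfsg.pPrimeCore 2 ↥M : Set ↥M) ≤ Cfsg.pPrimeCore 2 ↥M) (A : Subgroup X) (hAM : A ≤ M) (hA : Cfsg.IsElementaryAbelian 2 A) (hsmall : (V ⊓ Subgroup.centralizer (A : Set X)).relIndex V < Nat.card A ^ 2) : Cfsg.Involves (Equiv.Perm (Fin 3)) ↥M := by
  obtain ⟨f, hf⟩ := PLocal.exists_dihedral_three_perm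
  exact PLocal.hasSection_iff.1 ((not_not.1 (two_offender (PLocal.ffPair_pPrimeCore hV hMV hfaith
    hcon) hAM hA (by rwa [inf_relIndex_left] at hsmall))).congr_left (MulEquiv.ofBijective f hf))

end Cfsg.Agent.S3755
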