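import Cfsg.Statements.S3756
import Cfsg.Agent.Lib.Comp.S4Free

set_option autoImplicit false
open Cfsg

namespace Cfsg.Agent.S3756

open Subgroup Cfsg.Lib Cfsg.Lib.BG Cfsg.Lib.Core Cfsg.Lib.Comp
open scoped Cfsg.Lib.Transfer commutatorElement

/-- Let G be a finite group of even order with O₂(G) = 1 such that every 2-local subgroup of G is solvable, of characteristic 2, and has no section isomorphic to the symmetric group of degree 4. Then every maximal 2-local subgroup of G is strongly embedded in G. -/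
theorem result {G : Type*} [Group G] [Finite G] (heven : Even (Nat.card G)) (hO : Cfsg.pCore 2 G = ⊥) (hloc : ∀ M : Subgroup G, Cfsg.IsTwoLocal M → Group.IsSolvable M ∧ Cfsg.IsOfCharacteristicTwo ↥M ∧ ¬ Cfsg.Involves (Equiv.Perm (Fin 4)) ↥M) (M : Subgroup G) (hM : Cfsg.IsMaximalTwoLocal M) : Cfsg.IsStronglyEmbedded M := by
  rcases exists_cp_or (p := 2) (G := G) (fun L hL => char_iff.2 (hloc L hL).2.1) hO with
    ⟨M, N, h1, h2, h⟩ | h
  · exact ((h.hasSection (hloc M h1.1).1 (hloc N h2.1).1).elim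
      (fun e => (hloc M h1.1).2.2 (PLocal.hasSection_iff.1 e))
      fun e => (hloc N h2.1).2.2 (PLocal.hasSection_iff.1 e)).elim
  · obtain ⟨h1, h2, h3⟩ := h M hM
    exact ⟨h1, even_iff_two_dvd.2 h2, fun g hg => Nat.not_even_iff_odd.1
      (mt even_iff_two_dvd.1 (h3 g hg))⟩

end Cfsg.Agent.S3756
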