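import Cfsg.Statements.S3760
import Cfsg.Agent.Lib.Transfer.SylowIn

set_option autoImplicit false
open Cfsg

namespace Cfsg.Agent.S3760

/-- Let the group G act transitively on a set X, let x ∈ X with stabilizer H = G_x, and let K ≤ H. Then N_G(K) acts transitively on the set of fixed points of K if and only if every G-conjugate of K contained in H is already an H-conjugate of K. -/
theorem result {G : Type*} [Group G] {X : Type*} [MulAction G X] (htrans : ∀ a b : X, ∃ g : G, g • a = b) (x : X) (K : Subgroup G) (hK : K ≤ MulAction.stabilizer G x) : (∀ a b : X, (∀ k ∈ K, k • a = a) → (∀ k ∈ K, k • b = b) → ∃ g ∈ Subgroup.normalizer (K : Set G), g • a = b) ↔ ∀ g : G, K.map (MulAut.conj g).toMonoidHom ≤ MulAction.stabilizer G x → ∃ h ∈ MulAction.stabilizer G x, K.map (MulAut.conj g).toMonoidHom = K.map (MulAut.conj h).toMonoidHom := by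
  open Cfsg.Lib Cfsg.Lib.Transfer Subgroup in
  constructor
  · intro h g hg
    obtain ⟨n, hn, hnx⟩ := h x (g⁻¹ • x) (fun k hk => hK hk) fun k hk => by
      have : (g * k * g⁻¹) • x = x := conj_le_iff.mp hg k hk
      rw [eq_inv_smul_iff, ← mul_smul, ← mul_smul, this]
    refine ⟨g * n, ?_, ?_⟩
    · rw [MulAction.mem_stabilizer_iff, mul_smul, hnx, smul_inv_smul]
    · rw [← conj_conj, conj_eq_self_iff.mpr hn]
  · intro h
    have key : ∀ a : X, (∀ k ∈ K, k • a = a) → ∃ n ∈ normalizer (K : Set G), n • x = a := by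
      intro a ha
      obtain ⟨g, rfl⟩ := htrans x a
      obtain ⟨t, ht, hgt⟩ := h g⁻¹ (conj_le_iff.mpr fun k hk => by
        rw [MulAction.mem_stabilizer_iff, inv_inv, mul_smul, mul_smul, ha k hk, inv_smul_smul])
      refine ⟨g * t, ?_, by rw [mul_smul, ht]⟩
      rw [← conj_eq_self_iff, ← conj_conj, ← hgt, conj_inv_conj]
    intro a b ha hb
    obtain ⟨m, hm, rfl⟩ := key a ha
    obtain ⟨n, hn, rfl⟩ := key b hb
    exact ⟨n * m⁻¹, mul_mem hn (inv_mem hm), by rw [mul_smul, inv_smul_smul]⟩

end Cfsg.Agent.S3760
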