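import Cfsg.Statements.S3761
import Cfsg.Agent.Lib.PGroup.RankOne

set_option autoImplicit false
open Cfsg

namespace Cfsg.Agent.S3761

section
open Subgroup Cfsg.Lib.PGroup
open scoped commutatorElement

theorem pc_eq {G : Type*} [Group G] (p : ℕ) (a : G) :
    powerClosure p 1 (zpowers a) = zpowers (a ^ p) := by
  refine le_antisymm ((closure_le _).2 ?_) (zpowers_le.2 (subset_closure ⟨a, mem_zpowers a, by simp⟩))
  rintro _ ⟨_, ⟨k, rfl⟩, rfl⟩
  exact ⟨k, by simp only [pow_one, ← zpow_natCast, ← zpow_mul, mul_comm]⟩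

theorem mem_cz {G : Type*} [Group G] {a x : G} :
    x ∈ centralizer (zpowers a : Set G) ↔ Commute x a := by
  refine ⟨fun h => (h a (mem_zpowers a)).symm, fun h => ?_⟩
  rintro _ ⟨k, rfl⟩
  exact (h.zpow_right k).symm

theorem one_add_pow_dvd {c : ℤ} (t : ℕ) : c ^ 2 ∣ (1 + c) ^ t - (1 + t * c) := by
  induction t with
  | zero => simp
  | succ t ih =>
    obtain ⟨d, hd⟩ := ih
    refine ⟨d * (1 + c) + t, ?_⟩
    rw [pow_succ, show (1 + c) ^ t = c ^ 2 * d + (1 + t * c) by rw [← hd]; ring]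
    push_cast; ring

theorem caseA {G : Type*} [Group G] [Finite G] {p : ℕ} [hp : Fact p.Prime] {a b : G} {m : ℕ}
    [hN : (zpowers a).Normal] (ha : orderOf a = p ^ m) (hm : 2 ≤ m)
    (hC : ∀ g, Commute g a → g ∈ zpowers a) (hb : b * a * b⁻¹ = a ^ (1 + p ^ (m - 1))) :
    centralizer (zpowers (a ^ p) : Set G) = zpowers a ⊔ zpowers b := by
  have hb' : b * a * b⁻¹ = a ^ (1 + (p : ℤ) ^ (m - 1)) := by rw [hb, ← zpow_natCast]; push_cast; rfl
  obtain ⟨m, rfl⟩ : ∃ k, m = k + 2 := ⟨m - 2, by omega⟩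
  have hp0 : (p : ℤ) ≠ 0 := by exact_mod_cast hp.out.ne_zero
  simp only [show m + 2 - 1 = m + 1 by omega] at hb'
  refine le_antisymm (fun x hx => ?_) (sup_le (zpowers_le.2 (mem_cz.2 ((Commute.refl a).pow_right p)))
    (zpowers_le.2 (mem_cz.2 ?_)))
  · obtain ⟨l, hl⟩ := exists_conj_eq_zpow (a := a) (g := x) (by rw [normalizer_eq_top]; trivial)
    have h1 := conj_zpow_of_conj_eq hl p
    rw [zpow_natCast, (mem_cz.1 hx).eq, mul_inv_cancel_right, ← zpow_natCast, ← zpow_mul,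
      eq_comm, ← mul_inv_eq_one, ← zpow_sub, zpow_eq_one_iff_of_orderOf ha] at h1
    have h2 : (p : ℤ) ^ (m + 1) ∣ l - 1 := by
      push_cast at h1
      rw [pow_succ', show (p : ℤ) * l - p = p * (l - 1) by ring] at h1
      exact (mul_dvd_mul_iff_left hp0).1 h1
    obtain ⟨t, ht⟩ := h2
    obtain ⟨s, hs⟩ : ∃ s : ℕ, (p : ℤ) ∣ t - s :=
      ⟨(t % p).toNat, by
        rw [Int.toNat_of_nonneg (Int.emod_nonneg _ hp0)]
        exact Int.dvd_self_sub_emod⟩
    have h3 := pow_conj_of_conj_eq hb' s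
    have h4 : a ^ l = a ^ (1 + (p : ℤ) ^ (m + 1)) ^ s := by
      rw [← mul_inv_eq_one, ← zpow_sub, zpow_eq_one_iff_of_orderOf ha]
      obtain ⟨d, hd⟩ := one_add_pow_dvd (c := (p : ℤ) ^ (m + 1)) s
      obtain ⟨e, he⟩ := hs
      refine ⟨e - p ^ m * d, ?_⟩
      rw [show (1 + (p : ℤ) ^ (m + 1)) ^ s = ((p : ℤ) ^ (m + 1)) ^ 2 * d + (1 + s * p ^ (m + 1)) by
        rw [← hd]; ring, show l = p ^ (m + 1) * t + 1 by rw [← ht]; ring,
        show t = p * e + s by rw [← he]; ring]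
      push_cast; ring
    have h5 : Commute ((b ^ s)⁻¹ * x) a := by
      rw [h4, ← h3] at hl
      calc (b ^ s)⁻¹ * x * a = (b ^ s)⁻¹ * (x * a * x⁻¹) * x := by group
        _ = a * ((b ^ s)⁻¹ * x) := by rw [hl]; group
    rw [show x = b ^ s * ((b ^ s)⁻¹ * x) by group]
    exact mul_mem (mem_sup_right (pow_mem (mem_zpowers b) s)) (mem_sup_left (hC _ h5))
  · have h1 := conj_zpow_of_conj_eq hb' p
    have h2 : (a ^ (p : ℤ)) ^ (1 + (p : ℤ) ^ (m + 1)) = a ^ (p : ℤ) := by
      rw [← zpow_mul, ← mul_inv_eq_one, ← zpow_sub, zpow_eq_one_iff_of_orderOf ha]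
      exact ⟨1, by push_cast; ring⟩
    rw [h2, zpow_natCast, mul_inv_eq_iff_eq_mul] at h1
    exact h1

theorem cent_of_normal {G : Type*} [Group G] {p : ℕ} {a : G} [(zpowers a).Normal]
    {E : Subgroup G} [hE : E.Normal] (h : ∀ x ∈ E, x ^ p = 1) :
    E ≤ centralizer (zpowers (a ^ p) : Set G) := by
  intro x hx
  obtain ⟨l, hl⟩ := exists_conj_eq_zpow (a := a) (g := x) (by rw [normalizer_eq_top]; trivial)
  have h1 : ⁅x, a⁆ ∈ E := by
    rw [commutatorElement_def, mul_assoc, mul_assoc, ← mul_assoc a]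
    exact mul_mem hx (hE.conj_mem _ (inv_mem hx) a)
  have h2 := h _ h1
  rw [commutator_eq_of_conj_eq hl] at h2
  have h3 := conj_zpow_of_conj_eq hl p
  rw [mem_cz]
  have h4 : (a ^ (p : ℤ)) ^ l = a ^ (p : ℤ) := by
    rw [← zpow_natCast, ← zpow_mul] at h2
    rw [← zpow_mul, ← mul_inv_eq_one, ← zpow_sub, ← h2]; congr 1; ring
  rw [h4, zpow_natCast, mul_inv_eq_iff_eq_mul] at h3
  exact h3

end

/-- Let G be a finite non-abelian p-group with a cyclic normal subgroup U of order p^n such that C_G(U) = U. Then either p = 2 and G is dihedral, generalized quaternion or semidihedral of order 2^(n+1); or, writing U₁ for the subgroup generated by the p-th powers of elements of U and M = C_G(U₁), the subgroup U has index p in M and the subgroup Ω₁(M) generated by the elements of M of order dividing p is elementary abelian of order p² and characteristic in G. -/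
theorem result {G : Type*} [Group G] [Finite G] {p : ℕ} [Fact p.Prime] (hG : IsPGroup p G) (hna : ¬ IsMulCommutative G) (U : Subgroup G) [U.Normal] (hU : IsCyclic U) (n : ℕ) (hUn : Nat.card U = p ^ n) (hC : Subgroup.centralizer (U : Set G) = U) : (p = 2 ∧ Nat.card G = 2 ^ (n + 1) ∧ ((∃ m : ℕ, Nonempty (G ≃* DihedralGroup m)) ∨ (∃ m : ℕ, Nonempty (G ≃* QuaternionGroup m)) ∨ Cfsg.IsQuasiDihedral G)) ∨ (U.relIndex (Subgroup.centralizer (Cfsg.powerClosure p 1 U : Set G)) = p ∧ Cfsg.IsElementaryAbelian p (Cfsg.omegaOne p (Subgroup.centralizer (Cfsg.powerClosure p 1 U : Set G))) ∧ Nat.card ↥(Cfsg.omegaOne p (Subgroup.centralizer (Cfsg.powerClosure p 1 U : Set G))) = p ^ 2 ∧ (Cfsg.omegaOne p (Subgroup.centralizer (Cfsg.powerClosure p 1 U : Set G))).Characteristic) := by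
  open Subgroup Cfsg.Lib.PGroup in
  open scoped commutatorElement in
  obtain ⟨a, rfl⟩ := U.isCyclic_iff_exists_zpowers_eq_top.mp hU
  have hm : orderOf a = p ^ n := by rw [← hUn, Nat.card_zpowers]
  have hC' : ∀ g, Commute g a → g ∈ zpowers a := fun g hg => hC ▸ mem_cz.2 hg
  have hcomm : ∀ g, g ∉ zpowers a → ¬ Commute g a := fun g hga hc => hga (hC' g hc)
  have hno : ∀ g, g ∈ normalizer (zpowers a : Set G) := fun g => by rw [normalizer_eq_top]; trivial
  by_cases hA : ∃ (g : G) (k : ℤ), g * a * g⁻¹ = a ^ k ∧ g ∉ zpowers a ∧ g ^ p ∈ zpowers a ∧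
      (p ≠ 2 ∨ 4 ∣ k - 1)
  · right
    obtain ⟨g, k, hk, hga, hgp, h4⟩ := hA
    obtain ⟨h2, h3, b, hba, hbp, hb, -⟩ :=
      modular_exists_standard_generator hm hk hga hgp h4 (hcomm g hga)
    have hM := caseA hm h2 hC' hb
    have hb' : b * a * b⁻¹ = a ^ (1 + (p : ℤ) ^ (n - 1)) := by
      rw [hb, ← zpow_natCast]; push_cast; rfl
    obtain ⟨e1, e2⟩ := modular_omegaOne hm hb' hba (hbp ▸ one_mem _) (by
      by_cases hp2 : p = 2
      · right
        subst hp2
        rw [add_sub_cancel_left]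
        exact_mod_cast pow_dvd_pow 2 (show 2 ≤ n - 1 by have := h3 rfl; omega)
      · exact Or.inl hp2) fun hc =>
      hcomm b hba (isMulCommutative_iff.mp inferInstance b (mem_sup_right (mem_zpowers b)) a
        (mem_sup_left (mem_zpowers a)))
    rw [pc_eq]
    refine ⟨?_, hM ▸ e1, hM ▸ e2, ?_⟩
    · rw [hM]; exact relIndex_sup_zpowers (hno b) hba (hbp ▸ one_mem _)
    · have hN : (zpowers (a ^ p)).Normal := by
        refine ⟨?_⟩
        rintro _ ⟨j, rfl⟩ g
        obtain ⟨l, hl⟩ := exists_conj_eq_zpow (hno g)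
        have h1 := conj_of_mem_zpowers hl (y := (a ^ p) ^ j) (zpow_mem (pow_mem (mem_zpowers a) p) j)
        simp only [h1]
        exact zpow_mem (zpow_mem (mem_zpowers _) j) l
      have hE : (omegaOne p (centralizer (zpowers (a ^ p) : Set G))).Normal := by
        rw [← normalizer_eq_top_iff, eq_top_iff]
        exact le_trans (by rw [normalizer_eq_top]) (normalizer_le_normalizer_omegaOne _)
      rw [← hM] at e1
      refine characteristic_iff_map_le.2 fun φ => ?_
      have := hE.map φ.toMonoidHom φ.surjective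
      have hx : ∀ x ∈ (omegaOne p (centralizer (zpowers (a ^ p) : Set G))).map φ.toMonoidHom,
          x ^ p = 1 := by
        rintro _ ⟨y, hy, rfl⟩
        rw [← map_pow, e1.2 y hy, map_one]
      exact fun x h => mem_omegaOne (cent_of_normal hx h) (hx x h)
  left
  have key : ∀ g : G, ∀ k : ℤ, g * a * g⁻¹ = a ^ k → g ∉ zpowers a → g ^ p ∈ zpowers a →
      p = 2 ∧ ¬ 4 ∣ k - 1 := by
    intro g k hk hga hgp
    by_contra hcon
    exact hA ⟨g, k, hk, hga, hgp, by tauto⟩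
  have hS : ¬ (⊤ : Subgroup G) ≤ zpowers a := fun h => hna
    ⟨⟨fun x y => isMulCommutative_iff.mp inferInstance x (h trivial) y (h trivial)⟩⟩
  obtain ⟨g, -, hga, hgp, -⟩ := exists_mem_not_mem_pow_mem (hG.to_subgroup ⊤) le_top le_top
    (by rw [normalizer_eq_top]) hS
  obtain ⟨k, hk⟩ := exists_conj_eq_zpow (hno g)
  obtain ⟨rfl, h4⟩ := key g k hk hga hgp
  have hodd : ∀ x : G, ∀ l : ℤ, x * a * x⁻¹ = a ^ l → (2 : ℤ) ∣ l - 1 := by
    intro x l hl
    obtain ⟨j, hj⟩ := hG x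
    have h1 := dvd_pow_sub_one_of_commute (n := 2 ^ j) hm hl (by
      rw [hj]; exact Commute.one_left a)
    have hm0 : n ≠ 0 := by
      rintro rfl
      rw [pow_zero, orderOf_eq_one_iff] at hm
      exact hcomm g hga (hm ▸ Commute.one_right g)
    have h2 : (2 : ℤ) ∣ l ^ 2 ^ j - 1 := by
      refine dvd_trans ?_ h1
      exact_mod_cast dvd_pow_self 2 hm0
    by_contra h3
    have h5 : (2 : ℤ) ∣ l := by omega
    have h6 := h5.trans (dvd_pow_self l (show 2 ^ j ≠ 0 by positivity))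
    omega
  have hm2 : 2 ≤ n := by
    by_contra h1
    apply hcomm g hga
    rw [← commutatorElement_eq_one_iff_commute, commutator_eq_of_conj_eq hk,
      zpow_eq_one_iff_of_orderOf hm]
    refine dvd_trans ?_ (hodd g k hk)
    exact_mod_cast (pow_dvd_pow 2 (show n ≤ 1 by omega))
  have hsq : ∀ x : G, x ^ 2 ∈ zpowers a := by
    intro x
    by_contra hx2
    obtain ⟨i, hi1, hi2⟩ := exists_pow_not_mem_pow_mem (p := 2) (hG (x ^ 2)) hx2
    obtain ⟨l, hl⟩ := exists_conj_eq_zpow (hno (x ^ 2 ^ i))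
    have h1 := pow_conj_of_conj_eq hl 2
    rw [← pow_mul, mul_comm (2 ^ i) 2, pow_mul] at h1
    apply (key _ _ h1 hi1 hi2).2
    obtain ⟨c, hc⟩ := hodd _ l hl
    exact ⟨c * c + c, by rw [show l = 2 * c + 1 by omega]; ring⟩
  obtain ⟨b, hba, hb, hcase⟩ := exists_generator_of_not_four_dvd hm hm2 hk hga hgp h4
  have hsup : zpowers a ⊔ zpowers b = ⊤ := by
    refine le_antisymm le_top fun x _ => ?_
    by_cases hxa : x ∈ zpowers a
    · exact mem_sup_left hxa
    have h1 : x * b ∈ zpowers a := by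
      by_contra h1
      obtain ⟨l, hl⟩ := exists_conj_eq_zpow (hno x)
      obtain ⟨l', hl'⟩ := exists_conj_eq_zpow (hno b)
      apply (key _ _ (mul_conj_of_conj_eq hl hl') h1 (hsq _)).2
      have h2 := (key x l hl hxa (hsq x)).2
      have h3 := (key b l' hl' hba (hsq b)).2
      have h5 := hodd x l hl
      have h6 := hodd b l' hl'
      obtain ⟨c, rfl⟩ : ∃ c, l = 4 * c + 3 := ⟨(l - 3) / 4, by omega⟩
      obtain ⟨d, rfl⟩ : ∃ c, l' = 4 * c + 3 := ⟨(l' - 3) / 4, by omega⟩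
      exact ⟨4 * c * d + 3 * c + 3 * d + 2, by ring⟩
    have : x = x * b * b⁻¹ := by group
    rw [this]
    exact mul_mem (mem_sup_left h1) (mem_sup_right (inv_mem (mem_zpowers b)))
  have hcard : Nat.card G = 2 ^ (n + 1) := by
    rw [← card_top, ← hsup, card_sup_zpowers (hno b) hba (hsq b), hUn, pow_succ']
  refine ⟨rfl, hcard, ?_⟩
  rcases hcase with ⟨h1, h2⟩ | ⟨h1, h2⟩ | ⟨h0, h1, h2⟩
  · exact Or.inl ⟨_, nonempty_mulEquiv_dihedral hm h1 h2 hba hsup⟩
  · exact Or.inr (Or.inl ⟨2 ^ (n - 1), nonempty_mulEquiv_quaternion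
      (by rw [hm, ← pow_succ']; congr 1; omega) h1 h2 hba hsup⟩)
  · exact Or.inr (Or.inr ⟨n, h0, hcard, a, b, hm,
      orderOf_eq_prime h1 fun h => hba (h ▸ one_mem _), h2⟩)

end Cfsg.Agent.S3761
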