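import Cfsg.Statements.S3762
import Cfsg.Agent.Lib.Extraspecial.Hall

set_option autoImplicit false
open Cfsg Cfsg.Lib Subgroup
open scoped commutatorElement

namespace Cfsg.Agent.S3762

/-- Let G be a finite p-group of symplectic type: every characteristic abelian subgroup of G is cyclic. Then G = E ∗ R is a central product of subgroups E and R (they commute elementwise and generate G) where E is extraspecial or trivial, and R is cyclic, or p = 2 and R is dihedral, semidihedral or generalized quaternion of order at least 16. -/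
theorem result {G : Type*} [Group G] [Finite G] {p : ℕ} [Fact p.Prime] (hG : IsPGroup p G) (hsymp : ∀ A : Subgroup G, A.Characteristic → IsMulCommutative A → IsCyclic A) : ∃ E R : Subgroup G, (∀ e ∈ E, ∀ r ∈ R, e * r = r * e) ∧ E ⊔ R = ⊤ ∧ (E = ⊥ ∨ Cfsg.IsExtraspecial p ↥E) ∧ (IsCyclic R ∨ (p = 2 ∧ 16 ≤ Nat.card R ∧ ((∃ m : ℕ, Nonempty (↥R ≃* DihedralGroup m)) ∨ (∃ m : ℕ, Nonempty (↥R ≃* QuaternionGroup m)) ∨ Cfsg.IsQuasiDihedral ↥R))) := by
  rcases subsingleton_or_nontrivial G with h | h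
  · exact ⟨⊥, ⊥, by simp, Subsingleton.elim _ _, Or.inl rfl, Or.inl inferInstance⟩
  obtain ⟨-, E, h1, -, h2, h3⟩ := ES.hall_aux hG hsymp
  have key : ∃ E' : Subgroup G, E' ≤ E ∧ E' ⊔ centralizer (E : Set G) = ⊤ ∧
      (E' = ⊥ ∨ IsExtraspecial p E') := by
    rcases h1 with h1 | h1
    · refine ⟨⊥, bot_le, ?_, Or.inl rfl⟩
      rw [← h2, bot_sup_eq, eq_comm, sup_eq_right]
      exact (h1.le.trans (PGroup.omegaOne_le _)).trans (center_le_centralizer _)
    · exact ⟨E, le_rfl, h2, Or.inr h1⟩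
  obtain ⟨E', h4, h5, h6⟩ := key
  refine ⟨E', centralizer (E : Set G), fun e he r hr => hr e (h4 he), h5, h6, h3.imp id ?_⟩
  rintro ⟨rfl, a, b, m, hm, ha, hc, hb, hab, h7⟩
  refine ⟨rfl, hc ▸ Nat.pow_le_pow_right two_pos (show 4 ≤ m + 1 by omega), ?_⟩
  rcases h7 with h7 | h7 | h7
  · exact Or.inl ⟨_, PGroup.nonempty_mulEquiv_dihedral ha h7.1 h7.2 hb hab⟩
  · refine Or.inr (Or.inl ⟨_, PGroup.nonempty_mulEquiv_quaternion ?_ h7.1 h7.2 hb hab⟩)
    rw [ha, ← pow_succ', Nat.sub_add_cancel (by omega)]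
  · exact Or.inr (Or.inr ⟨m, hm, hc, a, b, ha, orderOf_eq_prime h7.1 fun e => hb (e ▸ one_mem _),
      h7.2⟩)

end Cfsg.Agent.S3762
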