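import Cfsg.Statements.S3764
import Cfsg.Agent.Lib.Coprime.HallHigman

set_option autoImplicit false
open Cfsg

namespace Cfsg.Agent.S3764

/-- Let p, q, r be distinct primes and let X, Q, V be subgroups of a finite group with X of order r, Q an extraspecial q-group normalized by X with C_Q(X) = Z(Q), and V an elementary abelian p-group normalized by X and Q on which XQ acts faithfully ((X ⊔ Q) ∩ C(V) = 1). If C_V(X) = 1, then q = 2, r = 2^n + 1 for some n, and Q has order 2^(2n+1). -/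
theorem result {G : Type*} [Group G] [Finite G] {p q r : ℕ} (hp : p.Prime) (hq : q.Prime) (hr : r.Prime) (hpq : p ≠ q) (hpr : p ≠ r) (hqr : q ≠ r) (X Q V : Subgroup G) (hX : Nat.card X = r) (hQ : Cfsg.IsExtraspecial q ↥Q) (hXQ : X ≤ Subgroup.normalizer (Q : Set G)) (hCQ : Q ⊓ Subgroup.centralizer (X : Set G) = (Subgroup.center ↥Q).map Q.subtype) (hV : Cfsg.IsElementaryAbelian p V) (hXV : X ≤ Subgroup.normalizer (V : Set G)) (hQV : Q ≤ Subgroup.normalizer (V : Set G)) (hfaith : (X ⊔ Q) ⊓ Subgroup.centralizer (V : Set G) = ⊥) (hCV : V ⊓ Subgroup.centralizer (X : Set G) = ⊥) : q = 2 ∧ ∃ n : ℕ, r = 2 ^ n + 1 ∧ Nat.card Q = 2 ^ (2 * n + 1) := by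
  have := Fact.mk hp
  have := Fact.mk hq
  have := Fact.mk hr
  obtain ⟨k, hk⟩ := Lib.PGroup.elemAb_card hV
  obtain ⟨⟨hQ, -, hQ'⟩, hZ⟩ := hQ
  obtain ⟨m, hm⟩ := hQ.exists_card_eq
  rw [← Lib.Core.card_map_subtype, Lib.Core.map_subtype_center] at hZ
  replace hQ' : ⁅Q, Q⁆ = Q ⊓ Subgroup.centralizer (Q : Set G) := by
    rw [← Subgroup.map_subtype_commutator, hQ', Lib.Core.map_subtype_center]
  have := isCyclic_of_prime_card hX
  have h0 : Q ⊓ Subgroup.centralizer (Q : Set G) ≠ ⊥ := fun e => hq.ne_one (by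
    rw [← hZ, e, Subgroup.card_bot])
  obtain ⟨d, h1, h2⟩ := Lib.Coprime.exists_card_eq_of_extraspecial (Q := Q) (X := X) (V := V)
    inferInstance (fun e => hr.ne_one (by rw [← hX, e, Subgroup.card_bot])) hXQ
    (hX ▸ hm ▸ ((Nat.coprime_primes hq hr).mpr hqr).pow_left m) (hZ ▸ hq) (hQ'.le.trans inf_le_right)
    (fun x hx hx1 => by
      rw [Lib.Coprime.centralizer_singleton_eq_of_card_prime (hX ▸ hr) hx hx1, hCQ,
        Lib.Core.map_subtype_center]) (sup_le hQV hXV) (by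
    refine Nat.Coprime.coprime_dvd_left (Lib.Coprime.card_sup_dvd hXQ) ?_
    rw [hk, hm, hX]
    exact (Nat.Coprime.mul_left (((Nat.coprime_primes hq hp).mpr hpq.symm).pow_left m)
      ((Nat.coprime_primes hr hp).mpr hpr.symm)).pow_right k)
    (Lib.Coprime.isSolvable_of_isMulCommutative hV.1)
    (fun h => h0 (le_bot_iff.mp (hfaith ▸ le_inf (inf_le_left.trans le_sup_right) h))) hCV
  obtain ⟨n, rfl⟩ := Lib.Coprime.exists_eq_pow_of_sq_eq_relIndex hQ h1
  have hn : n ≠ 0 := by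
    rintro rfl
    rw [pow_zero, one_pow, eq_comm, Subgroup.relIndex_eq_one,
      ← Subgroup.commutator_eq_bot_iff_le_centralizer] at h1
    exact h0 (hQ' ▸ h1)
  have h3 := hX ▸ h2.resolve_left (Nat.one_lt_pow hn hq.one_lt).ne'
  obtain rfl := Lib.Coprime.eq_two_of_prime_pow_add_one hq hn (h3 ▸ hr)
  refine ⟨rfl, n, h3, ?_⟩
  rw [← Lib.Coprime.card_inf_mul_relIndex (Subgroup.centralizer (Q : Set G)) Q, inf_comm, hZ, ← h1]
  ring

end Cfsg.Agent.S3764
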