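import Cfsg.Statements.S3765
import Cfsg.Agent.Lib.Coprime.HallHigman

set_option autoImplicit false
open Cfsg

namespace Cfsg.Agent.S3765

/-- Let p, q, r be distinct primes and let X, Q, V be subgroups of a finite group with X of order r normalizing the q-group Q and acting faithfully on it (X ∩ C(Q) = 1), and V a nontrivial elementary abelian p-group normalized by X and Q on which XQ acts faithfully. If q = 2 and r has the form 2^n + 1, assume in addition that Q is abelian. Then C_V(X) ≠ 1. -/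
theorem result {G : Type*} [Group G] [Finite G] {p q r : ℕ} (hp : p.Prime) (hq : q.Prime) (hr : r.Prime) (hpq : p ≠ q) (hpr : p ≠ r) (hqr : q ≠ r) (X Q V : Subgroup G) (hX : Nat.card X = r) (hQ : IsPGroup q Q) (hXQ : X ≤ Subgroup.normalizer (Q : Set G)) (hXfaith : X ⊓ Subgroup.centralizer (Q : Set G) = ⊥) (hV : Cfsg.IsElementaryAbelian p V) (hV1 : V ≠ ⊥) (hXV : X ≤ Subgroup.normalizer (V : Set G)) (hQV : Q ≤ Subgroup.normalizer (V : Set G)) (hfaith : (X ⊔ Q) ⊓ Subgroup.centralizer (V : Set G) = ⊥) (hexc : q = 2 → (∃ n : ℕ, r = 2 ^ n + 1) → IsMulCommutative Q) : V ⊓ Subgroup.centralizer (X : Set G) ≠ ⊥ := by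
  intro hC
  have := Fact.mk hp
  have := Fact.mk hq
  obtain ⟨k, hk⟩ := Lib.PGroup.elemAb_card hV
  obtain ⟨m, hm⟩ := hQ.exists_card_eq
  have h1 : (Nat.card X).Coprime (Nat.card Q) := hX ▸ hm ▸
    ((Nat.coprime_primes hr hq).mpr hqr.symm).pow_right m
  have h2 := Lib.Coprime.commutator_le_centralizer_of_prime hXQ (hX ▸ hr) h1 (fun n _ e P hP hP2 => by
    rcases eq_or_ne q 2 with rfl | hq2
    · exact Lib.PGroup.isMulCommutative_of_le hP (hexc rfl ⟨n, hX ▸ e⟩)
    · rw [Subgroup.card_eq_one.mp (hP2.card_eq_or_dvd.resolve_right fun h => hq2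
        ((Nat.prime_dvd_prime_iff_eq Nat.prime_two hq).mp (Nat.prime_two.dvd_of_dvd_pow
          (hm ▸ h.trans (Subgroup.card_dvd_of_le hP)))).symm)]
      infer_instance) (sup_le hQV hXV) (by
    refine Nat.Coprime.coprime_dvd_left (Lib.Coprime.card_sup_dvd hXQ) ?_
    rw [hk, hm, hX]
    exact (Nat.Coprime.mul_left (((Nat.coprime_primes hq hp).mpr hpq.symm).pow_left m)
      ((Nat.coprime_primes hr hp).mpr hpr.symm)).pow_right k)
    (Lib.Coprime.isSolvable_of_isMulCommutative hV.1) hC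
  have h3 : ⁅Q, X⁆ = ⊥ := le_bot_iff.mp (hfaith ▸ le_inf
    ((Lib.Coprime.commutator_le_of_le_normalizer hXQ).trans le_sup_right) h2)
  rw [Subgroup.commutator_comm, Subgroup.commutator_eq_bot_iff_le_centralizer, ← inf_eq_left,
    hXfaith] at h3
  exact hr.ne_one (by rw [← hX, ← h3, Subgroup.card_bot])

end Cfsg.Agent.S3765
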