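import Cfsg.Statements.S3766
import Cfsg.Agent.Lib.BG.T01_Chief

set_option autoImplicit false
open Cfsg

namespace Cfsg.Agent.S3766

open Subgroup Cfsg.Lib Cfsg.Lib.Core
open scoped commutatorElement

/-- Let G be a finite solvable group and N a normal subgroup of G. Call a pair V < U of normal subgroups of G a chief factor of G when no normal subgroup of G lies strictly between them; an element g centralizes the chief factor U/V when u g u⁻¹ g⁻¹ ∈ V for all u ∈ U. Then an element of G lies in the Fitting subgroup F(N) if and only if it lies in N and centralizes every chief factor of G; and also if and only if it lies in N and centralizes every chief factor U/V of G with U ≤ F(N). -/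
theorem result {G : Type*} [Group G] [Finite G] (hG : Group.IsSolvable G) (N : Subgroup G) [N.Normal] (g : G) : (g ∈ (Cfsg.fittingSubgroup ↥N).map N.subtype ↔ g ∈ N ∧ ∀ U V : Subgroup G, (U.Normal ∧ V.Normal ∧ V < U ∧ ∀ W : Subgroup G, W.Normal → V ≤ W → W ≤ U → W = V ∨ W = U) → ∀ u ∈ U, u * g * u⁻¹ * g⁻¹ ∈ V) ∧ (g ∈ (Cfsg.fittingSubgroup ↥N).map N.subtype ↔ g ∈ N ∧ ∀ U V : Subgroup G, (U.Normal ∧ V.Normal ∧ V < U ∧ ∀ W : Subgroup G, W.Normal → V ≤ W → W ≤ U → W = V ∨ W = U) → U ≤ (Cfsg.fittingSubgroup ↥N).map N.subtype → ∀ u ∈ U, u * g * u⁻¹ * g⁻¹ ∈ V) := by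
  have hF : (fittingSubgroup N).map N.subtype = fittingSubgroup G ⊓ N := fittingOf_eq_inf_of_normal N
  have h1 : g ∈ (fittingSubgroup N).map N.subtype → g ∈ N ∧ ∀ U V : Subgroup G, (U.Normal ∧ V.Normal ∧
      V < U ∧ ∀ W : Subgroup G, W.Normal → V ≤ W → W ≤ U → W = V ∨ W = U) →
      ∀ u ∈ U, u * g * u⁻¹ * g⁻¹ ∈ V := fun h => by
    rw [hF] at h
    exact ⟨h.2, fun U V hc u hu => commutator_fittingSubgroup_le_of_isChiefFactor
      ⟨hc.2.2.1, hc.1, hc.2.1, hc.2.2.2⟩ (commutator_mem_commutator hu h.1)⟩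
  have h2 : (g ∈ N ∧ ∀ U V : Subgroup G, (U.Normal ∧ V.Normal ∧
      V < U ∧ ∀ W : Subgroup G, W.Normal → V ≤ W → W ≤ U → W = V ∨ W = U) →
      U ≤ (fittingSubgroup N).map N.subtype → ∀ u ∈ U, u * g * u⁻¹ * g⁻¹ ∈ V) →
      g ∈ (fittingSubgroup N).map N.subtype := fun h => by
    rw [hF] at h ⊢
    refine ⟨BG.le_fittingSubgroup_of_stab (X := zpowers g) (fun U W hc hU => ?_) (mem_zpowers g), h.1⟩
    have := hc.2.1
    have := hc.2.2.1
    rw [BG.commutator_le_iff_le_comap, zpowers_le, mem_comap]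
    rintro _ ⟨u, hu, rfl⟩
    rw [← commutatorElement_eq_one_iff_mul_comm, ← map_commutatorElement, QuotientGroup.mk'_apply,
      QuotientGroup.eq_one_iff]
    by_cases hle : U ⊓ N ≤ W
    · exact hle ⟨commutator_le_left U ⊤ (commutator_mem_commutator hu (mem_top g)),
        commutator_le_right ⊤ N (commutator_mem_commutator (mem_top u) h.1)⟩
    have hlt : W ⊓ N < U ⊓ N := lt_of_le_of_ne (inf_le_inf_right _ hc.1.le) fun e =>
      hle (e ▸ inf_le_left)
    have hU' : W ⊔ U ⊓ N = U := (hc.2.2.2 _ inferInstance le_sup_left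
      (sup_le hc.1.le inf_le_left)).resolve_left fun e => hle (e ▸ le_sup_right)
    obtain ⟨w, hw, v, hv, rfl⟩ := (mem_sup_of_le_normalizer_right le_normalizer_of_normal).1 (hU' ▸ hu)
    have h3 := h.2 (U ⊓ N) (W ⊓ N) ⟨inferInstance, inferInstance, hlt, fun X hX h4 h5 => ?_⟩
      (inf_le_inf_right _ hU) v hv
    · have e : ⁅w * v, g⁆ = w * (v * g * v⁻¹ * g⁻¹) * (g * w⁻¹ * g⁻¹) := by
        rw [commutatorElement_def]; group
      rw [e]
      exact W.mul_mem (W.mul_mem hw h3.1) (this.conj_mem _ (W.inv_mem hw) g)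
    · have h6 : (X ⊔ W) ⊓ N = X := by
        rw [sup_inf_of_le_normalizer (h5.trans inf_le_right) le_normalizer_of_normal, sup_eq_left.2 h4]
      refine (hc.2.2.2 (X ⊔ W) inferInstance le_sup_right
        (sup_le (h5.trans inf_le_left) hc.1.le)).imp (fun e => ?_) fun e => ?_ <;> rw [← h6, e]
  exact ⟨⟨h1, fun h => h2 ⟨h.1, fun U V hc _ => h.2 U V hc⟩⟩,
    ⟨fun h => ⟨(h1 h).1, fun U V hc _ => (h1 h).2 U V hc⟩, h2⟩⟩

end Cfsg.Agent.S3766
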