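import Cfsg.Statements.S3768
import Cfsg.Agent.Lib.BG.T03_1
import Cfsg.Agent.Lib.Frobenius.Theorem

set_option autoImplicit false
open Cfsg

namespace Cfsg.Agent.S3768

/-- Let G be a finite Frobenius group with Frobenius complement R and Frobenius kernel K (the identity together with the elements in no conjugate of R), and let N be a normal subgroup of G not containing K. Then G/N is a Frobenius group with Frobenius complement RN/N whose Frobenius kernel is the image of K. -/
theorem result {G : Type*} [Group G] [Finite G] (R : Subgroup G) (hR : Cfsg.IsFrobeniusComplement R) (N : Subgroup G) [N.Normal] (hKN : ¬ Cfsg.frobeniusKernel R ⊆ N) : Cfsg.IsFrobeniusComplement (R.map (QuotientGroup.mk' N)) ∧ Cfsg.frobeniusKernel (R.map (QuotientGroup.mk' N)) = QuotientGroup.mk' N '' Cfsg.frobeniusKernel R := by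
  open Subgroup Cfsg.Lib Cfsg.Lib.BG in
  obtain ⟨K, _, h1, h2, h3, h4⟩ := Frobenius.exists_kernel hR
  rw [← h1] at hKN ⊢
  have h5 := (Frobenius.le_or_le_of_normal h3 h4 N).resolve_left hKN
  have hs := QuotientGroup.mk'_surjective N
  haveI := (inferInstance : K.Normal).map _ hs
  have h6 : K.map (QuotientGroup.mk' N) ⊔ R.map (QuotientGroup.mk' N) = ⊤ := by
    rw [← Subgroup.map_sup, h3, map_top_of_surjective _ hs]
  have h7 := SemiReg.map (QuotientGroup.mk' N) h4 le_normalizer_of_normal
  refine ⟨Frobenius.isFrobeniusComplement_of_fpf h6 ?_ ?_ h7, (Frobenius.frobeniusKernel_eq_of_fpf h6 h7).trans (coe_map _ _)⟩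
  · rwa [Ne, Subgroup.map_eq_bot_iff, QuotientGroup.ker_mk']
  · rw [Ne, Subgroup.map_eq_bot_iff, QuotientGroup.ker_mk']
    exact fun h => hR.1 (eq_bot_iff.2 (Frobenius.inf_eq_bot_of_fpf h4 ▸ le_inf (h.trans h5) le_rfl))

end Cfsg.Agent.S3768
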