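import Cfsg.Statements.S3770
import Cfsg.Agent.Lib.Coprime.LiftIrr
import Cfsg.Agent.Lib.Frobenius.Theorem

set_option autoImplicit false
open Cfsg

namespace Cfsg.Agent.S3770

/-- Let G and V be subgroups of a finite group with G a Frobenius group with complement R of prime order and kernel K, G normalizing V, and V an elementary abelian ℓ-group for a prime ℓ not dividing the order of G. If C_V(R) has order ℓ, then the derived subgroup of K centralizes V. -/
theorem result {X : Type*} [Group X] [Finite X] (G : Subgroup X) (V : Subgroup X) {ℓ : ℕ} (hℓ : ℓ.Prime) (hV : Cfsg.IsElementaryAbelian ℓ V) (hℓG : ¬ ℓ ∣ Nat.card G) (hGV : G ≤ Subgroup.normalizer (V : Set X)) (R : Subgroup ↥G) (hR : Cfsg.IsFrobeniusComplement R) (hRp : (Nat.card R).Prime) (hCV : Nat.card ↥(V ⊓ Subgroup.centralizer ((R.map G.subtype : Subgroup X) : Set X)) = ℓ) : ⁅Subgroup.closure (Subtype.val '' Cfsg.frobeniusKernel R), Subgroup.closure (Subtype.val '' Cfsg.frobeniusKernel R)⁆ ≤ Subgroup.centralizer (V : Set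 X) := by
  have := Fact.mk hℓ
  obtain ⟨k, hk⟩ := Lib.PGroup.elemAb_card hV
  obtain ⟨K, h1, h2, -, h3, h4⟩ := Lib.Frobenius.exists_kernel hR
  have h5 : Subgroup.closure (Subtype.val '' Cfsg.frobeniusKernel R) = K.map G.subtype := by
    rw [← h2]
    exact Subgroup.closure_eq (K.map G.subtype)
  have h6 : K.map G.subtype ⊔ R.map G.subtype = G := by
    rw [← Subgroup.map_sup, h3, Lib.Core.map_subtype_top]
  have := isCyclic_of_prime_card hCV
  rw [h5]
  refine Lib.Coprime.commutator_le_centralizer_of_frobenius (R := R.map G.subtype)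
    ((Subgroup.map_subtype_le _).trans (Lib.Core.le_normalizer_map_subtype K)) ?_ (h6.symm ▸ hGV)
    (h6.symm ▸ hk ▸ ((Nat.Prime.coprime_iff_not_dvd hℓ).mpr hℓG).symm.pow_right k)
    (Lib.Coprime.isSolvable_of_isMulCommutative hV.1) inferInstance
  rintro _ ⟨x, hx, rfl⟩ hx1
  rw [Lib.Frobenius.inf_centralizer_eq_bot_iff]
  rintro _ ⟨y, hy, rfl⟩ e
  rw [(Lib.Frobenius.inf_centralizer_eq_bot_iff _ _).mp (h4 x hx fun e => hx1 (by simp [e])) y hy
    (Subtype.ext e), map_one]

end Cfsg.Agent.S3770
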