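import Cfsg.Statements.S3771
import Cfsg.Agent.Lib.PGroup.Omega
import Cfsg.Agent.Lib.FGS.Basic
import Cfsg.Agent.Lib.Core.Basic

set_option autoImplicit false
open Cfsg

namespace Cfsg.Agent.S3771

/-- Let p be a prime and R a finite p-group of p-rank at most 2 (no elementary abelian subgroup of order p³) in which every element has order dividing p. Then R has order at most p³. -/
theorem result {R : Type*} [Group R] [Finite R] {p : ℕ} [Fact p.Prime] (hR : IsPGroup p R) (hrank : Cfsg.PRankLE p 2 R) (hexp : ∀ x : R, x ^ p = 1) : Nat.card R ≤ p ^ 3 := by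
  open Cfsg.Lib Cfsg.Lib.PGroup Subgroup in
  open scoped commutatorElement in
  have hp : p.Prime := Fact.out
  have := hR.isNilpotent
  obtain ⟨A, -, hAn, hAc, hA⟩ := exists_scn_ge (⊥ : Subgroup R)
  have h1 : Nat.card A ≤ p ^ 2 := hrank A hAc fun a _ => hexp a
  have h2 : A.index ≤ p := by
    by_cases hz : A ≤ center R
    · have : A = ⊤ := by rw [← hA, eq_top_iff]; exact fun g _ a ha => (mem_center_iff.mp (hz ha) g).symm
      rw [this, index_top]; exact hp.one_le
    · obtain ⟨a, ha, haz⟩ := SetLike.not_le_iff_exists.mp hz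
      have hA0 : A ≠ ⊥ := by rintro rfl; exact hz bot_le
      obtain ⟨z, hzA, hzc, hzo⟩ := exists_mem_center_orderOf_eq hR A hA0
      have hzn : (zpowers z).Normal := ⟨fun n hn g => by
        rw [mem_center_iff.mp ((zpowers_le.mpr hzc) hn) g, mul_inv_cancel_right]; exact hn⟩
      have h3 := card_sup_zpowers (M := zpowers z) (x := a) (le_normalizer_of_normal (mem_top a))
        (fun h => haz (zpowers_le.mpr hzc h)) (by rw [hexp]; exact one_mem _)
      rw [Nat.card_zpowers, hzo] at h3
      have h4 : zpowers z ⊔ zpowers a = A := eq_of_le_of_card_ge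
        (sup_le (zpowers_le.mpr hzA) (zpowers_le.mpr ha)) (by rw [h3, ← sq]; exact h1)
      have h5 : centralizer ({a} : Set R) = A := by
        rw [← hA, ← h4, Core.centralizer_sup, Core.centralizer_zpowers, Core.centralizer_zpowers,
          centralizer_eq_top_iff_subset.mpr (Set.singleton_subset_iff.mpr hzc), top_inf_eq]
      have h6 := Core.card_lt_card_of_lt (commutator_top_lt A hA0)
      obtain ⟨k, hk⟩ := (hR.to_subgroup ⁅A, ⊤⁆).exists_card_eq
      have h7 : Nat.card (⁅A, ⊤⁆ : Subgroup R) ≤ p := by
        rw [hk] at h6 ⊢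
        have : k < 2 := (Nat.pow_lt_pow_iff_right hp.one_lt).mp (h6.trans_le h1)
        calc p ^ k ≤ p ^ 1 := Nat.pow_le_pow_right hp.pos (by omega)
          _ = p := pow_one p
      rw [← h5]
      refine (FGS.index_centralizer_le_card fun g => ?_).trans h7
      rw [commutator_comm]
      exact commutator_mem_commutator (mem_top g) ha
  rw [← A.card_mul_index, pow_succ]
  exact Nat.mul_le_mul h1 h2

end Cfsg.Agent.S3771
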