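import Cfsg.Statements.S3772
import Cfsg.Agent.Lib.Extraspecial.Two

set_option autoImplicit false
open Cfsg Cfsg.Lib Cfsg.Lib.Orth Module

namespace Cfsg.Agent.S3772

theorem cnt_cases {V : Type*} [AddCommGroup V] [Module (ZMod 2) V] [FiniteDimensional (ZMod 2) V]
    (Q : QuadraticForm (ZMod 2) V) (hQ : ∃ v, Q v ≠ 0) {d : ℕ} (hd : finrank (ZMod 2) V = d) :
    2 * cnt Q 0 = 2 ^ d ∨ ∃ r : ℕ, 1 ≤ r ∧ 2 * r ≤ d ∧ (d = 2 * r → ND Q) ∧
      (2 * cnt Q 0 = 2 ^ d + 2 ^ (d - r) ∨ 2 * cnt Q 0 + 2 ^ (d - r) = 2 ^ d) := by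
  have : Finite V := Module.finite_of_finite (ZMod 2)
  by_cases h : ∃ u ∈ perp Q ⊤, Q u ≠ 0
  · left
    obtain ⟨u, hu, h1⟩ := h
    have h2 : cnt Q 1 = cnt Q 0 := by
      refine Nat.card_congr (Equiv.subtypeEquiv (Equiv.addRight u) fun v => ?_)
      rw [Equiv.coe_addRight, Q_add, mem_perp.1 hu v trivial, ES.zmod_two_eq_one_of_ne_zero h1]
      generalize Q v = a
      revert a
      decide
    have h3 := sum_cnt (Q := Q)
    rw [Nat.card_zmod, hd, show (Finset.univ : Finset (ZMod 2)) = {0, 1} from rfl,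
      Finset.sum_pair (by decide), h2] at h3
    omega
  right
  push Not at h
  obtain ⟨W, hW⟩ := (perp Q ⊤).exists_isCompl
  have hO : IsOSum Q W (perp Q ⊤) := ⟨hW.symm, fun w _ u hu => mem_perp.1 hu w trivial⟩
  have hN : ND (Q.restrict W) := by
    rw [nd_restrict_iff]
    intro x hx hx'
    have : x ∈ perp Q ⊤ := mem_perp'.2 fun v _ => by
      obtain ⟨w, hw, u, hu, rfl⟩ := hO.exists_add v
      rw [QuadraticMap.polar_add_right, hx' w hw, mem_perp.1 hu x trivial, add_zero]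
    exact (Submodule.disjoint_def.1 hW.disjoint) x this hx
  obtain ⟨r, hr⟩ := even_finrank_of_two_eq_zero hN rfl
  rw [← two_mul] at hr
  have h1 := hO.finrank_add
  have := Fintype.ofFinite (perp Q ⊤)
  have h2 : cnt Q 0 = 2 ^ (d - 2 * r) * cnt (Q.restrict W) 0 := by
    rw [cnt_congr hO.equivalent, cnt_prod, Finset.sum_congr rfl fun w _ => by
      rw [show (Q.restrict (perp Q ⊤)) w = 0 from h w w.2, sub_zero]]
    rw [Finset.sum_const, smul_eq_mul, Finset.card_univ, ← Nat.card_eq_fintype_card,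
      card_eq_pow (F := ZMod 2), Nat.card_zmod]
    congr 2
    omega
  have hr1 : 1 ≤ r := by
    by_contra h3
    obtain rfl : r = 0 := by omega
    obtain ⟨v, hv⟩ := hQ
    obtain ⟨w, hw, u, hu, rfl⟩ := hO.exists_add v
    rw [mul_zero, Submodule.finrank_eq_zero] at hr
    rw [hr, Submodule.mem_bot] at hw
    rw [hw, zero_add] at hv
    exact hv (h u hu)
  refine ⟨r, hr1, by omega, fun h3 => ?_, ?_⟩
  · have h4 : perp Q ⊤ = ⊥ := Submodule.finrank_eq_zero.1 (by omega)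
    rw [nd_iff]
    intro x hx
    rw [← Submodule.mem_bot (ZMod 2), ← h4]
    exact mem_perp'.2 fun v _ => hx v
  obtain ⟨m, rfl⟩ := Nat.exists_eq_add_of_le' hr1
  obtain ⟨k, rfl⟩ := Nat.exists_eq_add_of_le (show 2 * (m + 1) ≤ d by omega)
  rw [h2, show 2 * (m + 1) + k - 2 * (m + 1) = k by omega,
    show 2 * (m + 1) + k - (m + 1) = m + 1 + k by omega]
  rcases wittIndex_eq_or hN hr with h3 | h3
  · left
    have h4 := cnt_plus_zero hN hr h3
    rw [Nat.card_zmod] at h4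
    have h5 : cnt (Q.restrict W) 0 = 2 ^ (2 * m + 1) + 2 ^ m := by
      rw [pow_succ 2 m] at h4
      omega
    rw [h5]
    ring
  · right
    have h4 := cnt_minus_zero hN hr (Nat.succ_injective h3)
    rw [Nat.card_zmod] at h4
    have h5 : cnt (Q.restrict W) 0 + 2 ^ m = 2 ^ (2 * m + 1) := by
      rw [pow_succ 2 m] at h4
      omega
    calc _ = 2 * 2 ^ k * (cnt (Q.restrict W) 0 + 2 ^ m) := by ring
      _ = _ := by rw [h5]; ring

/-- Let G be a finite 2-group whose Frattini subgroup Φ(G) has order 2, with |G : Φ(G)| = 2^d, and let j be the number of elements x of G with x² = 1. Then j = 2^d, or j = 2^d + 2^(d−r) or j = 2^d − 2^(d−r) for some positive integer r with 2r ≤ d. Moreover if d = 2r and j is 2^d + 2^r or 2^d − 2^r, then G is extraspecial. -/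
theorem result {G : Type*} [Group G] [Finite G] (hG : IsPGroup 2 G) (hΦ : Nat.card (frattini G) = 2) (d : ℕ) (hd : (frattini G).index = 2 ^ d) : (Nat.card {x : G // x ^ 2 = 1} = 2 ^ d ∨ ∃ r : ℕ, 1 ≤ r ∧ 2 * r ≤ d ∧ (Nat.card {x : G // x ^ 2 = 1} = 2 ^ d + 2 ^ (d - r) ∨ Nat.card {x : G // x ^ 2 = 1} + 2 ^ (d - r) = 2 ^ d)) ∧ (∀ r : ℕ, d = 2 * r → (Nat.card {x : G // x ^ 2 = 1} = 2 ^ d + 2 ^ r ∨ Nat.card {x : G // x ^ 2 = 1} + 2 ^ r = 2 ^ d) → Cfsg.IsExtraspecial 2 G) := by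
  obtain ⟨e, D, hD⟩ := ES.exists_ext (PGroup.le_center_of_card_eq hG _ hΦ) hΦ
    (PGroup.commutator_le_frattini hG) (PGroup.pow_mem_frattini hG)
  have h1 : finrank (ZMod 2) (Fin e → ZMod 2) = d := D.finrank_eq_of_card (by
    rw [← (frattini G).card_mul_index, hΦ, hd, pow_succ'])
  have h2 : ∃ v, D.Q v ≠ 0 := by
    by_contra h
    push Not at h
    have := (PGroup.frattini_le_iff_sq_mem hG (N := ⊥)).2 fun x => D.sq_eq_one_iff.2 (h _)
    exact D.Z_ne_bot (hD ▸ le_bot_iff.1 this)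
  rw [D.card_sq_eq_one]
  rcases cnt_cases D.Q h2 h1 with h3 | ⟨r, h3, h4, h5, h6⟩
  · refine ⟨Or.inl h3, fun r _ h => ?_⟩
    have : 0 < 2 ^ r := by positivity
    omega
  · refine ⟨Or.inr ⟨r, h3, h4, h6⟩, fun s hs h => ?_⟩
    have h7 : 0 < 2 ^ s := by positivity
    have h7' : 0 < 2 ^ (d - r) := by positivity
    have h8 : 2 ^ (d - r) = 2 ^ s := by omega
    have h9 := Nat.pow_right_injective le_rfl h8
    exact D.isExtraspecial_iff.2 ⟨D.nd_Q_iff.1 (h5 (by omega)),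
      Module.nontrivial_of_finrank_pos (R := ZMod 2) (by omega)⟩

end Cfsg.Agent.S3772
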