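import Cfsg.Statements.S3773
import Cfsg.Agent.Lib.BG.Hall
import Cfsg.Agent.Lib.FGS.SqCount

set_option autoImplicit false
open Cfsg

namespace Cfsg.Agent.S3773

/-- Let G be a finite 2-group of nilpotency class at most 2 and exponent dividing 4 in which the elements x with x² = 1 form a subgroup N. Then |G| ≤ |N|³, and |G| < |N|³ unless G is special. -/
theorem result {G : Type*} [Group G] [Finite G] (hG : IsPGroup 2 G) (hcl : (⊤ : Subgroup G).lowerCentralSeries 2 = ⊥) (hexp : ∀ x : G, x ^ 4 = 1) (hN : ∀ x y : G, x ^ 2 = 1 → y ^ 2 = 1 → (x * y) ^ 2 = 1) : Nat.card G ≤ Nat.card {x : G // x ^ 2 = 1} ^ 3 ∧ (¬ Cfsg.IsSpecial 2 G → Nat.card G < Nat.card {x : G // x ^ 2 = 1} ^ 3) := by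
  open Subgroup Cfsg.Lib Cfsg.Lib.BG Cfsg.Lib.Transfer in
  open Cfsg.Lib.FGS in
  let N : Subgroup G := ⟨⟨⟨{x | x ^ 2 = 1}, hN _ _⟩, one_pow 2⟩, fun h => by simpa using h⟩
  change Nat.card G ≤ Nat.card N ^ 3 ∧ (_ → Nat.card G < Nat.card N ^ 3)
  have hsq : ∀ x, x ^ 2 ∈ N := fun x => (pow_mul x 2 2).symm.trans (hexp x)
  have hΦ : frattini G ≤ N := (PGroup.frattini_le_iff_sq_mem hG).2 hsq
  have hD := PGroup.commutator_le_frattini hG
  have key : ∀ W K : Subgroup G, _root_.commutator G ≤ W → W ≤ N → N ≤ K → (∀ x ∈ K, x ^ 2 ∈ W) →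
      Nat.card K ≤ Nat.card W ^ 2 * Nat.card N := fun W K h1 h2 h3 h4 => by
    obtain ⟨H, h5, h6, h7, h8⟩ := exists_sect_compl (hG.to_subgroup K) h2 h3 ((der_mono le_top).trans h1) h4
    have := card_le_cube (hG.to_subgroup H) h6 (fun x hx => h4 x (h5 hx)) fun x hx e => h7 ▸ ⟨hx, e⟩
    refine Nat.le_of_mul_le_mul_right ?_ (Nat.card_pos (α := W))
    rw [← h8]
    calc _ ≤ Nat.card W ^ 3 * Nat.card N := by gcongr
      _ = _ := by ring
  have h1 := key _ ⊤ hD hΦ le_top fun x _ => PGroup.pow_mem_frattini hG x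
  rw [card_top] at h1
  have h0 := Nat.card_pos (α := N)
  have h2 : Nat.card G ≤ Nat.card N ^ 3 := h1.trans (by rw [pow_succ _ 2]; gcongr; exact card_le_of_le hΦ)
  refine ⟨h2, fun hs => lt_of_le_of_ne h2 fun e => hs ?_⟩
  have hZ : _root_.commutator G ≤ center G := by
    rw [← centralizer_univ, ← coe_top]; exact comm_eq_bot_iff.1 hcl
  have h3 : _root_.commutator G = N := by
    let f : G →* Abelianization G := (powMonoidHom 2).comp Abelianization.of
    have h4 := key _ f.ker le_rfl (hD.trans hΦ) (fun x hx => by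
      rw [MonoidHom.mem_ker, MonoidHom.comp_apply, powMonoidHom_apply, ← map_pow, show x ^ 2 = 1 from hx, map_one])
      fun x hx => by rw [← Abelianization.ker_of, MonoidHom.mem_ker, map_pow]; exact hx
    have h5 : f.range ≤ N.map Abelianization.of := by
      rintro _ ⟨x, rfl⟩; exact ⟨x ^ 2, hsq x, map_pow _ _ _⟩
    have h6 := card_le_of_le h5
    rw [← index_ker, ← relIndex_ker, Abelianization.ker_of] at h6
    have h7 := BG.card_mul_relIndex (hD.trans hΦ)
    have h8 := f.ker.index_mul_card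
    refine eq_of_le_of_card_le (hD.trans hΦ) (Nat.le_of_mul_le_mul_right ?_ (pow_pos h0 2))
    rw [← pow_succ', ← e, ← h8]
    calc _ ≤ (_root_.commutator G).relIndex N * (Nat.card (_root_.commutator G) ^ 2 * Nat.card N) := by gcongr
      _ = Nat.card (_root_.commutator G) * ((Nat.card (_root_.commutator G) * (_root_.commutator G).relIndex N) *
        Nat.card N) := by ring
      _ = _ := by rw [h7, sq]
  have h4 : center G ≤ N := fun z hz => by_contra fun hzN => by
    haveI : (zpowers z).Normal := ⟨fun y hy g => by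
      rwa [mem_center_iff.1 (zpowers_le.2 hz hy) g, mul_inv_cancel_right]⟩
    have h5 : Nat.card (zpowers z) = 2 ^ (1 + 1) := (Nat.card_zpowers z).trans (orderOf_eq_prime_pow hzN (hexp z))
    have h6 := PGroup.card_sup_zpowers (M := N) (norm_of_cent (le_refl 𝐂(N)) (center_le_centralizer _ hz)) hzN (hsq z)
    have h7 := card_le_cube (H := ⊤) (W := (N ⊔ zpowers z).map (QuotientGroup.mk' (zpowers z)))
      ((hG.to_quotient (zpowers z)).to_subgroup ⊤) le_top (by
        rintro ⟨x⟩ -; exact ⟨x ^ 2, mem_sup_left (hsq x), rfl⟩) (by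
        rintro ⟨x⟩ - hx
        obtain ⟨i, hi⟩ := (QuotientGroup.eq_one_iff (x ^ 2)).1 hx
        refine mem_map_of_mem _ ?_
        obtain ⟨j, rfl⟩ := (PGroup.zpow_mem_iff_dvd hzN (hsq z) i).1 (by beta_reduce at hi; exact hi ▸ hsq x)
        have hc : Commute x (z ^ j)⁻¹ := (Commute.zpow_right (mem_center_iff.1 hz x) j).inv_right
        have : x * (z ^ j)⁻¹ ∈ N := by
          change _ ^ 2 = 1
          rw [hc.mul_pow, ← hi, inv_pow, ← zpow_natCast (z ^ j), ← zpow_mul, mul_comm j, mul_inv_cancel]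
        simpa using mul_mem (mem_sup_left this) (mem_sup_right (S := N) (zpow_mem_zpowers z j)))
    have h8 := BG.card_mul_relIndex (le_sup_right (a := N) (b := zpowers z))
    have h9 := (zpowers z).card_mul_index
    rw [card_top, ← relIndex_ker, QuotientGroup.ker_mk', ← index_eq_card] at h7
    rw [h5, h6] at h8
    rw [h5, e, show Nat.card N = 2 * (zpowers z).relIndex (N ⊔ zpowers z) by omega] at h9
    have : 0 < (zpowers z).relIndex (N ⊔ zpowers z) := by omega
    have := pow_pos this 3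
    rw [mul_pow] at h9
    omega
  exact ⟨hG, le_antisymm (hΦ.trans (h3 ▸ hZ)) (h4.trans (h3 ▸ hD)), le_antisymm hZ (h3 ▸ h4)⟩

end Cfsg.Agent.S3773
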