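import Cfsg.Statements.S3774
import Cfsg.Agent.Lib.BG.Hall
import Cfsg.Agent.Lib.FGS.Kulakoff2

set_option autoImplicit false
open Cfsg

namespace Cfsg.Agent.S3774

/-- Let G be a nontrivial finite 2-group whose automorphism group permutes the involutions of G transitively. Then every involution of G is central, so that the involutions together with 1 form the subgroup Ω₁(Z(G)), and if this subgroup has order q then |G| is a power of q. -/
theorem result {G : Type*} [Group G] [Finite G] [Nontrivial G] (hG : IsPGroup 2 G) (htrans : ∀ x y : G, x ≠ 1 → x ^ 2 = 1 → y ≠ 1 → y ^ 2 = 1 → ∃ a : MulAut G, a x = y) : (∀ x : G, x ^ 2 = 1 → x ∈ Subgroup.center G) ∧ ∃ m : ℕ, Nat.card G = Nat.card {z : G // z ^ 2 = 1} ^ m := by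
  open Subgroup Cfsg.Lib Cfsg.Lib.BG Cfsg.Lib.Transfer in
  open Cfsg.Lib.FGS in
  obtain ⟨z, -, hz, ho⟩ := PGroup.exists_mem_center_orderOf_eq hG ⊤ top_ne_bot
  have hz1 : z ≠ 1 := by rintro rfl; simp at ho
  have h1 : ∀ x : G, x ^ 2 = 1 → x ∈ Subgroup.center G := fun x hx => by
    by_cases h : x = 1
    · exact h ▸ one_mem _
    obtain ⟨a, rfl⟩ := htrans z x hz1 (ho ▸ pow_orderOf_eq_one z) h hx
    exact mem_center_iff.2 fun g => by
      obtain ⟨g, rfl⟩ := a.surjective g
      rw [← map_mul, ← map_mul, mem_center_iff.1 hz g]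
  refine ⟨h1, ?_⟩
  let N : Subgroup G := omegaOne 2 (center G)
  have hN : ∀ x, x ∈ N ↔ x ^ 2 = 1 := fun x => by
    rw [PGroup.mem_omegaOne_iff_of_isMulCommutative inferInstance]; exact and_iff_right_of_imp (h1 x)
  have h2 : Nat.card {z : G // z ^ 2 = 1} = Nat.card N := Nat.card_congr (Equiv.subtypeEquivRight fun x => (hN x).symm)
  obtain ⟨n, hn⟩ := (hG.to_subgroup N).exists_card_eq
  obtain ⟨m, hm⟩ := hG.exists_card_eq
  have key : ∀ (x y : G) (a : MulAut G), a x = y → {g | g ∈ {g : G | g ≠ 1} ∧ g ^ (orderOf g / 2) = x}.ncard =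
      {g | g ∈ {g : G | g ≠ 1} ∧ g ^ (orderOf g / 2) = y}.ncard := fun x y a e =>
    Set.ncard_congr (fun g _ => a g) (fun g hg => ⟨by simpa using hg.1, by
      rw [a.orderOf_eq, ← map_pow, hg.2, e]⟩) (fun _ _ _ _ h => a.injective h) fun g hg =>
        ⟨a.symm g, ⟨by simpa using hg.1, by rw [a.symm.orderOf_eq, ← map_pow, hg.2, ← e, a.symm_apply_apply]⟩,
          a.apply_symm_apply g⟩
  have h3 := ncard_eq_mul_of_fiber (s := {g : G | g ≠ 1}) (t := (N : Set G) \ {1}) (fun g => g ^ (orderOf g / 2))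
    (fun g hg => by
      have h4 : 2 ∣ orderOf g := by
        rw [← Nat.card_zpowers]; exact pgroup_dvd_card (hG.to_subgroup _) (by simpa using hg)
      refine ⟨(hN _).2 (by rw [← pow_mul, Nat.div_mul_cancel h4, pow_orderOf_eq_one]), pow_ne_one_of_lt_orderOf ?_ ?_⟩
        <;> have := orderOf_pos g <;> omega)
    (fun y hy => by
      obtain ⟨a, e⟩ := htrans y z hy.2 ((hN y).1 hy.1) hz1 (ho ▸ pow_orderOf_eq_one z)
      exact key y z a e)
  rw [Set.ncard_sdiff_singleton_of_mem (one_mem N), show {g : G | g ≠ 1} = Set.univ \ {1} by ext; simp,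
    Set.ncard_sdiff_singleton_of_mem (Set.mem_univ _), Set.ncard_univ, hm, show (N : Set G).ncard = 2 ^ n from hn] at h3
  have h4 := Nat.pow_sub_one_gcd_pow_sub_one 2 n m
  rw [Nat.gcd_eq_left (Dvd.intro_left _ h3.symm)] at h4
  have h5 : 2 ^ n = 2 ^ n.gcd m := by
    have := Nat.two_pow_pos n
    have := Nat.two_pow_pos (n.gcd m)
    omega
  obtain ⟨k, rfl⟩ := Nat.gcd_eq_left_iff_dvd.1 (Nat.pow_right_injective le_rfl h5).symm
  exact ⟨k, by rw [h2, hn, hm, pow_mul]⟩

end Cfsg.Agent.S3774
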