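import Cfsg.Statements.S3775

set_option autoImplicit false
open Cfsg

namespace Cfsg.Agent.S3775

open Subgroup

section
variable {A : Type*} [CommGroup A] [Finite A] {p : ℕ} [hp : Fact p.Prime]

theorem exists_idem {M : Type*} [Monoid M] [Finite M] (f : M) :
    ∃ k, 0 < k ∧ f ^ k * f ^ k = f ^ k := by
  obtain ⟨i, j, hij, h⟩ : ∃ i j : ℕ, i < j ∧ f ^ i = f ^ j := by
    obtain ⟨i, j, h1, h2⟩ := Finite.exists_ne_map_eq_of_infinite (fun n : ℕ => f ^ n)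
    rcases lt_or_gt_of_ne h1 with h | h
    exacts [⟨i, j, h, h2⟩, ⟨j, i, h, h2.symm⟩]
  obtain ⟨d, rfl⟩ := Nat.exists_eq_add_of_lt hij
  have h1 : ∀ k, f ^ (i + k * (d + 1)) = f ^ i := fun k => by
    induction k with
    | zero => simp
    | succ k ih =>
      rw [show i + (k + 1) * (d + 1) = k * (d + 1) + (i + d + 1) by ring, pow_add, ← h, ← pow_add,
        add_comm, ih]
  refine ⟨(i + 1) * (d + 1), by positivity, ?_⟩
  rw [← pow_add, show (i + 1) * (d + 1) + (i + 1) * (d + 1) =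
    (i * d + d + 1) + (i + (i + 1) * (d + 1)) by ring, pow_add, h1, ← pow_add]
  congr 1; ring

theorem exists_rank_one {n : ℕ} (he : ∀ a : A, a ^ p ^ (n + 1) = 1) (N : Subgroup A) (m a : A)
    (hm : m ∉ N) (hmp : m ^ p = 1) : ∃ g : A →* A, (∀ x ∈ N, g x = 1) ∧ g m = a ^ p ^ n ∧
      ∀ w, w ^ p = 1 → g w ∈ zpowers (a ^ p ^ n) := by
  have : NeZero (Monoid.exponent A) := ⟨Monoid.exponent_ne_zero_of_finite⟩
  have : NeZero (p ^ (n + 1)) := ⟨pow_ne_zero _ hp.out.ne_zero⟩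
  obtain ⟨χ, h1, h2⟩ : ∃ χ : A →* ℂˣ, (∀ y ∈ N, χ y = 1) ∧ χ m ≠ 1 := by
    by_contra h
    push Not at h
    exact hm ((CommGroup.forall_monoidHom_apply_eq_one_iff ℂ N m).1 h)
  let χ' : A →* rootsOfUnity (p ^ (n + 1)) ℂ :=
    χ.codRestrict _ fun x => by rw [mem_rootsOfUnity, ← map_pow, he, map_one]
  obtain ⟨γ, hγ⟩ := IsCyclic.exists_generator (α := rootsOfUnity (p ^ (n + 1)) ℂ)
  have ho : orderOf γ = p ^ (n + 1) := by
    rw [orderOf_eq_card_of_forall_mem_zpowers hγ, HasEnoughRootsOfUnity.natCard_rootsOfUnity]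
  let ψ := monoidHomOfForallMemZpowers hγ (ho ▸ orderOf_dvd_of_pow_eq_one (he a))
  have key : ∀ w : A, w ^ p = 1 → ∃ j : ℕ, χ' w = γ ^ (p ^ n * j) ∧
      ψ (χ' w) = (a ^ p ^ n) ^ j := fun w hw => by
    obtain ⟨k, hk⟩ := (mem_powers_iff_mem_zpowers.2 (hγ (χ' w)))
    have h3 : p ^ (n + 1) ∣ k * p := by
      rw [← ho, orderOf_dvd_iff_pow_eq_one, pow_mul]
      simp only at hk
      rw [hk, ← map_pow, hw, map_one]
    obtain ⟨j, rfl⟩ := (Nat.mul_dvd_mul_iff_right hp.out.pos).1 (pow_succ p n ▸ h3)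
    exact ⟨j, hk.symm, by
      rw [← hk, map_pow, monoidHomOfForallMemZpowers_apply_gen, pow_mul]⟩
  obtain ⟨j, h3, h4⟩ := key m hmp
  have hj : j.Coprime p := by
    rw [Nat.coprime_comm, hp.out.coprime_iff_not_dvd]
    rintro ⟨i, rfl⟩
    apply h2
    rw [← mul_assoc, ← pow_succ, pow_mul, show γ ^ p ^ (n + 1) = 1 from
      orderOf_dvd_iff_pow_eq_one.1 ho.dvd, one_pow] at h3
    exact congrArg Subtype.val h3
  obtain ⟨i, -, hi⟩ := Nat.exists_mul_mod_eq_one_of_coprime hj hp.out.one_lt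
  refine ⟨(ψ.comp χ') ^ i, fun x hx => ?_, ?_, fun w hw => ?_⟩
  · have : χ' x = 1 := Subtype.ext (h1 x hx)
    simp [this]
  · rw [MonoidHom.pow_apply, MonoidHom.comp_apply, h4, ← pow_mul, ← Nat.div_add_mod (j * i) p, hi,
      pow_succ, pow_mul, ← pow_mul a, ← pow_succ, he, one_pow, one_mul]
  · obtain ⟨k, -, h5⟩ := key w hw
    rw [MonoidHom.pow_apply, MonoidHom.comp_apply, h5]
    exact pow_mem (pow_mem (mem_zpowers _) _) _

theorem exists_proj {n : ℕ} (he : ∀ a : A, a ^ p ^ (n + 1) = 1) (M : Subgroup A)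
    (hM : ∀ m ∈ M, ∃ a, m = a ^ p ^ n) :
    ∃ f : A →* A, (∀ x ∈ M, f x = x) ∧ ∀ w, w ^ p = 1 → f w ∈ M := by
  have hMp : ∀ m ∈ M, m ^ p = 1 := fun m hm => by
    obtain ⟨a, rfl⟩ := hM m hm
    rw [← pow_mul, ← pow_succ, he]
  obtain ⟨N, ⟨hN, f, h1, h2⟩, hmax⟩ := Set.Finite.exists_maximal (Set.toFinite
    {N : Subgroup A | N ≤ M ∧ ∃ f : A →* A, (∀ x ∈ N, f x = x) ∧ ∀ w, w ^ p = 1 → f w ∈ M})
    ⟨⊥, bot_le, 1, fun x hx => by rw [mem_bot.1 hx, map_one], fun w _ => M.one_mem⟩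
  refine ⟨f, fun m hm => h1 m (by_contra fun hmN => ?_), h2⟩
  have h3 : m * (f m)⁻¹ ∈ M := mul_mem hm (inv_mem (h2 m (hMp m hm)))
  obtain ⟨a, ha⟩ := hM _ h3
  obtain ⟨g, h4, h5, h6⟩ := exists_rank_one he N m a hmN (hMp m hm)
  refine hmN (hmax (y := N ⊔ zpowers m) ⟨sup_le hN (zpowers_le.2 hm), f * g, ?_,
    fun w hw => mul_mem (h2 w hw) (zpowers_le.2 (ha ▸ h3) (h6 w hw))⟩ le_sup_left
    (mem_sup_right (mem_zpowers m)))
  refine (sup_le (fun x hx => ?_) (zpowers_le.2 ?_) : N ⊔ zpowers m ≤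
    (f * g).eqLocus (MonoidHom.id A))
  · change f x * g x = x
    rw [h1 x hx, h4 x hx, mul_one]
  · change f m * g m = m
    rw [h5, ← ha, mul_comm, inv_mul_cancel_right]

theorem omega_le (hA : IsPGroup p A) (X : Subgroup (MulAut A)) (hX : (Nat.card X).Coprime p)
    (hind : ¬ ∃ B C : Subgroup A, B ≠ ⊥ ∧ C ≠ ⊥ ∧ (∀ x ∈ X, B.map x.toMonoidHom = B) ∧
      (∀ x ∈ X, C.map x.toMonoidHom = C) ∧ B ⊓ C = ⊥ ∧ B ⊔ C = ⊤)
    {n : ℕ} (he : ∀ a : A, a ^ p ^ (n + 1) = 1) (M : Subgroup A) (h1 : M ≠ ⊥)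
    (hM : ∀ m ∈ M, ∃ a, m = a ^ p ^ n) (hi : ∀ x ∈ X, ∀ m ∈ M, x m ∈ M) (w : A) (hw : w ^ p = 1) :
    w ∈ M := by
  classical
  have := Fintype.ofFinite X
  obtain ⟨f, h2, h3⟩ := exists_proj he M hM
  obtain ⟨i, -, hi'⟩ := Nat.exists_mul_mod_eq_one_of_coprime (hX.pow_right (n + 1))
    (Nat.one_lt_pow (by omega) hp.out.one_lt)
  let F : Monoid.End A :=
    (∏ x : X, ((x⁻¹ : X) : MulAut A).toMonoidHom.comp (f.comp (x : MulAut A).toMonoidHom)) ^ i
  have hF : ∀ a, F a = (∏ x : X, ((x⁻¹ : X) : MulAut A) (f ((x : MulAut A) a))) ^ i := fun a => by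
    change ((∏ x : X, ((x⁻¹ : X) : MulAut A).toMonoidHom.comp
      (f.comp (x : MulAut A).toMonoidHom)) ^ i) a = _
    rw [MonoidHom.pow_apply, MonoidHom.finsetProd_apply]
    rfl
  have F1 : ∀ m ∈ M, F m = m := fun m hm => by
    rw [hF, Finset.prod_congr rfl fun x _ => show _ = m by rw [h2 _ (hi x x.2 m hm)]; simp,
      Finset.prod_const, Finset.card_univ, ← Nat.card_eq_fintype_card, ← pow_mul,
      ← Nat.div_add_mod (Nat.card X * i) (p ^ (n + 1)), hi', pow_succ, pow_mul, he, one_pow, one_mul]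
  have F2 : ∀ w, w ^ p = 1 → F w ∈ M := fun w hw => by
    rw [hF]
    exact pow_mem (prod_mem fun x _ => hi _ (x⁻¹).2 _ (h3 _ (by rw [← map_pow, hw, map_one]))) _
  have F3 : ∀ y ∈ X, ∀ a, F (y a) = y (F a) := fun y hy a => by
    rw [hF, hF, map_pow, map_prod, ← Equiv.prod_comp (Equiv.mulRight (⟨y, hy⟩ : X)⁻¹)]
    simp
  have : Finite (Monoid.End A) := Finite.of_injective _ (DFunLike.coe_injective (F := A →* A))
  obtain ⟨k, k0, hk⟩ := exists_idem F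
  have E1 : ∀ j, ∀ m ∈ M, (F ^ j) m = m := fun j m hm => by
    induction j with
    | zero => rfl
    | succ j ih => rw [pow_succ]; change (F ^ j) (F m) = m; rw [F1 m hm, ih]
  have E3 : ∀ j, ∀ y ∈ X, ∀ a, (F ^ j) (y a) = y ((F ^ j) a) := fun j y hy a => by
    induction j with
    | zero => rfl
    | succ j ih => rw [pow_succ']; change F ((F ^ j) (y a)) = y (F ((F ^ j) a)); rw [ih, F3 y hy]
  have hk' : ∀ a, (F ^ k) ((F ^ k) a) = (F ^ k) a := fun a => DFunLike.congr_fun hk a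
  have inv : ∀ B : Subgroup A, (∀ x ∈ X, ∀ b ∈ B, x b ∈ B) → ∀ x ∈ X, B.map x.toMonoidHom = B :=
    fun B h x hx => le_antisymm (map_le_iff_le_comap.2 (h x hx)) fun b hb =>
      ⟨x⁻¹ b, h _ (inv_mem hx) b hb, by simp⟩
  have h4 : MonoidHom.ker (F ^ k) = ⊥ := by
    by_contra h4
    refine hind ⟨_, MonoidHom.range (F ^ k), h4, fun h => h1 (le_bot_iff.1 (h ▸ fun m hm =>
      ⟨m, E1 k m hm⟩)), inv _ fun x hx b hb => ?_, inv _ ?_, ?_, ?_⟩
    · exact (E3 k x hx b).trans (by rw [show (F ^ k) b = 1 from hb, map_one])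
    · rintro x hx _ ⟨b, rfl⟩
      exact ⟨x b, E3 k x hx b⟩
    · rw [eq_bot_iff]
      rintro _ ⟨h5, b, rfl⟩
      exact (hk' b).symm.trans h5
    · rw [eq_top_iff]
      intro a _
      rw [← inv_mul_cancel_right a ((F ^ k) a)]
      refine mul_mem (mem_sup_left ?_) (mem_sup_right ⟨a, rfl⟩)
      change (F ^ k) _ = 1
      rw [map_mul, map_inv, hk', mul_inv_cancel]
  have h5 : (F ^ k) w = w := (MonoidHom.ker_eq_bot_iff _).1 h4 (hk' w)
  obtain ⟨k, rfl⟩ := Nat.exists_eq_succ_of_ne_zero k0.ne'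
  rw [← h5, pow_succ]
  change (F ^ k) (F w) ∈ M
  rw [E1 k _ (F2 w hw)]
  exact F2 w hw

end

/-- Let A be a finite abelian p-group and X a group of automorphisms of A of order prime to p. Call a subgroup of A invariant when every element of X maps it onto itself. Then the following are equivalent: (i) A is not the direct product of two nontrivial invariant subgroups; (ii) every invariant subgroup of A is one of the subgroups Ω_i(A) = {a : a^(p^i) = 1}; (iii) the subgroup Ω₁(A) of elements of order dividing p has no invariant subgroups other than 1 and itself. -/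
theorem result {A : Type*} [CommGroup A] [Finite A] {p : ℕ} [Fact p.Prime] (hA : IsPGroup p A) (X : Subgroup (MulAut A)) (hX : (Nat.card X).Coprime p) : ((¬ ∃ B C : Subgroup A, B ≠ ⊥ ∧ C ≠ ⊥ ∧ (∀ x ∈ X, B.map x.toMonoidHom = B) ∧ (∀ x ∈ X, C.map x.toMonoidHom = C) ∧ B ⊓ C = ⊥ ∧ B ⊔ C = ⊤) ↔ (∀ B : Subgroup A, (∀ x ∈ X, B.map x.toMonoidHom = B) → ∃ i : ℕ, ∀ a : A, a ∈ B ↔ a ^ p ^ i = 1)) ∧ ((∀ B : Subgroup A, (∀ x ∈ X, B.map x.toMonoidHom = B) → ∃ i : ℕ, ∀ a : A, a ∈ B ↔ a ^ p ^ i = 1) ↔ (∀ B : Subgroup A, (∀ x ∈ X, B.map x.toMonoidHom = B) → (∀ b ∈ B, b ^ p = 1) → B = ⊥ ∨ ∀ a : A, a ∈ B ↔ a ^ p = 1)) := by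
  have hp : p.Prime := Fact.out
  have inv : ∀ B : Subgroup A, (∀ x ∈ X, ∀ b ∈ B, x b ∈ B) → ∀ x ∈ X, B.map x.toMonoidHom = B :=
    fun B h x hx => le_antisymm (map_le_iff_le_comap.2 (h x hx)) fun b hb =>
      ⟨x⁻¹ b, h _ (inv_mem hx) b hb, by simp⟩
  have inv' : ∀ B : Subgroup A, (∀ x ∈ X, B.map x.toMonoidHom = B) → ∀ x ∈ X, ∀ b ∈ B, x b ∈ B :=
    fun B h x hx b hb => h x hx ▸ mem_map_of_mem x.toMonoidHom hb
  have h32 : (∀ B : Subgroup A, (∀ x ∈ X, B.map x.toMonoidHom = B) → (∀ b ∈ B, b ^ p = 1) →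
      B = ⊥ ∨ ∀ a : A, a ∈ B ↔ a ^ p = 1) → ∀ B : Subgroup A, (∀ x ∈ X, B.map x.toMonoidHom = B) →
      ∃ i : ℕ, ∀ a : A, a ∈ B ↔ a ^ p ^ i = 1 := by
    intro h B hB
    classical
    have hex : ∃ i : ℕ, ∀ b ∈ B, b ^ p ^ i = 1 := by
      obtain ⟨k, hk⟩ := hA.exists_card_eq
      exact ⟨k, fun b _ => by rw [← hk, pow_card_eq_one']⟩
    refine ⟨Nat.find hex, fun a => ⟨Nat.find_spec hex a, ?_⟩⟩
    suffices H : ∀ j ≤ Nat.find hex, ∀ a : A, a ^ p ^ j = 1 → a ∈ B from H _ le_rfl a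
    intro j
    induction j with
    | zero => intro _ a ha; rw [pow_zero, pow_one] at ha; exact ha ▸ B.one_mem
    | succ j ih =>
      intro hj a ha
      have h1 := h ((B ⊓ (powMonoidHom (p ^ (j + 1))).ker).map (powMonoidHom (p ^ j)))
        (inv _ (by
          rintro x hx _ ⟨b, hb, rfl⟩
          refine ⟨x b, ⟨inv' B hB x hx b hb.1, ?_⟩, by simp⟩
          change (x b) ^ p ^ (j + 1) = 1
          rw [← map_pow, show b ^ p ^ (j + 1) = 1 from hb.2, map_one])) (by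
          rintro _ ⟨b, hb, rfl⟩
          rw [powMonoidHom_apply, ← pow_mul, ← pow_succ]
          exact hb.2)
      rcases h1 with h1 | h1
      · exfalso
        obtain ⟨d, hd⟩ := Nat.exists_eq_add_of_le hj
        refine Nat.find_min hex (m := j + d) (by omega) fun b hb => ?_
        have h2 : (b ^ p ^ d) ^ p ^ j ∈ (⊥ : Subgroup A) := h1 ▸ ⟨b ^ p ^ d, ⟨pow_mem hb _, by
          change (b ^ p ^ d) ^ p ^ (j + 1) = 1
          rw [← pow_mul, ← pow_add, add_comm, ← hd]; exact Nat.find_spec hex b hb⟩, rfl⟩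
        rwa [mem_bot, ← pow_mul, ← pow_add, add_comm] at h2
      · obtain ⟨b, hb, e⟩ := (h1 (a ^ p ^ j)).2 (by rw [← pow_mul, ← pow_succ, ha])
        have := mul_mem (ih (by omega) (a * b⁻¹) (by
          rw [mul_pow, inv_pow, ← e, powMonoidHom_apply, mul_inv_cancel])) hb.1
        simpa using this
  have h23 : (∀ B : Subgroup A, (∀ x ∈ X, B.map x.toMonoidHom = B) →
      ∃ i : ℕ, ∀ a : A, a ∈ B ↔ a ^ p ^ i = 1) → ∀ B : Subgroup A,
      (∀ x ∈ X, B.map x.toMonoidHom = B) → (∀ b ∈ B, b ^ p = 1) →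
      B = ⊥ ∨ ∀ a : A, a ∈ B ↔ a ^ p = 1 := by
    intro h B hB hb
    obtain ⟨i, hi⟩ := h B hB
    rcases i with _ | i
    · left
      exact eq_bot_iff.2 fun a ha => by simpa using (hi a).1 ha
    · exact Or.inr fun a => ⟨hb a, fun ha => (hi a).2 (by rw [pow_succ', pow_mul, ha, one_pow])⟩
  refine ⟨⟨fun h => h32 fun B hB hb => ?_, ?_⟩, h23, h32⟩
  · by_cases h1 : B = ⊥
    · exact Or.inl h1
    refine Or.inr fun a => ⟨hb a, ?_⟩
    classical
    have hex : ∃ i : ℕ, ∀ b : A, b ^ p ^ i = 1 := by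
      obtain ⟨k, hk⟩ := hA.exists_card_eq
      exact ⟨k, fun b => by rw [← hk, pow_card_eq_one']⟩
    obtain ⟨n, hn⟩ : ∃ n, Nat.find hex = n + 1 := Nat.exists_eq_succ_of_ne_zero fun h0 => h1 (by
      have := Nat.find_spec hex
      rw [h0] at this
      exact eq_bot_iff.2 fun b _ => by simpa using this b)
    have he := hn ▸ Nat.find_spec hex
    have h2 := omega_le hA X hX h he (powMonoidHom (p ^ n)).range (fun h0 => Nat.find_min hex
      (m := n) (by omega) fun b => mem_bot.1 (h0 ▸ ⟨b, rfl⟩)) (fun m ⟨b, e⟩ => ⟨b, e.symm⟩) (by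
        rintro x - _ ⟨b, rfl⟩
        exact ⟨x b, by simp⟩)
    exact omega_le hA X hX h he B h1 (fun m hm => (h2 m (hb m hm)).imp fun _ e => e.symm)
      (inv' B hB) a
  · rintro h ⟨B, C, h1, h2, h3, h4, h5, -⟩
    obtain ⟨i, hi⟩ := h B h3
    obtain ⟨j, hj⟩ := h C h4
    rcases le_total i j with e | e <;> obtain ⟨d, rfl⟩ := Nat.exists_eq_add_of_le e
    · exact h1 (h5 ▸ (inf_eq_left.2 fun a ha => (hj a).2 (by
        rw [pow_add, pow_mul, (hi a).1 ha, one_pow])).symm)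
    · exact h2 (h5 ▸ (inf_eq_right.2 fun a ha => (hi a).2 (by
        rw [pow_add, pow_mul, (hj a).1 ha, one_pow])).symm)

end Cfsg.Agent.S3775
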