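import Cfsg.Statements.S3778
import Cfsg.Agent.Lib.PGroup.SectionRep
import Cfsg.Agent.Lib.BG.Basic

set_option autoImplicit false
open Cfsg

namespace Cfsg.Agent.S3778

/-- If G is a finite p-group in which every conjugacy class has at most p^b elements (every element has centralizer of index at most p^b), then G is abelian when b = 0, and when b ≥ 1 its nilpotency class c satisfies (c − 1)(p − 1) < bp, that is c < bp/(p − 1) + 1, and hence c ≤ 2b. -/
theorem result {G : Type*} [Group G] [Finite G] {p : ℕ} [Fact p.Prime] (hG : IsPGroup p G) (b : ℕ) (hb : ∀ x : G, (Subgroup.centralizer ({x} : Set G)).index ≤ p ^ b) : ∃ c : ℕ, (⊤ : Subgroup G).lowerCentralSeries c = ⊥ ∧ (b ≠ 0 → (c - 1) * (p - 1) < b * p ∧ c ≤ 2 * b) ∧ (b = 0 → c ≤ 1) := by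
  open Subgroup Cfsg.Lib.BG Cfsg.Lib.PGroup commutatorElement in
  classical
  have hp : p.Prime := Fact.out
  have := Fintype.ofFinite G
  have hex := Subgroup.nilpotent_iff_lowerCentralSeries.1 hG.isNilpotent
  set γ := (⊤ : Subgroup G).lowerCentralSeries with hγ
  let C : ℕ → Subgroup G := fun i => commStab (γ (i + 2)) (γ i)
  have pw : ∀ K : Subgroup G, K ≠ ⊤ → p ∣ K.index := fun K hK => by
    obtain ⟨k, hk⟩ := hG.index K
    rcases k with _ | k
    · exact (hK (index_eq_one.1 hk)).elim
    · exact hk ▸ dvd_pow_self p k.succ_ne_zero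
  have hC : ∀ i < Nat.find hex - 1, p ∣ (C i).index := fun i hi => pw _ fun e => by
    have h1 : γ (i + 1) ≤ γ (i + 2) := commutator_le_of_le_commStab e.ge
    have h2 : ∀ k, γ (i + 1) ≤ γ (i + 1 + k) := fun k => by
      induction k with
      | zero => exact le_rfl
      | succ k ih => exact h1.trans (commutator_mono ih le_rfl)
    have h3 := (h2 (Nat.find hex)).trans ((Subgroup.lowerCentralSeries_antitone ⊤ (Nat.le_add_left _ _)).trans
      (Nat.find_spec hex).le)
    exact Nat.find_min hex (m := i + 1) (by omega) (le_bot_iff.1 h3)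
  have hI : ∀ x : G, ∀ k, p ^ ((Finset.range k).filter fun i => x ∉ C i).card ∣ (γ k ⊔ 𝐂[x]).index := by
    intro x k
    induction k with
    | zero => simp
    | succ k ih =>
      have hle : γ (k + 1) ⊔ 𝐂[x] ≤ γ k ⊔ 𝐂[x] :=
        sup_le_sup_right (Subgroup.lowerCentralSeries_antitone ⊤ k.le_succ) _
      rw [Finset.range_add_one, Finset.filter_insert, ← relIndex_mul_index hle]
      split_ifs with h
      · exact ih.mul_left _
      · rw [Finset.card_insert_of_notMem (by simp), pow_succ']
        refine mul_dvd_mul ?_ ih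
        obtain ⟨j, hj⟩ := (hG.to_subgroup (γ k ⊔ 𝐂[x])).index ((γ (k + 1) ⊔ 𝐂[x]).subgroupOf _)
        rcases j with _ | j
        · refine (h (mem_commStab.2 ⟨le_normalizer_of_normal (mem_top x), fun v hv => ?_⟩)).elim
          obtain ⟨g, hg, c, hc, rfl⟩ := mem_sup_of_normal_left.1
            (relIndex_eq_one.1 hj (mem_sup_left hv))
          have : ⁅x, g * c⁆ = ⁅g, x⁆⁻¹ := by
            rw [commutatorElement_inv, commutatorElement_def, commutatorElement_def]
            calc _ = x * g * (c * x⁻¹ * c⁻¹) * g⁻¹ := by group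
              _ = _ := by rw [(show Commute c x from mem_cent1.1 hc).inv_right.eq]; group
          rw [this]
          exact inv_mem (commutator_mem_commutator hg (mem_top x))
        · exact (dvd_pow_self p j.succ_ne_zero).trans hj.symm.dvd
  have hI' : ∀ x : G, ((Finset.range (Nat.find hex - 1)).filter fun i => x ∉ C i).card ≤ b := fun x =>
    (Nat.pow_le_pow_iff_right hp.one_lt).1 ((Nat.le_of_dvd (Nat.pos_of_ne_zero index_ne_zero_of_finite)
      ((hI x _).trans (index_dvd_of_le le_sup_right))).trans (hb x))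
  have h1 : ∑ x : G, ((Finset.range (Nat.find hex - 1)).filter fun i => x ∉ C i).card ≤
      (Fintype.card G - 1) * b := by
    rw [← Finset.add_sum_erase _ _ (Finset.mem_univ (1 : G))]
    have := Finset.sum_le_card_nsmul (Finset.univ.erase (1 : G)) _ b fun x _ => hI' x
    simpa [one_mem] using this
  have h2 : (Nat.find hex - 1) * ((p - 1) * Fintype.card G) ≤
      p * ∑ x : G, ((Finset.range (Nat.find hex - 1)).filter fun i => x ∉ C i).card := by
    simp_rw [Finset.card_filter]
    rw [Finset.sum_comm, Finset.mul_sum]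
    have := Finset.card_nsmul_le_sum (Finset.range (Nat.find hex - 1))
      (fun i => p * ∑ x : G, if x ∉ C i then 1 else 0) ((p - 1) * Fintype.card G) fun i hi => by
        rw [← Finset.card_filter]
        have h3 := Finset.card_filter_add_card_filter_not (s := Finset.univ) fun x : G => x ∈ C i
        have h4 : (Finset.univ.filter fun x : G => x ∈ C i).card = Nat.card (C i) := by
          rw [Nat.card_eq_fintype_card, Fintype.card_subtype]
        obtain ⟨m, hm⟩ := hC i (Finset.mem_range.1 hi)
        have h5 := (C i).card_mul_index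
        have h6 : m ≠ 0 := by rintro rfl; exact (C i).index_ne_zero_of_finite hm
        rw [hm, Nat.card_eq_fintype_card (α := G)] at h5
        rw [h4, Finset.card_univ] at h3
        have h7 : p * Nat.card (C i) ≤ Fintype.card G := by
          rw [← h5, mul_comm]; exact Nat.mul_le_mul_left _ (Nat.le_mul_of_pos_right _ (by omega))
        rw [Nat.sub_mul, one_mul, Nat.sub_le_iff_le_add]
        nth_rw 1 [← h3]
        rw [mul_add]; omega
    simpa using this
  have h3 := h2.trans (Nat.mul_le_mul_left p h1)
  have h4 : 0 < Fintype.card G := Fintype.card_pos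
  have h5 := hp.two_le
  obtain ⟨N, hN⟩ : ∃ N, Fintype.card G = N + 1 := ⟨_, (Nat.succ_pred_eq_of_pos h4).symm⟩
  obtain ⟨q, rfl⟩ : ∃ q, p = q + 2 := ⟨p - 2, by omega⟩
  rw [hN] at h3
  simp only [Nat.add_sub_cancel, show q + 2 - 1 = q + 1 from rfl] at h3 ⊢
  refine ⟨Nat.find hex, Nat.find_spec hex, fun b0 => ?_, fun b0 => ?_⟩
  · have h6 : (Nat.find hex - 1) * (q + 1) < b * (q + 2) := by
      have := Nat.pos_of_ne_zero b0
      refine Nat.lt_of_mul_lt_mul_right (a := N + 1) ?_
      nlinarith
    refine ⟨h6, ?_⟩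
    have : Nat.find hex - 1 < 2 * b := Nat.lt_of_mul_lt_mul_right (a := q + 1) (by nlinarith)
    omega
  · subst b0
    have : Nat.find hex - 1 = 0 := by simpa using h3
    omega

end Cfsg.Agent.S3778
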