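import Cfsg.Statements.S3779
import Cfsg.Agent.Lib.Lie.Assoc
import Cfsg.Agent.Lib.HH.Aut
import Cfsg.Agent.S0033

set_option autoImplicit false
open Cfsg

namespace Cfsg.Agent.S3779

open Cfsg.Lib Cfsg.Lib.Lie Subgroup

theorem lcs_eq_bot {G : Type*} [Group G] [Finite G] {p : ℕ} (hp : p.Prime) (α : MulAut G) (hα : orderOf α = p)
    (hfpf : ∀ g : G, α g = g → g = 1) {c : ℕ} (hc : IsBound p c) : (⊤ : Subgroup G).lowerCentralSeries c = ⊥ := by
  haveI := Fact.mk hp
  haveI := S0033.result α hfpf p hp hα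
  have h1 : (α : G → G)^[p] = id := by
    change ((MulAut.toPerm G α ^ p : Equiv.Perm G) : G → G) = _
    rw [← hα, ← map_pow, pow_orderOf_eq_one, map_one]; rfl
  have h2 : ¬ p ∣ Nat.card G := HH.coprime_of_fpf (IsPGroup.of_card (n := 1) (by rw [Nat.card_zpowers, hα, pow_one]))
    (zpowers α).subtype fun g h => hfpf g (h ⟨α, mem_zpowers α⟩)
  have h3 : (⊤ : Subgroup G).lowerCentralSeries c ≤ (⊤ : Subgroup G).lowerCentralSeries (c + 1) := fun g hg => by
    have := pow_mem_lcs_succ (K := ⊤) α.toMonoidHom (fun _ _ => trivial) (fun g _ => congrFun h1 g) (m := 1)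
      (fun i g _ => by
        rw [pow_one]
        exact Set.mem_of_eq_of_mem (MonoidHom.FixedPointFree.prod_pow_eq_one hfpf h1 g) (one_mem _)) hc hg
    obtain ⟨m, hm⟩ := exists_pow_eq_self_of_coprime (x := g) (n := 1 * p ^ (c + 2)) (by
      rw [one_mul]
      exact ((hp.coprime_iff_not_dvd.2 h2).coprime_dvd_right (orderOf_dvd_natCard g)).pow_left _)
    exact hm ▸ pow_mem this m
  obtain ⟨n, hn⟩ := Subgroup.nilpotent_iff_lowerCentralSeries.1 ‹Group.IsNilpotent G›
  have h4 : ∀ k, (⊤ : Subgroup G).lowerCentralSeries c ≤ (⊤ : Subgroup G).lowerCentralSeries (c + k) := fun k => by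
    induction k with
    | zero => exact le_rfl
    | succ k ih => exact h3.trans (commutator_mono ih le_rfl)
  exact eq_bot_iff.2 ((h4 n).trans ((Subgroup.lowerCentralSeries_antitone _ (Nat.le_add_left n c)).trans hn.le))


/-- Let G be a finite group with an automorphism of prime order p fixing only the identity. Then G is nilpotent; if p = 2 then G is abelian, if p = 3 then G has class at most 2, and in general the class of G is at most ξ = 1 + (p−1) + (p−1)² + ⋯ + (p−1)^(n−1) with n = 2^(p−1) − 1 (the Higman–Kreknin–Kostrikin bound). -/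
theorem result {G : Type*} [Group G] [Finite G] {p : ℕ} (hp : p.Prime) (α : MulAut G) (hα : orderOf α = p) (hfpf : ∀ g : G, α g = g → g = 1) : (p = 2 → (⊤ : Subgroup G).lowerCentralSeries 1 = ⊥) ∧ (p = 3 → (⊤ : Subgroup G).lowerCentralSeries 2 = ⊥) ∧ (⊤ : Subgroup G).lowerCentralSeries (Finset.sum (Finset.range (2 ^ (p - 1) - 1)) (fun i => (p - 1) ^ i)) = ⊥ := by
  refine ⟨?_, ?_, lcs_eq_bot hp α hα hfpf (.inl rfl)⟩
  · rintro rfl
    exact lcs_eq_bot hp α hα hfpf (.inl (by simp))
  · exact fun h => lcs_eq_bot hp α hα hfpf (.inr ⟨h, rfl⟩)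

end Cfsg.Agent.S3779
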