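import Cfsg.Statements.S3780
import Cfsg.Agent.Lib.Lie.Alperin

set_option autoImplicit false
open Cfsg

namespace Cfsg.Agent.S3780

/-- Let V be a finite abelian p-group and α an automorphism of V of order p whose fixed-point subgroup has order p^n. Then V can be generated by pn elements: some subset of V with at most pn elements generates V. -/
theorem result {V : Type*} [CommGroup V] [Finite V] {p : ℕ} [Fact p.Prime] (hV : IsPGroup p V) (α : MulAut V) (hα : orderOf α = p) (n : ℕ) (hfix : Nat.card {v : V // α v = v} = p ^ n) : ∃ S : Finset V, S.card ≤ p * n ∧ Subgroup.closure (S : Set V) = ⊤ := by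
  have h1 : ∀ a, (α.toMonoidHom : V → V)^[p] a = a := fun a => by
    change (MulAut.toPerm V α ^ p : Equiv.Perm V) a = _
    rw [← hα, ← map_pow, pow_orderOf_eq_one, map_one]; rfl
  have h2 := Lib.Lie.card_pow_eq_one_le α.toMonoidHom h1 1
  obtain ⟨d, hd⟩ := hV.index (frattini V)
  obtain ⟨T, -, h3, h4⟩ := Lib.PGroup.exists_subset_card_eq_closure_eq_top hV hd Subgroup.closure_univ
  refine ⟨T, h3 ▸ (Nat.pow_le_pow_iff_right (Fact.out : p.Prime).one_lt).1 ?_, h4⟩
  rw [← hd, mul_comm, pow_mul, ← hfix]
  simp only [pow_one, mul_one] at h2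
  refine le_trans ?_ h2
  refine (Subgroup.index_antitone (H := (powMonoidHom p : V →* V).range) ?_).trans Subgroup.index_range.le
  rintro _ ⟨x, rfl⟩
  exact Lib.PGroup.pow_mem_frattini hV x

end Cfsg.Agent.S3780
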