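import Cfsg.Statements.S3781
import Cfsg.Agent.Lib.Lie.Alperin

set_option autoImplicit false
open Cfsg

namespace Cfsg.Agent.S3781

/-- Let G be a finite p-group and n ≥ 1, and write γ_1(G) = G, γ_{k+1}(G) = [γ_k(G), G], and likewise γ_k(N) for a subgroup N. Let N be a normal subgroup of G contained in γ_n(G). If i > 1 and γ_{i+1}(N) ≠ 1, then |γ_i(N) : γ_{i+1}(N)| ≥ p^n. -/
theorem result {G : Type*} [Group G] [Finite G] {p : ℕ} [Fact p.Prime] (hG : IsPGroup p G) (n : ℕ) (hn : 1 ≤ n) (N : Subgroup G) [N.Normal] (hN : N ≤ (⊤ : Subgroup G).lowerCentralSeries (n - 1)) (i : ℕ) (hi : 1 < i) (hne : N.lowerCentralSeries i ≠ ⊥) : p ^ n ≤ (N.lowerCentralSeries i).relIndex (N.lowerCentralSeries (i - 1)) := by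
  obtain ⟨n, rfl⟩ := Nat.exists_eq_add_of_le' hn
  obtain ⟨i, rfl⟩ := Nat.exists_eq_add_of_le' hi.le
  have := Lib.Lie.hall_card_le (hG.to_subgroup ⊤) le_top (N.lowerCentralSeries i).normalizer_eq_top.ge hN hne
  rw [← Lib.BG.card_mul_relIndex (N.lowerCentralSeries_antitone i.le_succ), mul_comm] at this
  exact Nat.le_of_mul_le_mul_left this Nat.card_pos

end Cfsg.Agent.S3781
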