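import Cfsg.Statements.S3782
import Cfsg.Agent.Lib.Lie.Alperin
import Cfsg.Agent.S3779
import Cfsg.Agent.Lib.BG.T01_Coprime
import Cfsg.Agent.Lib.Core.Fitting

set_option autoImplicit false
open Cfsg

namespace Cfsg.Agent.S3782

open Subgroup Cfsg.Lib Cfsg.Lib.BG Cfsg.Lib.Transfer Cfsg.Lib.Lie

variable {G : Type*} [Group G]

theorem der_add_le {K : Subgroup G} {a : ℕ} (h : derivedSeries G a ≤ K) (b : ℕ) :
    derivedSeries G (a + b) ≤ K.lowerCentralSeries b := by
  induction b with
  | zero => exact h
  | succ b ih => exact commutator_mono ih (ih.trans (K.lowerCentralSeries_le_self b))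

variable [Finite G]

theorem der_eq_bot [Group.IsSolvable G] {N : ℕ} (h : Nat.card G ≤ N) : derivedSeries G N = ⊥ := by
  have : ∀ k, derivedSeries G k = ⊥ ∨ Nat.card (derivedSeries G k) + k ≤ Nat.card G := fun k => by
    induction k with
    | zero => exact .inr (card_le_card_group _)
    | succ k ih =>
      rcases eq_or_ne (derivedSeries G k) ⊥ with e | e
      · exact .inl (by rw [derivedSeries_succ, e, commutator_bot_left])
      · have := card_lt_of_lt (Core.commutator_lt_of_isSolvable inferInstance e)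
        have := ih.resolve_left e
        exact .inr (by rw [derivedSeries_succ]; omega)
  exact (this N).resolve_right fun e => by have := Nat.card_pos (α := derivedSeries G N); omega

theorem constrained {p n c : ℕ} [hp : Fact p.Prime] [Group.IsSolvable G] (h0 : pPrimeCore p G = ⊥) (β : G →* G)
    (hs : Function.Surjective β) (hβ : ∀ g, β^[p] g = g) (h : Nat.card {g // β g = g} ≤ p ^ n) (hc : IsBound p c) :
    derivedSeries G (((p ^ n) ^ (p * 1)).factorial + n * (p * (n + (c + 2))) + (c + 1)) = ⊥ := by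
  set P := pCore p G
  have hP : IsPGroup p P := Core.pCore_isPGroup p G
  have hPβ : ∀ g ∈ P, β g ∈ P := fun g hg => Core.map_pCore_le hs (mem_map_of_mem β hg)
  haveI : 𝚽(P).Normal := normalizer_eq_top_iff.1 (eq_top_iff.2 (norm_Phi P.normalizer_eq_top.ge))
  let π := QuotientGroup.mk' 𝚽(P)
  let ρ := (MulAut.conjNormal (H := P.map π)).comp π
  have h1 : Nat.card (P.map π) ≤ (p ^ n) ^ (p * 1) := by
    rw [← relIndex_ker, QuotientGroup.ker_mk']
    refine (relIndex_le_of_fix β (PGroup.commutator_le_map_subtype_frattini hP) hPβ ?_ (fun g _ => hβ g) fun g hg => by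
      simpa using PGroup.pow_mem_map_subtype_frattini hP hg).trans (Nat.pow_le_pow_left h _)
    rintro _ ⟨x, hx, rfl⟩
    exact mem_map_of_mem P.subtype (PGroup.map_frattini_le hP ((β.comp P.subtype).codRestrict P fun x => hPβ _ x.2)
      (mem_map_of_mem _ hx))
  haveI := solvable_of_surjective ρ.rangeRestrict_surjective
  have h2 : derivedSeries G ((p ^ n) ^ (p * 1)).factorial ≤ ρ.ker := by
    rw [← ρ.ker_rangeRestrict, ← Subgroup.map_eq_bot_iff, eq_bot_iff]
    refine (map_derivedSeries_le_derivedSeries _ _).trans (der_eq_bot ((card_le_card_group _).trans ?_)).le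
    exact (Nat.card_le_card_of_injective _ MulEquiv.toEquiv_injective).trans
      (Nat.card_perm.le.trans (Nat.factorial_le h1))
  set K := derivedSeries G ((p ^ n) ^ (p * 1)).factorial
  have h3 : IsPGroup p K := fun ⟨g, hg⟩ => by
    obtain ⟨k, m, hm, e⟩ := Nat.exists_eq_pow_mul_and_not_dvd (orderOf_pos g).ne' p hp.1.ne_one
    have h4 : (Nat.card (zpowers (g ^ p ^ k))).Coprime p := by
      rw [Nat.card_zpowers, orderOf_pow_of_dvd (pow_ne_zero _ hp.1.ne_zero) (e ▸ Dvd.intro _ rfl), e,
        Nat.mul_div_cancel_left _ (pow_pos hp.1.pos _)]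
      exact (hp.1.coprime_iff_not_dvd.2 hm).symm
    have h5 := coprime_cent_Phi (le_top.trans P.normalizer_eq_top.ge) h4 hP (commutator_le.2 fun x hx y hy => by
      have := congrArg Subtype.val (DFunLike.congr_fun (h2 (zpowers_le_of_mem (pow_mem hg _) hy))
        ⟨π x⁻¹, mem_map_of_mem π (inv_mem hx)⟩)
      refine (QuotientGroup.eq_one_iff _).1 (?_ : π _ = 1)
      rw [commutatorElement_def, mul_assoc, mul_assoc, ← mul_assoc y, map_mul, map_mul, map_mul, map_inv π y]
      exact mul_eq_one_iff_eq_inv'.2 (this.trans (map_inv π x)))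
    exact ⟨k, Subtype.ext (zpowers_eq_bot.1 (Core.eq_bot_of_isPGroup_of_coprime
      (hP.to_le (h5.trans (Core.centralizer_pCore_le_of_isSolvable h0))) h4))⟩
  exact eq_bot_iff.2 ((der_add_le (der_add_le le_rfl _) _).trans (alperin_lcs β
    (fun g hg => map_derivedSeries_le_derivedSeries β _ (mem_map_of_mem β hg)) (fun g _ => hβ g) h3 h hc).le)


/-- Alperin's Theorem: for each prime p and each n ≥ 0 there is an integer l such that every finite solvable group admitting an automorphism of order p with exactly p^n fixed points has derived length at most l. -/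
theorem result (p : ℕ) (hp : p.Prime) (n : ℕ) : ∃ l : ℕ, ∀ (G : Type) [Group G] [Finite G], Group.IsSolvable G → ∀ α : MulAut G, orderOf α = p → Nat.card {g : G // α g = g} = p ^ n → derivedSeries G l = ⊥ := by
  haveI := Fact.mk hp
  obtain ⟨c, hc⟩ : ∃ c, IsBound p c := ⟨_, .inl rfl⟩
  refine ⟨((p ^ n) ^ (p * 1)).factorial + n * (p * (n + (c + 2))) + (c + 1) + c, fun G _ _ _ α hα h => ?_⟩
  set O := pPrimeCore p G
  have hO : O ≤ O.comap α.toMonoidHom := map_le_iff_le_comap.1 (Core.map_pPrimeCore_equiv α).le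
  have h1 : ∀ a, (α.toMonoidHom : G → G)^[p] a = a := fun a => by
    change (MulAut.toPerm G α ^ p : Equiv.Perm G) a = _
    rw [← hα, ← map_pow, pow_orderOf_eq_one, map_one]; rfl
  have h2 := constrained (Core.pPrimeCore_quotient_pPrimeCore p G) (QuotientGroup.map O O α.toMonoidHom hO)
    (QuotientGroup.map_surjective_of_surjective _ _ _ (QuotientGroup.mk_surjective.comp α.surjective) _)
    (fun g => QuotientGroup.induction_on g fun g => ((Function.Semiconj.iterate_right
      (f := QuotientGroup.mk) (ga := α.toMonoidHom) (fun _ => rfl) p g).symm.trans (congrArg _ (h1 g))))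
    ((card_fix_quotient_le _ _ _).trans h.le) hc
  refine eq_bot_iff.2 ((der_add_le (K := O) ?_ c).trans (le_of_eq ?_))
  · rw [← QuotientGroup.ker_mk' O, ← Subgroup.map_eq_bot_iff, eq_bot_iff]
    exact (map_derivedSeries_le_derivedSeries _ _).trans h2.le
  have h3 : ∀ g : O, MulAut.characteristic O α g = g → g = 1 := fun g hg => Subtype.ext (orderOf_eq_one_iff.1
    (Nat.eq_one_of_dvd_coprimes (h ▸ (Core.pPrimeCore_coprime p G).symm.pow_left n)
       ((α.toMonoidHom.eqLocus (.id G)).orderOf_dvd_natCard (congrArg Subtype.val hg))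
      (O.orderOf_dvd_natCard g.2)))
  rw [← top_subtype_lowerCentralSeries]
  rcases (Nat.dvd_prime hp).1 (hα ▸ orderOf_map_dvd (MulAut.characteristic O) α) with e | e
  · haveI : Subsingleton O := ⟨fun a b => by
      rw [h3 a (by rw [orderOf_eq_one_iff.1 e]; rfl), h3 b (by rw [orderOf_eq_one_iff.1 e]; rfl)]⟩
    rw [Subsingleton.elim (Subgroup.lowerCentralSeries _ _) ⊥, Subgroup.map_bot]
  · rw [S3779.lcs_eq_bot hp _ e h3 hc, Subgroup.map_bot]

end Cfsg.Agent.S3782
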