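import Cfsg.Statements.S3783
import Cfsg.Agent.Lib.HH.PLen

set_option autoImplicit false
open Cfsg

namespace Cfsg.Agent.S3783

/-- Let G be a finite p-soluble group in which, for every prime q ≠ p, the Sylow q-subgroups are abelian. If the Sylow p-subgroups of G have exponent dividing p^n, then G has p-length at most n. -/
theorem result {G : Type*} [Group G] [Finite G] {p : ℕ} [Fact p.Prime] (hG : Cfsg.IsPSolvable p G) (hab : ∀ (q : ℕ) [Fact q.Prime], q ≠ p → ∀ Q : Sylow q G, IsMulCommutative (Q : Subgroup G)) (n : ℕ) (hexp : ∀ (P : Sylow p G), ∀ x ∈ (P : Subgroup G), x ^ p ^ n = 1) : Cfsg.PLengthLE p n G := by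
  refine Lib.HH.ModB.pLength_le_exp n G hG (fun n₀ q m h1 _ hq h2 h3 Q hQ => ?_) fun x l hx => ?_
  · haveI := Fact.mk hq
    obtain ⟨S, hS⟩ := hQ.exists_le_sylow
    refine Lib.BG.abelian_of_le (hab q (fun e => ?_) S) hS
    have h4 : p ∣ p ^ n₀ - 1 := by rw [h3, e]; exact dvd_pow_self p (by omega)
    exact (Fact.out : p.Prime).not_dvd_one ((Nat.dvd_sub_iff_right (Nat.one_le_pow _ _ (Fact.out : p.Prime).pos)
      (dvd_pow_self p (by omega))).1 h4)
  · obtain ⟨S, hS⟩ := (show IsPGroup p (Subgroup.zpowers x) from fun y => ⟨l, Subtype.ext (orderOf_dvd_iff_pow_eq_one.1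
      ((orderOf_dvd_of_mem_zpowers y.2).trans (orderOf_dvd_of_pow_eq_one hx)))⟩).exists_le_sylow
    exact hexp S x (hS (Subgroup.mem_zpowers x))

end Cfsg.Agent.S3783
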