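import Cfsg.Statements.S3785
import Cfsg.Agent.Lib.BG.Basic
import Cfsg.Agent.Lib.Coprime.Nilpotent
import Cfsg.Agent.Lib.PGroup.Critical
import Cfsg.Agent.Lib.Core.Fitting

set_option autoImplicit false
open Cfsg

namespace Cfsg.Agent.S3785

open Subgroup Cfsg.Lib Cfsg.Lib.Core

/-- Let G be a finite solvable group whose Fitting subgroup F(G) has odd order. If an element g of G commutes with every element of prime order of F(G), then g ∈ F(G). -/
theorem result {G : Type*} [Group G] [Finite G] (hG : Group.IsSolvable G) (hodd : Odd (Nat.card (Cfsg.fittingSubgroup G))) (g : G) (hg : ∀ x ∈ Cfsg.fittingSubgroup G, (orderOf x).Prime → g * x = x * g) : g ∈ Cfsg.fittingSubgroup G := by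
  haveI := hG
  set F := fittingSubgroup G with hF
  set S : Set G := {x | x ∈ F ∧ (orderOf x).Prime} with hS
  have hFn : F.Normal := fittingSubgroup_normal G
  have hCn : (centralizer S).Normal := ⟨fun a ha y => mem_centralizer_iff.2 fun x hx => by
    have h1 : y⁻¹ * x * y ∈ S := ⟨by simpa using hFn.conj_mem x hx.1 y⁻¹, by
      have : orderOf (y⁻¹ * x * y) = orderOf x := by
        simpa using (MulAut.conj y⁻¹).orderOf_eq x
      rw [this]; exact hx.2⟩
    have h2 := mem_centralizer_iff.1 ha _ h1
    calc x * (y * a * y⁻¹) = y * (y⁻¹ * x * y * a) * y⁻¹ := by group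
      _ = y * (a * (y⁻¹ * x * y)) * y⁻¹ := by rw [h2]
      _ = y * a * y⁻¹ * x := by group⟩
  -- step A
  have hA : ∀ (p : ℕ) (A : Subgroup G), p.Prime → A ≤ centralizer S → (Nat.card A).Coprime p →
      A ≤ centralizer (pCore p G : Set G) := by
    intro p A hp hAC hc
    haveI := Fact.mk hp
    by_cases h2 : p = 2
    · subst h2
      have : pCore 2 G = ⊥ := by
        obtain ⟨k, hk⟩ := (IsPGroup.iff_card).1 (pCore_isPGroup 2 G)
        have hd := card_dvd_of_le (pCore_le_fittingSubgroup (G := G) 2)
        rw [hk] at hd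
        rcases k with _ | k
        · exact card_eq_one.1 (by simpa using hk)
        · exact absurd (hodd.of_dvd_nat ((dvd_pow_self 2 k.succ_ne_zero).trans hd)) (by decide)
      rw [this]; intro a _; simp [mem_centralizer_iff]
    · refine PGroup.le_centralizer_of_le_centralizer_omegaOne h2 (pCore_isPGroup p G)
        (by rw [normalizer_eq_top]; exact le_top) hc ?_
      rw [omegaOne, centralizer_closure]
      intro a ha
      refine mem_centralizer_iff.2 fun x hx => ?_
      by_cases h1 : x = 1
      · simp [h1]
      · exact mem_centralizer_iff.1 (hAC ha) x ⟨pCore_le_fittingSubgroup p hx.1, by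
          rw [orderOf_eq_prime hx.2 h1]; exact hp⟩
  have key : centralizer S ≤ F := by
    refine Coprime.le_of_forall_pgroup_le fun q P hq hPC hP => ?_
    haveI := Fact.mk hq
    set D : Subgroup G := ⨆ p : {p : Nat.Primes // p.1 ≠ q}, pCore p.1 G with hD
    haveI hDn : D.Normal := Subgroup.iSup_normal _
    set K := centralizer S ⊓ centralizer (D : Set G) with hK
    have hKn : K.Normal := inferInstance
    have hcD : ∀ A : Subgroup G, (∀ p : ℕ, p.Prime → p ≠ q → A ≤ centralizer (pCore p G : Set G)) →
        A ≤ centralizer (D : Set G) := fun A h => by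
      rw [le_centralizer_iff]
      exact iSup_le fun p => le_centralizer_iff.1 (h _ p.1.2 p.2)
    have hPK : P ≤ K := le_inf hPC (hcD P fun p hp hpq => hA p P hp hPC (by
      obtain ⟨k, hk⟩ := (IsPGroup.iff_card).1 hP
      rw [hk]; exact Nat.Coprime.pow_left _ ((Nat.coprime_primes hq hp).2 (Ne.symm hpq))))
    have hR : ∀ (r : ℕ) (R : Subgroup G), r.Prime → r ≠ q → R ≤ K → IsPGroup r R →
        R ≤ centralizer (K : Set G) := by
      intro r R hr hrq hRK hRp
      haveI := Fact.mk hr
      have h1 : R ≤ centralizer (F : Set G) := by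
        rw [le_centralizer_iff, hF, fittingSubgroup_eq_iSup_pCore]
        refine iSup_le fun p => ?_
        by_cases hpq : p.1 = q
        · refine le_centralizer_iff.1 (hA p R p.2 (hRK.trans inf_le_left) ?_)
          obtain ⟨k, hk⟩ := (IsPGroup.iff_card).1 hRp
          rw [hk, hpq]; exact Nat.Coprime.pow_left _ ((Nat.coprime_primes hr hq).2 hrq)
        · exact (le_iSup (fun p : {p : Nat.Primes // p.1 ≠ q} => pCore p.1 G) ⟨p, hpq⟩).trans
            (le_centralizer_iff.1 (hRK.trans inf_le_right))
      have h2 : R ≤ D := (le_pCore_of_le_fittingSubgroup (h1.trans centralizer_fittingSubgroup_le) hRp).trans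
        (le_iSup (fun p : {p : Nat.Primes // p.1 ≠ q} => pCore p.1 G) ⟨⟨r, hr⟩, hrq⟩)
      exact h2.trans (le_centralizer_iff.1 inf_le_right)
    refine hPK.trans (le_fittingSubgroup hKn ?_)
    have hq' : IsPGroup q (K ⧸ center K) := by
      intro y
      obtain ⟨x, rfl⟩ := QuotientGroup.mk_surjective y
      refine ⟨(orderOf x).factorization q, ?_⟩
      rw [← QuotientGroup.mk_pow, QuotientGroup.eq_one_iff]
      set y := x ^ q ^ (orderOf x).factorization q with hy
      have hyo : (orderOf y).Coprime q := by
        rw [hy, orderOf_pow_of_dvd (pow_pos hq.pos _).ne' (Nat.ordProj_dvd _ _)]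
        exact (Nat.coprime_ordCompl hq (orderOf_pos x).ne').symm
      have : zpowers (y : G) ≤ centralizer (K : Set G) := by
        refine Coprime.le_of_forall_pgroup_le fun r R hr hRy hRp => ?_
        by_cases hrq : r = q
        · subst hrq
          obtain ⟨k, hk⟩ := (IsPGroup.iff_card).1 hRp
          have hd := card_dvd_of_le hRy
          rw [Nat.card_zpowers, Subgroup.orderOf_coe, hk] at hd
          have : R = ⊥ := card_eq_one.1 (by
            rw [hk]; exact Nat.Coprime.eq_one_of_dvd (Nat.Coprime.pow_left _ hyo.symm) hd)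
          rw [this]; exact bot_le
        · exact hR r R hr hrq (hRy.trans (zpowers_le.2 y.2)) hRp
      refine mem_center_iff.2 fun z => Subtype.ext ?_
      exact mem_centralizer_iff.1 (this (mem_zpowers _)) z z.2
    haveI := hq'.isNilpotent
    exact Subgroup.isNilpotent_of_ker_le_center (QuotientGroup.mk' (center K))
      (by rw [QuotientGroup.ker_mk'])
  exact key (mem_centralizer_iff.2 fun x hx => (hg x hx.1 hx.2).symm)

end Cfsg.Agent.S3785
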