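import Cfsg.Statements.S3786
import Cfsg.Agent.Lib.HH.Ferm2

set_option autoImplicit false
open Cfsg

namespace Cfsg.Agent.S3786

/-- The Hall–Higman bound on p-length. Let p be an odd prime and G a finite p-soluble group whose Sylow p-subgroups have exponent dividing p^e. (a) If p is not of the form 2^k + 1, or if the Sylow 2-subgroups of G are abelian, then G has p-length at most e. (b) In every case G has p-length at most 2e. -/
theorem result {G : Type*} [Group G] [Finite G] {p : ℕ} [Fact p.Prime] (hp : p ≠ 2) (hG : Cfsg.IsPSolvable p G) (e : ℕ) (hexp : ∀ (P : Sylow p G), ∀ x ∈ (P : Subgroup G), x ^ p ^ e = 1) : (((¬ ∃ k : ℕ, p = 2 ^ k + 1) ∨ ∀ S : Sylow 2 G, IsMulCommutative (S : Subgroup G)) → Cfsg.PLengthLE p e G) ∧ Cfsg.PLengthLE p (2 * e) G := by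
  have he : ∀ (x : G) (l : ℕ), x ^ p ^ l = 1 → x ^ p ^ e = 1 := fun x l hx => by
    obtain ⟨S, hS⟩ := (show IsPGroup p (Subgroup.zpowers x) from fun y => ⟨l, Subtype.ext
      (orderOf_dvd_iff_pow_eq_one.1 ((orderOf_dvd_of_mem_zpowers y.2).trans
        (orderOf_dvd_of_pow_eq_one hx)))⟩).exists_le_sylow
    exact hexp S x (hS (Subgroup.mem_zpowers x))
  refine ⟨fun h => Lib.HH.ModB.pLength_le_exp e G hG (fun n₀ q m h1 _ hq h2 h3 Q hQ => ?_) he,
    Lib.HH.Ferm.pLength_le_two_exp hp e G hG he⟩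
  have hp' : p.Prime := Fact.out
  obtain rfl : q = 2 := by
    have h4 : 2 ∣ q ^ m := h3 ▸ (Nat.Odd.sub_odd (hp'.odd_of_ne_two hp).pow odd_one).two_dvd
    exact ((Nat.prime_dvd_prime_iff_eq Nat.prime_two hq).1 (Nat.prime_two.dvd_of_dvd_pow h4)).symm
  obtain ⟨S, hS⟩ := hQ.exists_le_sylow
  refine Lib.BG.abelian_of_le (h.resolve_left (fun h => h ?_) S) hS
  obtain ⟨k, -, hk⟩ := (Nat.dvd_prime_pow Nat.prime_two).1 (h3 ▸ Nat.sub_one_dvd_pow_sub_one p n₀)
  exact ⟨k, by have := hp'.pos; omega⟩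

end Cfsg.Agent.S3786
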