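import Cfsg.Statements.S3787
import Cfsg.Agent.Lib.HH.PLen
import Cfsg.Agent.Lib.Fusion.Involves

set_option autoImplicit false
open Cfsg

namespace Cfsg.Agent.S3787

open Subgroup Cfsg.Lib Cfsg.Lib.BG Cfsg.Lib.HH.ModB Module

theorem exists_block {K V : Type*} [Field K] [AddCommGroup V] [Module K V] {T : End K V} {k : ℕ} (h : (T - 1) ^ (k + 1) = 0)
    (h0 : (T - 1) ^ k ≠ 0) : ∃ U : Submodule K V, (∀ w ∈ U, T w ∈ U) ∧ finrank K U = k + 1 ∧
      finrank K ↥(U ⊓ LinearMap.ker (T - 1)) = 1 := by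
  obtain ⟨u, hu⟩ : ∃ v, ((T - 1) ^ k) v ≠ 0 := by simpa [LinearMap.ext_iff] using h0
  let U := Submodule.span K (Set.range fun i : Fin (k + 1) => ((T - 1) ^ (i : ℕ)) u)
  haveI : FiniteDimensional K U := FiniteDimensional.span_of_finite K (Set.finite_range _)
  have h1 : ∀ i : ℕ, ((T - 1) ^ i) u ∈ U := fun i => (lt_or_ge i (k + 1)).elim (fun hi => Submodule.subset_span ⟨⟨i, hi⟩, rfl⟩)
    fun hi => by rw [pow_eq_zero_of_le hi h]; exact U.zero_mem
  have h2 : U ≤ U.comap (T - 1) := Submodule.span_le.2 (by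
    rintro _ ⟨i, rfl⟩
    have := h1 (i + 1)
    rwa [pow_succ'] at this)
  have h3 : ∀ w ∈ U, T w ∈ U := fun w hw => by simpa using U.add_mem (h2 hw) hw
  have h4 : finrank K U = k + 1 := le_antisymm ((finrank_range_le_card _).trans (Fintype.card_fin _).le) (by
    by_contra hl
    have h5 : ((T.restrict h3 : End K U) - 1) ^ k = 0 := pow_eq_zero_of_le (m := finrank K U) (by omega) (by
      simpa [(IsNilpotent.mk _ _ (res_pow h3 h)).charpoly_eq_X_pow_finrank] using ((T.restrict h3 : End K U) - 1).aeval_self_charpoly)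
    have : ∀ (k : ℕ) (u : U), ((((T.restrict h3 : End K U) - 1) ^ k) u : V) = ((T - 1) ^ k) u := fun k => by
      induction k with
      | zero => exact fun _ => rfl
      | succ k ih => intro u; rw [pow_succ, pow_succ, End.mul_apply, ih]; rfl
    exact hu ((this k ⟨u, h1 0⟩).symm.trans (by rw [h5]; rfl)))
  refine ⟨U, h3, h4, le_antisymm ?_ (Nat.pos_of_ne_zero fun e => hu ?_)⟩
  · have h5 := ((T - 1).domRestrict U).finrank_range_add_finrank_ker
    rw [LinearMap.range_domRestrict, LinearMap.ker_domRestrict, ← Submodule.finrank_map_subtype_eq, Submodule.map_comap_subtype] at h5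
    have h6 : U ≤ U.map (T - 1) ⊔ K ∙ u := Submodule.span_le.2 (by
      rintro _ ⟨⟨_ | i, hi⟩, rfl⟩
      · exact Submodule.mem_sup_right (Submodule.mem_span_singleton_self u)
      · exact Submodule.mem_sup_left ⟨_, h1 i, by simp only [pow_succ']; rfl⟩)
    have h7 := (Submodule.finrank_mono h6).trans (Submodule.finrank_add_le_finrank_add_finrank _ _)
    have h8 : finrank K (K ∙ u) ≤ 1 := by simpa using finrank_span_le_card (R := K) ({u} : Set V)
    omega
  · exact (Submodule.finrank_eq_zero.1 e).le ⟨h1 k, by rw [SetLike.mem_coe, LinearMap.mem_ker, ← End.mul_apply, ← pow_succ', h]; rfl⟩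


/-- Let G be a finite p-soluble group, p an odd prime not of the form 2^k + 1, and suppose the wreath product C_p ≀ C_p (of order p^(p+1)) is not involved in a Sylow p-subgroup of G: no section of a Sylow p-subgroup is isomorphic to it. Then G has p-length at most 1. -/
theorem result {G : Type*} [Group G] [Finite G] {p : ℕ} [Fact p.Prime] (hp2 : p ≠ 2) (hnf : (¬ ∃ k : ℕ, p = 2 ^ k + 1)) (hG : Cfsg.IsPSolvable p G) (P : Sylow p G) (hwr : ∀ (W : Type) [Group W] [Finite W], (∃ (B : Subgroup W) (t : W), B.Normal ∧ IsMulCommutative B ∧ (∀ b ∈ B, b ^ p = 1) ∧ Nat.card B = p ^ p ∧ orderOf t = p ∧ t ∉ B ∧ Nat.card W = p ^ (p + 1) ∧ Nat.card ↥(B ⊓ Subgroup.centralizer ({t} : Set W)) = p) → ¬ Cfsg.Involves W ↥(P : Subgroup G)) : Cfsg.PLengthLE p 1 G := by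
  have hp : p.Prime := Fact.out
  obtain ⟨H, _, _, f, hf, hR, -, h⟩ := exists_red hG
  refine h 0 (Core.pLengthLE_zero_iff.2 (Core.coprime_iff_not_dvd.2 fun hd => ?_))
  obtain ⟨L, h3, h4⟩ := hR.compl
  obtain ⟨⟨l, hl⟩, hlp⟩ := exists_prime_orderOf_dvd_card' p (hd.trans (by
    rw [← index, ← relIndex_top_right, ← h4, relIndex_sup_left]; exact BG.relIndex_dvd_card _ _ : _ ∣ Nat.card L))
  rw [orderOf_mk] at hlp
  have hl1 : l ^ p = 1 := hlp ▸ pow_orderOf_eq_one l
  have hlV : l ∉ pCore p H := fun e => hp.one_lt.ne' (by rw [← hlp, h3.le ⟨e, hl⟩, orderOf_one])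
  obtain ⟨n, e, ρ, h5, h7, h8, h9, h10, h11⟩ := hR.coord
  have h12 : (l : H ⧸ pCore p H) ^ p = 1 := by rw [← QuotientGroup.mk_pow, hl1, QuotientGroup.mk_one]
  have h13 := hR.thmB h5 (n := 0) (x := l) (by rw [zero_add, pow_one]; exact orderOf_eq_prime h12 (mt (QuotientGroup.eq_one_iff l).1 hlV))
    fun n₀ q m h1 h2 hq h3 h4 => absurd ⟨m, by
      obtain rfl := le_antisymm h1 h2
      obtain rfl : 2 = q := (Nat.prime_dvd_prime_iff_eq Nat.prime_two hq).1 (Nat.prime_two.dvd_of_dvd_pow (n := m) (by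
        rw [← h4, pow_one]; exact (Nat.Odd.sub_odd (hp.odd_of_ne_two hp2) odd_one).two_dvd))
      rw [← h4, pow_one, Nat.sub_add_cancel hp.one_le]⟩ hnf
  rw [zero_add, pow_one] at h13
  obtain ⟨U, h14, h15, h16⟩ := exists_block (T := ρ l) (k := p - 1) (by
    have := sub_one_pow_pow (p := p) (ZMod p) (ρ l) 1
    rw [pow_one, ← map_pow, h12, map_one, sub_self] at this
    rwa [Nat.sub_add_cancel hp.one_le]) h13
  let e' : Multiplicative (Fin n → ZMod p) →* H := MonoidHom.mk' (fun u => e u.toAdd) fun u w => h9 _ _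
  have he' : Function.Injective e' := (injective_iff_map_eq_one _).2 fun u hu => (h7 _).1 hu
  have hc : ∀ X : Submodule (ZMod p) (Fin n → ZMod p), Nat.card (X.toAddSubgroup.toSubgroup.map e') = p ^ finrank (ZMod p) X := fun X => by
    rw [card_map_of_injective he']
    exact (Module.natCard_eq_pow_finrank (K := ZMod p) (V := X)).trans (by rw [Nat.card_zmod])
  set B := U.toAddSubgroup.toSubgroup.map e'
  have hBV : B ≤ pCore p H := by rintro _ ⟨u, -, rfl⟩; exact (h8 _).2 ⟨_, rfl⟩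
  have hB := PGroup.elemAb_of_le hR.ea hBV
  have hn : zpowers l ≤ 𝐍(B) := zpowers_le_of_mem (Transfer.mem_normalizer_of_conj_le (Transfer.conj_le_iff.2 (by
    rintro _ ⟨u, hu, rfl⟩; exact ⟨_, h14 _ hu, h10 l _⟩)))
  have hd : B ⊓ zpowers l = ⊥ := eq_bot_iff.2 ((inf_le_inf hBV (zpowers_le_of_mem hl)).trans h3.le)
  let φ : Shrink.{0} ↥(B ⊔ zpowers l) ≃* ↥(B ⊔ zpowers l) := Shrink.mulEquiv
  let ψ := (B ⊔ zpowers l).subtype.comp φ.toMonoidHom
  have hψ : Function.Injective ψ := Subtype.val_injective.comp φ.injective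
  have hr : ∀ X ≤ B, Nat.card (X.comap ψ) = Nat.card X := fun X hX => by
    rw [← card_map_of_injective hψ, map_comap_eq_self fun x hx => ⟨φ.symm ⟨x, mem_sup_left (hX hx)⟩, by simp [ψ]⟩]
  have ht : ψ (φ.symm ⟨l, mem_sup_right (mem_zpowers l)⟩) = l := by simp [ψ]
  have hW : IsPGroup p ↥(B ⊔ zpowers l) := IsPGroup.to_sup_of_normal_left' (PGroup.elemAb_isPGroup hB)
    (PGroup.elemAb_isPGroup (PGroup.elemAb_zpowers hl1)) hn
  haveI := hB.1
  haveI : Finite (Shrink.{0} ↥(B ⊔ zpowers l)) := Finite.of_equiv _ φ.symm.toEquiv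
  refine hwr _ ⟨B.comap ψ, φ.symm ⟨l, mem_sup_right (mem_zpowers l)⟩, ⟨fun b hb g => ?_⟩, comap_injective_isMulCommutative _ hψ,
    fun b hb => hψ (by rw [map_pow, hB.2 _ hb, map_one]), by rw [hr B le_rfl, hc, h15, Nat.sub_add_cancel hp.one_le],
    by rw [← orderOf_injective ψ hψ, ht, hlp], fun e => hlV (hBV (ht ▸ e)), ?_, ?_⟩
    (Fusion.involves_sylow (hW.of_equiv φ.symm) (Fusion.involves_trans (Fusion.involves_of_injective ψ hψ) (Fusion.involves_of_surjective f hf)) P)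
  · rw [mem_comap, map_mul, map_mul, map_inv]
    exact conj_mem_of_norm (sup_le_norm_left hn (φ g).2) hb
  · rw [Nat.card_congr φ.toEquiv, Coprime.card_sup_of_disjoint hn hd, hc, h15, Nat.sub_add_cancel hp.one_le, Nat.card_zpowers, hlp, pow_succ]
  · have : B.comap ψ ⊓ centralizer {φ.symm ⟨l, mem_sup_right (mem_zpowers l)⟩} =
        ((U ⊓ LinearMap.ker (ρ l - 1)).toAddSubgroup.toSubgroup.map e').comap ψ := by
      ext x
      rw [mem_inf, mem_centralizer_singleton_iff, ← hψ.eq_iff, map_mul, map_mul, ht, mem_comap, mem_comap, eq_comm,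
        ← commutatorElement_eq_one_iff_mul_comm]
      constructor
      · rintro ⟨⟨u, hu, e1⟩, e2⟩
        exact ⟨u, ⟨hu, (h7 _).1 ((h11 l _).trans (by rwa [← e1] at e2))⟩, e1⟩
      · rintro ⟨u, ⟨hu, e1⟩, e2⟩
        exact ⟨⟨u, hu, e2⟩, e2 ▸ (h11 l _).symm.trans ((h7 _).2 e1)⟩
    rw [this, hr _ (by rintro _ ⟨u, hu, rfl⟩; exact ⟨u, hu.1, rfl⟩), hc, h16, pow_one]

end Cfsg.Agent.S3787
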