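import Cfsg.Statements.S3788
import Cfsg.Agent.Lib.HH.PLen
import Cfsg.Agent.Lib.FGS.Basic
import Cfsg.Agent.Lib.PLocal.ClassTwo
import Cfsg.Agent.Lib.PLocal.Plane

set_option autoImplicit false
open Cfsg

namespace Cfsg.Agent.S3788

open Subgroup Cfsg.Lib Cfsg.Lib.BG Cfsg.Lib.HH.ModB
open scoped commutatorElement

theorem red {G : Type*} [Group G] [Finite G] {p : ℕ} [hp : Fact p.Prime] (h : Red p G) {A : Subgroup G} (hA : IsCyclic A)
    (hAp : IsPGroup p A) (hn : pCore p G ≤ 𝐍(A)) (h2 : p ≠ 2 ∨ ¬ PLocal.HasSection (Equiv.Perm (Fin 4)) G) : A ≤ pCore p G := by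
  classical
  intro b hb
  by_contra hbV
  obtain ⟨a, ha, haV, hap⟩ : ∃ a ∈ A, a ∉ pCore p G ∧ a ^ p ∈ pCore p G := by
    have h1 : ∃ k, b ^ p ^ k ∈ pCore p G := (hAp ⟨b, hb⟩).imp fun k hk => by
      rw [show b ^ p ^ k = 1 from congrArg Subtype.val hk]; exact one_mem _
    obtain ⟨k, hk⟩ := Nat.exists_eq_succ_of_ne_zero (fun e => hbV (by simpa [e] using Nat.find_spec h1) : Nat.find h1 ≠ 0)
    exact ⟨_, pow_mem hb _, Nat.find_min h1 (hk ▸ k.lt_succ_self), by rw [← pow_mul, ← pow_succ, ← Nat.succ_eq_add_one, ← hk]; exact Nat.find_spec h1⟩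
  obtain ⟨L, h3, h4⟩ := h.compl
  obtain ⟨v, hv, l, hl, rfl⟩ := (mem_sup_left_norm le_normalizer_of_normal).1 (h4.ge (mem_top a))
  have h5 : ((v * l : G) : G ⧸ pCore p G) = l := by rw [QuotientGroup.mk_mul, (QuotientGroup.eq_one_iff v).2 hv, one_mul]
  have h6 : l ^ p = 1 := h3.le ⟨(QuotientGroup.eq_one_iff _).1 (by
    rw [QuotientGroup.mk_pow, ← h5, ← QuotientGroup.mk_pow, QuotientGroup.eq_one_iff]; exact hap), pow_mem hl p⟩
  obtain ⟨n, e, ρ, -, h7, h8, h9, h10, h11⟩ := h.coord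
  have h12 : ∀ u, e ((ρ l - 1) u) ∈ A ⊓ pCore p G := fun u => ⟨by
    rw [← h5, h11, commutatorElement_def, mul_assoc, mul_assoc, ← mul_assoc (e u)]
    exact mul_mem ha (conj_mem_of_norm (hn ((h8 _).2 ⟨u, rfl⟩)) (inv_mem ha)), (h8 _).2 ⟨_, rfl⟩⟩
  have h13 := PGroup.elemAb_of_le h.ea (inf_le_right : A ⊓ pCore p G ≤ _)
  by_cases hp2 : p = 2
  · subst hp2
    have h14 := (PLocal.thompsonSubgroup_le_centralizer_of_isPSolvable h.sol (mt PLocal.hasSection_qd_two_iff.1 (h2.resolve_left (· rfl)))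
      h.ea (by rw [← Core.map_pCore_equiv (QuotientGroup.quotientMulEquivOfEq (le_antisymm (abelian_cent h.ea.1) h.cent)), Core.pCore_quotient_pCore, Subgroup.map_bot])).trans h.cent
    rw [← PLocal.thompsonSubgroupOf_top, PLocal.thompsonSubgroupOf_le_iff] at h14
    obtain ⟨E, hE⟩ := PLocal.exists_mem_maxIn 2 (⊤ : Subgroup G)
    have hlV : l ∉ pCore 2 G := fun e => haV (mul_mem hv e)
    refine hlV (h14 (𝐂[l] ⊓ pCore 2 G ⊔ zpowers l) (PLocal.mem_maxIn_of_card_le hE le_top (PGroup.elemAb_sup_zpowers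
      (PGroup.elemAb_of_le h.ea inf_le_right) (cent_symm (inf_le_left.trans (cent_zpowers l).ge) (mem_zpowers l)) h6)
      ((card_le_of_le (h14 E hE)).trans ?_)) (mem_sup_right (mem_zpowers l)))
    have h15 : (𝐂[l]).relIndex (pCore 2 G) ≤ 2 := (FGS.relIndex_centralizer_le_card (N := A ⊓ pCore 2 G) fun g hg => by
      obtain ⟨u, rfl⟩ := (h8 g).1 hg
      rw [← commutatorElement_inv, ← h11]; exact inv_mem (h12 u)).trans
        (PGroup.elemAb_card_le_of_isCyclic h13 (isCyclic_of_le inf_le_left))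
    rw [← Coprime.card_inf_mul_relIndex (𝐂[l]), ← BG.card_mul_relIndex (le_sup_left : _ ≤ 𝐂[l] ⊓ pCore 2 G ⊔ zpowers l)]
    refine Nat.mul_le_mul_left _ (h15.trans (Nat.one_lt_iff_ne_zero_and_ne_one.2 ⟨index_ne_zero_of_finite, fun e => hlV ?_⟩))
    exact (relIndex_eq_one.1 e (mem_sup_right (mem_zpowers l))).2
  obtain ⟨u, rfl⟩ := (h8 v).1 hv
  have h14 : (ρ l - 1) ^ 2 = 0 := by
    rw [sq]
    refine LinearMap.ext fun w => (h7 _).1 ?_
    rw [Module.End.mul_apply, ← h5, h11, h5, commutatorElement_eq_one_iff_mul_comm]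
    exact (abelian_cent (abelian_of_cyclic hA) (h12 w).1 _ ha)
  have h15 := pow_mul_eq ((h7 0).2 rfl) h9 (h10 l) u (p ^ 1)
  rw [geom_sum_pow (ZMod p), pow_one, pow_eq_zero_of_le (by have := hp.1.two_le; omega) h14, h6, mul_one, LinearMap.zero_apply,
    (h7 0).2 rfl] at h15
  have h16 : A ⊓ pCore p G ≠ ⊥ := fun e' => haV (h.cent fun g hg => by
    obtain ⟨w, rfl⟩ := (h8 g).1 hg
    have := e'.le (h12 w)
    rwa [← h5, h11, mem_bot, commutatorElement_eq_one_iff_mul_comm, eq_comm] at this)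
  have h17 := PGroup.elemAb_card_le_of_isCyclic (PGroup.elemAb_sup_zpowers h13 (abelian_cent' (abelian_of_cyclic hA) le_rfl inf_le_left ha) h15)
    (isCyclic_of_le (sup_le inf_le_left (zpowers_le_of_mem ha)))
  exact haV ((Subgroup.eq_of_le_of_card_ge le_sup_left (h17.trans (Nat.le_of_dvd Nat.card_pos (pgroup_dvd_card (hAp.to_le inf_le_left) h16)))).ge
    (mem_sup_right (mem_zpowers _))).2


/-- Let G be a finite p-soluble group, P a Sylow p-subgroup of G and A a cyclic normal subgroup of P. If p is odd, or if no section of G is isomorphic to the symmetric group of degree 4, then A ≤ O_{p',p}(G). -/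
theorem result {G : Type*} [Group G] [Finite G] {p : ℕ} [Fact p.Prime] (hG : Cfsg.IsPSolvable p G) (P : Sylow p G) (A : Subgroup G) (hAP : A ≤ (P : Subgroup G)) (hAn : (P : Subgroup G) ≤ Subgroup.normalizer (A : Set G)) (hA : IsCyclic A) (h : p ≠ 2 ∨ ¬ Cfsg.Involves (Equiv.Perm (Fin 4)) G) : A ≤ Cfsg.pPrimePCore p G := by
  obtain ⟨H, _, _, f, hf, hR, e, -⟩ := exists_red hG
  rw [← e, ← map_le_iff_le_comap]
  refine red hR (isCyclic_of_surjective _ (f.subgroupMap_surjective A)) ((P.2.to_le hAP).map f)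
    ((Core.pCore_le_sylow (P.mapSurjective hf)).trans (map_norm f hAn)) (h.imp_right (mt fun h => ?_))
  exact PLocal.hasSection_iff.1 (h.of_surjective f hf)

end Cfsg.Agent.S3788
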