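import Cfsg.Statements.S3790
import Cfsg.Agent.Lib.Core.PSolvable

set_option autoImplicit false
open Cfsg

namespace Cfsg.Agent.S3790

open Subgroup Cfsg.Lib Cfsg.Lib.Core

universe u

theorem aux {ι : Type} (p : ℕ) [hp : Fact p.Prime] (q l : ι → ℕ) (hq : ∀ i, (q i).Prime ∧ q i ≠ p) (s : Finset ι) :
    ∀ (G : Type u) [Group G] [Finite G], (∀ t : ℕ, t.Prime → t ∣ Nat.card G → t ≠ p → ∃ i ∈ s, q i = t) →
      (∀ i ∈ s, PLengthLE (q i) (l i) G) → PLengthLE p (∏ i ∈ s, (1 + l i)) G := by
  classical
  haveI : ∀ i, Fact (q i).Prime := fun i => ⟨(hq i).1⟩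
  induction s using Finset.induction_on with
  | empty =>
    intro G _ _ h _
    refine pLengthLE_one_of_isPGroup (IsPGroup.iff_card.2 ⟨_, Nat.eq_prime_pow_of_unique_prime_dvd
      Nat.card_pos.ne' fun {t} ht hd => ?_⟩)
    by_contra h1
    simpa using h t ht hd h1
  | insert j s hj ih =>
    rw [Finset.prod_insert hj]
    have key : ∀ (k : ℕ) (G : Type u) [Group G] [Finite G],
        (∀ t : ℕ, t.Prime → t ∣ Nat.card G → t ≠ p → ∃ i ∈ insert j s, q i = t) →
        (∀ i ∈ s, PLengthLE (q i) (l i) G) → PLengthLE (q j) k G →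
        PLengthLE p ((1 + k) * ∏ i ∈ s, (1 + l i)) G := by
      have h0 : ∀ (G : Type u) [Group G] [Finite G],
          (∀ t : ℕ, t.Prime → t ∣ Nat.card G → t ≠ p → ∃ i ∈ insert j s, q i = t) →
          (∀ i ∈ s, PLengthLE (q i) (l i) G) → (Nat.card G).Coprime (q j) →
          PLengthLE p (∏ i ∈ s, (1 + l i)) G := fun G _ _ h1 h2 h3 => by
        refine ih G (fun t ht hd htp => ?_) h2
        obtain ⟨i, hi, rfl⟩ := h1 t ht hd htp
        rcases Finset.mem_insert.1 hi with rfl | hi
        · exact absurd hd ((Nat.Prime.coprime_iff_not_dvd ht).1 h3.symm)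
        · exact ⟨i, hi, rfl⟩
      intro k
      induction k with
      | zero => intro G _ _ h1 h2 h3; simpa using h0 G h1 h2 (pLengthLE_zero_iff.1 h3)
      | succ k ihk =>
        intro G _ _ h1 h2 h3
        haveI := pPrimePCore_normal (q j) G
        rw [show (1 + (k + 1)) * ∏ i ∈ s, (1 + l i) = (∏ i ∈ s, (1 + l i) + 0) + (1 + k) * ∏ i ∈ s, (1 + l i) by ring]
        refine pLengthLE_add (pPrimePCore (q j) G) (pLengthLE_add ((pPrimeCore (q j) G).subgroupOf _) ?_ ?_)
          (ihk _ (fun t ht hd => h1 t ht (hd.trans (card_quotient_dvd_card _))) (fun i hi =>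
            pLengthLE_quotient (h2 i hi) _) (pLengthLE_succ_iff.1 h3))
        · refine h0 _ (fun t ht hd => h1 t ht (hd.trans ((card_subgroup_dvd_card _).trans (card_subgroup_dvd_card _))))
            (fun i hi => pLengthLE_subgroup (pLengthLE_subgroup (h2 i hi) _) _) ?_
          rw [Nat.card_congr (subgroupOfEquivOfLe (pPrimeCore_le_pPrimePCore _ _)).toEquiv]
          exact pPrimeCore_coprime _ _
        · obtain ⟨n, hn⟩ := exists_relIndex_pPrimePCore_eq_pow (G := G) (q j)
          rw [pLengthLE_zero_iff, ← index_eq_card, ← relIndex, hn]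
          exact Nat.Coprime.pow_left _ ((Nat.coprime_primes (hq j).1 hp.1).2 (hq j).2)
    intro G _ _ h1 h2
    exact key _ G h1 (fun i hi => h2 i (Finset.mem_insert_of_mem hi)) (h2 j (Finset.mem_insert_self _ _))


/-- Let G be a finite solvable group and p a prime. Suppose p₁, …, p_r are distinct primes, all different from p, that include every prime dividing the order of G other than p, and that G has p_i-length at most l_i for each i. Then G has p-length at most the product of the numbers 1 + l_i. -/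
theorem result {G : Type*} [Group G] [Finite G] (hG : Group.IsSolvable G) (p : ℕ) [Fact p.Prime] (r : ℕ) (q : Fin r → ℕ) (hq : ∀ i, (q i).Prime ∧ q i ≠ p) (hinj : Function.Injective q) (hcover : ∀ s : ℕ, s.Prime → s ∣ Nat.card G → s ≠ p → ∃ i, q i = s) (l : Fin r → ℕ) (hl : ∀ i, Cfsg.PLengthLE (q i) (l i) G) : Cfsg.PLengthLE p (Finset.univ.prod fun i => 1 + l i) G := by
  exact aux p q l hq Finset.univ G (fun t ht hd htp => by simpa using hcover t ht hd htp) fun i _ => hl i

end Cfsg.Agent.S3790
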