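import Cfsg.Statements.S3791
import Cfsg.Agent.Lib.HH.PLen

set_option autoImplicit false
open Cfsg

namespace Cfsg.Agent.S3791

open Subgroup Cfsg.Lib Cfsg.Lib.Core Cfsg.Lib.HH.ModB

universe u

theorem aux {r : ℕ} (q d : Fin r → ℕ) (hq : ∀ i, (q i).Prime) (n : ℕ) :
    ∀ (G : Type u) [Group G] [Finite G], Nat.card G = n → Group.IsSolvable G → ∀ l : Fin r → ℕ,
      (∀ s : ℕ, s.Prime → s ∣ Nat.card G → ∃ i, q i = s) →
      (∀ i, ∀ P : Subgroup G, IsPGroup (q i) P → dS (d i) P = ⊥) → (∀ i, PLengthLE (q i) (l i) G) →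
      dS (∑ i, d i * l i) (⊤ : Subgroup G) = ⊥ := by
  haveI : ∀ i, Fact (q i).Prime := fun i => ⟨hq i⟩
  induction n using Nat.strong_induction_on with
  | _ n ih =>
  intro G _ _ hn hs l h1 h2 h3
  have key : ∀ (N : Subgroup G) [N.Normal], N ≠ ⊥ → ∀ l : Fin r → ℕ, (∀ i, PLengthLE (q i) (l i) (G ⧸ N)) →
      dS (∑ i, d i * l i) (⊤ : Subgroup G) ≤ N := fun N _ hN l h => by
    have := ih _ (hn ▸ Core.card_quotient_lt hN) (G ⧸ N) rfl inferInstance l
      (fun s hs hd => h1 s hs (hd.trans (card_quotient_dvd_card _))) (fun i P hP => by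
        obtain ⟨R, hR, rfl, -⟩ := PLocal.exists_isPGroup_map_eq (QuotientGroup.mk'_surjective N) hP
        rw [← map_dS, h2 i R hR, Subgroup.map_bot]) h
    rwa [← map_top_of_surjective _ (QuotientGroup.mk'_surjective N), ← map_dS, Subgroup.map_eq_bot_iff,
      QuotientGroup.ker_mk'] at this
  rcases subsingleton_or_nontrivial G with h0 | h0
  · exact Subsingleton.elim _ _
  obtain ⟨N, hN⟩ := exists_isMinNormal (G := G)
  haveI := hN.1
  obtain ⟨p, hp, hNp⟩ := hN.exists_isPGroup inferInstance
  haveI := Fact.mk hp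
  have hpd : p ∣ Nat.card N := BG.pgroup_dvd_card hNp hN.ne_bot
  obtain ⟨j, rfl⟩ := h1 p hp (hpd.trans (card_subgroup_dvd_card _))
  by_cases hO : pPrimeCore (q j) G = ⊥
  · obtain ⟨k, hk⟩ : ∃ k, l j = k + 1 := Nat.exists_eq_succ_of_ne_zero fun e => by
      have := h3 j
      rw [e, pLengthLE_zero_iff] at this
      exact (Nat.Prime.coprime_iff_not_dvd hp).1 this.symm (hpd.trans (card_subgroup_dvd_card _))
    have h4 := key (pCore (q j) G) (pCore_ne_bot hN.1 hNp hN.ne_bot) (Function.update l j k) fun i => by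
      by_cases e : i = j
      · subst e
        have := h3 i
        rw [hk, pLengthLE_succ_iff] at this
        rw [Function.update_self]
        exact pLengthLE_of_equiv this (QuotientGroup.quotientMulEquivOfEq (pPrimePCore_eq_pCore hO))
      · rw [Function.update_of_ne e]; exact pLengthLE_quotient (h3 i) _
    have h5 : ∑ i, d i * l i = ∑ i, d i * Function.update l j k i + d j := by
      have h6 : ∑ i ∈ Finset.univ.erase j, d i * Function.update l j k i = ∑ i ∈ Finset.univ.erase j, d i * l i :=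
        Finset.sum_congr rfl fun i hi => by rw [Function.update_of_ne (Finset.ne_of_mem_erase hi)]
      rw [← Finset.add_sum_erase _ _ (Finset.mem_univ j), ← Finset.add_sum_erase _ _ (Finset.mem_univ j),
        Function.update_self, hk, h6]
      ring
    rw [h5, dS_add]
    exact eq_bot_iff.2 ((dS_mono h4 _).trans (h2 j _ (pCore_isPGroup _ _)).le)
  · refine eq_bot_iff.2 ((le_inf (key N hN.ne_bot l fun i => pLengthLE_quotient (h3 i) _)
      (key _ hO l fun i => pLengthLE_quotient (h3 i) _)).trans (le_of_eq (Subgroup.inf_eq_bot_of_coprime ?_)))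
    obtain ⟨k, hk⟩ := IsPGroup.iff_card.1 hNp
    rw [hk]; exact Nat.Coprime.pow_left _ (pPrimeCore_coprime _ _).symm


/-- The Hall–Higman bound on derived length: let G be a finite solvable group, let p₁, …, p_r be distinct primes that include every prime dividing the order of G, and suppose that for each i the Sylow p_i-subgroups of G have derived length at most d_i and G has p_i-length at most l_i. Then G has derived length at most Σ d_i l_i. -/
theorem result {G : Type*} [Group G] [Finite G] (hG : Group.IsSolvable G) (r : ℕ) (q : Fin r → ℕ) (hq : ∀ i, (q i).Prime) (hinj : Function.Injective q) (hcover : ∀ s : ℕ, s.Prime → s ∣ Nat.card G → ∃ i, q i = s) (d l : Fin r → ℕ) (hd : ∀ i, ∀ P : Subgroup G, (haveI := Fact.mk (hq i); ∃ S : Sylow (q i) G, (S : Subgroup G) = P) → derivedSeries ↥P (d i) = ⊥) (hl : ∀ i, Cfsg.PLengthLE (q i) (l i) G) : derivedSeries G (Finset.univ.sum fun i => d i * l i) = ⊥ := by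
  rw [← dS_top]
  refine aux q d hq _ G rfl hG l hcover (fun i P hP => ?_) hl
  haveI := Fact.mk (hq i)
  obtain ⟨S, hS⟩ := hP.exists_le_sylow
  refine eq_bot_iff.2 ((dS_mono hS _).trans (le_of_eq ?_))
  rw [← map_derivedSeries, hd i S ⟨S, rfl⟩, Subgroup.map_bot]

end Cfsg.Agent.S3791
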