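import Cfsg.Statements.S3792
import Cfsg.Agent.Lib.BG.Hall
import Cfsg.Agent.Lib.Core.PSolvable
import Cfsg.Agent.Lib.Core.Frattini
import Cfsg.Agent.Lib.Coprime.Sylow

set_option autoImplicit false
open Cfsg

namespace Cfsg.Agent.S3792

open Subgroup Cfsg.Lib Cfsg.Lib.BG Cfsg.Lib.Transfer
open scoped commutatorElement

universe u

section
variable {G G' : Type*} [Group G] [Group G'] {π : Set ℕ} {H K A : Subgroup G}

/-- The subgroup generated by the `π`-elements of `H`. -/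
def gen (π : Set ℕ) (H : Subgroup G) : Subgroup G := closure {x | x ∈ H ∧ PiElt π x}

theorem gen_le : gen π H ≤ H := (closure_le _).2 fun _ h => h.1

theorem gen_mono (h : H ≤ K) : gen π H ≤ gen π K := closure_mono fun _ hx => ⟨h hx.1, hx.2⟩

theorem le_gen (h : K ≤ H) (hK : PiGrp π K) : K ≤ gen π H := fun _ hx => subset_closure ⟨h hx, hK.elt hx⟩

theorem gen_gen : gen π (gen π H) = gen π H := le_antisymm gen_le (closure_mono fun _ hx => ⟨subset_closure hx, hx.2⟩)

variable [Finite G]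

theorem map_gen (f : G →* G') : (gen π H).map f = gen π (H.map f) := by
  rw [gen, MonoidHom.map_closure]
  refine congrArg Subgroup.closure (Set.ext fun y => ⟨?_, ?_⟩)
  · rintro ⟨x, hx, rfl⟩
    exact ⟨mem_map_of_mem f hx.1, hx.2.map f⟩
  · rintro ⟨⟨x, hx, rfl⟩, h⟩
    obtain ⟨a, ha, b, -, h1, h2, h3, h4⟩ := exists_pi_decomp π x
    refine ⟨a, ⟨zpowers_le_of_mem hx ha, h1⟩, ?_⟩
    have h5 : f b = (f a)⁻¹ * f x := by rw [h3, map_mul, inv_mul_cancel_left]
    have h6 : f b = 1 := PiElt.eq_one (h5 ▸ (h1.map f).inv.mul h (by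
      rw [← map_inv, ← map_mul, ← map_mul, h3, inv_mul_cancel_left, h4, mul_inv_cancel_right])) (h2.map f)
    rw [h3, map_mul, h6, mul_one]

theorem gen_eq_bot_iff : gen π H = ⊥ ↔ PiGrp πᶜ H := by
  refine ⟨fun h => PiGrp.iff_elt.2 fun x hx => ?_, fun h => eq_bot_iff.2 ((closure_le _).2 fun x hx => hx.2.eq_one (h.elt hx.1))⟩
  obtain ⟨a, ha, b, -, h1, h2, h3, -⟩ := exists_pi_decomp π x
  rwa [h3, show a = 1 from h.le (subset_closure ⟨zpowers_le_of_mem hx ha, h1⟩), one_mul]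

/-- The alternating sequence `{p}, {p}ᶜ, {p}, …`. -/
def typ (p : ℕ) : ℕ → Set ℕ
  | 0 => {p}
  | n + 1 => (typ p n)ᶜ

theorem typ_eq (p : ℕ) : ∀ n, typ p n = {p} ∨ typ p n = {p}ᶜ
  | 0 => .inl rfl
  | n + 1 => (typ_eq p n).symm.imp (fun h => by rw [typ, h, compl_compl]) fun h => by rw [typ, h]

/-- The lower `p`-series. -/
def L (p : ℕ) : ℕ → Subgroup G → Subgroup G
  | 0, H => H
  | n + 1, H => gen (typ p n) (L p n H)

variable {p : ℕ}

theorem map_L (f : G →* G') : ∀ n, (L p n H).map f = L p n (H.map f)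
  | 0 => rfl
  | n + 1 => by rw [L, map_gen, map_L f n, L]

omit [Finite G] in
theorem L_le : ∀ n, L p n H ≤ H
  | 0 => le_rfl
  | n + 1 => gen_le.trans (L_le n)

omit [Finite G] in
theorem L_mono (h : H ≤ K) : ∀ n, L p n H ≤ L p n K
  | 0 => h
  | n + 1 => gen_mono (L_mono h n)

theorem norm_L (h : A ≤ 𝐍(H)) (n : ℕ) : A ≤ 𝐍(L p n H) := le_norm_of_conj fun a ha => by rw [map_L, conj_eq_of_norm (h ha)]

theorem L_normal (n : ℕ) : (L p n (⊤ : Subgroup G)).Normal := normalizer_eq_top_iff.1 (top_unique (norm_L (le_norm _) n))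

omit [Finite G] in
theorem L_anti {m n : ℕ} (h : m ≤ n) : L p n H ≤ L p m H := by
  induction h with
  | refl => rfl
  | step _ ih => exact gen_le.trans ih

theorem map_pair (f : G →* G') (a b : G) (n : ℕ) : (L p n (closure {a, b})).map f = L p n (closure {f a, f b}) := by
  rw [map_L, MonoidHom.map_closure, Set.image_pair]

theorem sep {τ : Set ℕ} [Fact p.Prime] (hτ : τ = {p} ∨ τ = {p}ᶜ) (h : IsPSolvable p G) : Core.IsPiSeparable τ G := by
  rcases hτ with rfl | rfl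
  exacts [Core.isPSolvable_iff_isPiSeparable.1 h, (Core.isPSolvable_iff_isPiSeparable.1 h).compl]

theorem mem_core {τ : Set ℕ} (h : Core.IsPiSeparable τ G) {y : G} (h1 : PiElt τ y) (h2 : ∀ g : G, PiElt τ ⁅y, g⁆) : y ∈ piCore τ G := by
  have hP : PiGrp τᶜ (piCore τᶜ (G ⧸ piCore τ G)) := Core.piCore_isPiSubgroup _ _
  refine (QuotientGroup.eq_one_iff y).1 ((h1.map (QuotientGroup.mk' _)).eq_one (hP.elt ((h.quotient _).compl.centralizer_piCore_le
    (by rw [compl_compl, Core.piCore_quotient_piCore]) fun g hg => ?_)))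
  obtain ⟨g, rfl⟩ := QuotientGroup.mk'_surjective _ g
  refine (commutatorElement_eq_one_iff_mul_comm.1 (PiElt.eq_one (map_commutatorElement (QuotientGroup.mk' (piCore τ G)) y g ▸ (h2 g).map _) (hP.elt ?_))).symm
  rw [commutatorElement_def]
  exact mul_mem (Normal.conj_mem inferInstance _ hg _) (inv_mem hg)

theorem mul_elt {τ : Set ℕ} (h : Core.IsPiSeparable τ H) (x y g : H) (hx : PiElt τ (x : G) ∧ ∀ g : G, PiElt τ ⁅(x : G), g⁆)
    (hy : PiElt τ (y : G) ∧ ∀ g : G, PiElt τ ⁅(y : G), g⁆) : PiElt τ ((x : G) * y) ∧ PiElt τ ⁅(x : G) * y, (g : G)⁆ := by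
  have h4 : ∀ z : H, (PiElt τ (z : G) ∧ ∀ g : G, PiElt τ ⁅(z : G), g⁆) → z ∈ piCore τ _ := fun z hz =>
    mem_core h (by rw [PiElt, ← orderOf_coe]; exact hz.1) fun g => by rw [PiElt, ← orderOf_coe]; exact hz.2 g
  have h5 := mul_mem (h4 x hx) (h4 y hy)
  have h6 : PiGrp τ (piCore τ H) := Core.piCore_isPiSubgroup _ _
  refine ⟨(h6.elt h5).map H.subtype, (h6.elt (x := ⁅x * y, g⁆) ?_).map H.subtype⟩
  rw [commutatorElement_def, mul_assoc, mul_assoc, ← mul_assoc g]
  exact mul_mem h5 (Normal.conj_mem inferInstance _ (inv_mem h5) _)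

end

variable {p : ℕ} [Fact p.Prime]

theorem exists_L (k : ℕ) : ∀ (G : Type u) [Group G] [Finite G], Nat.card G = k → IsPSolvable p G → ∃ n, L p n (⊤ : Subgroup G) = ⊥ := by
  induction k using Nat.strong_induction_on with | _ k ih => ?_
  intro G _ _ hk hs
  rcases subsingleton_or_nontrivial G with _ | _
  · exact ⟨0, Subsingleton.elim _ _⟩
  obtain ⟨τ, hτ, h⟩ : ∃ τ, (τ = {p} ∨ τ = {p}ᶜ) ∧ piCore τ G ≠ ⊥ :=
    (Core.isPSolvable_iff_isPiSeparable.1 hs).ne_bot.elim (⟨_, .inl rfl, ·⟩) (⟨_, .inr rfl, ·⟩)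
  obtain ⟨n, hn⟩ := ih _ (hk ▸ Core.card_quotient_lt h) _ rfl (Core.isPSolvable_quotient hs (piCore τ G))
  rw [← map_top_of_surjective _ (QuotientGroup.mk'_surjective _), ← map_L, Subgroup.map_eq_bot_iff, QuotientGroup.ker_mk'] at hn
  have hP := PiGrp.of_le (Core.piCore_isPiSubgroup τ G) hn
  by_cases e : τ = (typ p n)ᶜ
  · exact ⟨n + 1, gen_eq_bot_iff.2 (e ▸ hP)⟩
  refine ⟨n + 2, gen_eq_bot_iff.2 ?_⟩
  have : τ = (typ p (n + 1))ᶜ := by
    rw [typ, compl_compl]
    rcases hτ with rfl | rfl <;> rcases typ_eq p n with h | h <;> simp_all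
  exact this ▸ hP.of_le gen_le

theorem two_gen (k : ℕ) : ∀ (G : Type u) [Group G] [Finite G], Nat.card G = k → IsPSolvable p G → ∀ n,
    L p n (⊤ : Subgroup G) ≠ ⊥ → ∃ a b : G, L p n (closure {a, b}) ≠ ⊥ := by
  induction k using Nat.strong_induction_on with | _ k ih => ?_
  intro G _ _ hk hs n hM
  by_contra! hno
  have ih1 : ∀ X : Subgroup G, X ≠ ⊤ → ∀ k, L p k X ≠ ⊥ → ∃ a ∈ X, ∃ b ∈ X, L p k (closure {a, b}) ≠ ⊥ := fun X hX k h => by
    obtain ⟨a, b, e⟩ := ih _ (hk ▸ X.card_le_card_group.lt_of_ne fun e => hX (X.eq_top_of_card_eq e)) X rfl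
      (Core.isPSolvable_subgroup hs X) k fun e => h (by
        rw [← X.range_subtype, MonoidHom.range_eq_map, ← map_L, e, Subgroup.map_bot])
    exact ⟨a, a.2, b, b.2, fun e' => e ((map_eq_bot_iff_of_injective _ X.subtype_injective).1 ((map_pair _ a b k).trans e'))⟩
  have h1 : ∀ X : Subgroup G, L p n X ≠ ⊥ → X = ⊤ := fun X h => by_contra fun e => by
    obtain ⟨a, -, b, -, e⟩ := ih1 X e n h
    exact e (hno a b)
  have h2 : ∀ N : Subgroup G, N.Normal → N ≠ ⊥ → L p n ⊤ ≤ N := fun N _ h => by_contra fun e => by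
    obtain ⟨a, b, e⟩ := ih _ (hk ▸ Core.card_quotient_lt h) _ rfl (Core.isPSolvable_quotient hs N) n fun e' => e (by
      rwa [← map_top_of_surjective _ (QuotientGroup.mk'_surjective _), ← map_L, Subgroup.map_eq_bot_iff,
        QuotientGroup.ker_mk'] at e')
    obtain ⟨a, rfl⟩ := QuotientGroup.mk'_surjective N a
    obtain ⟨b, rfl⟩ := QuotientGroup.mk'_surjective N b
    exact e (by rw [← map_pair, hno, Subgroup.map_bot])
  rcases n with _ | _ | m
  · exact hM (eq_bot_iff.2 fun a _ => (hno a a).le (subset_closure (.inl rfl)))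
  · exact hM (eq_bot_iff.2 ((closure_le _).2 fun a ha => (hno a a).le (subset_closure ⟨subset_closure (.inl rfl), ha.2⟩)))
  haveI := L_normal (G := G) (p := p) (m + 1 + 1)
  haveI := L_normal (G := G) (p := p) (m + 1)
  set M := L p (m + 1 + 1) (⊤ : Subgroup G) with hMd
  set Y := L p (m + 1) (⊤ : Subgroup G) with hYd
  obtain ⟨σ, hσ⟩ : ∃ σ, σ = typ p (m + 1) := ⟨_, rfl⟩
  have hL : ∀ X : Subgroup G, L p (m + 1 + 1) X = gen σ (L p (m + 1) X) := fun X => hσ ▸ rfl
  have hY : gen σᶜ Y = Y := by rw [hσ, typ, compl_compl]; exact gen_gen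
  have hmin : Core.IsMinNormal M := ⟨‹_›, hM, fun K hK h => or_iff_not_imp_left.2 fun e => h.antisymm (h2 K hK e)⟩
  have hMσ : PiGrp σ M := (Core.IsPiSeparable.isPiSubgroup_of_isMinNormal hmin ((sep (hσ ▸ typ_eq p _) hs).subgroup M)).resolve_right
    fun e => hM (by rw [hMd, hL, ← gen_gen, ← hL]; exact gen_eq_bot_iff.2 e)
  have hMY : M ≤ Y := gen_le
  have h3 : PiNat σᶜ (M.relIndex Y) := by
    have := relIndex_ker Y (QuotientGroup.mk' M)
    rw [QuotientGroup.ker_mk'] at this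
    rw [this]
    exact gen_eq_bot_iff.1 (by rw [← map_gen, Subgroup.map_eq_bot_iff, QuotientGroup.ker_mk', hMd, hL])
  obtain ⟨R, hRY, h4, h5, h6⟩ := Coprime.exists_complement hMY le_normalizer_of_normal (PiNat.coprime hMσ h3)
  have hR : PiGrp σᶜ R := by rw [PiGrp, h6]; exact h3
  have h7 : ¬ M ≤ 𝐂(R) := fun e => hM (eq_bot_iff.2 (h4 ▸ le_inf le_rfl (hMY.trans (hY.ge.trans ((closure_le _).2 fun x hx =>
    PiGrp.le_of_relIndex hx.2.zpowers (zpowers_le_of_mem hx.1) (h5 ▸ sup_le (norm_of_cent e) (le_norm _)) (by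
      rw [compl_compl, ← h5, Coprime.relIndex_sup_right_of_le_normalizer le_normalizer_of_normal]
      exact hMσ.relIndex R) (mem_zpowers x))))))
  have h8 : ∀ X Q S : Subgroup G, Q ≤ X → Q ≤ M → S ≤ 𝐍(Q) → S ≤ L p (m + 1) X → ¬ Q ≤ 𝐂(S) → X = ⊤ := fun X Q S e1 e2 e3 e4 e5 =>
    h1 X fun e => e5 (commutator_eq_bot_iff_le_centralizer.1 (eq_bot_iff.2 (e ▸ hL X ▸ le_gen ((commutator_mono e1 e4).trans
      (comm_le_right (norm_L (le_norm X) _))) (hMσ.of_le ((comm_le_left e3).trans e2)))))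
  have hsol : Group.IsSolvable M := by
    rcases hσ ▸ typ_eq p (m + 1) with rfl | rfl
    · exact pgroup_sol hMσ.pgroup
    rw [compl_compl] at hR
    by_contra hns
    refine h7 (Coprime.le_of_forall_invariant_pgroup_le le_normalizer_of_normal (hR.coprime hMσ) (.inl (pgroup_sol hR.pgroup))
      fun q Q hq hQM hQ hi hn => by_contra fun e => hns ?_)
    haveI := Fact.mk hq
    have h9 : M ⊔ 𝐍(Q) = ⊤ := by
      rw [← (Syl.mk' hQM hQ hi).frattini ⟨le_top, le_normalizer_of_normal⟩, top_inf_eq]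
    have h10 : M ⊔ L p (m + 1) 𝐍(Q) = Y := by
      have := congrArg (comap (QuotientGroup.mk' M)) (map_L (p := p) (H := M ⊔ 𝐍(Q)) (QuotientGroup.mk' M) (m + 1))
      rw [Subgroup.map_sup, (Subgroup.map_eq_bot_iff M).2 (QuotientGroup.ker_mk' M).ge, bot_sup_eq, ← map_L, comap_map_eq,
        comap_map_eq, QuotientGroup.ker_mk', h9, sup_eq_left.2 hMY] at this
      rw [sup_comm, ← this]
    have h11 := h8 _ Q R (le_norm Q) hQM hn (PiGrp.le_of_relIndex hR (le_inf hRY hn) (inf_le_right.trans (norm_L (le_norm _) _)) (by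
      rw [← h10, modular_right (L_le _) le_normalizer_of_normal, Coprime.relIndex_sup_right_of_le_normalizer
        (norm_inf le_normalizer_of_normal ((L_le _).trans (le_norm _)))]
      exact (hMσ.of_le inf_le_left).relIndex _)) e
    exact Coprime.isSolvable_of_le (h2 Q (normalizer_eq_top_iff.1 h11) fun e' => e (by simp [e'])) (pgroup_sol hQ)
  haveI := hmin.isMulCommutative hsol
  have h9 : ∀ S ≤ Y, M ⊔ S = Y → M ⊓ S = ⊥ → ∃ n ∈ M, n ⋆ S = R := fun S _ e1 e2 =>
    Coprime.exists_map_conj_eq_of_sup_eq le_normalizer_of_normal (e1.trans h5.symm) h4 (by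
      have := Coprime.card_sup_of_disjoint (le_normalizer_of_normal (H := M) (K := S)) e2
      rw [e1, ← h5, Coprime.card_sup_of_disjoint le_normalizer_of_normal h4] at this
      rw [← Nat.eq_of_mul_eq_mul_left Nat.card_pos this]
      exact (hMσ.coprime hR).symm) (.inr hsol)
  have h10 : M ⊔ 𝐍(R) = ⊤ := eq_top_iff.2 fun g _ => by
    obtain ⟨n, hn, e⟩ := h9 (g ⋆ R) (conj_le_of_norm hRY (le_normalizer_of_normal (mem_top g)))
      (by rw [← conj_eq_self_of_normal g M, ← conj_sup, h5, conj_eq_self_of_normal])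
      (by rw [← conj_eq_self_of_normal g M, ← conj_inf, h4, Subgroup.map_bot])
    rw [← inv_mul_cancel_left n g]
    exact mul_mem_sup (inv_mem hn) (norm_of_conj_eq (by rw [← conj_conj]; exact e))
  have h11 : 𝐍(R) ≠ ⊤ := fun e => h7 (cent_of_norm_of_disjoint (le_top.trans e.ge) le_normalizer_of_normal h4)
  have h12 := hmin.inf_eq_bot_of_sup_eq_top h11 h10
  obtain ⟨a, ha, b, hb, h13⟩ := ih1 _ h11 (m + 1) fun e => h7 (by
    have := map_L (p := p) (H := M ⊔ 𝐍(R)) (QuotientGroup.mk' M) (m + 1)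
    rw [Subgroup.map_sup, (Subgroup.map_eq_bot_iff M).2 (QuotientGroup.ker_mk' M).ge, bot_sup_eq, ← map_L, e, Subgroup.map_bot, h10,
      Subgroup.map_eq_bot_iff, QuotientGroup.ker_mk'] at this
    exact cent_symm ((hRY.trans this).trans (abelian_cent ‹_›)))
  have hab : closure {a, b} ≤ 𝐍(R) := (closure_le _).2 (Set.pair_subset ha hb)
  have h14 : M ⊔ closure {a, b} = ⊤ := h8 _ M _ le_sup_left le_rfl le_normalizer_of_normal (L_mono le_sup_right _) fun e => by
    refine h11 (eq_top_iff.2 (h10.ge.trans (sup_le ((h2 (𝐍(R) ⊓ 𝐂(M)) (normalizer_eq_top_iff.1 (eq_top_iff.2 (h10.ge.trans (sup_le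
      (norm_of_cent (cent_symm inf_le_right)) (norm_inf (le_norm _) (norm_cent le_normalizer_of_normal)))))) fun e' => h13 ?_).trans
      inf_le_left) le_rfl)))
    exact eq_bot_iff.2 (e' ▸ le_inf ((L_le _).trans hab) (cent_symm e))
  have h15 : Function.Surjective fun n : M => ((⟨n⁻¹ * (a * n * a⁻¹), mul_mem (inv_mem n.2) (Normal.conj_mem ‹_› _ n.2 a)⟩,
      ⟨n⁻¹ * (b * n * b⁻¹), mul_mem (inv_mem n.2) (Normal.conj_mem ‹_› _ n.2 b)⟩) : M × M) := fun ⟨m₁, m₂⟩ => by
    set X := closure {(m₁ : G) * a, m₂ * b}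
    have e1 : (m₁ : G) * a ∈ X := subset_closure (.inl rfl)
    have e2 : (m₂ : G) * b ∈ X := subset_closure (.inr rfl)
    have e3 : M ⊔ X = ⊤ := eq_top_iff.2 (h14.ge.trans (sup_le le_sup_left ((closure_le _).2 (Set.pair_subset
      (inv_mul_cancel_left (m₁ : G) a ▸ mul_mem_sup (inv_mem m₁.2) e1) (inv_mul_cancel_left (m₂ : G) b ▸ mul_mem_sup (inv_mem m₂.2) e2)))))
    have e4 := hmin.inf_eq_bot_of_sup_eq_top (fun e => hM (by rw [hMd, ← e]; exact hno _ _)) e3
    obtain ⟨n, hn, e⟩ := h9 (X ⊓ Y) inf_le_right (by rw [← modular_left hMY le_normalizer_of_normal, e3, top_inf_eq])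
      (by rw [← inf_assoc, e4, bot_inf_eq])
    have e5 : ∀ c ∈ 𝐍(R), ∀ m ∈ M, m * c ∈ X → n⁻¹ * (c * n * c⁻¹) = m := fun c hc m hm hX => by
      have e6 : n * (m * c) * n⁻¹ ∈ 𝐍(R) := by
        rw [← e, ← conj_normalizer, conj_mem_conj]
        exact norm_inf (le_norm X) le_normalizer_of_normal hX
      have e7 : n * (m * c) * n⁻¹ * c⁻¹ = 1 := h12.le ⟨by
        rw [show n * (m * c) * n⁻¹ * c⁻¹ = n * m * (c * n⁻¹ * c⁻¹) by group]
        exact mul_mem (mul_mem hn hm) (Normal.conj_mem ‹_› _ (inv_mem hn) c), 𝐍(R).mul_mem e6 (inv_mem hc)⟩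
      rw [← one_mul (c * n * c⁻¹), ← e7]; group
    exact ⟨⟨n, hn⟩, Prod.ext (Subtype.ext (e5 a ha _ m₁.2 e1)) (Subtype.ext (e5 b hb _ m₂.2 e2))⟩
  have h16 := Nat.card_le_card_of_surjective _ h15
  rw [Nat.card_prod] at h16
  have := (one_lt_card_iff_ne_bot M).2 hM
  nlinarith


/-- Powell's Theorem: let G be a finite non-abelian simple group and p an odd prime dividing its order such that every proper subgroup of G is p-soluble. Then G can be generated by three elements. -/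
theorem result {G : Type*} [Group G] [Finite G] [IsSimpleGroup G] (hna : ¬ IsMulCommutative G) {p : ℕ} [Fact p.Prime] (hp : p ≠ 2) (hdvd : p ∣ Nat.card G) (hprop : ∀ H : Subgroup G, H ≠ ⊤ → Cfsg.IsPSolvable p ↥H) : ∃ x y z : G, Subgroup.closure ({x, y, z} : Set G) = ⊤ := by
  classical
  by_contra! hno
  have hs : ∀ x y z : G, IsPSolvable p (closure {x, y, z}) := fun x y z => hprop _ (hno x y z)
  have hL : ∀ (H : Subgroup G) n, (L p n (⊤ : Subgroup H)).map H.subtype = L p n H := fun H n => by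
    rw [map_L, ← MonoidHom.range_eq_map, range_subtype]
  have h1 : ∃ n, ∀ a b : G, L p n (closure {a, b}) = ⊥ := by
    choose k hk using fun x : G × G => exists_L _ _ rfl (hs x.1 x.2 x.2)
    obtain ⟨n, hn⟩ := (Set.finite_range k).bddAbove
    refine ⟨n, fun a b => eq_bot_iff.2 ((L_anti (hn ⟨(a, b), rfl⟩)).trans ?_)⟩
    rw [← Set.pair_eq_singleton b, ← hL, hk (a, b), Subgroup.map_bot]
  obtain ⟨n, hn⟩ := Nat.exists_eq_succ_of_ne_zero (fun e => by
    obtain ⟨a, ha⟩ := exists_ne (1 : G)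
    exact ha ((e ▸ Nat.find_spec h1 a a).le (subset_closure (.inl rfl))) : Nat.find h1 ≠ 0)
  have h2 := Nat.find_min h1 (hn ▸ n.lt_succ_self)
  push Not at h2
  obtain ⟨a, b, h2⟩ := h2
  have hτ := typ_eq p (n + 1)
  set τ := typ p (n + 1)
  have h3 : ∀ g, PiGrp τ (L p n (closure {a, b, g})) := fun g => gen_eq_bot_iff.1 (by_contra fun e => by
    obtain ⟨c, d, e⟩ := two_gen _ _ rfl (hs a b g) (n + 1) fun e' => e ((hL _ (n + 1)).symm.trans (by rw [e', Subgroup.map_bot]))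
    exact e ((map_eq_bot_iff_of_injective _ (subtype_injective _)).1 ((map_pair _ c d _).trans (by have := Nat.find_spec h1; rw [hn] at this; exact this _ _))))
  let D : Subgroup G :=
    { carrier := {y | PiElt τ y ∧ ∀ g : G, PiElt τ ⁅y, g⁆}
      one_mem' := ⟨PiElt.one, fun g => by rw [commutatorElement_one_left]; exact PiElt.one⟩
      inv_mem' := fun {y} hy => ⟨hy.1.inv, fun g => by
        simpa [commutatorElement_def, mul_assoc] using (hy.2 g).inv.conj y⁻¹⟩
      mul_mem' := fun {x y} hx hy =>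
        have key := fun g : G => mul_elt (sep hτ (hs x y g)) ⟨x, subset_closure (by simp)⟩ ⟨y, subset_closure (by simp)⟩
          ⟨g, subset_closure (by simp)⟩ hx hy
        ⟨(key 1).1, fun g => (key g).2⟩ }
  obtain ⟨w, hw, hw1⟩ := (nontrivial_iff_exists_ne_one _).1 ((nontrivial_iff_ne_bot _).2 h2)
  have h4 : ∀ g, w ∈ L p n (closure {a, b, g}) := fun g => L_mono (closure_mono (Set.insert_subset_insert (by simp))) n hw
  have h5 : D = ⊤ := (IsSimpleGroup.eq_bot_or_eq_top_of_normal D ⟨fun y hy h => ⟨hy.1.conj h, fun g => by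
    simpa [commutatorElement_def, mul_assoc] using (hy.2 (h⁻¹ * g * h)).conj h⟩⟩).resolve_left fun e => hw1 (e.le ⟨(h3 1).elt (h4 1), fun g => (h3 g).elt (by
      rw [commutatorElement_def, mul_assoc, mul_assoc, ← mul_assoc g]
      exact mul_mem (h4 g) (conj_mem_of_norm (norm_L (le_norm _) n (subset_closure (by simp))) (inv_mem (h4 g))))⟩)
  have h6 : PiGrp τ (⊤ : Subgroup G) := PiGrp.iff_elt.2 fun x hx => (h5.ge hx).1
  rcases hτ with e | e <;> rw [e] at h6
  · haveI := (h6.pgroup.of_equiv topEquiv).isNilpotent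
    exact hna ⟨⟨IsSimpleGroup.comm_iff_isSolvable.2 inferInstance⟩⟩
  · exact PiGrp.p'_iff.1 h6 (by rwa [card_top])

end Cfsg.Agent.S3792
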