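import Cfsg.Statements.S3794
import Cfsg.Agent.Lib.HH.Shult

set_option autoImplicit false
open Cfsg

namespace Cfsg.Agent.S3794

/-- Let G be a finite solvable group with an automorphism σ satisfying σ⁴ = 1 and fixing only the identity. Then the derived subgroup G' is nilpotent. -/
theorem result {G : Type*} [Group G] [Finite G] (hG : Group.IsSolvable G) (σ : MulAut G) (hσ : σ ^ 4 = 1) (hfpf : ∀ g : G, σ g = g → g = 1) : Group.IsNilpotent (commutator G) := by
  open Lib.BG Lib.PGroup Lib.HH Subgroup in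
  have h0 : Nat.card (zpowers σ) ∣ 4 := by rw [Nat.card_zpowers]; exact orderOf_dvd_of_pow_eq_one hσ
  have h1 : ∀ g : G, (∀ a : zpowers σ, (zpowers σ).subtype a g = g) → g = 1 := fun g hg =>
    hfpf g (hg ⟨σ, mem_zpowers σ⟩)
  obtain ⟨n, -, hn⟩ := (Nat.dvd_prime_pow Nat.prime_two (m := 2)).1 h0
  have h2 := nil_of_le (Fitting_nil _) (der_le_Fitting_of_four h0 (fpf_hol (zpowers σ).subtype
    (coprime_of_fpf' (IsPGroup.of_card hn) _ h1) hG h1))
  rw [← map_commutator, ← res_one_eq_bot_iff, res_map_eq_bot_iff holL_injective, res_one_eq_bot_iff] at h2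
  exact h2

end Cfsg.Agent.S3794
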