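import Cfsg.Statements.S3797
import Cfsg.Agent.Lib.CharDeg.InvTrans

set_option autoImplicit false
open Cfsg

namespace Cfsg.Agent.S3797

open Subgroup Cfsg.Lib Cfsg.Lib.Inv Cfsg.Lib.Transfer Cfsg.Lib.BG Cfsg.Lib.CharDeg.InvTrans in

/-- Let G be a finite solvable group of even order whose Sylow 2-subgroups contain more than one involution, and suppose all involutions of G are conjugate. Then G has 2-length at most 1, and a Sylow 2-subgroup S of G is either homocyclic (a direct product of cyclic groups of one common order) or a non-abelian 2-group with more than one involution admitting a solvable group of automorphisms transitive on its involutions. -/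
theorem result {G : Type*} [Group G] [Finite G] (hG : Group.IsSolvable G) (heven : Even (Nat.card G)) (S : Sylow 2 G) (htwo : ∃ x y : G, x ∈ (S : Subgroup G) ∧ y ∈ (S : Subgroup G) ∧ x ≠ y ∧ x ≠ 1 ∧ x ^ 2 = 1 ∧ y ≠ 1 ∧ y ^ 2 = 1) (hconj : ∀ x y : G, x ≠ 1 → x ^ 2 = 1 → y ≠ 1 → y ^ 2 = 1 → IsConj x y) : Cfsg.PLengthLE 2 1 G ∧ ((∃ m r : ℕ, Nonempty (↥(S : Subgroup G) ≃* (Fin r → Multiplicative (ZMod (2 ^ m))))) ∨ (¬ IsMulCommutative (S : Subgroup G) ∧ ∃ Y : Subgroup (MulAut ↥(S : Subgroup G)), Group.IsSolvable Y ∧ ∀ x y : ↥(S : Subgroup G), x ≠ 1 → x ^ 2 = 1 → y ≠ 1 → y ^ 2 = 1 → ∃ a ∈ Y, a x = y)) := by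
  haveI : Fact (Nat.Prime 2) := ⟨Nat.prime_two⟩
  obtain ⟨x, y, hx, hy, hxy, x1, x2, y1, y2⟩ := htwo
  set O := pPrimeCore 2 G with hOd
  let π := QuotientGroup.mk' O
  have πs : Function.Surjective π := QuotientGroup.mk'_surjective O
  have hO : Odd (Nat.card O) := Nat.coprime_two_right.1 (Core.pPrimeCore_coprime 2 G)
  have dis : O ⊓ (S : Subgroup G) = ⊥ := disjoint_of_coprime (cop hO S.isPGroup')
  have inj : ∀ a ∈ (S : Subgroup G), ∀ b ∈ (S : Subgroup G), π a = π b → a = b :=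
    fun a ha b hb e => by
      have : a⁻¹ * b ∈ O ⊓ (S : Subgroup G) :=
        mem_inf.2 ⟨QuotientGroup.eq.1 e, mul_mem (inv_mem ha) hb⟩
      rwa [dis, mem_bot, inv_mul_eq_one] at this
  let T := S.mapSurjective πs
  have lift : ∀ u : G ⧸ O, u ≠ 1 → u * u = 1 → ∃ a : G, a ≠ 1 ∧ a ^ 2 = 1 ∧ IsConj (π a) u :=
    fun u u1 u2 => by
      obtain ⟨g, a, ha, e⟩ := exists_conj_inv_mem_sylow T u2
      exact ⟨a, fun e1 => cj_ne_one g u1 (by rw [← e, e1, map_one]),
        inj _ (pow_mem ha 2) _ (one_mem _) (by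
          rw [map_pow, e, map_one, pow_two, conj_mul, u2]; group),
        (isConj_iff.2 ⟨g, e.symm⟩).symm⟩
  have hT := sylow_le_pCore (G := G ⧸ O) inferInstance (Core.pPrimeCore_quotient_pPrimeCore 2 G) T
    (x := π x) (y := π y) (fun e => hxy (inj x hx y hy e))
    (fun e => x1 (inj x hx 1 (one_mem _) (by rw [e, map_one])))
    (by rw [← map_mul, ← pow_two, x2, map_one])
    (fun e => y1 (inj y hy 1 (one_mem _) (by rw [e, map_one])))
    (by rw [← map_mul, ← pow_two, y2, map_one]) (fun u v u1 u2 v1 v2 => by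
      obtain ⟨a, a1, a2, ea⟩ := lift u u1 u2
      obtain ⟨b, b1, b2, eb⟩ := lift v v1 v2
      exact ea.symm.trans ((π.map_isConj (hconj a b a1 a2 b1 b2)).trans eb))
  have hTe : pCore 2 (G ⧸ O) = (S : Subgroup G).map π :=
    T.is_maximal' (Core.pCore_isPGroup 2 _) hT
  have hN : (O ⊔ (S : Subgroup G)).Normal := by
    have := (inferInstance : (pCore 2 (G ⧸ O)).Normal).comap π
    rwa [hTe, QuotientGroup.comap_map_mk'] at this
  have hS := Syl.of_sylow_top S
  have fr := Syl.frattini (Hall.of_le hS (le_sup_right : (S : Subgroup G) ≤ O ⊔ S) le_top)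
    (M := ⊤) ⟨le_top, le_normalizer_of_normal⟩
  rw [top_inf_eq, sup_assoc, sup_eq_right.2 (le_norm (S : Subgroup G))] at fr
  have tr : ∀ x y : (S : Subgroup G), x ≠ 1 → x ^ 2 = 1 → y ≠ 1 → y ^ 2 = 1 →
      ∃ a ∈ (S : Subgroup G).normalizerMonoidHom.range, a x = y := fun a b a1 a2 b1 b2 => by
    obtain ⟨g, hg⟩ := isConj_iff.1 (hconj a b (fun e => a1 (Subtype.ext e)) (congrArg Subtype.val a2)
      (fun e => b1 (Subtype.ext e)) (congrArg Subtype.val b2))
    obtain ⟨o, ho, n, hn, rfl⟩ := exists_mul_of_mem_sup (x := g) le_normalizer_of_normal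
      (fr.ge (mem_top g))
    refine ⟨_, ⟨⟨n, hn⟩, rfl⟩, Subtype.ext (inj _ (conj_mem_of_norm hn a.2) _ b.2 ?_)⟩
    have : π o = 1 := (QuotientGroup.eq_one_iff o).2 ho
    rw [← hg]
    simp only [map_mul, map_inv, this, one_mul]
  refine ⟨Core.pLengthLE_top_iff.1 (Coprime.pLengthLE_one_of_le_normalizer_sup
    (Core.pPrimeCore_coprime 2 G) le_top le_normalizer_of_normal le_top S.isPGroup' hS.not_dvd'
    le_normalizer_of_normal), ?_⟩
  by_cases hc : IsMulCommutative (S : Subgroup G)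
  · exact .inl (homocyclic S.isPGroup' fun a b a1 a2 b1 b2 =>
      (tr a b a1 a2 b1 b2).imp fun _ h => h.2)
  · exact .inr ⟨hc, _, solvable_of_surjective (MonoidHom.rangeRestrict_surjective _), tr⟩

end Cfsg.Agent.S3797
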