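import Cfsg.Statements.S3798
import Cfsg.Agent.Lib.BG.T01_Coprime
import Cfsg.Agent.Lib.BG.Basic
import Cfsg.Agent.Lib.Core.PSolvable

set_option autoImplicit false
open Cfsg

namespace Cfsg.Agent.S3798

open Subgroup Cfsg.Lib Cfsg.Lib.BG Cfsg.Lib.Transfer

theorem core {G : Type*} [Group G] [Finite G] {p : ℕ} [hp : Fact p.Prime] (hp2 : p ≠ 2) (hG : IsPSolvable p G)
    (h0 : pPrimeCore p G = ⊥) (ht : ∀ x y : G, orderOf x = p → orderOf y = p → ∃ a : MulAut G, y ∈ zpowers (a x)) :
    PLengthLE p 1 G := by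
  have key : ∀ K : Subgroup G, K.Characteristic → ∀ x ∈ K, orderOf x = p → ∀ y, y ^ p = 1 → y ∈ K := fun K hK x hx h y hy => by
    rcases eq_or_ne y 1 with rfl | h1
    · exact K.one_mem
    obtain ⟨a, ha⟩ := ht x y h (orderOf_eq_prime hy h1)
    exact zpowers_le_of_mem ((characteristic_iff_map_le.1 hK a) (mem_map_of_mem _ hx)) ha
  rw [Core.pLengthLE_one_iff, Core.pPrimePCore_eq_pCore h0, Core.coprime_iff_not_dvd]
  set P := pCore p G
  have hP : IsPGroup p P := Core.pCore_isPGroup p G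
  have hC := Core.centralizer_pCore_le_of_isPSolvable hG h0
  intro hd
  set N := (pPrimeCore p (G ⧸ P)).comap (QuotientGroup.mk' P)
  have hPN : P ≤ N := (QuotientGroup.ker_mk' P).ge.trans (ker_le_comap _ _)
  have hi : P.relIndex N = Nat.card (pPrimeCore p (G ⧸ P)) := by
    have := relIndex_ker N (QuotientGroup.mk' P)
    rwa [QuotientGroup.ker_mk', map_comap_eq_self_of_surjective (QuotientGroup.mk'_surjective P)] at this
  have hN : N.Characteristic := characteristic_iff_map_le.2 fun a => by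
    rintro _ ⟨x, hx, rfl⟩
    exact (Core.map_pPrimeCore_equiv (QuotientGroup.congr P P a (characteristic_iff_map_eq.1 inferInstance a))).le
      (mem_map_of_mem _ (mem_comap.1 hx))
  have hc : (P.relIndex N).Coprime p := hi ▸ Core.pPrimeCore_coprime p _
  obtain ⟨L, -, h1, h2, h3⟩ := Coprime.exists_complement hPN (le_top.trans P.normalizer_eq_top.ge)
    (Core.coprime_card_of_isPGroup hP hc)
  rw [← h3] at hc
  have hLP : L ≤ 𝐍(P) := le_top.trans P.normalizer_eq_top.ge
  haveI : Nontrivial (G ⧸ P) := Finite.one_lt_card_iff_nontrivial.1 (hp.1.one_lt.trans_le (Nat.le_of_dvd Nat.card_pos hd))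
  have hL : L ≠ ⊥ := fun e => (Core.pCore_ne_bot_or_of_isPSolvable (Core.isPSolvable_quotient hG P)).elim
    (· (Core.pCore_quotient_pCore p G)) (· (card_eq_one.1 (by rw [← hi, ← h3, e, card_bot])))
  have hP1 : P ≠ ⊥ := fun e => hL (eq_bot_iff.2 (le_top.trans (le_trans (show ⊤ ≤ 𝐂(P) from fun g _ x hx => by
    rw [mem_bot.1 (e.le hx), one_mul, mul_one]) (hC.trans e.le))))
  have hZ : ∀ y, y ^ p = 1 → y ∈ 𝐙(P) := by
    obtain ⟨x, hx⟩ := exists_prime_orderOf_dvd_card' p (pgroup_dvd_card (hP.to_le inf_le_left)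
      (center_ne_bot_of_nil (pgroup_nil hP) hP1))
    exact key _ inferInstance x x.2 (by rwa [orderOf_coe])
  have h4 : P ⊔ 𝐍(L) = ⊤ := eq_top_iff.2 fun g _ => by
    obtain ⟨n, hn, e⟩ := Coprime.exists_map_conj_eq_of_sup_eq (B := g ⋆ L) hLP
      (by rw [← conj_eq_self_of_normal g P, ← conj_sup, conj_eq_self_of_normal g P, h2, conj_eq_self_of_normal]) h1
      (by rw [card_conj]; exact (Core.coprime_card_of_isPGroup hP hc).symm) (.inr (pgroup_sol hP))
    rw [← inv_mul_cancel_left n g]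
    exact mul_mem_sup (inv_mem hn) (norm_of_conj_eq (by rw [← conj_conj]; exact e))
  obtain ⟨x, hx⟩ := exists_prime_orderOf_dvd_card' p (hd.trans (by
    rw [← relIndex_top_right, ← h4, relIndex_sup_left]; exact BG.relIndex_dvd_card _ _ : P.index ∣ Nat.card 𝐍(L)))
  rw [← orderOf_coe] at hx
  have h5 := hZ x (hx ▸ pow_orderOf_eq_one _)
  have h6 : (x : G) ∈ 𝐂(N) := by
    rw [← h2, BG.cent_sup]
    exact ⟨h5.2, ((Coprime.inf_normalizer_eq_inf_centralizer hLP (inf_comm P L ▸ h1)).le ⟨h5.1, x.2⟩).2⟩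
  refine hL (eq_bot_iff.2 (h1 ▸ le_inf ((coprime_odd_cent_Ohm1 hp2 hLP hc hP (cent_symm ?_)).trans hC) le_rfl))
  exact (closure_le _).2 fun y hy => cent_anti (h2 ▸ le_sup_right) (key _ inferInstance _ h6 hx y hy.2)


/-- The Gaschütz–Yen Theorem: let G be a finite p-soluble group, p an odd prime dividing its order, such that the automorphism group of G permutes the subgroups of G of order p transitively. Then G has p-length at most 1. -/
theorem result {G : Type*} [Group G] [Finite G] {p : ℕ} [Fact p.Prime] (hp : p ≠ 2) (hdvd : p ∣ Nat.card G) (hG : Cfsg.IsPSolvable p G) (htrans : ∀ U V : Subgroup G, Nat.card U = p → Nat.card V = p → ∃ a : MulAut G, U.map a.toMonoidHom = V) : Cfsg.PLengthLE p 1 G := by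
  set O := pPrimeCore p G
  rw [← Core.pLengthLE_quotient_pPrimeCore_iff]
  have lift : ∀ x : G ⧸ O, orderOf x = p → ∃ y : G, orderOf y = p ∧ zpowers x = zpowers (y : G ⧸ O) := fun x hx => by
    obtain ⟨y, hy⟩ := exists_prime_orderOf_dvd_card' p (G := (zpowers x).comap (QuotientGroup.mk' O))
      ((hx.symm.trans (Nat.card_zpowers x).symm).dvd.trans (card_dvd_of_surjective (((QuotientGroup.mk' O).subgroupComap _))
        ((QuotientGroup.mk' O).subgroupComap_surjective_of_surjective _ (QuotientGroup.mk'_surjective O))))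
    rw [← orderOf_coe] at hy
    refine ⟨y, hy, (eq_of_le_of_card_ge (show zpowers ((y : G) : G ⧸ O) ≤ zpowers x from zpowers_le_of_mem y.2) ?_).symm⟩
    rw [Nat.card_zpowers, Nat.card_zpowers, hx, orderOf_eq_prime (p := p)]
    · rw [← QuotientGroup.mk_pow, (orderOf_dvd_iff_pow_eq_one.1 hy.dvd), QuotientGroup.mk_one]
    · exact fun e => Core.not_dvd_card_pPrimeCore p G (hy.symm.dvd.trans <| O.orderOf_dvd_natCard ((QuotientGroup.eq_one_iff _).1 e))
  refine core hp (Core.isPSolvable_quotient hG _) (Core.pPrimeCore_quotient_pPrimeCore p G) fun x y hx hy => ?_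
  obtain ⟨x', hx', ex⟩ := lift x hx
  obtain ⟨y', hy', ey⟩ := lift y hy
  obtain ⟨a, ha⟩ := htrans (zpowers x') (zpowers y') (by rw [Nat.card_zpowers, hx']) (by rw [Nat.card_zpowers, hy'])
  let b := QuotientGroup.congr O O a (characteristic_iff_map_eq.1 inferInstance a)
  refine ⟨b, ?_⟩
  rw [← MulEquiv.coe_toMonoidHom, ← MonoidHom.map_zpowers, ex, MonoidHom.map_zpowers]
  have := congrArg (Subgroup.map (QuotientGroup.mk' O)) ha
  rw [MonoidHom.map_zpowers, MonoidHom.map_zpowers, MonoidHom.map_zpowers] at this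
  exact this.ge (ey.le (mem_zpowers y))

end Cfsg.Agent.S3798
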