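import Cfsg.Statements.S3799
import Cfsg.Agent.Lib.Extraspecial.Basic

set_option autoImplicit false
open Cfsg Cfsg.Lib

namespace Cfsg.Agent.S3799

/-- The cocycle `((x, y), (x', y')) ↦ x ⬝ y'`. -/
def coc (p n : ℕ) : LinearMap.BilinForm (ZMod p) ((Fin n → ZMod p) × (Fin n → ZMod p)) :=
  (dotProductBilin (ZMod p) (ZMod p)).compl₁₂ (LinearMap.fst _ _ _) (LinearMap.snd _ _ _)

@[simp] theorem coc_apply {p n : ℕ} (u v : (Fin n → ZMod p) × (Fin n → ZMod p)) :
    coc p n u v = u.1 ⬝ᵥ v.2 := rfl

/-- The natural representation of degree `n + 2`. -/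
def rep (p n : ℕ) :
    ES.Heis (coc p n) →* Module.End (ZMod p) (ZMod p × (Fin n → ZMod p) × ZMod p) where
  toFun g :=
    { toFun := fun w => (w.1 + g.v.1 ⬝ᵥ w.2.1 + g.a * w.2.2, w.2.1 + w.2.2 • g.v.2, w.2.2)
      map_add' := fun w w' => by
        refine Prod.ext ?_ (Prod.ext ?_ rfl)
        · simp [dotProduct_add]; ring
        · simp [add_smul]; abel
      map_smul' := fun c w => by
        refine Prod.ext ?_ (Prod.ext ?_ rfl)
        · simp [dotProduct_smul]; ring
        · simp [mul_smul] }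
  map_one' := by ext <;> simp
  map_mul' g h := by
    refine LinearMap.ext fun w => Prod.ext ?_ (Prod.ext ?_ rfl)
    · simp [dotProduct_add, add_dotProduct, dotProduct_smul]; ring
    · simp; abel

theorem rep_injective (p n : ℕ) : Function.Injective (rep p n) :=
  (injective_iff_map_eq_one _).2 fun g hg => by
    have h1 := LinearMap.congr_fun hg (0, 0, 1)
    have h2 := fun w => LinearMap.congr_fun hg (0, w, 0)
    simp only [rep, MonoidHom.coe_mk, OneHom.coe_mk, LinearMap.coe_mk, AddHom.coe_mk,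
      Module.End.one_apply, Prod.mk.injEq] at h1 h2
    refine ES.Heis.ext (Prod.ext (funext fun i => ?_) (by simpa using h1.2.1)) (by simpa using h1.1)
    simpa using (h2 (Pi.single i 1)).1

/-- For every odd prime p and every n ≥ 1 there is an extraspecial p-group of order p^(1+2n) and exponent p; concretely, the general linear group of degree n + 2 over the field with p elements contains such a subgroup. -/
theorem result (p : ℕ) [Fact p.Prime] (hp : p ≠ 2) (n : ℕ) (hn : 1 ≤ n) : ∃ E : Subgroup (Matrix.GeneralLinearGroup (Fin (n + 2)) (ZMod p)), Cfsg.IsExtraspecial p ↥E ∧ Nat.card E = p ^ (1 + 2 * n) ∧ ∀ x ∈ E, x ^ p = 1 := by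
  have hpp := (Fact.out : p.Prime)
  let b := Module.finBasisOfFinrankEq (ZMod p) (ZMod p × (Fin n → ZMod p) × ZMod p) (n := n + 2)
    (by simp; ring)
  let f : ES.Heis (coc p n) →* Matrix.GeneralLinearGroup (Fin (n + 2)) (ZMod p) :=
    ((LinearMap.toMatrixAlgEquiv b).toMulEquiv.toMonoidHom.comp (rep p n)).toHomUnits
  have hf : Function.Injective f := fun x y h =>
    rep_injective p n ((LinearMap.toMatrixAlgEquiv b).injective (congrArg Units.val h))
  have hE : IsExtraspecial p (ES.Heis (coc p n)) := by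
    have : Nonempty (Fin n) := ⟨⟨0, hn⟩⟩
    refine (ES.Heis.ext' _).isExtraspecial_iff.2 ⟨?_, inferInstance⟩
    refine (ES.Heis.ext' (coc p n)).isRefl.nondegenerate_iff_separatingLeft.2 fun v hv => ?_
    simp only [ES.Heis.ext'_B_apply, coc_apply] at hv
    refine Prod.ext (funext fun i => ?_) (funext fun i => ?_)
    · simpa using hv (0, Pi.single i 1)
    · simpa using hv (Pi.single i 1, 0)
  refine ⟨f.range, ES.isExtraspecial_congr (MonoidHom.ofInjective hf) hE, ?_, ?_⟩
  · rw [← Nat.card_congr (MonoidHom.ofInjective hf).toEquiv, (ES.Heis.ext' _).card_eq_pow]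
    congr 1
    simp; ring
  · rintro _ ⟨x, rfl⟩
    rw [← map_pow, (ES.Heis.ext' _).pow_eq_one_iff.2, map_one]
    rw [ES.Heis.ext'_P, (ZMod.natCast_eq_zero_iff _ _).2 (PGroup.prime_dvd_choose_two hpp hp),
      zero_mul]

end Cfsg.Agent.S3799
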