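import Cfsg.Statements.S3979
import Cfsg.Agent.Lib.Schur.Basic

set_option autoImplicit false
open Cfsg

namespace Cfsg.Agent.S3979

/-- A finite cyclic group has trivial Schur multiplier: every finite stem extension of it is an isomorphism, said through `HasCyclicSchurMultiplier G 1`. -/
theorem result {G : Type*} [Group G] [Finite G] [IsCyclic G] : Cfsg.HasCyclicSchurMultiplier G 1 := by
  open Cfsg.Lib.Schur Subgroup in
  rw [hasCyclicSchurMultiplier_one_iff]
  intro Γ _ _ σ hσ
  have hc : IsMulCommutative Γ := σ.isMulCommutative_of_isCyclic_of_ker_le_center hσ.2.1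
  have := hσ.2.2
  rwa [commutator_eq_bot Γ, le_bot_iff] at this

end Cfsg.Agent.S3979
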