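import Cfsg.Statements.S3950
import Cfsg.Agent.Lib.Schur.Product
import Cfsg.Agent.S3979

set_option autoImplicit false
open Cfsg

namespace Cfsg.Agent.S3950

/-- A finite abelian group has trivial Schur multiplier if and only if it is cyclic. -/
theorem result {G : Type*} [CommGroup G] [Finite G] : Cfsg.HasCyclicSchurMultiplier G 1 ↔ IsCyclic G := by
  open Cfsg.Lib.Schur Subgroup in
  open scoped commutatorElement in
  classical
  refine ⟨fun h => ?_, fun h => Cfsg.Agent.S3979.result⟩
  obtain ⟨ι, _, n, hn, ⟨e⟩⟩ := CommGroup.equiv_prod_multiplicative_zmod_of_finite G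
  by_cases hc : Pairwise fun i j => Nat.Coprime (n i) (n j)
  · have e2 := (MulEquiv.piMultiplicative fun i => ZMod (n i)).symm.trans
      (ZMod.prodEquivPi n hc).symm.toAddEquiv.toMultiplicative
    exact isCyclic_of_surjective (e.trans e2).symm (e.trans e2).symm.surjective
  · exfalso
    simp only [Pairwise, not_forall] at hc
    obtain ⟨i, j, hij, hc⟩ := hc
    obtain ⟨p, hp, hi, hj⟩ := Nat.Prime.not_coprime_iff_dvd.mp hc
    have : Fact p.Prime := ⟨hp⟩
    let β : G →* G →* Multiplicative (ZMod p) :=
      { toFun := fun x =>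
          { toFun := fun y => Multiplicative.ofAdd (ZMod.castHom hi (ZMod p) (e x i).toAdd *
              ZMod.castHom hj (ZMod p) (e y j).toAdd)
            map_one' := by simp
            map_mul' := fun y z => by
              simp only [map_mul, Pi.mul_apply, toAdd_mul, map_add, mul_add, ofAdd_add] }
        map_one' := by ext y; simp
        map_mul' := fun x x' => by
          ext1 y
          simp only [map_mul, Pi.mul_apply, toAdd_mul, map_add, add_mul, ofAdd_add, MonoidHom.coe_mk,
            OneHom.coe_mk, MonoidHom.mul_apply] }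
    have hβ : ∀ x y, β x y = Multiplicative.ofAdd (ZMod.castHom hi (ZMod p) (e x i).toAdd *
              ZMod.castHom hj (ZMod p) (e y j).toAdd) := fun _ _ => rfl
    have h0 := hopf_eq_bot_of_trivial h (BilExt.proj_surjective (β := β)) BilExt.ker_proj_le_center
    have h1 : ⁅(⟨e.symm (Pi.mulSingle i (Multiplicative.ofAdd 1)), 1⟩ : BilExt β),
        ⟨e.symm (Pi.mulSingle j (Multiplicative.ofAdd 1)), 1⟩⁆ ∈ hopf (BilExt.proj β) := by
      refine mem_inf.mpr ⟨?_, commutator_mem_commutator (mem_top _) (mem_top _)⟩
      rw [MonoidHom.mem_ker, BilExt.proj_apply, BilExt.commutatorElement_x]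
      exact commutatorElement_eq_one_iff_mul_comm.mpr (mul_comm _ _)
    rw [h0, mem_bot] at h1
    have h2 := congrArg BilExt.t h1
    rw [BilExt.commutatorElement_t, hβ, hβ] at h2
    simp only [MulEquiv.apply_symm_apply, Pi.mulSingle_eq_same, Pi.mulSingle_eq_of_ne hij,
      toAdd_ofAdd, map_one, toAdd_one, map_zero, zero_mul, ofAdd_zero, inv_one, mul_one,
      BilExt.one_t, ofAdd_eq_one] at h2
    exact one_ne_zero h2

end Cfsg.Agent.S3950
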