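import Cfsg.Statements.S3951
import Cfsg.Agent.Lib.Schur.Dihedral
import Cfsg.Agent.Lib.Schur.Product

set_option autoImplicit false
open Cfsg

namespace Cfsg.Agent.S3951

/-- For positive integers `m` and `n` with `n` dividing `m`, the Schur multiplier of the abelian group `ZMod m × ZMod n` (written multiplicatively) is cyclic of order `n`. In particular the elementary abelian group of order `p ^ 2` has multiplier of order `p`. -/
theorem result (m n : ℕ) [NeZero m] [NeZero n] (hnm : n ∣ m) : Cfsg.HasCyclicSchurMultiplier (Multiplicative (ZMod m × ZMod n)) n := by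
  open Cfsg.Lib.Schur Subgroup in
  open scoped commutatorElement in
  let β : Multiplicative (ZMod m × ZMod n) →* Multiplicative (ZMod m × ZMod n) →*
      Multiplicative (ZMod n) :=
    { toFun := fun x =>
        { toFun := fun y => Multiplicative.ofAdd (ZMod.castHom hnm (ZMod n) x.toAdd.1 * y.toAdd.2)
          map_one' := by simp
          map_mul' := fun y z => by simp only [toAdd_mul, Prod.snd_add, mul_add, ofAdd_add] }
      map_one' := MonoidHom.ext fun y => by simp
      map_mul' := fun x x' => MonoidHom.ext fun y => by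
        simp only [toAdd_mul, Prod.fst_add, map_add, add_mul, ofAdd_add, MonoidHom.coe_mk,
          OneHom.coe_mk, MonoidHom.mul_apply] }
  have hβ : ∀ x y, β x y = Multiplicative.ofAdd (ZMod.castHom hnm (ZMod n) x.toAdd.1 * y.toAdd.2) :=
    fun _ _ => rfl
  have hstem : IsStemExtension (BilExt.proj β) := by
    refine ⟨BilExt.proj_surjective, BilExt.ker_proj_le_center, fun a ha => ?_⟩
    have h2 : a = ⁅(⟨Multiplicative.ofAdd (1, 0), 1⟩ : BilExt β),
        ⟨Multiplicative.ofAdd (0, a.t.toAdd), 1⟩⁆ := by
      ext1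
      · rw [BilExt.commutatorElement_x, commutatorElement_eq_one_iff_mul_comm.mpr (mul_comm _ _)]
        exact ha
      · rw [BilExt.commutatorElement_t, hβ, hβ]
        simp only [toAdd_ofAdd, map_one, map_zero, one_mul, mul_zero, ofAdd_zero, inv_one, mul_one,
          ofAdd_toAdd]
    rw [h2]
    exact commutator_mem_commutator (mem_top _) (mem_top _)
  let e : Multiplicative (ZMod n) ≃* (BilExt.proj β).ker :=
    MulEquiv.ofBijective ((BilExt.inr β).codRestrict _ fun _ => rfl)
      ⟨fun s t h => congrArg (fun z : (BilExt.proj β).ker => z.1.t) h,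
        fun a => ⟨a.1.t, Subtype.ext (BilExt.ext a.2.symm rfl)⟩⟩
  refine hasSchurMultiplier_mk hstem e.symm fun Δ _ _ τ hτ => ?_
  refine (metacyclic_ker hτ (Multiplicative.ofAdd (1, 0))
    (Multiplicative.ofAdd (0, 1)) ?_ 1 (by rw [mul_comm _ (Multiplicative.ofAdd (1, 0))]; simp)).elim ?_
  swap
  · rintro c ⟨h1, -, -, h4⟩
    refine exists_surjective_zmod_of_le_zpowers h1 n fun k _ => ?_
    have h5 := h4 n (by
      rw [← ofAdd_nsmul]
      simp only [Prod.smul_mk, smul_zero, nsmul_eq_mul, mul_one, ZMod.natCast_self]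
      exact one_mem _)
    simp only [one_pow, Finset.sum_const, Finset.card_range, nsmul_eq_mul, mul_one] at h5
    rw [mul_comm, zpow_mul, h5, one_zpow]
  · rw [eq_top_iff]
    rintro x -
    have h : x = Multiplicative.ofAdd ((1 : ZMod m), (0 : ZMod n)) ^ x.toAdd.1.val *
        Multiplicative.ofAdd ((0 : ZMod m), (1 : ZMod n)) ^ x.toAdd.2.val := by
      rw [← ofAdd_nsmul, ← ofAdd_nsmul, ← ofAdd_add]
      simp
    rw [h]
    exact mul_mem (pow_mem (subset_closure (by simp)) _) (pow_mem (subset_closure (by simp)) _)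

end Cfsg.Agent.S3951
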