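import Cfsg.Statements.S3952
import Cfsg.Agent.Lib.Schur.Hopf
import Cfsg.Agent.Lib.Char.Orthogonality

set_option autoImplicit false
open Cfsg

namespace Cfsg.Agent.S3952

section
open Cfsg.Lib.Schur Cfsg.Lib.Char Subgroup

theorem central_char {Γ : Type*} [Group Γ] [Finite Γ] {Z : Subgroup Γ} (hZ : Z ≤ center Γ)
    (hZ' : Z ≤ _root_.commutator Γ) (χ : IrrCharacter Γ) :
    ∃ (d : ℕ) (μ : Z →* ℂˣ), (χ : Γ → ℂ) 1 = d ∧ μ ^ d = 1 ∧
      ∀ z : Z, (χ : Γ → ℂ) z = d * μ z := by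
  obtain ⟨χ, n, ρ, hρ, rfl⟩ := χ
  have hc : ∀ z : Z, ∃ c : ℂ, ρ z = c • LinearMap.id := fun z =>
    exists_eq_smul_of_commute ρ (ρ z) fun g => by
      rw [← Module.End.mul_eq_comp, ← Module.End.mul_eq_comp, ← map_mul, ← map_mul,
        mem_center_iff.mp (hZ z.2)]
  choose c hc using hc
  have := nontrivial_of_isIrreducible ρ
  have hinj : ∀ a b : ℂ, a • (LinearMap.id : (Fin n → ℂ) →ₗ[ℂ] (Fin n → ℂ)) = b • LinearMap.id →
      a = b := fun a b h => by
    obtain ⟨v, hv⟩ := exists_ne (0 : Fin n → ℂ)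
    exact smul_left_injective ℂ hv (LinearMap.congr_fun h v)
  let μ₀ : Z →* ℂ :=
    { toFun := c
      map_one' := hinj _ _ (by rw [← hc, one_smul]; exact map_one ρ)
      map_mul' := fun a b => hinj _ _ (by
        rw [← hc, Subgroup.coe_mul, map_mul, hc, hc]
        ext v i
        simp [mul_assoc, mul_left_comm]) }
  refine ⟨n, μ₀.toHomUnits, ?_, ?_, fun z => ?_⟩
  · show ρ.character 1 = n
    rw [Representation.char_one, Module.finrank_fin_fun]
  · ext z
    have h1 := Abelianization.commutator_subset_ker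
      ((LinearMap.det : ((Fin n → ℂ) →ₗ[ℂ] (Fin n → ℂ)) →* ℂ).comp ρ).toHomUnits (hZ' z.2)
    rw [MonoidHom.mem_ker] at h1
    have h2 : LinearMap.det (ρ z) = 1 := congrArg Units.val h1
    rw [hc, LinearMap.det_smul, Module.finrank_fin_fun, LinearMap.det_id, mul_one] at h2
    have h3 : μ₀ z ^ n = 1 := h2
    simpa using h3
  · show LinearMap.trace ℂ _ (ρ z) = n * c z
    rw [hc, map_smul, LinearMap.trace_id, Module.finrank_fin_fun, smul_eq_mul, mul_comm]

end

/-- If `A` is the Schur multiplier of the finite group `Q`, then the square of the exponent of `A` divides the order of `Q`. -/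
theorem result {Q : Type*} [Group Q] [Finite Q] {A : Type*} [CommGroup A] (hA : Cfsg.HasSchurMultiplier Q A) : Monoid.exponent A ^ 2 ∣ Nat.card Q := by
  open Cfsg.Lib.Schur Cfsg.Lib.Char Subgroup in
  classical
  obtain ⟨Γ, _, _, σ, hσ, ⟨e⟩⟩ := hA.1
  have := finite_of_hasSchurMultiplier hA
  have : NeZero (Monoid.exponent A : ℂ) := ⟨by exact_mod_cast Monoid.exponent_ne_zero_of_finite⟩
  obtain ⟨eA⟩ := CommGroup.monoidHom_mulEquiv_of_hasEnoughRootsOfUnity A ℂ
  obtain ⟨a, ha⟩ := Monoid.exists_orderOf_eq_exponent (Monoid.ExponentExists.of_finite (G := A))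
  let l : σ.ker →* ℂˣ := (eA.symm a).comp e.toMonoidHom
  have hl : ∀ d : ℕ, l ^ d = 1 → Monoid.exponent A ∣ d := fun d hd => by
    rw [← ha]
    apply orderOf_dvd_of_pow_eq_one
    apply eA.symm.injective
    rw [map_pow, map_one]
    ext x
    obtain ⟨y, rfl⟩ := e.surjective x
    exact congrArg Units.val (DFunLike.congr_fun hd y)
  choose d μ hd hμ hχ using central_char hσ.2.1 hσ.2.2
  have := Fintype.ofFinite σ.ker
  have h1 : ∑ z : σ.ker, regChar Γ z * ((l z)⁻¹ : ℂˣ) = Nat.card Γ := by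
    rw [Finset.sum_eq_single 1]
    · simp
    · intro z _ hz
      rw [regChar_of_ne_one (fun h => hz (Subtype.ext h)), zero_mul]
    · simp
  have h2 : ∀ χ, ∑ z : σ.ker, ((μ χ z : ℂˣ) : ℂ) * ((l z)⁻¹ : ℂˣ) =
      if μ χ = l then (Nat.card σ.ker : ℂ) else 0 := fun χ => by
    split_ifs with h
    · simp [h, -MonoidHom.mem_ker]
    · have := sum_hom_units_eq_zero ((Units.coeHom ℂ).comp (μ χ * l⁻¹)) (fun h' => h (by
        rw [← mul_inv_eq_one]
        ext z
        exact DFunLike.congr_fun h' z))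
      simpa using this
  have h3 : ((∑ χ : IrrCharacter Γ, if μ χ = l then d χ ^ 2 else 0 : ℕ) : ℂ) * Nat.card σ.ker =
      Nat.card Γ := by
    rw [← h1]
    simp_rw [← sum_irr_apply_one_mul_apply, Finset.sum_mul, hχ, hd]
    rw [Finset.sum_comm, Nat.cast_sum, Finset.sum_mul]
    refine Finset.sum_congr rfl fun χ _ => ?_
    have : ∀ z : σ.ker, (d χ : ℂ) * (d χ * μ χ z) * ((l z)⁻¹ : ℂˣ) =
        (d χ : ℂ) ^ 2 * (μ χ z * ((l z)⁻¹ : ℂˣ)) := fun z => by ring
    simp_rw [this]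
    rw [← Finset.mul_sum, h2]
    split_ifs <;> simp
  have h4 : Nat.card Γ = Nat.card Q * Nat.card σ.ker := by
    rw [← Nat.card_congr (QuotientGroup.quotientKerEquivOfSurjective σ hσ.1).toEquiv,
      Subgroup.card_eq_card_quotient_mul_card_subgroup]
  rw [h4, Nat.cast_mul] at h3
  have h5 := mul_right_cancel₀ (by exact_mod_cast Nat.card_pos.ne') h3
  rw [← Nat.cast_injective h5]
  refine Finset.dvd_sum fun χ _ => ?_
  split_ifs with h
  · exact pow_dvd_pow_of_dvd (hl _ (h ▸ hμ χ)) 2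
  · exact dvd_zero _

end Cfsg.Agent.S3952
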