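import Cfsg.Statements.S3953
import Cfsg.Agent.Lib.Schur.Transfer

set_option autoImplicit false
open Cfsg

namespace Cfsg.Agent.S3953

/-- Let `P` be a Sylow `p`-subgroup of the finite group `G`, let `A` be the Schur multiplier of `G` and `B` that of `P`. Then the `p`-primary component of `A` is isomorphic to a direct factor of `B`: there are subgroups `C` and `D` of `B` meeting trivially and generating `B`, with `C` isomorphic to the `p`-primary component of `A`. -/
theorem result {G : Type*} [Group G] [Finite G] (p : ℕ) [Fact p.Prime] (P : Sylow p G) {A B : Type*} [CommGroup A] [CommGroup B] (hA : Cfsg.HasSchurMultiplier G A) (hB : Cfsg.HasSchurMultiplier P B) : ∃ C D : Subgroup B, C ⊓ D = ⊥ ∧ C ⊔ D = ⊤ ∧ Nonempty (CommGroup.primaryComponent A p ≃* C) := by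
  open Cfsg.Lib.Schur Subgroup in
  obtain ⟨α, β, h⟩ := exists_transfer_pair (P : Subgroup G) hA hB
  have hp : IsPGroup p (CommGroup.primaryComponent A p) := CommGroup.primaryComponent.isPGroup
  have hcop : (Nat.Coprime p (P : Subgroup G).index) :=
    (Nat.Prime.coprime_iff_not_dvd Fact.out).mpr P.not_dvd_index
  let e := hp.powEquiv hcop
  have he : ∀ x : CommGroup.primaryComponent A p, (e x : A) = β (α x) := fun x => by
    rw [h]; rfl
  have hβ : ∀ b, β b ∈ CommGroup.primaryComponent A p := fun b => by
    obtain ⟨k, hk⟩ := P.isPGroup'.exists_card_eq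
    have h1 := pow_card_eq_one_of_hasSchurMultiplier hB b
    rw [hk] at h1
    exact ⟨k, by rw [← map_pow, h1, map_one]⟩
  let γ := α.comp (CommGroup.primaryComponent A p).subtype
  have hγ : Function.Injective γ := fun x y hxy => e.injective (Subtype.ext (by
    rw [he, he]; exact congrArg β hxy))
  refine ⟨γ.range, β.ker, ?_, ?_, ⟨MonoidHom.ofInjective hγ⟩⟩
  · rw [eq_bot_iff]
    rintro _ ⟨⟨x, rfl⟩, hx⟩
    have h1 : e x = e 1 := Subtype.ext (by
      rw [he, he, Subgroup.coe_one, map_one, map_one]; exact hx)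
    rw [e.injective h1, map_one]; exact one_mem _
  · rw [eq_top_iff]
    intro b _
    obtain ⟨x, hx⟩ := e.surjective ⟨β b, hβ b⟩
    have h1 : β (α x) = β b := by rw [← he, hx]
    have h2 : b = γ x * ((γ x)⁻¹ * b) := by group
    rw [h2]
    refine mul_mem_sup ⟨x, rfl⟩ ?_
    rw [MonoidHom.mem_ker, map_mul, map_inv, ← h1]
    exact inv_mul_cancel _

end Cfsg.Agent.S3953
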