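import Cfsg.Statements.S3954
import Cfsg.Agent.Lib.Schur.Hopf

set_option autoImplicit false
open Cfsg

namespace Cfsg.Agent.S3954

/-- Let `U` be a subgroup of index `m` in the finite group `G`, let `A` be the Schur multiplier of `G` and `B` that of `U`. Then the subgroup of `m`-th powers of `A` is isomorphic to a subgroup of `B`. -/
theorem result {G : Type*} [Group G] [Finite G] (U : Subgroup G) {A B : Type*} [CommGroup A] [CommGroup B] (hA : Cfsg.HasSchurMultiplier G A) (hB : Cfsg.HasSchurMultiplier U B) : ∃ C : Subgroup B, Nonempty ((powMonoidHom U.index : A →* A).range ≃* C) := by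
  open Cfsg.Lib.Schur Subgroup in
  open scoped IsMulCommutative in
  obtain ⟨Γ, _, _, σ, hσ, ⟨e⟩⟩ := hA.1
  have := finite_of_hasSchurMultiplier hB
  let V := U.comap σ
  let ξ : V →* U := (σ.comp V.subtype).codRestrict U fun x => x.2
  have hξ : Function.Surjective ξ := fun u => by
    obtain ⟨x, hx⟩ := hσ.1 u
    exact ⟨⟨x, by show σ x ∈ U; rw [hx]; exact u.2⟩, Subtype.ext hx⟩
  have hk : ∀ x : V, x ∈ ξ.ker ↔ (x : Γ) ∈ σ.ker := fun x => by
    rw [MonoidHom.mem_ker, MonoidHom.mem_ker, Subtype.ext_iff]; rfl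
  have hξc : ξ.ker ≤ center V := fun x hx => by
    rw [mem_center_iff]
    intro g
    exact Subtype.ext (mem_center_iff.mp (hσ.2.1 ((hk x).mp hx)) g)
  obtain ⟨f, hf⟩ := exists_surjective_hopf hB hξ hξc
  have : IsMulCommutative (hopf ξ) := isMulCommutative_of_le_center ((hopf_le_ker ξ).trans hξc)
  obtain ⟨g, hg⟩ := exists_injective_of_surjective f hf
  have hidx : V.index = U.index := U.index_comap_of_surjective hσ.1
  have hmem : ∀ z : σ.ker, ∃ h : (z : Γ) ^ U.index ∈ V, (⟨_, h⟩ : V) ∈ hopf ξ := fun z => by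
    have hz := hσ.2.1 z.2
    have key : ∀ (k : ℕ) (g₀ : Γ), g₀⁻¹ * (z : Γ) ^ k * g₀ ∈ V → g₀⁻¹ * (z : Γ) ^ k * g₀ = z ^ k :=
      fun k g₀ _ => by rw [mem_center_iff.mp (pow_mem hz k), inv_mul_cancel_right]
    have h1 := MonoidHom.transfer_eq_pow (Abelianization.of : V →* _) (z : Γ) key
    have h2 := Abelianization.commutator_subset_ker
      (MonoidHom.transfer (Abelianization.of : V →* _)) (hσ.2.2 z.2)
    rw [MonoidHom.mem_ker, h1] at h2
    rw [← hidx]
    exact ⟨_, (hk _).mpr (pow_mem z.2 _), (QuotientGroup.eq_one_iff _).mp h2⟩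
  choose h1 h2 using hmem
  let j : hopf ξ →* A := e.toMonoidHom.comp
    ((V.subtype.comp (hopf ξ).subtype).codRestrict σ.ker fun x => (hk _).mp x.2.1)
  have hj : Function.Injective j := e.injective.comp fun x y h =>
    Subtype.ext (Subtype.ext (congrArg (Subtype.val : σ.ker → Γ) h))
  have hle : (powMonoidHom U.index : A →* A).range ≤ j.range := by
    rintro _ ⟨a, rfl⟩
    obtain ⟨z, rfl⟩ := e.surjective a
    refine ⟨⟨_, h2 z⟩, ?_⟩
    rw [powMonoidHom_apply, ← map_pow]
    rfl
  let k : (powMonoidHom U.index : A →* A).range →* B :=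
    (g.comp (MonoidHom.ofInjective hj).symm.toMonoidHom).comp (inclusion hle)
  have hk : Function.Injective k :=
    (hg.comp (MonoidHom.ofInjective hj).symm.injective).comp (inclusion_injective hle)
  exact ⟨k.range, ⟨MonoidHom.ofInjective hk⟩⟩

end Cfsg.Agent.S3954
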