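import Cfsg.Statements.S3957
import Cfsg.Agent.Lib.Schur.Hopf

set_option autoImplicit false
universe u v
open Cfsg

namespace Cfsg.Agent.S3957

/-- Let `Q` be a finite group with Schur multiplier `A` and let `τ : Δ →* Q` be a finite stem extension, `Δ` in the universe of `Q`. Then there is a finite stem extension `σ : Γ →* Q` with kernel isomorphic to `A` (a Schur covering group) and a surjective homomorphism `β : Γ →* Δ` with `τ ∘ β = σ`. -/
theorem result {Q : Type u} [Group Q] [Finite Q] {A : Type v} [CommGroup A] (hA : Cfsg.HasSchurMultiplier Q A) {Δ : Type u} [Group Δ] [Finite Δ] (τ : Δ →* Q) (hτ : Cfsg.IsStemExtension τ) : ∃ (Γ : Type u) (_ : Group Γ) (_ : Finite Γ) (σ : Γ →* Q), Cfsg.IsStemExtension σ ∧ Nonempty (σ.ker ≃* A) ∧ ∃ β : Γ →* Δ, Function.Surjective β ∧ τ.comp β = σ := by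
  open Cfsg.Lib.Schur Subgroup in
  obtain ⟨U, _, π, h⟩ := exists_isFreeCentral Q
  obtain ⟨η, hη⟩ := h.exists_lift hτ.1 hτ.2.1
  have hm : (hopf π).map η = τ.ker :=
    (map_ker_inf_commutator h.surj hτ.2.1 hη).trans (hopf_eq_ker_of_stem hτ)
  have hT : η.ker ≤ π.ker := fun u hu => by
    show π u = 1
    rw [← hη, MonoidHom.comp_apply, (show η u = 1 from hu), map_one]
  obtain ⟨Γ, _, _, σ, β, hσ, ⟨f⟩, hβ, hk, hβs, -⟩ := h.exists_cover hT (fun r hr => by
    have : η r ∈ τ.ker := by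
      show τ (η r) = 1
      rw [← MonoidHom.comp_apply, hη]; exact hr
    rw [← hm] at this
    obtain ⟨m, hm, hm'⟩ := this
    refine ⟨r * m⁻¹, ?_, m, hm, by group⟩
    rw [MonoidHom.mem_ker, map_mul, map_inv, hm', mul_inv_cancel])
  obtain ⟨e⟩ := h.nonempty_equiv_of_hasSchurMultiplier hA
  have hcomp : τ.comp (β.liftOfSurjective hβs ⟨η, hk⟩) = σ := by
    ext g
    obtain ⟨u, rfl⟩ := hβs g
    have h1 := DFunLike.congr_fun hη u
    have h2 := DFunLike.congr_fun hβ u
    simp only [MonoidHom.comp_apply] at h1 h2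
    simp [h1, h2]
  exact ⟨Γ, inferInstance, inferInstance, σ, hσ, ⟨f.symm.trans e⟩, _,
    surjective_of_stem hσ.1 hτ hcomp, hcomp⟩

end Cfsg.Agent.S3957
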