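import Cfsg.Statements.S3960
import Cfsg.Agent.Lib.Schur.Hopf

set_option autoImplicit false
universe u
open Cfsg

namespace Cfsg.Agent.S3960

/-- A finite perfect group `Q` has a universal central extension: a finite perfect group `G` in the universe of `Q` and a surjective homomorphism `π : G →* Q` with central kernel such that for every group `X` in that universe and every surjective homomorphism `ξ : X →* Q` with central kernel there is exactly one homomorphism `η : G →* X` with `ξ ∘ η = π`. -/
theorem result {Q : Type u} [Group Q] [Finite Q] (hQ : Group.IsPerfect Q) : ∃ (G : Type u) (_ : Group G) (_ : Finite G) (π : G →* Q), Group.IsPerfect G ∧ Function.Surjective π ∧ π.ker ≤ Subgroup.center G ∧ ∀ (X : Type u) [Group X] (ξ : X →* Q), Function.Surjective ξ → ξ.ker ≤ Subgroup.center X → ∃! η : G →* X, ξ.comp η = π := by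
  open Cfsg.Lib.Schur Subgroup in
  obtain ⟨U, _, π, h⟩ := exists_isFreeCentral Q
  have hfin := h.finite_commutator
  have hmap : (_root_.commutator U).map π = ⊤ := by
    rw [map_commutator_eq, MonoidHom.range_eq_top_of_surjective _ h.surj]
    exact hQ.commutator_eq_top
  have hs : Function.Surjective (π.comp (_root_.commutator U).subtype) := fun q => by
    have : q ∈ (_root_.commutator U).map π := by rw [hmap]; trivial
    obtain ⟨u, hu, rfl⟩ := this
    exact ⟨⟨u, hu⟩, rfl⟩
  have hp : Group.IsPerfect (_root_.commutator U) := by
    rw [isPerfect_iff]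
    symm
    apply commutator_eq_of_mul_center
    intro x
    obtain ⟨u, z, hz, rfl⟩ := exists_mul_ker hs (ξ := π) (η := (_root_.commutator U).subtype) rfl x
    exact ⟨u, u.2, z, h.central hz, rfl⟩
  refine ⟨_root_.commutator U, inferInstance, hfin, π.comp (_root_.commutator U).subtype, hp, hs,
    fun u hu => ?_, fun X _ ξ hξ hξ' => ?_⟩
  · rw [mem_center_iff]
    intro g
    exact Subtype.ext (mem_center_iff.mp (h.central (show (u : U) ∈ π.ker from hu)) g)
  · obtain ⟨η, hη⟩ := h.exists_lift hξ hξ'
    refine ⟨η.comp (_root_.commutator U).subtype, ?_, fun η' hη' => ?_⟩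
    · show ξ.comp (η.comp _) = _
      rw [← MonoidHom.comp_assoc, hη]
    · apply eq_of_central_of_perfect hξ'
      rw [hη', ← MonoidHom.comp_assoc, hη]

end Cfsg.Agent.S3960
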