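import Cfsg.Statements.S3961
import Cfsg.Agent.Lib.Schur.Hopf
import Cfsg.Agent.S3962

set_option autoImplicit false
universe u v
open Cfsg

namespace Cfsg.Agent.S3961

/-- Let `π : G →* Q` be a surjective homomorphism with central kernel from a finite perfect group `G` (a perfect cover of `Q`). Then `π` is universal, in the sense that every surjective homomorphism `ξ : X →* Q` with central kernel from a group `X` in the universe of `G` admits a homomorphism `η : G →* X` with `ξ ∘ η = π`, if and only if `G` has trivial Schur multiplier. -/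
theorem result {G : Type u} {Q : Type v} [Group G] [Group Q] [Finite G] (hG : Group.IsPerfect G) (π : G →* Q) (hπ : Function.Surjective π) (hker : π.ker ≤ Subgroup.center G) : (∀ (X : Type u) [Group X] (ξ : X →* Q), Function.Surjective ξ → ξ.ker ≤ Subgroup.center X → ∃ η : G →* X, ξ.comp η = π) ↔ Cfsg.HasCyclicSchurMultiplier G 1 := by
  open Cfsg.Lib.Schur Subgroup in
  constructor
  · intro h
    rw [hasCyclicSchurMultiplier_one_iff]
    intro Δ _ _ τ hτ
    have hΔ : Group.IsPerfect Δ := by
      refine ⟨eq_top_iff.mpr fun x _ => ?_⟩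
      have h1 : τ x ∈ (_root_.commutator Δ).map τ := by
        rw [map_commutator_eq, MonoidHom.range_eq_top_of_surjective _ hτ.1]
        exact hG.mem_commutator
      obtain ⟨y, hy, hxy⟩ := h1
      have h2 : y⁻¹ * x ∈ τ.ker := by
        rw [MonoidHom.mem_ker, map_mul, map_inv, hxy, inv_mul_cancel]
      simpa using mul_mem hy (hτ.2.2 h2)
    have hc : (π.comp τ).ker ≤ center Δ := fun x hx => by
      have h1 : τ x ∈ center G := hker hx
      rw [← S3962.result hΔ τ hτ.1 hτ.2.1] at h1
      obtain ⟨y, hy, hxy⟩ := h1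
      have h2 : y⁻¹ * x ∈ τ.ker := by
        rw [MonoidHom.mem_ker, map_mul, map_inv, hxy, inv_mul_cancel]
      simpa using mul_mem hy (hτ.2.1 h2)
    obtain ⟨η, hη⟩ := h Δ (π.comp τ) (hπ.comp hτ.1) hc
    have h3 : τ.comp η = MonoidHom.id G :=
      eq_of_central_of_perfect hker (by rw [← MonoidHom.comp_assoc, hη]; rfl)
    have h4 := surjective_of_stem Function.surjective_id hτ h3
    rw [eq_bot_iff]
    intro x hx
    obtain ⟨g, rfl⟩ := h4 x
    have : g = 1 := (DFunLike.congr_fun h3 g).symm.trans hx
    rw [this, map_one]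
    exact one_mem _
  · intro h X _ ξ hξ hξ'
    let Y : Subgroup (X × G) := (ξ.comp (MonoidHom.fst X G)).eqLocus (π.comp (MonoidHom.snd X G))
    let ζ : Y →* G := (MonoidHom.snd X G).comp Y.subtype
    have hζ : Function.Surjective ζ := fun g => by
      obtain ⟨x, hx⟩ := hξ (π g)
      exact ⟨⟨(x, g), hx⟩, rfl⟩
    have hζc : ζ.ker ≤ center Y := by
      rintro ⟨⟨x, g⟩, hxg⟩ hy
      have hg : g = 1 := hy
      subst hg
      have hx : x ∈ ξ.ker := hxg.trans (map_one π)
      rw [mem_center_iff]
      rintro ⟨⟨x', g'⟩, h'⟩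
      exact Subtype.ext (Prod.ext (mem_center_iff.mp (hξ' hx) x') (by simp))
    have hb := hopf_eq_bot_of_trivial h hζ hζc
    let ζ' : _root_.commutator Y →* G := ζ.comp (_root_.commutator Y).subtype
    have hbij : Function.Bijective ζ' := by
      constructor
      · rw [injective_iff_map_eq_one]
        intro y hy
        have : (y : Y) ∈ hopf ζ := ⟨hy, y.2⟩
        rw [hb] at this
        exact Subtype.ext this
      · intro g
        have h1 : g ∈ (_root_.commutator Y).map ζ := by
          rw [map_commutator_eq, MonoidHom.range_eq_top_of_surjective _ hζ]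
          exact hG.mem_commutator
        obtain ⟨y, hy, rfl⟩ := h1
        exact ⟨⟨y, hy⟩, rfl⟩
    let e := MulEquiv.ofBijective ζ' hbij
    refine ⟨(((MonoidHom.fst X G).comp Y.subtype).comp (_root_.commutator Y).subtype).comp
      e.symm.toMonoidHom, ?_⟩
    ext g
    obtain ⟨y, rfl⟩ := e.surjective g
    simp only [MonoidHom.comp_apply, MulEquiv.coe_toMonoidHom, MulEquiv.symm_apply_apply]
    exact y.1.2

end Cfsg.Agent.S3961
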