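import Cfsg.Statements.S3964
import Cfsg.Agent.Lib.Schur.Dihedral

set_option autoImplicit false
open Cfsg

namespace Cfsg.Agent.S3964

/-- For odd `n` the dihedral group of order `2 n` has trivial Schur multiplier. -/
theorem result (n : ℕ) (hn : Odd n) : Cfsg.HasCyclicSchurMultiplier (DihedralGroup n) 1 := by
  open Cfsg.Lib.Schur Subgroup in
  have : NeZero n := ⟨hn.pos.ne'⟩
  refine hasCyclicSchurMultiplier_one_of_upper fun Γ _ _ σ hσ => dihedral_upper n 1 (fun k hk => ?_) hσ
  have h : IsCoprime (n : ℤ) 2 := by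
    have := Nat.isCoprime_iff_coprime.mpr hn.coprime_two_right
    simpa using this
  simpa using h.dvd_of_dvd_mul_left hk

end Cfsg.Agent.S3964
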