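import Cfsg.Statements.S3965
import Cfsg.Agent.Lib.Schur.Dihedral

set_option autoImplicit false
open Cfsg

namespace Cfsg.Agent.S3965

/-- For even `n ≥ 2` the dihedral group of order `2 n` has Schur multiplier cyclic of order `2`. -/
theorem result (n : ℕ) [NeZero n] (hn : Even n) : Cfsg.HasCyclicSchurMultiplier (DihedralGroup n) 2 := by
  open Cfsg.Lib.Schur Subgroup in
  have h := card_quaternionToDihedral_ker n
  have : Fact (Nat.Prime 2) := ⟨Nat.prime_two⟩
  have hc : IsCyclic (quaternionToDihedral n).ker := isCyclic_of_prime_card h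
  refine hasSchurMultiplier_mk (isStemExtension_quaternionToDihedral n hn)
    (mulEquivOfCyclicCardEq (by rw [h]; simp)) fun Δ _ _ τ hτ => dihedral_upper n 2 (fun k hk => ?_) hτ
  rw [mul_comm]; exact hk

end Cfsg.Agent.S3965
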