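import Cfsg.Statements.S3967
import Cfsg.Agent.Lib.Schur.Metacyclic

set_option autoImplicit false
open Cfsg

namespace Cfsg.Agent.S3967

open Subgroup Multiplicative

/-- the relators -/
def rels (m n r t : ℕ) : Set (FreeGroup Bool) :=
  {FreeGroup.of true ^ m, (FreeGroup.of false) ^ n * (FreeGroup.of true ^ t)⁻¹,
    FreeGroup.of false * FreeGroup.of true * (FreeGroup.of false)⁻¹ * (FreeGroup.of true ^ r)⁻¹}

/-- first generator -/
abbrev ga (m n r t : ℕ) : PresentedGroup (rels m n r t) := PresentedGroup.of true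
/-- second generator -/
abbrev gb (m n r t : ℕ) : PresentedGroup (rels m n r t) := PresentedGroup.of false

variable {m n r t : ℕ}

theorem r1 : ga m n r t ^ m = 1 :=
  PresentedGroup.one_of_mem (rels := rels m n r t) (x := FreeGroup.of true ^ m) (by simp [rels])

theorem r2 : gb m n r t ^ n = ga m n r t ^ t := mul_inv_eq_one.1
  (PresentedGroup.one_of_mem (rels := rels m n r t)
    (x := (FreeGroup.of false) ^ n * (FreeGroup.of true ^ t)⁻¹) (by simp [rels]))

theorem r3 : gb m n r t * ga m n r t * (gb m n r t)⁻¹ = ga m n r t ^ r := mul_inv_eq_one.1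
  (PresentedGroup.one_of_mem (rels := rels m n r t)
    (x := FreeGroup.of false * FreeGroup.of true * (FreeGroup.of false)⁻¹ * (FreeGroup.of true ^ r)⁻¹)
    (by simp [rels]))

theorem gen : closure {ga m n r t, gb m n r t} = ⊤ := by
  rw [← PresentedGroup.closure_range_of]
  congr 1
  ext x
  simp [eq_comm, or_comm]

theorem exists_lift {H : Type*} [Group H] (α β : H) (h1 : α ^ m = 1) (h2 : β ^ n = α ^ t)
    (h3 : β * α * β⁻¹ = α ^ r) :
    ∃ f : PresentedGroup (rels m n r t) →* H, f (ga m n r t) = α ∧ f (gb m n r t) = β := by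
  refine ⟨PresentedGroup.toGroup (f := fun x => cond x α β) ?_, PresentedGroup.toGroup.of _,
    PresentedGroup.toGroup.of _⟩
  rintro x (rfl | rfl | rfl) <;> simp [h1, h2, h3]

theorem nf (hm : 0 < m) (x : PresentedGroup (rels m n r t)) :
    ∃ i j : ℤ, ga m n r t ^ i * gb m n r t ^ j = x := by
  have : Finite (zpowers (ga m n r t)) :=
    finite_zpowers.2 (isOfFinOrder_iff_pow_eq_one.2 ⟨m, hm, r1⟩)
  have h : zpowers (gb m n r t) ≤ normalizer (zpowers (ga m n r t) : Set _) := by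
    refine zpowers_le.2 (mem_normalizer_fintype ?_)
    rintro _ ⟨i, rfl⟩
    rw [← conj_zpow, r3]
    exact zpow_mem (pow_mem (mem_zpowers _) _) _
  have hx : x ∈ zpowers (ga m n r t) ⊔ zpowers (gb m n r t) := by
    rw [zpowers_eq_closure, zpowers_eq_closure, ← Subgroup.closure_union]
    exact gen.ge trivial
  rw [← SetLike.mem_coe, coe_mul_of_right_le_normalizer_left _ _ h] at hx
  obtain ⟨_, ⟨i, rfl⟩, _, ⟨j, rfl⟩, h⟩ := hx
  exact ⟨i, j, h⟩

theorem fin (hm : 0 < m) (hn : 0 < n) : Finite (PresentedGroup (rels m n r t)) := by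
  have : Finite (zpowers (ga m n r t)) :=
    finite_zpowers.2 (isOfFinOrder_iff_pow_eq_one.2 ⟨m, hm, r1⟩)
  have : Finite (zpowers (gb m n r t)) :=
    finite_zpowers.2 (isOfFinOrder_iff_pow_eq_one.2 ⟨n * m, by positivity, by
      rw [pow_mul, r2, ← pow_mul, mul_comm, pow_mul, r1, one_pow]⟩)
  refine Finite.of_surjective
    (fun x : zpowers (ga m n r t) × zpowers (gb m n r t) => (x.1.1 * x.2.1)) fun x => ?_
  obtain ⟨i, j, h⟩ := nf hm x
  exact ⟨(⟨_, i, rfl⟩, ⟨_, j, rfl⟩), h⟩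

theorem dvd_of_eq_one {i j : ℤ} (h : ga m n r t ^ i * gb m n r t ^ j = 1) : (n : ℤ) ∣ j := by
  obtain ⟨f, h1, h2⟩ := exists_lift (m := m) (n := n) (r := r) (t := t) (1 : Multiplicative (ZMod n))
    (ofAdd 1) (one_pow _) (by rw [one_pow, ← ofAdd_nsmul]; simp) (by simp)
  have := congrArg f h
  rw [map_mul, map_zpow, map_zpow, h1, h2, one_zpow, one_mul, f.map_one, ← ofAdd_zsmul] at this
  exact (ZMod.intCast_zmod_eq_zero_iff_dvd _ n).1 (by simpa using this)

theorem model (hm : 0 < m) (hcop : m.Coprime r) : ∃ (S : Type) (_ : Group S) (A B : S)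
    (π : S →* Multiplicative ℤ), A ^ m = 1 ∧ B * A * B⁻¹ = A ^ r ∧ (∀ i : ℤ, A ^ i = 1 → (m : ℤ) ∣ i) ∧
    π A = 1 ∧ π B = ofAdd 1 := by
  have : NeZero m := ⟨hm.ne'⟩
  have hC : Nat.card (Multiplicative (ZMod m)) = m := by rw [Nat.card_congr toAdd, Nat.card_zmod]
  rw [← hC] at hcop
  let ψ : MulAut (Multiplicative (ZMod m)) :=
    MulEquiv.ofBijective (powMonoidHom r) (powCoprime hcop).bijective
  refine ⟨Multiplicative (ZMod m) ⋊[zpowersHom _ ψ] Multiplicative ℤ, inferInstance,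
    SemidirectProduct.inl (ofAdd 1), SemidirectProduct.inr (ofAdd 1), SemidirectProduct.rightHom,
    ?_, ?_, fun i hi => ?_, by simp, by simp⟩
  · rw [← map_pow SemidirectProduct.inl, ← ofAdd_nsmul]; simp
  · rw [← map_inv SemidirectProduct.inr, ← SemidirectProduct.inl_aut, ← map_pow SemidirectProduct.inl,
      zpowersHom_apply, toAdd_ofAdd, zpow_one]
    rfl
  · rw [← map_zpow SemidirectProduct.inl, map_eq_one_iff _ SemidirectProduct.inl_injective,
      ← ofAdd_zsmul, ofAdd_eq_one] at hi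
    exact (ZMod.intCast_zmod_eq_zero_iff_dvd _ m).1 (by simpa using hi)

theorem dvd_of_pow (hm : 0 < m) (hn : 0 < n) (hrn : r ^ n ≡ 1 [MOD m]) (ht : t * r ≡ t [MOD m])
    {i : ℤ} (h : ga m n r t ^ i = 1) : (m : ℤ) ∣ i := by
  obtain ⟨S, _, A, B, π, h0, h3, hi, hπA, hπB⟩ := model (r := r) hm
    (Nat.Coprime.coprime_dvd_left (dvd_pow_self r hn.ne') (by rw [Nat.Coprime, hrn.gcd_eq]; simp)).symm
  have hA : ∀ {a b : ℕ}, a ≡ b [MOD m] → A ^ a = A ^ b := fun h => pow_eq_pow_of_modEq h h0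
  have hB : ∀ k : ℕ, B ^ k * A * (B ^ k)⁻¹ = A ^ r ^ k := fun k => by
    induction k with
    | zero => simp
    | succ k ih => rw [pow_succ r, pow_mul, ← ih, conj_pow, ← h3, pow_succ]; group
  let w : S := B ^ n * (A ^ t)⁻¹
  let H := centralizer ({w} : Set S)
  have hAH : A ∈ H := by
    have h1 : Commute A (B ^ n) := by
      have := hB n
      rw [hA hrn, pow_one, mul_inv_eq_iff_eq_mul] at this
      exact this.symm
    exact mem_centralizer_singleton_iff.2 (h1.mul_right ((Commute.refl A).pow_right t).inv_right)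
  have hBH : B ∈ H := by
    have h1 : Commute B (A ^ t) := by
      have : B * A ^ t * B⁻¹ = A ^ t := by rw [← conj_pow, h3, ← pow_mul, mul_comm, hA ht]
      exact mul_inv_eq_iff_eq_mul.1 this
    exact mem_centralizer_singleton_iff.2 (((Commute.refl B).pow_right n).mul_right h1.inv_right)
  let w' : H := ⟨w, mem_centralizer_singleton_iff.2 rfl⟩
  have : (zpowers w').Normal := Lib.Schur.normal_of_le_center (zpowers_le.2 (mem_center_iff.2
    fun g => Subtype.ext (mem_centralizer_singleton_iff.1 g.2)))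
  obtain ⟨f, h1, -⟩ := exists_lift (m := m) (n := n) (r := r) (t := t)
    ((⟨A, hAH⟩ : H) : H ⧸ zpowers w') ((⟨B, hBH⟩ : H) : H ⧸ zpowers w')
    (by
      rw [← QuotientGroup.mk_pow, show (⟨A, hAH⟩ : H) ^ m = 1 from Subtype.ext h0,
        QuotientGroup.mk_one])
    (by
      rw [← mul_inv_eq_one, ← QuotientGroup.mk_pow, ← QuotientGroup.mk_pow, ← QuotientGroup.mk_inv,
        ← QuotientGroup.mk_mul, QuotientGroup.eq_one_iff]
      exact mem_zpowers w')
    (by
      rw [← QuotientGroup.mk_pow, ← QuotientGroup.mk_inv, ← QuotientGroup.mk_mul, ← QuotientGroup.mk_mul]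
      exact congrArg _ (Subtype.ext h3))
  have h2 := congrArg f h
  rw [map_zpow, h1, map_one, ← QuotientGroup.mk_zpow, QuotientGroup.eq_one_iff] at h2
  obtain ⟨j, hj⟩ := h2
  have hj' : w ^ j = A ^ i := congrArg Subtype.val hj
  have h4 : j * (n : ℤ) = 0 := by
    simpa [w, hπA, hπB] using congrArg (fun x => toAdd (π x)) hj'
  obtain rfl : j = 0 := (mul_eq_zero.1 h4).resolve_right (by exact_mod_cast hn.ne')
  exact hi i (by rw [← hj', zpow_zero])

/-- Let `m, n ≥ 1`, `r ≥ 1` with `r ^ n ≡ 1 (mod m)`, and `l` a natural number; put `d = gcd(m, r - 1)`, `t = m l / d` and `h = d · gcd(m, 1 + r + ⋯ + r^(n-1)) / m`. The group presented by generators `a, b` and relations `a ^ m = 1`, `b ^ n = a ^ t`, `b a b⁻¹ = a ^ r` (a metacyclic group of order `m n`) has Schur multiplier cyclic of order `gcd(l, h)`. -/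
theorem result (m n r l : ℕ) (hm : 0 < m) (hn : 0 < n) (hr : 0 < r) (hrn : r ^ n ≡ 1 [MOD m]) : Cfsg.HasCyclicSchurMultiplier (PresentedGroup ({FreeGroup.of true ^ m, (FreeGroup.of false) ^ n * (FreeGroup.of true ^ (m * l / Nat.gcd m (r - 1)))⁻¹, FreeGroup.of false * FreeGroup.of true * (FreeGroup.of false)⁻¹ * (FreeGroup.of true ^ r)⁻¹} : Set (FreeGroup Bool))) (Nat.gcd l (Nat.gcd m (r - 1) * Nat.gcd m (∑ i ∈ Finset.range n, r ^ i) / m)) := by
  obtain ⟨r, rfl⟩ : ∃ r', r = r' + 1 := ⟨r - 1, by omega⟩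
  rw [Nat.add_sub_cancel]
  set s := ∑ i ∈ Finset.range n, (r + 1) ^ i with hs
  have hgeo : ∀ x : ℕ, (∑ i ∈ Finset.range n, (x + 1) ^ i) * x + 1 = (x + 1) ^ n := fun x =>
    geom_sum_mul_add x n
  obtain ⟨v, u, hcop, hv, hu⟩ := Nat.exists_coprime m r
  set d := Nat.gcd m r with hd
  have hd0 : 0 < d := Nat.gcd_pos_of_pos_left _ hm
  have hv0 : 0 < v := Nat.pos_of_mul_pos_right (hv ▸ hm) 
  have hms : m ∣ s * r := by
    rw [← hgeo, ← hs] at hrn
    simpa using (Nat.modEq_iff_dvd' (by omega)).1 hrn.symm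
  have hvs : v ∣ s := by
    rw [hv, hu, ← mul_assoc] at hms
    exact hcop.dvd_of_dvd_mul_right (Nat.dvd_of_mul_dvd_mul_right hd0 hms)
  obtain ⟨h, hh⟩ : v ∣ Nat.gcd m s := Nat.dvd_gcd ⟨d, hv⟩ hvs
  have e1 : m * l / d = v * l := by
    rw [hv, mul_right_comm]; exact Nat.mul_div_cancel _ hd0
  have e2 : d * Nat.gcd m s / m = h := by
    rw [hh, ← mul_assoc, mul_comm d, ← hv]; exact Nat.mul_div_cancel_left _ hm
  rw [e1, e2]
  set k := Nat.gcd l h with hk
  have hh0 : 0 < h := Nat.pos_of_mul_pos_left (hh ▸ Nat.gcd_pos_of_pos_left _ hm)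
  have hk0 : 0 < k := Nat.gcd_pos_of_pos_right _ hh0
  have hhd : h ∣ d := Nat.dvd_of_mul_dvd_mul_left hv0 (hh ▸ hv ▸ Nat.gcd_dvd_left _ _)
  have hkd : k ∣ d := (Nat.gcd_dvd_right _ _).trans hhd
  have ht : v * l * (r + 1) ≡ v * l [MOD m] := by
    rw [mul_add, mul_one]
    refine (Nat.modEq_iff_dvd' (by omega)).2 ?_ |>.symm
    rw [Nat.add_sub_cancel]
    exact ⟨l * u, by rw [hv, hu]; ring⟩
  change HasSchurMultiplier (PresentedGroup (rels m n (r + 1) (v * l))) _
  have := fin (m := m) (n := n) (r := r + 1) (t := v * l) hm hn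
  refine ⟨?_, fun Γ _ _ σ hσ => ?_⟩
  · obtain ⟨P, hP, hPp, hPu⟩ := Nat.forall_exists_prime_gt_and_modEq (v * k) hv0.ne' hcop.symm
    have hPc : (v * k).Coprime P := (Nat.coprime_of_lt_prime (by positivity) hP hPp).symm
    have hr' : P * d + 1 ≡ r + 1 [MOD m] := by
      rw [hv, hu]; exact (hPu.mul_right' d).add_right 1
    have hs' : ∑ i ∈ Finset.range n, (P * d + 1) ^ i ≡ s [MOD m] :=
      Nat.ModEq.sum fun i _ => hr'.pow i
    have hrn' : (P * d + 1) ^ n ≡ 1 [MOD m * k] := by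
      rw [← hgeo]
      refine ((Nat.modEq_iff_dvd' (by omega)).2 ?_).symm
      rw [Nat.add_sub_cancel]
      obtain ⟨y, hy⟩ : v * h ∣ ∑ i ∈ Finset.range n, (P * d + 1) ^ i :=
        ((hs'.of_dvd (hh ▸ Nat.gcd_dvd_left _ _)).dvd_iff dvd_rfl).2 (hh ▸ Nat.gcd_dvd_right _ _)
      obtain ⟨z, hz⟩ := Nat.gcd_dvd_right l h
      rw [hy, hz, hv]
      exact ⟨z * y * P, by ring⟩
    have ht' : v * l * (P * d + 1) ≡ v * l [MOD m * k] := by
      rw [mul_add, mul_one]
      refine ((Nat.modEq_iff_dvd' (by omega)).2 ?_).symm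
      rw [Nat.add_sub_cancel]
      obtain ⟨z, hz⟩ := Nat.gcd_dvd_left l h
      rw [← hk] at hz
      exact ⟨z * P, by rw [hv, hz]; ring⟩
    have hmk : 0 < m * k := by positivity
    obtain ⟨σ, h1, h2⟩ := exists_lift (m := m * k) (n := n) (r := P * d + 1) (t := v * l)
      (ga m n (r + 1) (v * l)) (gb _ _ _ _) (by rw [pow_mul, r1, one_pow]) r2
      (by rw [r3, pow_eq_pow_of_modEq hr' r1])
    set α := ga (m * k) n (P * d + 1) (v * l)
    set β := gb (m * k) n (P * d + 1) (v * l)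
    have hker : σ.ker = zpowers (α ^ m) := by
      refine le_antisymm (fun x hx => ?_) (zpowers_le.2 (by rw [MonoidHom.mem_ker, map_pow, h1, r1]))
      obtain ⟨i, j, rfl⟩ := nf hmk x
      rw [MonoidHom.mem_ker, map_mul, map_zpow, map_zpow, h1, h2] at hx
      obtain ⟨j, rfl⟩ := dvd_of_eq_one hx
      rw [zpow_mul, zpow_natCast, r2, ← zpow_natCast, ← zpow_mul, ← zpow_add] at hx
      obtain ⟨y, hy⟩ := dvd_of_pow hm hn hrn ht hx
      rw [zpow_mul, zpow_natCast, r2, ← zpow_natCast _ (v * l), ← zpow_mul, ← zpow_add, hy, zpow_mul,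
        zpow_natCast]
      exact zpow_mem (mem_zpowers _) _
    have ho : orderOf α = m * k := Nat.dvd_antisymm (orderOf_dvd_of_pow_eq_one r1)
      (by exact_mod_cast dvd_of_pow hmk hn hrn' ht' (i := orderOf α) (by simp [α]))
    have := fin (m := m * k) (n := n) (r := P * d + 1) (t := v * l) hmk hn
    refine ⟨_, inferInstance, this, σ, ⟨?_, ?_, ?_⟩, ?_⟩
    · rw [← MonoidHom.range_eq_top, eq_top_iff, ← gen, closure_le]
      rintro _ (rfl | rfl)
      exacts [⟨_, h1⟩, ⟨_, h2⟩]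
    · rw [hker, zpowers_le, mem_center_iff]
      intro g
      refine mem_centralizer_singleton_iff.1 ((?_ : ⊤ ≤ centralizer {α ^ m}) trivial)
      rw [← gen, closure_le]
      rintro _ (rfl | rfl)
      · exact mem_centralizer_singleton_iff.2 ((Commute.refl α).pow_right m)
      · refine mem_centralizer_singleton_iff.2 (mul_inv_eq_iff_eq_mul.1 ?_)
        obtain ⟨z, hz⟩ := hkd
        rw [← conj_pow, r3, ← pow_mul, add_mul, one_mul, pow_add,
          show P * d * m = m * k * (P * z) by rw [hz]; ring, pow_mul, r1, one_pow, one_mul]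
    · rw [hker, zpowers_le]
      have h3 : α ^ (P * d) ∈ commutator _ := by
        have : α ^ (P * d) = β * α * β⁻¹ * α⁻¹ := by rw [r3, pow_succ, mul_inv_cancel_right]
        rw [this]
        exact commutator_mem_commutator (mem_top β) (mem_top α)
      have h4 : α ^ d ∈ zpowers (α ^ (P * d)) := by
        rw [pow_mul']
        refine mem_zpowers_pow_iff.2 ?_
        refine Nat.Coprime.coprime_dvd_right (orderOf_dvd_of_pow_eq_one ?_) hPc.symm
        rw [← pow_mul, ← mul_assoc, mul_comm d, ← hv, r1]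
      rw [show α ^ m = (α ^ d) ^ v by rw [← pow_mul', ← hv]]
      exact pow_mem (zpowers_le.2 h3 h4) _
    · have : NeZero k := ⟨hk0.ne'⟩
      have : IsCyclic σ.ker := hker ▸ inferInstance
      refine ⟨mulEquivOfCyclicCardEq ?_⟩
      rw [hker, Nat.card_zpowers, orderOf_pow, ho, Nat.gcd_mul_right_left, Nat.mul_div_cancel_left _ hm,
        Nat.card_congr toAdd, Nat.card_zmod]
  · obtain ⟨c, hc, h1, h2, h3⟩ := Lib.Schur.metacyclic_ker hσ (ga m n (r + 1) (v * l)) (gb _ _ _ _) gen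
      ((r + 1 : ℕ) : ℤ) (by rw [r3, zpow_natCast])
    refine Lib.Schur.exists_surjective_zmod_of_le_zpowers hc k fun j hj => ?_
    have h4 : c ^ m = 1 := by
      rw [← zpow_natCast]; exact h2 _ (by rw [zpow_natCast, r1]; exact one_mem _)
    have h5 : c ^ (v * l) = 1 := by
      rw [← zpow_natCast]; exact h2 _ (by rw [zpow_natCast, ← r2]; exact pow_mem (mem_zpowers _) _)
    have h6 : c ^ s = 1 := by
      have := h3 n (by rw [r2]; exact pow_mem (mem_zpowers _) _)
      rw [← zpow_natCast, hs]; push_cast at this ⊢; exact this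
    have h7 : c ^ (v * k) = 1 := by
      rw [hk, ← Nat.gcd_mul_left, ← hh, pow_gcd_eq_one, pow_gcd_eq_one]
      exact ⟨h5, h4, h6⟩
    have h8 : (m : ℤ) ∣ r * j := by
      refine dvd_of_pow hm hn hrn ht ?_
      have := MonoidHom.mem_ker.1 hj
      rw [map_zpow, h1, ← zpow_mul] at this
      simpa using this
    have h9 : (v : ℤ) ∣ j := by
      rw [hv, hu] at h8
      push_cast at h8
      rw [mul_right_comm] at h8
      exact (Nat.isCoprime_iff_coprime.2 hcop).dvd_of_dvd_mul_left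
        (Int.dvd_of_mul_dvd_mul_right (by exact_mod_cast hd0.ne') h8)
    obtain ⟨y, rfl⟩ := h9
    rw [mul_right_comm, zpow_mul, ← Nat.cast_mul, zpow_natCast, h7, one_zpow]

end Cfsg.Agent.S3967
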