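import Cfsg.Statements.S3969
import Cfsg.Agent.Lib.BG.Hall
import Cfsg.Agent.Lib.FGS.CycSylow

set_option autoImplicit false
open Cfsg

namespace Cfsg.Agent.S3969

/-- Let `P` be an abelian Sylow `p`-subgroup of the finite group `G`, generated by `d` elements (`d` its minimal number of generators). If the order of `G` is coprime to `(p - 1)(p ^ 2 - 1) ⋯ (p ^ d - 1)`, then `G` has a normal `p`-complement. (The classical statement needs only the largest number of cyclic factors of `P` of equal order in place of `d`; the form here follows from it.) -/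
theorem result {G : Type*} [Group G] [Finite G] (p : ℕ) [Fact p.Prime] (P : Sylow p G) (hab : IsMulCommutative (P : Subgroup G)) (hcop : Nat.Coprime (Nat.card G) (∏ i ∈ Finset.Icc 1 (Group.rank (P : Subgroup G)), (p ^ i - 1))) : Cfsg.HasNormalPComplement p G := by
  open Subgroup Cfsg.Lib Cfsg.Lib.BG Cfsg.Lib.Transfer in
  open Cfsg.Lib.FGS in
  obtain ⟨T, h1, h2⟩ := Group.rank_spec (P : Subgroup G)
  refine hasNormalPComplement_of_normalizer_le_centralizer P fun x hx => ?_
  have h3 := PGroup.index_frattini_le_pow_card P.isPGroup' h2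
  rw [h1] at h3
  generalize Group.rank (P : Subgroup G) = d at h3 hcop
  have h5 : ∀ g ∈ 𝐍((P : Subgroup G)), (orderOf g).Coprime p → g ∈ 𝐂((P : Subgroup G)) := fun g hg hc =>
      mem_cent_of_coprime_prod P.isPGroup' h3 hg hc (Nat.Coprime.coprime_dvd_left (orderOf_dvd_natCard g) hcop)
  obtain ⟨s, hs, h⟩ := exists_conj_eq_of_coprime_centralize le_normalizer
    (sylow_not_dvd_relIndex P le_normalizer) h5 hx
  intro t ht
  have h4 := h t ht
  rw [← le_centralizer (P : Subgroup G) hs t ht, mul_inv_cancel_right] at h4
  exact (mul_inv_eq_iff_eq_mul.1 h4.symm).symm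

end Cfsg.Agent.S3969
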