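import Cfsg.Statements.S3970
import Cfsg.Agent.Lib.BG.Hall
import Cfsg.Agent.S3969
import Cfsg.Agent.Lib.Coprime.FT

set_option autoImplicit false
open Cfsg

namespace Cfsg.Agent.S3970

/-- Let `G` be a finite group such that for every prime `p` dividing its order, other than the largest such prime, the Sylow `p`-subgroups are abelian and generated by at most two elements, and suppose `12` does not divide the order of `G`. Then `G` is solvable. In particular a group of cube-free order not divisible by `12` is solvable. -/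
theorem result {G : Type*} [Group G] [Finite G] (h : ∀ p : ℕ, p.Prime → p ∣ Nat.card G → (∃ q : ℕ, q.Prime ∧ q ∣ Nat.card G ∧ p < q) → ∀ P : Sylow p G, IsMulCommutative (P : Subgroup G) ∧ Group.rank (P : Subgroup G) ≤ 2) (h12 : ¬ 12 ∣ Nat.card G) : Group.IsSolvable G := by
  open Subgroup Cfsg.Lib Cfsg.Lib.BG Cfsg.Lib.Transfer in
  by_cases h2 : 2 ∣ Nat.card G
  swap
  · exact Coprime.isSolvable_of_not_two_dvd h2
  obtain ⟨P⟩ : Nonempty (Sylow 2 G) := inferInstance
  suffices h1 : HasNormalPComplement 2 G by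
    haveI := Coprime.isSolvable_of_not_two_dvd (Core.coprime_iff_not_dvd.1 (hasNormalPComplement_iff_card_pResidual.1 h1))
    haveI := (isPGroup_quotient_pResidual (p := 2) (G := G)).isNilpotent
    exact Group.isSolvable_of_ker_le_range (pResidual 2 G).subtype (QuotientGroup.mk' (pResidual 2 G)) (by simp)
  by_cases h3 : 3 ∣ Nat.card G
  · by_contra h4
    have h5 : Nat.card (P : Subgroup G) = 2 ^ 1 := by
      rw [P.card_eq_multiplicity]
      congr 1
      have h6 := (Nat.prime_two.dvd_iff_one_le_factorization Nat.card_pos.ne').1 h2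
      by_contra h7
      have := (Nat.prime_two.pow_dvd_iff_le_factorization Nat.card_pos.ne').2 (show 2 ≤ (Nat.card G).factorization 2 by omega)
      omega
    obtain ⟨q, i, hq, -, -, h6, h7, h8⟩ := exists_prime_dvd_pow_sub_one P h5 h4
    obtain rfl : i = 1 := by omega
    exact hq.one_lt.ne' (Nat.dvd_one.1 h8)
  by_cases h4 : ∃ q : ℕ, q.Prime ∧ q ∣ Nat.card G ∧ 2 < q
  · obtain ⟨h5, h6⟩ := h 2 Nat.prime_two h2 h4 P
    refine S3969.result 2 P h5 (Nat.Coprime.coprime_dvd_right (Finset.prod_dvd_prod_of_subset _ _ _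
      (Finset.Icc_subset_Icc_right h6)) ?_)
    exact ((Nat.Prime.coprime_iff_not_dvd Nat.prime_three).2 h3).symm
  · exact hasNormalPComplement_of_isPGroup (IsPGroup.of_card (Nat.eq_prime_pow_of_unique_prime_dvd Nat.card_pos.ne'
      fun hq hd => by by_contra e; exact h4 ⟨_, hq, hd, lt_of_le_of_ne hq.two_le (Ne.symm e)⟩))

end Cfsg.Agent.S3970
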