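import Cfsg.Statements.S3971
import Cfsg.Agent.Lib.BG.Hall
import Cfsg.Agent.Lib.FGS.CycSylow

set_option autoImplicit false
open Cfsg

namespace Cfsg.Agent.S3971

/-- Let `G` be a finite group of order `2 ^ a * n` with `n` odd and not divisible by `3`, and suppose `G` has an element of order `2 ^ (a - 1)` (so a Sylow `2`-subgroup has a cyclic subgroup of index at most `2`). Then `G` has a normal subgroup of order `n`. -/
theorem result {G : Type*} [Group G] [Finite G] (a n : ℕ) (hG : Nat.card G = 2 ^ a * n) (hn : Odd n) (h3 : ¬ 3 ∣ n) (hx : ∃ x : G, orderOf x = 2 ^ (a - 1)) : ∃ N : Subgroup G, N.Normal ∧ Nat.card N = n := by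
  open Subgroup Cfsg.Lib Cfsg.Lib.BG Cfsg.Lib.Transfer in
  open Cfsg.Lib.FGS Cfsg.Lib.PGroup in
  obtain ⟨x, hx⟩ := hx
  obtain ⟨P, hP⟩ := exists_sylow_mem (hx ▸ pow_orderOf_eq_one x)
  have hPc : Nat.card (P : Subgroup G) = 2 ^ a := by
    rw [P.card_eq_multiplicity, hG, Nat.factorization_mul (by positivity) hn.pos.ne', Nat.Prime.factorization_pow Nat.prime_two]
    simp [Nat.factorization_eq_zero_of_not_dvd hn.not_two_dvd_nat]
  have h1 : (zpowers x).relIndex P ≤ 2 := by
    have := BG.card_mul_relIndex (zpowers_le.2 hP)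
    rw [Nat.card_zpowers, hx, hPc] at this
    have h2 : 2 ^ a ≤ 2 ^ (a - 1) * 2 := by rw [← pow_succ]; exact Nat.pow_le_pow_right two_pos (by omega)
    exact Nat.le_of_mul_le_mul_left (this.trans_le h2) (by positivity)
  obtain ⟨N, hN, h⟩ := (hasNormalPComplement_iff_sylow P).1 (hasNormalPComplement_of_fully_normalized P fun T hT _ _ g hg hc => by
    have hT2 := P.isPGroup'.to_le hT
    refine mem_cent_of_coprime_prod (d := 2) hT2 ?_ hg hc ?_
    · obtain ⟨y, hy⟩ := (Subgroup.isCyclic_iff_exists_zpowers_eq_top _).1 (Subgroup.isCyclic_of_le (inf_le_left (a := zpowers x) (b := T)))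
      have hyT : y ∈ T := (hy.le (mem_zpowers y)).2
      have h2 : (zpowers y).relIndex T ≤ 2 := by
        rw [hy, inf_relIndex_right]; exact (relIndex_le_of_le_right hT index_ne_zero_of_finite).trans h1
      have h3 : ((frattini T).map T.subtype).relIndex (zpowers y) ≤ 2 := by
        by_cases h4 : y ∈ (frattini T).map T.subtype
        · rw [relIndex_eq_one.2 (zpowers_le.2 h4)]; omega
        · have hn : y ∈ normalizer (((frattini T).map T.subtype : Subgroup G) : Set G) :=
            normalizer_le_normalizer_map_subtype _ (le_normalizer hyT)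
          rw [← PGroup.relIndex_sup_of_le_normalizer (zpowers_le.2 hn),
            relIndex_sup_zpowers hn h4 (pow_mem_map_subtype_frattini hT2 hyT)]
      calc _ = ((frattini T).map T.subtype).relIndex T := by
            rw [relIndex, subgroupOf, comap_map_eq_self_of_injective T.subtype_injective]
        _ ≤ (((frattini T).map T.subtype) ⊓ zpowers y).relIndex T := relIndex_le_of_le_left inf_le_left index_ne_zero_of_finite
        _ = _ := (relIndex_mul_relIndex _ _ _ inf_le_right (zpowers_le.2 hyT)).symm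
        _ ≤ 2 * 2 := by rw [inf_relIndex_right]; exact Nat.mul_le_mul h3 h2
    · refine Nat.Coprime.coprime_dvd_left (orderOf_dvd_natCard g) ?_
      rw [hG]
      exact Nat.Coprime.mul_left (Nat.Coprime.pow_left _ (by decide)) ((Nat.Prime.coprime_iff_not_dvd Nat.prime_three).2 h3).symm)
  refine ⟨N, hN, Nat.eq_of_mul_eq_mul_right (show 0 < 2 ^ a by positivity) ?_⟩
  rw [← hPc, h.card_mul_card, hG, hPc, mul_comm]

end Cfsg.Agent.S3971
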