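import Cfsg.Statements.S3973
import Cfsg.Agent.Lib.Schur.Hopf

set_option autoImplicit false
open Cfsg

namespace Cfsg.Agent.S3973

section
open Cfsg.Lib.Schur Subgroup
open scoped commutatorElement IsMulCommutative

theorem rank_le_finrank {L A : Type*} [AddCommGroup L] [Module.Free ℤ L] [Module.Finite ℤ L]
    [CommGroup A] [Finite A] (f : L →+ Additive A) (hf : Function.Surjective f) :
    Group.rank A ≤ Module.finrank ℤ L := by
  classical
  let b := Module.finBasis ℤ L
  refine (Group.rank_le (S := Finset.univ.image fun i => (f (b i)).toMul) ?_).trans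
    (Finset.card_image_le.trans (by simp))
  rw [eq_top_iff]
  rintro a -
  obtain ⟨x, hx⟩ := hf (Additive.ofMul a)
  have ha : a = (f x).toMul := by rw [hx]; rfl
  rw [ha, ← b.sum_repr x, map_sum, toMul_sum]
  refine prod_mem fun i _ => ?_
  rw [map_zsmul, toMul_zsmul]
  exact zpow_mem (subset_closure (by simp)) _

end

/-- If a finite group is presented by `n` generators and a finite set of `r` relators, then its Schur multiplier can be generated by `r - n` elements. In particular a finite group with a presentation having as many relators as generators has trivial Schur multiplier. -/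
theorem result (n : ℕ) (rels : Finset (FreeGroup (Fin n))) [Finite (PresentedGroup (rels : Set (FreeGroup (Fin n))))] {A : Type*} [CommGroup A] [Finite A] (hA : Cfsg.HasSchurMultiplier (PresentedGroup (rels : Set (FreeGroup (Fin n)))) A) : Group.rank A ≤ rels.card - n := by
  open Cfsg.Lib.Schur Subgroup in
  open scoped commutatorElement IsMulCommutative in
  classical
  set φ := PresentedGroup.mk (rels : Set (FreeGroup (Fin n))) with hφ
  have hfree := isFreeCentral_freeExtMap φ (PresentedGroup.mk_surjective _)
  obtain ⟨e⟩ := hfree.nonempty_equiv_of_hasSchurMultiplier hA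
  set π := freeExtMap φ with hπ
  have := isMulCommutative_of_le_center hfree.central
  let gen : rels → π.ker := fun r => ⟨(r.1 : _ ⧸ relComm φ), PresentedGroup.one_of_mem r.2⟩
  let g : (rels → ℤ) →ₗ[ℤ] Additive π.ker :=
    Fintype.linearCombination ℤ fun r => Additive.ofMul (gen r)
  have hg : Function.Surjective g := by
    intro k
    let H : Subgroup (_ ⧸ relComm φ) :=
      (g.range.toAddSubgroup.toSubgroup').map π.ker.subtype
    have hH : H.Normal := normal_of_le_center ((map_subtype_le _).trans hfree.central)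
    have h1 : normalClosure (rels : Set (FreeGroup (Fin n))) ≤ H.comap (QuotientGroup.mk' _) := by
      refine normalClosure_le_normal fun r hr => ?_
      refine ⟨gen ⟨r, hr⟩, ⟨Pi.single ⟨r, hr⟩ 1, ?_⟩, rfl⟩
      simp only [g, Fintype.linearCombination_apply_single, one_smul]
      rfl
    obtain ⟨x, hx⟩ := QuotientGroup.mk_surjective (k.toMul : _ ⧸ relComm φ)
    have h2 : φ x = 1 := by
      have := k.toMul.2
      rwa [← hx] at this
    obtain ⟨y, ⟨v, hv⟩, hy⟩ := h1 (PresentedGroup.mk_eq_one_iff.mp h2)
    refine ⟨v, hv.trans ?_⟩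
    apply Additive.toMul.injective
    exact Subtype.ext (hy.trans hx)
  let ab : FreeGroup (Fin n) →* Multiplicative (Fin n → ℤ) :=
    FreeGroup.lift fun i => Multiplicative.ofAdd (Pi.single i 1)
  have hab : Function.Surjective ab := by
    intro v
    have h1 : v = ∏ i, (ab (FreeGroup.of i)) ^ (v.toAdd i) := by
      apply Multiplicative.toAdd.injective
      simp only [ab, FreeGroup.lift_apply_of, toAdd_prod, toAdd_zpow, toAdd_ofAdd]
      ext j
      simp [Finset.sum_apply, Pi.single_apply]
    rw [h1]
    exact prod_mem (S := ab.range) fun i _ => zpow_mem (MonoidHom.mem_range.mpr ⟨_, rfl⟩) _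
  have hrel : relComm φ ≤ ab.ker :=
    (commutator_mono le_top le_rfl).trans (Abelianization.commutator_subset_ker ab)
  let ab' : (_ ⧸ relComm φ) →* Multiplicative (Fin n → ℤ) := QuotientGroup.lift _ ab hrel
  let h : Additive π.ker →ₗ[ℤ] (Fin n → ℤ) :=
    (MonoidHom.toAdditiveLeft (ab'.comp π.ker.subtype)).toIntLinearMap
  let N := Nat.card (PresentedGroup (rels : Set (FreeGroup (Fin n))))
  have hN : (N : ℤ) ≠ 0 := Int.natCast_ne_zero.mpr Nat.card_pos.ne'
  have hrange : ∀ v : Fin n → ℤ, (N : ℤ) • v ∈ (h ∘ₗ g).range := fun v => by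
    obtain ⟨x, hx⟩ := hab (Multiplicative.ofAdd v)
    have h1 : ((x ^ N : FreeGroup (Fin n)) : _ ⧸ relComm φ) ∈ π.ker := by
      show φ (x ^ N) = 1
      rw [map_pow, pow_card_eq_one']
    obtain ⟨w, hw⟩ := hg (Additive.ofMul ⟨_, h1⟩)
    refine ⟨w, ?_⟩
    rw [LinearMap.comp_apply, hw]
    show (ab (x ^ N)).toAdd = _
    rw [map_pow, hx, natCast_zsmul]
    rfl
  have h1 : n ≤ Module.finrank ℤ (h ∘ₗ g).range := by
    have := LinearMap.finrank_le_finrank_of_injective
      (f := ((N : ℤ) • (LinearMap.id : (Fin n → ℤ) →ₗ[ℤ] _)).codRestrict _ hrange)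
      fun v w hvw => smul_right_injective _ hN (congrArg Subtype.val hvw)
    simpa using this
  have h2 := Submodule.finrank_quotient_add_finrank (h ∘ₗ g).ker
  rw [(h ∘ₗ g).quotKerEquivRange.finrank_eq, Module.finrank_fintype_fun_eq_card, Fintype.card_coe] at h2
  let M : Submodule ℤ (Additive π.ker) :=
    (((hopf π).subgroupOf π.ker).toAddSubgroup).toIntSubmodule
  let L : Submodule ℤ (rels → ℤ) := M.comap g
  have hL : L ≤ (h ∘ₗ g).ker := fun v hv => by
    have h3 : ((g v).toMul : _ ⧸ relComm φ) ∈ hopf π := hv
    have h4 := Abelianization.commutator_subset_ker ab' h3.2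
    exact congrArg Multiplicative.toAdd h4
  have h3 := Submodule.finrank_mono hL
  let f : L →+ Additive A :=
    { toFun := fun v => Additive.ofMul (e ⟨((g v).toMul : _ ⧸ relComm φ), v.2⟩)
      map_zero' := by
        rw [ofMul_eq_zero, map_eq_one_iff _ e.injective]
        apply Subtype.ext
        simp
      map_add' := fun v w => by
        rw [← ofMul_mul, ← map_mul]
        congr 2
        apply Subtype.ext
        simp }
  have hf : Function.Surjective f := fun a => by
    obtain ⟨x, hx⟩ := e.surjective a.toMul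
    obtain ⟨v, hv⟩ := hg (Additive.ofMul ⟨x, hopf_le_ker _ x.2⟩)
    refine ⟨⟨v, ?_⟩, ?_⟩
    · show ((g v).toMul : _ ⧸ relComm φ) ∈ hopf π
      rw [hv]; exact x.2
    · show Additive.ofMul (e ⟨((g v).toMul : _ ⧸ relComm φ), _⟩) = a
      simp only [hv]
      exact congrArg Additive.ofMul hx
  have h4 := rank_le_finrank f hf
  omega

end Cfsg.Agent.S3973
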