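import Cfsg.Statements.S3974
import Cfsg.Agent.Lib.Schur.Hopf

set_option autoImplicit false
universe u v
open Cfsg

namespace Cfsg.Agent.S3974

open Subgroup Cfsg.Lib.Schur in
theorem bij {Q Δ Γ A : Type*} [Group Q] [Group Δ] [Group Γ] [Finite Γ] [CommGroup A]
    (hA : HasSchurMultiplier Q A) {ξ : Δ →* Q} (hs : Function.Surjective ξ) (hξ : ξ.ker ≤ center Δ)
    {σ : Γ →* Q} (hσ : IsStemExtension σ) (e : σ.ker ≃* A) {p : Δ →* Γ} (hp : σ.comp p = ξ)
    (H : Subgroup Δ) (h1 : Function.Surjective (ξ.comp H.subtype))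
    (h2 : ∀ x ∈ H, x ∈ ξ.ker → x ∈ commutator Δ) : Function.Bijective (p.comp H.subtype) := by
  refine ⟨?_, surjective_of_stem h1 hσ (by rw [← MonoidHom.comp_assoc, hp])⟩
  have := finite_of_hasSchurMultiplier hA
  obtain ⟨f, hf⟩ := exists_surjective_hopf hA hs hξ
  have : Finite (hopf ξ) := Finite.of_surjective f hf
  have h3 := map_ker_inf_commutator hs hσ.2.1 hp
  rw [inf_eq_left.2 hσ.2.2] at h3
  let g : hopf ξ →* σ.ker := (p.comp (hopf ξ).subtype).codRestrict _ fun x => h3 ▸ mem_map_of_mem p x.2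
  have hg : Function.Surjective g := fun y => by
    obtain ⟨x, hx, h⟩ := (h3.ge y.2 : (y : Γ) ∈ (ξ.ker ⊓ commutator Δ).map p)
    exact ⟨⟨x, hx⟩, Subtype.ext h⟩
  have hgi : Function.Injective g := by
    refine ((Nat.bijective_iff_surjective_and_card g).2 ⟨hg, le_antisymm ?_ ?_⟩).1
    · rw [Nat.card_congr e.toEquiv]; exact Nat.card_le_card_of_surjective f hf
    · exact Nat.card_le_card_of_surjective g hg
  rw [injective_iff_map_eq_one]
  intro x hx
  have hx1 : p x = 1 := hx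
  have hx2 : (x : Δ) ∈ ξ.ker := by rw [MonoidHom.mem_ker, ← hp, MonoidHom.comp_apply, hx1, map_one]
  have := (injective_iff_map_eq_one g).1 hgi ⟨x, hx2, h2 x x.2 hx2⟩ (Subtype.ext hx1)
  exact Subtype.ext (congrArg (fun y : hopf ξ => (y : Δ)) this)

open Subgroup Cfsg.Lib.Schur in
theorem uniq {Q Γ₁ Γ₂ A : Type*} [Group Q] [Finite Q] [Group Γ₁] [Finite Γ₁] [Group Γ₂] [Finite Γ₂]
    [CommGroup A] (hA : HasSchurMultiplier Q A)
    (hc : Nat.Coprime (Nat.card (Abelianization Q)) (Nat.card A))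
    {σ₁ : Γ₁ →* Q} {σ₂ : Γ₂ →* Q} (h₁ : IsStemExtension σ₁) (h₂ : IsStemExtension σ₂)
    (e₁ : σ₁.ker ≃* A) (e₂ : σ₂.ker ≃* A) : ∃ e : Γ₁ ≃* Γ₂, σ₂.comp e.toMonoidHom = σ₁ := by
  let Δ := (σ₁.comp (MonoidHom.fst Γ₁ Γ₂)).eqLocus (σ₂.comp (MonoidHom.snd Γ₁ Γ₂))
  let p₁ : Δ →* Γ₁ := (MonoidHom.fst Γ₁ Γ₂).comp Δ.subtype
  let p₂ : Δ →* Γ₂ := (MonoidHom.snd Γ₁ Γ₂).comp Δ.subtype
  let ξ : Δ →* Q := σ₁.comp p₁
  have hp₂ : σ₂.comp p₂ = ξ := MonoidHom.ext fun x => x.2.symm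
  have hs : Function.Surjective ξ := fun q => by
    obtain ⟨a, ha⟩ := h₁.1 q
    obtain ⟨b, hb⟩ := h₂.1 q
    exact ⟨⟨(a, b), ha.trans hb.symm⟩, ha⟩
  have hk : ∀ x ∈ ξ.ker, x.1.1 ∈ σ₁.ker ∧ x.1.2 ∈ σ₂.ker := fun x hx =>
    ⟨hx, x.2.symm.trans hx⟩
  have hξ : ξ.ker ≤ center Δ := fun x hx => mem_center_iff.2 fun y => Subtype.ext (Prod.ext
    (mem_center_iff.1 (h₁.2.1 (hk x hx).1) _) (mem_center_iff.1 (h₂.2.1 (hk x hx).2) _))
  set m := Nat.card (Abelianization Q)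
  set N := Nat.card A
  have hN : ∀ x ∈ ξ.ker, x ^ N = 1 := fun x hx => by
    refine Subtype.ext (Prod.ext ?_ ?_)
    · have := pow_card_eq_one' (x := (⟨_, (hk x hx).1⟩ : σ₁.ker))
      rw [Nat.card_congr e₁.toEquiv] at this
      exact congrArg Subtype.val this
    · have := pow_card_eq_one' (x := (⟨_, (hk x hx).2⟩ : σ₂.ker))
      rw [Nat.card_congr e₂.toEquiv] at this
      exact congrArg Subtype.val this
  let H : Subgroup Δ := ((powMonoidHom m).comp (Abelianization.of : Δ →* _)).ker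
  have hH : ∀ x, x ∈ H ↔ x ^ m ∈ commutator Δ := fun x => by
    rw [← Abelianization.ker_of, MonoidHom.mem_ker, MonoidHom.mem_ker, map_pow]; rfl
  have hm : ∀ d : Δ, ∃ c ∈ commutator Δ, ∃ k ∈ ξ.ker, d ^ m = c * k := fun d => by
    have h1 : ξ (d ^ m) ∈ commutator Q := by
      rw [← Abelianization.ker_of, MonoidHom.mem_ker, map_pow, map_pow]; exact pow_card_eq_one'
    rw [← map_commutator_of_central (ξ := MonoidHom.id Q) hs (by simp) (MonoidHom.id_comp _)] at h1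
    obtain ⟨c, hc, h⟩ := h1
    exact ⟨c, hc, c⁻¹ * d ^ m, by rw [MonoidHom.mem_ker, map_mul, map_inv, h, inv_mul_cancel], by simp⟩
  have h1 : Function.Surjective (ξ.comp H.subtype) := fun q => by
    obtain ⟨d, rfl⟩ := hs q
    obtain ⟨c, hc', k, hk', h⟩ := hm d
    have hd : d ^ N ∈ H := by
      rw [hH, ← pow_mul, mul_comm, pow_mul, h, (Commute.mul_pow (mem_center_iff.1 (hξ hk') c)),
        hN k hk', mul_one]
      exact pow_mem hc' _
    have hcH : c ∈ H := (hH c).2 (pow_mem hc' _)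
    have hr : ξ d ^ N ∈ H.map ξ := map_pow ξ d N ▸ mem_map_of_mem ξ hd
    have hr2 : ξ d ^ m ∈ H.map ξ := by
      rw [← map_pow, h, map_mul, MonoidHom.mem_ker.1 hk', mul_one]; exact mem_map_of_mem ξ hcH
    have h5 : ξ d ∈ H.map ξ := by
      have h6 : ξ d = (ξ d ^ m) ^ Nat.gcdA m N * (ξ d ^ N) ^ Nat.gcdB m N := by
        rw [← zpow_natCast, ← zpow_natCast, ← zpow_mul, ← zpow_mul, ← zpow_add, ← Nat.gcd_eq_gcd_ab,
          hc.gcd_eq_one]; simp
      rw [h6]; exact mul_mem (zpow_mem hr2 _) (zpow_mem hr _)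
    obtain ⟨x, hx, h⟩ := h5
    exact ⟨⟨x, hx⟩, h⟩
  have h2 : ∀ x ∈ H, x ∈ ξ.ker → x ∈ commutator Δ := fun x hx hx' => by
    have h6 : x = (x ^ m) ^ Nat.gcdA m N * (x ^ N) ^ Nat.gcdB m N := by
      rw [← zpow_natCast, ← zpow_natCast, ← zpow_mul, ← zpow_mul, ← zpow_add, ← Nat.gcd_eq_gcd_ab,
        hc.gcd_eq_one]; simp
    rw [h6, hN x hx', one_zpow, mul_one]
    exact zpow_mem ((hH x).1 hx) _
  let f₁ := MulEquiv.ofBijective _ (bij hA hs hξ h₁ e₁ (p := p₁) rfl H h1 h2)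
  let f₂ := MulEquiv.ofBijective _ (bij hA hs hξ h₂ e₂ hp₂ H h1 h2)
  refine ⟨f₁.symm.trans f₂, MonoidHom.ext fun g => ?_⟩
  obtain ⟨x, rfl⟩ := f₁.surjective g
  simp only [MulEquiv.toMonoidHom_eq_coe, MonoidHom.coe_comp, MonoidHom.coe_coe, MulEquiv.coe_trans,
    Function.comp_apply, MulEquiv.symm_apply_apply]
  exact x.1.2.symm

open Subgroup Cfsg.Lib.Schur Multiplicative in
theorem twist {Q Γ : Type u} [Group Q] [Finite Q] [Group Γ] {σ : Γ →* Q} (hσ : IsStemExtension σ)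
    {n : ℕ} (hn : n ≠ 0) (f : Γ →* Multiplicative (ZMod n)) (hf : σ.ker ≤ f.ker) [Finite σ.ker]
    {g : Γ} (hg : f g = ofAdd 1) (hgn : g ^ n ∈ commutator Γ) {a : Γ} (ha : a ∈ σ.ker)
    (H : ∀ (Γ' : Type u) [Group Γ'] [Finite Γ'] (σ' : Γ' →* Q), IsStemExtension σ' →
      Nonempty (σ'.ker ≃* σ.ker) → ∃ e : Γ ≃* Γ', σ'.comp e.toMonoidHom = σ) :
    ∃ b ∈ σ.ker, b ^ n = a := by
  let c : Multiplicative ℤ →* Multiplicative (ZMod n) := (Int.castAddHom (ZMod n)).toMultiplicative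
  let T := (f.comp (MonoidHom.fst Γ (Multiplicative ℤ))).eqLocus (c.comp (MonoidHom.snd _ _))
  let p : T →* Γ := (MonoidHom.fst _ _).comp T.subtype
  let s : T →* Multiplicative ℤ := (MonoidHom.snd _ _).comp T.subtype
  have hps : Function.Surjective p := fun x => by
    obtain ⟨t, ht⟩ := ZMod.intCast_surjective (f x).toAdd
    exact ⟨⟨(x, ofAdd t), congrArg ofAdd ht.symm⟩, rfl⟩
  have hpc : (σ.comp p).ker ≤ center T := fun x hx => mem_center_iff.2 fun y => Subtype.ext (Prod.ext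
    (mem_center_iff.1 (hσ.2.1 hx) _) (mul_comm _ _))
  let w : T := ⟨(a⁻¹, ofAdd (n : ℤ)), by
    change f a⁻¹ = ofAdd (((n : ℤ) : ZMod n))
    rw [hf (inv_mem ha)]; simp⟩
  have hw : zpowers w ≤ (σ.comp p).ker := zpowers_le_of_mem (inv_mem ha)
  have : (zpowers w).Normal := normal_of_le_center (hw.trans hpc)
  let σ' := QuotientGroup.lift (zpowers w) (σ.comp p) hw
  let j : σ.ker →* T := (σ.ker.subtype.prod 1).codRestrict T fun k => by
    change f k = c 1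
    rw [map_one]
    exact hf k.2
  let i : σ.ker →* σ'.ker := ((QuotientGroup.mk' _).comp j).codRestrict _ fun k => k.2
  have hi : Function.Bijective i := by
    constructor
    · rw [injective_iff_map_eq_one]
      intro k hk
      obtain ⟨t, ht⟩ := (QuotientGroup.eq_one_iff _).1 (congrArg Subtype.val hk)
      have h1 : t * (n : ℤ) = 0 := by simpa [s, j, w] using congrArg (fun x => toAdd (s x)) ht
      obtain rfl : t = 0 := (mul_eq_zero.1 h1).resolve_right (by exact_mod_cast hn)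
      exact Subtype.ext (by simpa [p, j] using (congrArg p ht).symm)
    · rintro ⟨x, hx⟩
      obtain ⟨x, rfl⟩ := QuotientGroup.mk_surjective x
      have hx' : p x ∈ σ.ker := hx
      have h1 : (((s x).toAdd : ℤ) : ZMod n) = 0 := congrArg toAdd (x.2.symm.trans (hf hx'))
      obtain ⟨t, ht⟩ := (ZMod.intCast_zmod_eq_zero_iff_dvd _ n).1 h1
      refine ⟨⟨p (x * w ^ (-t)), hw.trans' le_rfl |> fun _ => ?_⟩, Subtype.ext ?_⟩
      · rw [map_mul, map_zpow]; exact mul_mem hx' (zpow_mem (inv_mem ha) _)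
      · have h2 : j ⟨p (x * w ^ (-t)), by
            rw [map_mul, map_zpow]; exact mul_mem hx' (zpow_mem (inv_mem ha) _)⟩ = x * w ^ (-t) := by
          refine Subtype.ext (Prod.ext rfl ?_)
          change 1 = s (x * w ^ (-t))
          rw [map_mul, map_zpow]
          apply toAdd.injective
          simp [ht, s, w] at ht ⊢
          ring
        change ((j _ : T) : T ⧸ zpowers w) = x
        rw [h2, QuotientGroup.mk_mul, (QuotientGroup.eq_one_iff (w ^ (-t))).2 (zpow_mem (mem_zpowers w) _),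
          mul_one]
  have hcomm : ∀ x : T, p x ∈ commutator Γ → s x = 1 → x ∈ commutator T := fun x h1 h2 => by
    rw [← map_commutator_of_central (ξ := MonoidHom.id Γ) hps (by simp) (MonoidHom.id_comp _)] at h1
    obtain ⟨y, hy, h⟩ := h1
    have h3 : s y = 1 := Abelianization.commutator_subset_ker s hy
    rwa [← (Subtype.ext (Prod.ext h (h3.trans h2.symm)) : y = x)]
  have : Finite σ'.ker := Finite.of_surjective i hi.2
  have : Finite (T ⧸ zpowers w) := finite_of_finite_ker σ'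
  have hσ' : IsStemExtension σ' := by
    refine ⟨fun q => ?_, fun x hx => ?_, fun x hx => ?_⟩
    · obtain ⟨x, rfl⟩ := (hσ.1.comp hps) q
      exact ⟨x, rfl⟩
    · obtain ⟨x, rfl⟩ := QuotientGroup.mk_surjective x
      refine mem_center_iff.2 fun y => ?_
      obtain ⟨y, rfl⟩ := QuotientGroup.mk_surjective y
      rw [← QuotientGroup.mk_mul, ← QuotientGroup.mk_mul, mem_center_iff.1 (hpc hx)]
    · obtain ⟨k, hk⟩ := hi.2 ⟨x, hx⟩
      obtain rfl : ((j k : T) : T ⧸ zpowers w) = x := congrArg Subtype.val hk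
      rw [← map_commutator_of_central (ξ := MonoidHom.id _) (QuotientGroup.mk'_surjective _) (by simp)
        (MonoidHom.id_comp _)]
      exact mem_map_of_mem _ (hcomm (j k) (hσ.2.2 k.2) rfl)
  obtain ⟨e, he⟩ := H _ σ' hσ' ⟨(MulEquiv.ofBijective i hi).symm⟩
  have h1 : ∀ x ∈ commutator T, (x : T ⧸ zpowers w) = e (p x) := fun x hx =>
    eq_on_commutator_of_central (η := QuotientGroup.mk' _) (η' := e.toMonoidHom.comp p) hσ'.2.1
      (by rw [← MonoidHom.comp_assoc, he]; rfl) hx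
  let x : T := ⟨(g, ofAdd 1), by
    change f g = ofAdd (((1 : ℤ) : ZMod n))
    rw [hg]; simp⟩
  have h2 : (e g)⁻¹ * (x : T ⧸ zpowers w) ∈ σ'.ker := by
    rw [MonoidHom.mem_ker, map_mul, map_inv, inv_mul_eq_one]
    exact DFunLike.congr_fun he g
  obtain ⟨b, hb⟩ := hi.2 ⟨_, h2⟩
  have hb' : (x : T ⧸ zpowers w) = e g * (i b : T ⧸ zpowers w) := by rw [hb]; simp
  have h3 : x ^ n * w⁻¹ * (j ⟨a, ha⟩)⁻¹ ∈ commutator T := by
    apply hcomm
    · simpa [p, x, w, j] using hgn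
    · apply toAdd.injective
      simp [s, x, w, j]
  have h4 := h1 _ h3
  have h5 : p (x ^ n * w⁻¹ * (j ⟨a, ha⟩)⁻¹) = g ^ n := by simp [p, x, w, j]
  rw [h5, QuotientGroup.mk_mul, QuotientGroup.mk_mul,
    (QuotientGroup.eq_one_iff w⁻¹).2 (inv_mem (mem_zpowers w)), mul_one, QuotientGroup.mk_pow, hb',
    Commute.mul_pow (mem_center_iff.1 (hσ'.2.1 (i b).2) _), map_pow, mul_assoc, mul_eq_left,
    QuotientGroup.mk_inv, mul_inv_eq_one] at h4
  have h6 : i (b ^ n) = i ⟨a, ha⟩ := Subtype.ext (by rw [map_pow]; exact h4)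
  exact ⟨b, b.2, congrArg Subtype.val (hi.1 h6)⟩

/-- Let `Q` be a finite group with Schur multiplier `A`. Any two Schur covering groups of `Q` (finite stem extensions `σ₁ : Γ₁ →* Q`, `σ₂ : Γ₂ →* Q` with kernels isomorphic to `A`, `Γ₁, Γ₂` in the universe of `Q`) are isomorphic over `Q` — there is a group isomorphism `e : Γ₁ ≃* Γ₂` with `σ₂ ∘ e = σ₁` — if and only if the order of the commutator quotient of `Q` is coprime to the order of `A`. In particular a finite perfect group has a unique Schur covering group up to isomorphism over it. -/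
theorem result {Q : Type u} [Group Q] [Finite Q] {A : Type v} [CommGroup A] (hA : Cfsg.HasSchurMultiplier Q A) : (∀ (Γ₁ Γ₂ : Type u) [Group Γ₁] [Finite Γ₁] [Group Γ₂] [Finite Γ₂] (σ₁ : Γ₁ →* Q) (σ₂ : Γ₂ →* Q), Cfsg.IsStemExtension σ₁ → Cfsg.IsStemExtension σ₂ → Nonempty (σ₁.ker ≃* A) → Nonempty (σ₂.ker ≃* A) → ∃ e : Γ₁ ≃* Γ₂, σ₂.comp e.toMonoidHom = σ₁) ↔ Nat.Coprime (Nat.card (Abelianization Q)) (Nat.card A) := by
  refine ⟨fun H => ?_, fun hc Γ₁ Γ₂ _ _ _ _ σ₁ σ₂ h₁ h₂ ⟨e₁⟩ ⟨e₂⟩ => uniq hA hc h₁ h₂ e₁ e₂⟩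
  by_contra hc
  obtain ⟨p, hp, hp1, hp2⟩ := Nat.Prime.not_coprime_iff_dvd.1 hc
  have := Fact.mk hp
  obtain ⟨Γ, _, _, σ, hσ, ⟨e⟩⟩ := hA.1
  obtain ⟨ι, _, n, hn, ⟨φ⟩⟩ := CommGroup.equiv_prod_multiplicative_zmod_of_finite (Abelianization Q)
  rw [Nat.card_congr φ.toEquiv, Nat.card_pi] at hp1
  obtain ⟨i, -, hi⟩ := (Prime.dvd_finset_prod_iff hp.prime _).1 hp1
  rw [Nat.card_congr Multiplicative.toAdd, Nat.card_zmod] at hi
  classical
  let f : Γ →* Multiplicative (ZMod (n i)) :=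
    ((Pi.evalMonoidHom _ i).comp (φ.toMonoidHom.comp Abelianization.of)).comp σ
  obtain ⟨q, hq⟩ := QuotientGroup.mk_surjective (φ.symm (Pi.mulSingle i (Multiplicative.ofAdd 1)))
  obtain ⟨g, rfl⟩ := hσ.1 q
  have hq' : φ (Abelianization.of (σ g)) = Pi.mulSingle i (Multiplicative.ofAdd 1) := by
    rw [← φ.apply_symm_apply (Pi.mulSingle i _), ← hq]; rfl
  have hgn : g ^ n i ∈ commutator Γ := by
    have h1 : σ (g ^ n i) ∈ commutator Q := by
      rw [← Abelianization.ker_of, MonoidHom.mem_ker, ← map_eq_one_iff φ φ.injective, map_pow, map_pow,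
        map_pow, hq', ← Pi.mulSingle_pow, ← ofAdd_nsmul]
      simp
    rw [← Lib.Schur.map_commutator_of_central (ξ := MonoidHom.id Q) hσ.1 (by simp) rfl] at h1
    obtain ⟨c, hc, h⟩ := h1
    have h2 : c⁻¹ * g ^ n i ∈ σ.ker := by rw [MonoidHom.mem_ker, map_mul, map_inv, h, inv_mul_cancel]
    simpa using mul_mem hc (hσ.2.2 h2)
  have hsurj : Function.Surjective (fun k : σ.ker => k ^ p) := fun a => by
    obtain ⟨b, hb, h⟩ := twist hσ (n := n i) (by have := hn i; omega) f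
      (fun x hx => by simp [f, MonoidHom.mem_ker.1 hx]) (g := g) (by simp [f, hq']) hgn a.2
      fun Γ' _ _ σ' h' ⟨e'⟩ => H Γ Γ' σ σ' hσ h' ⟨e⟩ ⟨e'.trans e⟩
    obtain ⟨k, hk⟩ := hi
    exact ⟨⟨b ^ k, pow_mem hb _⟩, Subtype.ext (by simp [← h, hk, ← pow_mul, mul_comm])⟩
  obtain ⟨x, hx⟩ := exists_prime_orderOf_dvd_card' (G := σ.ker) p (by rwa [Nat.card_congr e.toEquiv])
  have h1 : x = 1 := Finite.injective_iff_surjective.2 hsurj (by simp [← hx])
  rw [h1, orderOf_one] at hx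
  exact hp.one_lt.ne hx

end Cfsg.Agent.S3974
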