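import Cfsg.Statements.S3976
import Cfsg.Agent.Lib.FGS.SubCount

set_option autoImplicit false
open Cfsg

namespace Cfsg.Agent.S3976

/-- Let `p` be a prime and `G` a group of order `p ^ m`. For every `s ≤ m` the number of normal subgroups of `G` of order `p ^ s` is congruent to `1` modulo `p`. -/
theorem result {G : Type*} [Group G] [Finite G] (p m s : ℕ) (hp : p.Prime) (hG : Nat.card G = p ^ m) (hs : s ≤ m) : Nat.card {H : Subgroup G // H.Normal ∧ Nat.card H = p ^ s} ≡ 1 [MOD p] := by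
  open Subgroup Cfsg.Lib.BG Cfsg.Lib.Transfer Cfsg.Lib.FGS in
  haveI := Fact.mk hp
  have hP : IsPGroup p (⊤ : Subgroup G) := IsPGroup.of_card (by rw [card_top, hG])
  have h1 := card_fs_modEq_fixed hP (Φ := fun A => A ≤ ⊤ ∧ Nat.card A = p ^ s)
    fun g _ A hA => ⟨le_top, (card_conj g A).trans hA.2⟩
  have h2 := nsub_modEq_one (S := (⊤ : Subgroup G)) (by rw [card_top, hG]) hs
  rw [← card_fs, ← fs_congr (P := fun A => (A ≤ ⊤ ∧ Nat.card A = p ^ s) ∧ ⊤ ≤ 𝐍(A)) fun A => by
    rw [top_le_iff, normalizer_eq_top_iff]; tauto]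
  exact h1.symm.trans h2

end Cfsg.Agent.S3976
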