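import Cfsg.Statements.S3977
import Cfsg.Agent.Lib.BG.Hall
import Cfsg.Agent.Lib.FGS.Kulakoff

set_option autoImplicit false
open Cfsg

namespace Cfsg.Agent.S3977

/-- Let `p` be a prime and `G` a group of order `p ^ m` which has exactly one subgroup of order `p ^ s`, where `1 ≤ s < m`, and where `s ≥ 2` if `p = 2`. Then `G` is cyclic. (For `p = 2` and `s = 1` the generalized quaternion groups also occur; that case is the classical criterion for a unique involution.) -/
theorem result {G : Type*} [Group G] [Finite G] (p m s : ℕ) (hp : p.Prime) (hG : Nat.card G = p ^ m) (hs : 1 ≤ s) (hsm : s < m) (h2 : p ≠ 2 ∨ 2 ≤ s) (huniq : ∀ H K : Subgroup G, Nat.card H = p ^ s → Nat.card K = p ^ s → H = K) : IsCyclic G := by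
  open Subgroup Cfsg.Lib Cfsg.Lib.BG Cfsg.Lib.Transfer in
  open Cfsg.Lib.FGS in
  haveI := Fact.mk hp
  by_contra hc
  have hT := card_top.trans hG
  by_cases hm : IsMC p (⊤ : Subgroup G)
  · obtain ⟨rfl, a, b, n, ε, δ, -, h⟩ := hm
    have h1 := h.card_eq
    rw [hT, Nat.pow_right_inj one_lt_two] at h1
    obtain ⟨j, hj, e⟩ := (Nat.dvd_prime_pow hp).1 (show orderOf b ∣ 2 ^ 2 from
      orderOf_dvd_of_pow_eq_one (by simpa using h.refl_pow_four 0))
    obtain ⟨K, hK, hbK⟩ := Sylow.exists_subgroup_card_pow_prime_le 2 (hG ▸ pow_dvd_pow 2 hsm.le) (zpowers b)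
      ((Nat.card_zpowers b).trans e) (hj.trans (h2.resolve_left fun e => e rfl))
    obtain ⟨L, hL⟩ := Sylow.exists_subgroup_card_pow_prime (G := zpowers a) 2 (n := s)
      (by rw [Nat.card_zpowers, h.ord]; exact pow_dvd_pow 2 (by omega))
    rw [huniq K _ hK ((Subgroup.card_subtype _ L).trans hL)] at hbK
    exact h.nmem (map_subtype_le L (hbK (mem_zpowers b)))
  have h1 := kulakoff hT (fun h => hc (topEquiv.isCyclic.1 h)) hm hs hsm
  obtain ⟨L, hL⟩ := Sylow.exists_subgroup_card_pow_prime (G := G) p (hG ▸ pow_dvd_pow p hsm.le)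
  rw [nsub, Finset.card_eq_one.2 ⟨L, Finset.eq_singleton_iff_unique_mem.2 ⟨mem_fs.2 ⟨le_top, hL⟩,
    fun K hK => huniq K L (mem_fs.1 hK).2 hL⟩⟩, Nat.cast_one, left_eq_add, ZMod.natCast_eq_zero_iff] at h1
  have := Nat.le_of_dvd hp.pos h1
  nlinarith [hp.one_lt]

end Cfsg.Agent.S3977
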