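import Cfsg.Statements.S3995
import Cfsg.Agent.Lib.FGS.Nse

set_option autoImplicit false
open Cfsg

namespace Cfsg.Agent.S3995

/-- Let G be a finite group such that the numbers of elements of each order that occurs in G (the numbers #{g : o(g) = m}, m ranging over the element orders of G) take exactly two values, 1 and some n ≠ 1. Then either G is a p-group of exponent p and order at least 3 for some prime p, or G is the quaternion group of order 8, or G is cyclic of order 4, or G ≅ Z₂ × P for a p-group P of exponent p with p an odd prime. -/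
theorem result {G : Type*} [Group G] [Finite G] (n : ℕ) (hn : n ≠ 1) (h : ((fun m : ℕ => Nat.card {g : G // orderOf g = m}) '' Set.range (orderOf : G → ℕ)) = {1, n}) :
    (∃ p : ℕ, p.Prime ∧ IsPGroup p G ∧ 3 ≤ Nat.card G ∧ Monoid.exponent G = p) ∨
      Nonempty (G ≃* QuaternionGroup 2) ∨ (IsCyclic G ∧ Nat.card G = 4) ∨
      (∃ (p : ℕ) (P : Type) (_ : Group P) (_ : Finite P), p.Prime ∧ p ≠ 2 ∧ IsPGroup p P ∧ Monoid.exponent P = p ∧
        Nonempty (G ≃* Multiplicative (ZMod 2) × P)) := by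
  open Subgroup Cfsg.Lib.BG Cfsg.Lib.FGS Cfsg.Lib.Spec Cfsg.Lib in
  have val : ∀ k, ns G k = 0 ∨ ns G k = 1 ∨ ns G k = n := fun k =>
    (ns_mem k).imp_right fun e => (show nse G = _ from h).le e
  obtain ⟨_, ⟨x, rfl⟩, hx⟩ := h.ge (show n ∈ ({1, n} : Set ℕ) from .inr rfl)
  replace hx : ns G (orderOf x) = n := hx
  have n0 : n ≠ 0 := fun e => ns_eq_zero.1 (hx.trans e) (orderOf_mem_sp x)
  have v : ∀ k, 2 < k → ns G k = 0 ∨ ns G k = n := fun k hk => by
    have := val k; have := Nat.even_iff.1 (even_ns (G := G) hk); omega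
  have ex : ∀ p : ℕ, p.Prime → p ^ 2 ∉ sp G → ∀ {P : Subgroup G}, IsPGroup p P → P ≠ ⊥ →
      Monoid.exponent P = p := fun p hp h2 P hP h0 => by
    have : Fact p.Prime := ⟨hp⟩
    have := (nontrivial_iff_ne_bot P).2 h0
    refine (Monoid.exponent_eq_prime_iff hp).2 fun g g1 => ?_
    obtain ⟨k, hk⟩ := IsPGroup.iff_orderOf.1 hP g
    obtain rfl | rfl | h3 : k = 0 ∨ k = 1 ∨ 2 ≤ k := by omega
    · exact (g1 (orderOf_eq_one_iff.1 hk)).elim
    · rw [hk, pow_one]
    · exact (h2 (mem_sp_of_dvd_orderOf (g : G) (by rw [orderOf_coe, hk]; exact pow_dvd_pow p h3))).elim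
  have ex' : ∀ p : ℕ, p.Prime → p ^ 2 ∉ sp G → IsPGroup p G → Monoid.exponent G = p := fun p hp h2 hP => by
    rw [← Monoid.exponent_eq_of_mulEquiv topEquiv]
    refine ex p hp h2 (hP.to_subgroup ⊤) fun e => hn ?_
    rw [← hx, show x = 1 from e.le (mem_top x), orderOf_one, ns_one]
  by_cases ho : ∃ p : ℕ, p.Prime ∧ p ∣ Nat.card G ∧ p ≠ 2
  · obtain ⟨p, hp, pG, p2⟩ := ho
    have : Fact p.Prime := ⟨hp⟩
    have p3 := lt_of_le_of_ne hp.two_le p2.symm
    have a1 := dvd_one_add_ns hp pG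
    have e1 := (v p p3).resolve_left (np_one p3 a1).2.2
    have uq : ∀ q : ℕ, q.Prime → q ∣ Nat.card G → q = 2 ∨ q = p := fun q hq qG => by
      by_contra! e
      have q3 := lt_of_le_of_ne hq.two_le e.1.symm
      have pq : p.Coprime q := (Nat.coprime_primes hp hq).2 e.2.symm
      have h1 := np_two p3 a1 (y := ns G (p * q)) (by
        rw [e1, ← (v q q3).resolve_left (np_one q3 (dvd_one_add_ns hq qG)).2.2]
        exact dvd_ns_add hp (hp.coprime_iff_not_dvd.1 pq) (pq.mul_dvd_of_dvd_of_dvd pG qG))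
      exact h1.2.2.2 (((v _ (by nlinarith)).resolve_left h1.2.2.1).trans e1.symm)
    have h2 : p ^ 2 ∉ sp G := ns_eq_zero.1 ((v _ (by nlinarith)).resolve_right fun e =>
      (np_one p3 a1).1 (e1 ▸ e ▸ dvd_ns_of_sq_dvd hp dvd_rfl))
    by_cases ev : 2 ∣ Nat.card G
    swap
    · have hP : IsPGroup p G := .of_card (Nat.eq_prime_pow_of_unique_prime_dvd Nat.card_pos.ne'
        fun {q} hq qG => (uq q hq qG).resolve_left fun e => ev (e ▸ qG))
      exact .inl ⟨p, hp, hP, p3.trans_le (Nat.le_of_dvd Nat.card_pos pG), ex' p hp h2 hP⟩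
    have e2 : ns G 2 = 1 := by
      have := dvd_one_add_ns Nat.prime_two ev
      have := val 2
      have := Nat.even_iff.1 (even_ns (G := G) p3)
      omega
    have h4 : ¬ 4 ∣ Nat.card G := fun h4 => by
      have p4 : p.Coprime 4 := ((Nat.coprime_primes hp Nat.prime_two).2 p2).pow_right 2
      have e4 : ns G 4 = n := by have := ns_four h4; have := val 4; omega
      have h1 := np_two p3 a1 (y := ns G (p * 4)) (by
        rw [e1, ← e4]
        exact dvd_ns_add hp (hp.coprime_iff_not_dvd.1 p4) (p4.mul_dvd_of_dvd_of_dvd pG h4))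
      exact h1.2.2.2 (((v _ (by omega)).resolve_left h1.2.2.1).trans e1.symm)
    obtain ⟨P⟩ : Nonempty (Sylow p G) := inferInstance
    have hi : (P : Subgroup G).index = 2 := by
      have hd := (P : Subgroup G).index_dvd_card
      have h5 := Nat.eq_prime_pow_of_unique_prime_dvd (P : Subgroup G).index_ne_zero_of_finite
        fun {q} hq h => (uq q hq (h.trans hd)).resolve_right fun e => P.not_dvd_index (e ▸ h)
      generalize (Nat.primeFactorsList _).length = k at h5
      obtain rfl | rfl | h3 : k = 0 ∨ k = 1 ∨ 2 ≤ k := by omega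
      · obtain ⟨j, hj⟩ := P.isPGroup'.exists_card_eq
        rw [← (P : Subgroup G).card_mul_index, h5, hj, pow_zero, mul_one] at ev
        exact (p2 ((Nat.prime_dvd_prime_iff_eq Nat.prime_two hp).1 (Nat.prime_two.dvd_of_dvd_pow ev)).symm).elim
      · exact h5
      · exact (h4 ((pow_dvd_pow 2 h3).trans (h5 ▸ hd))).elim
    obtain ⟨z, hz, uz⟩ := Nat.card_eq_one_iff_exists.1 e2 |>.imp fun z h => (⟨z.2, h⟩ : _ ∧ _)
    have cz : ∀ g : G, g * z * g⁻¹ = z := fun g =>
      congrArg Subtype.val (uz ⟨g * z * g⁻¹, ((MulAut.conj g).orderOf_eq _).trans hz⟩)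
    have c2 : Nat.card (zpowers (z : G)) = 2 := (Nat.card_zpowers _).trans hz
    have := normal_of_index_eq_two hi
    have hc : IsComplement' (zpowers (z : G)) (P : Subgroup G) :=
      isComplement'_of_coprime (by rw [c2, mul_comm, ← hi, card_mul_index]) (by
        obtain ⟨j, hj⟩ := P.isPGroup'.exists_card_eq
        rw [c2, hj]; exact ((Nat.coprime_primes Nat.prime_two hp).2 p2.symm).pow_right j)
    have cm : ∀ (a : zpowers (z : G)) (g : G), Commute (a : G) g := by
      rintro ⟨_, i, rfl⟩ g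
      exact (show Commute g z from mul_inv_eq_iff_eq_mul.1 (cz g)).symm.zpow_left i
    let f := (zpowers (z : G)).subtype.noncommCoprod (P : Subgroup G).subtype fun a b => cm a b
    have hf : Function.Bijective f := hc
    obtain ⟨Q, _, _, ⟨e⟩⟩ := exists_type0 (P : Subgroup G)
    refine .inr (.inr (.inr ⟨p, Q, _, inferInstance, hp, p2, P.isPGroup'.of_equiv e.symm, ?_,
      ⟨(MulEquiv.ofBijective f hf).symm.trans (MulEquiv.prodCongr
        (mulEquivOfPrimeCardEq (p := 2) c2 (by simp)) e.symm)⟩⟩))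
    rw [Monoid.exponent_eq_of_mulEquiv e]
    exact ex p hp h2 P.isPGroup' (P.ne_bot_of_dvd_card pG)
  push Not at ho
  have hc := Nat.eq_prime_pow_of_unique_prime_dvd Nat.card_pos.ne' fun {q} hq qG => ho q hq qG
  have hP : IsPGroup 2 G := .of_card hc
  obtain ⟨k, hk⟩ := IsPGroup.iff_orderOf.1 hP x
  have k0 : k ≠ 0 := by rintro rfl; exact hn (by rw [← hx, hk, pow_zero, ns_one])
  have ev : 2 ∣ Nat.card G := ((dvd_pow_self 2 k0).trans hk.symm.dvd).trans (orderOf_dvd_natCard x)
  have a2 := dvd_one_add_ns Nat.prime_two ev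
  by_cases e2 : ns G 2 = 1
  swap
  · have e3 : ns G 2 = n := by have := val 2; omega
    have h2 : 2 ^ 2 ∉ sp G := ns_eq_zero.1 (by
      have := v (2 ^ 2) (by decide); have := Nat.even_iff.1 (even_ns (G := G) (m := 2 ^ 2) (by decide)); omega)
    refine .inl ⟨2, Nat.prime_two, hP, ?_, ex' 2 Nat.prime_two h2 hP⟩
    have := sum_ns_card (G := G) two_ne_zero fun g => by
      rw [← ex' 2 Nat.prime_two h2 hP]; exact Monoid.pow_exponent_eq_one g
    rw [show Nat.divisors 2 = {1, 2} by decide, Finset.sum_pair (by decide), ns_one] at this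
    omega
  have k1 : k ≠ 1 := by rintro rfl; exact hn (by rw [← hx, hk, pow_one, e2])
  have h4 : 4 ∣ Nat.card G :=
    ((pow_dvd_pow 2 (by omega : 2 ≤ k)).trans hk.symm.dvd).trans (orderOf_dvd_natCard x)
  have h8 : 8 ∉ sp G := ns_eq_zero.1 (by
    have := ns_four h4
    have := v 4 (by decide)
    have := v 8 (by decide)
    have : 4 ∣ ns G 8 := totient_dvd_ns 8
    omega)
  obtain ⟨z, uz⟩ := Nat.card_eq_one_iff_exists.1 e2
  have hr : PRankLE 2 1 G := PGroup.pRankLE_one_of_unique_subgroup fun H K hH hK => by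
    have : ∀ H : Subgroup G, Nat.card H = 2 → zpowers (z : G) = H := fun H hH => by
      obtain ⟨t, ht⟩ := exists_prime_orderOf_dvd_card' (G := H) 2 hH.symm.dvd
      refine eq_of_le_of_card_ge (zpowers_le.2 ?_) (by rw [Nat.card_zpowers, z.2, hH])
      exact (congrArg Subtype.val (uz ⟨t, (orderOf_coe t).trans ht⟩)) ▸ t.2
    rw [← this H hH, this K hK]
  rcases PGroup.isCyclic_or_quaternion_of_pRankLE_one hP hr with hc' | ⟨-, m, ⟨e⟩⟩
  · refine .inr (.inr (.inl ⟨hc', ?_⟩))
    rw [mem_sp_of_isCyclic, hc] at h8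
    rw [hc] at h4 ⊢
    generalize (Nat.primeFactorsList _).length = j at h4 h8
    have := (Nat.pow_dvd_pow_iff_le_right (x := 2) (k := 2) one_lt_two).1 h4
    have : ¬ 3 ≤ j := fun h => h8 (pow_dvd_pow 2 h)
    obtain rfl : j = 2 := by omega
    rfl
  · obtain ⟨a, -, ha, -⟩ := PGroup.exists_generators_of_mulEquiv_quaternion e
    rcases m with _ | m
    · exact .inr (.inl ⟨e⟩)
    · exact (h8 (mem_sp_of_dvd_orderOf a (ha ▸ ⟨2 ^ m, by ring⟩))).elim

end Cfsg.Agent.S3995
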