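import Cfsg.Statements.S3996
import Cfsg.Agent.Lib.FGS.Nse

set_option autoImplicit false
open Cfsg

namespace Cfsg.Agent.S3996

/-- A finite group in which the numbers of elements of each order that occurs (the numbers #{g : o(g) = m}, m ranging over the element orders) take exactly three different values is solvable. -/
theorem result {G : Type*} [Group G] [Finite G] (h : (((fun m : ℕ => Nat.card {g : G // orderOf g = m}) '' Set.range (orderOf : G → ℕ))).ncard = 3) : Group.IsSolvable G := by
  obtain ⟨a, b, -, -, -, e⟩ := Cfsg.Lib.FGS.exists_two_vals h
  exact Cfsg.Lib.FGS.isSolvable_of_nse e.le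

end Cfsg.Agent.S3996
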