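import Cfsg.Statements.S3997
import Cfsg.Agent.Lib.FGS.Count

set_option autoImplicit false
open Cfsg

namespace Cfsg.Agent.S3997

/-- Let G and H be finite groups with the same order type: for every m they have the same number of elements of order m. If G is nilpotent then so is H. -/
theorem result {G H : Type*} [Group G] [Finite G] [Group H] [Finite H] (hT : (∀ m : ℕ, Nat.card {g : G // orderOf g = m} = Nat.card {h : H // orderOf h = m})) (hG : Group.IsNilpotent G) :
    Group.IsNilpotent H := by
  open Cfsg.Lib Cfsg.Lib.FGS Cfsg.Lib.Transfer Subgroup in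
  obtain ⟨e, he⟩ := exists_equiv_orderOf hT
  refine Core.isNilpotent_iff_sylow_normal.mpr fun p _ P => ?_
  obtain ⟨Q⟩ : Nonempty (Sylow p G) := inferInstance
  have hQ := Core.isNilpotent_iff_sylow_normal.mp hG p inferInstance Q
  have h1 : (P : Set H) ⊆ e '' (Q : Set G) := fun x hx => by
    obtain ⟨g, rfl⟩ := e.surjective x
    obtain ⟨k, hk⟩ := exists_pow_of_mem P.isPGroup' hx
    exact ⟨g, mem_sylow_of_mem_normalizer Q (k := k) (by
      rwa [← orderOf_dvd_iff_pow_eq_one, ← he, orderOf_dvd_iff_pow_eq_one]) (le_normalizer_of_normal (mem_top g)), rfl⟩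
  have h2 : (P : Set H) = e '' (Q : Set G) := by
    refine Set.eq_of_subset_of_ncard_le h1 (le_of_eq ?_)
    rw [Set.ncard_image_of_injective _ e.injective]
    have e1 := P.card_eq_multiplicity
    have e2 := Q.card_eq_multiplicity
    rw [Nat.card_congr e] at e2
    exact e2.trans e1.symm
  refine ⟨fun x hx g => ?_⟩
  obtain ⟨y, hy⟩ := e.surjective (g * x * g⁻¹)
  obtain ⟨k, hk⟩ := exists_pow_of_mem P.isPGroup' hx
  refine h2.ge ⟨y, mem_sylow_of_mem_normalizer Q (k := k) ?_ (le_normalizer_of_normal (mem_top y)), hy⟩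
  rw [← orderOf_dvd_iff_pow_eq_one, ← he, hy, orderOf_dvd_iff_pow_eq_one]
  exact conj_pow_eq_one hk

end Cfsg.Agent.S3997
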