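import Cfsg.Statements.S3998
import Cfsg.Agent.Lib.Solv.Super
import Cfsg.Agent.Lib.Hall.Basic
import Cfsg.Agent.Lib.FGS.Count

set_option autoImplicit false
open Cfsg

namespace Cfsg.Agent.S3998

open Subgroup Cfsg.Lib Cfsg.Lib.Core Cfsg.Lib.Hall

theorem down {P : ℕ → Prop} (N : ℕ) (h0 : P N) (h : ∀ t, P (t + 1) → P t) : ∀ t ≤ N, P t := by
  have : ∀ d t, t + d = N → P t := by
    intro d
    induction d with
    | zero => intro t ht; rw [show t = N by omega]; exact h0
    | succ d ih => intro t ht; exact h t (ih (t + 1) (by omega))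
  intro t ht
  exact this (N - t) t (by omega)

theorem hall_top {X : Type*} [Group X] [Finite X] {N : ℕ} (hN : Nat.card X < N) :
    IsPiHall {q | N ≤ q} (⊥ : Subgroup X) := by
  refine ⟨by rw [card_bot]; exact pi_one, fun p _ hp hd => ?_⟩
  rw [index_bot] at hd
  have := Nat.le_of_dvd Nat.card_pos hd
  simp only [Set.mem_setOf_eq] at hp
  omega

theorem hall_np {X : Type*} [Group X] {t : ℕ} (ht : ¬ t.Prime) {K : Subgroup X}
    (h : IsPiHall {q | t + 1 ≤ q} K) : IsPiHall {q | t ≤ q} K := by
  refine ⟨fun p hp hd => ?_, fun p hp hm => h.2 p hp ?_⟩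
  · have := h.1 p hp hd
    simp only [Set.mem_setOf_eq] at *
    omega
  · simp only [Set.mem_setOf_eq] at *
    have : t ≠ p := fun e => ht (e ▸ hp)
    omega

theorem hall_p {X : Type*} [Group X] [Finite X] {t : ℕ} [ht : Fact t.Prime] {K : Subgroup X}
    [K.Normal] (h : IsPiHall {q | t + 1 ≤ q} K) (P : Sylow t X) :
    IsPiHall {q | t ≤ q} (K ⊔ (P : Subgroup X)) := by
  refine ⟨fun p hp hd => ?_, fun p hp hm hd => ?_⟩
  · have h1 := relIndex_mul_relIndex ⊥ K (K ⊔ (P : Subgroup X)) bot_le le_sup_left
    rw [relIndex_bot_left, relIndex_bot_left, relIndex_sup_left] at h1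
    rw [← h1] at hd
    simp only [Set.mem_setOf_eq]
    rcases (Nat.Prime.dvd_mul hp).mp hd with h2 | h2
    · have := h.1 p hp h2
      simp only [Set.mem_setOf_eq] at this
      omega
    · have h3 := h2.trans (relIndex_dvd_card K (P : Subgroup X))
      rw [P.card_eq_multiplicity] at h3
      exact ((Nat.prime_dvd_prime_iff_eq hp ht.out).mp (hp.dvd_of_dvd_pow h3)).ge
  · simp only [Set.mem_setOf_eq] at hm
    rcases hm.eq_or_lt with rfl | hlt
    · exact P.not_dvd_index (hd.trans (index_dvd_of_le le_sup_right))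
    · exact h.2 p hp hlt (hd.trans (index_dvd_of_le le_sup_left))

theorem mem_iff {X : Type*} [Group X] [Finite X] {π : Set ℕ} {K : Subgroup X} [K.Normal]
    (h : IsPiHall π K) (x : X) : x ∈ K ↔ ∀ p : ℕ, p.Prime → p ∣ orderOf x → p ∈ π := by
  constructor
  · intro hx p hp hd
    exact h.1 p hp (hd.trans (K.orderOf_dvd_natCard hx))
  · intro hx
    rw [← QuotientGroup.eq_one_iff, ← orderOf_eq_one_iff]
    refine eq_one_of_pi_of_pi' (π := π) (pi_of_dvd (orderOf_map_dvd (QuotientGroup.mk' K) x) hx)
      (pi'_of_dvd (orderOf_dvd_natCard _) h.2)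

/-- Let G and H be finite groups with the same order type (for every m the same number of elements of order m). If G is supersolvable then H is solvable. -/
theorem result {G H : Type*} [Group G] [Finite G] [Group H] [Finite H] (hT : (∀ m : ℕ, Nat.card {g : G // orderOf g = m} = Nat.card {h : H // orderOf h = m})) (hG : Cfsg.IsSupersolvable G) :
    Group.IsSolvable H := by
  obtain ⟨e, he⟩ := FGS.exists_equiv_orderOf hT
  have hc : Nat.card G = Nat.card H := Nat.card_congr e
  have hG' : ∀ t ≤ Nat.card G + 1, ∃ K : Subgroup G, K.Normal ∧ IsPiHall {q | t ≤ q} K := by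
    refine down _ ⟨⊥, inferInstance, hall_top (by omega)⟩ ?_
    rintro t ⟨K, hK, h⟩
    by_cases ht : t.Prime
    · haveI := Fact.mk ht
      obtain ⟨P⟩ : Nonempty (Sylow t G) := inferInstance
      refine ⟨_, ?_, hall_p h P⟩
      have hs := QuotientGroup.mk'_surjective K
      have h1 := Solv.sylow_normal_of_isSupersolvable (Solv.isSupersolvable_quotient hG K)
        (p := t) (fun q hq hd => by
          by_contra hlt
          exact h.2 q hq (show t + 1 ≤ q by omega) hd) (P.mapSurjective hs)
      have h2 := h1.comap (QuotientGroup.mk' K)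
      rw [Sylow.coe_mapSurjective, comap_map_eq, QuotientGroup.ker_mk', sup_comm] at h2
      exact h2
    · exact ⟨K, hK, hall_np ht h⟩
  have hH' : ∀ t ≤ Nat.card G + 1, t ≤ Nat.card G + 1 → ∃ K : Subgroup H, K.Normal ∧
      IsPiHall {q | t ≤ q} K ∧ Group.IsSolvable K := by
    refine down _ (fun _ => ⟨⊥, inferInstance, hall_top (by omega), inferInstance⟩) ?_
    intro t ih hle
    by_cases hle' : t + 1 ≤ Nat.card G + 1
    swap
    · exact ⟨⊥, inferInstance, hall_top (by omega), inferInstance⟩
    obtain ⟨K, hK, h, hs⟩ := ih hle'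
    by_cases ht : t.Prime
    · haveI := Fact.mk ht
      obtain ⟨P⟩ : Nonempty (Sylow t H) := inferInstance
      have hL := hall_p h P
      set L := K ⊔ (P : Subgroup H) with hLd
      obtain ⟨N, hN, hNh⟩ := hG' t hle
      have hcard : Nat.card L = Nat.card N := by
        have e1 := L.card_mul_index
        have e2 := N.card_mul_index
        refine Nat.dvd_antisymm ?_ ?_
        · refine (coprime_of_pi hL.1 hNh.2).dvd_of_dvd_mul_right ?_
          rw [e2, hc]; exact L.card_subgroup_dvd_card
        · refine (coprime_of_pi hNh.1 hL.2).dvd_of_dvd_mul_right ?_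
          rw [e1, ← hc]; exact N.card_subgroup_dvd_card
      have hset : (L : Set H) = {x | ∀ p : ℕ, p.Prime → p ∣ orderOf x → t ≤ p} := by
        refine Set.eq_of_subset_of_ncard_le (fun x hx p hp hd =>
          hL.1 p hp (hd.trans (L.orderOf_dvd_natCard hx))) ?_
        have : {x : H | ∀ p : ℕ, p.Prime → p ∣ orderOf x → t ≤ p} = e '' (N : Set G) := by
          ext x
          obtain ⟨y, rfl⟩ := e.surjective x
          rw [e.injective.mem_set_image, SetLike.mem_coe, mem_iff hNh, Set.mem_setOf_eq, he]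
          rfl
        rw [this, Set.ncard_image_of_injective _ e.injective]
        exact hcard.ge
      refine ⟨L, ⟨fun x hx g => ?_⟩, hL, ?_⟩
      · rw [← SetLike.mem_coe, hset] at hx ⊢
        have : orderOf (g * x * g⁻¹) = orderOf x := (MulAut.conj g).orderOf_eq x
        simpa only [Set.mem_setOf_eq, this] using hx
      · haveI : Group.IsNilpotent (P : Subgroup H) := P.isPGroup'.isNilpotent
        rw [hLd, sup_comm]
        exact isSolvable_sup_of_normal inferInstance hs
    · exact ⟨K, hK, hall_np ht h, hs⟩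
  obtain ⟨K, -, h, hs⟩ := hH' 0 (by omega) (by omega)
  have : K = ⊤ := by
    rw [← index_eq_one]
    by_contra hne
    obtain ⟨p, hp, hd⟩ := Nat.exists_prime_and_dvd hne
    exact h.2 p hp (Nat.zero_le p) hd
  subst this
  exact Group.isSolvable_of_surjective (f := (⊤ : Subgroup H).subtype) (fun x => ⟨⟨x, trivial⟩, rfl⟩)

end Cfsg.Agent.S3998
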