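import Cfsg.Statements.S3999
import Cfsg.Agent.Lib.FGS.TwoFrob
import Cfsg.Agent.S0042

set_option autoImplicit false
open Cfsg

namespace Cfsg.Agent.S3999

open Subgroup Cfsg.Lib Cfsg.Lib.BG Cfsg.Lib.Transfer Cfsg.Lib.Frobenius

theorem ex15 {H : Type*} [Group H] [Finite H] (h : Fpf H) (hs : Group.IsSolvable H) (h3 : 3 ∣ Nat.card H)
    (h5 : 5 ∣ Nat.card H) : ∃ x : H, orderOf x = 15 := by
  obtain ⟨A, hA⟩ := Hall.exists (π := {3, 5}) (M := (⊤ : Subgroup H)) inferInstance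
  have hZ := h.isZGroup_of_odd (A := A) (by
    rw [← Nat.not_even_iff_odd, even_iff_two_dvd]
    intro h2
    have := hA.pi.mem Nat.prime_two h2
    simp at this)
  obtain ⟨X, hX, hXc⟩ := exists_card_eq_prime Nat.prime_three (hA.dvd_card Nat.prime_three (by simpa) (by simp))
  obtain ⟨Y, hY, hYc⟩ := exists_card_eq_prime Nat.prime_five (hA.dvd_card Nat.prime_five (by simpa) (by simp))
  have hc : X ≤ 𝐂(Y) := cent_of_norm_of_disjoint (hX.trans (h.le_norm_of_prime hZ hY (hYc ▸ Nat.prime_five)))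
    (hY.trans (h.le_norm_of_prime hZ hX (hXc ▸ Nat.prime_three))) (disjoint_of_coprime (by rw [hXc, hYc]; norm_num))
  obtain ⟨x, hx, rfl⟩ := cyclic_iff.1 (cyclic_of_prime (hXc ▸ Nat.prime_three : (Nat.card X).Prime))
  obtain ⟨y, hy, rfl⟩ := cyclic_iff.1 (cyclic_of_prime (hYc ▸ Nat.prime_five : (Nat.card Y).Prime))
  rw [Nat.card_zpowers] at hXc hYc
  refine ⟨y * x, ?_⟩
  rw [Commute.orderOf_mul_eq_mul_orderOf_of_coprime (hc hx y hy) (by rw [hXc, hYc]; norm_num), hXc, hYc]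

theorem perm5 : ∀ σ : Equiv.Perm (Fin 5), σ ^ 15 = 1 → σ ^ 3 = 1 ∨ σ ^ 5 = 1 := by decide +kernel

theorem no15 {H : Type*} [Group H] [Finite H] (h : Fpf H) (hs : ¬ Group.IsSolvable H) :
    3 ∣ Nat.card H ∧ 5 ∣ Nat.card H ∧ ∀ x : H, orderOf x ≠ 15 := by
  obtain ⟨J, M, f, -, -, ⟨e⟩, hk, -⟩ := h.nonsolvable_structure hs
  refine ⟨?_, ?_, fun x hx => ?_⟩
  · obtain ⟨j, -, hj, -⟩ := exists_not_cent_of_sl_two_five e (Or.inl rfl)
    exact hj ▸ orderOf_dvd_natCard j
  · obtain ⟨j, -, hj, -⟩ := exists_not_cent_of_sl_two_five e (Or.inr (Or.inr rfl))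
    exact hj ▸ orderOf_dvd_natCard j
  · rcases perm5 (f x) (by rw [← map_pow, ← hx, pow_orderOf_eq_one, map_one]) with h1 | h1
    · rw [← map_pow, ← MonoidHom.mem_ker, hk] at h1
      exact h.orderOf_ne_of_mem_cent e h1 (Or.inr (Or.inr rfl)) (by rw [orderOf_pow, hx]; rfl)
    · rw [← map_pow, ← MonoidHom.mem_ker, hk] at h1
      exact h.orderOf_ne_of_mem_cent e h1 (Or.inl rfl) (by rw [orderOf_pow, hx]; rfl)

theorem sol {F G : Type*} [Group F] [Finite F] [Group G] [Finite G] (e : F ≃ G)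
    (he : ∀ x, orderOf (e x) = orderOf x) {K C : Subgroup F} [K.Normal] (hC : IsFrobeniusComplement C)
    (hK : frobeniusKernel C = K) {H : Subgroup G} (hH : IsFrobeniusComplement H)
    (hc : Nat.card C = Nat.card H) (hs : Group.IsSolvable G) : Group.IsSolvable F := by
  obtain ⟨h1, -, -, h2, h3, -⟩ := FGS.frob_facts hC hK
  by_contra hns
  have hCs : ¬ Group.IsSolvable C := fun h => hns (by
    haveI : Group.IsSolvable (F ⧸ K) := Group.isSolvable_of_surjective
      (f := h1.symm.QuotientMulEquiv.symm.toMonoidHom) h1.symm.QuotientMulEquiv.symm.surjective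
    exact Group.isSolvable_of_ker_le_range K.subtype (QuotientGroup.mk' K) (by simp))
  obtain ⟨a, b, c⟩ := no15 (fpf_of_fc hC (MulEquiv.refl _)) hCs
  obtain ⟨x, hx⟩ := ex15 (fpf_of_fc hH (MulEquiv.refl _)) inferInstance (hc ▸ a) (hc ▸ b)
  have hy : orderOf (e.symm x) = 15 := by rw [← he, e.apply_symm_apply, Subgroup.orderOf_coe, hx]
  by_cases hm : e.symm x ∈ frobeniusKernel C
  · rw [hK] at hm
    have h4 : 3 ∣ Nat.card K := (show 3 ∣ orderOf (e.symm x) by rw [hy]; norm_num).trans (K.orderOf_dvd_natCard hm)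
    rw [h1.symm.index_eq_card] at h2
    exact absurd (Nat.eq_one_of_dvd_coprimes h2 h4 a) (by norm_num)
  · simp only [frobeniusKernel, Set.mem_ofPred_eq, not_or, not_forall, not_not] at hm
    obtain ⟨g, hg⟩ := hm.2
    rw [mem_pointwise_smul_iff_inv_smul_mem] at hg
    refine c ⟨_, hg⟩ ?_
    rw [← Subgroup.orderOf_coe, ← hy]
    exact MulEquiv.orderOf_eq (MulAut.conj g)⁻¹ _

/-- Let F be a finite Frobenius group (it has a Frobenius complement) and G a finite group with the same order type as F (for every m the same number of elements of order m). Then G is a Frobenius group; moreover G is solvable if and only if F is. -/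
theorem result {F G : Type*} [Group F] [Finite F] [Group G] [Finite G] (hF : (∃ C : Subgroup F, Cfsg.IsFrobeniusComplement C)) (hT : (∀ m : ℕ, Nat.card {g : F // orderOf g = m} = Nat.card {h : G // orderOf h = m})) :
    (∃ C : Subgroup G, Cfsg.IsFrobeniusComplement C) ∧ (Group.IsSolvable G ↔ Group.IsSolvable F) := by
  obtain ⟨C, hC⟩ := hF
  obtain ⟨K, hK, hKn, -⟩ := S0042.result C hC
  obtain ⟨h1, -, h0, h2, h3, h4⟩ := FGS.frob_facts hC hK.symm
  obtain ⟨e, he⟩ : ∃ e : F ≃ G, ∀ x, orderOf (e x) = orderOf x :=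
    ⟨Equiv.ofFiberEquiv (f := orderOf) (g := orderOf) fun m => (Finite.card_eq.1 (hT m)).some,
      fun x => Equiv.ofFiberEquiv_map _ x⟩
  have hcard : Nat.card F = Nat.card G := Nat.card_congr e
  have hKH : Hall {q | q ∣ Nat.card K} K ⊤ := Hall.of_coprime le_top (by rwa [relIndex_top_right])
  have hsyl : ∀ p : ℕ, p.Prime → p ∣ Nat.card K → ∃ S : Subgroup G, Syl p S ⊤ ∧ Nml S ⊤ := by
    intro p hp hd
    haveI : Fact p.Prime := ⟨hp⟩
    have hP : Syl p 𝐎({p}, K) ⊤ := Syl.of_Hall (nil_pcore_Hall h3 _) hKH hd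
    have hPn : (⊤ : Subgroup F) ≤ 𝐍(𝐎({p}, K)) := norm_pcore le_normalizer_of_normal _
    obtain ⟨S, hS⟩ := Syl.exists (p := p) (⊤ : Subgroup G)
    have hc : Nat.card S = Nat.card 𝐎({p}, K) := by
      obtain ⟨S₀, rfl⟩ := Syl.top_iff_sylow.1 hS
      obtain ⟨P₀, e0⟩ := Syl.top_iff_sylow.1 hP
      rw [← e0, Sylow.card_eq_multiplicity, Sylow.card_eq_multiplicity, hcard]
    have hSe : (S : Set G) = {x | PiElt {p} x} := by
      refine Set.eq_of_subset_of_ncard_le (fun x hx => hS.pi.elt hx) ?_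
      have : {x | PiElt {p} x} ⊆ e '' (𝐎({p}, K) : Set F) := fun x hx =>
        ⟨e.symm x, hP.mem_of_normal hPn (mem_top _) (by rw [PiElt, ← he, e.apply_symm_apply]; exact hx),
          e.apply_symm_apply x⟩
      refine (Set.ncard_le_ncard this).trans ?_
      rw [Set.ncard_image_of_injective _ e.injective]
      exact hc.ge
    refine ⟨S, hS, Nml.top_iff.2 ⟨fun x hx g => ?_⟩⟩
    rw [← SetLike.mem_coe, hSe] at hx ⊢
    exact PiElt.conj hx g
  have hL : Hall {q | q ∣ Nat.card K} 𝐎({q | q ∣ Nat.card K}, (⊤ : Subgroup G)) ⊤ := by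
    refine Hall.mk' le_top (pcore_pi _ _) (PiNat.compl_iff.2 fun q hq hπ hd => ?_)
    haveI : Fact q.Prime := ⟨hq⟩
    obtain ⟨S, hS, hn⟩ := hsyl q hq hπ
    exact hS.not_dvd' (hd.trans (relIndex_dvd_left (pcore_max (PiGrp.of_pgroup hS.pgroup hπ) hn) _))
  set L := 𝐎({q | q ∣ Nat.card K}, (⊤ : Subgroup G))
  haveI hLn : L.Normal := Nml.top_iff.1 (pcore_nml _ _)
  have e1 : Nat.card L * L.index = Nat.card K * K.index := by rw [card_mul_index, card_mul_index, hcard]
  have i1 := hL.idx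
  have i2 := hKH.idx
  rw [relIndex_top_right] at i1 i2
  have hLK : Nat.card L = Nat.card K := Nat.dvd_antisymm
    ((PiNat.coprime hL.pi i2).dvd_of_dvd_mul_right ⟨_, e1.symm⟩)
    ((PiNat.coprime hKH.pi i1).dvd_of_dvd_mul_right ⟨_, e1⟩)
  have hI : L.index = K.index := by
    rw [hLK] at e1; exact Nat.eq_of_mul_eq_mul_left Nat.card_pos e1
  have hKC : K.index = Nat.card C := h1.symm.index_eq_card
  obtain ⟨H, hH, hk⟩ := FGS.exists_frob_of_sp L (fun h => card_ne_one h0 (by rw [← hLK, h, card_bot]))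
    (fun h => card_ne_one hC.1 (by rw [← hKC, ← hI, h, index_top])) fun r s hr hs hrd hsd => by
      rw [hLK] at hrd
      rw [hI] at hsd
      have hne : r ≠ s := by
        rintro rfl
        exact hr.ne_one (Nat.eq_one_of_dvd_coprimes h2 hrd hsd)
      refine ⟨hne, fun ⟨x, hx⟩ => ?_⟩
      have hy : orderOf (e.symm x) = r * s := by rw [← he, e.apply_symm_apply, hx]
      have o1 : orderOf (e.symm x ^ s) = r := by
        rw [orderOf_pow, hy, Nat.gcd_mul_left_left, Nat.mul_div_cancel _ hs.pos]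
      have hm : e.symm x ^ s ∈ K := hKH.mem_of_normal le_normalizer_of_normal (mem_top _)
        (by rw [PiElt, o1]; exact PiNat.of_prime hr hrd)
      have hm2 : e.symm x ∈ K := h4 _ hm (fun h => hr.ne_one (by rw [← o1, h, orderOf_one]))
        (cent1_le_cent1_pow _ _ (self_mem_cent1 _))
      exact hs.ne_one (Nat.eq_one_of_dvd_coprimes h2 ((Dvd.intro_left r hy.symm).trans (K.orderOf_dvd_natCard hm2)) hsd)
  have hc : Nat.card C = Nat.card H := by
    rw [← hKC, ← hI, (FGS.frob_facts hH hk).1.symm.index_eq_card]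
  exact ⟨⟨H, hH⟩, sol e he hC hK.symm hH hc, sol e.symm (fun x => by rw [← he, e.apply_symm_apply]) hH hk hC hc.symm⟩

end Cfsg.Agent.S3999
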