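import Cfsg.Statements.S4002
import Cfsg.Agent.Lib.HH.Misc
import Cfsg.Agent.Lib.Frobenius.CN

set_option autoImplicit false
open Cfsg

namespace Cfsg.Agent.S4002

open Subgroup Cfsg.Lib Cfsg.Lib.BG Cfsg.Lib.Transfer Cfsg.Lib.HH

theorem primes {n : ℕ} (hn : 7 ≤ n) :
    ∃ p q r : ℕ, p.Prime ∧ q.Prime ∧ r.Prime ∧ p < q ∧ q < r ∧ r ≤ n ∧ n < p * q := by
  by_cases h1 : n ≤ 14
  · exact ⟨3, 5, 7, by norm_num, by norm_num, by norm_num, by norm_num, by norm_num, hn, by omega⟩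
  by_cases h2 : n ≤ 34
  · exact ⟨5, 7, 11, by norm_num, by norm_num, by norm_num, by norm_num, by norm_num, by omega, by omega⟩
  obtain ⟨p, hp, a1, a2⟩ := Nat.exists_prime_lt_and_le_two_mul (n / 8) (by omega)
  obtain ⟨q, hq, b1, b2⟩ := Nat.exists_prime_lt_and_le_two_mul (n / 4) (by omega)
  obtain ⟨r, hr, c1, c2⟩ := Nat.exists_prime_lt_and_le_two_mul (n / 2) (by omega)
  refine ⟨p, q, r, hp, hq, hr, by omega, by omega, by omega, ?_⟩
  have e1 : n + 1 ≤ 8 * p := by omega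
  have e2 : n + 1 ≤ 4 * q := by omega
  nlinarith [Nat.mul_le_mul e1 e2]


/-- If the set of element orders of a finite group G is {1, 2, …, n} with n ≥ 7, then G is not solvable. -/
theorem result {G : Type*} [Group G] [Finite G] (n : ℕ) (hn : 7 ≤ n) (h : Set.range (orderOf : G → ℕ) = {k : ℕ | 1 ≤ k ∧ k ≤ n}) : ¬ Group.IsSolvable G := by
  intro hs
  obtain ⟨p, q, r, hp, hq, hr, h1, h2, h3, h4⟩ := primes hn
  obtain ⟨H, hH⟩ := Hall.exists (π := {p, q, r}) (M := (⊤ : Subgroup G)) inferInstance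
  have hd : ∀ s : ℕ, s.Prime → s ≤ n → s ∈ ({p, q, r} : Set ℕ) → s ∈ (Nat.card H).primeFactors := by
    intro s hs hle hm
    obtain ⟨g, hg⟩ := h.ge (show s ∈ {k : ℕ | 1 ≤ k ∧ k ≤ n} from ⟨hs.one_le, hle⟩)
    exact Nat.mem_primeFactors.2 ⟨hs, hH.dvd_card hs (by rw [card_top, ← hg]; exact orderOf_dvd_natCard g) hm,
      Nat.card_pos.ne'⟩
  have := Frobenius.card_primeFactors_le_two (G := H) fun g => by
    by_contra hc
    push Not at hc
    have hle : orderOf (g : G) ≤ n := (h.le ⟨g, rfl⟩).2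
    rw [orderOf_coe] at hle
    have h0 := orderOf_pos g
    have hne : orderOf g ≠ 1 := by simpa using hc.2
    set a := (orderOf g).minFac
    have ha : a.Prime := Nat.minFac_prime hne
    obtain ⟨b, hb, hbd, hba⟩ : ∃ b : ℕ, b.Prime ∧ b ∣ orderOf g ∧ b ≠ a := by
      by_contra hb
      push Not at hb
      exact hc.1 (isPrimePow_iff_unique_prime_dvd.2 ⟨a, ⟨ha, Nat.minFac_dvd _⟩, fun b hb' => hb b hb'.1 hb'.2⟩)
    have hab : a * b ≤ n := (Nat.le_of_dvd h0 (((Nat.coprime_primes ha hb).2 hba.symm).mul_dvd_of_dvd_of_dvd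
      (Nat.minFac_dvd _) hbd)).trans hle
    have m1 := hH.pi a ha ((Nat.minFac_dvd _).trans (orderOf_dvd_natCard g))
    have m2 := hH.pi b hb (hbd.trans (orderOf_dvd_natCard g))
    simp only [Set.mem_insert_iff, Set.mem_singleton_iff] at m1 m2
    rcases m1 with e | e | e <;> rcases m2 with e' | e' | e' <;> rw [e, e'] at hab hba <;>
      first | exact hba rfl | nlinarith
  have h5 : ({p, q, r} : Finset ℕ) ⊆ (Nat.card H).primeFactors := by
    intro s hs
    simp only [Finset.mem_insert, Finset.mem_singleton] at hs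
    rcases hs with rfl | rfl | rfl
    · exact hd _ hp (by omega) (by simp)
    · exact hd _ hq (by omega) (by simp)
    · exact hd _ hr h3 (by simp)
  have h6 := Finset.card_le_card h5
  rw [Finset.card_eq_three.2 ⟨p, q, r, h1.ne, (h1.trans h2).ne, h2.ne, rfl⟩] at h6
  omega

end Cfsg.Agent.S4002
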