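import Cfsg.Statements.S4005
import Cfsg.Agent.Lib.HH.Ord4

set_option autoImplicit false
open Cfsg

namespace Cfsg.Agent.S4005

open Subgroup Cfsg.Lib Cfsg.Lib.BG Cfsg.Lib.Transfer Cfsg.Lib.HH


/-- A finite group whose set of element orders is exactly {1, 2, 3} has either a normal elementary abelian 3-subgroup of index 2 or a normal elementary abelian 2-subgroup of index 3. -/
theorem result {G : Type*} [Group G] [Finite G] (h : Set.range (orderOf : G → ℕ) = {k : ℕ | 1 ≤ k ∧ k ≤ 3}) :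
    (∃ N : Subgroup G, N.Normal ∧ Cfsg.IsElementaryAbelian 3 N ∧ N.index = 2) ∨
      (∃ N : Subgroup G, N.Normal ∧ Cfsg.IsElementaryAbelian 2 N ∧ N.index = 3) := by
  have hle : ∀ g : G, orderOf g ≤ 3 := fun g => (h.le ⟨g, rfl⟩).2
  have H : Ord4 G := ⟨fun g => (hle g).trans (by norm_num), h.ge ⟨by norm_num, by norm_num⟩,
    h.ge ⟨by norm_num, by norm_num⟩⟩
  have h2 : ∀ g : G, PiElt {2} g → g ^ 2 = 1 := fun g hg => by
    have h1 := orderOf_dvd_iff_pow_eq_one.2 (H.pow_four hg)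
    have h3 := hle g
    have h4 := orderOf_pos g
    rw [← orderOf_dvd_iff_pow_eq_one]
    interval_cases orderOf g <;> simp_all
  by_cases h3 : pCore 3 G = ⊥
  · obtain ⟨hC, -, hi⟩ := H.caseB h3
    have hV := Core.pCore_isPGroup 2 G
    obtain ⟨T, hT, hVT⟩ := Syl.exists_ge hV le_top
    have hab : IsMulCommutative T := abelian_iff.2 (le_cent_iff.2 fun a ha b hb =>
      (Commute.of_orderOf_dvd_two (G := T) (fun g => orderOf_dvd_of_pow_eq_one
        (Subtype.ext (h2 g (pElt_of_mem hT.pgroup g.2)))) ⟨a, ha⟩ ⟨b, hb⟩).map T.subtype)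
    refine Or.inr ⟨pCore 2 G, inferInstance, ⟨abelian_of_le hab hVT, fun a ha => h2 a (pElt_of_mem hV ha)⟩, ?_⟩
    rcases hi with hi | ⟨-, ⟨e⟩⟩
    · exact hi
    · exfalso
      have := not_dvd_relIndex_of_syl_le hT ((abelian_cent' hab le_rfl hVT).trans hC)
      rw [relIndex_top_right, index_eq_card, Nat.card_congr e.toEquiv, Nat.card_perm] at this
      simp [Nat.factorial] at this
  · obtain ⟨hE, T, hT, ⟨e⟩, hc⟩ := H.caseA h3
    refine Or.inl ⟨pCore 3 G, inferInstance, hE, ?_⟩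
    rw [index_eq_card, Nat.card_congr e.toEquiv]
    rcases hc with hc | ⟨⟨f⟩⟩
    · obtain ⟨x, hx, rfl⟩ := cyclic_iff.1 hc
      obtain ⟨t, ht⟩ := H.two
      rw [Nat.card_zpowers]
      refine orderOf_eq_prime (h2 x (pElt_of_mem hT.pgroup hx)) fun e => ?_
      refine hT.ne_bot' (p := 2) ?_ (by rw [e, zpowers_one_eq_bot])
      rw [card_top, ← ht]; exact orderOf_dvd_natCard t
    · have h1 := hle (f.symm (QuaternionGroup.a 1) : T)
      rw [orderOf_coe, f.symm.orderOf_eq, QuaternionGroup.orderOf_a_one] at h1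
      omega

end Cfsg.Agent.S4005
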