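import Cfsg.Statements.S4006
import Cfsg.Agent.Lib.HH.Ord4

set_option autoImplicit false
open Cfsg

namespace Cfsg.Agent.S4006

open Subgroup Cfsg.Lib Cfsg.Lib.BG Cfsg.Lib.Transfer Cfsg.Lib.HH


/-- A finite group whose set of element orders is exactly {1, 2, 3, 4} has a normal subgroup N such that either N is a 2-group of exponent 4 and nilpotency class at most 2 with G/N of order 3, or N is an elementary abelian 2-group with G/N isomorphic to the symmetric group of degree 3, or N is an elementary abelian 3-group with G/N cyclic of order 4 or quaternion of order 8. -/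
theorem result {G : Type*} [Group G] [Finite G] (h : Set.range (orderOf : G → ℕ) = {k : ℕ | 1 ≤ k ∧ k ≤ 4}) :
    ∃ (N : Subgroup G) (_ : N.Normal),
      (IsPGroup 2 ↥N ∧ Monoid.exponent ↥N = 4 ∧ Group.nilpotencyClass ↥N ≤ 2 ∧ N.index = 3) ∨
      (Cfsg.IsElementaryAbelian 2 N ∧ Nonempty (G ⧸ N ≃* Equiv.Perm (Fin 3))) ∨
      (Cfsg.IsElementaryAbelian 3 N ∧ ((IsCyclic (G ⧸ N) ∧ N.index = 4) ∨ Nonempty (G ⧸ N ≃* QuaternionGroup 2))) := by
  have H : Ord4 G := ⟨fun g => (h.le ⟨g, rfl⟩).2, h.ge ⟨by norm_num, by norm_num⟩,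
    h.ge ⟨by norm_num, by norm_num⟩⟩
  obtain ⟨u, hu⟩ : ∃ u : G, orderOf u = 4 := h.ge ⟨by norm_num, by norm_num⟩
  have hpu : PiElt {2} u := pElt_iff_orderOf.2 ⟨2, hu⟩
  by_cases h3 : pCore 3 G = ⊥
  · obtain ⟨hC, hcl, hi⟩ := H.caseB h3
    have hV := Core.pCore_isPGroup 2 G
    refine ⟨pCore 2 G, inferInstance, ?_⟩
    rcases hi with hi | hi
    · refine Or.inl ⟨hV, Nat.dvd_antisymm ?_ ?_, ?_, hi⟩
      · exact Monoid.exponent_dvd_of_forall_pow_eq_one fun g =>
          Subtype.ext (H.pow_four (pElt_of_mem hV g.2))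
      · have hS : Syl 2 (pCore 2 G) ⊤ := Syl.mk' le_top hV (by rw [relIndex_top_right, hi]; norm_num)
        have := Monoid.order_dvd_exponent (⟨u, hS.mem_of_normal le_normalizer_of_normal (mem_top _) hpu⟩ :
          pCore 2 G)
        rwa [← orderOf_coe, hu] at this
      · haveI := pgroup_nil hV
        rw [← Subgroup.upperCentralSeries_eq_top_iff_nilpotencyClass_le, eq_top_iff]
        intro x _
        rw [Subgroup.mem_upperCentralSeries_succ_iff]
        intro y
        rw [Subgroup.mem_upperCentralSeries_succ_iff]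
        intro z
        have := hcl y y.2 z z.2 x x.2
        rw [← commutatorElement_inv, inv_eq_one] at this
        exact mem_bot.2 (Subtype.ext this)
    · exact Or.inr (Or.inl hi)
  · obtain ⟨hE, T, hT, ⟨e⟩, hc⟩ := H.caseA h3
    refine ⟨pCore 3 G, inferInstance, Or.inr (Or.inr ⟨hE, ?_⟩)⟩
    rcases hc with hc | ⟨⟨f⟩⟩
    · refine Or.inl ⟨isCyclic_of_surjective e.symm e.symm.surjective, ?_⟩
      rw [index_eq_card, Nat.card_congr e.toEquiv]
      obtain ⟨x, hx, rfl⟩ := cyclic_iff.1 hc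
      refine Nat.dvd_antisymm ?_ ?_
      · rw [Nat.card_zpowers]
        exact orderOf_dvd_of_pow_eq_one (H.pow_four (pElt_of_mem hT.pgroup hx))
      · have := hT.card_dvd le_top hpu.zpowers
        rwa [Nat.card_zpowers u, hu] at this
    · exact Or.inr ⟨e.trans f⟩

end Cfsg.Agent.S4006
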