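import Cfsg.Statements.S4197
import Cfsg.Agent.Lib.KC.Main

set_option autoImplicit false
open Cfsg

namespace Cfsg.Agent.S4197

theorem result {α : Type*} [Fintype α] [DecidableEq α] (S : Subgroup (Equiv.Perm α)) : Nat.card (ConjClasses S) ≤ 2 ^ (Fintype.card α - 1) := by
  exact ((Cfsg.Lib.KC.le_KK S).trans (Cfsg.Lib.KC.KK_le_bd _)).trans (Cfsg.Lib.KC.bd_le _)

end Cfsg.Agent.S4197
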