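import Cfsg.Statements.S4203
import Cfsg.Agent.Lib.BG.Hall
import Cfsg.Agent.Lib.Char.Burnside
import Cfsg.Agent.Lib.Core.MinNormal

set_option autoImplicit false
open Cfsg

namespace Cfsg.Agent.S4203

open Subgroup Cfsg.Lib Cfsg.Lib.BG Cfsg.Lib.Transfer

/-- A finite group in which every maximal subgroup has index a prime or the square of a prime is solvable. -/
theorem result {G : Type*} [Group G] [Finite G] (h : ∀ M : Subgroup G, IsCoatom M → ∃ p : ℕ, p.Prime ∧ (M.index = p ∨ M.index = p ^ 2)) : Group.IsSolvable G := by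
  revert h
  refine Core.induction_on_isMinNormal (P := fun G _ _ => (∀ M : Subgroup G, IsCoatom M →
    ∃ p : ℕ, p.Prime ∧ (M.index = p ∨ M.index = p ^ 2)) → Group.IsSolvable G) G (fun G _ _ _ _ => inferInstance) ?_
  intro G _ _ N _ hN ih h
  haveI := ih fun M hM => by
    rw [← index_comap_of_surjective _ (QuotientGroup.mk'_surjective N)]
    exact h _ (isCoatom_comap_of_surjective (QuotientGroup.mk'_surjective N) hM)
  suffices Group.IsSolvable N from Group.isSolvable_of_ker_le_range N.subtype (QuotientGroup.mk' N) (by simp)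
  have h0 : (Nat.card N).primeFactors.Nonempty := by
    obtain ⟨q, hq, hd⟩ := Core.exists_prime_dvd_card hN.ne_bot
    exact ⟨q, Nat.mem_primeFactors.2 ⟨hq, hd, Nat.card_pos.ne'⟩⟩
  obtain ⟨hp, hpd, -⟩ := Nat.mem_primeFactors.1 ((Nat.card N).primeFactors.max'_mem h0)
  have hmax : ∀ q : ℕ, q.Prime → q ∣ Nat.card N → q ≤ (Nat.card N).primeFactors.max' h0 := fun q hq hd =>
    Finset.le_max' _ _ (Nat.mem_primeFactors.2 ⟨hq, hd, Nat.card_pos.ne'⟩)
  generalize (Nat.card N).primeFactors.max' h0 = p at hp hpd hmax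
  haveI := Fact.mk hp
  obtain ⟨P, hP⟩ := Syl.exists (p := p) N
  by_cases h1 : 𝐍(P) = ⊤
  · rw [← hN.eq_of_le (normalizer_eq_top_iff.1 h1) (hP.ne_bot' hpd) hP.le]
    exact pgroup_sol hP.pgroup
  obtain ⟨M, hM, hle⟩ := (eq_top_or_exists_le_coatom _).resolve_left h1
  obtain ⟨q, hq, h2⟩ := h M hM
  have h3 : N ⊔ M = ⊤ := eq_top_iff.2 ((hP.frattini (Nml.top_iff.2 inferInstance)).ge.trans
    (sup_le_sup_left (inf_le_right.trans hle) _))
  have h4 : M.index = M.relIndex N := by
    rw [← Coprime.relIndex_sup_right_of_le_normalizer (by rw [normalizer_eq_top]; exact le_top), h3, relIndex_top_right]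
  have h5 : ∀ X : Subgroup G, Syl p P X → 𝐍(P).relIndex X ≡ 1 [MOD p] := fun X hX => by
    obtain ⟨S, hS⟩ := Syl.iff_sylow.1 hX
    have := card_sylow_modEq_one p X
    rw [S.card_eq_index_normalizer] at this
    convert this using 1
    rw [relIndex, ← hS, subgroupOf, comap_normalizer_eq_of_le_range (by simpa using map_subtype_le _),
      comap_map_eq_self_of_injective X.subtype_injective]
    rfl
  have h6 : M.index ≡ 1 [MOD p] := by
    have a := h5 N hP
    have b := h5 (M ⊓ N) (hP.of_le (le_inf ((le_norm _).trans hle) hP.le) inf_le_right)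
    rw [← inf_eq_left.2 hle, inf_comm, ← inf_relIndex_right, ← relIndex_mul_relIndex _ (M ⊓ N) N
      (inf_le_inf_right _ inf_le_left) inf_le_right, inf_relIndex_right, inf_comm M 𝐍(P), inf_assoc,
      inf_relIndex_right] at a
    rw [h4]
    exact (Nat.ModEq.symm (by simpa using b.mul_right (M.relIndex N))).trans a
  have h7 : q ≤ p := hmax q hq (by
    refine Dvd.dvd.trans ?_ (BG.relIndex_dvd_card M N)
    rw [← h4]; rcases h2 with h2 | h2 <;> simp [h2])
  have h8 : p ∣ (q - 1) * (q + 1) := by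
    rcases h2 with h2 | h2 <;> rw [h2] at h6
    · exact ((Nat.modEq_iff_dvd' hq.pos).1 h6.symm).mul_right _
    · rw [mul_comm, ← Nat.sq_sub_sq, one_pow]; exact (Nat.modEq_iff_dvd' (pow_pos hq.pos _)).1 h6.symm
  have h9 : p ≤ 3 := by
    have := hq.two_le
    rcases (Nat.Prime.dvd_mul hp).1 h8 with h8 | h8
    · have := Nat.le_of_dvd (by omega) h8; omega
    · rcases h7.eq_or_lt with e | e
      · rw [e, Nat.dvd_add_right dvd_rfl] at h8; exact absurd h8 hp.not_dvd_one
      · have e' : p = q + 1 := le_antisymm (Nat.le_of_dvd (by omega) h8) e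
        rcases hq.eq_two_or_odd' with h | h
        · omega
        · have := hp.eq_two_or_odd'.resolve_right (by rw [e']; simpa using h.add_one); omega
  refine Char.isSolvable_of_forall_prime_dvd N 2 3 fun r hr hd => ?_
  have := hmax r hr hd
  have := hr.two_le
  omega

end Cfsg.Agent.S4203
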