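import Cfsg.Statements.S4204
import Cfsg.Agent.Lib.BG.Hall

set_option autoImplicit false
open Cfsg

namespace Cfsg.Agent.S4204

/-- If `H` and `K` are normal subgroups of a finite group with `H` nilpotent of class at most `c` and `K` nilpotent of class at most `d` (the terms with index `c`, respectively `d`, of their lower central series are trivial, indices starting at `0`), then `HK` is nilpotent of class at most `c + d`. -/
theorem result {G : Type*} [Group G] [Finite G] (H K : Subgroup G) [H.Normal] [K.Normal] (c d : ℕ) (hH : H.lowerCentralSeries c = ⊥) (hK : K.lowerCentralSeries d = ⊥) : (H ⊔ K).lowerCentralSeries (c + d) = ⊥ := by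
  open Subgroup Cfsg.Lib Cfsg.Lib.BG Cfsg.Lib.Transfer in
  let g : Subgroup G → ℕ → Subgroup G := fun A i => Nat.casesOn i ⊤ A.lowerCentralSeries
  have n0 : ∀ (A : Subgroup G) [A.Normal] i, (A.lowerCentralSeries i).Normal := fun A _ i => by
    induction i with
    | zero => assumption
    | succ i ih => rw [Subgroup.lowerCentralSeries_succ]; infer_instance
  have n1 : ∀ (A : Subgroup G) [A.Normal] i, (g A i).Normal := fun A _ i => by
    cases i with
    | zero => exact normal_top
    | succ i => exact n0 A i
  have c1 : ∀ (A : Subgroup G) [A.Normal] i, ⁅g A i, A⁆ ≤ g A (i + 1) := fun A _ i => by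
    cases i with
    | zero => exact commutator_le_right _ _
    | succ i => exact le_rfl
  have sup : ∀ n (X Y : Subgroup G) [X.Normal] [Y.Normal], (fun X => ⁅X, H ⊔ K⁆)^[n] (X ⊔ Y) =
      (fun X => ⁅X, H ⊔ K⁆)^[n] X ⊔ (fun X => ⁅X, H ⊔ K⁆)^[n] Y := fun n => by
    induction n with
    | zero => intros; rfl
    | succ n ih => intro X Y _ _; simp only [Function.iterate_succ_apply, Core.commutator_sup_left_of_normal X Y, ih]
  have key : ∀ n i j, c + d + 1 ≤ i + j + n → (fun X => ⁅X, H ⊔ K⁆)^[n] (g H i ⊓ g K j) = ⊥ := fun n => by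
    have mono : ∀ n (X Y : Subgroup G), X ≤ Y → (fun X => ⁅X, H ⊔ K⁆)^[n] X ≤ (fun X => ⁅X, H ⊔ K⁆)^[n] Y :=
      fun n X Y h => Monotone.iterate (fun _ _ h => commutator_mono h le_rfl) n h
    induction n with
    | zero =>
      intro i j h
      by_cases h1 : c + 1 ≤ i
      · obtain ⟨i, rfl⟩ : ∃ k, i = k + 1 := ⟨i - 1, by omega⟩
        exact eq_bot_mono hH (inf_le_left.trans (H.lowerCentralSeries_antitone (by omega)))
      · obtain ⟨j, rfl⟩ : ∃ k, j = k + 1 := ⟨j - 1, by omega⟩
        exact eq_bot_mono hK (inf_le_right.trans (K.lowerCentralSeries_antitone (by omega)))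
    | succ n ih =>
      intro i j h
      haveI := n1 H i; haveI := n1 K j
      rw [Function.iterate_succ_apply, Core.commutator_sup_right_of_normal, sup, sup_eq_bot_iff]
      exact ⟨eq_bot_mono (ih (i + 1) j (by omega)) (mono _ _ _ (le_inf ((commutator_mono inf_le_left le_rfl).trans (c1 H i))
          ((commutator_le_left _ _).trans inf_le_right))),
        eq_bot_mono (ih i (j + 1) (by omega)) (mono _ _ _ (le_inf ((commutator_le_left _ _).trans inf_le_left)
          ((commutator_mono inf_le_right le_rfl).trans (c1 K j))))⟩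
  have e2 : ∀ n, (H ⊔ K).lowerCentralSeries n = (fun X => ⁅X, H ⊔ K⁆)^[n] (H ⊔ K) := fun n => by
    induction n with
    | zero => rfl
    | succ n ih => rw [Function.iterate_succ_apply', ← ih]; rfl
  rw [e2, sup, sup_eq_bot_iff]
  exact ⟨by simpa [g] using key (c + d) 1 0 (by omega), by simpa [g] using key (c + d) 0 1 (by omega)⟩

end Cfsg.Agent.S4204
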