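import Cfsg.Statements.S4212
import Cfsg.Agent.Lib.FGS.FrobCount
import Cfsg.Agent.Lib.FGS.Classes

set_option autoImplicit false
open Cfsg

namespace Cfsg.Agent.S4212

/-- Let `G` be a finite group of order `g`, `c` an element whose conjugacy class has `h` elements, and `n` a natural number. Then the number of elements `x` of `G` with `x^n` conjugate to `c` is a multiple of `gcd(hn, g)`. -/
theorem result {G : Type*} [Group G] [Finite G] (c : G) (n : ℕ) : Nat.gcd (Nat.card {y : G // IsConj c y} * n) (Nat.card G) ∣ Nat.card {x : G // IsConj c (x ^ n)} := by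
  open Cfsg.Lib.FGS Cfsg.Lib.BG in
  have h1 : Nat.card {y : G // IsConj c y} = (𝐂[c]).index := ncard_isConj c
  have h2 := gcd_dvd_ncard_pow_mem 𝐂[c] n (C := {c}) (by
    rintro _ rfl h hh
    rw [mem_cent1.1 hh]; simp)
  have h3 := Cfsg.Lib.PGroup.card_eq_mul_of_fibers (α := {x : G // IsConj c (x ^ n)}) (β := {y : G // IsConj c y})
    (fun x => ⟨x.1 ^ n, x.2⟩) {x : G | x ^ n ∈ ({c} : Set G)}.ncard (by
      rintro ⟨y, hy⟩
      obtain ⟨g, rfl⟩ := isConj_iff.1 hy
      refine (Nat.card_congr (Equiv.ofBijective (fun x : {x : G | x ^ n ∈ ({c} : Set G)} => ⟨⟨g * x * g⁻¹, by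
        rw [conj_pow, x.2]; exact hy⟩, Subtype.ext (by simp only; rw [conj_pow, x.2])⟩) ⟨fun a b hab => ?_, ?_⟩)).symm
      · exact Subtype.ext (by simpa using congrArg (fun z => (z.1.1 : G)) hab)
      · rintro ⟨⟨x, hx⟩, e⟩
        have e' : x ^ n = g * c * g⁻¹ := congrArg Subtype.val e
        refine ⟨⟨g⁻¹ * x * g⁻¹⁻¹, ?_⟩, Subtype.ext (Subtype.ext (by simp [mul_assoc]))⟩
        rw [Set.mem_ofPred_eq, conj_pow, e']; simp [mul_assoc])
  rw [h3, h1, ← (𝐂[c]).index_mul_card, Nat.gcd_mul_left]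
  exact Nat.mul_dvd_mul_left _ h2

end Cfsg.Agent.S4212
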