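import Cfsg.Statements.S4213
import Cfsg.Agent.Lib.BG.Hall
import Cfsg.Agent.Lib.FGS.FrobCount
import Cfsg.Agent.Lib.Core.MinNormal

set_option autoImplicit false
open Cfsg

namespace Cfsg.Agent.S4213

open Subgroup Cfsg.Lib Cfsg.Lib.BG Cfsg.Lib.Transfer

/-- If `G` is a finite solvable group and `n` divides the order of `G` and exactly `n` elements `x` of `G` satisfy `x^n = 1`, then these elements form a normal subgroup. -/
theorem result {G : Type*} [Group G] [Finite G] [Group.IsSolvable G] (n : ℕ) (hn : n ∣ Nat.card G) (hcount : Nat.card {x : G // x ^ n = 1} = n) : ∃ H : Subgroup G, H.Normal ∧ (H : Set G) = {x : G | x ^ n = 1} := by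
  have hs : Group.IsSolvable G := inferInstance
  revert hs n
  refine Core.induction_on_isMinNormal (P := fun G _ _ => ∀ n : ℕ, n ∣ Nat.card G →
    Nat.card {x : G // x ^ n = 1} = n → Group.IsSolvable G →
      ∃ H : Subgroup G, H.Normal ∧ (H : Set G) = {x : G | x ^ n = 1}) G
    (fun G _ _ _ n _ _ _ => ⟨⊤, inferInstance, by ext x; simp [Subsingleton.elim x 1]⟩) ?_
  intro G _ _ N _ hN ih n hn hc hs
  obtain ⟨p, hp, hNa, hNp⟩ := hN.isElementaryAbelian inferInstance
  haveI := Fact.mk hp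
  have hn0 : n ≠ 0 := fun e => Nat.card_pos.ne' (Nat.eq_zero_of_zero_dvd (e ▸ hn))
  let π := QuotientGroup.mk' N
  have hc' : {x : G | x ^ n = 1}.ncard = n := hc
  have fin : ∀ H : Subgroup G, Nat.card H = n → H.Normal ∧ (H : Set G) = {x : G | x ^ n = 1} := fun H hH => by
    have : (H : Set G) = {x : G | x ^ n = 1} := Set.eq_of_subset_of_ncard_le (fun x hx => by
      have := pow_card_eq_one' (x := (⟨x, hx⟩ : H))
      rw [hH] at this
      exact congrArg Subtype.val this) (by rw [hc', ← hH]; rfl)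
    refine ⟨⟨fun x hx g => ?_⟩, this⟩
    rw [← SetLike.mem_coe, this] at hx ⊢
    simp only [Set.mem_setOf_eq] at hx ⊢
    rw [conj_pow, hx]; simp
  have hG : Nat.card G = Nat.card (G ⧸ N) * Nat.card N := card_eq_card_quotient_mul_card_subgroup N
  obtain ⟨i, hi⟩ := IsPGroup.iff_card.1 (Core.isPGroup_of_isElementaryAbelian ⟨hNa, hNp⟩)
  have hpre : ∀ U : Subgroup (G ⧸ N), Nat.card (U.comap π) = Nat.card U * Nat.card N := fun U => by
    rw [mul_comm]; exact (Nat.card_congr (QuotientGroup.preimageMkEquivSubgroupProdSet N U)).trans (Nat.card_prod _ _)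
  have pos : ∀ u : ℕ, u ∣ Nat.card (G ⧸ N) → u ≤ Nat.card {x : G ⧸ N // x ^ u = 1} := fun u hu =>
    Nat.le_of_dvd (Nat.card_pos_iff.2 ⟨⟨⟨1, one_pow _⟩⟩, inferInstance⟩) (FGS.dvd_card_pow_eq_one hu)
  by_cases hpn : p ∣ n
  · set u := n / n.gcd (Nat.card N) with hu
    have hg : 0 < n.gcd (Nat.card N) := Nat.gcd_pos_of_pos_right _ Nat.card_pos
    have h1 : u * n.gcd (Nat.card N) = n := Nat.div_mul_cancel (Nat.gcd_dvd_left _ _)
    have h2 : u ∣ Nat.card (G ⧸ N) := by
      refine (Nat.coprime_div_gcd_div_gcd hg).dvd_of_dvd_mul_right (Nat.dvd_of_mul_dvd_mul_right hg ?_)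
      rw [h1, mul_assoc, Nat.div_mul_cancel (Nat.gcd_dvd_right _ _), ← hG]; exact hn
    have h3 : u * p ∣ n := by
      conv_rhs => rw [← h1]
      exact Nat.mul_dvd_mul_left _ (Nat.dvd_gcd hpn (pgroup_dvd_card
        (Core.isPGroup_of_isElementaryAbelian ⟨hNa, hNp⟩) hN.ne_bot))
    have h4 : Nat.card {x : G ⧸ N // x ^ u = 1} * Nat.card N ≤ n := by
      have : QuotientGroup.mk ⁻¹' {x : G ⧸ N | x ^ u = 1} ⊆ {x : G | x ^ n = 1} := fun x hx => by
        obtain ⟨k, hk⟩ := h3
        have : x ^ u ∈ N := (QuotientGroup.eq_one_iff _).1 hx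
        change x ^ n = 1
        rw [hk, pow_mul, pow_mul, hNp _ this, one_pow]
      refine le_of_eq_of_le ?_ ((Set.ncard_le_ncard this).trans hc'.le)
      rw [mul_comm]
      exact ((Nat.card_congr (QuotientGroup.preimageMkEquivSubgroupProdSet N _)).trans (Nat.card_prod _ _)).symm
    have h5 := pos u h2
    have h6 : n.gcd (Nat.card N) ≤ Nat.card N := Nat.gcd_le_right _ Nat.card_pos
    have h7 : 0 < Nat.card N := Nat.card_pos
    have h8 : Nat.card {x : G ⧸ N // x ^ u = 1} = u := le_antisymm (by nlinarith) h5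
    obtain ⟨U, -, hU⟩ := ih u h2 h8 inferInstance
    refine ⟨_, fin (U.comap π) ?_⟩
    have : Nat.card U = u := by rw [← h8]; exact congrArg Set.ncard hU
    rw [hpre, this]; rw [h8] at h4; nlinarith
  · have hcop : n.Coprime (Nat.card N) := by
      rw [hi]; exact Nat.Coprime.pow_right _ ((Nat.Prime.coprime_iff_not_dvd hp).2 hpn).symm
    have h2 : n ∣ Nat.card (G ⧸ N) := hcop.dvd_of_dvd_mul_right (hG ▸ hn)
    have h4 : Nat.card {x : G ⧸ N // x ^ n = 1} ≤ n := by
      refine le_of_le_of_eq (Nat.card_le_card_of_surjective (fun x : {x : G // x ^ n = 1} =>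
        (⟨π x, by rw [← map_pow, x.2, map_one]⟩ : {x : G ⧸ N // x ^ n = 1})) ?_) hc
      rintro ⟨y, hy⟩
      obtain ⟨x, rfl⟩ := QuotientGroup.mk_surjective y
      have h5 : x ^ n ∈ N := (QuotientGroup.eq_one_iff _).1 hy
      obtain ⟨a, ha1, ha2⟩ := Nat.chineseRemainder ((Nat.Prime.coprime_iff_not_dvd hp).2 hpn) 0 1
      obtain ⟨b, rfl⟩ := (Nat.modEq_zero_iff_dvd).1 ha1
      refine ⟨⟨x ^ (p * b), by rw [← pow_mul, mul_comm, ← mul_assoc, pow_mul, pow_mul, hNp _ h5, one_pow]⟩,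
        Subtype.ext ?_⟩
      change π (x ^ (p * b)) = π x
      have hy' : π x ^ n = 1 := hy
      rw [map_pow, pow_eq_pow_mod _ hy', ha2, ← pow_eq_pow_mod _ hy', pow_one]
    obtain ⟨U, -, hU⟩ := ih n h2 (le_antisymm h4 (pos n h2)) inferInstance
    have h5 : Nat.card U = n := by rw [← le_antisymm h4 (pos n h2)]; exact congrArg Set.ncard hU
    have h6 : N ≤ U.comap π := fun x hx => by simp [π, (QuotientGroup.eq_one_iff _).2 hx]
    have h7 : N.relIndex (U.comap π) = n := Nat.eq_of_mul_eq_mul_left Nat.card_pos (by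
      rw [BG.card_mul_relIndex h6, hpre, h5, mul_comm])
    obtain ⟨B, -, -, -, hB⟩ := Coprime.exists_complement h6 (by rw [normalizer_eq_top]; exact le_top)
      (by rw [h7]; exact hcop.symm)
    exact ⟨B, fin B (hB.trans h7)⟩

end Cfsg.Agent.S4213
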