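import Cfsg.Statements.S4214
import Cfsg.Agent.Lib.BG.Hall
import Cfsg.Agent.Lib.Transfer.Criteria
import Cfsg.Agent.Lib.Core.PiSeparable

set_option autoImplicit false
open Cfsg

namespace Cfsg.Agent.S4214

open Subgroup Cfsg.Lib Cfsg.Lib.BG Cfsg.Lib.Transfer

theorem cent_index {G : Type*} [Group G] [Finite G] {V : Subgroup G} {q : ℕ} [Fact q.Prime] (hV : IsPGroup q V) (k : ℕ) :
    ∀ D : Subgroup G, Nat.card D = k → Group.IsSolvable D → D ≤ 𝐍(V) → (Nat.card D).Coprime q →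
      𝐂(D).relIndex V ∈ Submonoid.closure {y : ℕ | (∃ e, y = q ^ e) ∧ y ∣ Nat.card V ∧
        ∃ r : ℕ, r.Prime ∧ r ∣ k ∧ y ≡ 1 [MOD r]} := by
  induction k using Nat.strong_induction_on with
  | _ k ih =>
  intro D hk hs hn hc
  by_cases h0 : D = ⊥
  · rw [relIndex_eq_one.2 (h0 ▸ cent_symm bot_le)]; exact one_mem _
  obtain ⟨D₀, Q, p, hp, h1, -, h2, h3, h4, h5, h6⟩ := Coprime.exists_normal_lt_sup_pgroup hs h0
  haveI := Fact.mk hp
  have h7 := ih _ (hk ▸ lt_of_not_ge fun h => h1.ne (eq_of_le_of_card_le h1.le h)) D₀ rfl (sol_of_le hs h1.le)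
    (h1.le.trans hn) (hc.coprime_dvd_left (card_dvd h1.le))
  rw [← inf_eq_left.2 (cent_anti h1.le), ← relIndex_inf_mul_relIndex]
  refine mul_mem (Submonoid.subset_closure ?_) (Submonoid.closure_mono (by
    rintro y ⟨a, b, r, c, d, e⟩; exact ⟨a, b, r, c, d.trans (hk ▸ card_dvd h1.le), e⟩) h7)
  have h8 := (BG.relIndex_dvd_card 𝐂(D) (𝐂(D₀) ⊓ V)).trans (card_dvd inf_le_right)
  obtain ⟨j, hj⟩ := IsPGroup.iff_card.1 hV
  refine ⟨by rw [hj] at h8; exact ((Nat.dvd_prime_pow Fact.out).1 h8).imp fun _ h => h.2, h8, p, hp, hk ▸ h5, ?_⟩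
  have h9 := card_modEq_card_inf_centralizer h4 (norm_inf (norm_cent (h3.trans h2)) (h3.trans hn))
  rw [← Coprime.card_inf_mul_relIndex 𝐂(D) (𝐂(D₀) ⊓ V), show 𝐂(D₀) ⊓ V ⊓ 𝐂(Q) = 𝐂(D) ⊓ (𝐂(D₀) ⊓ V) by
    rw [← h6, BG.cent_sup, inf_right_comm, ← inf_assoc, inf_right_comm 𝐂(D₀) 𝐂(Q) 𝐂(D₀), inf_idem]] at h9
  refine Nat.ModEq.cancel_left_of_coprime ?_ (by rwa [mul_one])
  refine Nat.Coprime.coprime_dvd_right (card_dvd (inf_le_right.trans inf_le_right)) ?_
  rw [hj]; exact (hc.coprime_dvd_left h5).pow_right _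


/-- Let `G` be a finite solvable group of order `mn` with `gcd(m, n) = 1`. Then the number of subgroups of order `m` is a product of natural numbers each of which is a power of a prime, divides the order of some chief factor of `G` (a quotient `L/K` of normal subgroups `K < L` of `G` with no normal subgroup of `G` strictly between them), and is congruent to `1` modulo some prime divisor of `m`. -/
theorem result {G : Type*} [Group G] [Finite G] [Group.IsSolvable G] (m n : ℕ) (hG : Nat.card G = m * n) (hmn : Nat.Coprime m n) : ∃ (k : ℕ) (f : Fin k → ℕ), Nat.card {H : Subgroup G // Nat.card H = m} = ∏ i, f i ∧ ∀ i, (∃ q e : ℕ, q.Prime ∧ f i = q ^ e) ∧ (∃ K L : Subgroup G, K.Normal ∧ L.Normal ∧ K < L ∧ (∀ M : Subgroup G, M.Normal → K ≤ M → M ≤ L → M = K ∨ M = L) ∧ f i ∣ K.relIndex L) ∧ (∃ q : ℕ, q.Prime ∧ q ∣ m ∧ f i ≡ 1 [MOD q]) := by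
  have hs : ∀ X : Subgroup G, Group.IsSolvable X := fun _ => inferInstance
  have nn : ∀ (N : Subgroup G), N.Normal → ∀ X : Subgroup G, X ≤ 𝐍(N) := fun N _ X => by
    rw [normalizer_eq_top]; exact le_top
  obtain ⟨H, hH⟩ := Hall.exists (π := {q | q ∣ m}) (hs ⊤)
  have h0 : ∀ K : Subgroup G, Hall {q | q ∣ m} K ⊤ ↔ Nat.card K = m := fun K => by
    have h1 := K.card_mul_index
    rw [hG] at h1
    refine ⟨fun h => Nat.dvd_antisymm ((PiNat.coprime h.pi (PiNat.of_coprime hmn.symm)).dvd_of_dvd_mul_right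
      (Dvd.intro _ h1)) (((PiNat.self m).coprime h.idx).dvd_of_dvd_mul_right (by simp [h1])), fun h => ?_⟩
    have h2 : K.index = n := Nat.eq_of_mul_eq_mul_left Nat.card_pos (by rw [h1, h])
    exact Hall.mk' le_top (h ▸ PiGrp.self K) (by rw [relIndex_top_right, h2]; exact PiNat.of_coprime hmn.symm)
  have h1 : Nat.card {H : Subgroup G // Nat.card H = m} = 𝐍(H).index := by
    have key : ∀ a b : G, a⁻¹ * b ∈ 𝐍(H) ↔ a ⋆ H = b ⋆ H := fun a b => by
      rw [← conj_eq_self_iff, ← conj_conj, ← conj_inj (g := a), conj_inv_conj, eq_comm]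
    let F : G ⧸ 𝐍(H) → {H : Subgroup G // Nat.card H = m} := Quotient.lift
      (fun g : G => ⟨g ⋆ H, (h0 _).1 (hH.conj_top g)⟩)
      fun a b h => Subtype.ext ((key a b).1 (QuotientGroup.leftRel_apply.1 h))
    refine (Nat.card_congr (Equiv.ofBijective F ⟨?_, fun ⟨K, hK⟩ => ?_⟩)).symm
    · rintro ⟨a⟩ ⟨b⟩ h
      exact QuotientGroup.eq.2 ((key a b).2 (congrArg Subtype.val h))
    · obtain ⟨g, -, rfl⟩ := hH.exists_conj_eq ((h0 K).2 hK) (hs _)
      exact ⟨(g : G ⧸ 𝐍(H)), rfl⟩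
  have h2 : 𝐍(⊥ ⊔ H).index ∈ Submonoid.closure {y : ℕ | (∃ q e : ℕ, q.Prime ∧ y = q ^ e) ∧
      (∃ K L : Subgroup G, IsChiefFactor L K ∧ y ∣ K.relIndex L) ∧ ∃ q : ℕ, q.Prime ∧ q ∣ m ∧ y ≡ 1 [MOD q]} := by
    refine Core.chief_induction_down (P := fun W => 𝐍(W ⊔ H).index ∈ _) inferInstance inferInstance
      (bot_le (a := ⊤)) (by rw [top_sup_eq, normalizer_eq_top, index_top]; exact one_mem _) fun U W h _ _ ih => ?_
    obtain ⟨h1, h2, h3, -⟩ := id h
    have h4 : 𝐍(H) ≤ 𝐍(W ⊔ H) := norm_sup (nn W h3 _) le_rfl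
    have h5 : 𝐍(W ⊔ H) ≤ 𝐍(U ⊔ H) := by
      rw [← sup_eq_left.2 h1.le, sup_assoc]; exact norm_sup (nn U h2 _) le_rfl
    have h6 : U ⊔ 𝐍(W ⊔ H) = 𝐍(U ⊔ H) := le_antisymm (sup_le (le_norm_of_le le_sup_left) h5)
      (((hH.of_le le_sup_right le_top).frattini (hs _) (Nml.norm_self _)).ge.trans (sup_le (sup_le_sup_left
        ((le_norm _).trans h4) _) (inf_le_right.trans (h4.trans le_sup_right))))
    rw [← relIndex_mul_index h5, ← h6, Coprime.relIndex_sup_right_of_le_normalizer (nn U h2 _), h6]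
    refine mul_mem ?_ ih
    obtain ⟨q, hq, -, -, k, -, hk⟩ := Core.exists_prime_of_isChiefFactor h (hs _)
    haveI := Fact.mk hq
    let f := QuotientGroup.mk' W
    have hf : f.ker = W := QuotientGroup.ker_mk' W
    have h7 : Nat.card (U.map f) = W.relIndex U := by rw [← relIndex_ker, hf]
    have h8 : IsPGroup q (U.map f) := IsPGroup.of_card (h7.trans hk)
    have h9 : 𝐍(W ⊔ H).relIndex U = 𝐍(H.map f).relIndex (U.map f) := by
      rw [← Core.relIndex_comap_comap (QuotientGroup.mk'_surjective W), comap_map_eq, hf, sup_eq_left.2 h1.le,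
        comap_normalizer_eq_of_surjective _ (QuotientGroup.mk'_surjective W), comap_map_eq, hf, sup_comm]
    have h10 : H.map f ≤ 𝐍(U.map f) := map_norm f (nn U h2 _)
    rw [h9]
    by_cases hd : q ∣ m
    · have := (hH.map f).ge_of_norm (map_mono le_top) (PiGrp.of_pgroup h8 hd) h10
      rw [relIndex_eq_one.2 (this.trans (le_norm _))]; exact one_mem _
    have h11 : PiGrp {q}ᶜ (H.map f) := (hH.pi.map f).p'_of_not_mem hd
    rw [← inf_relIndex_right, inf_comm, Coprime.inf_normalizer_eq_inf_centralizer h10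
      (disjoint_of_coprime (h11.coprime_pgroup h8)), inf_comm, inf_relIndex_right]
    refine Submonoid.closure_mono ?_ (cent_index h8 _ _ rfl inferInstance h10 h11.coprime_p)
    rintro y ⟨⟨e, a⟩, b, r, c, d, e'⟩
    exact ⟨⟨q, e, hq, a⟩, ⟨W, U, h, h7 ▸ b⟩, r, c, (hH.pi.map f).mem c d, e'⟩
  obtain ⟨l, h3, h4⟩ := Submonoid.exists_list_of_mem_closure h2
  refine ⟨l.length, l.get, by rw [h1, ← List.prod_ofFn, List.ofFn_get, h4, bot_sup_eq], fun i => ?_⟩
  obtain ⟨a, ⟨K, L, b, c⟩, d⟩ := h3 _ (l.get_mem i)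
  exact ⟨a, ⟨K, L, b.2.2.1, b.2.1, b.1, b.2.2.2, c⟩, d⟩

end Cfsg.Agent.S4214
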