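import Cfsg.Statements.S4216
import Cfsg.Agent.Lib.BG.Hall
import Cfsg.Agent.Lib.FGS.HallWielandt

set_option autoImplicit false
open Cfsg

namespace Cfsg.Agent.S4216

/-- Grün's first Theorem: if `P` is a Sylow `p`-subgroup of the finite group `G`, then `P ∩ G'` is the subgroup generated by `P ∩ N_G(P)'` together with the subgroups `P ∩ z P' z⁻¹` for all `z ∈ G`, where `'` denotes the derived subgroup and `N_G(P)` the normalizer of `P`. -/
theorem result {G : Type*} [Group G] [Finite G] {p : ℕ} [Fact p.Prime] (P : Sylow p G) : (P : Subgroup G) ⊓ commutator G = ((P : Subgroup G) ⊓ ⁅Subgroup.normalizer ((P : Subgroup G) : Set G), Subgroup.normalizer ((P : Subgroup G) : Set G)⁆) ⊔ ⨆ z : G, (P : Subgroup G) ⊓ (⁅(P : Subgroup G), (P : Subgroup G)⁆).map (MulAut.conj z).toMonoidHom := by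
  open Subgroup Cfsg.Lib Cfsg.Lib.BG Cfsg.Lib.Transfer in
  open Cfsg.Lib.FGS in
  refine le_antisymm ((inf_comm _ _).le.trans (commutator_inf_le_of_tame P (fun x hx t ht =>
    mem_sup_left ⟨comm_le_left le_rfl (commutator_mem_commutator ht hx),
      commutator_mem_commutator (le_normalizer ht) hx⟩) fun Q _ _ x hx h3 t ht => mem_sup_right ?_))
    (sup_le (inf_le_inf_left _ (commutator_mono le_top le_top)) (iSup_le fun z => inf_le_inf_left _ ?_))
  · obtain ⟨k, hk⟩ := orderOf_eq_pow_iff.1 h3
    obtain ⟨z, hz⟩ := exists_conj_le_sylow P ((P.2.to_le (inf_le_left : (P : Subgroup G) ⊓ Q ≤ _)).to_sup_of_normal_left'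
      (isPGroup_zpowers_of_pow hk) (zpowers_le.2 hx))
    rw [conj_le_iff_le_inv_conj] at hz
    refine mem_iSup_of_mem z⁻¹ ⟨(comm_le_left (zpowers_le.2 hx) (commutator_mem_commutator ht
      (inv_mem (mem_zpowers x)))).1, ?_⟩
    rw [map_commutator]
    exact commutator_mem_commutator (hz (mem_sup_left ht)) (hz (mem_sup_right (inv_mem (mem_zpowers x))))
  · rw [map_commutator]
    exact commutator_mono le_top le_top

end Cfsg.Agent.S4216
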