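import Cfsg.Statements.S4217
import Cfsg.Agent.Lib.BG.Hall
import Cfsg.Agent.Lib.Coprime.Gaschutz

set_option autoImplicit false
open Cfsg

namespace Cfsg.Agent.S4217

open Subgroup Cfsg.Lib Cfsg.Lib.BG Cfsg.Lib.Transfer

universe u

theorem aux (n : ℕ) : ∀ (G : Type u) [Group G] [Finite G] (A : Subgroup G) [A.Normal], Nat.card A = n →
    IsMulCommutative A → (∀ q : ℕ, q.Prime → ∃ K : Subgroup G, A ⊓ K = ⊥ ∧ ¬ q ∣ (A ⊔ K).index) →
    ∃ L : Subgroup G, A ⊓ L = ⊥ ∧ A ⊔ L = ⊤ := by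
  induction n using Nat.strong_induction_on with
  | _ n ih =>
  intro G _ _ A _ hn hA h
  by_cases h0 : A = ⊥
  · exact ⟨⊤, by simp [h0], by simp⟩
  obtain ⟨p, hp, hpd⟩ := Core.exists_prime_dvd_card h0
  haveI := Fact.mk hp
  have nn : ∀ (N : Subgroup G) [N.Normal] (X : Subgroup G), X ≤ 𝐍(N) := fun N _ X => by
    rw [normalizer_eq_top]; exact le_top
  have hD := nil_pcore_dprod (abelian_nil hA) {p}
  have hP1 : 𝐎({p}, A) ≠ ⊥ := (nil_pcore_Hall (abelian_nil hA) {p}).ne_bot hp hpd rfl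
  have hPp := pcore_pgroup p A
  haveI : 𝐎({p}, A).Normal := Nml.top_iff.1 ((Nml.top_iff.2 inferInstance).pcore _)
  haveI : 𝐎({p}ᶜ, A).Normal := Nml.top_iff.1 ((Nml.top_iff.2 inferInstance).pcore _)
  generalize 𝐎({p}, A) = P at *
  generalize 𝐎({p}ᶜ, A) = C at *
  let π := QuotientGroup.mk' P
  have hπ : Function.Surjective π := QuotientGroup.mk'_surjective P
  have hk : π.ker = P := QuotientGroup.ker_mk' P
  have hc : (A.map π).comap π = A := by rw [comap_map_eq, hk, sup_eq_left.2 hD.left_le]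
  haveI := Normal.map inferInstance π hπ (H := A)
  obtain ⟨L, h1, h2⟩ := ih (Nat.card (A.map π)) (by
      rw [← hn, ← relIndex_ker, hk, ← BG.card_mul_relIndex hD.left_le]
      exact lt_mul_of_one_lt_left (Nat.pos_of_ne_zero index_ne_zero_of_finite) (one_lt_card_iff_ne_bot _ |>.2 hP1))
    (G ⧸ P) (A.map π) rfl (abelian_map π hA) fun q hq => by
      obtain ⟨K, h1, h2⟩ := h q hq
      refine ⟨K.map π, eq_bot_iff.2 ?_, by
        rwa [← Subgroup.map_sup, index_map_eq _ hπ (hk.le.trans (hD.left_le.trans le_sup_left))]⟩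
      rintro _ ⟨h3, x, hx, rfl⟩
      have : x = 1 := h1.le ⟨hc.le h3, hx⟩
      simp [this]
  set H := L.comap π
  have h3 : A ⊓ H = P := by rw [← hc, ← comap_inf, h1, MonoidHom.comap_bot, hk]
  have h4 : A ⊔ H = ⊤ := by rw [← hc, comap_sup_eq _ _ _ hπ, h2, comap_top]
  have h5 : P ≤ H := h3.ge.trans inf_le_right
  obtain ⟨K, h6, h7⟩ := h p hp
  obtain ⟨M, h8, h9, h10⟩ := Coprime.gaschutz_exists_of (K := P) (U := (A ⊔ K) ⊓ H) (M := H) (A := (C ⊔ K) ⊓ H)
    (abelian_of_le hA hD.left_le) (le_inf (hD.left_le.trans le_sup_left) h5) inf_le_right (nn _ _) (by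
      obtain ⟨k, hk⟩ := IsPGroup.iff_card.1 hPp
      rw [hk]
      refine Nat.Coprime.pow_left _ ((Nat.Prime.coprime_iff_not_dvd hp).2 fun e => h7 ?_)
      have hs : Function.Surjective ((QuotientGroup.mk' A).comp H.subtype) := fun y => by
        obtain ⟨y, rfl⟩ := QuotientGroup.mk_surjective y
        obtain ⟨a, ha, x, hx, rfl⟩ := (mem_sup_left_norm (nn A H)).1 (h4.ge (mem_top y))
        exact ⟨⟨x, hx⟩, by simp [(QuotientGroup.eq_one_iff _).2 ha]⟩
      rw [← index_map_eq _ (QuotientGroup.mk'_surjective A) (by simp), ← index_comap_of_surjective _ hs, ← comap_comap,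
        comap_map_eq, QuotientGroup.ker_mk', sup_eq_left.2 le_sup_left]
      rwa [inf_relIndex_right] at e)
    (eq_bot_iff.2 (le_of_le_of_eq (le_inf inf_le_left (le_of_le_of_eq (le_inf (inf_le_right.trans inf_le_left)
      (inf_le_left.trans hD.left_le)) (by rw [modular_left hD.right_le (nn _ _), inf_comm, h6, sup_bot_eq])))
      hD.inf))
    (by rw [← modular_left h5 (nn _ _), ← sup_assoc, hD.sup])
  exact ⟨M, by rw [← inf_eq_right.2 h8, ← inf_assoc, h3, h9],
    by rw [← sup_eq_left.2 hD.left_le, sup_assoc, h10, h4]⟩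


/-- Let `A` be an abelian normal subgroup of the finite group `G`. Then `A` has a complement in `G` if and only if, for every prime `p` dividing the index of `A`, there are a Sylow `p`-subgroup `S` of `G/A` and a subgroup `K` of `G` with `K ∩ A = 1` and `KA` equal to the preimage of `S` (that is, `A` has a complement in the preimage of a Sylow `p`-subgroup of `G/A`). -/
theorem result {G : Type*} [Group G] [Finite G] (A : Subgroup G) [A.Normal] (hA : IsMulCommutative A) : (∃ K : Subgroup G, K.IsComplement' A) ↔ ∀ p : ℕ, p.Prime → p ∣ A.index → ∃ (S : Sylow p (G ⧸ A)) (K : Subgroup G), K ⊓ A = ⊥ ∧ K ⊔ A = (S : Subgroup (G ⧸ A)).comap (QuotientGroup.mk' A) := by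
  refine ⟨fun ⟨K, hK⟩ p hp _ => ?_, fun h => ?_⟩
  · obtain ⟨S⟩ : Nonempty (Sylow p (G ⧸ A)) := inferInstance
    have h1 : A ≤ (S : Subgroup (G ⧸ A)).comap (QuotientGroup.mk' A) := fun x hx => by
      simp [(QuotientGroup.eq_one_iff _).2 hx]
    refine ⟨S, K ⊓ (S : Subgroup (G ⧸ A)).comap (QuotientGroup.mk' A),
      eq_bot_iff.2 ((inf_le_inf_right _ inf_le_left).trans hK.disjoint.eq_bot.le), ?_⟩
    rw [sup_comm, ← modular_left h1 (by rw [normalizer_eq_top]; exact le_top), sup_comm, hK.sup_eq_top, top_inf_eq]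
  · obtain ⟨L, h1, h2⟩ := aux _ G A rfl hA fun q hq => by
      by_cases hd : q ∣ A.index
      · haveI := Fact.mk hq
        obtain ⟨S, K, h1, h2⟩ := h q hq hd
        refine ⟨K, by rwa [inf_comm], ?_⟩
        rw [sup_comm, h2, index_comap_of_surjective _ (QuotientGroup.mk'_surjective A)]
        exact S.not_dvd_index
      · exact ⟨⊥, by simp, by simpa using hd⟩
    exact ⟨L, (Core.isComplement'_of_inf_eq_bot h1 h2).symm⟩

end Cfsg.Agent.S4217
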