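import Cfsg.Statements.S4218
import Cfsg.Agent.Lib.Core.PSolvable
import Cfsg.Agent.Lib.Core.Frattini

set_option autoImplicit false
open Cfsg

namespace Cfsg.Agent.S4218

open Cfsg.Lib Cfsg.Lib.Core Subgroup

theorem aux {G : Type*} [Group G] [Finite G] {p : ℕ} [Fact p.Prime] (hG : Cfsg.IsPSolvable p G)
    (h0 : pPrimeCore p G = ⊥) (g : G)
    (h : ∀ x ∈ pCore p G, g * x * g⁻¹ * x⁻¹ ∈ (frattini (pCore p G)).map (pCore p G).subtype) :
    g ∈ pCore p G := by
  set N := (frattini (pCore p G)).map (pCore p G).subtype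
  haveI : N.Normal := frattiniOf_normal _
  have hN : N ≤ frattini G := frattiniOf_le_frattini _
  have h1 : pPrimeCore p (G ⧸ N) = ⊥ := by
    rw [← map_pPrimeCore_mk'_of_le_frattini hN, h0, Subgroup.map_bot]
  have h2 := centralizer_pCore_le_of_isPSolvable (isPSolvable_quotient hG N) h1
  rw [← comap_pCore_mk' N ((pCore_isPGroup p G).to_le (map_subtype_le _))]
  refine h2 ?_
  rw [← map_pCore_mk'_of_le_frattini hN]
  rintro _ ⟨x, hx, rfl⟩
  have h3 := (QuotientGroup.eq_one_iff _).2 (h x hx)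
  rw [eq_comm, ← mul_inv_eq_one]
  simpa [mul_assoc] using h3

theorem result {G : Type*} [Group G] [Finite G] {p : ℕ} [Fact p.Prime] (hG : Cfsg.IsPSolvable p G) (g : G) : (∀ x ∈ Cfsg.pPrimePCore p G, g * x * g⁻¹ * x⁻¹ ∈ ((frattini (↥(Cfsg.pPrimePCore p G) ⧸ (Cfsg.pPrimeCore p G).subgroupOf (Cfsg.pPrimePCore p G))).comap (QuotientGroup.mk' ((Cfsg.pPrimeCore p G).subgroupOf (Cfsg.pPrimePCore p G)))).map (Cfsg.pPrimePCore p G).subtype) ↔ g ∈ Cfsg.pPrimePCore p G := by
  set f := QuotientGroup.mk' (pPrimeCore p G)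
  set P := pPrimePCore p G
  let φ : P →* pCore p (G ⧸ pPrimeCore p G) := (f.comp P.subtype).codRestrict _ fun x => x.2
  let ψ : P ⧸ (pPrimeCore p G).subgroupOf P →* pCore p (G ⧸ pPrimeCore p G) :=
    QuotientGroup.lift _ φ fun x hx => Subtype.ext ((QuotientGroup.eq_one_iff _).2 hx)
  have hs : Function.Surjective ψ := by
    rintro ⟨y, hy⟩
    obtain ⟨x, rfl⟩ := QuotientGroup.mk'_surjective _ y
    exact ⟨QuotientGroup.mk ⟨x, hy⟩, rfl⟩
  have hi : Function.Injective ψ := by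
    rw [injective_iff_map_eq_one]
    intro y hy
    obtain ⟨x, rfl⟩ := QuotientGroup.mk_surjective y
    exact (QuotientGroup.eq_one_iff _).2 ((QuotientGroup.eq_one_iff (x : G)).1 (congrArg Subtype.val hy))
  constructor
  · intro h
    refine aux (isPSolvable_quotient hG _) (pPrimeCore_quotient_pPrimeCore p G) (f g) fun y hy => ?_
    obtain ⟨x, rfl⟩ := QuotientGroup.mk'_surjective _ y
    obtain ⟨z, hz, e⟩ := h x hy
    refine ⟨φ z, map_frattini_le_of_surjective hs ⟨_, hz, rfl⟩, ?_⟩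
    have e' : (z : G) = g * x * g⁻¹ * x⁻¹ := e
    show f z = _
    rw [e']; simp only [map_mul, map_inv]; rfl
  · intro hg x hx
    have hp : IsPGroup p (P ⧸ (pPrimeCore p G).subgroupOf P) := (pCore_isPGroup p _).of_injective ψ hi
    refine ⟨⟨g, hg⟩ * ⟨x, hx⟩ * (⟨g, hg⟩ : P)⁻¹ * (⟨x, hx⟩ : P)⁻¹, ?_, rfl⟩
    refine commutator_le_frattini_of_isNilpotent hp.isNilpotent ?_
    simp only [map_mul, map_inv]
    exact commutator_mem_commutator (mem_top _) (mem_top _)

end Cfsg.Agent.S4218
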