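import Cfsg.Statements.S4219
import Cfsg.Agent.Lib.Perm.Witt

set_option autoImplicit false
open Cfsg

namespace Cfsg.Agent.S4219

/-- Let a finite group `G` act `t`-fold transitively on a finite set, let `H` be the stabilizer of `t` distinct points and `P` a Sylow `p`-subgroup of `H`. Then the normalizer of `P` in `G` is `t`-fold transitive on the fixed points of `P`: any `t` distinct fixed points of `P` can be carried to any other `t` distinct fixed points of `P` by an element normalizing `P`. -/
theorem result {G : Type*} [Group G] [Finite G] {α : Type*} [Fintype α] [MulAction G α] {t : ℕ} (hG : MulAction.IsMultiplyPretransitive G α t) (x : Fin t ↪ α) {p : ℕ} [Fact p.Prime] (P : Sylow p (MulAction.stabilizer G x)) (a b : Fin t ↪ α) (ha : ∀ i, a i ∈ MulAction.fixedPoints ((P : Subgroup (MulAction.stabilizer G x)).map (MulAction.stabilizer G x).subtype) α) (hb : ∀ i, b i ∈ MulAction.fixedPoints ((P : Subgroup (MulAction.stabilizer G x)).map (MulAction.stabilizer G x).subtype) α) : ∃ g ∈ Subgroup.normalizer ((((P : Subgroup (MulAction.stabilizer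 G x)).map (MulAction.stabilizer G x).subtype) : Subgroup G) : Set G), g • a = b := by
  open Cfsg.Lib.Perm in
  have hst : MulAction.stabilizer G x = fixingSubgroup G (Set.range x) := by
    ext g
    rw [MulAction.mem_stabilizer_iff, mem_fixingSubgroup_iff]
    constructor
    · rintro h _ ⟨i, rfl⟩
      exact congrArg (fun f : Fin t ↪ α => f i) h
    · intro h
      ext i
      exact h _ ⟨i, rfl⟩
  set Q := (P : Subgroup (MulAction.stabilizer G x)).map (MulAction.stabilizer G x).subtype with hQ
  have hP : IsPGroup p Q := P.isPGroup'.map _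
  have hPi : ¬ p ∣ Q.relIndex (fixingSubgroup G (Set.range x)) := by
    rw [← hst, hQ, Subgroup.relIndex, Subgroup.subgroupOf, Subgroup.comap_map_eq_self_of_injective (Subgroup.subtype_injective _)]
    exact P.not_dvd_index
  have key : ∀ a : Fin t ↪ α, (∀ i, a i ∈ MulAction.fixedPoints Q α) →
      ∃ n ∈ Subgroup.normalizer (Q : Set G), n • x = a := by
    intro a ha
    obtain ⟨g, hg⟩ := hG.exists_smul_eq x a
    obtain ⟨n, hn, h⟩ := exists_normalizer_eq_on hP hPi (g := g) (by
      rintro _ ⟨i, rfl⟩ u hu
      have : g • x i = a i := congrArg (fun f : Fin t ↪ α => f i) hg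
      rw [this]
      exact ha i ⟨u, hu⟩)
    refine ⟨n, hn, ?_⟩
    rw [← hg]
    ext i
    exact h _ ⟨i, rfl⟩
  obtain ⟨m, hm, rfl⟩ := key a ha
  obtain ⟨n, hn, rfl⟩ := key b hb
  exact ⟨n * m⁻¹, mul_mem hn (inv_mem hm), by rw [mul_smul, inv_smul_smul]⟩

end Cfsg.Agent.S4219
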