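import Cfsg.Statements.S4223
import Cfsg.Agent.Lib.BG.Hall

set_option autoImplicit false
open Cfsg

namespace Cfsg.Agent.S4223

section
open Subgroup Cfsg.Lib Cfsg.Lib.BG Cfsg.Lib.Transfer

theorem idem {M : Type*} [Monoid M] [Finite M] (f : M) : ∃ n, f ^ (n + 1) * f ^ (n + 1) = f ^ (n + 1) := by
  obtain ⟨a, b, hab, e⟩ : ∃ a b : ℕ, a < b ∧ f ^ a = f ^ b := by
    obtain ⟨a, b, hab, e⟩ := Finite.exists_ne_map_eq_of_infinite fun n : ℕ => f ^ n
    exact hab.lt_or_gt.elim (fun h => ⟨a, b, h, e⟩) fun h => ⟨b, a, h, e.symm⟩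
  obtain ⟨d, rfl⟩ := Nat.exists_eq_add_of_lt hab
  have h : ∀ k, f ^ (a + k * (d + 1)) = f ^ a := fun k => by
    induction k with
    | zero => simp
    | succ k ih => rw [show a + (k + 1) * (d + 1) = a + d + 1 + k * (d + 1) by ring, pow_add, ← e, ← pow_add, ih]
  refine ⟨a + (a + 1) * d, ?_⟩
  rw [← pow_add, show a + (a + 1) * d + 1 + (a + (a + 1) * d + 1) = a + (a + 1) * (d + 1) + ((a + 1) * d + 1) by ring,
    pow_add, h, ← pow_add, add_assoc]

open Subgroup in
theorem fitting {A : Type*} [Group A] [Finite A]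
    (hA : ∀ H K : Subgroup A, H.Normal → K.Normal → H ⊓ K = ⊥ → H ⊔ K = ⊤ → H = ⊥ ∨ K = ⊥) (f : Monoid.End A)
    (hf : ∀ a b, f (a * b * a⁻¹) = a * f b * a⁻¹) {x : A} (hx : f x = x) (hx1 : x ≠ 1) : Function.Injective f := by
  haveI : Finite (Monoid.End A) := Finite.of_injective (fun g : Monoid.End A => (g : A → A)) DFunLike.coe_injective
  obtain ⟨n, hn⟩ := idem f
  have h1 : ∀ k, (f ^ k) x = x ∧ ∀ a b, (f ^ k) (a * b * a⁻¹) = a * (f ^ k) b * a⁻¹ := fun k => by
    induction k with
    | zero => simp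
    | succ k ih => simp only [pow_succ, Monoid.End.coe_mul, Function.comp, hx, hf, ih, implies_true, and_self]
  have h2 : ∀ a, (f ^ (n + 1)) ((f ^ (n + 1)) a) = (f ^ (n + 1)) a := fun a => DFunLike.congr_fun hn a
  rcases hA (MonoidHom.ker (f ^ (n + 1) : Monoid.End A)) (MonoidHom.range (f ^ (n + 1) : Monoid.End A)) inferInstance
    ⟨by rintro _ ⟨b, rfl⟩ a; exact ⟨_, (h1 _).2 a b⟩⟩ (eq_bot_iff.2 (by rintro _ ⟨h, b, rfl⟩; exact (h2 b).symm.trans h))
    (eq_top_iff.2 fun a _ => by
      simpa using mul_mem_sup (S := MonoidHom.ker (f ^ (n + 1) : Monoid.End A)) (x := a * ((f ^ (n + 1)) a)⁻¹)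
        (T := MonoidHom.range (f ^ (n + 1) : Monoid.End A)) (y := (f ^ (n + 1)) a)
        (show (f ^ (n + 1)) _ = 1 by rw [map_mul, map_inv, h2, mul_inv_cancel]) ⟨a, rfl⟩) with h | h
  · have := (MonoidHom.ker_eq_bot_iff _).1 h
    rw [pow_succ] at this
    exact Function.Injective.of_comp (f := (f ^ n : Monoid.End A)) this
  · exact absurd (h.le ⟨x, (h1 _).1⟩) hx1

open Subgroup in
theorem exchange {A ι : Type*} {B : ι → Type*} [Group A] [Finite A] [Nontrivial A] [Fintype ι] [DecidableEq ι]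
    [∀ j, Group (B j)] (hA : ∀ H K : Subgroup A, H.Normal → K.Normal → H ⊓ K = ⊥ → H ⊔ K = ⊤ → H = ⊥ ∨ K = ⊥)
    (g : A →* ((j : ι) → B j)) (h : ((j : ι) → B j) →* A) (hg : ∀ a, h (g a) = a) :
    ∃ j, Function.Injective fun a => h (Pi.mulSingle j (g a j)) := by
  let P : Finset ι → ((j : ι) → B j) →* ((j : ι) → B j) := fun S =>
    MonoidHom.mk' (fun b j => if j ∈ S then b j else 1) fun b c => by ext j; by_cases h : j ∈ S <;> simp [h]
  let F : Finset ι → Monoid.End A := fun S => h.comp ((P S).comp g)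
  have hF : ∀ S a b, F S (a * b * a⁻¹) = a * F S b * a⁻¹ := fun S a b => by
    have : P S (g a * g b * (g a)⁻¹) = g a * P S (g b) * (g a)⁻¹ := by
      ext j; by_cases h : j ∈ S <;> simp [P, h]
    change h (P S (g _)) = a * h (P S (g b)) * a⁻¹
    rw [map_mul g, map_mul g, map_inv g, this, map_mul, map_mul, map_inv, hg]
  suffices ∀ S, Function.Injective (F S) → ∃ j, Function.Injective fun a => h (Pi.mulSingle j (g a j)) from
    this Finset.univ fun a b e => by
      have : ∀ a, F Finset.univ a = a := fun a => (congrArg h (by ext j; simp [P])).trans (hg a)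
      rwa [this, this] at e
  intro S
  induction S using Finset.induction_on with
  | empty =>
    intro e
    obtain ⟨a, ha⟩ := exists_ne (1 : A)
    exact absurd (e (a₁ := a) (a₂ := 1) (congrArg h (by ext j; simp [P]))) ha
  | insert j S hj ih =>
    intro e
    by_cases h1 : Function.Injective (F S)
    · exact ih h1
    obtain ⟨x, h2, h3⟩ : ∃ x, F S x = 1 ∧ x ≠ 1 := by simpa [injective_iff_map_eq_one] using h1
    let α := MulEquiv.ofBijective (F (insert j S)) (Finite.injective_iff_bijective.1 e)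
    have h4 : ∀ a, α a = F {j} a * F S a := fun a => (congrArg h (by
      ext k; by_cases h : k = j <;> by_cases h' : k ∈ S <;> simp_all [P])).trans (map_mul h _ _)
    have h5 := fitting hA (α.symm.toMonoidHom.comp (F {j})) (fun a b => α.injective (by
      change α (α.symm (F {j} _)) = F (insert j S) (a * α.symm (F {j} b) * a⁻¹)
      rw [hF, hF, α.apply_symm_apply]
      exact congrArg (a * · * a⁻¹) (α.apply_symm_apply _).symm)) (x := x)
      (α.symm_apply_eq.2 (by rw [h4, h2, mul_one]; rfl)) h3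
    refine ⟨j, fun a b e => h5 (congrArg α.symm ?_)⟩
    have : ∀ a, F {j} a = h (Pi.mulSingle j (g a j)) := fun a => congrArg h (by
      ext k; by_cases h : k = j
      · subst h; simp [P]
      · simp [P, h])
    exact (this a).trans (e.trans (this b).symm)

end

/-- If a finite group is isomorphic both to a direct product of `m` directly indecomposable nontrivial groups and to a direct product of `n` such groups (a group is directly indecomposable when it is not the internal direct product of two nontrivial normal subgroups), then `m = n` and the factors are isomorphic in pairs after a suitable matching. -/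
theorem result {m n : ℕ} {A : Fin m → Type*} {B : Fin n → Type*} [∀ i, Group (A i)] [∀ j, Group (B j)] [∀ i, Finite (A i)] [∀ j, Finite (B j)] (hA : ∀ i, Nontrivial (A i) ∧ ∀ H K : Subgroup (A i), H.Normal → K.Normal → H ⊓ K = ⊥ → H ⊔ K = ⊤ → H = ⊥ ∨ K = ⊥) (hB : ∀ j, Nontrivial (B j) ∧ ∀ H K : Subgroup (B j), H.Normal → K.Normal → H ⊓ K = ⊥ → H ⊔ K = ⊤ → H = ⊥ ∨ K = ⊥) (e : ((i : Fin m) → A i) ≃* ((j : Fin n) → B j)) : ∃ σ : Fin m ≃ Fin n, ∀ i, Nonempty (A i ≃* B (σ i)) := by
  open Subgroup Cfsg.Lib Cfsg.Lib.BG Cfsg.Lib.Transfer in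
  induction m generalizing n with
  | zero =>
    obtain rfl : n = 0 := by_contra fun h => by
      obtain ⟨k, rfl⟩ := Nat.exists_eq_succ_of_ne_zero h
      haveI := (hB 0).1
      haveI := e.symm.injective.subsingleton
      exact not_subsingleton (B 0) (Function.surjective_eval 0).subsingleton
    exact ⟨Equiv.refl _, fun i => i.elim0⟩
  | succ m ih =>
  haveI := (hA 0).1
  let g := e.toMonoidHom.comp (MonoidHom.mulSingle A 0)
  let h := (Pi.evalMonoidHom A 0).comp e.symm.toMonoidHom
  obtain ⟨j, hj⟩ := exchange (hA 0).2 g h fun a => by simp [g, h]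
  let g' := (Pi.evalMonoidHom B j).comp g
  let h' := h.comp (MonoidHom.mulSingle B j)
  replace hj : Function.Injective (h'.comp g') := hj
  have hg : Function.Injective g' := Function.Injective.of_comp (f := h') hj
  have hs := Finite.injective_iff_surjective.1 hj
  have hg' : g'.range = ⊤ := by
    have h1 : g'.range.Normal := ⟨by
      rintro _ ⟨a, rfl⟩ b
      refine ⟨h' b * a * (h' b)⁻¹, ?_⟩
      have : Pi.mulSingle 0 (h' b * a * (h' b)⁻¹) = e.symm (Pi.mulSingle j b) * Pi.mulSingle 0 a *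
          (e.symm (Pi.mulSingle j b))⁻¹ := by
        ext i; by_cases hi : i = 0
        · subst hi; simp [h', h]
        · simp [hi]
      change e (Pi.mulSingle 0 _) j = b * e (Pi.mulSingle 0 a) j * b⁻¹
      rw [this]; simp⟩
    have h2 : g'.range ⊔ h'.ker = ⊤ := eq_top_iff.2 fun b _ => by
      obtain ⟨a, ha⟩ := hs (h' b)
      simpa using mul_mem_sup (S := g'.range) (T := h'.ker) ⟨a, rfl⟩ (y := (g' a)⁻¹ * b)
        (show h' _ = 1 by rw [map_mul, map_inv, ← ha]; simp)
    rcases (hB j).2 _ _ h1 inferInstance (eq_bot_iff.2 (by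
      rintro _ ⟨⟨a, rfl⟩, ha⟩
      rw [(injective_iff_map_eq_one _).1 hj a ha, map_one]; exact one_mem _)) h2 with h3 | h3
    · obtain ⟨a, ha⟩ := exists_ne (1 : A 0)
      exact absurd ((injective_iff_map_eq_one _).1 hg a (h3.le ⟨a, rfl⟩)) ha
    · rwa [h3, sup_bot_eq] at h2
  let e0 := MulEquiv.ofBijective g' ⟨hg, MonoidHom.range_eq_top.1 hg'⟩
  obtain ⟨n, rfl⟩ : ∃ k, n = k + 1 := ⟨n - 1, by have := j.pos; omega⟩
  let ψ : ((k : Fin n) → B (j.succAbove k)) →* ((i : Fin m) → A i.succ) :=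
    MonoidHom.mk' (fun y i => e.symm (j.insertNth 1 y) i.succ) fun y z => by
      ext i; rw [← mul_one (1 : B j), Fin.insertNth_mul, map_mul, mul_one]; rfl
  have hψ : Function.Injective ψ := (injective_iff_map_eq_one _).2 fun y hy => by
    have h1 : e.symm (j.insertNth 1 y) = Pi.mulSingle 0 (e.symm (j.insertNth 1 y) 0) := by
      ext i; rcases Fin.eq_zero_or_eq_succ i with rfl | ⟨i, rfl⟩
      · simp
      · simpa [ψ] using congrFun hy i
    have h2 : e.symm (j.insertNth 1 y) 0 = 1 := (injective_iff_map_eq_one _).1 hg _ (by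
      change e (Pi.mulSingle 0 _) j = 1
      rw [← h1]; simp)
    rw [h2, Pi.mulSingle_one, MulEquiv.symm_apply_eq, map_one] at h1
    ext k
    simpa using congrFun h1 (j.succAbove k)
  have hc := Nat.card_congr e.toEquiv
  rw [Nat.card_pi, Nat.card_pi, Fin.prod_univ_succ, Fin.prod_univ_succAbove _ j, Nat.card_congr e0.toEquiv,
    ← Nat.card_pi, ← Nat.card_pi] at hc
  obtain ⟨σ, hσ⟩ := ih (fun i => hA i.succ) (fun k => hB (j.succAbove k)) (MulEquiv.ofBijective ψ
    (hψ.bijective_of_nat_card_le (Nat.eq_of_mul_eq_mul_left Nat.card_pos hc).le)).symm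
  refine ⟨(finSuccEquiv m).trans (σ.optionCongr.trans (finSuccEquiv' j).symm), fun i => ?_⟩
  rcases Fin.eq_zero_or_eq_succ i with rfl | ⟨i, rfl⟩
  · rw [show ((finSuccEquiv m).trans (σ.optionCongr.trans (finSuccEquiv' j).symm)) 0 = j by simp]
    exact ⟨e0⟩
  · rw [show ((finSuccEquiv m).trans (σ.optionCongr.trans (finSuccEquiv' j).symm)) i.succ = j.succAbove (σ i) by simp]
    exact hσ i

end Cfsg.Agent.S4223
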