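import Cfsg.Statements.S4226
import Cfsg.Agent.Lib.BG.Hall
import Cfsg.Agent.Lib.FGS.HallWielandt

set_option autoImplicit false
open Cfsg

namespace Cfsg.Agent.S4226

/-- Let `P` be a Sylow `p`-subgroup of the finite group `G` with nilpotency class less than `p` (the term of index `p - 1` of the lower central series of `P`, indexed from `0`, is trivial), and let `N` be its normalizer. Then `O^p(N) = O^p(G) ∩ N`, where `O^p` denotes the subgroup generated by the elements of order prime to `p`; so the largest `p`-factor groups of `G` and of `N` are isomorphic. -/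
theorem result {G : Type*} [Group G] [Finite G] {p : ℕ} [Fact p.Prime] (P : Sylow p G) (hcl : (P : Subgroup G).lowerCentralSeries (p - 1) = ⊥) : Cfsg.pResidualOf p (Subgroup.normalizer ((P : Subgroup G) : Set G)) = Cfsg.pResidual p G ⊓ Subgroup.normalizer ((P : Subgroup G) : Set G) := by
  open Subgroup Cfsg.Lib Cfsg.Lib.BG Cfsg.Lib.Transfer in
  open Cfsg.Lib.FGS commutatorElement in
  by_contra e
  obtain ⟨x, hx, z, hz, W, -, -, h1⟩ := hall_wielandt P (W := P)
    ⟨le_rfl, fun g hg => eq_of_le_of_card_ge hg (card_conj g _).ge⟩ (Ne.symm e)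
  have h2 : ∀ n, (fun y : G => y⁻¹ * z⁻¹ * y * z)^[n] x ∈ (P : Subgroup G).lowerCentralSeries n := fun n => by
    induction n with
    | zero => exact hx
    | succ n ih =>
      rw [Function.iterate_succ_apply', Subgroup.lowerCentralSeries_succ]
      simpa [commutatorElement_def] using commutator_mem_commutator (inv_mem ih) (inv_mem hz)
  exact h1 (mem_bot.1 (hcl ▸ h2 _) ▸ one_mem _)

end Cfsg.Agent.S4226
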