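import Cfsg.Statements.S4227
import Cfsg.Agent.Lib.HH.PLen
import Cfsg.Agent.Lib.Char.Burnside

set_option autoImplicit false
open Cfsg

namespace Cfsg.Agent.S4227

/-- A finite group in which every element has order dividing `6` has `2`-length at most `1` and `3`-length at most `1`. -/
theorem result {G : Type*} [Group G] [Finite G] (h : ∀ x : G, x ^ 6 = 1) : Cfsg.PLengthLE 2 1 G ∧ Cfsg.PLengthLE 3 1 G := by
  have hs : Group.IsSolvable G := Lib.Char.isSolvable_of_card_primeFactors_le_two G (by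
    refine (Finset.card_le_card (t := {2, 3}) fun q hq => ?_).trans Finset.card_le_two
    haveI := Fact.mk (Nat.prime_of_mem_primeFactors hq)
    obtain ⟨x, hx⟩ := exists_prime_orderOf_dvd_card' q (Nat.dvd_of_mem_primeFactors hq)
    rcases ((Nat.prime_of_mem_primeFactors hq).dvd_mul (m := 2) (n := 3)).1 (hx ▸ orderOf_dvd_of_pow_eq_one (h x)) with e | e
    · simp [(Nat.prime_dvd_prime_iff_eq Fact.out Nat.prime_two).1 e]
    · simp [(Nat.prime_dvd_prime_iff_eq Fact.out Nat.prime_three).1 e])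
  have key : ∀ (p q : ℕ), p.Coprime q → p * q = 6 → ∀ (x : G) (l : ℕ), x ^ p ^ l = 1 → x ^ p ^ 1 = 1 := fun p q hc e x l hx => by
    rw [pow_one, ← orderOf_dvd_iff_pow_eq_one]
    exact ((hc.pow_left l).coprime_dvd_left (orderOf_dvd_of_pow_eq_one hx)).dvd_of_dvd_mul_right (e ▸ orderOf_dvd_of_pow_eq_one (h x))
  haveI := Fact.mk Nat.prime_two
  haveI := Fact.mk Nat.prime_three
  refine ⟨Lib.HH.ModB.pLength_le_exp 1 G (Lib.Core.isPSolvable_of_isSolvable hs) (fun n₀ q m h1 h2 hq h3 h4 => ?_) (key 2 3 (by decide) rfl),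
    Lib.HH.ModB.pLength_le_exp 1 G (Lib.Core.isPSolvable_of_isSolvable hs) (fun n₀ q m h1 h2 hq h3 h4 Q hQ => ?_) (key 3 2 (by decide) rfl)⟩
  · obtain rfl := le_antisymm h1 h2
    exact absurd h4 (Nat.one_lt_pow (by omega) hq.one_lt).ne
  · obtain rfl := le_antisymm h1 h2
    obtain rfl : q = 2 := (Nat.prime_dvd_prime_iff_eq hq Nat.prime_two).1 ((dvd_pow_self q (by omega)).trans h4.symm.dvd)
    have : ∀ x : Q, x * x = 1 := fun x => by
      obtain ⟨l, hl⟩ := hQ x
      exact Subtype.ext ((sq _).symm.trans (key 2 3 (by decide) rfl x l (congrArg Subtype.val hl)))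
    exact ⟨⟨fun a b => by
      rw [← mul_one (a * b), ← this (b * a), ← mul_assoc, mul_assoc a, ← mul_assoc b b, this, one_mul, this, one_mul]⟩⟩

end Cfsg.Agent.S4227
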