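import Cfsg.Statements.S4274
import Cfsg.Agent.Lib.Small.SieveFT

set_option autoImplicit false
open Cfsg

namespace Cfsg.Agent.S4274

open Subgroup Cfsg.Lib.Small

instance fact19 : Fact (Nat.Prime 19) := ⟨by norm_num⟩

theorem sieve : (divs 420 175560).all (fun d => d % 19 != 0 || d == 175560 || excl 420 d) = true := by
  decide +kernel

theorem top {G : Type*} [Group G] [Finite G] (hG : Nat.card G ∣ 175560) {N : Subgroup G} [N.Normal]
    (hN : N.index = 19) (P : Sylow 19 G) : (P : Subgroup G).Normal := by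
  have h0 : Nat.card G ≠ 0 := Nat.card_pos.ne'
  have h19 : 19 ∣ Nat.card G := hN ▸ N.index_dvd_card
  rw [← Subgroup.normalizer_eq_top_iff, ← Subgroup.index_eq_one,
    ← show Nat.card (Sylow 19 G) = (normalizer ((P : Subgroup G) : Set G)).index from
      P.card_eq_index_normalizer]
  by_contra h1
  obtain ⟨p, pp, hp⟩ := Nat.exists_prime_and_dvd h1
  haveI := Fact.mk pp
  have p19 : p ≠ 19 := by
    rintro rfl
    exact not_dvd_card_sylow 19 G hp
  obtain ⟨Q⟩ : Nonempty (Sylow p G) := inferInstance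
  have hQN : (Q : Subgroup G) ≤ N := by
    intro x hx
    have a1 : orderOf (QuotientGroup.mk' N x) ∣ 19 := hN ▸ orderOf_dvd_natCard _
    obtain ⟨k, hk⟩ := Q.2 ⟨x, hx⟩
    have a2 : orderOf (QuotientGroup.mk' N x) ∣ p ^ k := orderOf_dvd_of_pow_eq_one (by
      rw [← map_pow, show x ^ p ^ k = 1 from congrArg Subtype.val hk, map_one])
    exact (QuotientGroup.eq_one_iff x).1 (orderOf_eq_one_iff.1 (Nat.eq_one_of_dvd_coprimes
      (((Nat.coprime_primes fact19.out pp).2 p19.symm).pow_right k) a1 a2))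
  have hF : normalizer ((Q : Subgroup G) : Set G) ⊔ N = ⊤ := Q.normalizer_sup_eq_top' hQN
  have d19 : 19 ∣ Nat.card (normalizer ((Q : Subgroup G) : Set G)) := by
    have := Subgroup.relIndex_sup_right (normalizer ((Q : Subgroup G) : Set G)) N
    rw [hF, Subgroup.relIndex_top_right, hN] at this
    exact this ▸ Subgroup.relIndex_dvd_card _ _
  obtain ⟨x, hx, ox⟩ := exists_mem_orderOf_eq_prime fact19.out d19
  have cQ : Nat.card Q ≤ 11 := by
    obtain ⟨k, hk⟩ := IsPGroup.iff_card.1 Q.2
    have a1 : p ^ k * 19 ∣ 175560 := Nat.Coprime.mul_dvd_of_dvd_of_dvd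
      (((Nat.coprime_primes pp fact19.out).2 p19).pow_left k)
      ((hk ▸ Subgroup.card_subgroup_dvd_card (Q : Subgroup G)).trans hG) (by norm_num)
    have a2 : p ^ k ∣ 9240 := Nat.dvd_of_mul_dvd_mul_right (by norm_num : 0 < 19) a1
    change Nat.card (Q : Subgroup G) ≤ 11
    rw [hk]
    have key : (divs 100 9240).all (fun d => d ≤ 11 || [2, 3, 5, 7, 11].any fun a => [2, 3, 5, 7, 11].any
      fun b => a ≠ 1 ∧ b ≠ 1 ∧ Nat.gcd a b = 1 ∧ a ∣ d ∧ b ∣ d) = true := by decide +kernel
    have := List.all_eq_true.1 key _ (mem_divs (by norm_num) (by norm_num) a2)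
    simp only [Bool.or_eq_true, decide_eq_true_eq, List.any_eq_true] at this
    rcases this with h | ⟨a, -, b, -, b1, b2, b3, b4, b5⟩
    · exact h
    · obtain ⟨i, -, rfl⟩ := (Nat.dvd_prime_pow pp).1 b4
      obtain ⟨j, -, rfl⟩ := (Nat.dvd_prime_pow pp).1 b5
      exact absurd (Nat.dvd_one.1 (b3 ▸ Nat.dvd_gcd (dvd_pow_self p (by rintro rfl; simp at b1))
        (dvd_pow_self p (by rintro rfl; simp at b2)))) pp.one_lt.ne'
  have hc : x ∈ centralizer ((Q : Subgroup G) : Set G) := by
    have a1 : orderOf (Subgroup.normalizerMonoidHom (Q : Subgroup G) ⟨x, hx⟩) ∣ 19 :=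
      (orderOf_map_dvd _ _).trans (by rw [← Subgroup.orderOf_coe, ox])
    have a2 : orderOf (Subgroup.normalizerMonoidHom (Q : Subgroup G) ⟨x, hx⟩) ∣ Nat.factorial 11 := by
      refine (_root_.orderOf_dvd_natCard _).trans ((Subgroup.card_dvd_of_injective (MulAut.toPerm _)
        (fun a b h => MulEquiv.toEquiv_injective h)).trans ?_)
      rw [Nat.card_perm]
      exact Nat.factorial_dvd_factorial cQ
    have := MonoidHom.mem_ker.2 (orderOf_eq_one_iff.1 (Nat.eq_one_of_dvd_coprimes (by decide) a1 a2))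
    rw [Subgroup.normalizerMonoidHom_ker] at this
    exact this
  obtain ⟨P', hP'⟩ := (IsPGroup.of_card (p := 19) (G := zpowers x) (n := 1)
    (by rw [Nat.card_zpowers, ox, pow_one])).exists_le_sylow
  have e : zpowers x = P' := by
    refine Subgroup.eq_of_le_of_card_ge hP' ?_
    obtain ⟨k, hk⟩ := IsPGroup.iff_card.1 P'.2
    have a1 : 19 ^ k ∣ 175560 := (hk ▸ Subgroup.card_subgroup_dvd_card (P' : Subgroup G)).trans hG
    have a2 : k ≤ 1 := by
      by_contra h
      exact absurd ((pow_dvd_pow 19 (by omega : 2 ≤ k)).trans a1) (by norm_num)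
    rw [hk, Nat.card_zpowers, ox]
    exact (Nat.pow_le_pow_right (by norm_num) a2).trans (by norm_num)
  have hle : (Q : Subgroup G) ≤ normalizer ((P' : Subgroup G) : Set G) := by
    refine le_trans (fun y hy => ?_) (Subgroup.centralizer_le_normalizer _)
    rw [← e]
    rintro _ ⟨n, rfl⟩
    exact ((show Commute y x from hc y hy).zpow_right n).eq.symm
  rw [show Nat.card (Sylow 19 G) = (normalizer ((P' : Subgroup G) : Set G)).index from
      P'.card_eq_index_normalizer] at hp
  exact Q.not_dvd_index (hp.trans (Subgroup.index_dvd_of_le hle))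

universe u

theorem aux (n : ℕ) : ∀ (G : Type u) [Group G] [Finite G], Nat.card G = n → n ∣ 175560 →
    (IsSimpleGroup G → n ≠ 175560) → ∀ P : Sylow 19 G, (P : Subgroup G).Normal := by
  induction n using Nat.strong_induction_on with
  | _ n ih =>
  intro G _ _ hn hd hs P
  by_cases h0 : (P : Subgroup G) = ⊥
  · rw [h0]; infer_instance
  have h19 : 19 ∣ Nat.card (P : Subgroup G) := by
    obtain ⟨k, hk⟩ := IsPGroup.iff_card.1 P.2
    rcases k with _ | k
    · exact absurd (Subgroup.card_eq_one.1 hk) h0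
    · rw [hk]; exact dvd_pow_self _ k.succ_ne_zero
  have hn0 : n ≤ 175560 := Nat.le_of_dvd (by norm_num) hd
  by_cases hS : IsSimpleGroup G
  · by_cases hc : IsMulCommutative G
    · infer_instance
    have := List.all_eq_true.1 sieve n (mem_divs (by norm_num) (by norm_num) hd)
    have h2 := not_excl (B := 420) hc (two_dvd_card_of_simple hc)
    have h3 := h19.trans (Subgroup.card_subgroup_dvd_card _)
    rw [hn] at h2 h3
    simp [h2, hs hS, Nat.mod_eq_zero_of_dvd h3] at this
  haveI : Nontrivial G := by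
    by_contra h
    rw [not_nontrivial_iff_subsingleton] at h
    exact h0 (Subsingleton.elim _ _)
  obtain ⟨N, hN, n0, n1⟩ : ∃ N : Subgroup G, N.Normal ∧ N ≠ ⊥ ∧ N ≠ ⊤ := by
    by_contra h
    push Not at h
    exact hS ⟨fun N hN => by_contra fun h' => (not_or.1 h').2 (h N hN (not_or.1 h').1)⟩
  have sub : ∀ M : Subgroup G, M.Normal → M ≠ ⊤ → (P : Subgroup G) ≤ M → (P : Subgroup G).Normal := by
    intro M hM m1 hle
    have a1 : Nat.card M < n := by
      have := M.card_mul_index
      have := Subgroup.one_lt_index_of_ne_top m1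
      have : 0 < Nat.card M := Nat.card_pos
      nlinarith
    haveI := ih _ a1 M rfl ((hn ▸ M.card_subgroup_dvd_card).trans hd) (fun _ => by omega) (P.subtype hle)
    haveI := (P.subtype hle).characteristic_of_normal this
    have := ConjAct.normal_of_characteristic_of_normal (H := M) (K := (P.subtype hle : Subgroup M))
    rwa [Sylow.coe_subtype, Subgroup.subgroupOf_map_subtype, inf_eq_left.2 hle] at this
  have a2 : Nat.card (G ⧸ N) < n := by
    have := N.card_mul_index
    have := (Subgroup.one_lt_card_iff_ne_bot N).2 n0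
    have := Nat.pos_of_ne_zero (N.index_ne_zero_of_finite)
    rw [← Subgroup.index_eq_card]; nlinarith
  have hQ := ih _ a2 (G ⧸ N) rfl ((hn ▸ N.card_quotient_dvd_card).trans hd) (fun _ => by omega)
    (P.mapSurjective (QuotientGroup.mk'_surjective N))
  rw [Sylow.coe_mapSurjective] at hQ
  by_cases hM : ((P : Subgroup G).map (QuotientGroup.mk' N)) = ⊤
  · refine top (N := N) (hn ▸ hd) ?_ P
    have b1 : IsPGroup 19 (G ⧸ N) := (P.2.map (QuotientGroup.mk' N)).of_surjective
      ((P : Subgroup G).map (QuotientGroup.mk' N)).subtype fun x => ⟨⟨x, hM ▸ trivial⟩, rfl⟩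
    obtain ⟨k, hk⟩ := IsPGroup.iff_card.1 b1
    rw [← Subgroup.index_eq_card] at hk
    have b2 : 19 ^ k ∣ 175560 := (hk ▸ hn ▸ N.index_dvd_card).trans hd
    have b3 : k ≤ 1 := by
      by_contra h
      exact absurd ((pow_dvd_pow 19 (by omega : 2 ≤ k)).trans b2) (by norm_num)
    have b4 := Subgroup.one_lt_index_of_ne_top n1
    interval_cases k <;> omega
  · refine sub _ (hQ.comap (QuotientGroup.mk' N)) (fun h => hM ?_) (Subgroup.le_comap_map _ _)
    exact Subgroup.comap_injective (QuotientGroup.mk'_surjective N) (h.trans (Subgroup.comap_top _).symm)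

/-- A finite group of order 175560 = 2³·3·5·7·11·19 is either simple or has a normal Sylow 19-subgroup. -/
theorem result {G : Type*} [Group G] [Finite G] (hG : Nat.card G = 175560) : IsSimpleGroup G ∨ ∀ P : Sylow 19 G, (P : Subgroup G).Normal := by
  by_cases h : IsSimpleGroup G
  · exact Or.inl h
  · exact Or.inr (aux _ G hG dvd_rfl fun h' => absurd h' h)

end Cfsg.Agent.S4274
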