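import Cfsg.Statements.S4275

set_option autoImplicit false
open Cfsg

namespace Cfsg.Agent.S4275

/-- Let G be a transitive group of permutations of a finite set Ω, let o ∈ Ω, and let α be an automorphism of G. Then α is induced by conjugation by a permutation of Ω normalizing G if and only if the image under α of the stabilizer of o fixes some point of Ω. -/
theorem result {Ω : Type*} [Fintype Ω] (G : Subgroup (Equiv.Perm Ω)) (htr : MulAction.IsPretransitive G Ω) (o : Ω) (α : G ≃* G) : (∃ σ : Equiv.Perm Ω, σ ∈ Subgroup.normalizer (G : Set (Equiv.Perm Ω)) ∧ ∀ g : G, ((α g : G) : Equiv.Perm Ω) = σ * (g : Equiv.Perm Ω) * σ⁻¹) ↔ ∃ ω : Ω, ∀ g ∈ (MulAction.stabilizer G o).map α.toMonoidHom, g • ω = ω := by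
  constructor
  · rintro ⟨σ, -, h⟩
    refine ⟨σ o, ?_⟩
    rintro _ ⟨g, hg, rfl⟩
    change ((α g : G) : Equiv.Perm Ω) (σ o) = σ o
    have : (g : Equiv.Perm Ω) o = o := hg
    rw [h]; simp [this]
  · rintro ⟨ω, h⟩
    choose t ht using fun y => htr.exists_smul_eq o y
    let f : Ω → Ω := fun y => α (t y) • ω
    have hf : ∀ g : G, f (g • o) = α g • ω := fun g => by
      have h1 : g⁻¹ * t (g • o) ∈ MulAction.stabilizer G o := by
        rw [MulAction.mem_stabilizer_iff, mul_smul, ht, inv_smul_smul]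
      have h2 := h _ ⟨_, h1, rfl⟩
      simp only [MulEquiv.coe_toMonoidHom, map_mul, map_inv, mul_smul, inv_smul_eq_iff] at h2
      exact h2
    have hs : Function.Surjective f := fun y => by
      obtain ⟨g, rfl⟩ := htr.exists_smul_eq ω y
      exact ⟨α.symm g • o, by rw [hf, α.apply_symm_apply]⟩
    let σ : Equiv.Perm Ω := Equiv.ofBijective f ⟨Finite.injective_iff_surjective.2 hs, hs⟩
    have hσ : ∀ g : G, ((α g : G) : Equiv.Perm Ω) = σ * (g : Equiv.Perm Ω) * σ⁻¹ := fun g => by
      rw [eq_mul_inv_iff_mul_eq]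
      ext y
      obtain ⟨k, rfl⟩ := htr.exists_smul_eq o y
      change α g • f (k • o) = f (g • k • o)
      rw [hf k, ← mul_smul g k o, hf, map_mul, mul_smul]
    refine ⟨σ, fun g => ⟨fun hg => ?_, fun hg => ?_⟩, hσ⟩
    · rw [← hσ ⟨g, hg⟩]; exact (α ⟨g, hg⟩).2
    · have := hσ (α.symm ⟨_, hg⟩)
      rw [α.apply_symm_apply] at this
      have h2 : g = (α.symm ⟨_, hg⟩ : G) := by simpa using this
      rw [h2]; exact Subtype.prop _

end Cfsg.Agent.S4275
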