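import Cfsg.Statements.S4276
import Cfsg.Agent.Lib.Perm.Linked

set_option autoImplicit false
open Cfsg

namespace Cfsg.Agent.S4276

/-- Let G be a doubly transitive group of permutations of a finite set Ω of size n, let o ∈ Ω, and let α be an automorphism of G of odd order. Suppose that the image under α of the stabilizer of o has an orbit on Ω whose length k is coprime to n. Then α is induced by conjugation by a permutation of Ω normalizing G, and k = 1 or k = n − 1. -/
theorem result {Ω : Type*} [Fintype Ω] (G : Subgroup (Equiv.Perm Ω)) (h2 : MulAction.IsMultiplyPretransitive G Ω 2) (o : Ω) (α : MulAut G) (hα : Odd (orderOf α)) (ω : Ω) (hk : (Nat.card (MulAction.orbit ((MulAction.stabilizer G o).map α.toMonoidHom) ω)).Coprime (Fintype.card Ω)) : (∃ σ : Equiv.Perm Ω, σ ∈ Subgroup.normalizer (G : Set (Equiv.Perm Ω)) ∧ ∀ g : G, ((α g : G) : Equiv.Perm Ω) = σ * (g : Equiv.Perm Ω) * σ⁻¹) ∧ (Nat.card (MulAction.orbit ((MulAction.stabilizer G o).map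 α.toMonoidHom) ω) = 1 ∨ Nat.card (MulAction.orbit ((MulAction.stabilizer G o).map α.toMonoidHom) ω) = Fintype.card Ω - 1) := by
  obtain ⟨⟨σ, hσ⟩, h⟩ := Cfsg.Lib.Perm.Linked.feit h2 o hα ω hk
  have e : ∀ g : G, ((α g : G) : Equiv.Perm Ω) = σ * (g : Equiv.Perm Ω) * σ⁻¹ := fun g =>
    Equiv.ext fun x => by simpa [Subgroup.smul_def] using hσ g (σ⁻¹ x)
  refine ⟨⟨σ, Subgroup.mem_normalizer_iff.2 fun g => ⟨fun hg => ?_, fun hg => ?_⟩, e⟩, h⟩
  · exact e ⟨g, hg⟩ ▸ (α ⟨g, hg⟩).2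
  · have := e (α.symm ⟨_, hg⟩)
    rw [MulEquiv.apply_symm_apply] at this
    have h1 : g = (α.symm ⟨_, hg⟩ : G) := by simpa using this
    exact h1 ▸ (α.symm ⟨_, hg⟩).2

end Cfsg.Agent.S4276
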