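import Cfsg.Statements.S4277
import Cfsg.Agent.Lib.Perm.Linked
import Cfsg.Agent.Lib.Perm.PrimeDegree2
import Cfsg.Agent.Lib.Perm.Neumann

set_option autoImplicit false
open Cfsg

namespace Cfsg.Agent.S4277

open MulAction Cfsg.Lib.Perm

/-- A case of the Schreier conjecture: if a finite simple group G has a subgroup of prime index, then the outer automorphism group of G is solvable. -/
theorem result {G : Type*} [Group G] [Finite G] [IsSimpleGroup G] (H : Subgroup G) (hH : H.index.Prime) : Group.IsSolvable (Cfsg.Out G) := by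
  classical
  by_cases hs : Group.IsSolvable G
  · haveI : IsMulCommutative G := ⟨⟨IsSimpleGroup.comm_iff_isSolvable.2 hs⟩⟩
    letI : CommGroup G := { (inferInstance : Group G) with mul_comm := mul_comm' }
    haveI : IsCyclic G := IsSimpleGroup.isCyclic
    haveI : Group.IsSolvable (MulAut G) := isSolvable_of_comm fun a b =>
      (IsCyclic.mulAutMulEquiv G).injective (by rw [map_mul, map_mul, mul_comm])
    infer_instance
  haveI := Fact.mk hH
  have hH' : H ≠ ⊤ := by rintro rfl; simp at hH; exact Nat.not_prime_one hH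
  haveI : FaithfulSMul G (G ⧸ H) := by
    rcases (Subgroup.normalCore_normal H).eq_bot_or_eq_top with h | h
    · rw [Subgroup.normalCore_eq_ker, MonoidHom.ker_eq_bot_iff] at h
      exact ⟨fun {a b} e => h (Equiv.ext e)⟩
    · exact absurd (eq_top_iff.2 (h ▸ H.normalCore_le)) hH'
  letI := Fintype.ofFinite (G ⧸ H)
  have hc : Nat.card (G ⧸ H) = H.index := rfl
  have h2 : IsMultiplyPretransitive G (G ⧸ H) 2 := two_of_insoluble hc hs
  obtain ⟨P⟩ : Nonempty (Sylow H.index G) := inferInstance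
  obtain ⟨g, e, hP, he⟩ := exists_translation_of_sylow hc P
  have hodd : ∀ α : MulAut G, α g = g → Odd (orderOf α) → α ∈ Cfsg.Inn G := by
    intro α hg hα
    obtain ⟨⟨σ, hσ⟩, -⟩ := Linked.feit h2 (e 0) hα (e 0) (by
      rw [← Nat.card_eq_fintype_card, hc]
      refine (hH.coprime_iff_not_dvd.2 fun hd => not_sq_dvd_card_of_prime_degree (G := G) hH hc ?_).symm
      rw [Nat.card_coe_set_eq] at hd
      have := (hd.trans (index_stabilizer _ _).symm.dvd).trans (Subgroup.index_dvd_card _)
      rw [Subgroup.card_map_of_injective (f := α.toMonoidHom) α.injective] at this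
      rw [card_eq_card_mul_stabilizer (e 0), hc, sq]
      exact mul_dvd_mul_left _ this)
    have h1 : ∀ x, σ x = g ^ (e.symm (σ (e 0))).val • x := by
      intro x
      obtain ⟨j, rfl⟩ := e.surjective x
      have h3 : ∀ n : ℕ, σ (e n) = e (n + e.symm (σ (e 0))) := by
        intro n
        induction n with
        | zero => simp
        | succ n ih =>
          rw [Nat.cast_succ, ← he, ← hσ, hg, ih, he]; congr 1; ring
      rw [pow_smul_zmod he, ZMod.natCast_zmod_val]
      simpa using h3 j.val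
    refine ⟨g ^ (e.symm (σ (e 0))).val, MulEquiv.ext fun h => ?_⟩
    refine FaithfulSMul.eq_of_smul_eq_smul (α := G ⧸ H) fun x => ?_
    obtain ⟨x, rfl⟩ := σ.surjective x
    rw [hσ, h1 (h • x), h1 x]
    rw [MulAut.conj_apply, mul_smul, mul_smul, inv_smul_smul]
  have hN : ∀ a : Cfsg.Out G, ∃ α : MulAut G, (α : Cfsg.Out G) = a ∧ ∃ k : ℤ, α g = g ^ k := by
    intro a
    obtain ⟨α, rfl⟩ := QuotientGroup.mk_surjective a
    obtain ⟨c, hc⟩ := exists_smul_eq G (α • P) P
    refine ⟨α * MulAut.conj (α.symm c), QuotientGroup.mk_mul_of_mem _ ⟨_, rfl⟩, ?_⟩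
    have h1 : c * α g * c⁻¹ ∈ (P : Subgroup G) := by
      rw [← hc]
      exact ⟨α g, ⟨g, hP ▸ Subgroup.mem_zpowers g, rfl⟩, rfl⟩
    rw [hP] at h1
    obtain ⟨k, hk⟩ := h1
    exact ⟨k, by simpa using hk.symm⟩
  have h3 : IsPGroup 2 (commutator (Cfsg.Out G)) := by
    refine IsPGroup.to_le (K := (stabilizer (MulAut G) g).map (QuotientGroup.mk' _)) ?_ ?_
    · rintro ⟨_, α, hα, rfl⟩
      obtain ⟨k, m, hm, hkm⟩ := Nat.exists_eq_two_pow_mul_odd (orderOf_pos α).ne'
      refine ⟨k, Subtype.ext ?_⟩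
      refine (QuotientGroup.eq_one_iff (α ^ 2 ^ k)).2 (hodd _ ((stabilizer _ g).pow_mem hα _) ?_)
      refine hm.of_dvd_nat (orderOf_dvd_of_pow_eq_one ?_)
      rw [← pow_mul, ← hkm, pow_orderOf_eq_one]
    · refine Subgroup.commutator_le.2 fun a _ b _ => ?_
      obtain ⟨α, h1, k, hk⟩ := hN a⁻¹
      obtain ⟨β, h3, l, hl⟩ := hN b⁻¹
      refine ⟨α⁻¹ * β⁻¹ * α * β, ?_, by simp [h1, h3, commutatorElement_def]⟩
      change α⁻¹ (β⁻¹ (α (β g))) = g
      have : α (β g) = β (α g) := by rw [hl, hk, map_zpow, map_zpow, hl, hk, ← zpow_mul, ← zpow_mul, mul_comm]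
      simp [this]
  haveI := h3.isNilpotent
  exact solvable_of_ker_le_range (commutator (Cfsg.Out G)).subtype Abelianization.of (by simp)

end Cfsg.Agent.S4277
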