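import Cfsg.Statements.S4282
import Cfsg.Agent.Lib.HH.ModB

set_option autoImplicit false
open Cfsg

namespace Cfsg.Agent.S4282

/-- A critical case behind the Hall–Higman theorem. Let p ≠ q be primes and G a finite group generated by a normal q-subgroup Q and a cyclic p-subgroup generated by x, such that the centralizer of every non-identity element of that cyclic subgroup is its product with the centre of G. Let K be an algebraically closed field of characteristic p and ρ a faithful representation of G on a nonzero finite-dimensional K-space whose restriction to Q is irreducible. If s is the least exponent with (ρ(x) − 1)^s = 0, then |⟨x⟩| − 1 ≤ s ≤ |⟨x⟩|; and if s = |⟨x⟩| − 1 then |⟨x⟩| − 1 is a power of q and Q is non-abelian. -/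
theorem result {G : Type*} [Group G] [Finite G] (p q : ℕ) [Fact p.Prime] [Fact q.Prime] (hpq : p ≠ q) (Q : Subgroup G) [Q.Normal] (hQ : IsPGroup q Q) (x : G) (hx : IsPGroup p (Subgroup.zpowers x)) (hgen : Q ⊔ Subgroup.zpowers x = ⊤) (hC : ∀ y ∈ Subgroup.zpowers x, y ≠ 1 → Subgroup.centralizer ({y} : Set G) = Subgroup.zpowers x ⊔ Subgroup.center G) {K : Type*} [Field K] [IsAlgClosed K] [CharP K p] {V : Type*} [AddCommGroup V] [Module K V] [FiniteDimensional K V] [Nontrivial V] (ρ : Representation K G V) (hfaith : Function.Injective ρ) (hirr : ∀ W : Submodule K V, (∀ g ∈ Q, Submodule.map (ρ g) W ≤ W) → W = ⊥ ∨ W = ⊤) (s : ℕ) (hs : (ρ x - 1) ^ s = 0) (hmin : ∀ k < s, (ρ x - 1) ^ k ≠ 0) : Nat.card (Subgroup.zpowers x) - 1 ≤ s ∧ s ≤ Nat.card (Subgroup.zpowers x) ∧ (s = Nat.card (Subgroup.zpowers x) - 1 → (∃ b : ℕ, Nat.card (Subgroup.zpowers x) - 1 = q ^ b) ∧ ¬ IsMulCommutative Q) := by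
  obtain ⟨n, hn⟩ := hx.exists_card_eq
  have h1 : x ^ p ^ n = 1 := by rw [← hn, Nat.card_zpowers, pow_orderOf_eq_one]
  have h2 : ρ x ^ p ^ n = 1 := by rw [← map_pow, h1, map_one]
  have h3 : s ≤ p ^ n := not_lt.1 fun h => hmin _ h (by rw [Lib.HH.ModB.sub_one_pow_pow K, h2, sub_self])
  rw [hn]
  rcases n with _ | n
  · refine ⟨by simp, h3, fun e => ?_⟩
    simp [e] at hs
  have h4 : orderOf x = p ^ (n + 1) := (Nat.card_zpowers x).symm.trans hn
  have hp := (Fact.out : p.Prime)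
  have h5 : x ^ p ^ n ≠ 1 := pow_ne_one_of_lt_orderOf (pow_ne_zero _ hp.ne_zero) (h4 ▸ Nat.pow_lt_pow_right hp.one_lt n.lt_succ_self)
  have key := Lib.HH.ModB.crit' (ρ := ρ.comp Q.subtype) hQ hpq.symm (α := MulAut.conjNormal x) (T := ρ x) (n := n)
    (fun c hc => Lib.HH.ModB.Irr.schur (fun W hW => hirr W fun g hg => Submodule.map_le_iff_le_comap.2 (hW ⟨g, hg⟩)) hc)
    (by rw [← map_pow, h1, map_one]) h2
    (fun g => (ρ.map_mul _ _).symm.trans ((congrArg ρ (inv_mul_cancel_right _ _).symm).trans (ρ.map_mul _ _)))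
    (fun g hg => ?_) (fun e => h5 (by rw [hfaith (e.trans ρ.map_one.symm), one_pow])) hs
  · obtain ⟨h6, h7, h8⟩ := key
    exact ⟨by omega, h3, fun e => ⟨(h8 (by have := Nat.one_le_pow (n + 1) _ hp.pos; omega)).2.imp fun m hm => e ▸ hm.2, h7⟩⟩
  rw [← map_pow] at hg
  have h9 : (g : G) ∈ Subgroup.zpowers x ⊔ Subgroup.center G := by
    rw [← hC _ (Subgroup.npow_mem_zpowers x _) h5, Subgroup.mem_centralizer_singleton_iff]
    exact (mul_inv_eq_iff_eq_mul.1 (congrArg Subtype.val hg)).symm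
  obtain ⟨y, hy, z, hz, e⟩ := Subgroup.mem_sup_of_normal_right.1 h9
  have h10 : (g : G) ^ p ^ (n + 1) ∈ Subgroup.center G := by
    rw [← e, Commute.mul_pow (Subgroup.mem_center_iff.1 hz y), ← hn,
      show y ^ Nat.card (Subgroup.zpowers x) = 1 from congrArg Subtype.val (pow_card_eq_one' (x := (⟨y, hy⟩ : Subgroup.zpowers x))), one_mul]
    exact pow_mem hz _
  obtain ⟨k, hk⟩ := hQ g
  have h11 : (g : G) ∈ Subgroup.zpowers ((g : G) ^ p ^ (n + 1)) := mem_zpowers_pow_iff.2 (Nat.Coprime.coprime_dvd_right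
    (orderOf_dvd_of_pow_eq_one (congrArg Subtype.val hk)) (Nat.coprime_pow_primes _ _ hp Fact.out hpq))
  exact Subgroup.mem_center_iff.2 fun a => Subtype.ext (Subgroup.mem_center_iff.1 (Subgroup.zpowers_le_of_mem h10 h11) a)

end Cfsg.Agent.S4282
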