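import Cfsg.Statements.S4283
import Cfsg.Agent.Lib.BG.Hall
import Cfsg.Agent.Lib.BG.T03_1
import Cfsg.Agent.Lib.Frobenius.Theorem

set_option autoImplicit false
open Cfsg

namespace Cfsg.Agent.S4283

/-- Let G be a finite group with centre Z and let K, H be abelian subgroups of G containing Z such that G/Z is a Frobenius group with complement H/Z and kernel K/Z. Then the conjugacy class sizes of G are exactly 1, [G : K] and [G : H], and these two indices are coprime. (This is the converse half of the characterization of finite groups whose conjugacy class sizes are exactly 1, m and n with m and n coprime.) -/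
theorem result {G : Type*} [Group G] [Finite G] (K H : Subgroup G) (hZK : Subgroup.center G ≤ K) (hZH : Subgroup.center G ≤ H) (hK : IsMulCommutative K) (hH : IsMulCommutative H) (hFrob : Cfsg.IsFrobeniusComplement (H.map (QuotientGroup.mk' (Subgroup.center G)))) (hker : Cfsg.frobeniusKernel (H.map (QuotientGroup.mk' (Subgroup.center G))) = (K.map (QuotientGroup.mk' (Subgroup.center G)) : Set (G ⧸ Subgroup.center G))) : Set.range (fun x : G => (Subgroup.centralizer ({x} : Set G)).index) = ({1, K.index, H.index} : Set ℕ) ∧ K.index.Coprime H.index := by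
  open Subgroup Cfsg.Lib Cfsg.Lib.BG Cfsg.Lib.Transfer in
  set π := QuotientGroup.mk' (center G)
  have hs : Function.Surjective π := QuotientGroup.mk'_surjective _
  have hk : π.ker = center G := QuotientGroup.ker_mk' _
  obtain ⟨_, h2, h3, h4⟩ := Frobenius.kernel_of_coe_eq hFrob hker.symm
  have back : ∀ A : Subgroup G, center G ≤ A → ∀ x, π x ∈ A.map π → x ∈ A := fun A h x hx => by
    rwa [← mem_comap, comap_map_eq_self (hk.le.trans h)] at hx
  have one : ∀ x, π x = 1 ↔ x ∈ center G := fun x => QuotientGroup.eq_one_iff x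
  have cK : ∀ x ∈ K, π x ≠ 1 → 𝐂[x] = K := fun x hx h1 => le_antisymm (fun y hy => back K hZK y
    (Frobenius.mem_of_commute_of_mem_kernel le_normalizer_of_normal h4 (mem_map_of_mem _ hx) h1 (h3 ▸ mem_top _)
      (by rw [← map_mul, ← map_mul, mem_cent1.1 hy]))) (le_cent1_iff.2 (abelian_cent hK hx))
  have cH : ∀ x ∈ H, π x ≠ 1 → 𝐂[x] = H := fun x hx h1 => le_antisymm (fun y hy => back H hZH y
    (Frobenius.centralizer_le_of_isFrobeniusComplement hFrob (mem_map_of_mem _ hx) h1
      (mem_cent1.2 (by rw [← map_mul, ← map_mul, mem_cent1.1 hy])))) (le_cent1_iff.2 (abelian_cent hH hx))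
  refine ⟨Set.ext fun n => ⟨?_, ?_⟩, ?_⟩
  · rintro ⟨x, rfl⟩
    by_cases h1 : π x = 1
    · exact .inl (index_eq_one.2 (eq_top_iff.2 fun y _ => mem_cent1.2 (mem_center_iff.1 ((one x).1 h1) y)))
    by_cases h5 : x ∈ K
    · exact .inr (.inl (congrArg index (cK x h5 h1)))
    obtain ⟨-, g, hg⟩ := (Frobenius.not_mem_frobeniusKernel_iff (H.map π) (π x)).1 (hker ▸ fun h => h5 (back K hZK x h))
    obtain ⟨g, rfl⟩ := hs g
    have := cH (g * x * g⁻¹) (back H hZH _ (by simpa using hg)) (by simpa using h1)
    exact .inr (.inr (by rw [← this, ← conj_cent1]; exact (Coprime.index_map_conj g _).symm))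
  · rintro (rfl | rfl | rfl)
    · exact ⟨1, by simp⟩
    · obtain ⟨_, ⟨x, hx, rfl⟩, h1⟩ := exists_ne_one h2
      exact ⟨x, congrArg index (cK x hx h1)⟩
    · obtain ⟨_, ⟨x, hx, rfl⟩, h1⟩ := exists_ne_one hFrob.1
      exact ⟨x, congrArg index (cH x hx h1)⟩
  · rw [← index_map_eq K hs (hk.le.trans hZK), ← index_map_eq H hs (hk.le.trans hZH),
      (Frobenius.isComplement'_of_coe_eq_frobeniusKernel hFrob hker.symm).symm.index_eq_card]
    exact Frobenius.coprime_card_index hFrob

end Cfsg.Agent.S4283
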