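import Cfsg.Statements.S4291
import Cfsg.Agent.Lib.Frobenius.Compl

set_option autoImplicit false
open Cfsg

namespace Cfsg.Agent.S4291

open Subgroup Cfsg.Lib.Frobenius

/-- The quotient types, in normalised form. -/
def Ty {G : Type*} [Group G] (N : Subgroup G) : Prop :=
  N = ⊤ ∨ (∃ f : G →* DihedralGroup 2, Function.Surjective f ∧ f.ker = N) ∨
    (∃ f : G →* Equiv.Perm (Fin 4), alternatingGroup (Fin 4) ≤ f.range ∧ f.ker = N) ∨
    ∃ f : G →* Equiv.Perm (Fin 5), alternatingGroup (Fin 5) ≤ f.range ∧ f.ker = N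

theorem perm_iff {G : Type*} [Group G] {N : Subgroup G} {n : ℕ} :
    (∃ f : G →* Equiv.Perm (Fin (n + 2)), alternatingGroup (Fin (n + 2)) ≤ f.range ∧ f.ker = N) ↔
      (∃ f : G →* alternatingGroup (Fin (n + 2)), Function.Surjective f ∧ f.ker = N) ∨
      ∃ f : G →* Equiv.Perm (Fin (n + 2)), Function.Surjective f ∧ f.ker = N := by
  constructor
  · rintro ⟨f, h1, rfl⟩
    have h2 := index_dvd_of_le h1
    rw [alternatingGroup.index_eq_two, Nat.dvd_prime Nat.prime_two] at h2
    rcases h2 with h2 | h2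
    · exact Or.inr ⟨f, MonoidHom.range_eq_top.1 (index_eq_one.1 h2), rfl⟩
    · have h3 := Equiv.Perm.eq_alternatingGroup_of_index_eq_two h2
      refine Or.inl ⟨f.codRestrict _ fun x => h3 ▸ ⟨x, rfl⟩, fun y => ?_, f.ker_codRestrict _ _⟩
      obtain ⟨x, hx⟩ := h1 y.2
      exact ⟨x, Subtype.ext hx⟩
  · rintro (⟨f, h1, rfl⟩ | ⟨f, h1, rfl⟩)
    · refine ⟨(alternatingGroup _).subtype.comp f, fun y hy => ?_,
        MonoidHom.ker_comp_of_injective _ _ (subtype_injective _)⟩
      obtain ⟨x, hx⟩ := h1 ⟨y, hy⟩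
      exact ⟨x, congrArg Subtype.val hx⟩
    · exact ⟨f, MonoidHom.range_eq_top.2 h1 ▸ le_top, rfl⟩

theorem index_ge {G : Type*} [Group G] [Finite G] {n : ℕ} {f : G →* Equiv.Perm (Fin (n + 4))}
    (hf : alternatingGroup (Fin (n + 4)) ≤ f.range) : 12 ≤ f.ker.index := by
  rw [index_ker]
  refine le_trans ?_ (card_le_of_le hf)
  have h1 := Cfsg.Lib.PSL2.card_alternating_fin (n + 4) (by omega)
  have h2 : Nat.factorial 4 ≤ (n + 4).factorial := Nat.factorial_le (by omega)
  have h3 : Nat.factorial 4 = 24 := rfl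
  omega

theorem dih_aux : (∀ x : DihedralGroup 2 × DihedralGroup 2, x * x = 1) ∧
    ∀ x y : DihedralGroup 2, (∀ d, d = 1 ∨ d = x ∨ d = y ∨ d = x * y) →
      x ≠ 1 ∧ y ≠ 1 ∧ x * y ≠ 1 := by decide

theorem ker_le {G : Type*} [Group G] [Finite G] (h : Fpf G) {f g : G →* DihedralGroup 2}
    (hf : Function.Surjective f) : f.ker ≤ g.ker := by
  obtain ⟨a, b, hab⟩ := h.exists_pair
  have h1 := hab _ (f.prod g) dih_aux.1
  obtain ⟨h2, h3, h4⟩ := dih_aux.2 (f a) (f b) fun d => by
    obtain ⟨x, rfl⟩ := hf d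
    rcases h1 x with e | e | e | e <;> have := congrArg Prod.fst e
    exacts [Or.inl this, Or.inr (Or.inl this), Or.inr (Or.inr (Or.inl this)),
      Or.inr (Or.inr (Or.inr this))]
  intro x hx
  rcases h1 x with e | e | e | e
  · exact congrArg Prod.snd e
  all_goals have := (congrArg Prod.fst e).symm.trans hx
  exacts [absurd this h2, absurd this h3, absurd this h4]

theorem ty_le {G : Type*} [Group G] [Finite G] (h : Fpf G) {N M : Subgroup G} [N.Normal] [M.Normal]
    (hN : IsZGroup N) (hM : IsZGroup M) (tN : Ty N) (tM : Ty M) : N ≤ M := by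
  rcases tM with rfl | ⟨f, hf, rfl⟩ | ⟨f, hf, rfl⟩ | ⟨f, hf, rfl⟩
  · exact le_top
  rotate_left
  · exact le_ker_of_isZGroup hN hf
  · exact le_ker_of_isSolvable inferInstance hf
  have h4 : f.ker.index = 4 := by
    rw [index_ker, MonoidHom.range_eq_top.2 hf, card_top, Nat.card_eq_fintype_card]; decide
  rcases tN with rfl | ⟨g, hg, rfl⟩ | ⟨g, hg, rfl⟩ | ⟨g, hg, rfl⟩
  · haveI : IsZGroup (⊤ : Subgroup (DihedralGroup 2)) := by
      rw [← map_top_of_surjective f hf]
      exact IsZGroup.of_surjective (f.subgroupMap_surjective ⊤)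
    exact absurd (inv_unique_of_isZGroup this (mem_top (.r 1)) (mem_top (.sr 0)) (by decide)
      (by decide) (by decide) (by decide) (by decide)) (by decide)
  · exact ker_le h hg
  · have := (index_ge (n := 0) hg).trans (Nat.le_of_dvd (by omega)
      (index_dvd_of_le (le_ker_of_isZGroup hM hg)))
    omega
  · have := (index_ge (n := 1) hg).trans (Nat.le_of_dvd (by omega)
      (index_dvd_of_le (le_ker_of_isSolvable (N := f.ker) inferInstance hg)))
    omega

/-- Let G be a finite group that occurs as a Frobenius complement. Then G has exactly one normal subgroup N such that every Sylow subgroup of N is cyclic and the quotient of G by N is trivial or isomorphic to one of the following five groups: the Klein four-group, the alternating group of degree 4, the symmetric group of degree 4, the alternating group of degree 5, the symmetric group of degree 5. (The quotient is described by a surjective homomorphism with kernel N; the Klein four-group is written as the dihedral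 group of order 4.) -/
theorem result {G : Type*} [Group G] [Finite G]
    (hFC : (∃ (L : Type) (_ : Group L) (_ : Finite L) (H : Subgroup L), Cfsg.IsFrobeniusComplement H ∧ Nonempty (G ≃* H))) :
    ∃! N : Subgroup G, N.Normal ∧ (∀ (p : ℕ) [Fact p.Prime] (P : Sylow p N), IsCyclic P) ∧
      (N = ⊤ ∨
        (∃ f : G →* DihedralGroup 2, Function.Surjective f ∧ f.ker = N) ∨
        (∃ f : G →* alternatingGroup (Fin 4), Function.Surjective f ∧ f.ker = N) ∨
        (∃ f : G →* Equiv.Perm (Fin 4), Function.Surjective f ∧ f.ker = N) ∨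
        (∃ f : G →* alternatingGroup (Fin 5), Function.Surjective f ∧ f.ker = N) ∨
        (∃ f : G →* Equiv.Perm (Fin 5), Function.Surjective f ∧ f.ker = N)) := by
  obtain ⟨L, _, _, H, hH, ⟨e⟩⟩ := hFC
  have h := Cfsg.Lib.Frobenius.fpf_of_fc hH e
  obtain ⟨N, h1, h2, h3⟩ : ∃ N : Subgroup G, N.Normal ∧ IsZGroup N ∧ Ty N := by
    rcases h.structure_cases with h1 | ⟨f, h2, h1⟩ | ⟨f, h1, h2⟩ | ⟨f, h1, h2⟩
    · exact ⟨⊤, inferInstance, inferInstance, Or.inl rfl⟩
    · exact ⟨f.ker, inferInstance, h1, Or.inr (Or.inl ⟨f, h2, rfl⟩)⟩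
    · exact ⟨f.ker, inferInstance, h1, Or.inr (Or.inr (Or.inl ⟨f, h2, rfl⟩))⟩
    · exact ⟨f.ker, inferInstance, h1, Or.inr (Or.inr (Or.inr ⟨f, h2, rfl⟩))⟩
  refine ⟨N, ⟨h1, fun p _ P => inferInstance, ?_⟩, fun M ⟨g1, g2, g3⟩ => ?_⟩
  · rw [Ty, perm_iff (n := 2), perm_iff (n := 3)] at h3
    simpa only [or_assoc] using h3
  · have g4 : IsZGroup M := ⟨fun p hp P => by haveI := Fact.mk hp; exact g2 p P⟩
    have g5 : Ty M := by
      rw [Ty, perm_iff (n := 2), perm_iff (n := 3)]
      simpa only [or_assoc] using g3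
    exact le_antisymm (ty_le h g4 h2 g5 h3) (ty_le h h2 g4 h3 g5)

end Cfsg.Agent.S4291
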