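import Cfsg.Statements.S4292
import Cfsg.Agent.Lib.BG.Hall
import Cfsg.Agent.Lib.FGS.FrobComp2

set_option autoImplicit false
open Cfsg

namespace Cfsg.Agent.S4292

section
open Subgroup Cfsg.Lib Cfsg.Lib.BG Cfsg.Lib.Transfer

theorem sum_zero {H V : Type*} [Group H] [Finite H] [AddCommGroup V] [Module ℂ V] (ρ : Representation ℂ H V)
    (hρ : ∀ h v, ρ h v = v → h = 1 ∨ v = 0) {h : H} (h1 : h ≠ 1) : ∑ k ∈ Finset.range (Nat.card H), ρ (h ^ k) = 0 := by
  ext v
  have e1 := LinearMap.congr_fun (mul_geom_sum (ρ h) (Nat.card H)) v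
  rw [← map_pow, pow_card_eq_one', map_one, sub_self, Module.End.mul_apply, LinearMap.sub_apply, LinearMap.zero_apply,
    sub_eq_zero] at e1
  simpa using (hρ h _ e1).resolve_left h1

theorem fix_zero {H V : Type*} [Group H] [AddCommGroup V] [Module ℂ V] (ρ : Representation ℂ H V) {h : H} {n : ℕ}
    (hn : n ≠ 0) (e : ∑ k ∈ Finset.range n, ρ (h ^ k) = 0) {v : V} (hv : ρ h v = v) : v = 0 := by
  have := LinearMap.congr_fun e v
  rw [LinearMap.sum_apply, Finset.sum_congr rfl fun k _ => (by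
    rw [map_pow]; exact Module.End.pow_apply (ρ h) k v ▸ Function.iterate_fixed hv k : ρ (h ^ k) v = v)] at this
  simpa [hn, ← Nat.cast_smul_eq_nsmul ℂ] using this

end

/-- Let A and B be nontrivial finite groups. Then the direct product A × B occurs as a Frobenius complement if and only if A and B both occur as Frobenius complements and the orders of A and B are coprime. -/
theorem result {A B : Type*} [Group A] [Finite A] [Nontrivial A] [Group B] [Finite B] [Nontrivial B] :
    (∃ (L : Type) (_ : Group L) (_ : Finite L) (H : Subgroup L), Cfsg.IsFrobeniusComplement H ∧ Nonempty ((A × B) ≃* H)) ↔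
    ((∃ (L : Type) (_ : Group L) (_ : Finite L) (H : Subgroup L), Cfsg.IsFrobeniusComplement H ∧ Nonempty (A ≃* H)) ∧
     (∃ (L : Type) (_ : Group L) (_ : Finite L) (H : Subgroup L), Cfsg.IsFrobeniusComplement H ∧ Nonempty (B ≃* H)) ∧
     (Nat.card A).Coprime (Nat.card B)) := by
  open Subgroup Cfsg.Lib Cfsg.Lib.BG Cfsg.Lib.Transfer in
  constructor
  · rintro ⟨L, _, _, H, h1, ⟨e⟩⟩
    obtain ⟨V, _, _, _, φ, h2, -⟩ := FGS.exists_aut_of_fc h1 e
    obtain ⟨L1, a1, b1, c1, d1, e1, -⟩ := FGS.exists_fc_of_aut.{0} (φ.comp (MonoidHom.inl A B)) fun h v e =>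
      (h2 _ v e).imp_left (congrArg Prod.fst)
    obtain ⟨L2, a2, b2, c2, d2, e2, -⟩ := FGS.exists_fc_of_aut.{0} (φ.comp (MonoidHom.inr A B)) fun h v e =>
      (h2 _ v e).imp_left (congrArg Prod.snd)
    refine ⟨⟨L1, a1, b1, c1, d1, e1⟩, ⟨L2, a2, b2, c2, d2, e2⟩, Nat.coprime_of_dvd fun p hp h3 h4 => ?_⟩
    haveI := Fact.mk hp
    obtain ⟨a, ha⟩ := exists_prime_orderOf_dvd_card' p h3
    obtain ⟨b, hb⟩ := exists_prime_orderOf_dvd_card' p h4
    obtain ⟨K, _, -, h5, -, h6⟩ := Frobenius.exists_kernel h1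
    let f := H.subtype.comp e.toMonoidHom
    have hf : Function.Injective f := Subtype.val_injective.comp e.injective
    have hle : ((zpowers a).prod (zpowers b)).map f ≤ H := by rintro _ ⟨x, -, rfl⟩; exact (e x).2
    obtain ⟨x, hx, h7, h8⟩ := coprime_abelian_exists_cent1 (A := ((zpowers a).prod (zpowers b)).map f) (K := K)
      (abelian_map _ ⟨⟨fun x y => Subtype.ext (Prod.ext
        (le_cent_iff.1 (abelian_cent inferInstance) _ x.2.1 _ y.2.1)
        (le_cent_iff.1 (abelian_cent inferInstance) _ x.2.2 _ y.2.2))⟩⟩) (fun h => by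
        haveI := isCyclic_of_surjective _ ((Subgroup.equivMapOfInjective _ f hf).symm.trans (prodEquiv (zpowers a) (zpowers b))).surjective
        have := coprime_card_of_isCyclic_prod (zpowers a) (zpowers b)
        rw [Nat.card_zpowers, Nat.card_zpowers, ha, hb, Nat.coprime_self] at this
        exact hp.ne_one this) le_normalizer_of_normal
      (coprime_mono (Frobenius.coprime_card_of_fpf le_normalizer_of_normal h6) hle le_rfl) h5
    exact h8 (h6 x (hle hx) h7)
  · rintro ⟨⟨L1, _, _, H1, h1, ⟨e1⟩⟩, ⟨L2, _, _, H2, h2, ⟨e2⟩⟩, h3⟩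
    obtain ⟨n, ρ, hρ⟩ := FGS.exists_rep_of_fc h1 e1
    obtain ⟨m, σ, hσ⟩ := FGS.exists_rep_of_fc h2 e2
    haveI : Nontrivial (TensorProduct ℂ (Fin (n + 1) → ℂ) (Fin (m + 1) → ℂ)) :=
      Module.nontrivial_of_finrank_pos (R := ℂ) (by simp)
    let τ : Representation ℂ (A × B) (TensorProduct ℂ (Fin (n + 1) → ℂ) (Fin (m + 1) → ℂ)) :=
      Representation.tprod (k := ℂ) (ρ.comp (MonoidHom.fst A B)) (σ.comp (MonoidHom.snd A B))
    have key : ∀ (g : A × B) (v : TensorProduct ℂ (Fin (n + 1) → ℂ) (Fin (m + 1) → ℂ)), τ g v = v → g = 1 ∨ v = 0 := by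
      rintro ⟨a, b⟩ v hv
      refine or_iff_not_imp_left.2 fun h4 => ?_
      have h5 : ∀ k, τ ((a, b) ^ k) v = v :=
        fun k => by rw [map_pow]; exact Module.End.pow_apply (τ (a, b)) k v ▸ Function.iterate_fixed hv k
      by_cases h6 : a = 1
      · subst h6
        refine fix_zero τ (Nat.card_pos (α := B)).ne' ?_ hv
        have := congrArg (LinearMap.lTensorHom (Fin (n + 1) → ℂ)) (sum_zero σ hσ (h := b) (by simpa using h4))
        rw [map_sum, map_zero] at this
        simpa [τ, Representation.tprod_apply, LinearMap.lTensor, LinearMap.rTensor, Module.End.one_eq_id] using this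
      · refine fix_zero τ (Nat.card_pos (α := A)).ne' ?_ (h5 (Nat.card B))
        have := congrArg (LinearMap.rTensorHom (Fin (m + 1) → ℂ)) (sum_zero ρ hρ (h := a ^ Nat.card B) fun e =>
          h6 (orderOf_eq_one_iff.1 (Nat.eq_one_of_dvd_coprimes h3 (orderOf_dvd_natCard a) (orderOf_dvd_of_pow_eq_one e))))
        rw [map_sum, map_zero] at this
        simpa [τ, Representation.tprod_apply, LinearMap.lTensor, LinearMap.rTensor, Module.End.one_eq_id] using this
    exact FGS.exists_fc_of_rep τ key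

end Cfsg.Agent.S4292
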