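import Cfsg.Statements.S4296
import Cfsg.Agent.Lib.FGS.FrobComp
import Cfsg.Agent.Lib.PGroup.RankOne
import Cfsg.Agent.S0040

set_option autoImplicit false
open Cfsg

namespace Cfsg.Agent.S4296

/-- Let H be a Frobenius complement in a finite group, and suppose some Sylow subgroup of H is not cyclic. Then the number of elements of the Frobenius kernel (the identity together with the elements lying in no conjugate of H) is an odd perfect square. -/
theorem result {L : Type*} [Group L] [Finite L] (H : Subgroup L) (hF : Cfsg.IsFrobeniusComplement H)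
    (hZ : ∃ (p : ℕ) (_ : Fact p.Prime) (P : Sylow p H), ¬ IsCyclic P) :
    Odd (Nat.card (Cfsg.frobeniusKernel H)) ∧ IsSquare (Nat.card (Cfsg.frobeniusKernel H)) := by
  open Cfsg.Lib.FGS Cfsg.Lib Subgroup in
  obtain ⟨p, _, P, hP⟩ := hZ
  obtain ⟨K, _, h1, h2, h3, h4⟩ := Frobenius.exists_kernel hF
  obtain ⟨n, ⟨e⟩⟩ := (S0040.result K H (Frobenius.isComplement'_of_coe_eq_frobeniusKernel hF h1) h2 h4 p P).resolve_left hP
  obtain _ | n := n
  · haveI : IsCyclic (QuaternionGroup (2 ^ 0)) := QuaternionGroup.quaternionGroup_one_isCyclic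
    exact absurd (isCyclic_of_surjective e.symm e.symm.surjective) hP
  obtain ⟨a, b, ha, hb, hab, -⟩ := PGroup.exists_generators_of_mulEquiv_quaternion e
  let φ : P →* MulAut K := MulAut.conjNormal.comp (H.subtype.comp (P : Subgroup H).subtype)
  have hz : a ^ 2 ^ (n + 1) ≠ 1 := pow_ne_one_of_lt_orderOf (by positivity) (by rw [ha]; linarith [Nat.two_pow_pos (n + 1)])
  have hf' : ∀ c : P, c ≠ 1 → MonoidHom.FixedPointFree (φ c) := fun c hc v hv =>
    Subtype.ext ((Frobenius.inf_centralizer_eq_bot_iff' _ _).1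
      (h4 _ c.1.2 (by simpa using hc)) _ v.2 (congrArg Subtype.val hv))
  have hf := hf' _ hz
  have hi : Function.Involutive (φ (a ^ 2 ^ (n + 1))) := fun v => by
    rw [← MulAut.mul_apply, ← map_mul, ← pow_add, ← two_mul, ← ha, pow_orderOf_eq_one, map_one, MulAut.one_apply]
  have ho := hf.odd_card_of_involutive hi
  have hinv : ∀ v, φ (a ^ 2 ^ (n + 1)) v = v⁻¹ := congrFun (hf.coe_eq_inv_of_involutive hi)
  letI := hf.commGroupOfInvolutive hi
  rw [← h1]
  refine ⟨ho, isSquare_card_of_quat _ (Additive K) rfl ho (φ (a ^ 2 ^ n)).toMonoidHom.toAdditive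
    (φ b).toMonoidHom.toAdditive (fun x => ?_) (fun x => ?_) fun x => ?_⟩
  · refine Eq.trans ?_ (hinv x.toMul)
    rw [pow_succ, pow_mul, sq, map_mul]; rfl
  · refine Eq.trans ?_ (hinv x.toMul)
    rw [← hb, sq, map_mul]; rfl
  · refine Eq.trans ?_ (hinv (φ b (φ (a ^ 2 ^ n) x.toMul)))
    have : a ^ 2 ^ (n + 1) * b * a ^ 2 ^ n = a ^ 2 ^ n * b := by
      have h5 : b * a ^ 2 ^ n * b⁻¹ = (a ^ 2 ^ n)⁻¹ := by rw [← conj_pow, hab, inv_pow]
      rw [pow_succ, pow_mul, sq, mul_assoc, mul_assoc, mul_right_inj, mul_inv_eq_iff_eq_mul.1 h5, mul_inv_cancel_left]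
    rw [← MulAut.mul_apply, ← map_mul, ← MulAut.mul_apply, ← map_mul, this, map_mul]; rfl

end Cfsg.Agent.S4296
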