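import Cfsg.Statements.S4295
import Cfsg.Agent.Lib.FGS.FrobComp
import Cfsg.Agent.S4296

set_option autoImplicit false
open Cfsg

namespace Cfsg.Agent.S4295

section
open Cfsg.Lib.FGS Cfsg.Lib Subgroup Matrix

theorem aux0 {F : Type*} [Field F] (h2 : (2 : F) ≠ 0) {x y : F} (h : x ^ 2 + y ^ 2 = -1) :
    ∃ ρ : QuaternionGroup 2 →* Matrix (Fin 2) (Fin 2) F, ∀ g v, (ρ g).mulVec v = v → g = 1 ∨ v = 0 := by
  have e : !![x, y; y, -x] * !![x, y; y, -x] = -1 := by
    ext i j; fin_cases i <;> fin_cases j <;> simp <;> grind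
  let a : (Matrix (Fin 2) (Fin 2) F)ˣ := ⟨!![x, y; y, -x], -!![x, y; y, -x], by rw [mul_neg, e, neg_neg],
    by rw [neg_mul, e, neg_neg]⟩
  let b : (Matrix (Fin 2) (Fin 2) F)ˣ :=
    ⟨!![0, -1; 1, 0], !![0, 1; -1, 0], by simp [Matrix.one_fin_two], by simp [Matrix.one_fin_two]⟩
  have e0 : a ^ 2 = -1 := by rw [sq]; exact Units.ext e
  have e1 : b ^ 2 = a ^ 2 := by rw [e0]; ext1; simp [b, sq, Matrix.one_fin_two]
  have e2 : b * a * b⁻¹ = a⁻¹ := by
    ext1; change !![0, -1; 1, 0] * !![x, y; y, -x] * !![0, 1; -1, 0] = -!![x, y; y, -x]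
    simp
  have e3 : a ^ (2 * 2) = 1 := by rw [pow_mul, e0]; simp
  let ρ := (Units.coeHom _).comp (PGroup.quaternionHom e1 e2 e3)
  have key : ∀ v, (ρ (.a 2)).mulVec v = v → v = 0 := fun v e => by
    have : ρ (.a 2) = -1 := congrArg Units.val e0
    rw [this, neg_mulVec, one_mulVec, neg_eq_iff_add_eq_zero, ← two_smul F] at e
    exact (smul_eq_zero.1 e).resolve_left h2
  refine ⟨ρ, fun g v e => ?_⟩
  rcases (by decide : ∀ g : QuaternionGroup 2, g = 1 ∨ g = .a 2 ∨ g * g = .a 2) g with h | rfl | h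
  exacts [.inl h, .inr (key v e), .inr (key v (by rw [← h, map_mul, ← mulVec_mulVec, e, e]))]

theorem aux (k : ℕ) (hk : Odd k) : ∃ (V : Type) (_ : AddCommGroup V) (_ : Finite V)
    (φ : QuaternionGroup 2 →* AddMonoid.End V), (∀ h v, φ h v = v → h = 1 ∨ v = 0) ∧ Nat.card V = k * k := by
  induction k using induction_on_primes with
  | zero => simp at hk
  | one => exact ⟨Unit, inferInstance, inferInstance, 1, fun _ _ _ => .inr rfl, by simp⟩
  | prime_mul p k hp ih =>
    obtain ⟨V, _, _, φ, h1, h2⟩ := ih (Nat.Odd.of_mul_right hk)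
    haveI := Fact.mk hp
    have h3 : (2 : ZMod p) ≠ 0 := fun h => by
      have := (Nat.prime_dvd_prime_iff_eq hp Nat.prime_two).1 ((ZMod.natCast_eq_zero_iff 2 p).1 h)
      exact (Nat.not_even_iff_odd.2 (Nat.Odd.of_mul_left hk)) (this ▸ even_two)
    obtain ⟨x, y, h⟩ := ZMod.sq_add_sq p (-1)
    obtain ⟨ρ, hρ⟩ := aux0 h3 h
    refine ⟨(Fin 2 → ZMod p) × V, inferInstance, inferInstance,
      { toFun := fun g => AddMonoidHom.prodMap (ρ g).mulVecLin.toAddMonoidHom (φ g)
        map_one' := by rw [map_one, map_one, mulVecLin_one]; rfl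
        map_mul' := fun g h => by rw [map_mul, map_mul, mulVecLin_mul]; rfl }, fun g v e => ?_, ?_⟩
    · exact or_iff_not_imp_left.2 fun h0 => Prod.ext ((hρ g _ (congrArg Prod.fst e)).resolve_left h0)
        ((h1 g _ (congrArg Prod.snd e)).resolve_left h0)
    · rw [Nat.card_prod, h2, Nat.card_fun, Nat.card_zmod, Nat.card_fin]; ring

end

/-- For a natural number m the following are equivalent: (a) some finite group has a Frobenius complement isomorphic to the quaternion group of order 8 whose Frobenius kernel (the identity together with the elements lying in no conjugate of the complement) has exactly m elements; (b) m is an odd perfect square greater than 1. -/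
theorem result (m : ℕ) :
    (∃ (L : Type) (_ : Group L) (_ : Finite L) (H : Subgroup L), Cfsg.IsFrobeniusComplement H ∧
        Nonempty (H ≃* QuaternionGroup 2) ∧ Nat.card (Cfsg.frobeniusKernel H) = m) ↔
    (Odd m ∧ IsSquare m ∧ 1 < m) := by
  open Cfsg.Lib.FGS Cfsg.Lib Subgroup Matrix in
  constructor
  · rintro ⟨L, _, _, H, h1, ⟨e⟩, rfl⟩
    haveI : Fact (Nat.Prime 2) := ⟨Nat.prime_two⟩
    have h2 : IsPGroup 2 H := IsPGroup.of_card (n := 3) (by
      rw [Nat.card_congr e.toEquiv, Nat.card_eq_fintype_card, QuaternionGroup.card]; rfl)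
    obtain ⟨a, b⟩ := S4296.result H h1 ⟨2, inferInstance, (IsPGroup.of_injective h2 (⊤ : Subgroup H).subtype
      Subtype.val_injective).toSylow (by simp), fun h => by
        haveI : IsCyclic (⊤ : Subgroup H) := h
        haveI := isCyclic_of_surjective (Subgroup.topEquiv.trans e) (MulEquiv.surjective _)
        exact absurd (IsCyclic.isMulCommutative.is_comm.comm (QuaternionGroup.a 1 : QuaternionGroup 2) (.xa 0)) (by decide)⟩
    refine ⟨a, b, ?_⟩
    rw [Frobenius.card_frobeniusKernel h1]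
    exact Subgroup.one_lt_index_of_ne_top h1.2.1
  · rintro ⟨h1, ⟨k, rfl⟩, h3⟩
    obtain ⟨V, _, _, φ, h4, h5⟩ := aux k (Nat.Odd.of_mul_left h1)
    haveI : Nontrivial V := Finite.one_lt_card_iff_nontrivial.1 (h5 ▸ h3)
    obtain ⟨L, a, b, c, d, ⟨e⟩, f⟩ := exists_fc_of_add.{0} φ h4
    exact ⟨L, a, b, c, d, ⟨e.symm⟩, f.trans h5⟩

end Cfsg.Agent.S4295
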