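import Cfsg.Statements.S4297
import Cfsg.Agent.Lib.FGS.FrobComp
import Cfsg.Agent.Lib.PGroup.RankOne

set_option autoImplicit false
open Cfsg

namespace Cfsg.Agent.S4297

section
open Cfsg.Lib.FGS Cfsg.Lib Matrix

theorem aux {F : Type*} [Field F] [Finite F] (n : ℕ) (hn : 2 ≤ n) (ζ : Fˣ) (hζ : orderOf ζ = 2 * n) :
    ∃ (L : Type) (_ : Group L) (_ : Finite L) (H : Subgroup L), Cfsg.IsFrobeniusComplement H ∧ Nonempty (H ≃* QuaternionGroup n) := by
  haveI : NeZero n := ⟨by omega⟩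
  have h1 : ζ ^ n = -1 := by
    refine Units.ext (((sq_eq_one_iff (a := ((ζ ^ n : Fˣ) : F))).1 ?_).resolve_left fun h =>
      pow_ne_one_of_lt_orderOf (by omega) (by omega) (Units.ext h : ζ ^ n = 1))
    rw [← Units.val_pow_eq_pow_val, ← pow_mul, mul_comm, ← hζ, pow_orderOf_eq_one, Units.val_one]
  let d : Fˣ →* (Matrix (Fin 2) (Fin 2) F)ˣ := MonoidHom.toHomUnits
    { toFun := fun u => !![(u : F), 0; 0, (u⁻¹ : Fˣ)]
      map_one' := by simp [Matrix.one_fin_two]
      map_mul' := fun u v => by simp [mul_comm] }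
  let b : (Matrix (Fin 2) (Fin 2) F)ˣ :=
    ⟨!![0, -1; 1, 0], !![0, 1; -1, 0], by simp [Matrix.one_fin_two], by simp [Matrix.one_fin_two]⟩
  have e1 : b ^ 2 = d ζ ^ n := by
    rw [← map_pow, h1]; ext1; simp [b, d, sq]
  have e2 : b * d ζ * b⁻¹ = (d ζ)⁻¹ := by
    rw [eq_inv_iff_mul_eq_one, mul_assoc, mul_assoc, ← eq_inv_mul_iff_mul_eq, mul_one]
    ext1; simp [b, d]
  have e3 : d ζ ^ (2 * n) = 1 := by rw [← map_pow, ← hζ, pow_orderOf_eq_one, map_one]
  let ρ := (Units.coeHom _).comp (PGroup.quaternionHom e1 e2 e3)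
  have key : ∀ (i : ZMod (2 * n)) v, (ρ (.a i)).mulVec v = v → i = 0 ∨ v = 0 := fun i v e => by
    by_cases h0 : ζ ^ (i.cast : ℤ) = 1
    · left
      rwa [← orderOf_dvd_iff_zpow_eq_one, hζ, ← ZMod.intCast_zmod_eq_zero_iff_dvd, ZMod.intCast_cast, ZMod.cast_id] at h0
    right
    have h2 : ρ (.a i) = d (ζ ^ (i.cast : ℤ)) := by simp only [ρ, map_zpow]; rfl
    generalize ζ ^ (i.cast : ℤ) = u at h0 h2
    rw [h2] at e
    have h5 : (u : F) ≠ 1 := fun h => h0 (Units.ext h)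
    have a0 := congrFun e 0
    have a1 := congrFun e 1
    simp [d, Matrix.mulVec, dotProduct] at a0 a1
    ext j; fin_cases j
    · exact eq_zero_of_mul_eq_self_left h5 a0
    · exact eq_zero_of_mul_eq_self_left (by simpa using h5) a1
  obtain ⟨L, a, b, c, d, ⟨e⟩, -⟩ := exists_fc_of_matrix.{0} ρ fun g v e => by
    rcases g with i | i
    · exact (key i v e).imp_left fun h => by rw [h]; rfl
    · refine .inr ((key n v ?_).resolve_left fun h => ?_)
      · rw [← QuaternionGroup.xa_sq i, sq, map_mul, ← Matrix.mulVec_mulVec, e, e]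
      · have := Nat.le_of_dvd (by omega) ((ZMod.natCast_eq_zero_iff _ _).1 h)
        omega
  exact ⟨L, a, b, c, d, ⟨e.symm⟩⟩

end

/-- For every n ≥ 2 the dicyclic group of order 4n (generated by an element a of order 2n and an element x with x² = aⁿ and x a x⁻¹ = a⁻¹) occurs as a Frobenius complement of some finite Frobenius group. -/
theorem result (n : ℕ) (hn : 2 ≤ n) :
    ∃ (L : Type) (_ : Group L) (_ : Finite L) (H : Subgroup L), Cfsg.IsFrobeniusComplement H ∧ Nonempty (H ≃* QuaternionGroup n) := by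
  open Cfsg.Lib.FGS Cfsg.Lib Matrix in
  obtain ⟨p, hp, -, h⟩ := Nat.exists_prime_gt_modEq_one 0 (show 2 * n ≠ 0 by omega)
  haveI := Fact.mk hp
  obtain ⟨z, hz⟩ := IsCyclic.exists_ofOrder_eq_natCard (α := (ZMod p)ˣ)
  refine aux n hn _ (orderOf_pow_orderOf_div (orderOf_pos z).ne' ?_)
  rw [hz, Nat.card_eq_fintype_card (α := (ZMod p)ˣ), ZMod.card_units]
  exact (Nat.modEq_iff_dvd' hp.one_le).1 h.symm

end Cfsg.Agent.S4297
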