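import Cfsg.Statements.S4298
import Cfsg.Agent.Lib.FGS.FrobComp

set_option autoImplicit false
open Cfsg

namespace Cfsg.Agent.S4298

section
open Cfsg.Lib.FGS Matrix

def ff (a b c d : ZMod 3) (k : ℕ) : ZMod 5 :=
  ((42771795176499475642416001796499965704288756431626376599726858050808654621533168562510512941817248800069835674843348921482187259339660187818645644014161078478156133591665399822308597788111939053123933263123035430908203125000 / 625 ^ (a.val * 27 + b.val * 9 + c.val * 3 + d.val) / 5 ^ k : ℕ) : ZMod 5)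

def fm (a b c d : ZMod 3) : Matrix (Fin 2) (Fin 2) (ZMod 5) := !![ff a b c d 0, ff a b c d 1; ff a b c d 2, ff a b c d 3]

theorem ff_mul : ∀ a b c d : ZMod 3, a * d - b * c = 1 → ∀ a' b' c' d' : ZMod 3, a' * d' - b' * c' = 1 →
    ff (a * a' + b * c') (a * b' + b * d') (c * a' + d * c') (c * b' + d * d') 0 = ff a b c d 0 * ff a' b' c' d' 0 + ff a b c d 1 * ff a' b' c' d' 2 ∧
    ff (a * a' + b * c') (a * b' + b * d') (c * a' + d * c') (c * b' + d * d') 1 = ff a b c d 0 * ff a' b' c' d' 1 + ff a b c d 1 * ff a' b' c' d' 3 ∧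
    ff (a * a' + b * c') (a * b' + b * d') (c * a' + d * c') (c * b' + d * d') 2 = ff a b c d 2 * ff a' b' c' d' 0 + ff a b c d 3 * ff a' b' c' d' 2 ∧
    ff (a * a' + b * c') (a * b' + b * d') (c * a' + d * c') (c * b' + d * d') 3 = ff a b c d 2 * ff a' b' c' d' 1 + ff a b c d 3 * ff a' b' c' d' 3 := by
  decide +kernel

set_option synthInstance.maxSize 1000 in
set_option synthInstance.maxHeartbeats 200000 in
theorem ff_fix : ∀ a b c d : ZMod 3, a * d - b * c = 1 → ∀ x y : ZMod 5, ff a b c d 0 * x + ff a b c d 1 * y = x →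
    ff a b c d 2 * x + ff a b c d 3 * y = y → (a = 1 ∧ b = 0 ∧ c = 0 ∧ d = 1) ∨ (x = 0 ∧ y = 0) := by
  decide +kernel

theorem fm_one : fm 1 0 0 1 = 1 := by decide +kernel

end

/-- The group SL(2,3) of order 24 (the binary tetrahedral group) occurs as a Frobenius complement of some finite Frobenius group. -/
theorem result :
    ∃ (L : Type) (_ : Group L) (_ : Finite L) (H : Subgroup L), Cfsg.IsFrobeniusComplement H ∧ Nonempty (H ≃* Matrix.SpecialLinearGroup (Fin 2) (ZMod 3)) := by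
  open Cfsg.Lib.FGS Matrix in
  haveI : Nontrivial (Matrix.SpecialLinearGroup (Fin 2) (ZMod 3)) :=
    ⟨1, -1, fun h => absurd (congrArg (fun g : Matrix.SpecialLinearGroup (Fin 2) (ZMod 3) => g.1 0 0) h) (by decide)⟩
  haveI : Fact (Nat.Prime 5) := ⟨by norm_num⟩
  have hd : ∀ g : Matrix.SpecialLinearGroup (Fin 2) (ZMod 3), g 0 0 * g 1 1 - g 0 1 * g 1 0 = 1 := fun g => by
    rw [← det_fin_two]; exact g.2
  obtain ⟨L, a, b, c, d, ⟨e⟩, -⟩ := exists_fc_of_matrix.{0} (H := Matrix.SpecialLinearGroup (Fin 2) (ZMod 3))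
    { toFun := fun g => fm (g 0 0) (g 0 1) (g 1 0) (g 1 1)
      map_one' := fm_one
      map_mul' := fun g h => by
        obtain ⟨a, b, c, d⟩ := ff_mul _ _ _ _ (hd g) _ _ _ _ (hd h)
        have e : ∀ i j, (g * h) i j = g i 0 * h 0 j + g i 1 * h 1 j := fun i j => by
          simp [Matrix.mul_apply]
        simp only [e, fm, a, b, c, d, mul_fin_two] }
    fun g v e => by
      have a0 := congrFun e 0
      have a1 := congrFun e 1
      simp [fm, Matrix.mulVec, dotProduct] at a0 a1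
      refine (ff_fix _ _ _ _ (hd g) _ _ a0 a1).imp (fun ⟨a, b, c, d⟩ => ?_) fun ⟨a, b⟩ => ?_
      · ext i j; fin_cases i <;> fin_cases j <;> simpa
      · ext i; fin_cases i <;> simpa
  exact ⟨L, a, b, c, d, ⟨e.symm⟩⟩

end Cfsg.Agent.S4298
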