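import Cfsg.Statements.S4299
import Cfsg.Agent.Lib.FGS.FrobComp

set_option autoImplicit false
open Cfsg

namespace Cfsg.Agent.S4299

/-- Every nontrivial finite cyclic group occurs as a Frobenius complement of some finite Frobenius group. -/
theorem result {C : Type*} [Group C] [Finite C] [IsCyclic C] [Nontrivial C] :
    ∃ (L : Type) (_ : Group L) (_ : Finite L) (H : Subgroup L), Cfsg.IsFrobeniusComplement H ∧ Nonempty (C ≃* H) := by
  open Cfsg.Lib.FGS in
  obtain ⟨p, hp, -, h⟩ := Nat.exists_prime_gt_modEq_one 0 (Nat.card_pos (α := C)).ne'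
  haveI := Fact.mk hp
  obtain ⟨f, hf⟩ : ∃ f : C →* (ZMod p)ˣ, Function.Injective f := by
    obtain ⟨z, hz⟩ := IsCyclic.exists_ofOrder_eq_natCard (α := (ZMod p)ˣ)
    have h1 : Nat.card C ∣ orderOf z := by
      rw [hz, Nat.card_eq_fintype_card (α := (ZMod p)ˣ), ZMod.card_units]
      exact (Nat.modEq_iff_dvd' hp.one_le).1 h.symm
    have h2 := orderOf_pow_orderOf_div (orderOf_pos z).ne' h1
    exact ⟨(Subgroup.subtype _).comp (mulEquivOfCyclicCardEq (G := C) (G' := Subgroup.zpowers (z ^ (orderOf z / Nat.card C)))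
      (by rw [Nat.card_zpowers, h2])).toMonoidHom, Subtype.val_injective.comp (MulEquiv.injective _)⟩
  obtain ⟨L, a, b, c, d, e, -⟩ := exists_fc_of_add.{0} (V := ZMod p)
    ((DistribMulAction.toAddMonoidEnd (ZMod p)ˣ (ZMod p)).comp f) fun h v e => by
      have : ((f h : ZMod p) - 1) * v = 0 := by rw [sub_mul, one_mul, sub_eq_zero]; exact e
      exact (mul_eq_zero.1 this).imp_left fun h1 => hf (by rw [map_one]; exact Units.ext (sub_eq_zero.1 h1))
  exact ⟨L, a, b, c, d, e⟩

end Cfsg.Agent.S4299
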