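import Cfsg.Statements.S4300

set_option autoImplicit false
open Cfsg

namespace Cfsg.Agent.S4300

/-- Let G act faithfully and primitively on a set X, and suppose the stabilizer of some point is a simple group. Then either G is simple, or G has a normal subgroup, neither trivial nor the whole group, that acts regularly on X (transitively with trivial point stabilizers). -/
theorem result {G : Type*} [Group G] {X : Type*} [MulAction G X] [FaithfulSMul G X]
    (hprim : MulAction.IsPreprimitive G X) (x : X) (hsimple : IsSimpleGroup (MulAction.stabilizer G x)) :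
    IsSimpleGroup G ∨ ∃ N : Subgroup G, N.Normal ∧ N ≠ ⊥ ∧ N ≠ ⊤ ∧
      MulAction.IsPretransitive N X ∧ ∀ y : X, MulAction.stabilizer N y = ⊥ := by
  by_contra hc
  push Not at hc
  obtain ⟨h1, h2⟩ := hc
  haveI := hsimple
  haveI : Nontrivial G := (MulAction.stabilizer G x).subtype_injective.nontrivial
  refine h1 ⟨fun N hN => ?_⟩
  by_contra hn
  push Not at hn
  have htr : MulAction.IsPretransitive N X := by
    refine MulAction.IsQuasiPreprimitive.isPretransitive_of_normal fun h => hn.1 ?_
    rw [eq_bot_iff]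
    intro g hg
    exact FaithfulSMul.eq_of_smul_eq_smul (α := X) fun y => by
      rw [one_smul]; exact (h ▸ Set.mem_univ y : y ∈ MulAction.fixedPoints N X) ⟨g, hg⟩
  rcases (hN.subgroupOf (MulAction.stabilizer G x)).eq_bot_or_eq_top with h | h
  · obtain ⟨y, hy⟩ := h2 N hN hn.1 hn.2 htr
    refine hy (eq_bot_iff.2 fun g hg => ?_)
    obtain ⟨n, rfl⟩ := htr.exists_smul_eq x y
    have h3 : (⟨((n⁻¹ * g * n : N) : G), by
        change (n⁻¹ * g * n) • x = x
        rw [mul_smul, mul_smul, hg, inv_smul_smul]⟩ : MulAction.stabilizer G x) ∈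
        N.subgroupOf (MulAction.stabilizer G x) := (n⁻¹ * g * n).2
    rw [h, Subgroup.mem_bot] at h3
    have h4 : n⁻¹ * g * n = 1 := Subtype.ext (by simpa using congrArg Subtype.val h3)
    rw [Subgroup.mem_bot]
    calc g = n * (n⁻¹ * g * n) * n⁻¹ := by group
      _ = 1 := by rw [h4]; group
  · refine hn.2 (eq_top_iff.2 fun g _ => ?_)
    obtain ⟨n, hn⟩ := htr.exists_smul_eq x (g • x)
    have h3 : (n : G)⁻¹ * g ∈ MulAction.stabilizer G x := by
      rw [MulAction.mem_stabilizer_iff, mul_smul, ← hn]; exact inv_smul_smul (n : G) x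
    have h4 : (⟨_, h3⟩ : MulAction.stabilizer G x) ∈ N.subgroupOf (MulAction.stabilizer G x) := h ▸ trivial
    simpa using mul_mem n.2 (Subgroup.mem_subgroupOf.1 h4)

end Cfsg.Agent.S4300
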