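import Cfsg.Statements.S4301
import Cfsg.Agent.Lib.Perm.Basic

set_option autoImplicit false
open Cfsg

namespace Cfsg.Agent.S4301

/-- One-point extension of a multiply transitive group. Let X be a set and G a group of permutations of Option X (the set X with one extra point ∗ = none) all of whose elements fix ∗, such that G is k-transitive on the points of X for some k ≥ 2, X having at least k points. Suppose a permutation h of Option X and an element g of G satisfy: h interchanges ∗ with a point x of X and fixes a point y of X; g interchanges x and y; (g h)³ and h² lie in G; and for every f in G fixing x, the product h f h lies in G and fixes x. Then an element of the group generated by G and h fixes ∗ exactly when it lies in G, and that group acts (k+1)-transitively on Option X. -/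
theorem result {X : Type*} (G : Subgroup (Equiv.Perm (Option X))) (hfix : ∀ f ∈ G, f none = none)
    (k : ℕ) (hk : 2 ≤ k) (hkX : Nonempty (Fin k ↪ X))
    (htrans : ∀ a b : Fin k ↪ X, ∃ f ∈ G, ∀ i, f (some (a i)) = some (b i))
    (h g : Equiv.Perm (Option X)) (hg : g ∈ G) (x y : X)
    (h1 : h none = some x) (h2 : h (some x) = none) (h3 : h (some y) = some y)
    (h4 : g (some x) = some y) (h5 : g (some y) = some x)
    (h6 : (g * h) ^ 3 ∈ G) (h7 : h ^ 2 ∈ G)
    (h8 : ∀ f ∈ G, f (some x) = some x → h * f * h ∈ G ∧ (h * f * h) (some x) = some x) :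
    (∀ f ∈ Subgroup.closure ((G : Set (Equiv.Perm (Option X))) ∪ {h}), f none = none ↔ f ∈ G) ∧
      MulAction.IsMultiplyPretransitive (Subgroup.closure ((G : Set (Equiv.Perm (Option X))) ∪ {h})) (Option X) (k + 1) := by
  open Cfsg.Lib.Perm in
  classical
  have hxy : x ≠ y := by rintro rfl; rw [h2] at h3; exact absurd h3 (by simp)
  obtain ⟨e⟩ := hkX
  have hsome : ∀ f ∈ G, ∀ a : X, ∃ b, f (some a) = some b := fun f hf a => by
    cases hb : f (some a) with
    | none => exact absurd (f.injective (hb.trans (hfix f hf).symm)) (by simp)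
    | some b => exact ⟨b, rfl⟩
  have two : ∀ a b c d : X, a ≠ b → c ≠ d → ∃ f ∈ G, f (some a) = some c ∧ f (some b) = some d := by
    intro a b c d hab hcd
    have h01 : e ⟨0, by omega⟩ ≠ e ⟨1, by omega⟩ := fun h => by simpa using e.injective h
    obtain ⟨σ, s1, s2⟩ := two_iff.1 (Equiv.Perm.isMultiplyPretransitive X 2) _ _ a b h01 hab
    obtain ⟨τ, t1, t2⟩ := two_iff.1 (Equiv.Perm.isMultiplyPretransitive X 2) _ _ c d h01 hcd
    obtain ⟨f, hf, h⟩ := htrans (e.trans σ.toEmbedding) (e.trans τ.toEmbedding)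
    exact ⟨f, hf, by rw [← s1, ← t1]; exact h _, by rw [← s2, ← t2]; exact h _⟩
  have hi : h⁻¹ = h * (h ^ 2)⁻¹ := by rw [pow_two]; group
  have hi' : h⁻¹ = (h ^ 2)⁻¹ * h := by rw [pow_two]; group
  have key : ∀ f ∈ G, h * f * h ∈ G ∨ ∃ a ∈ G, ∃ b ∈ G, h * f * h = a * h * b := by
    intro f hf
    obtain ⟨z, hz⟩ := hsome f hf x
    by_cases hzx : z = x
    · exact Or.inl (h8 f hf (hzx ▸ hz)).1
    obtain ⟨a, ha, a1, a2⟩ := two x y x z hxy (Ne.symm hzx)
    have hb : g⁻¹ * a⁻¹ * f ∈ G := mul_mem (mul_mem (inv_mem hg) (inv_mem ha)) hf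
    have hb' : (g⁻¹ * a⁻¹ * f) (some x) = some x := by
      simp only [Equiv.Perm.mul_apply, hz]
      rw [← a2, Equiv.Perm.inv_eq_iff_eq, h4, Equiv.Perm.inv_eq_iff_eq]
    refine Or.inr ⟨h * a * h * (h ^ 2)⁻¹ * g⁻¹ * (g * h) ^ 3, mul_mem (mul_mem (mul_mem (h8 a ha a1).1 (inv_mem h7))
      (inv_mem hg)) h6, (h ^ 2)⁻¹ * g⁻¹ * (h ^ 2)⁻¹ * (h * (g⁻¹ * a⁻¹ * f) * h),
      mul_mem (mul_mem (mul_mem (inv_mem h7) (inv_mem hg)) (inv_mem h7)) (h8 _ hb hb').1, ?_⟩
    simp only [pow_succ, pow_zero, one_mul]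
    group
  let K : Subgroup (Equiv.Perm (Option X)) :=
    { carrier := {f | f ∈ G ∨ ∃ a ∈ G, ∃ b ∈ G, f = a * h * b}
      mul_mem' := by
        rintro f f' (hf | ⟨a, ha, b, hb, rfl⟩) (hf' | ⟨c, hc, d, hd, rfl⟩)
        · exact Or.inl (mul_mem hf hf')
        · exact Or.inr ⟨f * c, mul_mem hf hc, d, hd, by group⟩
        · exact Or.inr ⟨a, ha, b * f', mul_mem hb hf', by group⟩
        · rcases key _ (mul_mem hb hc) with h' | ⟨u, hu, v, hv, h'⟩
          · refine Or.inl ?_
            have : a * h * b * (c * h * d) = a * (h * (b * c) * h) * d := by group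
            rw [this]; exact mul_mem (mul_mem ha h') hd
          · refine Or.inr ⟨a * u, mul_mem ha hu, v * d, mul_mem hv hd, ?_⟩
            calc a * h * b * (c * h * d) = a * (h * (b * c) * h) * d := by group
              _ = _ := by rw [h']; group
      one_mem' := Or.inl (one_mem G)
      inv_mem' := by
        rintro f (hf | ⟨a, ha, b, hb, rfl⟩)
        · exact Or.inl (inv_mem hf)
        · exact Or.inr ⟨b⁻¹, inv_mem hb, (h ^ 2)⁻¹ * a⁻¹, mul_mem (inv_mem h7) (inv_mem ha), by
            rw [pow_two]; group⟩ }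
  set H := Subgroup.closure ((G : Set (Equiv.Perm (Option X))) ∪ {h}) with hH
  have hK : H ≤ K := by
    rw [hH, Subgroup.closure_le]
    rintro f (hf | rfl)
    · exact Or.inl hf
    · exact Or.inr ⟨1, one_mem G, 1, one_mem G, by simp⟩
  have hGH : G ≤ H := fun f hf => Subgroup.subset_closure (Or.inl hf)
  have hhH : h ∈ H := Subgroup.subset_closure (Or.inr rfl)
  refine ⟨fun f hf => ⟨fun h0 => ?_, hfix f⟩, ?_⟩
  · rcases hK hf with h' | ⟨a, ha, b, hb, rfl⟩
    · exact h'
    · simp only [Equiv.Perm.mul_apply, hfix b hb, h1] at h0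
      exact absurd (a.injective (h0.trans (hfix a ha).symm)) (by simp)
  have mv : ∀ u : Option X, ∃ t : H, t • u = none := by
    rintro (_ | u)
    · exact ⟨1, one_smul _ _⟩
    · obtain ⟨f, hf, f1⟩ : ∃ f ∈ G, f (some u) = some x := by
        by_cases hu : u = x
        · exact ⟨1, one_mem G, by simp [hu]⟩
        · obtain ⟨f, hf, f1, -⟩ := two u x x u hu (Ne.symm hu)
          exact ⟨f, hf, f1⟩
      exact ⟨⟨h * f, mul_mem hhH (hGH hf)⟩, by change h (f (some u)) = none; rw [f1, h2]⟩
  have emb : ∀ a : Fin (k + 1) → Option X, Function.Injective a → a 0 = none →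
      ∃ a' : Fin k ↪ X, ∀ i, a i.succ = some (a' i) := by
    intro a ha h0
    have : ∀ i : Fin k, ∃ z, a i.succ = some z := fun i => Option.ne_none_iff_exists'.1 fun h' =>
      Fin.succ_ne_zero i (ha (h'.trans h0.symm))
    choose a' ha' using this
    exact ⟨⟨a', fun i j hij => Fin.succ_injective _ (ha (by rw [ha', ha', hij]))⟩, ha'⟩
  refine mt_iff.2 fun a b ha hb => ?_
  obtain ⟨s, hs⟩ := mv (a 0)
  obtain ⟨t, ht⟩ := mv (b 0)
  obtain ⟨a', ha'⟩ := emb (fun i => s • a i) ((MulAction.injective s).comp ha) hs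
  obtain ⟨b', hb'⟩ := emb (fun i => t • b i) ((MulAction.injective t).comp hb) ht
  obtain ⟨f, hf, hf'⟩ := htrans a' b'
  refine ⟨t⁻¹ * ⟨f, hGH hf⟩ * s, fun i => ?_⟩
  rw [mul_smul, mul_smul, inv_smul_eq_iff]
  refine Fin.cases ?_ (fun i => ?_) i
  · rw [hs, ht]; exact hfix f hf
  · rw [ha', hb']; exact hf' i

end Cfsg.Agent.S4301
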