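import Cfsg.Statements.S4302
import Cfsg.Agent.Lib.PLocal.FFAb
import Cfsg.Agent.S0617

set_option autoImplicit false
open Cfsg

namespace Cfsg.Agent.S4302

/-- Let `X` be a finite solvable group whose Fitting subgroup is a 2-group (equivalently `F(X) = O₂(X)`), `T` a Sylow 2-subgroup of `X`, `J(T)` the subgroup generated by the abelian subgroups of `T` of largest order, `C` the largest normal subgroup of `X` centralizing the centre `Z(T)`, and `Y` the normal closure of `J(T)` in `X`. Then `X = C · Y · N_X(J(T))`, and either `Y ≤ C`, or `CY/C` is isomorphic to a direct product of at least one copy of the symmetric group of degree 3. -/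
theorem result {X : Type*} [Group X] [Finite X]
    [Group.IsSolvable X] (hF : Cfsg.fittingSubgroup X = Cfsg.pCore 2 X) (T : Sylow 2 X) :
    ((Subgroup.centralizer (((T : Subgroup X) ⊓ Subgroup.centralizer ((T : Subgroup X) : Set X) : Subgroup X) : Set X)).normalCore
        ⊔ Subgroup.normalClosure (Cfsg.thompsonSubgroupAOf (T : Subgroup X) : Set X)
        ⊔ Subgroup.normalizer (Cfsg.thompsonSubgroupAOf (T : Subgroup X) : Set X) = ⊤) ∧
    (Subgroup.normalClosure (Cfsg.thompsonSubgroupAOf (T : Subgroup X) : Set X)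
        ≤ (Subgroup.centralizer (((T : Subgroup X) ⊓ Subgroup.centralizer ((T : Subgroup X) : Set X) : Subgroup X) : Set X)).normalCore
      ∨ ∃ n : ℕ, 1 ≤ n ∧
        Nonempty (↥(Subgroup.normalClosure (Cfsg.thompsonSubgroupAOf (T : Subgroup X) : Set X)) ⧸
            ((Subgroup.centralizer (((T : Subgroup X) ⊓ Subgroup.centralizer ((T : Subgroup X) : Set X) : Subgroup X) : Set X)).normalCore).subgroupOf
              (Subgroup.normalClosure (Cfsg.thompsonSubgroupAOf (T : Subgroup X) : Set X))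
          ≃* (Fin n → Equiv.Perm (Fin 3)))) := by
----
  open Subgroup Cfsg.Lib Cfsg.Lib.Transfer Cfsg.Lib.PLocal in
  have hc : centralizer (pCore 2 X : Set X) ≤ pCore 2 X := hF ▸ Core.centralizer_fittingSubgroup_le
  have hW := isElementaryAbelian_omegaCenterSup (e := 0) hc
  have hWp : IsPGroup 2 (omegaCenterSup 0 2 X) :=
    (Core.pCore_isPGroup 2 X).to_le ((omegaCenterSup_le_center hc).trans inf_le_left)
  have e1 : (centralizer (((T : Subgroup X) ⊓ centralizer ((T : Subgroup X) : Set X) :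
      Subgroup X) : Set X)).normalCore = centralizer (omegaCenterSup 0 2 X : Set X) := by
    rw [← omegaCenter_zero]
    refine le_antisymm (le_centralizer_iff.1 ((omegaCenterSup_le_iff T).2 fun g => ?_))
      (normal_le_normalCore.2 (centralizer_le (le_omegaCenterSup T)))
    rw [conj_le_iff_le_inv_conj, conj_eq_self_of_normal]
    exact le_centralizer_iff.1 (normalCore_le _)
  set V := omegaOne 2 (omegaCenterSup 0 2 X)
  have hV : IsElementaryAbelian 2 V := PGroup.isElementaryAbelian_omegaOne hW.1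
  have e2 : centralizer (V : Set X) = centralizer (omegaCenterSup 0 2 X : Set X) := by
    refine le_antisymm (fun a ha => InCoreMod.mem_centralizer omegaCenterSup_le_iSup
      ⟨centralizer (V : Set X), ha, le_top, le_normalizer_of_normal, fun x hx => ?_⟩)
      (centralizer_le (PGroup.omegaOne_le _))
    obtain ⟨k, m, hm, e⟩ := Nat.exists_eq_two_pow_mul_odd (orderOf_pos x).ne'
    refine ⟨k, le_centralizer_of_omegaOne_of_comm (A := zpowers (x ^ 2 ^ k)) hW.1 hWp
      le_normalizer_of_normal ?_ (zpowers_le.2 (pow_mem hx _)) (mem_zpowers _)⟩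
    rw [Nat.card_zpowers]
    exact (Nat.coprime_two_right.2 hm).of_dvd_left
      (orderOf_dvd_of_pow_eq_one (by rw [← pow_mul, ← e, pow_orderOf_eq_one]))
  set Y := normalClosure (thompsonSubgroupAOf (T : Subgroup X) : Set X) with hY'
  rw [thompsonSubgroupAOf_eq] at hY' ⊢
  have hJY : thompsonSubgroupOf 0 (T : Subgroup X) ≤ Y := hY' ▸ le_normalClosure
  refine ⟨eq_top_iff.2 fun g _ => ?_, or_iff_not_imp_left.2 fun hY => ?_⟩
  · obtain ⟨c, hc, n, hn, rfl⟩ := exists_mul_normalizer_thompsonSubgroupOf (e := 0) T (C := Y)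
      hJY g
    exact mul_mem (mem_sup_left (mem_sup_right hc)) (mem_sup_right hn)
  have hm := model_hol V
  have hP := hm.ffPair hV (Core.isPSolvable_of_isSolvable inferInstance)
    (le_bot_iff.mp fun x hx => by
      obtain ⟨x, rfl⟩ := QuotientGroup.mk_surjective x
      have := mk_mem_pCore_iff_top.mp hx
      rw [e2] at this
      exact (QuotientGroup.eq_one_iff _).mpr
        (e2 ▸ this.mem_centralizer omegaCenterSup_le_iSup)) Y
  generalize (PGroup.holR V).comp MulAut.conjNormal = π at hm hP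
  generalize (pPrimeCore 2 (Y.map π)).map (Subgroup.subtype _) = F at hP
  have hg : TransvGen 2 (PGroup.holL V).range (Y.map π) := fun U hU => by
    rw [map_le_iff_le_comap]
    refine hY'.le.trans ((closure_le _).2 fun x hx => ?_)
    obtain ⟨j, hj, hx⟩ := Group.mem_conjugatesOfSet_iff.1 hx
    obtain ⟨g, rfl⟩ := isConj_iff.1 hx
    have h1 : g ⋆ thompsonSubgroupOf 0 (T : Subgroup X) ≤ Y :=
      (conj_mono g hJY).trans (conj_eq_self_of_normal g Y).le
    refine (?_ : g ⋆ thompsonSubgroupOf 0 (T : Subgroup X) ≤ U.comap π) (conj_mem_conj.2 hj)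
    rw [conj_thompsonSubgroupOf] at h1 ⊢
    refine thompsonSubgroupOf_le_iff.2 fun A hA => map_le_iff_le_comap.1 ?_
    have hS : IsPGroup 2 ↥(g ⋆ (T : Subgroup X)) := (g • T).2
    have hA' := hA.2.1.1
    refine hP.le_of_abelian hU _ _ rfl (map_mono ((le_thompsonSubgroupOf hA).trans h1))
      inferInstance ((hS.to_le hA.1).map π) fun B hB => ?_
    have h2 : (A ⊓ B.comap π).map π = B := by
      refine le_antisymm ((map_mono inf_le_right).trans (map_comap_le _ _)) fun b hb => ?_
      obtain ⟨a, ha, rfl⟩ := hB hb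
      exact ⟨a, ⟨ha, hb⟩, rfl⟩
    have h3 : A ⊓ B.comap π ⊓ π.ker = A ⊓ π.ker := by
      rw [inf_assoc, inf_eq_right.mpr (ker_le_comap π B)]
    have h4 : offMeasure V (A ⊓ B.comap π) ≤ offMeasure V A := offMeasure_le_of_mem_maxIn hA
      ((PGroup.omegaOne_le _).trans (((omegaCenterSup_le_center hc).trans inf_le_left).trans
        (Core.pCore_le_sylow (g • T)))) (isElementaryAbelian_zero_iff.2 hV.1) inf_le_left
    rw [← hm.offMeasure_map_mul, ← hm.offMeasure_map_mul, h2, h3] at h4
    exact Nat.le_of_mul_le_mul_right h4 Nat.card_pos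
  obtain ⟨a1, a2, a3, -⟩ := S0617.aux hP hg
    (fun E => ∃ A, A ≤ Y.map π ∧ Transv 2 (PGroup.holL V).range A ∧ E = ⁅F, A⁆ ⊔ A)
    (fun _ h => h) fun A h1 _ h2 => ⟨A, h1, h2, rfl⟩
  obtain ⟨φ⟩ := nonempty_equiv_pi (K := Equiv.Perm (Fin 3)) (fun E => (a1 E).1) a2 a3 fun E =>
    ⟨(a1 E).2.1.some.trans nonempty_sl_two_two_equiv.some⟩
  obtain ⟨A, hAH, -, hA⟩ := FFPair.exists_transv hg fun h0 => hY
    (((Subgroup.map_eq_bot_iff _).mp h0).trans (hm.ker_eq.trans (e2.trans e1.symm)).le)
  refine ⟨_, Nat.card_pos_iff.2 ⟨⟨⟨_, A, hAH, hA, rfl⟩⟩, inferInstance⟩, ⟨MulEquiv.trans ?_ φ⟩⟩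
  refine (QuotientGroup.quotientMulEquivOfEq ?_).trans
    (QuotientGroup.quotientKerEquivOfSurjective _ (π.subgroupMap_surjective Y))
  rw [e1, ← e2, ← hm.ker_eq]
  exact Subgroup.ext fun x => ⟨fun h => Subtype.ext h, fun h => congrArg Subtype.val h⟩

end Cfsg.Agent.S4302
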