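import Cfsg.Statements.S4310
import Cfsg.Agent.S0205
import Cfsg.Agent.Lib.Hall.Solvable
import Cfsg.Agent.Lib.Core.PiSeparable

set_option autoImplicit false
open Cfsg

namespace Cfsg.Agent.S4310

open Subgroup Cfsg.Lib Cfsg.Lib.Hall Cfsg.Lib.Core

theorem conj_of_sep {G : Type*} [Group G] [Finite G] {π : Set ℕ} (h : IsPiSeparable π G)
    {H K : Subgroup G} (hH : IsPiHall π H) (hK : IsPiHall π K) :
    ∃ g : G, H.map (MulAut.conj g).toMonoidHom = K := by
  refine exists_conj_eq_of_conj_le hH hK (exists_conj_le_of_separable hK.2 hH.1 ?_)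
  intro N _ hne
  obtain ⟨M, hM, hlt, h1 | h1⟩ := h.exists_normal_gt N inferInstance hne
  · exact ⟨M, hM, hlt, Or.inl h1⟩
  · refine ⟨M, hM, hlt, Or.inr ⟨h1, ?_⟩⟩
    by_cases h2 : 2 ∈ π
    · right
      apply S0205.result
      have : Nat.card (M.map (QuotientGroup.mk' N)) = N.relIndex M := by
        have := Subgroup.relIndex_ker M (QuotientGroup.mk' N)
        rw [QuotientGroup.ker_mk'] at this
        exact this.symm
      rw [this, ← Nat.not_even_iff_odd, even_iff_two_dvd]
      exact h1 2 Nat.prime_two h2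
    · left
      apply S0205.result
      rw [← Nat.not_even_iff_odd, even_iff_two_dvd]
      exact fun h => h2 (hH.1 2 Nat.prime_two h)

theorem sep_of {G : Type*} [Group G] [Finite G] {π : Set ℕ} {A K H : Subgroup G} [A.Normal]
    (hH : IsPiHallOf π H A) (hK : IsPiNumber π (A.relIndex K)) :
    IsPiSeparable π ↥(K ⊓ normalizer (H : Set G)) := by
  have h1 : IsPiSeparable π H := IsPiSeparable.of_isPiNumber hH.2.1
  have h2 : IsPiSeparable π ↥(A ⊓ normalizer (H : Set G)) := by
    refine IsPiSeparable.of_relIndex inf_le_right h1 (Or.inr ?_)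
    have hn : (H.subgroupOf (A ⊓ normalizer (H : Set G))).Normal :=
      normal_subgroupOf_of_le_normalizer inf_le_right
    refine pi_compl_iff.mpr (pi'_of_dvd ?_ hH.2.2)
    have hle : H ≤ A ⊓ normalizer (H : Set G) := le_inf hH.1 le_normalizer
    exact ⟨_, (relIndex_mul_relIndex H _ A hle inf_le_left).symm⟩
  refine IsPiSeparable.of_relIndex (A := A ⊓ normalizer (H : Set G)) ?_ h2 (Or.inl ?_)
  · intro g hg
    have h3 : g ∈ normalizer (A : Set G) := by simp [normalizer_eq_top]
    have h4 : g ∈ normalizer ((normalizer (H : Set G) : Subgroup G) : Set G) := le_normalizer hg.2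
    exact inf_normalizer_le_normalizer_inf ⟨h3, h4⟩
  · have : (A ⊓ normalizer (H : Set G)).relIndex (K ⊓ normalizer (H : Set G)) =
        A.relIndex (K ⊓ normalizer (H : Set G)) := by
      rw [← inf_relIndex_right A, ← inf_relIndex_right (A ⊓ _)]
      congr 1
      rw [inf_assoc, inf_comm (normalizer _), inf_assoc, inf_idem]
    rw [this]
    exact pi_of_dvd (relIndex_dvd_of_normal A inf_le_left) hK

/-- Let `π` be a set of primes and `A` a normal subgroup of the finite group `G`. Suppose `A` has a Hall `π`-subgroup and all Hall `π`-subgroups of `A` are conjugate in `A`, and likewise for `G/A`. Then `G` has a Hall `π`-subgroup and all Hall `π`-subgroups of `G` are conjugate. (The conjugacy of complements of coprime order that the usual proof uses rests, in general, on the odd order Theorem.) -/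
theorem result {G : Type*} [Group G] [Finite G] (π : Set ℕ) (A : Subgroup G) [A.Normal]
    (hA : Cfsg.IsCPiGroup π ↥A) (hQ : Cfsg.IsCPiGroup π (G ⧸ A)) : Cfsg.IsCPiGroup π G := by
  have hA' : ∀ H K : Subgroup G, IsPiHallOf π H A → IsPiHallOf π K A →
      ∃ a ∈ A, H.map (MulAut.conj a).toMonoidHom = K := by
    intro H K hH hK
    obtain ⟨g, hg⟩ := hA.2 _ _ (isPiHallOf_iff.mp hH).2 (isPiHallOf_iff.mp hK).2
    refine ⟨g, g.2, ?_⟩
    have h1 := map_conj_le_of_subgroupOf hH.1 hg.ge
    exact Subgroup.eq_of_le_of_card_ge h1 (by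
      rw [card_map_of_injective (MulAut.conj (g : G)).injective, card_eq_of_isPiHallOf hH hK])
  have hidx : ∀ K : Subgroup (G ⧸ A), A.relIndex (K.comap (QuotientGroup.mk' A)) = Nat.card K := by
    intro K
    have := Subgroup.relIndex_ker (K.comap (QuotientGroup.mk' A)) (QuotientGroup.mk' A)
    rw [QuotientGroup.ker_mk', map_comap_eq_self_of_surjective (QuotientGroup.mk'_surjective A)] at this
    exact this
  constructor
  · obtain ⟨Kb, hKb⟩ := hQ.1
    obtain ⟨H1, hH1⟩ := hA.1
    have hH := isPiHallOf_map_subtype.mpr hH1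
    set H := H1.map A.subtype
    set K := Kb.comap (QuotientGroup.mk' A)
    have hAK : A ≤ K := by
      intro a ha
      show QuotientGroup.mk' A a ∈ Kb
      rw [(QuotientGroup.eq_one_iff a).mpr ha |> (show (QuotientGroup.mk' A a = 1) from ·)]
      exact one_mem _
    have hsep := sep_of hH (K := K) (by rw [hidx]; exact hKb.1)
    set N := K ⊓ normalizer (H : Set G) with hN
    obtain ⟨L, hL⟩ := exists_isPiHall_of_separable (G := N) (π := π)
      (fun M hM hne => hsep.exists_normal_gt M hM hne)
    have hL' := isPiHallOf_map_subtype.mpr hL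
    have hsup : A ⊔ N = K := by
      refine le_antisymm (sup_le hAK inf_le_left) fun g hg => ?_
      obtain ⟨l, hl, h⟩ := hA' _ _ (isPiHallOf_conj hH (g := g) (by simp [normalizer_eq_top])) hH
      rw [Coprime.map_conj_map_conj] at h
      have h' := Coprime.mem_normalizer_iff_map_conj.mpr h
      have := mul_mem (mem_sup_left (T := N) (A.inv_mem hl))
        (mem_sup_right ⟨K.mul_mem (hAK hl) hg, h'⟩)
      simpa using this
    refine ⟨_, isPiHallOf_top.mp (isPiHallOf_trans (isPiHallOf_trans hL' (L := K) inf_le_left ?_) le_top ?_)⟩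
    · have h1 : N.relIndex K = N.relIndex A := by
        rw [← hsup, sup_comm]
        have e1 := Subgroup.relIndex_sup_right N A
        have e2 := relIndex_mul_relIndex (N ⊓ A) N (N ⊔ A) inf_le_left le_sup_left
        have e3 := relIndex_mul_relIndex (N ⊓ A) A (N ⊔ A) inf_le_right le_sup_right
        rw [inf_relIndex_right, e1] at e3
        rw [inf_comm, inf_relIndex_right, inf_comm, ← e3, mul_comm] at e2
        exact Nat.eq_of_mul_eq_mul_right (Nat.pos_of_ne_zero (Subgroup.FiniteIndex.index_ne_zero (H := A.subgroupOf N))) e2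
      rw [h1]
      refine pi'_of_dvd ?_ hH.2.2
      exact relIndex_dvd_of_le_left A (le_inf (hH.1.trans hAK) le_normalizer)
    · rw [relIndex_top_right, index_comap_of_surjective _ (QuotientGroup.mk'_surjective A)]
      exact hKb.2
  · intro H K hH hK
    have hs := QuotientGroup.mk'_surjective A
    obtain ⟨g, hg⟩ := hQ.2 _ _ (isPiHall_map_of_surjective hs hH) (isPiHall_map_of_surjective hs hK)
    obtain ⟨g, rfl⟩ := hs g
    have hH1 := isPiHall_conj hH g
    set H1 := H.map (MulAut.conj g).toMonoidHom with hH1d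
    obtain ⟨a, ha, hae⟩ := hA' _ _ (isPiHallOf_inf_normal (N := A) hH1) (isPiHallOf_inf_normal (N := A) hK)
    have hH2 := isPiHall_conj hH1 a
    set H2 := H1.map (MulAut.conj a).toMonoidHom with hH2d
    set L := (K.map (QuotientGroup.mk' A)).comap (QuotientGroup.mk' A)
    have hsep := sep_of (isPiHallOf_inf_normal (N := A) hK) (K := L)
      (by rw [hidx]; exact (isPiHall_map_of_surjective hs hK).1)
    set N := L ⊓ normalizer ((K ⊓ A : Subgroup G) : Set G) with hN
    have hnorm : ∀ X : Subgroup G, X ≤ normalizer ((X ⊓ A : Subgroup G) : Set G) := fun X x hx =>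
      inf_normalizer_le_normalizer_inf ⟨le_normalizer hx, by simp [normalizer_eq_top]⟩
    have hKN : K ≤ N := le_inf (le_comap_map _ _) (hnorm K)
    have h2A : H2 ⊓ A = K ⊓ A := by
      rw [← hae, map_inf _ _ _ (MulAut.conj a).injective]
      congr 1
      exact (Coprime.mem_normalizer_iff_map_conj.mp (by simp [normalizer_eq_top])).symm
    have hH2N : H2 ≤ N := by
      refine le_inf ?_ (h2A ▸ hnorm H2)
      rintro _ ⟨_, ⟨x, hx, rfl⟩, rfl⟩
      show QuotientGroup.mk' A _ ∈ K.map (QuotientGroup.mk' A)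
      rw [hg]
      refine ⟨_, ⟨x, hx, rfl⟩, ?_⟩
      have : (a : G ⧸ A) = 1 := (QuotientGroup.eq_one_iff a).mpr ha
      simp [this]
    obtain ⟨n, hn⟩ := conj_of_sep hsep (isPiHallOf_iff.mp (isPiHallOf_of_isPiHall hH2 hH2N)).2
      (isPiHallOf_iff.mp (isPiHallOf_of_isPiHall hK hKN)).2
    have h1 := map_conj_le_of_subgroupOf hH2N hn.le
    rw [hH2d, hH1d, Coprime.map_conj_map_conj, Coprime.map_conj_map_conj] at h1
    obtain ⟨y, hy⟩ := exists_conj_eq_of_conj_le hH hK ⟨_, h1⟩
    exact ⟨y, hy.symm⟩

end Cfsg.Agent.S4310
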