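import Cfsg.Statements.S4314
import Cfsg.Agent.Lib.BG.Hall
import Cfsg.Agent.Lib.FGS.ClassSqf

set_option autoImplicit false
open Cfsg

namespace Cfsg.Agent.S4314

/-- Let `G` be a finite group every conjugacy class of which has size 1 or a prime. Then either `G` is nilpotent of class at most 2, or `G/Z(G)` is a non-abelian group of order `pq` for distinct primes `p, q` (a Frobenius group of order `pq`). -/
theorem result {G : Type*} [Group G] [Finite G]
    (h : ∀ x : G, (Subgroup.centralizer ({x} : Set G)).index = 1 ∨ ((Subgroup.centralizer ({x} : Set G)).index).Prime) :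
    Subgroup.upperCentralSeries G 2 = ⊤ ∨
      ∃ p q : ℕ, p.Prime ∧ q.Prime ∧ p ≠ q ∧ Nat.card (G ⧸ Subgroup.center G) = p * q ∧ ¬ IsMulCommutative (G ⧸ Subgroup.center G) := by
  open Subgroup Cfsg.Lib Cfsg.Lib.BG Cfsg.Lib.Transfer in
  open Cfsg.Lib.FGS commutatorElement in
  have hs : ∀ x : G, Squarefree (𝐂[x]).index := fun x =>
    (h x).elim (fun e => e ▸ squarefree_one) fun e => e.prime.squarefree
  obtain ⟨v, hv, hF⟩ := exists_fitting_eq_cent1 hs
  haveI := Solv.isSolvable_of_isSupersolvable (isSupersolvable_of_squarefree G hs)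
  refine or_iff_not_imp_left.2 fun h0 => ?_
  have h1 : v ∉ center G := fun e => h0 (eq_top_iff.2 fun x _ => by
    rw [Subgroup.mem_upperCentralSeries_succ_iff, Subgroup.upperCentralSeries_one]
    exact fun y => (hv.ge.trans (zpowers_le.2 e)) (commutator_mem_commutator (mem_top x) (mem_top y)))
  set F := fittingSubgroup G
  have hq : F.index.Prime := hF ▸ (h v).resolve_left fun e => h1 (index_cent1_eq_one.1 e)
  have hc := isCoatom_of_index_prime hq
  obtain ⟨g, -, hg, k, hk⟩ := PGroup.exists_not_mem_of_dvd_relIndex hq (H := ⊤) (K := F) (by simp)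
  have h2 : F ⊔ zpowers g = ⊤ := hc.2 _ (left_lt_sup.2 fun e => hg (e (mem_zpowers g)))
  obtain ⟨p, hp, hpq, h3⟩ : ∃ p : ℕ, p.Prime ∧ p ≠ F.index ∧ ¬ pCore p G ≤ 𝐂[g] := by
    by_contra! e
    haveI := Fact.mk hq
    have h3 : (pCore F.index G ⊔ zpowers g).Normal := by
      refine normalizer_eq_top_iff.1 (eq_top_iff.2 (h2.ge.trans (sup_le
        ((Core.fittingSubgroup_eq_iSup_pCore G).le.trans (iSup_le fun r => ?_)) (le_sup_right.trans le_normalizer))))
      by_cases h4 : (r : ℕ) = F.index
      · exact h4 ▸ le_sup_left.trans le_normalizer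
      haveI := Fact.mk r.2
      refine le_trans (le_centralizer_iff.1 (sup_le ?_ (zpowers_le.2 fun x hx =>
        mem_centralizer_singleton_iff.1 (e r r.2 h4 hx)))) (centralizer_le_normalizer _)
      exact Core.le_centralizer_of_inf_eq_bot le_normalizer_of_normal le_normalizer_of_normal (disjoint_iff.1
        (IsPGroup.disjoint_of_ne _ _ (Ne.symm h4) _ _ (Core.pCore_isPGroup _ G) (Core.pCore_isPGroup _ G)))
    exact hg (Core.pCore_le_fittingSubgroup _ (Core.le_pCore h3 ((Core.pCore_isPGroup _ G).to_sup_of_normal_left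
      (isPGroup_zpowers_of_pow hk)) (mem_sup_right (mem_zpowers g))))
  haveI := Fact.mk hp
  obtain ⟨P, hP⟩ := exists_sylow_le_of_not_dvd_index (p := p) (H := F)
    fun e => hpq ((Nat.prime_dvd_prime_iff_eq hp hq).1 e)
  have h4 : pCore p G = P := (Core.pCore_le_sylow P).antisymm (Core.le_pCore_of_le_fittingSubgroup hP P.2)
  haveI : (P : Subgroup G).Normal := h4 ▸ inferInstance
  have h5 := (comm_le_cent_of_relIndex_dvd P fun x => relIndex_dvd_of_squarefree P.2 (hs x)).resolve_left
    fun e => h3 (h4 ▸ fun x hx => mem_centralizer_singleton_iff.2 (e (mem_pResidual_of_coprime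
      (PGroup.coprime_orderOf_of_pow_pow_eq_one hq hpq.symm hk)) x hx))
  have h6 : ∀ u ∈ (P : Subgroup G), F ≤ 𝐂[u] := fun u hu f hf => by
    by_contra e
    obtain ⟨r, hr, y, hy, h6, l, hl⟩ := exists_primePow_not_mem e
    have h7 : y ∈ F := zpowers_le.2 hf hy
    refine h6 (mem_centralizer_singleton_iff.2 ?_)
    by_cases h8 : r = p
    · exact PGroup.isMulCommutative_iff.1 h5 y ((Core.le_pCore_of_le_fittingSubgroup (zpowers_le.2 h7)
        (isPGroup_zpowers_of_pow (h8 ▸ hl))).trans h4.le (mem_zpowers y)) u hu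
    · obtain ⟨m, hm⟩ := exists_pow_of_mem P.2 hu
      exact Frobenius.commute_of_mem_nil inferInstance h7 (hP hu) (Frobenius.coprime_orderOf_of_pelt hr hp h8 hl hm)
  obtain ⟨u, hu, h7⟩ := SetLike.not_le_iff_exists.1 (h4 ▸ h3)
  have h8 : 𝐂[u] = F := by
    by_contra e
    exact h7 (mem_cent1_comm ((hc.2 _ (lt_of_le_of_ne (h6 u hu) (Ne.symm e))).ge (mem_top g)))
  have h9 : F ≤ 𝐂(F) := fun c hc => by
    by_contra e
    obtain ⟨r, hr, y, hy, h9, l, hl⟩ := exists_primePow_not_mem e
    have h10 : y ∈ F := zpowers_le.2 hc hy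
    refine h9 fun f hf => mem_centralizer_singleton_iff.1 ?_
    by_cases h11 : r = p
    · exact h6 y ((Core.le_pCore_of_le_fittingSubgroup (zpowers_le.2 h10)
        (isPGroup_zpowers_of_pow (h11 ▸ hl))).trans h4.le (mem_zpowers y)) hf
    obtain ⟨m, hm⟩ := exists_pow_of_mem P.2 hu
    have h12 := h (y * u)
    rw [centralizer_mul_of_coprime (mem_centralizer_singleton_iff.1 (h6 u hu h10))
      (Frobenius.coprime_orderOf_of_pelt hr hp h11 hl hm), h8, ← relIndex_mul_index inf_le_right,
      inf_relIndex_right] at h12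
    refine relIndex_eq_one.1 ?_ hf
    rcases h12 with h12 | h12
    · exact Nat.eq_one_of_mul_eq_one_right h12
    · exact ((Nat.prime_mul_iff.1 h12).resolve_left fun e => hq.ne_one e.2).2
  have h10 : center G = 𝐂[g] ⊓ F := le_antisymm (le_inf (center_le_centralizer _) Core.center_le_fittingSubgroup)
    fun z hz => mem_center_iff.2 fun x => mem_centralizer_singleton_iff.1 (sup_le (fun f hf =>
      mem_centralizer_singleton_iff.2 (h9 hz.2 f hf)) (zpowers_le.2 (mem_cent1_comm hz.1)) (h2.ge (mem_top x)))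
  have h11 : ((𝐂[g]).relIndex F).Prime := by
    have h11 : (𝐂[g]).relIndex F ≠ 1 := fun e => h7 (relIndex_eq_one.1 e (hP hu))
    rcases h g with h12 | h12
    · exact absurd (Nat.eq_one_of_dvd_one (h12 ▸ relIndex_dvd_index_of_normal' _ F)) h11
    · rwa [((Nat.dvd_prime h12).1 (relIndex_dvd_index_of_normal' _ F)).resolve_left h11]
  have h12 : Nat.card (G ⧸ center G) = (𝐂[g]).relIndex F * F.index := by
    rw [← index, h10, ← relIndex_mul_index inf_le_right, inf_relIndex_right]
  have h13 : ¬ IsMulCommutative (G ⧸ center G) := fun e =>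
    h1 (Normal.quotient_commutative_iff_commutator_le.1 e (hv.le (mem_zpowers v)))
  refine ⟨_, _, h11, hq, fun e => h13 ?_, h12, h13⟩
  haveI := Fact.mk hq
  exact IsPGroup.isMulCommutative_of_card_eq_prime_sq (p := F.index) (by rw [h12, e, sq])

end Cfsg.Agent.S4314
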