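import Cfsg.Statements.S4316
import Cfsg.Agent.Lib.BFC.Main

set_option autoImplicit false
universe u
open Cfsg

namespace Cfsg.Agent.S4316

/-- There is a function `f` of two natural-number arguments with the following property. Let `q` be a prime and `A` an elementary abelian group of order `q³` acting by automorphisms on a finite group `G` of order prime to `q`, and suppose that for every non-identity `a ∈ A` the derived subgroup of the fixed-point subgroup `C_G(a)` has order at most `m`. Then the derived subgroup of `G` has order at most `f(q, m)`. -/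
theorem result :
    ∃ f : ℕ → ℕ → ℕ, ∀ (q m : ℕ) (A G : Type u) [Group A] [Finite A] [Group G] [Finite G] [MulDistribMulAction A G],
      q.Prime → Nat.card A = q ^ 3 → (∀ a b : A, a * b = b * a) → (∀ a : A, a ^ q = 1) → ¬ q ∣ Nat.card G →
      (∀ a : A, a ≠ 1 → Nat.card ↥(commutator ↥(FixedPoints.subgroup (Subgroup.zpowers a) G)) ≤ m) →
      Nat.card ↥(commutator G) ≤ f q m := by
  open Subgroup SemidirectProduct in
  refine ⟨fun q m => Lib.BFC.bd m (q ^ 3) (2 ^ q ^ 3), fun q m A G _ _ _ _ _ hq hA hc he hG hm => ?_⟩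
  let φ := MulDistribMulAction.toMulAut A G
  have : Finite (G ⋊[φ] A) := Finite.of_equiv _ SemidirectProduct.equivProd.symm
  have e1 : ∀ H : Subgroup G, Nat.card (H.map (inl : G →* G ⋊[φ] A)) = Nat.card H := fun H =>
    card_map_of_injective inl_injective
  have e2 : Nat.card ((⊤ : Subgroup A).map (inr : A →* G ⋊[φ] A)) = q ^ 3 := by
    rw [card_map_of_injective inr_injective, card_top, hA]
  have h := Lib.BFC.amb (m := m) (A := (⊤ : Subgroup A).map (inr : A →* G ⋊[φ] A))
    (K := (⊤ : Subgroup G).map inl) hq ⟨⟨⟨?_⟩⟩, ?_⟩ e2 ?_ ?_ ?_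
  · rwa [← map_commutator, e1] at h
  · rintro ⟨_, a, -, rfl⟩ ⟨_, b, -, rfl⟩
    exact Subtype.ext (by simp only [coe_mul, ← map_mul, hc a b])
  · rintro _ ⟨a, -, rfl⟩
    rw [← map_pow, he, map_one]
  · rw [le_normalizer_iff]
    rintro _ ⟨a, -, rfl⟩ _ ⟨g, -, rfl⟩
    exact ⟨φ a g, mem_top _, by rw [inl_aut, map_inv]⟩
  · rw [e2, e1, card_top]
    exact Nat.Coprime.pow_left _ ((hq.coprime_iff_not_dvd).2 hG)
  · rintro _ ⟨a, -, rfl⟩ h1
    have h2 : (⊤ : Subgroup G).map (inl : G →* G ⋊[φ] A) ⊓ centralizer {inr a} =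
        (FixedPoints.subgroup (zpowers a) G).map inl := by
      ext x
      constructor
      · rintro ⟨⟨g, -, rfl⟩, hg⟩
        have h3 : a • g = g := inl_injective (φ := φ) (by
          rw [show a • g = φ a g from rfl, inl_aut, map_inv,
            ← mem_centralizer_singleton_iff.1 hg, mul_inv_cancel_right])
        exact ⟨g, fun b => (zpowers_le (H := MulAction.stabilizer A g)).2 h3 b.2, rfl⟩
      · rintro ⟨g, hg, rfl⟩
        have h3 : φ a g = g := hg ⟨a, mem_zpowers a⟩
        refine ⟨⟨g, mem_top _, rfl⟩, mem_centralizer_singleton_iff.2 ?_⟩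
        conv_lhs => rw [← h3, inl_aut, map_inv, inv_mul_cancel_right]
    rw [h2, ← map_commutator, e1, ← map_subtype_commutator, card_map_of_injective (subtype_injective _)]
    exact hm a fun e => h1 (by rw [e, map_one])

end Cfsg.Agent.S4316
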