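import Cfsg.Statements.S4320

set_option autoImplicit false
open Cfsg

namespace Cfsg.Agent.S4320

open MonoidAlgebra

theorem key {G : Type*} [Group G] [Fintype G] {R M : Type*} [CommRing R] [AddCommGroup M]
    [Module R M] (ε : R →+* ℤ) (u : G → R) (hu : ∀ g, ε (u g) = 1) (D : G → M)
    (hD : ∀ g h, D (g * h) = D g + u g • D h) :
    ∃ r : R, (ε r).natAbs = Nat.card (Abelianization G) ∧ ∀ g, r • D g = 0 := by
  classical
  let T : AddSubgroup M :=
    { carrier := {m | ∃ c : G → R, (∀ g, ε (c g) = 0) ∧ m = ∑ g, c g • D g}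
      zero_mem' := ⟨0, by simp, by simp⟩
      add_mem' := by
        rintro _ _ ⟨c, hc, rfl⟩ ⟨c', hc', rfl⟩
        exact ⟨c + c', by simp [hc, hc'], by simp [add_smul, Finset.sum_add_distrib]⟩
      neg_mem' := by
        rintro _ ⟨c, hc, rfl⟩
        exact ⟨-c, by simp [hc], by simp⟩ }
  let δ : G →* Multiplicative (M ⧸ T) := MonoidHom.mk' (fun g => Multiplicative.ofAdd
    (QuotientAddGroup.mk (D g))) fun g h => by
      rw [← ofAdd_add, ← QuotientAddGroup.mk_add]
      congr 1
      rw [eq_comm, QuotientAddGroup.eq]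
      refine ⟨Pi.single h (u g - 1), fun k => ?_, ?_⟩
      · by_cases hk : k = h
        · subst hk; simp [hu]
        · simp [Pi.single_eq_of_ne hk]
      · rw [Finset.sum_eq_single h (fun k _ hk => by simp [Pi.single_eq_of_ne hk]) (by simp), hD]
        simp [sub_smul]
        abel
  let lam : (G → ℤ) →ₗ[ℤ] Additive (Abelianization G) :=
    Fintype.linearCombination ℤ fun g => Additive.ofMul (Abelianization.of g)
  have hsurj : Function.Surjective lam := by
    intro q
    obtain ⟨g, hg⟩ := QuotientGroup.mk_surjective (q.toMul : G ⧸ commutator G)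
    refine ⟨Pi.single g 1, ?_⟩
    simp only [lam, Fintype.linearCombination_apply_single, one_smul]
    exact congrArg Additive.ofMul hg
  have hcard : Nat.card ((G → ℤ) ⧸ LinearMap.ker lam) = Nat.card (Abelianization G) :=
    Nat.card_congr (lam.quotKerEquivOfSurjective hsurj).toEquiv
  have hfin : Finite ((G → ℤ) ⧸ LinearMap.ker lam) :=
    Finite.of_equiv _ (lam.quotKerEquivOfSurjective hsurj).toEquiv.symm
  let bN := Submodule.smithNormalFormBotBasis (Pi.basisFun ℤ G)
    ((Submodule.finiteQuotient_iff _).1 hfin)
  have hdet := Submodule.natAbs_det_basis_change (Pi.basisFun ℤ G) _ bN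
  have hT : ∀ k, ∃ c : G → R, (∀ g, ε (c g) = 0) ∧
      ∑ g, (bN k).1 g • D g = ∑ g, c g • D g := by
    intro k
    have h0 : lam (bN k).1 = 0 := (bN k).2
    have h1 := congrArg (MonoidHom.toAdditiveLeft (Abelianization.lift δ)) h0
    rw [map_zero] at h1
    simp only [lam, Fintype.linearCombination_apply, map_sum, map_zsmul] at h1
    have h2 : (QuotientAddGroup.mk (∑ g, (bN k).1 g • D g) : M ⧸ T) = 0 := by
      rw [← h1, ← QuotientAddGroup.mk'_apply, map_sum]
      simp only [map_zsmul]
      rfl
    exact (QuotientAddGroup.eq_zero_iff _).1 h2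
  choose c hc hc' using hT
  let μ : Matrix G G R := Matrix.of fun k g => ((bN k).1 g : R) - c k g
  have hμ : ∀ k, ∑ g, μ k g • D g = 0 := fun k => by
    simp only [μ, Matrix.of_apply, sub_smul, Finset.sum_sub_distrib, Int.cast_smul_eq_zsmul, hc',
      sub_self]
  refine ⟨μ.det, ?_, fun g => ?_⟩
  · rw [← hcard, ← hdet, RingHom.map_det, Module.Basis.det_apply, ← Matrix.det_transpose]
    congr 2
    ext i j
    simp [μ, hc, Module.Basis.toMatrix_apply]
  · have h1 : ∑ k, μ.adjugate g k • ∑ h, μ k h • D h = 0 := by simp [hμ]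
    simp only [Finset.smul_sum, smul_smul] at h1
    rw [Finset.sum_comm] at h1
    simp only [← Finset.sum_smul, ← Matrix.mul_apply, Matrix.adjugate_mul] at h1
    rw [Finset.sum_eq_single g (fun k _ hk => by simp [Matrix.one_apply_ne hk.symm])
      (by simp)] at h1
    simpa using h1

theorem key1 {G : Type*} [Group G] [Finite G] [Fintype (Abelianization G)] {W : Type*}
    [AddCommGroup W] (σ : Abelianization G →* Module.End ℤ W) (d : G → W)
    (hd : ∀ g h, d (g * h) = d g + σ (Abelianization.of g) (d h)) (g : G) :
    ∑ q, σ q (d g) = 0 := by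
  classical
  have := Fintype.ofFinite G
  let ρ := (MonoidAlgebra.lift ℤ _ _ σ).toRingHom
  let ε : MonoidAlgebra ℤ (Abelianization G) →+* ℤ := (MonoidAlgebra.lift ℤ ℤ _ 1).toRingHom
  let : Module (MonoidAlgebra ℤ (Abelianization G)) W := Module.compHom _ ρ
  have hsm : ∀ (r : MonoidAlgebra ℤ (Abelianization G)) (f : W), r • f = ρ r f := fun r f => rfl
  obtain ⟨r, hr1, hr2⟩ := key ε (fun g => single (Abelianization.of g) 1) (fun g => by simp [ε])
    (fun g => ((d g, single (Abelianization.of g) 1 - 1) :
      W × MonoidAlgebra ℤ (Abelianization G))) (fun g h => by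
      refine Prod.ext ?_ ?_
      · simp [hsm, ρ, hd]
      · simp [mul_sub, single_mul_single])
  have hc : ∀ q, r.coeff q = r.coeff 1 := fun q => by
    obtain ⟨a, rfl⟩ : ∃ a, Abelianization.of a = q := QuotientGroup.mk_surjective q
    have h1 := congrArg Prod.snd (hr2 a⁻¹)
    simp only [Prod.smul_snd, smul_eq_mul, mul_sub, mul_one, Prod.snd_zero, sub_eq_zero] at h1
    have h2 := congrArg (fun x => x.coeff 1) h1
    simpa [coeff_mul_single_apply] using h2
  have hε : ε r = r.coeff 1 * Nat.card (Abelianization G) := by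
    change MonoidAlgebra.lift ℤ ℤ _ 1 r = _
    rw [lift_apply, Finsupp.sum_fintype _ _ (by simp)]
    simp only [MonoidHom.one_apply, smul_eq_mul, mul_one]
    rw [Finset.sum_congr rfl fun q _ => hc q]
    simp [mul_comm]
  rw [hε, Int.natAbs_mul, Int.natAbs_natCast] at hr1
  have h3 : (r.coeff 1).natAbs = 1 := by
    have : 0 < Nat.card (Abelianization G) := Nat.card_pos
    exact Nat.eq_of_mul_eq_mul_right this (by rw [hr1, one_mul])
  have h4 := congrArg Prod.fst (hr2 g)
  simp only [Prod.smul_fst, hsm, Prod.fst_zero] at h4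
  change MonoidAlgebra.lift ℤ _ _ σ r (d g) = 0 at h4
  rw [lift_apply, Finsupp.sum_fintype _ _ (by simp), Finset.sum_congr rfl fun q _ => by rw [hc q],
    ← Finset.smul_sum, LinearMap.smul_apply, LinearMap.sum_apply] at h4
  rcases Int.natAbs_eq_iff.1 h3 with h | h <;> simpa [h] using h4

theorem key2 {G : Type*} [Group G] [Finite G] [Fintype (Abelianization G)] {A : Type*}
    [AddCommGroup A] (d : G → Abelianization G → A)
    (hd : ∀ g h q, d (g * h) q = d g q + d h ((Abelianization.of g)⁻¹ * q)) (g : G) :
    ∑ q, d g q = 0 := by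
  let σ : Abelianization G →* Module.End ℤ (Abelianization G → A) :=
    { toFun := fun x => LinearMap.funLeft ℤ A (fun q => x⁻¹ * q)
      map_one' := by ext; simp
      map_mul' := fun x y => by ext; simp [mul_assoc] }
  have h4 := congrFun (key1 σ d (fun g h => by ext q; simp [σ, hd]) g) 1
  simp [σ] at h4
  rwa [← Equiv.sum_comp (Equiv.inv _) (d g)]


/-- The Principal Ideal Theorem of class field theory in its group-theoretic form: for every finite group `G`, the transfer homomorphism from `G` into the abelianization `G'/G''` of its derived subgroup `G'` is the trivial homomorphism. -/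
theorem result {G : Type*} [Group G] [Finite G] :
    MonoidHom.transfer (Abelianization.of : ↥(commutator G) →* Abelianization ↥(commutator G)) =
      (1 : G →* Abelianization ↥(commutator G)) := by
  classical
  ext g
  let T : (commutator G).LeftTransversal := default
  let := (commutator G).fintypeQuotientOfFiniteIndex
  let : Fintype (Abelianization G) := (commutator G).fintypeQuotientOfFiniteIndex
  let α : Abelianization G → G := fun q => T.2.leftQuotientEquiv q
  have hα : ∀ q, Abelianization.of (α q) = q := fun q => T.2.leftQuotientEquiv.symm_apply_apply q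
  have hm : ∀ (g : G) (q : Abelianization G),
      (α q)⁻¹ * g * α ((Abelianization.of g)⁻¹ * q) ∈ commutator G := fun g q => by
    rw [← Abelianization.ker_of, MonoidHom.mem_ker]
    simp [hα]
  have := key2 (A := Additive (Abelianization (commutator G)))
    (fun g q => Additive.ofMul (Abelianization.of ⟨_, hm g q⟩)) (fun g h q => by
      rw [← ofMul_mul, ← map_mul]
      congr 2
      apply Subtype.ext
      simp [mul_assoc]) g
  rw [← ofMul_prod] at this
  rw [MonoidHom.transfer_def _ T, MonoidHom.one_apply]
  refine Eq.trans ?_ (congrArg Additive.toMul this)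
  refine Finset.prod_congr rfl fun q _ => ?_
  congr 1
  apply Subtype.ext
  simp only [Subgroup.smul_apply_eq_smul_apply_inv_smul, smul_eq_mul, mul_assoc, α]
  induction q using QuotientGroup.induction_on
  rfl

end Cfsg.Agent.S4320
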