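import Cfsg.Statements.S4323
import Cfsg.Agent.Lib.CharDeg.Mart

set_option autoImplicit false
open Cfsg

namespace Cfsg.Agent.S4323

/-- Let `q` be a prime and `A` a non-cyclic group of order `q²` acting by automorphisms on a finite group `G` of order prime to `q`, such that the fixed-point subgroup `C_G(a)` is abelian for every non-identity `a ∈ A`. Then `G` is solvable. -/
theorem result {A G : Type*} [Group A] [Finite A]
    [Group G] [Finite G] [MulDistribMulAction A G] (q : ℕ) (hq : q.Prime) (hA : Nat.card A = q ^ 2) (hnc : ¬ IsCyclic A)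
    (hcop : ¬ q ∣ Nat.card G) (h : ∀ a : A, a ≠ 1 → IsMulCommutative ↥(FixedPoints.subgroup (Subgroup.zpowers a) G)) :
    Group.IsSolvable G := by
  open Lib.BG Lib.PGroup Subgroup in
  haveI := Fact.mk hq
  let ψ := MulDistribMulAction.toMulAut A G
  by_cases hi : Function.Injective ψ
  swap
  · obtain ⟨a, ha, a1⟩ : ∃ a, ψ a = 1 ∧ a ≠ 1 := by
      by_contra e
      push Not at e
      exact hi ((injective_iff_map_eq_one ψ).2 e)
    have hf : ∀ g : G, g ∈ FixedPoints.subgroup (zpowers a) G := fun g b => by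
      have : ψ b = 1 := (zpowers_le.2 (MonoidHom.mem_ker.2 ha) : zpowers a ≤ ψ.ker) b.2
      exact congrArg (fun e : MulAut G => e g) this
    exact Group.isSolvable_of_comm fun x y => congrArg Subtype.val ((h a a1).is_comm.comm ⟨x, hf x⟩ ⟨y, hf y⟩)
  have hc : ∀ a b : A, a * b = b * a := (IsPGroup.isMulCommutative_of_card_eq_prime_sq hA).is_comm.comm
  have he := (not_isCyclic_iff_exponent_eq_prime hq hA).1 hnc
  have hE : Nat.card (ψ.range.map (holR G)) = q ^ 2 := by
    rw [card_map_holR, ← hA]; exact (Nat.card_congr (MonoidHom.ofInjective hi).toEquiv).symm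
  have := Lib.CharDeg.Mart.sol_aux (q := q) _ (Hol G) (ψ.range.map (holR G)) ((⊤ : Subgroup G).map (holL G)) rfl
    ⟨le_rfl, ⟨abelian_iff.2 (le_cent_iff.2 (by
      rintro _ ⟨_, ⟨a, rfl⟩, rfl⟩ _ ⟨_, ⟨b, rfl⟩, rfl⟩
      rw [← map_mul, ← map_mul, hc, map_mul, map_mul])), by
      rintro _ ⟨_, ⟨a, rfl⟩, rfl⟩
      rw [← map_pow, ← map_pow, ← he, Monoid.pow_exponent_eq_one, map_one, map_one]⟩, hE⟩
    (map_holR_le_normalizer_top _)
    (by rw [hE, card_map_holL, card_top]; exact ((Nat.Prime.coprime_iff_not_dvd hq).2 hcop).pow_left 2)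
    (by
      rintro _ ⟨_, ⟨a, rfl⟩, rfl⟩ a1
      have hf : ∀ g : G, holL G g ∈ 𝐂[holR G (ψ a)] → g ∈ FixedPoints.subgroup (zpowers a) G := fun g hg b => by
        obtain ⟨_, k, rfl⟩ := b
        have h1 : ψ a g = g := hol_comm_iff.1 (mem_cent1.1 hg).symm
        exact apply_eq_of_mem_zpowers (b := ψ (a ^ k)) ⟨k, (map_zpow ψ a k).symm⟩ h1
      refine abelian_iff.2 (le_cent_iff.2 ?_)
      rintro _ ⟨⟨x, -, rfl⟩, hx⟩ _ ⟨⟨y, -, rfl⟩, hy⟩
      rw [← map_mul, ← map_mul]
      exact congrArg _ (congrArg Subtype.val ((h a fun e => a1 (by rw [e, map_one, map_one])).is_comm.comm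
        ⟨x, hf x hx⟩ ⟨y, hf y hy⟩)))
  exact Group.isSolvable_of_surjective (f := (holEquiv G).symm.toMonoidHom) (holEquiv G).symm.surjective

end Cfsg.Agent.S4323
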