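import Cfsg.Statements.S4421
import Cfsg.Agent.Lib.BG.Basic

set_option autoImplicit false
open Cfsg

namespace Cfsg.Agent.S4421

/-- A factorization of a normalizer from two-step control of fusion. Let `G` be a finite group and `A ≤ S ≤ H` subgroups of `G` such that: (i) `S` controls the `G`-fusion of `A` in the sense that every `G`-conjugate of `A` lying in `S` is an `S`-conjugate of `A`; (ii) `H` controls the `G`-fusion of `S` in the same sense; (iii) every conjugate of `S` by an element of the normalizer of `A` lies in `H`. Then `N_G(A) = N_H(A) · (N_G(S) ∩ N_G(A))`: every element of the normalizer of `A` is a product of an element of `H` normalizing `A` and an element normalizing both `S` and `A`. -/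
theorem result {G : Type*} [Group G] [Finite G] (A S H : Subgroup G)
    (hAS : A ≤ S) (hSH : S ≤ H)
    (h1 : ∀ g : G, A.map (MulAut.conj g).toMonoidHom ≤ S → ∃ s ∈ S, A.map (MulAut.conj g).toMonoidHom = A.map (MulAut.conj s).toMonoidHom)
    (h2 : ∀ g : G, S.map (MulAut.conj g).toMonoidHom ≤ H → ∃ y ∈ H, S.map (MulAut.conj g).toMonoidHom = S.map (MulAut.conj y).toMonoidHom)
    (h3 : ∀ x ∈ Subgroup.normalizer (A : Set G), S.map (MulAut.conj x).toMonoidHom ≤ H) :
    ∀ x ∈ Subgroup.normalizer (A : Set G), ∃ y ∈ H ⊓ Subgroup.normalizer (A : Set G),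
      ∃ z ∈ Subgroup.normalizer (S : Set G) ⊓ Subgroup.normalizer (A : Set G), x = y * z := by
  open Cfsg.Lib.BG Cfsg.Lib.Transfer in
  intro x hx
  obtain ⟨y, hy, e⟩ := h2 x (h3 x hx)
  change x ⋆ S = y ⋆ S at e
  have hA : x ⋆ A = A := conj_eq_of_norm hx
  have h4 : y⁻¹ ⋆ A ≤ S := by
    rw [← hA, conj_conj]
    refine (conj_mono _ hAS).trans ?_
    rw [← conj_conj, e, inv_conj_conj]
  obtain ⟨s, hs, e2⟩ := h1 y⁻¹ h4
  change y⁻¹ ⋆ A = s ⋆ A at e2
  have h5 : y * s ∈ 𝐍(A) := norm_of_conj_eq (by rw [← conj_conj, ← e2, conj_inv_conj])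
  refine ⟨y * s, ⟨mul_mem hy (hSH hs), h5⟩, (y * s)⁻¹ * x,
    Subgroup.mem_inf.2 ⟨norm_of_conj_eq ?_, mul_mem (inv_mem h5) hx⟩, by group⟩
  rw [← conj_conj, e, conj_conj, mul_inv_rev, inv_mul_cancel_right, conj_eq_of_mem (inv_mem hs)]

end Cfsg.Agent.S4421
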