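import Cfsg.Statements.S4422

set_option autoImplicit false
open Cfsg

namespace Cfsg.Agent.S4422

/-- Primitive divisors of `q^e - 1` are congruent to 1 modulo `e`. Let `q ≥ 2` and `e ≥ 1` be natural numbers and let `m` be a divisor of `q^e - 1` that is coprime to `q^i - 1` for every `1 ≤ i < e` (so `m` divides the primitive part of `q^e - 1`, the largest such divisor). Then `m ≡ 1 (mod e)`. -/
theorem result (q e m : ℕ) (hq : 2 ≤ q) (he : 1 ≤ e)
    (hm : m ∣ q ^ e - 1) (hcop : ∀ i : ℕ, 1 ≤ i → i < e → Nat.Coprime m (q ^ i - 1)) :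
    m % e = 1 % e := by
  have hm0 : m ≠ 0 := by
    rintro rfl
    have : 1 < q ^ e := Nat.one_lt_pow (by omega) hq
    rw [Nat.zero_dvd] at hm; omega
  have key : ∀ r : ℕ, r.Prime → r ∣ m → r ≡ 1 [MOD e] := by
    intro r hr hrm
    haveI := Fact.mk hr
    have cast : ∀ i, r ∣ q ^ i - 1 ↔ (q : ZMod r) ^ i = 1 := fun i => by
      rw [← ZMod.natCast_eq_zero_iff, Nat.cast_sub (Nat.one_le_pow _ _ (by omega)), sub_eq_zero]; simp
    have h1 := (cast e).1 (hrm.trans hm)
    have h2 : orderOf (q : ZMod r) = e := by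
      refine (orderOf_eq_iff (by omega)).2 ⟨h1, fun i hi hi0 h => ?_⟩
      exact hr.one_lt.ne' (Nat.eq_one_of_dvd_coprimes (hcop i hi0 hi) hrm ((cast i).2 h))
    have h3 : (q : ZMod r) ≠ 0 := fun h => by
      rw [h, zero_pow (by omega)] at h1; exact zero_ne_one h1
    have h4 := ZMod.orderOf_dvd_card_sub_one h3
    rw [h2] at h4
    exact ((Nat.modEq_iff_dvd' hr.one_le).2 h4).symm
  clear hm hcop
  induction m using Nat.recOnMul with
  | zero => exact absurd rfl hm0
  | one => rfl
  | prime r hr => exact key r hr dvd_rfl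
  | mul a b iha ihb =>
    have h1 := iha (left_ne_zero_of_mul hm0) fun r hr h => key r hr (h.mul_right b)
    have h2 := ihb (right_ne_zero_of_mul hm0) fun r hr h => key r hr (h.mul_left a)
    simpa [Nat.ModEq] using Nat.ModEq.mul h1 h2

end Cfsg.Agent.S4422
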