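import Cfsg.Statements.S4423
import Cfsg.Agent.Lib.GLC.Zsig2

set_option autoImplicit false
open Cfsg

namespace Cfsg.Agent.S4423

theorem aux : ∀ p ∈ [(2, 6), (2, 4), (2, 10), (2, 12), (2, 18), (3, 4), (3, 6), (5, 6), (2, 3), (2, 8), (2, 20), (4, 3), (4, 6)],
    ∃ w ∈ [p.2 + 1, 2 * p.2 + 1], p.1 ^ p.2 - 1 ∣ w * (∏ i ∈ Finset.Ico 1 p.2, (p.1 ^ i - 1)) ^ 2 := by
  decide +kernel


/-- Size of the primitive part of `q^e - 1`. For a prime power `q` and `e ≥ 3`, call a divisor of `q^e - 1` primitive when it is coprime to `q^i - 1` for every `1 ≤ i < e`; the primitive part is the largest primitive divisor. Apart from thirteen exceptional pairs, the primitive part is at least `3e + 1`: there is a primitive divisor `m ≥ 3e + 1` unless `(q, e)` is `(2, 6)` (where every primitive divisor is 1), one of `(2,4), (2,10), (2,12), (2,18), (3,4), (3,6), (5,6)` (where the primitive part is exactly `e + 1`), or one of `(2,3), (2,8), (2,20), (4,3), (4,6)`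 (where it is exactly `2e + 1`). The statement asserts the existence of a primitive divisor `m ≥ 3e + 1` outside the thirteen pairs, and that every primitive divisor is at most `2e + 1` for the thirteen pairs. -/
theorem result (q e : ℕ) (hq : IsPrimePow q) (he : 3 ≤ e) :
    ((q, e) ∉ [(2, 6), (2, 4), (2, 10), (2, 12), (2, 18), (3, 4), (3, 6), (5, 6), (2, 3), (2, 8), (2, 20), (4, 3), (4, 6)] →
      ∃ m : ℕ, m ∣ q ^ e - 1 ∧ (∀ i : ℕ, 1 ≤ i → i < e → Nat.Coprime m (q ^ i - 1)) ∧ 3 * e + 1 ≤ m) ∧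
    ((q, e) ∈ [(2, 6), (2, 4), (2, 10), (2, 12), (2, 18), (3, 4), (3, 6), (5, 6), (2, 3), (2, 8), (2, 20), (4, 3), (4, 6)] →
      ∀ m : ℕ, m ∣ q ^ e - 1 → (∀ i : ℕ, 1 ≤ i → i < e → Nat.Coprime m (q ^ i - 1)) → m ≤ 2 * e + 1) := by
  refine ⟨Lib.GLC.exists_large_prim_divisor hq.two_le he, fun h m h1 h2 => ?_⟩
  obtain ⟨w, hw, h3⟩ := aux _ h
  have h4 := Nat.le_of_dvd (by grind) ((Nat.Coprime.pow_right 2 (Nat.Coprime.prod_right fun i hi =>
    h2 i (Finset.mem_Ico.1 hi).1 (Finset.mem_Ico.1 hi).2)).dvd_of_dvd_mul_right (h1.trans h3))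
  grind

end Cfsg.Agent.S4423
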