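import Cfsg.Statements.S4425
import Cfsg.Agent.Lib.Modular.Contrib

set_option autoImplicit false
open Cfsg

namespace Cfsg.Agent.S4425

open Cfsg.Lib.Block Cfsg.Lib.Char Cfsg.Lib.Modular
open scoped ComplexConjugate

/-- Let χ be an irreducible character of the finite group G, p a prime, p^a the p-part of the order of G and p^b the p-part of the degree χ(1). Let χ̃ be the class function equal to p^a · χ on p-regular elements and zero on p-singular elements. Then p^(−b) · χ̃ is a generalized character of G, while p^(−(b+1)) · χ̃ is not. -/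
theorem result {G : Type*} [Group G] [Finite G] (p : ℕ) [Fact p.Prime] (χ : Cfsg.IrrCharacter G) : Cfsg.IsGeneralizedCharacter G (fun x : G => if p ∣ orderOf x then (0 : ℂ) else ((p ^ ((Nat.card G).factorization p - (Cfsg.charDegree (χ : G → ℂ)).factorization p) : ℕ) : ℂ) * (χ : G → ℂ) x) ∧ ¬ Cfsg.IsGeneralizedCharacter G (fun x : G => if p ∣ orderOf x then (0 : ℂ) else ((p ^ (Nat.card G).factorization p : ℕ) : ℂ) / ((p ^ ((Cfsg.charDegree (χ : G → ℂ)).factorization p + 1) : ℕ) : ℂ) * (χ : G → ℂ) x) := by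
  classical
  have := Fintype.ofFinite G
  have hp : p.Prime := Fact.out
  obtain ⟨M, hM⟩ := exists_isPModular hp
  have : Modular p M := ⟨hM⟩
  have key : ∀ c : ℂ, (fun x : G => if p ∣ orderOf x then (0 : ℂ) else c * (χ : G → ℂ) x) =
      c • pRegularPart p (χ : G → ℂ) := fun c => funext fun x => by
    rw [Pi.smul_apply, pRegularPart_apply]
    split_ifs <;> simp
  rw [key, key]
  constructor
  · refine ((isClassFunction_pRegularPart χ.2.isClassFunction).smul _).isGeneralizedCharacter_of_inner_int fun ψ hψ => ?_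
    obtain ⟨n, hn, -⟩ := exists_int_regInner M χ.2 hψ.isGeneralizedCharacter
    exact ⟨n, by rw [classInner_smul_left, ← hn]; push_cast; rfl⟩
  · intro h
    have hB := isPBlock_blockOf (M := M) χ
    obtain ⟨ψ, hψ, h0⟩ := exists_height_zero p hB.nonempty
    obtain ⟨n, hn, h1⟩ := exists_int_regInner M χ.2 ψ.2.isGeneralizedCharacter
    obtain ⟨m, hm⟩ := h.exists_inner_eq_int ψ.2.isGeneralizedCharacter
    refine (hB.height_zero_iff_lam hψ (mem_blockOf_self χ)).1 h0 (h1.1 ⟨m, ?_⟩)
    apply Int.cast_injective (α := ℂ)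
    rw [classInner_smul_left] at hm
    push_cast at hm ⊢
    rw [← hm, ← hn, pow_sub₀ _ (Nat.cast_ne_zero.2 hp.ne_zero) (factorization_degree_le p χ.2),
      regInner]
    have : (p : ℂ) ≠ 0 := Nat.cast_ne_zero.2 hp.ne_zero
    field_simp
    ring

end Cfsg.Agent.S4425
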