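import Cfsg.Statements.S4426
import Cfsg.Agent.Lib.Modular.Contrib

set_option autoImplicit false
open Cfsg

namespace Cfsg.Agent.S4426

open Cfsg.Lib.Block Cfsg.Lib.Char Cfsg.Lib.Modular
open scoped ComplexConjugate

/-- Let χ be an irreducible character in the p-block B of the finite group G (relative to a maximal ideal M of the algebraic integers containing p), let p^a be the p-part of the order of G, and let χ̃ be the class function equal to p^a · χ on p-regular elements and zero elsewhere. For ξ ∈ B the inner product [χ̃, ξ] is an integer. The following are equivalent: (a) χ has height zero in B; (b) for some ξ ∈ B the integer [χ̃, ξ] is nonzero and the exact power of p dividing it equals the exact power of p dividing ξ(1); (c) the same holds for every ξ ∈ B. -/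
theorem result {G : Type*} [Group G] [Fintype G] (p : ℕ) [Fact p.Prime] (M : Ideal Cfsg.AlgInt) (hM : Cfsg.IsPModular p M) (B : Set (Cfsg.IrrCharacter G)) (hB : Cfsg.IsPBlock M B) (χ : Cfsg.IrrCharacter G) (hχ : χ ∈ B) : (Cfsg.blockHeight p B (χ : G → ℂ) = 0 ↔ ∃ ξ ∈ B, ∃ n : ℤ, Cfsg.classInner (fun x : G => if p ∣ orderOf x then (0 : ℂ) else ((p ^ (Nat.card G).factorization p : ℕ) : ℂ) * (χ : G → ℂ) x) (ξ : G → ℂ) = (n : ℂ) ∧ n ≠ 0 ∧ padicValInt p n = (Cfsg.charDegree (ξ : G → ℂ)).factorization p) ∧ (Cfsg.blockHeight p B (χ : G → ℂ) = 0 ↔ ∀ ξ ∈ B, ∃ n : ℤ, Cfsg.classInner (fun x : G => if p ∣ orderOf x then (0 : ℂ) else ((p ^ (Nat.card G).factorization p : ℕ) : ℂ) * (χ : G → ℂ) x) (ξ : G → ℂ) = (n : ℂ) ∧ n ≠ 0 ∧ padicValInt p n = (Cfsg.charDegree (ξ : G → ℂ)).factorization p) := by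
  classical
  have hp : p.Prime := Fact.out
  have : Modular p M := ⟨hM⟩
  have key : ∀ c : ℂ, (fun x : G => if p ∣ orderOf x then (0 : ℂ) else c * (χ : G → ℂ) x) =
      c • pRegularPart p (χ : G → ℂ) := fun c => funext fun x => by
    rw [Pi.smul_apply, pRegularPart_apply]
    split_ifs <;> simp
  rw [key]
  have main : ∀ ξ ∈ B, (blockHeight p B (χ : G → ℂ) = 0 ↔ ∃ n : ℤ, classInner
      (((p ^ (Nat.card G).factorization p : ℕ) : ℂ) • pRegularPart p (χ : G → ℂ)) (ξ : G → ℂ) = n ∧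
      n ≠ 0 ∧ padicValInt p n = (charDegree (ξ : G → ℂ)).factorization p) := by
    intro ξ hξ
    obtain ⟨n, hn, h1⟩ := exists_int_regInner M ξ.2 χ.2.isGeneralizedCharacter
    have h2 : classInner (((p ^ (Nat.card G).factorization p : ℕ) : ℂ) •
        pRegularPart p (χ : G → ℂ)) (ξ : G → ℂ) =
        (((p : ℤ) ^ (charDegree (ξ : G → ℂ)).factorization p * n : ℤ) : ℂ) := by
      rw [classInner_smul_left]
      push_cast
      rw [← hn, ← mul_assoc, ← pow_add, Nat.add_sub_cancel' (factorization_degree_le p ξ.2),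
        regInner_comm ξ.2.isGeneralizedCharacter χ.2.isGeneralizedCharacter]
      rfl
    have hp0 : (p : ℤ) ^ (charDegree (ξ : G → ℂ)).factorization p ≠ 0 :=
      pow_ne_zero _ (Int.natCast_ne_zero.2 hp.ne_zero)
    have h3 : padicValInt p ((p : ℤ) ^ (charDegree (ξ : G → ℂ)).factorization p) =
        (charDegree (ξ : G → ℂ)).factorization p := by
      rw [← Nat.cast_pow, padicValInt.of_nat, padicValNat.prime_pow]
    rw [hB.height_zero_iff_lam hχ hξ, Ne, ← h1, h2]
    constructor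
    · intro h
      have hn0 : n ≠ 0 := fun h0 => h (h0 ▸ dvd_zero _)
      exact ⟨_, rfl, mul_ne_zero hp0 hn0, by
        rw [padicValInt.mul hp0 hn0, h3, padicValInt.eq_zero_of_not_dvd h, add_zero]⟩
    · rintro ⟨m, hm, hm0, hv⟩ h
      obtain rfl := Int.cast_injective hm
      have hn0 : n ≠ 0 := right_ne_zero_of_mul hm0
      rw [padicValInt.mul hp0 hn0, h3, add_eq_left] at hv
      have := (padicValInt_dvd_iff 1 n).1 (by rwa [pow_one])
      omega
  exact ⟨⟨fun h => ⟨χ, hχ, (main χ hχ).1 h⟩, fun ⟨ξ, hξ, h⟩ => (main ξ hξ).2 h⟩,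
    ⟨fun h ξ hξ => (main ξ hξ).1 h, fun h => (main χ hχ).2 (h χ hχ)⟩⟩

end Cfsg.Agent.S4426
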