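import Cfsg.Statements.S4427
import Cfsg.Agent.Lib.Block.Pim
import Cfsg.Agent.Lib.Block.KerPair

set_option autoImplicit false
open Cfsg

namespace Cfsg.Agent.S4427

open Cfsg.Lib.Block MonoidAlgebra Cfsg.Lib.Char Cfsg.Lib.Modular Finset
open scoped ComplexConjugate

section
variable {G : Type*} [Group G] [Fintype G] {p : ℕ} [hp : Fact p.Prime] {M : Ideal AlgInt}
  [Modular p M] {k : ℕ} {f : Fin k → SG G M} {Φ : Fin k → IrrCharacter G → ℕ}

/-- The character with multiplicities `c`. -/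
noncomputable def ch (c : IrrCharacter G → ℕ) : G → ℂ := ∑ χ : IrrCharacter G, (c χ : ℂ) • (χ : G → ℂ)

theorem ch_apply (c : IrrCharacter G → ℕ) (g : G) :
    ch c g = ∑ χ : IrrCharacter G, (c χ : ℂ) * (χ : G → ℂ) g := by
  simp [ch]

theorem inner_ch (c d : IrrCharacter G → ℕ) :
    classInner (ch c) (ch d) = (∑ χ, c χ * d χ : ℕ) := by
  nth_rw 2 [ch]
  rw [classInner_sum_right]
  push_cast
  refine sum_congr rfl fun χ _ => ?_
  rw [classInner_smul_right, ch, classInner_sum_smul_irr, map_natCast, mul_comm]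

theorem sum_one {ι : Type*} [Fintype ι] {x : ι → ℕ} (h : ∑ i, x i = 1) :
    ∃ i, x i = 1 ∧ ∀ j, j ≠ i → x j = 0 := by
  classical
  obtain ⟨i, -, hi⟩ := exists_ne_zero_of_sum_ne_zero (h ▸ one_ne_zero : ∑ i, x i ≠ 0)
  rw [← add_sum_erase _ _ (mem_univ i)] at h
  exact ⟨i, by omega, fun j hj => sum_eq_zero_iff.1 (by omega : ∑ j ∈ univ.erase i, x j = 0) j
    (mem_erase.2 ⟨hj, mem_univ _⟩)⟩

theorem exists_prin (h : Pims M f Φ) :
    ∃ i, Φ i (irrOne G) = 1 ∧ ∀ j, Φ j (irrOne G) ≠ 0 → j = i := by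
  obtain ⟨d, hd⟩ := h.span 1 (one_mul 1)
  have h1 : ∀ j, 1 ≤ d j := fun j => by
    obtain ⟨n, hn⟩ := h.span (1 - f j) (by rw [sub_mul, mul_sub, mul_sub, h.idem]; simp)
    have := congrFun (h.inj (fun i => d i) (fun i => (if i = j then 1 else 0) + n i) fun χ => by
      simp only [add_mul, sum_add_distrib, ← hd, ← hn]
      rw [Subalgebra.coe_sub, map_sub, h.val]
      simp) j
    simp only [if_true] at this
    have : d j = 1 + n j := by exact_mod_cast this
    omega
  have h2 : ∑ i, d i * Φ i (irrOne G) = 1 := by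
    have := hd (irrOne G)
    rw [Subalgebra.coe_one, ev_one, irrOne_apply] at this
    exact_mod_cast this.symm
  obtain ⟨i, hi, hj⟩ := sum_one h2
  refine ⟨i, Nat.eq_one_of_mul_eq_one_left hi, fun j h0 => by_contra fun e => ?_⟩
  have := h1 j
  rcases mul_eq_zero.1 (hj j e) with h3 | h3
  exacts [by omega, h0 h3]

theorem exists_perm (h : Pims M f Φ) {i : Fin k} (hi : ∀ j, Φ j (irrOne G) ≠ 0 → j = i)
    (U : Subgroup G) (hU : ¬ p ∣ Nat.card U) : ∃ c : IrrCharacter G → ℕ, (∀ χ, Φ i χ ≤ c χ) ∧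
      (∀ g, ¬ orderOf g ∣ Nat.card U → ch c g = 0) ∧ ch c 1 = (Nat.card U : ℂ)⁻¹ * Nat.card G := by
  classical
  have h0 : (Nat.card U : ℂ) ≠ 0 := card_ne_zero_complex U
  let e : ℂ[G] := (Nat.card U : ℂ)⁻¹ • ssum ℂ (U : Set G)
  have he : e ∈ SG G M := fun g => by
    rw [coeff_smul', coeff_ssum]
    exact mul_mem (natCast_inv_mem hU) (by split_ifs; exacts [one_mem _, zero_mem _])
  have ee : e * e = e := by
    rw [smul_mul_smul_comm, mul_ssum_of_supp (ssum_mem_supp subset_rfl), aug_ssum, smul_smul]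
    congr 1
    rw [SetLike.coe_sort_coe]
    field_simp
  obtain ⟨n, hn⟩ := h.span ⟨e, he⟩ (Subtype.ext ee)
  have h1 : ∑ j, n j * Φ j (irrOne G) = 1 := by
    have := hn (irrOne G)
    simp only [e, map_smul, ev_ssum, irrOne_apply, sum_const, smul_eq_mul, nsmul_eq_mul, mul_one]
      at this
    rw [show (#{g | g ∈ (U : Set G)} : ℕ) = Nat.card U by
      simp [Fintype.card_subtype], inv_mul_cancel₀ h0] at this
    exact_mod_cast this.symm
  obtain ⟨j, hj, -⟩ := sum_one h1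
  obtain rfl := hi j (by rw [Nat.eq_one_of_mul_eq_one_left hj]; exact one_ne_zero)
  have h2 : ∀ g, ch (fun χ => ∑ i, n i * Φ i χ) g = ∑ x, e.coeff (x⁻¹ * (g⁻¹ * x)) := fun g => by
    rw [sum_coeff_conj_eq, ch_apply]
    exact sum_congr rfl fun χ _ => by rw [hn χ]; push_cast; rfl
  refine ⟨fun χ => ∑ i, n i * Φ i χ, fun χ => ?_, fun g hg => ?_, ?_⟩
  · refine le_trans ?_ (single_le_sum (f := fun i => n i * Φ i χ) (fun _ _ => Nat.zero_le _)
      (mem_univ j))
    rw [Nat.eq_one_of_mul_eq_one_right hj, one_mul]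
  · rw [h2]
    refine sum_eq_zero fun x _ => ?_
    rw [coeff_smul', coeff_ssum_of_notMem, mul_zero]
    intro hx
    apply hg
    rw [← orderOf_inv g, ← (MulAut.conj x⁻¹).orderOf_eq, MulAut.conj_apply, inv_inv, mul_assoc]
    exact U.orderOf_dvd_natCard hx
  · rw [h2]
    simp [e, coeff_smul', coeff_ssum, mul_comm]

end

/-- Let G be a finite group of order p^a · q^b · r^c with p, q, r distinct primes, and suppose that G has exactly q^b · r^c elements of order not divisible by p. Then G has a normal p-complement: a normal subgroup of order q^b · r^c. -/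
theorem result {G : Type*} [Group G] [Finite G] (p q r a b c : ℕ) (hp : p.Prime) (hq : q.Prime) (hr : r.Prime) (hpq : p ≠ q) (hpr : p ≠ r) (hqr : q ≠ r) (hG : Nat.card G = p ^ a * q ^ b * r ^ c) (hcount : Nat.card {g : G // ¬ p ∣ orderOf g} = q ^ b * r ^ c) : ∃ N : Subgroup G, N.Normal ∧ Nat.card N = q ^ b * r ^ c := by
  classical
  have := Fintype.ofFinite G
  have := Fact.mk hp
  have := Fact.mk hq
  have := Fact.mk hr
  obtain ⟨M, hM⟩ := exists_isPModular hp
  have : Modular p M := ⟨hM⟩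
  obtain ⟨k, f, Φ, h⟩ := exists_pims' G M
  obtain ⟨i, h1, hi⟩ := exists_prin h
  obtain ⟨Q, hQ⟩ := Sylow.exists_subgroup_card_pow_prime (G := G) q (n := b)
    (hG ▸ (dvd_mul_left _ _).mul_right _)
  obtain ⟨R, hR⟩ := Sylow.exists_subgroup_card_pow_prime (G := G) r (n := c) (hG ▸ dvd_mul_left _ _)
  obtain ⟨u, hu, u0, u1⟩ := exists_perm h hi Q fun e =>
    hpq ((Nat.prime_dvd_prime_iff_eq hp hq).1 (hp.dvd_of_dvd_pow (hQ ▸ e)))
  obtain ⟨v, hv, v0, v1⟩ := exists_perm h hi R fun e =>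
    hpr ((Nat.prime_dvd_prime_iff_eq hp hr).1 (hp.dvd_of_dvd_pow (hR ▸ e)))
  have p0 : (p : ℂ) ≠ 0 := Nat.cast_ne_zero.2 hp.ne_zero
  have q0 : (q : ℂ) ≠ 0 := Nat.cast_ne_zero.2 hq.ne_zero
  have r0 : (r : ℂ) ≠ 0 := Nat.cast_ne_zero.2 hr.ne_zero
  have h2 : ∑ χ, u χ * v χ = p ^ a := by
    apply Nat.cast_injective (R := ℂ)
    rw [← inner_ch, classInner_def, sum_eq_single 1 (fun g _ g1 => ?_) (by simp), u1, v1, hQ, hR, hG]
    · simp only [map_mul, map_inv₀, map_natCast]
      push_cast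
      field_simp
    · by_cases e : orderOf g ∣ Nat.card Q
      · rw [v0 g fun e' => g1 ?_, map_zero, mul_zero]
        rw [hQ] at e
        rw [hR] at e'
        exact orderOf_eq_one_iff.1 (Nat.eq_one_of_dvd_coprimes
          (Nat.coprime_pow_primes b c hq hr hqr) e e')
      · rw [u0 g e, zero_mul]
  have h3 : ∑ χ, Φ i χ * Φ i χ ≤ p ^ a :=
    h2 ▸ sum_le_sum fun χ _ => Nat.mul_le_mul (hu χ) (hv χ)
  have h4 : ∀ g, p ∣ orderOf g → ch (Φ i) g = 0 := fun g hg => by
    rw [ch_apply, ← sum_ev_mul_eq_zero (f i).2 (congrArg Subtype.val (h.idem i)) hg]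
    simp only [h.val]
  let θ : G → ℂ := fun g => if p ∣ orderOf g then 0 else p ^ a
  have h5 : ∀ φ : G → ℂ, (∀ g, p ∣ orderOf g → φ g = 0) →
      classInner φ θ = p ^ a * classInner φ (irrOne G) := fun φ hφ => by
    rw [classInner_def, classInner_def, mul_left_comm, mul_sum _ _ ((p : ℂ) ^ a)]
    refine congrArg _ (sum_congr rfl fun g _ => ?_)
    by_cases hg : p ∣ orderOf g
    · simp [hφ g hg]
    · simp [θ, hg, mul_comm]
  have h6 : classInner (ch (Φ i)) θ = p ^ a := by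
    rw [h5 _ h4, ch, classInner_sum_smul_irr, h1, Nat.cast_one, mul_one]
  have h7 : classInner θ θ = p ^ a := by
    rw [h5 θ fun g hg => if_pos hg, classInner_def]
    simp only [θ, irrOne_apply, map_one, mul_one, sum_ite, sum_const, smul_zero, zero_add,
      nsmul_eq_mul]
    rw [← Fintype.card_subtype, ← Nat.card_eq_fintype_card, hcount, hG]
    push_cast
    field_simp
  have h8 : ch (Φ i) = θ := by
    rw [← sub_eq_zero, ← classInner_self_eq_zero_iff]
    have e : classInner (ch (Φ i) - θ) (ch (Φ i) - θ) =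
        ((∑ χ, Φ i χ * Φ i χ : ℕ) : ℂ) - (p ^ a : ℕ) := by
      rw [classInner_sub_left, classInner_sub_right, classInner_sub_right, inner_ch, h6, h7,
        ← conj_classInner, h6]
      simp
    have := classInner_self_re_nonneg (ch (Φ i) - θ)
    rw [e] at this ⊢
    simp only [Complex.sub_re, Complex.natCast_re, sub_nonneg, Nat.cast_le] at this
    rw [le_antisymm h3 this, sub_self]
  have h9 : IsCharacter G θ := h8 ▸ isCharacter_sum_nat_smul_irr (Φ i)
  refine ⟨charKer θ, h9.charKer_normal, hcount ▸ Nat.card_congr (Equiv.subtypeEquivRight fun g => ?_)⟩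
  rw [h9.mem_charKer_iff]
  by_cases hg : p ∣ orderOf g
  · simpa [θ, hg, hp.one_lt.ne'] using (pow_ne_zero a p0).symm
  · simp [θ, hg, hp.one_lt.ne']

end Cfsg.Agent.S4427
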