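import Cfsg.Statements.S4431
import Cfsg.Agent.Lib.Modular.Contrib

set_option autoImplicit false
open Cfsg

namespace Cfsg.Agent.S4431

open Cfsg.Lib.Block Cfsg.Lib.Char Cfsg.Lib.Modular
open scoped ComplexConjugate

/-- Let H be a subgroup of the finite group G and b a block of H whose induced block B₀ in G is defined (relative to a maximal ideal M of the algebraic integers containing p). Let χ be an irreducible character of G, ψ ∈ b, and let η be the class function on H equal to p^a · χ on the p-regular elements of H and zero elsewhere, p^a being the p-part of the order of H. Then (a) if χ ∉ B₀, the number [η, ψ]/ψ(1) lies in the local ideal at M; (b) if χ ∈ B₀ has height zero, it does not. -/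
theorem result {G : Type*} [Group G] [Fintype G] (p : ℕ) [Fact p.Prime] (M : Ideal Cfsg.AlgInt) (hM : Cfsg.IsPModular p M) (H : Subgroup G) [Fintype H] (b : Set (Cfsg.IrrCharacter H)) (B₀ : Set (Cfsg.IrrCharacter G)) (hind : Cfsg.IsInducedBlock M H b B₀) (χ : Cfsg.IrrCharacter G) (ψ : Cfsg.IrrCharacter H) (hψ : ψ ∈ b) : (χ ∉ B₀ → Cfsg.MemLocalIdeal M (Cfsg.classInner (fun h : H => if p ∣ orderOf h then (0 : ℂ) else ((p ^ (Nat.card H).factorization p : ℕ) : ℂ) * (χ : G → ℂ) h) (ψ : H → ℂ) / (ψ : H → ℂ) 1)) ∧ (χ ∈ B₀ → Cfsg.blockHeight p B₀ (χ : G → ℂ) = 0 → ¬ Cfsg.MemLocalIdeal M (Cfsg.classInner (fun h : H => if p ∣ orderOf h then (0 : ℂ) else ((p ^ (Nat.card H).factorization p : ℕ) : ℂ) * (χ : G → ℂ) h) (ψ : H → ℂ) / (ψ : H → ℂ) 1)) := by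
  classical
  have hp : p.Prime := Fact.out
  have : Modular p M := ⟨hM⟩
  have hχH : IsGeneralizedCharacter H fun h : H => (χ : G → ℂ) h :=
    χ.2.isGeneralizedCharacter.restrict H
  have key : ∀ c : ℂ, (fun x : H => if p ∣ orderOf x then (0 : ℂ) else c * (χ : G → ℂ) x) =
      c • pRegularPart p (fun h : H => (χ : G → ℂ) h) := fun c => funext fun x => by
    rw [Pi.smul_apply, pRegularPart_apply]
    split_ifs <;> simp
  have hH : (Nat.card H : ℂ) ≠ 0 := card_ne_zero_complex H
  have e1 : classInner (((p ^ (Nat.card H).factorization p : ℕ) : ℂ) •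
      pRegularPart p (fun h : H => (χ : G → ℂ) h)) (ψ : H → ℂ) / (ψ : H → ℂ) 1 =
      ((p ^ (Nat.card H).factorization p : ℕ) : ℂ) / (Nat.card H : ℕ) *
        omega ψ (zreg p fun h : H => (χ : G → ℂ) h) := by
    rw [classInner_smul_left, omega_apply, ev_zreg_eq_regInner _ hχH,
      regInner_comm ψ.2.isGeneralizedCharacter hχH]
    unfold regInner
    field_simp
  have hu : red M (((p ^ (Nat.card H).factorization p : ℕ) : ℂ) / (Nat.card H : ℕ)) ≠ 0 :=
    red_div_natCast_ne_zero (pow_ne_zero _ hp.ne_zero) Nat.card_pos.ne' (by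
      rw [hp.factorization_pow, Finsupp.single_eq_same])
  have hm : omega ψ (zreg p fun h : H => (χ : G → ℂ) h) ∈ locRing M :=
    omega_zreg_mem ψ.2 hχH.isClassFunction fun g _ => irr_mem χ _
  obtain ⟨χ₀, hχ₀⟩ := hind.2.1.nonempty
  rw [key, e1, ← red_eq_zero_iff (mul_mem (mem_locRing_of_red_ne_zero hu) hm),
    red_mul (mem_locRing_of_red_ne_zero hu) hm, ← lam_zbar ψ.2 hχH,
    hind.lam_zbar hψ hχ₀ χ.2.isClassFunction, mul_eq_zero, or_iff_right hu]
  refine ⟨fun h => lam_zbar_eq_zero fun h' => h ?_,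
    fun h h0 => (hind.2.1.height_zero_iff_lam h hχ₀).1 h0⟩
  exact hind.2.1.mem_of_sameBlock hχ₀ (sameBlock_symm h')

end Cfsg.Agent.S4431
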