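import Cfsg.Statements.S4434
import Cfsg.Agent.Lib.Block.Quot

set_option autoImplicit false
open Cfsg

namespace Cfsg.Agent.S4434

open Cfsg.Lib.Block Cfsg.Lib.Char Cfsg.Lib.Transfer MonoidAlgebra Subgroup

/-- Let N be a normal p-subgroup of the finite group G and write Ḡ = G/N; fix a maximal ideal M of the algebraic integers containing p. Then every block B of G contains a block B̄ of Ḡ (the inflation of every member of B̄ lies in B) whose defect groups are exactly the images in Ḡ of the defect groups of B. -/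
theorem result {G : Type*} [Group G] [Finite G] (p : ℕ) [Fact p.Prime] (M : Ideal Cfsg.AlgInt) (hM : Cfsg.IsPModular p M) (N : Subgroup G) [N.Normal] (hN : IsPGroup p N) (B : Set (Cfsg.IrrCharacter G)) (hB : Cfsg.IsPBlock M B) : ∃ Bbar : Set (Cfsg.IrrCharacter (G ⧸ N)), Cfsg.IsPBlock M Bbar ∧ (∀ χ ∈ Bbar, ∀ ψ : Cfsg.IrrCharacter G, (ψ : G → ℂ) = (χ : G ⧸ N → ℂ) ∘ QuotientGroup.mk → ψ ∈ B) ∧ ∀ Dbar : Subgroup (G ⧸ N), Cfsg.IsDefectGroup p M Bbar Dbar ↔ ∃ P : Subgroup G, Cfsg.IsDefectGroup p M B P ∧ Dbar = P.map (QuotientGroup.mk' N) := by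
  have : Modular p M := ⟨hM⟩
  have hs := QuotientGroup.mk'_surjective N
  have hk : IsPGroup p (QuotientGroup.mk' N).ker := by rwa [QuotientGroup.ker_mk']
  obtain ⟨P, hP⟩ := hB.exists_isDefectGroup (p := p)
  obtain ⟨A, hA, h1, h2⟩ := hB.exists_subset_preimage_infl hs hk hP
  refine ⟨A, hA, (subset_preimage_infl_iff hs).1 h1, fun E => ⟨fun h => ?_, ?_⟩⟩
  · obtain ⟨x, rfl⟩ := hA.exists_conj_eq h2 h
    obtain ⟨y, rfl⟩ := hs x
    exact ⟨_, hP.conj y, (map_conj_eq _ _ _).symm⟩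
  · rintro ⟨P', h, rfl⟩
    obtain ⟨x, rfl⟩ := hB.exists_conj_eq hP h
    rw [map_conj_eq]
    exact h2.conj _

end Cfsg.Agent.S4434
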