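import Cfsg.Statements.S4435
import Cfsg.Agent.Lib.Block.Reynolds

set_option autoImplicit false
open Cfsg

namespace Cfsg.Agent.S4435

open Cfsg.Lib.Block Cfsg.Lib.Char Cfsg.Lib.Transfer MonoidAlgebra Subgroup

/-- Let N be a normal subgroup of the finite group G, b a block of N (relative to a maximal ideal M of the algebraic integers containing p), and T the stabilizer of b in G (the elements g such that conjugating any member of b by g gives a member of b); N ≤ T. Say that a block of T (or of G) covers b when some member has a constituent in b on restriction to N. Then: (i) every block B′ of T covering b induces a block B of G, B covers b, every ψ ∈ B′ induces to an irreducible character of G, and B consists exactly of the characters induced from members of B′; (ii) distinct blocks of T covering b induce distinct blocks of G; (iii) every block of G covering b is induced by some block of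 T covering b. -/
theorem result {G : Type*} [Group G] [Fintype G] (p : ℕ) [Fact p.Prime] (M : Ideal Cfsg.AlgInt) (hM : Cfsg.IsPModular p M) (N : Subgroup G) [hN : N.Normal] [Fintype N] (b : Set (Cfsg.IrrCharacter N)) (hb : Cfsg.IsPBlock M b) (T : Subgroup G) [Fintype T] (hT : ∀ g : G, g ∈ T ↔ ∀ θ ∈ b, ∀ θ' : Cfsg.IrrCharacter N, (∀ n : N, (θ' : N → ℂ) n = (θ : N → ℂ) ⟨g * n * g⁻¹, hN.conj_mem n n.2 g⟩) → θ' ∈ b) (hNT : N ≤ T) : (∀ B' : Set (Cfsg.IrrCharacter T), Cfsg.IsPBlock M B' → (∃ ψ ∈ B', ∃ θ ∈ b, Cfsg.classInner (fun n : N => (ψ : T → ℂ) ⟨(n : G), hNT n.2⟩) (θ : N → ℂ) ≠ 0) → ∃ B : Set (Cfsg.IrrCharacter G), Cfsg.IsInducedBlock M T B' B ∧ (∃ χ ∈ B, ∃ θ ∈ b, Cfsg.classInner (fun n : N => (χ : G → ℂ) n) (θ : N → ℂ) ≠ 0) ∧ (∀ ψ ∈ B', Cfsg.IsIrrCharacter G (Cfsg.indFun T (ψ : T → ℂ))) ∧ ∀ χ : Cfsg.IrrCharacter G, χ ∈ B ↔ ∃ ψ ∈ B', (χ : G → ℂ) = Cfsg.indFun T (ψ : T → ℂ)) ∧ (∀ B'₁ B'₂ : Set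 (Cfsg.IrrCharacter T), Cfsg.IsPBlock M B'₁ → Cfsg.IsPBlock M B'₂ → (∃ ψ ∈ B'₁, ∃ θ ∈ b, Cfsg.classInner (fun n : N => (ψ : T → ℂ) ⟨(n : G), hNT n.2⟩) (θ : N → ℂ) ≠ 0) → (∃ ψ ∈ B'₂, ∃ θ ∈ b, Cfsg.classInner (fun n : N => (ψ : T → ℂ) ⟨(n : G), hNT n.2⟩) (θ : N → ℂ) ≠ 0) → ∀ B : Set (Cfsg.IrrCharacter G), Cfsg.IsInducedBlock M T B'₁ B → Cfsg.IsInducedBlock M T B'₂ B → B'₁ = B'₂) ∧ (∀ B : Set (Cfsg.IrrCharacter G), Cfsg.IsPBlock M B → (∃ χ ∈ B, ∃ θ ∈ b, Cfsg.classInner (fun n : N => (χ : G → ℂ) n) (θ : N → ℂ) ≠ 0) → ∃ B' : Set (Cfsg.IrrCharacter T), Cfsg.IsPBlock M B' ∧ (∃ ψ ∈ B', ∃ θ ∈ b, Cfsg.classInner (fun n : N => (ψ : T → ℂ) ⟨(n : G), hNT n.2⟩) (θ : N → ℂ) ≠ 0) ∧ Cfsg.IsInducedBlock M T B' B) := by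
  have : Modular p M := ⟨hM⟩
  have hT' : T = stab (ebl N M b) := Subgroup.ext fun g => (hT g).trans hb.mem_stab_iff'.symm
  refine ⟨fun B' hB' h => ?_, fun B₁ B₂ h1 h2 h3 h4 B h5 h6 => ?_, fun B hB h => ?_⟩
  · rw [← covers_le_iff hNT] at h
    obtain ⟨B, hB⟩ := h.inducedBlockDefined hb hB' hT'.ge
    refine ⟨B, hB, covers_subtype_iff.1 ?_, fun ψ hψ =>
      ((h.over_le hb hB' hψ).isIrrCharacter_indFun hb hT'.ge hNT).1,
      h.mem_iff_indFun hb hT' hB⟩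
    rw [hB.2.1.covers_iff_mul_ebl hb, (h.isInducedBlock_iff hb hB' hB.2.1 hT').1 hB]
    exact hB'.ebl_ne_zero
  · rw [← covers_le_iff hNT] at h3 h4
    exact h1.eq_of_ebl_eq h2 (((h3.isInducedBlock_iff hb h1 h5.2.1 hT').1 h5).symm.trans
      ((h4.isInducedBlock_iff hb h2 h5.2.1 hT').1 h6))
  · have h1 := (hB.covers_iff_mul_ebl hb).1 (covers_subtype_iff.2 h)
    have h2 := hB.isBlkIdem_top.mul_stab hb.isBlkIdem le_top le_normalizer_top h1
    rw [top_inf_eq, ← hT'] at h2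
    obtain ⟨B', hB', h3⟩ := h2
    have h4 : Covers (inclusion hNT) B' b := by
      rw [hB'.covers_inclusion_iff hNT (le_top.trans le_normalizer_top) hb, ← h3, mul_assoc,
        hb.ebl_idem]
      exact h1
    exact ⟨B', hB', (covers_le_iff hNT).1 h4, (h4.isInducedBlock_iff hb hB' hB hT').2 h3⟩

end Cfsg.Agent.S4435
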