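import Cfsg.Statements.S4436
import Cfsg.Agent.Lib.Block.Reynolds

set_option autoImplicit false
open Cfsg

namespace Cfsg.Agent.S4436

open Cfsg.Lib.Block Cfsg.Lib.Char Cfsg.Lib.Transfer MonoidAlgebra Subgroup

/-- Let N be a normal subgroup of the finite group G, b a block of N (relative to a maximal ideal M of the algebraic integers containing p), T the stabilizer of b in G, N ≤ T, and B′ a block of T covering b (some member of B′ has a constituent in b on restriction to N) that induces the block B of G. Then every defect group of B′ is a defect group of B, and for every ψ ∈ B′ the induced character ψ^G is an irreducible character of G lying in B with the same height as ψ. -/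
theorem result {G : Type*} [Group G] [Fintype G] (p : ℕ) [Fact p.Prime] (M : Ideal Cfsg.AlgInt) (hM : Cfsg.IsPModular p M) (N : Subgroup G) [hN : N.Normal] [Fintype N] (b : Set (Cfsg.IrrCharacter N)) (hb : Cfsg.IsPBlock M b) (T : Subgroup G) [Fintype T] (hT : ∀ g : G, g ∈ T ↔ ∀ θ ∈ b, ∀ θ' : Cfsg.IrrCharacter N, (∀ n : N, (θ' : N → ℂ) n = (θ : N → ℂ) ⟨g * n * g⁻¹, hN.conj_mem n n.2 g⟩) → θ' ∈ b) (hNT : N ≤ T) (B' : Set (Cfsg.IrrCharacter T)) (hB' : Cfsg.IsPBlock M B') (hcov : (∃ ψ ∈ B', ∃ θ ∈ b, Cfsg.classInner (fun n : N => (ψ : T → ℂ) ⟨(n : G), hNT n.2⟩) (θ : N → ℂ) ≠ 0)) (B : Set (Cfsg.IrrCharacter G)) (hind : Cfsg.IsInducedBlock M T B' B) : (∀ D : Subgroup T, Cfsg.IsDefectGroup p M B' D → Cfsg.IsDefectGroup p M B (D.map T.subtype)) ∧ ∀ ψ ∈ B', ∃ χ ∈ B, (χ : G → ℂ) = Cfsg.indFun T (ψ : T → ℂ) ∧ Cfsg.blockHeight p B (χ : G → ℂ) = Cfsg.blockHeight p B' (ψ : T → ℂ) := by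
  have : Modular p M := ⟨hM⟩
  have hT' : T = stab (ebl N M b) := Subgroup.ext fun g => (hT g).trans hb.mem_stab_iff'.symm
  rw [← covers_le_iff hNT] at hcov
  have hB := hind.2.1
  have h1 := (hcov.isInducedBlock_iff hb hB' hB hT').1 hind
  have key : ∀ D : Subgroup T, IsDefectGroup p M B' D → IsDefectGroup p M B (D.map T.subtype) :=
    fun D hD => by
    rw [hB'.isDefectGroup_iff_isDefIn_map, ← h1] at hD
    rw [hB.isDefectGroup_iff_isDefIn_top]
    refine hB.isBlkIdem_top.isDefIn_of_mul_stab hb.isBlkIdem le_top le_normalizer_top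
      (h1 ▸ hB'.ebl_ne_zero) ?_
    rwa [top_inf_eq, ← hT']
  refine ⟨key, fun ψ hψ => ?_⟩
  have h2 := ((hcov.over_le hb hB' hψ).isIrrCharacter_indFun hb hT'.ge hNT).1
  have h3 : (⟨_, h2⟩ : IrrCharacter G) ∈ B := (hcov.mem_iff_indFun hb hT' hind _).2 ⟨ψ, hψ, rfl⟩
  refine ⟨_, h3, rfl, ?_⟩
  obtain ⟨D, hD⟩ := hB'.exists_isDefectGroup
  have h4 := hB.factorization_degree_eq (key D hD) h3
  have h5 : charDegree (indFun T (ψ : T → ℂ)) = T.index * charDegree (ψ : T → ℂ) :=
    charDegree_eq (by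
      rw [Lib.Induce.indFun_one, apply_one_eq_charDegree ψ.2.isCharacter]; push_cast; rfl)
  rw [index_map_subtype, Nat.factorization_mul index_ne_zero_of_finite index_ne_zero_of_finite] at h4
  change (charDegree (indFun T (ψ : T → ℂ))).factorization p = _ at h4
  rw [h5, Nat.factorization_mul index_ne_zero_of_finite (charDegree_ne_zero ψ.2), Finsupp.add_apply,
    Finsupp.add_apply, hB'.factorization_degree_eq hD hψ] at h4
  omega

end Cfsg.Agent.S4436
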