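import Cfsg.Statements.S4437
import Cfsg.Agent.Lib.Block.Quot

set_option autoImplicit false
open Cfsg

namespace Cfsg.Agent.S4437

open Cfsg.Lib.Block Cfsg.Lib.Char Cfsg.Lib.Transfer MonoidAlgebra Subgroup

/-- Let P be a p-subgroup of the finite group G, H = P·C_G(P), and b a block of H (relative to a maximal ideal M of the algebraic integers containing p) having P as a defect group; let B be the block of G induced by b. Let T be the stabilizer of b in N_G(P): the elements g of N_G(P) such that the g-conjugate of every member of b is again a member of b. Then B has defect group P if and only if p does not divide the index of H in T. -/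
theorem result {G : Type*} [Group G] [Fintype G] (p : ℕ) [Fact p.Prime] (M : Ideal Cfsg.AlgInt) (hM : Cfsg.IsPModular p M) (P : Subgroup G) (hP : IsPGroup p P) (H : Subgroup G) [Fintype H] (hH : H = P ⊔ Subgroup.centralizer (P : Set G)) (b : Set (Cfsg.IrrCharacter H)) (hb : Cfsg.IsPBlock M b) (hbP : Cfsg.IsDefectGroup p M b (P.subgroupOf H)) (B : Set (Cfsg.IrrCharacter G)) (hind : Cfsg.IsInducedBlock M H b B) (T : Subgroup G) (hT : ∀ g : G, g ∈ T ↔ (g ∈ Subgroup.normalizer (P : Set G) ∧ ∀ θ ∈ b, ∀ θ' : Cfsg.IrrCharacter H, (∀ h h' : H, (h' : G) = g * h * g⁻¹ → (θ' : H → ℂ) h' = (θ : H → ℂ) h) → θ' ∈ b)) : Cfsg.IsDefectGroup p M B P ↔ ¬ p ∣ H.relIndex T := by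
  have : Modular p M := ⟨hM⟩
  have hPH : P ≤ H := hH ▸ le_sup_left
  have hCH : centralizer (P : Set G) ≤ H := hH ▸ le_sup_right
  have hN : H ≤ normalizer (P : Set G) := hH ▸ sup_le le_normalizer (centralizer_le_normalizer _)
  have hN' : normalizer (P : Set G) ≤ normalizer (H : Set G) :=
    hH ▸ Lib.Core.le_normalizer_sup le_rfl (normalizer_le_normalizer_centralizer P)
  have hf := hb.isBlkIdem
  obtain rfl : T = ⊤ ⊓ normalizer (P : Set G) ⊓ stab (ebl H M b) := Subgroup.ext fun g => by
    rw [hT, top_inf_eq, mem_inf]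
    exact and_congr_right fun hg => (hb.mem_stab_iff (hN' hg)).symm
  have h1 : H ≤ ⊤ ⊓ normalizer (P : Set G) ⊓ stab (ebl H M b) :=
    le_inf (le_inf le_top hN) hf.mem_cen.1
  have h2 := (inf_le_left (b := stab (ebl H M b))).trans (inf_le_right (a := ⊤)) |>.trans hN'
  have h3 := hf.of_local h1 (mem_fix_inf_stab _ _) hP (hPH.trans h1)
    (inf_le_left.trans inf_le_right) (inf_le_right.trans hCH)
  have h4 := (hb.isDefectGroup_iff_isDefIn hPH).1 hbP
  rw [hind.2.1.isDefectGroup_iff_isDefIn_top, hind.2.1.isBlkIdem_top.isDefIn_iff_stab hf hP le_top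
    (inf_le_right.trans hCH) (le_inf le_top hN) (inf_le_right.trans hN')
    (supp_mono inf_le_right (mem_supp_centralizer_of_cen hP hPH hN hf.mem_cen hf.idem))
    ((isInducedBlock_iff_ebl' hP hPH hCH hN hb hind.2.1).1 hind)]
  refine ⟨fun h => ?_, fun h => hf.isDefIn_of_fong h3 h1 h2 hP (hPH.trans h1) h4.ne_zero
    (by rwa [sup_eq_right.2 hPH]) (by rwa [inf_eq_left.2 hPH])⟩
  have := (hf.fong' h3 h1 h2 h).1
  rwa [sup_eq_right.2 hPH] at this

end Cfsg.Agent.S4437
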