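import Cfsg.Statements.S4442
import Cfsg.Agent.Lib.Cyc.One

set_option autoImplicit false
open Cfsg

namespace Cfsg.Agent.S4442

open Cfsg.Lib.Block Cfsg.Lib.Char Cfsg.Lib.Cyc Cfsg.Lib.Modular Cfsg.Lib.Transfer Subgroup in

/-- Blocks of defect one. Let p be an odd prime and G a finite group whose Sylow p-subgroup P has order p; let C = C_G(P) and N = N_G(P), and fix a maximal ideal M of the algebraic integers containing p. Let B be a block of G with defect group P, b a block of C inducing B, and θ the member of b having P in its kernel (there is exactly one). Let T be the stabilizer of θ in N (the elements g ∈ N with θ(g c g⁻¹) = θ(c) for all c ∈ C) and e the index of C in T. Then e divides p − 1 and B contains exactly e + (p − 1)/e irreducible characters. Moreover B is the disjoint union of a set X of e characters and a set Y of (p − 1)/e characters such that, with f the index of C in N: every χ ∈ X has χ(1) ≡ ±(f/e)·θ(1) (mod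 p), there is one sign ε with ψ(1) ≡ ε f θ(1) (mod p) for all ψ ∈ Y, and all members of Y agree on the p-regular elements of G. -/
theorem result {G : Type*} [Group G] [Finite G] (p : ℕ) [Fact p.Prime] (M : Ideal Cfsg.AlgInt) (hM : Cfsg.IsPModular p M) (hodd : p ≠ 2) (P : Sylow p G) (hP : Nat.card P = p) (B : Set (Cfsg.IrrCharacter G)) (hB : Cfsg.IsPBlock M B) (hBP : Cfsg.IsDefectGroup p M B P) (b : Set (Cfsg.IrrCharacter (Subgroup.centralizer ((P : Subgroup G) : Set G)))) (hind : Cfsg.IsInducedBlock M (Subgroup.centralizer ((P : Subgroup G) : Set G)) b B) (θ : Cfsg.IrrCharacter (Subgroup.centralizer ((P : Subgroup G) : Set G))) (hθ : θ ∈ b) (hθP : ∀ x : Subgroup.centralizer ((P : Subgroup G) : Set G), (x : G) ∈ (P : Subgroup G) → (θ : Subgroup.centralizer ((P : Subgroup G) : Set G) → ℂ) x = (θ : Subgroup.centralizer ((P : Subgroup G) : Set G) → ℂ) 1) (T : Subgroup G) (hT : ∀ g : G, g ∈ T ↔ (g ∈ Subgroup.normalizer ((P : Subgroup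 G) : Set G) ∧ ∀ c c' : Subgroup.centralizer ((P : Subgroup G) : Set G), (c' : G) = g * c * g⁻¹ → (θ : Subgroup.centralizer ((P : Subgroup G) : Set G) → ℂ) c' = (θ : Subgroup.centralizer ((P : Subgroup G) : Set G) → ℂ) c)) (e f : ℕ) (he : (Subgroup.centralizer ((P : Subgroup G) : Set G)).relIndex T = e) (hf : (Subgroup.centralizer ((P : Subgroup G) : Set G)).relIndex (Subgroup.normalizer ((P : Subgroup G) : Set G)) = f) : e ∣ p - 1 ∧ Nat.card B = e + (p - 1) / e ∧ ∃ X Y : Set (Cfsg.IrrCharacter G), B = X ∪ Y ∧ Disjoint X Y ∧ Nat.card X = e ∧ Nat.card Y = (p - 1) / e ∧ (∀ χ ∈ X, (Cfsg.charDegree (χ : G → ℂ) : ℤ) ≡ ((f / e * Cfsg.charDegree (θ : Subgroup.centralizer ((P : Subgroup G) : Set G) → ℂ) : ℕ) : ℤ) [ZMOD p] ∨ (Cfsg.charDegree (χ : G → ℂ) : ℤ) ≡ -((f / e * Cfsg.charDegree (θ : Subgroup.centralizer ((P : Subgroup G) : Set G) → ℂ) : ℕ) : ℤ) [ZMOD p]) ∧ (∃ ε : ℤ, (ε = 1 ∨ ε = -1) ∧ ∀ ψ ∈ Y, (Cfsg.charDegree (ψ : G → ℂ) : ℤ)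 ≡ ε * ((f * Cfsg.charDegree (θ : Subgroup.centralizer ((P : Subgroup G) : Set G) → ℂ) : ℕ) : ℤ) [ZMOD p]) ∧ ∀ ψ ∈ Y, ∀ ψ' ∈ Y, ∀ g : G, ¬ p ∣ orderOf g → (ψ : G → ℂ) g = (ψ' : G → ℂ) g := by
  haveI : Modular p M := ⟨hM⟩
  have := Fintype.ofFinite G
  obtain ⟨v, ψ, -, hψ, h1, X, Ξ, δ, c, h⟩ := exists_dade_one hP hBP hind hθ hθP
  have hT' : T = inert M P b := by
    ext g
    rw [hT]
    refine ⟨fun ⟨hg, h2⟩ => (cjI_mem_iff hind.1 hg hθ).1 ?_, fun hg => ⟨inert_le hg, fun a a' h2 => ?_⟩⟩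
    · rwa [show cjI g θ = θ from Subtype.ext (funext fun a => by
        rw [coe_cjI hg, cjF_apply hg]; exact h2 _ _ rfl)]
    · conv_rhs => rw [← h1, ← hψ.cjI_one hP hg, coe_cjI (inert_le hg), cjF_apply (inert_le hg), h1]
      exact congrArg _ (Subtype.ext h2)
  rw [← hT', he] at h
  obtain ⟨k, hk⟩ : e ∣ f := by
    rw [← he, ← hf, ← relIndex_mul_relIndex _ T _ (hT' ▸ centralizer_le_inert) (hT'.le.trans inert_le)]
    exact dvd_mul_right _ _
  have hk' : f / e = k := by rw [hk, Nat.mul_div_cancel_left _ h.pos]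
  have h2 : ∀ ξ ∈ Ξ, (charDegree (ξ : G → ℂ) : ℤ) ≡ -(c ξ * (k * charDegree θ.1)) [ZMOD p] := by
    intro ξ hξ
    have := h.modEq_of_const (R := (P : Subgroup G)) hξ (c := -(k * charDegree θ.1))
      fun x hx h2 => by
        refine mul_left_cancel₀ (Nat.cast_ne_zero.2 h.pos.ne' : (e : ℂ) ≠ 0) ?_
        rw [h.singΞ ξ hξ x (dvd_orderOf_of_mem_pgroup P.isPGroup' hx h2),
          secInd_apply_of_forall _ (mem_secA_of_mem hP hx h2) (a := θ.1 1) fun w hw a ha => by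
            rw [h1]; exact hθP a (ha ▸ (mem_normalizer_iff.1 hw x).1 hx), hf, hk, θ.2.apply_one_eq]
        push_cast
        ring
    rwa [hP, mul_neg] at this
  refine ⟨h.dvd, h.card_eq, Ξ, _, h.eq_union, h.disjoint, h.card_coe, h.card_exc, fun ξ hξ => ?_,
    ⟨δ, h.sign, ?_⟩, ?_⟩
  · have := h2 ξ hξ
    rw [hk', Nat.cast_mul]
    rcases h.signb ξ hξ with e | e <;> rw [e] at this
    · exact Or.inr (by simpa using this)
    · exact Or.inl (by simpa using this)
  · rintro _ ⟨ζ, hζ, rfl⟩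
    obtain ⟨ξ, hξ⟩ := h.nonempty
    refine ((h.modEq_exc hζ.1 hζ.2 hξ).of_dvd h.dvd_pow').trans ?_
    convert ((h2 ξ hξ).mul_left (e * δ * c ξ)).neg using 1
    rw [hk]
    push_cast
    linear_combination -(e * δ * k * charDegree θ.1) * h.mul_self_b hξ
  · rintro _ ⟨ζ, hζ, rfl⟩ _ ⟨η, hη, rfl⟩ g hg
    exact h.reg_eq hζ.1 hζ.2 hη.1 hη.2 hg

end Cfsg.Agent.S4442
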