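import Cfsg.Statements.S4443
import Cfsg.Agent.Lib.Modular.Robinson

set_option autoImplicit false
open Cfsg

namespace Cfsg.Agent.S4443

open Cfsg.Lib.Block Cfsg.Lib.Char Cfsg.Lib.Modular
open scoped ComplexConjugate

/-- Let D be a normal p-subgroup of the finite group G, of order p^d, let p^a be the p-part of the order of G, and fix a Sylow p-subgroup S and a maximal ideal M of the algebraic integers containing p. Index by a finite type ι (via an injective map K) exactly the conjugacy classes of p-regular elements x of G for which D is a Sylow p-subgroup of C_G(x). For classes K_i, K_j let ω(i, j) be the number of pairs (y, z) ∈ K_i × K_j with z y⁻¹ ∈ S; this number is divisible by p^(a−d). Then the number of p-blocks of G having D as a defect group equals the rank over ℤ/pℤ of the matrix with (i, j) entry ω(i, j)/p^(a−d) reduced modulo p. -/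
theorem result {G : Type*} [Group G] [Finite G] (p : ℕ) [Fact p.Prime] (M : Ideal Cfsg.AlgInt) (hM : Cfsg.IsPModular p M) (D : Subgroup G) [D.Normal] (hD : IsPGroup p D) (S : Sylow p G) {ι : Type*} [Fintype ι] [DecidableEq ι] (K : ι → ConjClasses G) (hKinj : Function.Injective K) (hK : ∀ C : ConjClasses G, (∃ i, K i = C) ↔ ∃ x ∈ C.carrier, ¬ p ∣ orderOf x ∧ ∃ Q : Sylow p (Subgroup.centralizer ({x} : Set G)), (Q : Subgroup (Subgroup.centralizer ({x} : Set G))).map (Subgroup.centralizer ({x} : Set G)).subtype = D) : Nat.card {B : Set (Cfsg.IrrCharacter G) // Cfsg.IsPBlock M B ∧ Cfsg.IsDefectGroup p M B D} = (Matrix.of fun i j : ι => ((Nat.card {yz : G × G // yz.1 ∈ (K i).carrier ∧ yz.2 ∈ (K j).carrier ∧ yz.2 * yz.1⁻¹ ∈ (S : Subgroup G)} / p ^ ((Nat.card G).factorization p - (Nat.card D).factorization p) : ℕ) : ZMod p)).rank := by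
  classical
  have : Modular p M := ⟨hM⟩
  choose x hx hreg hD using fun i => (hK (K i)).1 ⟨i, rfl⟩
  have hK' : ∀ i, K i = ConjClasses.mk (x i) := fun i =>
    (ConjClasses.mem_carrier_iff_mk_eq.1 (hx i)).symm
  have hm : ∀ i y, y ∈ (K i).carrier ↔ IsConj (x i) y := fun i y => by
    rw [hK', ConjClasses.mem_carrier_iff_mk_eq, ConjClasses.mk_eq_mk_iff_isConj, isConj_comm]
  simp only [hm]
  refine card_blocks_eq_rank S (fun i j h => hKinj ?_) (fun i => sylC_iff.2 (hD i)) hreg
    fun y hy hyD => ?_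
  · rw [hK', hK', ConjClasses.mk_eq_mk_iff_isConj.2 h]
  · obtain ⟨i, hi⟩ := (hK (ConjClasses.mk y)).2
      ⟨y, ConjClasses.mem_carrier_iff_mk_eq.2 rfl, hy, sylC_iff.1 hyD⟩
    exact ⟨i, ConjClasses.mk_eq_mk_iff_isConj.1 ((hK' i).symm.trans hi)⟩

end Cfsg.Agent.S4443
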