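import Cfsg.Statements.S4444
import Cfsg.Agent.Lib.CharDeg.Glauberman

set_option autoImplicit false
open Cfsg

namespace Cfsg.Agent.S4444

open Cfsg.Lib.CharDeg Cfsg.Lib.Char in

/-- The Glauberman correspondence for a p-group of operators. Inside a finite group Γ let S normalise G with the orders of G and S coprime, S a p-group, and let C = G ⊓ C(S) be the fixed points. Call an irreducible character χ of G S-invariant when χ(s g s⁻¹) = χ(g) for s ∈ S, g ∈ G. Then: (i) for every S-invariant χ there is exactly one irreducible character β of C whose multiplicity [χ_C, β] in the restriction of χ is not divisible by p; (ii) that multiplicity is ≡ 1 or ≡ −1 (mod p); (iii) distinct S-invariant χ give distinct β; (iv) every irreducible character of C arises in this way. So χ ↦ β is a bijection from the S-invariant irreducible characters of G onto the irreducible characters of C. -/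
theorem result {Γ : Type*} [Group Γ] [Fintype Γ] (G S : Subgroup Γ) [Fintype G] (hnorm : ∀ s ∈ S, ∀ g ∈ G, s * g * s⁻¹ ∈ G) (hcop : (Nat.card G).Coprime (Nat.card S)) (p : ℕ) (hp : p.Prime) (hS : IsPGroup p S) (C : Subgroup Γ) [Fintype C] (hC : C = G ⊓ Subgroup.centralizer (S : Set Γ)) (hCG : C ≤ G) : (∀ χ : Cfsg.IrrCharacter G, (∀ s ∈ S, ∀ g g' : G, (g' : Γ) = s * g * s⁻¹ → (χ : G → ℂ) g' = (χ : G → ℂ) g) → ∃! β : Cfsg.IrrCharacter C, ∃ m : ℕ, Cfsg.classInner (fun c : C => (χ : G → ℂ) ⟨c, hCG c.2⟩) (β : C → ℂ) = (m : ℂ) ∧ ¬ p ∣ m) ∧ (∀ χ : Cfsg.IrrCharacter G, (∀ s ∈ S, ∀ g g' : G, (g' : Γ) = s * g * s⁻¹ → (χ : G → ℂ) g' = (χ : G → ℂ) g) → ∀ β : Cfsg.IrrCharacter C, ∀ m : ℕ, Cfsg.classInner (fun c : C => (χ : G → ℂ) ⟨c, hCG c.2⟩) (β : C → ℂ) = (m : ℂ) → ¬ p ∣ m → ((m : ℤ) ≡ 1 [ZMOD p] ∨ (m : ℤ) ≡ -1 [ZMOD p])) ∧ (∀ χ χ' : Cfsg.IrrCharacter G, (∀ s ∈ S, ∀ g g' : G, (g' : Γ) = s * g * s⁻¹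 → (χ : G → ℂ) g' = (χ : G → ℂ) g) → (∀ s ∈ S, ∀ g g' : G, (g' : Γ) = s * g * s⁻¹ → (χ' : G → ℂ) g' = (χ' : G → ℂ) g) → ∀ β : Cfsg.IrrCharacter C, ∀ m m' : ℕ, Cfsg.classInner (fun c : C => (χ : G → ℂ) ⟨c, hCG c.2⟩) (β : C → ℂ) = (m : ℂ) → ¬ p ∣ m → Cfsg.classInner (fun c : C => (χ' : G → ℂ) ⟨c, hCG c.2⟩) (β : C → ℂ) = (m' : ℂ) → ¬ p ∣ m' → χ = χ') ∧ (∀ β : Cfsg.IrrCharacter C, ∃ χ : Cfsg.IrrCharacter G, (∀ s ∈ S, ∀ g g' : G, (g' : Γ) = s * g * s⁻¹ → (χ : G → ℂ) g' = (χ : G → ℂ) g) ∧ ∃ m : ℕ, Cfsg.classInner (fun c : C => (χ : G → ℂ) ⟨c, hCG c.2⟩) (β : C → ℂ) = (m : ℂ) ∧ ¬ p ∣ m) := by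
  haveI := Fact.mk hp
  have hn := le_normalizer_of_forall_conj_mem hnorm
  simp only [forall_conjAut_iff hn]
  by_cases hS1 : S = ⊥
  · -- `S` is trivial and `C = G`
    have hCG' : G ≤ C := by
      rw [hC, hS1]
      exact le_inf le_rfl fun g _ => Subgroup.mem_centralizer_iff.mpr fun h hh => by
        rw [Subgroup.mem_bot.mp hh, one_mul, mul_one]
    have hb : Function.Bijective (Subgroup.inclusion hCG) :=
      ⟨Subgroup.inclusion_injective _, fun g => ⟨⟨g, hCG' g.2⟩, rfl⟩⟩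
    let e := MulEquiv.ofBijective _ hb
    let r : IrrCharacter G → IrrCharacter C := fun χ => ⟨_, χ.2.comp_equiv e⟩
    have key : ∀ (χ : IrrCharacter G) (β : IrrCharacter C) (m : ℕ),
        classInner (fun c : C => (χ : G → ℂ) ⟨c, hCG c.2⟩) (β : C → ℂ) = (m : ℂ) → ¬ p ∣ m →
        β = r χ ∧ m = 1 := by
      intro χ β m h1 h2
      have h3 : β = r χ := Subtype.ext ((r χ).2.eq_of_inner_ne_zero β.2 (h1.trans_ne (by
        rintro h
        exact h2 (by rw [Nat.cast_eq_zero.mp h]; exact dvd_zero _)))).symm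
      subst h3
      exact ⟨rfl, by exact_mod_cast h1.symm.trans (r χ).2.inner_self⟩
    have key2 : ∀ χ : IrrCharacter G, ∃ m : ℕ, classInner (fun c : C => (χ : G → ℂ) ⟨c, hCG c.2⟩)
        (r χ : C → ℂ) = (m : ℂ) ∧ ¬ p ∣ m := fun χ =>
      ⟨1, (r χ).2.inner_self.trans Nat.cast_one.symm, fun h => hp.one_lt.ne' (Nat.dvd_one.mp h)⟩
    refine ⟨fun χ _ => ⟨r χ, key2 χ, fun β ⟨m, h1, h2⟩ => (key χ β m h1 h2).1⟩,
      fun χ _ β m h1 h2 => Or.inl (by rw [(key χ β m h1 h2).2]; rfl),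
      fun χ χ' _ _ β m m' h1 h2 h3 h4 => ?_, fun β => ?_⟩
    · have := (key χ β m h1 h2).1.symm.trans (key χ' β m' h3 h4).1
      refine Subtype.ext (funext fun g => ?_)
      simpa [r] using congrFun (congrArg Subtype.val this) (e.symm g)
    · refine ⟨⟨_, β.2.comp_equiv e.symm⟩, fun s g => ?_, ?_⟩
      · have : s = 1 := Subtype.ext (by simpa [hS1] using s.2)
        simp [this]
      · have := key2 ⟨_, β.2.comp_equiv e.symm⟩
        have h2 : r ⟨_, β.2.comp_equiv e.symm⟩ = β := Subtype.ext (funext fun c => by simp [r])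
        rwa [h2] at this
  have hG : ¬ p ∣ Nat.card G := fun h => by
    obtain ⟨k, hk⟩ := IsPGroup.iff_card.mp hS
    have hk0 : k ≠ 0 := by
      rintro rfl
      exact hS1 (Subgroup.eq_bot_of_card_eq _ (by simpa using hk))
    exact hp.one_lt.ne' (Nat.eq_one_of_dvd_coprimes hcop h (hk ▸ dvd_pow_self p hk0))
  obtain ⟨f, hf⟩ := exists_glauberman_equiv hS (conjAut hn) (Subgroup.inclusion hCG)
    (Subgroup.inclusion_injective _) (conjAut_fixed_iff_mem_range hn hC hCG) hG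
  have key : ∀ χ (β : IrrCharacter C) (m : ℕ),
      classInner (fun c : C => (χ.1 : G → ℂ) ⟨c, hCG c.2⟩) (β : C → ℂ) = (m : ℂ) → ¬ p ∣ m →
      β = f χ := by
    intro χ β m h1 h2
    by_contra hne
    have := (hf χ β).2 hne
    rw [resMult_eq_of_inner (ι := Subgroup.inclusion hCG) h1, ZMod.natCast_eq_zero_iff] at this
    exact h2 this
  have key2 : ∀ χ, ∃ m : ℕ, classInner (fun c : C => (χ.1 : G → ℂ) ⟨c, hCG c.2⟩)
      (f χ : C → ℂ) = (m : ℂ) ∧ ¬ p ∣ m := fun χ => by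
    refine ⟨_, inner_eq_resMult (Subgroup.inclusion hCG) χ.1 (f χ), fun h => ?_⟩
    rw [← ZMod.natCast_eq_zero_iff] at h
    rcases (hf χ (f χ)).1 rfl with h1 | h1
    · exact one_ne_zero (h1.symm.trans h)
    · exact one_ne_zero (neg_eq_zero.mp (h1.symm.trans h))
  refine ⟨fun χ hχ => ⟨f ⟨χ, hχ⟩, key2 ⟨χ, hχ⟩, fun β ⟨m, h1, h2⟩ => key ⟨χ, hχ⟩ β m h1 h2⟩,
    fun χ hχ β m h1 h2 => ?_, fun χ χ' hχ hχ' β m m' h1 h2 h3 h4 => ?_, fun β => ?_⟩
  · have := (hf ⟨χ, hχ⟩ β).1 (key ⟨χ, hχ⟩ β m h1 h2)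
    rw [resMult_eq_of_inner (ι := Subgroup.inclusion hCG) h1] at this
    simpa only [← ZMod.intCast_eq_intCast_iff, Int.cast_natCast, Int.cast_one, Int.cast_neg]
      using this
  · exact congrArg Subtype.val
      (f.injective ((key ⟨χ, hχ⟩ β m h1 h2).symm.trans (key ⟨χ', hχ'⟩ β m' h3 h4)))
  · obtain ⟨χ, rfl⟩ := f.surjective β
    exact ⟨χ.1, χ.2, key2 χ⟩

end Cfsg.Agent.S4444
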