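import Cfsg.Statements.S4446
import Cfsg.Agent.Lib.CharDeg.GlaubermanCount
import Cfsg.Agent.S0867

set_option autoImplicit false
open Cfsg

namespace Cfsg.Agent.S4446

open Cfsg.Lib.CharDeg Cfsg.Lib.Char in

/-- Let the finite group Γ be generated by a normal subgroup G and a cyclic subgroup S of coprime orders, C = G ⊓ C(S), and let χ be an S-invariant irreducible character of G with canonical extension χ̂ to Γ (the extension whose determinantal order is coprime to the order of S). Then there are exactly one irreducible character β of C and one sign ε such that χ̂(c s) = ε β(c) for every c ∈ C and every generator s of S; this β is a constituent of the restriction of χ to C; distinct S-invariant χ give distinct β; and every irreducible character of C arises in this way. -/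
theorem result {Γ : Type*} [Group Γ] [Fintype Γ] (G S : Subgroup Γ) [Fintype G] (hnorm : ∀ s ∈ S, ∀ g ∈ G, s * g * s⁻¹ ∈ G) (hcop : (Nat.card G).Coprime (Nat.card S)) (htop : G ⊔ S = ⊤) (hcyc : IsCyclic S) (C : Subgroup Γ) [Fintype C] (hC : C = G ⊓ Subgroup.centralizer (S : Set Γ)) (hCG : C ≤ G) : (∀ (χ : Cfsg.IrrCharacter G) (χh : Cfsg.IrrCharacter Γ), (∀ s ∈ S, ∀ g g' : G, (g' : Γ) = s * g * s⁻¹ → (χ : G → ℂ) g' = (χ : G → ℂ) g) → (∀ g : G, (χh : Γ → ℂ) g = (χ : G → ℂ) g) → (Cfsg.detOrder (χh : Γ → ℂ)).Coprime (Nat.card S) → (∃! βε : Cfsg.IrrCharacter C × ℤ, (βε.2 = 1 ∨ βε.2 = -1) ∧ ∀ c : C, ∀ s : Γ, Subgroup.zpowers s = S → (χh : Γ → ℂ) ((c : Γ) * s) = (βε.2 : ℂ) * (βε.1 : C → ℂ) c) ∧ ∀ β : Cfsg.IrrCharacter C, ∀ ε : ℤ, (ε = 1 ∨ ε = -1) → (∀ c : C, ∀ s : Γ, Subgroup.zpowers s = S → (χh : Γ → ℂ) ((c : Γ) * s) = (ε : ℂ) * (β : C → ℂ) c) → Cfsg.classInner (fun c : C => (χ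 : G → ℂ) ⟨c, hCG c.2⟩) (β : C → ℂ) ≠ 0) ∧ (∀ (χ χ' : Cfsg.IrrCharacter G) (χh χh' : Cfsg.IrrCharacter Γ), (∀ s ∈ S, ∀ g g' : G, (g' : Γ) = s * g * s⁻¹ → (χ : G → ℂ) g' = (χ : G → ℂ) g) → (∀ s ∈ S, ∀ g g' : G, (g' : Γ) = s * g * s⁻¹ → (χ' : G → ℂ) g' = (χ' : G → ℂ) g) → (∀ g : G, (χh : Γ → ℂ) g = (χ : G → ℂ) g) → (∀ g : G, (χh' : Γ → ℂ) g = (χ' : G → ℂ) g) → (Cfsg.detOrder (χh : Γ → ℂ)).Coprime (Nat.card S) → (Cfsg.detOrder (χh' : Γ → ℂ)).Coprime (Nat.card S) → ∀ β : Cfsg.IrrCharacter C, ∀ ε ε' : ℤ, (ε = 1 ∨ ε = -1) → (ε' = 1 ∨ ε' = -1) → (∀ c : C, ∀ s : Γ, Subgroup.zpowers s = S → (χh : Γ → ℂ) ((c : Γ) * s) = (ε : ℂ) * (β : C → ℂ) c) → (∀ c : C, ∀ s : Γ, Subgroup.zpowers s = S → (χh' : Γ → ℂ) ((c : Γ) * s) = (ε' : ℂ) * (β : C → ℂ) c) → χ = χ') ∧ (∀ β : Cfsg.IrrCharacter C, ∃ (χ : Cfsg.IrrCharacter G) (χh : Cfsg.IrrCharacter Γ) (ε : ℤ), (∀ s ∈ S, ∀ g g' : G, (g' : Γ) = s *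 g * s⁻¹ → (χ : G → ℂ) g' = (χ : G → ℂ) g) ∧ (∀ g : G, (χh : Γ → ℂ) g = (χ : G → ℂ) g) ∧ (Cfsg.detOrder (χh : Γ → ℂ)).Coprime (Nat.card S) ∧ (ε = 1 ∨ ε = -1) ∧ ∀ c : C, ∀ s : Γ, Subgroup.zpowers s = S → (χh : Γ → ℂ) ((c : Γ) * s) = (ε : ℂ) * (β : C → ℂ) c) := by
  classical
  haveI hG := normal_of_sup_eq_top hnorm htop
  have hCS : ∀ c ∈ C, ∀ s ∈ S, c * s = s * c := fun c hc s hs =>
    (Subgroup.mem_centralizer_iff.mp (hC.le hc).2 s hs).symm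
  obtain ⟨s₀, hs₀⟩ := (Subgroup.isCyclic_iff_exists_zpowers_eq_top S).mp hcyc
  have hs₀S : s₀ ∈ S := hs₀ ▸ Subgroup.mem_zpowers s₀
  have hirr : ∀ {χ : IrrCharacter G} {χh : IrrCharacter Γ}, (∀ g : G, (χh : Γ → ℂ) g =
      (χ : G → ℂ) g) → IsIrrCharacter G (fun g : G => (χh : Γ → ℂ) g) := fun {χ _} hext => by
    rw [funext hext]; exact χ.2
  have hne0 : ∀ ε : ℤ, (ε = 1 ∨ ε = -1) → (ε : ℂ) ≠ 0 := by
    rintro ε (rfl | rfl) <;> simp
  have hinj : ∀ (χ χ' : IrrCharacter G) (χh χh' : IrrCharacter Γ),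
      (∀ g : G, (χh : Γ → ℂ) g = (χ : G → ℂ) g) → (∀ g : G, (χh' : Γ → ℂ) g = (χ' : G → ℂ) g) →
      ∀ β : IrrCharacter C, ∀ ε ε' : ℤ, (ε = 1 ∨ ε = -1) → (ε' = 1 ∨ ε' = -1) →
      (∀ c : C, ∀ s : Γ, Subgroup.zpowers s = S →
        (χh : Γ → ℂ) ((c : Γ) * s) = (ε : ℂ) * (β : C → ℂ) c) →
      (∀ c : C, ∀ s : Γ, Subgroup.zpowers s = S →
        (χh' : Γ → ℂ) ((c : Γ) * s) = (ε' : ℂ) * (β : C → ℂ) c) → χ = χ' := by
    intro χ χ' χh χh' h1 h2 β ε ε' hε hε' h3 h4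
    by_contra hne
    have := sum_cosetMult_mul_conj_eq_zero (C := C) (x := s₀)
      (by rw [hC, ← hs₀, Lib.Core.centralizer_zpowers])
      (hcop.coprime_dvd_right (S.orderOf_dvd_natCard hs₀S)) χh.2.isCharacter (hirr h1)
      χh'.2.isCharacter (hirr h2) (fun e => hne (Subtype.ext
        ((funext h1).symm.trans (e.trans (funext h2)))))
    simp only [cosetMult_of_eq_mul (fun c => h3 c s₀ hs₀), cosetMult_of_eq_mul
      (fun c => h4 c s₀ hs₀), ite_mul, zero_mul, Finset.sum_ite_eq, Finset.mem_univ, if_true,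
      map_intCast] at this
    exact mul_ne_zero (hne0 ε hε) (hne0 ε' hε') this
  refine ⟨fun χ χh _ hext hdet => ⟨?_, fun β ε hε h => ?_⟩,
    fun χ χ' χh χh' _ _ h1 h2 _ _ => hinj χ χ' χh χh' h1 h2, ?_⟩
  · obtain ⟨β, ε, hε, h⟩ := exists_cosetMult_eq_ite hcop htop hC hs₀ χh.2.isCharacter (hirr hext)
      hdet
    refine ⟨(β, ε), ⟨hε, h⟩, ?_⟩
    rintro ⟨β', ε'⟩ ⟨hε', h'⟩
    have := (cosetMult_of_eq_mul (fun c => h c s₀ hs₀) β').symm.trans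
      (cosetMult_of_eq_mul (fun c => h' c s₀ hs₀) β')
    rw [if_pos rfl] at this
    split_ifs at this with e
    · exact Prod.ext e.symm (Int.cast_injective this).symm
    · exact absurd this.symm (hne0 ε' hε')
  · intro h0
    have h1 := (isCharacter_cosetMult hCS χh.2.isCharacter β.2.isCharacter).eq_zero_of_apply_one
      (by simpa [cosetMult, ← hext] using h0)
    have h2 := congrFun h1 ⟨s₀, hs₀S⟩
    rw [cosetMult_of_eq_mul (fun c => h c s₀ hs₀), if_pos rfl] at h2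
    exact hne0 ε hε h2
  · have hn := le_normalizer_of_forall_conj_mem hnorm
    have hidx := index_dvd_card_of_sup_eq_top htop
    have key : ∀ χ : {χ : IrrCharacter G // ∀ a g, (χ : G → ℂ) (conjAut hn a g) = (χ : G → ℂ) g},
        ∃ (β : IrrCharacter C) (χh : IrrCharacter Γ) (ε : ℤ),
        (∀ g : G, (χh : Γ → ℂ) g = (χ.1 : G → ℂ) g) ∧
        (detOrder (χh : Γ → ℂ)).Coprime (Nat.card S) ∧ (ε = 1 ∨ ε = -1) ∧
        ∀ c : C, ∀ s : Γ, Subgroup.zpowers s = S →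
          (χh : Γ → ℂ) ((c : Γ) * s) = (ε : ℂ) * (β : C → ℂ) c := by
      intro χ
      have hinert : Lib.Clifford.inertia G (χ.1 : G → ℂ) = ⊤ := by
        rw [eq_top_iff, ← htop]
        exact sup_le (Lib.Clifford.le_inertia G χ.1.2.isClassFunction) fun s hs =>
          (Lib.Clifford.mem_inertia_iff G).mpr (χ.2 ⟨s, hs⟩)
      obtain ⟨χh, ⟨h1, h2, h3⟩, -⟩ := Cfsg.Agent.S0867.result G _ χ.1.2
        ((Lib.Clifford.inertia_eq_top_iff G).mp hinert) _ χ.1.2.apply_one_eq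
        (Nat.Coprime.mul_right
          ((hcop.coprime_dvd_left (Lib.Clifford.detOrder_dvd_card _)).coprime_dvd_right hidx).symm
          ((hcop.coprime_dvd_left χ.1.2.charDegree_dvd_card).coprime_dvd_right hidx).symm)
      have h4 : (detOrder χh).Coprime (Nat.card S) :=
        h3 ▸ hcop.coprime_dvd_left (Lib.Clifford.detOrder_dvd_card _)
      obtain ⟨β, ε, hε, h⟩ := exists_cosetMult_eq_ite hcop htop hC hs₀ h1.isCharacter
        (hirr (χh := ⟨χh, h1⟩) h2) h4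
      exact ⟨β, ⟨χh, h1⟩, ε, h2, h4, hε, h⟩
    choose F E ε h1 h2 h3 h4 using key
    have hF : Function.Injective F := fun a b e => Subtype.ext
      (hinj _ _ _ _ (h1 a) (h1 b) (F a) _ _ (h3 a) (h3 b) (h4 a) (e ▸ h4 b))
    have hcard := card_invariant_irr_eq_card_irr (A := S) inferInstance G (conjAut hn)
      (Subgroup.inclusion hCG) (Subgroup.inclusion_injective _)
      (conjAut_fixed_iff_mem_range hn hC hCG) hcop
    intro β
    obtain ⟨χ, rfl⟩ := (hF.bijective_of_nat_card_le hcard.ge).2 β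
    exact ⟨χ.1, E χ, ε χ, (forall_conjAut_iff hn
      (R := fun g g' => (χ.1 : G → ℂ) g' = (χ.1 : G → ℂ) g)).mpr χ.2, h1 χ, h2 χ, h3 χ, h4 χ⟩

end Cfsg.Agent.S4446
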