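import Cfsg.Statements.S4448
import Cfsg.Agent.Lib.CharDeg.CoprimeConst

set_option autoImplicit false
open Cfsg

namespace Cfsg.Agent.S4448

open Cfsg.Lib.CharDeg Cfsg.Lib.Char in

/-- Inside a finite group Γ let S normalise G and also normalise a normal subgroup N of G, with the order of S coprime to the index of N in G and G/N solvable. Then for every S-invariant irreducible character ϑ of N, the induced character ϑ^G has an S-invariant irreducible constituent. -/
theorem result {Γ : Type*} [Group Γ] [Fintype Γ] (G S N : Subgroup Γ) [Fintype G] [Fintype N] (hnorm : ∀ s ∈ S, ∀ g ∈ G, s * g * s⁻¹ ∈ G) (hNG : N ≤ G) [hNn : (N.subgroupOf G).Normal] (hNS : ∀ s ∈ S, ∀ n ∈ N, s * n * s⁻¹ ∈ N) (hcop : (N.relIndex G).Coprime (Nat.card S)) (hsolv : Group.IsSolvable (G ⧸ N.subgroupOf G)) (θ : Cfsg.IrrCharacter N) (hinv : (∀ s ∈ S, ∀ g g' : N, (g' : Γ) = s * g * s⁻¹ → (θ : N → ℂ) g' = (θ : N → ℂ) g)) : ∃ χ : Cfsg.IrrCharacter G, Cfsg.classInner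 (fun n : N => (χ : G → ℂ) ⟨n, hNG n.2⟩) (θ : N → ℂ) ≠ 0 ∧ (∀ s ∈ S, ∀ g g' : G, (g' : Γ) = s * g * s⁻¹ → (χ : G → ℂ) g' = (χ : G → ℂ) g) := by
  have hn := le_normalizer_of_forall_conj_mem hnorm
  have hn' := le_normalizer_of_forall_conj_mem hNS
  have hr : (Subgroup.inclusion hNG).range = N.subgroupOf G := Subgroup.inclusion_range hNG
  haveI : (Subgroup.inclusion hNG).range.Normal := hr ▸ hNn
  have hθ : ∀ (a : S) (n : N), (θ : N → ℂ) (conjAut hn' a n) = (θ : N → ℂ) n :=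
    fun a n => hinv a a.2 n _ rfl
  have := exists_invariant_above_of_solvable (conjAut hn') ⊥ θ hθ G (conjAut hn)
    (Subgroup.inclusion hNG) (Subgroup.inclusion_injective _) (fun _ _ => Subtype.ext rfl)
    (fun a ha => ⟨1, fun g => by simp [Subgroup.mem_bot.mp ha]⟩)
    (by rw [hr, Subgroup.index_bot]; exact hcop.symm)
    (Lib.Core.isSolvable_of_equiv (QuotientGroup.quotientMulEquivOfEq hr.symm) hsolv)
  obtain ⟨χ, h1, h2⟩ := this
  have h3 := resMult_ne_zero_iff.mp h1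
  exact ⟨χ, h3,
    (forall_conjAut_iff hn (R := fun g g' => (χ : G → ℂ) g' = (χ : G → ℂ) g)).mpr h2⟩

end Cfsg.Agent.S4448
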