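import Cfsg.Statements.S4450
import Cfsg.Agent.Lib.Rel.Glaub

set_option autoImplicit false
open Cfsg

namespace Cfsg.Agent.S4450

open Cfsg.Lib.Rel Cfsg.Lib.PF Cfsg.Lib.Char Cfsg.Lib.Coprime Cfsg.Lib.CharDeg Subgroup

/-- Let N ≤ G be normal subgroups of the finite group Γ with the index of G in Γ coprime to the index of N in G, and Γ/G or G/N solvable. Then for every irreducible character ϑ of N invariant under conjugation by Γ, the induced character ϑ^G has an irreducible constituent invariant under conjugation by Γ. -/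
theorem result {Γ : Type*} [Group Γ] [Fintype Γ] (G N : Subgroup Γ) [hG : G.Normal] [hN : N.Normal] [Fintype G] [Fintype N] (hNG : N ≤ G) (hcop : (G.index).Coprime (N.relIndex G)) (hsolv : Group.IsSolvable (Γ ⧸ G) ∨ Group.IsSolvable (G ⧸ N.subgroupOf G)) (θ : Cfsg.IrrCharacter N) (hinv : ∀ (x : Γ) (n : N), (θ : N → ℂ) ⟨x * n * x⁻¹, hN.conj_mem n n.2 x⟩ = (θ : N → ℂ) n) : ∃ χ : Cfsg.IrrCharacter G, Cfsg.classInner (fun n : N => (χ : G → ℂ) ⟨n, hNG n.2⟩) (θ : N → ℂ) ≠ 0 ∧ ∀ (x : Γ) (g : G), (χ : G → ℂ) ⟨x * g * x⁻¹, hG.conj_mem g g.2 x⟩ = (χ : G → ℂ) g := by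
  have h1 : (⊤ : Subgroup Γ) ≤ normalizer (G : Set Γ) := le_normalizer_of_normal
  have h2 : (⊤ : Subgroup Γ) ≤ normalizer (N : Set Γ) := le_normalizer_of_normal
  obtain ⟨χ, h3, h4⟩ := exists_inv_above_of_index hNG le_top h1 h2 (by rwa [relIndex_top_right])
    ⟨ext_mem_Irr θ, (le_inertia_ext_iff h2 θ).2 fun s _ g g' e =>
      (congrArg θ.1 (Subtype.ext e)).trans (hinv s g)⟩
  obtain ⟨h5, h6⟩ := mem_IrrO.1 h3
  obtain ⟨χ, rfl⟩ := exists_eq_ext h5
  exact ⟨χ, by rwa [cfdot_ext hNG] at h6,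
    fun x g => (le_inertia_ext_iff h1 χ).1 h4 x (mem_top x) g _ rfl⟩

end Cfsg.Agent.S4450
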