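import Cfsg.Statements.S4451
import Cfsg.Agent.Lib.CharDeg.CosetMult

set_option autoImplicit false
open Cfsg

namespace Cfsg.Agent.S4451

open Cfsg.Lib.CharDeg Cfsg.Lib.Char in

/-- Let the finite group Γ be generated by a normal subgroup G and a cyclic subgroup S of coprime orders such that every non-identity element of S has the same centraliser C = G ⊓ C(S) in G. Let χ be an S-invariant irreducible character of G, χ̂ its canonical extension to Γ (determinantal order coprime to the order of S), and β the irreducible character of C with χ̂(c s) = ε₀ β(c) for c ∈ C and generators s of S (ε₀ = ±1). Then there are a sign ε = ±1, which may differ from ε₀, and a linear character μ of S with μ² = 1, such that: (a) χ̂(c x) = ε β(c) μ(x) for all c ∈ C and all x ∈ S other than 1; (b) the restriction of χ to C equals |S|·ϑ + ε β for some character ϑ of C or ϑ = 0; (c) |S| divides χ(1) − ε β(1). -/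
theorem result {Γ : Type*} [Group Γ] [Fintype Γ] (G S : Subgroup Γ) [Fintype G] (hnorm : ∀ s ∈ S, ∀ g ∈ G, s * g * s⁻¹ ∈ G) (hcop : (Nat.card G).Coprime (Nat.card S)) (htop : G ⊔ S = ⊤) (hcyc : IsCyclic S) (C : Subgroup Γ) [Fintype C] (hC : C = G ⊓ Subgroup.centralizer (S : Set Γ)) (hCG : C ≤ G) (hfpf : ∀ x ∈ S, x ≠ 1 → G ⊓ Subgroup.centralizer ({x} : Set Γ) = C) (χ : Cfsg.IrrCharacter G) (hinv : (∀ s ∈ S, ∀ g g' : G, (g' : Γ) = s * g * s⁻¹ → (χ : G → ℂ) g' = (χ : G → ℂ) g)) (χh : Cfsg.IrrCharacter Γ) (hext : (∀ g : G, (χh : Γ → ℂ) g = (χ : G → ℂ) g)) (hdet : (Cfsg.detOrder (χh : Γ → ℂ)).Coprime (Nat.card S)) (β : Cfsg.IrrCharacter C) (ε₀ : ℤ) (hε₀ : ε₀ = 1 ∨ ε₀ = -1) (hβ : ∀ c : C, ∀ s : Γ, Subgroup.zpowers s = S → (χh : Γ → ℂ) ((c : Γ) * s) = (ε₀ : ℂ) * (β : C → ℂ) c) : ∃ ε : ℤ, (ε = 1 ∨ ε = -1) ∧ (∃ μ : S → ℂ, Cfsg.IsCharacter S μ ∧ μ 1 = 1 ∧ (∀ x : S, μ x * μ x = 1) ∧ ∀ c : C, ∀ x : S, x ≠ 1 → (χh : Γ → ℂ) ((c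 : Γ) * x) = (ε : ℂ) * (β : C → ℂ) c * μ x) ∧ (∃ ϑ : C → ℂ, Cfsg.IsCharacter C ϑ ∧ (fun c : C => (χ : G → ℂ) ⟨c, hCG c.2⟩) = fun c => (Nat.card S : ℂ) * ϑ c + (ε : ℂ) * (β : C → ℂ) c) ∧ (Nat.card S : ℤ) ∣ (Cfsg.charDegree (χ : G → ℂ) : ℤ) - ε * (Cfsg.charDegree (β : C → ℂ) : ℤ) := by
  classical
  haveI := normal_of_sup_eq_top hnorm htop
  haveI := Fintype.ofFinite S
  have hCS : ∀ c ∈ C, ∀ s ∈ S, c * s = s * c := fun c hc s hs =>
    (Subgroup.mem_centralizer_iff.mp (hC.le hc).2 s hs).symm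
  obtain ⟨s₀, hs₀⟩ := (Subgroup.isCyclic_iff_exists_zpowers_eq_top S).mp hcyc
  have hs₀S : s₀ ∈ S := hs₀ ▸ Subgroup.mem_zpowers s₀
  have hirr : IsIrrCharacter G (fun g : G => (χh : Γ → ℂ) g) := by
    rw [funext hext]; exact χ.2
  have hres : ∀ c : C, (χ : G → ℂ) ⟨c, hCG c.2⟩ = (χh : Γ → ℂ) (c * (1 : S)) := fun c => by
    rw [← hext]; simp
  have hμ : ∀ β' : IrrCharacter C, IsCharacter S (fun x : S => cosetMult C χh β' x) := fun β' =>
    isCharacter_cosetMult hCS χh.2.isCharacter β'.2.isCharacter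
  have hβ' := cosetMult_of_eq_mul (fun c => hβ c s₀ hs₀)
  have hε0 : (ε₀ : ℂ) ≠ 0 := by rcases hε₀ with h | h <;> simp [h]
  suffices H : ∃ (ε : ℤ) (lam : S →* ℂˣ) (k : IrrCharacter C → ℕ), (ε = 1 ∨ ε = -1) ∧
      (∀ x, lam x * lam x = 1) ∧
      (∀ β' : IrrCharacter C, cosetMult C χh β' (1 : S) =
        Nat.card S * k β' + if β = β' then (ε : ℂ) else 0) ∧
      ∀ (β' : IrrCharacter C) (x : S), x ≠ 1 →
        cosetMult C χh β' x = if β = β' then (ε : ℂ) * lam x else 0 by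
    obtain ⟨ε, lam, k, hε, h1, h2, h3⟩ := H
    have key : (fun c : C => (χ : G → ℂ) ⟨c, hCG c.2⟩) = fun c => (Nat.card S : ℂ) *
        (∑ β' : IrrCharacter C, (k β' : ℂ) • (β' : C → ℂ)) c + (ε : ℂ) * (β : C → ℂ) c := by
      funext c
      rw [hres, apply_eq_sum_cosetMult χh.2.isClassFunction (fun c hc => hCS c hc _ (1 : S).2)]
      simp only [h2, add_mul, Finset.sum_add_distrib, ite_mul, zero_mul, Finset.sum_ite_eq,
        Finset.mem_univ, if_true, Finset.sum_apply, Pi.smul_apply, smul_eq_mul, Finset.mul_sum,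
        mul_assoc]
    refine ⟨ε, hε, ⟨_, isCharacter_hom lam, by simp, fun x => by
      rw [← Units.val_mul, h1, Units.val_one],
      fun c x hx => ?_⟩, ⟨_, isCharacter_sum_nat_smul_irr k, key⟩, ?_⟩
    · rw [apply_eq_sum_cosetMult χh.2.isClassFunction (fun c hc => hCS c hc _ x.2)]
      simp only [h3 _ x hx, ite_mul, zero_mul, Finset.sum_ite_eq, Finset.mem_univ, if_true]
      ring
    · obtain ⟨n, hn⟩ := (isCharacter_sum_nat_smul_irr k).exists_apply_one
      have := congrFun key 1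
      rw [hn, β.2.apply_one_eq] at this
      refine ⟨n, ?_⟩
      have h4 := χ.2.apply_one_eq.symm.trans this
      have h5 : ((charDegree (χ : G → ℂ) : ℤ) : ℂ) =
          ((Nat.card S * n + ε * charDegree (β : C → ℂ) : ℤ) : ℂ) := by exact_mod_cast h4
      rw [Int.cast_injective h5]
      ring
  by_cases hs1 : s₀ = 1
  · have hS : ∀ x : S, x = 1 := fun x => Subtype.ext (by
      have := hs₀.ge x.2
      rwa [hs1, Subgroup.zpowers_one_eq_bot, Subgroup.mem_bot] at this)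
    refine ⟨ε₀, 1, fun _ => 0, hε₀, by simp, fun β' => ?_, fun _ x hx => absurd (hS x) hx⟩
    simpa [hs1] using hβ' β'
  have hs1' : (⟨s₀, hs₀S⟩ : S) ≠ 1 := fun e => hs1 (congrArg Subtype.val e)
  have hsum : ∑ β' : IrrCharacter C, ∑ x ∈ Finset.univ.erase (1 : S), ‖cosetMult C χh β' x‖ ^ 2 =
      (Nat.card S : ℝ) - 1 := by
    rw [Finset.sum_comm, Finset.sum_congr rfl (g := fun _ => 1) fun (x : S) hx =>
      sum_norm_sq_cosetMult (hfpf x x.2 (fun e => (Finset.mem_erase.mp hx).1 (Subtype.ext e)))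
        (hcop.coprime_dvd_right (S.orderOf_dvd_natCard x.2)) χh.2.isCharacter hirr]
    simp [Finset.card_erase_of_mem, Nat.cast_sub Fintype.card_pos]
  rw [← Finset.add_sum_erase _ _ (Finset.mem_univ β)] at hsum
  have hnn : ∀ β' : IrrCharacter C,
      0 ≤ ∑ x ∈ Finset.univ.erase (1 : S), ‖cosetMult C χh β' x‖ ^ 2 :=
    fun β' => Finset.sum_nonneg fun _ _ => sq_nonneg _
  have hnn' := Finset.sum_nonneg (s := Finset.univ.erase β) fun β' _ => hnn β'
  rcases regular_dichotomy (hμ β) with ⟨h1, -⟩ | ⟨h1, h2⟩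
  · exact absurd ((by simpa using (hβ' β).symm : (ε₀ : ℂ) = _).trans (h1 _ hs1')) hε0
  obtain ⟨lam, k, ε, hε, h3, h4⟩ := h2 (by linarith)
  have h5 : ∀ β' ≠ β, ∀ x : S, x ≠ 1 → cosetMult C χh β' x = 0 := by
    intro β' hne x hx
    have := (Finset.sum_eq_zero_iff_of_nonneg fun β' _ => hnn β').mp (by linarith) β'
      (Finset.mem_erase.mpr ⟨hne, Finset.mem_univ _⟩)
    simpa using (Finset.sum_eq_zero_iff_of_nonneg fun _ _ => sq_nonneg _).mp this x
      (Finset.mem_erase.mpr ⟨hx, Finset.mem_univ _⟩)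
  have h6 : ∀ β' ≠ β, ∃ k : ℕ, cosetMult C χh β' (1 : S) = Nat.card S * k := by
    intro β' hne
    obtain ⟨n, hn⟩ := (hμ β').exists_inner_eq_nat isCharacter_one
    rw [classInner_one_right, Finset.sum_eq_single 1 (fun x _ hx => h5 β' hne x hx) (by simp),
      inv_mul_eq_iff_eq_mul₀ (card_ne_zero_complex S)] at hn
    exact ⟨n, hn⟩
  choose! k' hk' using h6
  refine ⟨ε, lam, fun β' => if β = β' then k else k' β', hε, fun x => ?_, fun β' => ?_,
    fun β' x hx => ?_⟩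
  · have h7 := (h4 _ hs1').symm.trans (hβ' β)
    rw [if_pos rfl] at h7
    have h8 : lam ⟨s₀, hs₀S⟩ ^ 2 = 1 := by
      apply Units.ext
      have := congrArg (· ^ 2) h7
      rcases hε with rfl | rfl <;> rcases hε₀ with rfl | rfl <;> simpa using this
    obtain ⟨j, hj⟩ := Subgroup.mem_zpowers_iff.mp (hs₀.ge x.2)
    have : x = (⟨s₀, hs₀S⟩ : S) ^ j := Subtype.ext (by simpa using hj.symm)
    rw [this, map_zpow, ← mul_zpow, ← sq, h8, one_zpow]
  · beta_reduce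
    split_ifs with h
    · exact h ▸ h3
    · rw [hk' β' (Ne.symm h), add_zero]
  · split_ifs with h
    · exact h ▸ h4 x hx
    · exact h5 β' (Ne.symm h) x hx

end Cfsg.Agent.S4451
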