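import Cfsg.Statements.S4452
import Cfsg.Agent.Lib.CharDeg.GlaubermanCount
import Cfsg.Agent.S0867
import Cfsg.Agent.S0887

set_option autoImplicit false
open Cfsg

namespace Cfsg.Agent.S4452

open Cfsg.Lib.CharDeg Cfsg.Lib.Char in
theorem count {G C : Type*} [Group G] [Finite G] [Group C] (K H : Subgroup G) [hK : K.Normal]
    (hKH : K ⊔ H = ⊤) (hcop : (Nat.card K).Coprime (Nat.card H)) (hsolv : Group.IsSolvable H)
    (ι : C →* K) (hι : Function.Injective ι)
    (hfix : ∀ x : K, (x : G) ∈ Subgroup.centralizer (H : Set G) ↔ x ∈ Set.range ι) :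
    Nat.card {χ : IrrCharacter G // (charDegree (χ : G → ℂ)).Coprime (Nat.card H)} =
      Nat.card (IrrCharacter C) * Nat.card (H →* ℂˣ) := by
  classical
  have := Fintype.ofFinite G
  have := Fintype.ofFinite K
  have hn : H ≤ Subgroup.normalizer (K : Set G) := by rw [Subgroup.normalizer_eq_top]; exact le_top
  have hidx := index_dvd_card_of_sup_eq_top hKH
  rw [← card_invariant_irr_eq_card_irr hsolv K (conjAut hn) ι hι
    (fun x => (conjAut_fixed_iff hn x).trans (hfix x)) hcop, ← Nat.card_prod]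
  have key : ∀ θ : {χ : IrrCharacter K // ∀ a g, (χ : K → ℂ) (conjAut hn a g) = (χ : K → ℂ) g},
      ∃ χ : G → ℂ, IsIrrCharacter G χ ∧ ∀ k : K, χ k = (θ.1 : K → ℂ) k := by
    intro χ
    have hinert : Lib.Clifford.inertia K (χ.1 : K → ℂ) = ⊤ := by
      rw [eq_top_iff, ← hKH]
      exact sup_le (Lib.Clifford.le_inertia K χ.1.2.isClassFunction) fun s hs =>
        (Lib.Clifford.mem_inertia_iff K).mpr (χ.2 ⟨s, hs⟩)
    obtain ⟨χh, ⟨h1, h2, h3⟩, -⟩ := Cfsg.Agent.S0867.result K _ χ.1.2
      ((Lib.Clifford.inertia_eq_top_iff K).mp hinert) _ χ.1.2.apply_one_eq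
      (Nat.Coprime.mul_right
        ((hcop.coprime_dvd_left (Lib.Clifford.detOrder_dvd_card _)).coprime_dvd_right hidx).symm
        ((hcop.coprime_dvd_left χ.1.2.charDegree_dvd_card).coprime_dvd_right hidx).symm)
    exact ⟨χh, h1, h2⟩
  choose E hE hE' using key
  have hirr : ∀ θ, IsIrrCharacter K (fun k : K => E θ k) := fun θ => by
    rw [funext (hE' θ)]; exact θ.1.2
  have hc : K.IsComplement' H :=
    Lib.Core.isComplement'_of_inf_eq_bot (Lib.Coprime.inf_eq_bot_of_coprime' hcop) hKH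
  let π : G →* H := hc.symm.QuotientMulEquiv.toMonoidHom.comp (QuotientGroup.mk' K)
  have hπK : ∀ k ∈ K, π k = 1 := fun k hk => by
    change hc.symm.QuotientMulEquiv (k : G ⧸ K) = 1
    rw [(QuotientGroup.eq_one_iff k).mpr hk, map_one]
  have hπH : ∀ h : H, π h = h := fun h => hc.symm.QuotientMulEquiv.apply_symm_apply h
  symm
  refine Nat.card_congr (Equiv.ofBijective (fun p => ⟨⟨_, (hE p.1).hom_mul (p.2.comp π)⟩, ?_⟩)
    ⟨?_, ?_⟩)
  · have : charDegree (fun g => ((p.2.comp π) g : ℂ) * E p.1 g) = charDegree (p.1.1 : K → ℂ) :=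
      charDegree_congr (by simpa using hE' p.1 1)
    exact this ▸ hcop.coprime_dvd_left p.1.1.2.charDegree_dvd_card
  · rintro ⟨θ, lam⟩ ⟨θ', lam'⟩ e
    have e1 : (fun g => ((lam.comp π) g : ℂ) * E θ g) = fun g => ((lam'.comp π) g : ℂ) * E θ' g :=
      congrArg (fun χ => (χ.1 : G → ℂ)) e
    have e2 : θ = θ' := Subtype.ext (Subtype.ext (funext fun k => by
      simpa [hπK k k.2, hE'] using congrFun e1 k))
    subst e2
    have e3 := Lib.Clifford.hom_eq_of_mul_eq K (hE θ).isCharacter (hirr θ)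
      (fun k hk => by simp [hπK k hk]) (fun k hk => by simp [hπK k hk]) e1
    refine Prod.ext rfl (MonoidHom.ext fun h => ?_)
    simpa [hπH] using DFunLike.congr_fun e3 (h : G)
  · rintro ⟨χ, hχ⟩
    obtain ⟨θ, hθ, h1⟩ := Lib.Induce.exists_irr_below K χ.2
    obtain ⟨h2, h3⟩ := Cfsg.Agent.S0887.result K _ χ.2 θ hθ h1 _ _ χ.2.apply_one_eq hθ.apply_one_eq
    have h4 : charDegree (χ : G → ℂ) / charDegree θ = 1 :=
      Nat.eq_one_of_dvd_coprimes hχ (Nat.div_dvd_of_dvd h2) (h3.trans hidx)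
    have h5 := Lib.Induce.eq_of_constituent_of_apply_one_eq (χ.2.isCharacter.restrict K) hθ h1 (by
      rw [hθ.apply_one_eq, Nat.eq_of_dvd_of_div_eq_one h2 h4]
      exact χ.2.apply_one_eq)
    let θ' : {χ : IrrCharacter K // ∀ a g, (χ : K → ℂ) (conjAut hn a g) = (χ : K → ℂ) g} :=
      ⟨⟨θ, hθ⟩, fun a g => by
        change θ _ = θ _
        rw [← h5]
        exact χ.2.isClassFunction.conj_apply _ _⟩
    obtain ⟨lam, h6, h7⟩ := Lib.Clifford.exists_hom_mul_eq_of_res_eq K (hE θ').isCharacter (hirr θ')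
      χ.2.isCharacter (fun k => (congrFun h5 k).trans (hE' θ' k).symm)
    refine ⟨(θ', lam.comp H.subtype), Subtype.ext (Subtype.ext (h7.trans (funext fun g => ?_)).symm)⟩
    obtain ⟨⟨k, h⟩, rfl⟩ := hc.2 g
    simp [hπK k k.2, hπH, h6 k k.2]

/-- Let the finite group G be the product of a normal subgroup K and a solvable subgroup H of coprime orders, and let N = N_G(H). Then the number of irreducible characters of G of degree coprime to the order of H equals the number of irreducible characters of N of degree coprime to the order of H. (The two sets are in fact in a canonical bijection; only the equality of their sizes is stated here.) -/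
theorem result {G : Type*} [Group G] [Finite G] (K H : Subgroup G) [K.Normal] (hKH : K ⊔ H = ⊤) (hcop : (Nat.card K).Coprime (Nat.card H)) (hsolv : Group.IsSolvable H) : Nat.card {χ : Cfsg.IrrCharacter G // (Cfsg.charDegree (χ : G → ℂ)).Coprime (Nat.card H)} = Nat.card {η : Cfsg.IrrCharacter (Subgroup.normalizer (H : Set G)) // (Cfsg.charDegree (η : Subgroup.normalizer (H : Set G) → ℂ)).Coprime (Nat.card H)} := by
  have hd := Lib.Coprime.inf_eq_bot_of_coprime' hcop.symm
  have hC := Lib.Coprime.inf_normalizer_eq_inf_centralizer (A := H) (K := K)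
    (by rw [Subgroup.normalizer_eq_top]; exact le_top) hd
  have hle : H ≤ Subgroup.normalizer (H : Set G) := Subgroup.le_normalizer
  have hc := Lib.Core.card_subgroupOf_of_le hle
  rw [count K H hKH hcop hsolv (Subgroup.inclusion
    (inf_le_left : K ⊓ Subgroup.centralizer (H : Set G) ≤ K)) (Subgroup.inclusion_injective _)
    (fun x => ⟨fun h => ⟨⟨x, x.2, h⟩, rfl⟩, by rintro ⟨c, rfl⟩; exact c.2.2⟩)]
  have := count (C := ↥(K ⊓ Subgroup.centralizer (H : Set G)))
    (K.subgroupOf (Subgroup.normalizer (H : Set G))) (H.subgroupOf (Subgroup.normalizer (H : Set G)))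
    (by
      rw [eq_top_iff]
      rintro ⟨g, hg⟩ -
      obtain ⟨k, hk, h, hh, rfl⟩ := Subgroup.mem_sup_of_normal_left.mp (hKH.ge (Subgroup.mem_top g))
      exact Subgroup.mul_mem_sup (G := Subgroup.normalizer (H : Set G))
        (x := ⟨k, (Subgroup.mul_mem_cancel_right _ (hle hh)).mp hg⟩) (y := ⟨h, hle hh⟩) hk hh)
    (by
      rw [hc, Lib.Core.card_subgroupOf]
      exact hcop.coprime_dvd_left (Subgroup.card_dvd_of_le inf_le_left))
    ((Lib.Core.isSolvable_subgroupOf_iff hle).mpr hsolv)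
    ((Subgroup.inclusion (hC.ge.trans inf_le_right)).codRestrict _ fun c => c.2.1)
    (fun a b e => Subtype.ext (congrArg (fun x => ((x.1 : Subgroup.normalizer (H : Set G)) : G)) e))
    (fun x => ⟨fun _ => ⟨⟨x.1.1, hC.le ⟨x.2, x.1.2⟩⟩, rfl⟩, by
      rintro ⟨c, rfl⟩ h hh
      exact Subtype.ext (c.2.2 h hh)⟩)
  rw [hc] at this
  rw [this, Nat.card_congr ((Subgroup.subgroupOfEquivOfLe hle).monoidHomCongrLeftEquiv (N := ℂˣ))]

end Cfsg.Agent.S4452
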