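import Cfsg.Statements.S4453
import Cfsg.Agent.Lib.Rel.Isaacs

set_option autoImplicit false
open Cfsg

namespace Cfsg.Agent.S4453

open Cfsg.Lib.Rel Cfsg.Lib.PF Cfsg.Lib.Char Cfsg.Lib.Coprime Cfsg.Lib.CharDeg Subgroup

/-- Inside a finite group Γ let S normalise the solvable subgroup G of odd order with the orders of G and S coprime, let C = G ⊓ C(S), and let L ≤ K be S-invariant normal subgroups of G with K/L abelian, G = KC and H = LC (so C ≤ H ≤ G). Then for each S-invariant irreducible character χ of G there is exactly one S-invariant irreducible character ψ of H whose multiplicity in the restriction of χ to H is odd, and χ ↦ ψ is a bijection from the S-invariant irreducible characters of G onto those of H (distinct χ give distinct ψ, and every S-invariant ψ arises). -/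
theorem result {Γ : Type*} [Group Γ] [Fintype Γ] (G S : Subgroup Γ) [Fintype G] (hnorm : ∀ s ∈ S, ∀ g ∈ G, s * g * s⁻¹ ∈ G) (hcop : (Nat.card G).Coprime (Nat.card S)) (hGsolv : Group.IsSolvable G) (hodd : Odd (Nat.card G)) (C : Subgroup Γ) [Fintype C] (hC : C = G ⊓ Subgroup.centralizer (S : Set Γ)) (hCG : C ≤ G) (K L H : Subgroup Γ) [Fintype H] (hLK : L ≤ K) (hKG : K ≤ G) (hKn : ∀ g ∈ G, ∀ k ∈ K, g * k * g⁻¹ ∈ K) (hLn : ∀ g ∈ G, ∀ l ∈ L, g * l * g⁻¹ ∈ L) (hKS : ∀ s ∈ S, ∀ k ∈ K, s * k * s⁻¹ ∈ K) (hLS : ∀ s ∈ S, ∀ l ∈ L, s * l * s⁻¹ ∈ L) (hab : ∀ a ∈ K, ∀ b ∈ K, a * b * a⁻¹ * b⁻¹ ∈ L) (hGKC : K ⊔ C = G) (hH : H = L ⊔ C) (hHG : H ≤ G) : (∀ χ : Cfsg.IrrCharacter G, (∀ s ∈ S, ∀ g g' : G, (g' : Γ) = s * g * s⁻¹ → (χ : G → ℂ) g' = (χ : G → ℂ) g) → ∃! ψ : Cfsg.IrrCharacter H, (∀ s ∈ S, ∀ g g' : H, (g' : Γ) = s * g *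 s⁻¹ → (ψ : H → ℂ) g' = (ψ : H → ℂ) g) ∧ ∃ m : ℕ, Cfsg.classInner (fun h : H => (χ : G → ℂ) ⟨h, hHG h.2⟩) (ψ : H → ℂ) = (m : ℂ) ∧ Odd m) ∧ (∀ χ χ' : Cfsg.IrrCharacter G, (∀ s ∈ S, ∀ g g' : G, (g' : Γ) = s * g * s⁻¹ → (χ : G → ℂ) g' = (χ : G → ℂ) g) → (∀ s ∈ S, ∀ g g' : G, (g' : Γ) = s * g * s⁻¹ → (χ' : G → ℂ) g' = (χ' : G → ℂ) g) → ∀ ψ : Cfsg.IrrCharacter H, (∀ s ∈ S, ∀ g g' : H, (g' : Γ) = s * g * s⁻¹ → (ψ : H → ℂ) g' = (ψ : H → ℂ) g) → ∀ m m' : ℕ, Cfsg.classInner (fun h : H => (χ : G → ℂ) ⟨h, hHG h.2⟩) (ψ : H → ℂ) = (m : ℂ) → Odd m → Cfsg.classInner (fun h : H => (χ' : G → ℂ) ⟨h, hHG h.2⟩) (ψ : H → ℂ) = (m' : ℂ) → Odd m' → χ = χ') ∧ (∀ ψ : Cfsg.IrrCharacter H, (∀ s ∈ S, ∀ g g' : H, (g' : Γ) = s * g * s⁻¹ → (ψ : H → ℂ) g' = (ψ : H → ℂ) g) → ∃ χ : Cfsg.IrrCharacter G, (∀ s ∈ S, ∀ g g' : G, (g' : Γ) = s * g * s⁻¹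 → (χ : G → ℂ) g' = (χ : G → ℂ) g) ∧ ∃ m : ℕ, Cfsg.classInner (fun h : H => (χ : G → ℂ) ⟨h, hHG h.2⟩) (ψ : H → ℂ) = (m : ℂ) ∧ Odd m) := by
  have hS : S ≤ normalizer (G : Set Γ) := fun s hs => mem_normalizer_fintype (hnorm s hs)
  have hSL : S ≤ normalizer (L : Set Γ) := fun s hs => mem_normalizer_fintype (hLS s hs)
  have hSH : S ≤ normalizer (H : Set Γ) :=
    hH ▸ hC ▸ le_normalizer_sup hSL (le_normalizer_inf_centralizer S G)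
  have h := modCor_isaacs hS hcop.symm hodd hLK hKG (fun g hg => mem_normalizer_fintype (hKn g hg))
    (fun g hg => mem_normalizer_fintype (hLn g hg)) (fun s hs => mem_normalizer_fintype (hKS s hs))
    hSL (commutator_le.2 hab) (hC ▸ hGKC) (hC ▸ hH)
  have key : ∀ (χ : IrrCharacter G) (ψ : IrrCharacter H),
      (∃ m : ℕ, classInner (fun h : H => (χ : G → ℂ) ⟨h, hHG h.2⟩) (ψ : H → ℂ) = (m : ℂ) ∧ Odd m) ↔
        (ndot H (extendByZero G χ.1) (extendByZero H ψ.1) : ZMod 2) ≠ 0 := fun χ ψ => by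
    rw [Ne, ZMod.natCast_eq_zero_iff, ← even_iff_two_dvd, Nat.not_even_iff_odd]
    exact ⟨fun ⟨m, h1, h2⟩ => by rwa [ndot_of_eq ((cfdot_ext hHG _ _).trans h1)], fun h1 =>
      ⟨_, (cfdot_ext hHG _ _).symm.trans (ndot_cast hHG (Irr.isChar (ext_mem_Irr χ))
        (Irr.isChar (ext_mem_Irr ψ))).symm, h1⟩⟩
  refine ⟨fun χ hχ => ?_, fun χ χ' h1 h2 ψ h3 m m' h4 h5 h6 h7 => ext_injective (h.inj _
    ⟨ext_mem_Irr χ, (le_inertia_ext_iff hS χ).2 h1⟩ _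
    ⟨ext_mem_Irr χ', (le_inertia_ext_iff hS χ').2 h2⟩ _
    ⟨ext_mem_Irr ψ, (le_inertia_ext_iff hSH ψ).2 h3⟩ ((key _ _).1 ⟨m, h4, h5⟩)
    ((key _ _).1 ⟨m', h6, h7⟩)), fun ψ hψ => ?_⟩
  · obtain ⟨ξ, ⟨h1, h2⟩, h3, h4⟩ := h.row _ ⟨ext_mem_Irr χ, (le_inertia_ext_iff hS χ).2 hχ⟩
    obtain ⟨ξ, rfl⟩ := exists_eq_ext h1
    exact ⟨ξ, ⟨(le_inertia_ext_iff hSH ξ).1 h2, (key _ _).2 (ne_zero_of_sign h3)⟩,
      fun ψ hψ => ext_injective (h4 _ ⟨ext_mem_Irr ψ, (le_inertia_ext_iff hSH ψ).2 hψ.1⟩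
        ((key _ _).1 hψ.2))⟩
  · obtain ⟨χ, ⟨h1, h2⟩, h3⟩ := h.col _ ⟨ext_mem_Irr ψ, (le_inertia_ext_iff hSH ψ).2 hψ⟩
    obtain ⟨χ, rfl⟩ := exists_eq_ext h1
    exact ⟨χ, (le_inertia_ext_iff hS χ).1 h2, (key _ _).2 h3⟩

end Cfsg.Agent.S4453
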