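import Cfsg.Statements.S4454
import Cfsg.Agent.Lib.CharDeg.ExtMul
import Cfsg.Agent.S0886

set_option autoImplicit false
open Cfsg

namespace Cfsg.Agent.S4454

open Cfsg.Lib.CharDeg Cfsg.Lib.Char in

/-- Let N ≤ G be normal subgroups of the finite group Γ with Γ/G cyclic and Γ/N a Frobenius group with kernel G/N: G ≠ Γ, N ≠ G, and no element of Γ outside G fixes a non-identity coset of N in G under conjugation. Let ϑ be an irreducible character of N invariant under conjugation by Γ and suppose ϑ is fully ramified in G: the character of G induced from ϑ equals e·χ for an irreducible character χ of G and a natural number e. Then the index of G in Γ divides e − 1 or e + 1. -/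
theorem result {Γ : Type*} [Group Γ] [Fintype Γ] (G N : Subgroup Γ) [hG : G.Normal] [hN : N.Normal] [Fintype G] [Fintype N] (hNG : N ≤ G) (hGlt : G ≠ ⊤) (hNlt : N ≠ G) (hcyc : IsCyclic (Γ ⧸ G)) (hfrob : ∀ x : Γ, x ∉ G → ∀ g : Γ, g ∈ G → x * g * x⁻¹ * g⁻¹ ∈ N → g ∈ N) (θ : Cfsg.IrrCharacter N) (hinv : ∀ (x : Γ) (n : N), (θ : N → ℂ) ⟨x * n * x⁻¹, hN.conj_mem n n.2 x⟩ = (θ : N → ℂ) n) (χ : Cfsg.IrrCharacter G) (e : ℕ) (hram : Cfsg.indFun (N.subgroupOf G) (fun n : N.subgroupOf G => (θ : N → ℂ) ⟨(n : G), n.2⟩) = fun g => (e : ℂ) * (χ : G → ℂ) g) : (G.index : ℤ) ∣ (e : ℤ) - 1 ∨ (G.index : ℤ) ∣ (e : ℤ) + 1 := by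
  classical
  have hθ' := (Lib.Induce.isIrrCharacter_subgroupOf_iff hNG).mpr θ.2
  haveI := Fintype.ofFinite (N.subgroupOf G)
  have he0 : (e : ℂ) ≠ 0 := by
    intro h
    refine Lib.Induce.indFun_ne_zero (N.subgroupOf G) hθ'.apply_one_ne_zero (hram.trans ?_)
    funext g
    simp [h]
  have hin : classInner (fun n : N.subgroupOf G => (χ : G → ℂ) n)
      (fun n : N.subgroupOf G => (θ : N → ℂ) ⟨(n : G), n.2⟩) = e := by
    rw [← Lib.Induce.frobenius_reciprocity' _ _ χ.2.isClassFunction, hram]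
    have : (fun g => (e : ℂ) * (χ : G → ℂ) g) = (e : ℂ) • (χ : G → ℂ) := rfl
    rw [this, classInner_smul_right, χ.2.inner_self, map_natCast, mul_one]
  have hres := Lib.Clifford.res_eq_smul_of_invariant (N.subgroupOf G) χ.2 hθ' (hin.trans_ne he0)
    (fun g n => hinv g ⟨(n : G), n.2⟩)
  have hres' : ∀ n : N, (χ : G → ℂ) ⟨n, hNG n.2⟩ = e * (θ : N → ℂ) n := fun n => by
    have := congrFun hres ⟨⟨n, hNG n.2⟩, n.2⟩
    rwa [hin] at this
  have hχinv : ∀ (x : Γ) (g : G), (χ : G → ℂ) ⟨x * g * x⁻¹, hG.conj_mem g g.2 x⟩ =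
      (χ : G → ℂ) g := by
    intro x g
    have := Lib.Induce.indFun_congr_equiv (MulAut.conjNormal x) (N.subgroupOf G) (N.subgroupOf G)
      (fun g => ⟨fun h => hN.conj_mem _ h x, fun h => by
        simpa [mul_assoc, Subgroup.mem_subgroupOf] using hN.conj_mem _ h x⁻¹⟩)
      (fun n => (θ : N → ℂ) ⟨(n : G), n.2⟩) (fun n => (θ : N → ℂ) ⟨(n : G), n.2⟩)
      (fun n => hinv x ⟨(n : G), n.2⟩) g
    rw [hram] at this
    exact mul_left_cancel₀ he0 this
  obtain ⟨χh, hχh, hext⟩ := Cfsg.Agent.S0886.result G hcyc χ χ.2 hχinv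
  have hirr : IsIrrCharacter G (fun g : G => χh g) := by rw [funext hext]; exact χ.2
  obtain ⟨y, hy⟩ := hcyc.exists_generator
  obtain ⟨x, rfl⟩ := QuotientGroup.mk_surjective y
  have hGx : Subgroup.zpowers x ⊔ G = ⊤ := by
    rw [← Lib.Core.map_mk'_eq_top_iff, MonoidHom.map_zpowers, eq_top_iff]
    exact fun g _ => hy g
  have hxG : x ∉ G := fun h => hGlt (by rwa [sup_eq_right.mpr (Subgroup.zpowers_le.mpr h)] at hGx)
  set S := Subgroup.zpowers x ⊔ N with hS
  have hSG : ∀ s ∈ S, s ∈ G → s ∈ N := by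
    intro s hs hsG
    obtain ⟨_, ⟨k, rfl⟩, n, hn, rfl⟩ := Subgroup.mem_sup_of_normal_right.mp hs
    refine N.mul_mem (hfrob x hxG _ ((G.mul_mem_cancel_right (hNG hn)).mp hsG) ?_) hn
    simp only [((Commute.refl x).zpow_right k).eq, mul_inv_cancel_right, mul_inv_cancel]
    exact N.one_mem
  have hNS : N ≤ S := le_sup_right
  have hcard : Nat.card (S ⧸ N.subgroupOf S) = G.index := by
    have : N.subgroupOf S = G.subgroupOf S :=
      le_antisymm (fun s hs => hNG hs) (fun s hs => hSG s s.2 hs)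
    change (N.subgroupOf S).index = _
    rw [this, ← Subgroup.relIndex, ← Subgroup.relIndex_sup_right, hS, sup_assoc,
      sup_eq_right.mpr hNG, hGx, Subgroup.relIndex_top_right]
  have hcyc' : IsCyclic (S ⧸ N.subgroupOf S) := by
    refine ⟨⟨QuotientGroup.mk ⟨x, Subgroup.mem_sup_left (Subgroup.mem_zpowers x)⟩, fun q => ?_⟩⟩
    obtain ⟨⟨s, hs⟩, rfl⟩ := QuotientGroup.mk_surjective q
    obtain ⟨_, ⟨k, rfl⟩, n, hn, rfl⟩ := Subgroup.mem_sup_of_normal_right.mp hs
    refine ⟨k, ?_⟩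
    simp only [← QuotientGroup.mk_zpow, QuotientGroup.eq]
    simpa [Subgroup.mem_subgroupOf] using hn
  obtain ⟨θh, hθh, hθext⟩ := Cfsg.Agent.S0886.result (N.subgroupOf S) hcyc' _
    ((Lib.Induce.isIrrCharacter_subgroupOf_iff hNS).mpr θ.2) (fun g n => hinv g ⟨(n : S), n.2⟩)
  have hθirr : IsIrrCharacter (N.subgroupOf S) (fun n : N.subgroupOf S => θh n) := by
    rw [funext hθext]; exact (Lib.Induce.isIrrCharacter_subgroupOf_iff hNS).mpr θ.2
  obtain ⟨μ, hμ, hμ'⟩ := exists_inflate_mul_eq_of_res_eq_smul (N.subgroupOf S) hθh.isCharacter hθirr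
    (hχh.isCharacter.restrict S) (e := e) (fun n => by
      rw [hθext, ← hres', ← hext])
  have hμ1 : μ 1 = e := by
    have h1 := hμ' 1
    have h2 := hres' 1
    rw [← hext] at h2
    have h3 := hθext 1
    refine mul_right_cancel₀ θ.2.apply_one_ne_zero ?_
    rw [← h2]
    exact (h1.trans (congrArg _ h3)).symm
  haveI := Fintype.ofFinite (N.subgroupOf S)
  have hnorm : ∀ q : S ⧸ N.subgroupOf S, q ≠ 1 → ‖μ q‖ ^ 2 = 1 := by
    intro q hq
    obtain ⟨s, rfl⟩ := QuotientGroup.mk_surjective q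
    have hsG : (s : Γ) ∉ G := fun h => hq ((QuotientGroup.eq_one_iff s).mpr (hSG s s.2 h))
    have h1 := card_mul_sum_coset_eq hNG (x := s) (fun g hg => hG.conj_mem g hg s)
      (fun g hg => hN.conj_mem g hg s) (fun k hk d hd d' hd' e => by
        refine N.inv_mem_iff.mp (hfrob s hsG _ (G.inv_mem hk) ?_)
        have : s * k⁻¹ * (s : Γ)⁻¹ * k⁻¹⁻¹ = d⁻¹ * (k⁻¹ * d' * k⁻¹⁻¹) := by
          rw [eq_mul_inv_iff_mul_eq.mpr e.symm]
          group
        rw [this]
        exact N.mul_mem (N.inv_mem hd) (hN.conj_mem _ hd' _))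
      (f := fun y => χh y * (starRingEnd ℂ) (χh y))
      (fun k _ y => by rw [hχh.isClassFunction.conj_apply])
    rw [sum_coset_mul_conj_self G hχh.isCharacter hirr, mul_comm,
      mul_right_inj' (card_ne_zero_complex G)] at h1
    have h2 := sum_coset_mul_conj_self (N.subgroupOf S) hθh.isCharacter hθirr s
    rw [Lib.Core.card_subgroupOf_of_le hNS] at h2
    have h3 : ∑ d : N, χh (d * s) * (starRingEnd ℂ) (χh (d * s)) =
        ∑ n : N.subgroupOf S, μ s * (starRingEnd ℂ) (μ s) *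
          (θh (n * s) * (starRingEnd ℂ) (θh (n * s))) := by
      symm
      refine Fintype.sum_equiv (Subgroup.subgroupOfEquivOfLe hNS).toEquiv _ _ fun n => ?_
      have h4 := hμ' (n * s)
      rw [QuotientGroup.mk_mul, (QuotientGroup.eq_one_iff _).mpr n.2, one_mul] at h4
      change _ = χh ((n * s : S) : Γ) * (starRingEnd ℂ) (χh ((n * s : S) : Γ))
      rw [h4, map_mul]
      ring
    rw [h3, ← Finset.mul_sum, h2, eq_comm, mul_eq_right₀ (card_ne_zero_complex N),
      Complex.mul_conj, Complex.normSq_eq_norm_sq] at h1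
    exact_mod_cast h1
  haveI := Fintype.ofFinite (S ⧸ N.subgroupOf S)
  rcases regular_dichotomy hμ with ⟨h1, -⟩ | ⟨-, h2⟩
  · have hx1 : (QuotientGroup.mk ⟨x, Subgroup.mem_sup_left (Subgroup.mem_zpowers x)⟩ :
        S ⧸ N.subgroupOf S) ≠ 1 := fun h => hxG (hNG ((QuotientGroup.eq_one_iff
          (⟨x, Subgroup.mem_sup_left (Subgroup.mem_zpowers x)⟩ : S)).mp h))
    have := hnorm _ hx1
    simp [h1 _ hx1] at this
  · obtain ⟨-, k, ε, hε, h3, -⟩ := h2 (by
      rw [Finset.sum_congr rfl (g := fun _ => 1) fun q hq => hnorm q (Finset.mem_erase.mp hq).1]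
      simp [Finset.card_erase_of_mem, Nat.cast_sub Fintype.card_pos])
    rw [hμ1, hcard] at h3
    have h4 : ((e : ℤ) : ℂ) = ((G.index * k + ε : ℤ) : ℂ) := by exact_mod_cast h3
    rw [Int.cast_injective h4]
    rcases hε with rfl | rfl
    · left; simp
    · right; simp

end Cfsg.Agent.S4454
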