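import Cfsg.Statements.S4459
import Cfsg.Agent.Lib.CharDeg.MinNonab

set_option autoImplicit false
open Cfsg

namespace Cfsg.Agent.S4459

open Cfsg.Lib.Char Cfsg.Lib.CharDeg Cfsg.Lib.Clifford Cfsg.Lib.Induce Cfsg.Lib.Core Subgroup
open scoped ComplexConjugate commutatorElement

section
variable {G : Type*} [Group G] [Finite G] {p : ℕ}

theorem index_cases (hp : p.Prime) {Z T : Subgroup G} (hZ : Z.index = p ^ 2) (h : Z ≤ T) {g : G}
    (hg : g ∈ T) (hg' : g ∉ Z) : T.index = 1 ∨ T.index = p := by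
  obtain ⟨i, hi, e⟩ := (Nat.dvd_prime_pow hp).1 (hZ ▸ index_dvd_of_le h)
  interval_cases i
  · exact Or.inl e
  · exact Or.inr (by rw [e, pow_one])
  · exact absurd (eq_of_le_of_index_le h (by rw [hZ, e]) ▸ hg) hg'

theorem eq_top_of_index_prime (hp : p.Prime) {S T : Subgroup G} (hS : S.index = p) (h : S ≤ T)
    (hne : ¬ T ≤ S) : T = ⊤ := by
  rcases (Nat.dvd_prime hp).1 (hS ▸ index_dvd_of_le h) with e | e
  · exact index_eq_one.1 e
  · exact absurd (eq_of_le_of_index_le h (by rw [hS, e])).ge hne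

open MulAction in
theorem action_lemma (hp : p.Prime) {X : Type*} [CommGroup X] [MulDistribMulAction G X]
    {Z : Subgroup G} (hZ : Z.index = p ^ 2) (h1 : ∀ z ∈ Z, ∀ v : X, z • v = v)
    (h2 : ∀ (g h : G) (v : X), g • h • v = h • g • v) (h3 : ∀ v : X, ∃ g ∉ Z, g • v = v)
    (h4 : ∀ g ∉ Z, ∃ v : X, g • v ≠ v) :
    ∃ u : X, u ^ p = 1 ∧ ∀ (g : G) (v : X), g • v * v⁻¹ ∈ zpowers u := by
  have hS : ∀ v : X, stabilizer G v ≠ ⊤ → (stabilizer G v).index = p := fun v hv => by
    obtain ⟨g, hg, hgv⟩ := h3 v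
    exact (index_cases hp hZ (fun z hz => h1 z hz v) hgv hg).resolve_left
      fun e => hv (index_eq_one.1 e)
  have hA : ∀ (v : X) (g : G), g • v ≠ v → (∀ h : G, h • (g • v * v⁻¹) = g • v * v⁻¹) →
      (g • v * v⁻¹) ^ p = 1 ∧ ∀ h : G, h • v * v⁻¹ ∈ zpowers (g • v * v⁻¹) := by
    intro v g hg hu
    have hv := hS v fun e => hg (show g ∈ stabilizer G v by rw [e]; trivial)
    set u := g • v * v⁻¹ with hudef
    constructor
    · haveI : (stabilizer G v).Normal := ⟨fun s hs h => by
        rw [mem_stabilizer_iff, mul_smul, mul_smul, h2 s, mem_stabilizer_iff.1 hs, smul_inv_smul]⟩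
      have h5 : ∀ k : ℕ, g ^ k • v = u ^ k * v := by
        intro k
        induction k with
        | zero => simp
        | succ k ih =>
          rw [pow_succ', mul_smul, ih, smul_mul', smul_pow', hu, pow_succ, mul_assoc]
          congr 1
          rw [hudef, inv_mul_cancel_right]
      have h6 := mem_stabilizer_iff.1 (pow_index_mem (H := stabilizer G v) g)
      rw [hv, h5] at h6
      simpa using h6
    · have hfix : ∀ (h : G), ∀ w ∈ zpowers u, h • w = w := by
        rintro h _ ⟨k, rfl⟩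
        exact (map_zpow (MulDistribMulAction.toMonoidHom X h) u k).trans (congrArg (· ^ k) (hu h))
      let T : Subgroup G :=
        { carrier := {h | h • v * v⁻¹ ∈ zpowers u}
          one_mem' := by simp
          mul_mem' := fun {a b} ha hb => by
            have e : (a * b) • v * v⁻¹ = a • (b • v * v⁻¹) * (a • v * v⁻¹) := by
              rw [mul_smul, smul_mul', smul_inv']; simp
            change _ ∈ zpowers u
            rw [e, hfix a _ hb]
            exact mul_mem hb ha
          inv_mem' := fun {a} ha => by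
            have e : a⁻¹ • v * v⁻¹ = (a⁻¹ • (a • v * v⁻¹))⁻¹ := by
              rw [smul_mul', smul_inv', inv_smul_smul]; simp
            change _ ∈ zpowers u
            rw [e, hfix _ _ ha]
            exact inv_mem ha }
      have h5 : T = ⊤ := eq_top_of_index_prime hp hv (fun s hs => by
        change _ ∈ zpowers u
        rw [mem_stabilizer_iff.1 hs, mul_inv_cancel]; exact one_mem _)
        fun hle => hg (hle (mem_zpowers u))
      exact fun h => show h ∈ T by rw [h5]; trivial
  have hB : ∀ v w : X, stabilizer G v ≠ ⊤ → stabilizer G w ≠ ⊤ → stabilizer G v ≠ stabilizer G w →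
      ∃ u : X, u ^ p = 1 ∧ (∀ h : G, h • v * v⁻¹ ∈ zpowers u) ∧ (∀ h : G, h • w * w⁻¹ ∈ zpowers u) ∧
        ∃ g : G, u = g • w * w⁻¹ := by
    intro v w hv hw hne
    obtain ⟨g, hg, hgv⟩ := h3 (v * w⁻¹)
    have e : g • v * v⁻¹ = g • w * w⁻¹ := by
      rw [smul_mul', smul_inv', mul_inv_eq_iff_eq_mul] at hgv
      rw [hgv, mul_right_comm, mul_right_comm v, mul_inv_cancel, one_mul, mul_comm]
    have hgw : g • w ≠ w := fun h5 => by
      have h6 : g • v = v := by rwa [h5, mul_inv_cancel, mul_inv_eq_one] at e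
      rcases index_cases hp hZ (T := stabilizer G v ⊓ stabilizer G w)
        (fun z hz => ⟨h1 z hz v, h1 z hz w⟩) ⟨h6, h5⟩ hg with h7 | h7
      · exact hv (top_le_iff.1 (index_eq_one.1 h7 ▸ inf_le_left))
      · exact hne ((eq_of_le_of_index_le inf_le_left (by rw [h7, hS v hv])).symm.trans
          (eq_of_le_of_index_le inf_le_right (by rw [h7, hS w hw])))
    have hu : ∀ h : G, h • (g • w * w⁻¹) = g • w * w⁻¹ := by
      have h5 : stabilizer G (g • w * w⁻¹) = ⊤ := eq_top_of_index_prime hp (hS w hw)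
        (fun s hs => by rw [mem_stabilizer_iff, smul_mul', smul_inv', h2, mem_stabilizer_iff.1 hs])
        fun hle => hne (eq_of_le_of_index_le (fun s hs => hle (by
          rw [← e, mem_stabilizer_iff, smul_mul', smul_inv', h2, mem_stabilizer_iff.1 hs]))
          (by rw [hS v hv, hS w hw]))
      exact fun h => show h ∈ stabilizer G _ by rw [h5]; trivial
    exact ⟨_, (hA w g hgw hu).1, e ▸ (hA v g (fun h5 => hgw (by
      rwa [h5, mul_inv_cancel, eq_comm, mul_inv_eq_one] at e)) (e ▸ hu)).2, (hA w g hgw hu).2, g, rfl⟩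
  have hC : ∀ v : X, stabilizer G v ≠ ⊤ → ∃ w : X, stabilizer G w ≠ ⊤ ∧
      stabilizer G v ≠ stabilizer G w := fun v _ => by
    obtain ⟨g, hg, hgv⟩ := h3 v
    obtain ⟨w, hw⟩ := h4 g hg
    exact ⟨w, fun e => hw (show g ∈ stabilizer G w by rw [e]; trivial),
      fun e => hw (show g ∈ stabilizer G w by rw [← e]; exact hgv)⟩
  obtain ⟨g0, hg0, -⟩ := h3 1
  obtain ⟨v0, hv0⟩ := h4 g0 hg0
  have hv0' : stabilizer G v0 ≠ ⊤ := fun e => hv0 (show g0 ∈ stabilizer G v0 by rw [e]; trivial)
  obtain ⟨w0, hw0, hne⟩ := hC v0 hv0'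
  obtain ⟨u, hu1, hu2, hu3, -⟩ := hB v0 w0 hv0' hw0 hne
  refine ⟨u, hu1, fun g v => ?_⟩
  by_cases hv : stabilizer G v = ⊤
  · rw [show g • v = v from show g ∈ stabilizer G v by rw [hv]; trivial, mul_inv_cancel]
    exact one_mem _
  by_cases e : stabilizer G v = stabilizer G w0
  · obtain ⟨u', -, h5, -, k, rfl⟩ := hB v v0 hv hv0' (fun e' => hne (e'.symm.trans e))
    exact zpowers_le.2 (hu2 k) (h5 g)
  · obtain ⟨u', -, h5, -, k, rfl⟩ := hB v w0 hv hw0 e
    exact zpowers_le.2 (hu3 k) (h5 g)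

theorem center_index (hp : p.Prime) (h : ∀ d ∈ cd G, d = 1 ∨ d = p) (hG : ∃ a b : G, a * b ≠ b * a)
    (hA : ¬ ∃ A : Subgroup G, A.Normal ∧ (∀ a ∈ A, ∀ b ∈ A, a * b = b * a) ∧ A.index = p)
    (Z : Subgroup G) [hZn : Z.Normal] (hZ : Z.index = p ^ 2) (hab : ∀ a ∈ Z, ∀ b ∈ Z, a * b = b * a)
    (hc : _root_.commutator G ≤ Z) (hZZ : center G ≤ Z) : (center G).index = p ^ 3 := by
  haveI := Fintype.ofFinite G
  haveI := Fintype.ofFinite Z
  have hcent : ∀ g ∉ Z, g ∉ centralizer (Z : Set G) := by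
    intro g hg hgc
    have h1 : zpowers g ≤ centralizer (Z : Set G) := zpowers_le.2 hgc
    have h2 : Z ⊔ zpowers g ≤ centralizer ((Z ⊔ zpowers g : Subgroup G) : Set G) :=
      sup_le (le_centralizer_iff.1 (sup_le (fun a ha b hb => hab b hb a ha) h1))
        (le_centralizer_iff.1 (sup_le (le_centralizer_iff.1 h1) (le_centralizer _)))
    rcases index_cases hp hZ (T := Z ⊔ zpowers g) le_sup_left
      (mem_sup_right (mem_zpowers g)) hg with h3 | h3
    · obtain ⟨a, b, hab⟩ := hG
      rw [index_eq_one.1 h3] at h2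
      exact hab (h2 (mem_top b) a (mem_top a))
    · exact hA ⟨_, ⟨fun a ha x => by
        rw [show x * a * x⁻¹ = ⁅x, a⁆ * a by rw [commutatorElement_def]; group]
        exact mul_mem (mem_sup_left (hc (commutator_mem_commutator (mem_top _) (mem_top _)))) ha⟩,
        fun a ha b hb => h2 hb a ha, h3⟩
  letI : MulDistribMulAction G (Z →* ℂˣ) :=
    { smul := fun g lam => lam.comp (MulAut.conjNormal g⁻¹).toMonoidHom
      one_smul := fun lam => MonoidHom.ext fun z => congrArg lam (Subtype.ext (by simp))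
      mul_smul := fun a b lam => MonoidHom.ext fun z => congrArg lam (Subtype.ext (by
        simp [mul_assoc]))
      smul_mul := fun _ _ _ => rfl
      smul_one := fun _ => rfl }
  have hs : ∀ (g : G) (lam : Z →* ℂˣ) (z : Z),
      (g • lam) z = lam ⟨g⁻¹ * z * g⁻¹⁻¹, hZn.conj_mem _ z.2 _⟩ := fun _ _ _ => rfl
  have h1 : ∀ z ∈ Z, ∀ lam : Z →* ℂˣ, z • lam = lam := fun z hz lam => MonoidHom.ext fun y => by
    rw [hs]
    exact congrArg lam (Subtype.ext (by
      change z⁻¹ * y * z⁻¹⁻¹ = y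
      rw [hab _ (inv_mem hz) _ y.2]; group))
  obtain ⟨u, hu1, hu2⟩ := action_lemma (X := Z →* ℂˣ) hp hZ h1 (fun a b lam => by
      rw [← mul_smul, ← mul_smul, show a * b = b * a * ⁅a⁻¹, b⁻¹⁆ by
        rw [commutatorElement_def]; group, mul_smul,
        h1 _ (hc (commutator_mem_commutator (mem_top _) (mem_top _)))])
    (fun lam => by
      by_contra hcon
      push Not at hcon
      have h2 := charDegree_mem_cd (isIrrCharacter_indFun_of_inertia_le Z (isIrrCharacter_hom lam)
        fun g hg => by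
          by_contra hg'
          exact hcon g hg' (MonoidHom.ext fun z => mem_inertia_hom.1 (inv_mem hg) z))
      rw [charDegree_eq_of_apply_one (n := p ^ 2) (by rw [indFun_one, hZ]; simp)] at h2
      have := hp.two_le
      rcases h _ h2 with e | e <;> nlinarith)
    (fun g hg => by
      by_contra hcon
      push Not at hcon
      exact hcent g⁻¹ (fun e => hg (inv_mem_iff.1 e)) (mem_centralizer_of_forall_inertia hab
        fun lam => mem_inertia_hom.2 fun z => DFunLike.congr_fun (hcon lam) z))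
  have h2 : u.ker.map Z.subtype ≤ center G := by
    rintro _ ⟨z, hz, rfl⟩
    refine mem_center_iff.2 fun g => ?_
    haveI : IsMulCommutative Z := ⟨⟨fun a b => Subtype.ext (hab _ a.2 _ b.2)⟩⟩
    have h3 : (⟨g⁻¹ * z * g⁻¹⁻¹, hZn.conj_mem _ z.2 _⟩ : Z) * z⁻¹ = 1 :=
      eq_one_of_forall_irr_apply_eq fun χ hχ => by
        obtain ⟨lam, rfl⟩ := hχ.exists_hom_of_comm
        obtain ⟨k, hk⟩ := hu2 g lam
        have h4 := DFunLike.congr_fun hk z
        simp only [MonoidHom.zpow_apply, MonoidHom.mem_ker.1 hz, one_zpow, MonoidHom.mul_apply,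
          MonoidHom.inv_apply, hs] at h4
        simp only [map_mul, map_inv, ← h4, map_one]
    have h4 : g⁻¹ * z * g⁻¹⁻¹ * (z : G)⁻¹ = 1 := congrArg Subtype.val h3
    change g * z = z * g
    calc g * z = g * (g⁻¹ * z * g⁻¹⁻¹ * (z : G)⁻¹) * z := by rw [h4, mul_one]
      _ = _ := by group
  have h3 : u.ker.index ∣ p := by
    haveI : NeZero p := ⟨hp.ne_zero⟩
    rw [index_ker, ← Complex.card_rootsOfUnity p]
    refine card_dvd_of_le ?_
    rintro _ ⟨z, rfl⟩
    exact DFunLike.congr_fun hu1 z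
  have h4 := index_dvd_of_le h2
  rw [index_map_subtype, hZ] at h4
  obtain ⟨i, hi, e⟩ := (Nat.dvd_prime_pow hp (m := 3)).1
    (h4.trans (by rw [pow_succ' p 2]; exact Nat.mul_dvd_mul_right h3 _))
  rcases hi.lt_or_eq with h5 | h5
  · have h6 := eq_of_le_of_index_le hZZ (by
      rw [e, hZ]; exact Nat.pow_le_pow_right hp.pos (by omega))
    obtain ⟨a, b, hab'⟩ := hG
    refine absurd (fun z hz => ?_) (hcent a fun ha => hab' (mem_center_iff.1 (h6 ▸ ha) b).symm)
    exact (mem_center_iff.1 (show z ∈ center G from h6 ▸ hz) a).symm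
  · rw [e, h5]

theorem forward (hp : p.Prime) (h : ∀ d ∈ cd G, d = 1 ∨ d = p) (hG : ∃ a b : G, a * b ≠ b * a)
    (hA : ¬ ∃ A : Subgroup G, A.Normal ∧ (∀ a ∈ A, ∀ b ∈ A, a * b = b * a) ∧ A.index = p) :
    (center G).index = p ^ 3 := by
  haveI : Group.IsSolvable G := ⟨⟨2, derivedSeries_two_eq_bot_of_cd h⟩⟩
  obtain ⟨K, _, -, hK⟩ := exists_minNonab (G := G) ⊥ fun hc => by
    obtain ⟨a, b, hab⟩ := hG
    exact hab (commutatorElement_eq_one_iff_mul_comm.1
      (hc (commutator_mem_commutator (mem_top a) (mem_top b))))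
  have hcm : ∀ (V : Subgroup (G ⧸ K)), _root_.commutator (G ⧸ K) ≤ V →
      _root_.commutator G ≤ V.comap (QuotientGroup.mk' K) := fun V hV =>
    commutator_le.2 fun a _ b _ => by
      rw [mem_comap, map_commutatorElement]
      exact hV (commutator_mem_commutator (mem_top _) (mem_top _))
  obtain ⟨q, hq, hP | ⟨h1, h2, h3, h4⟩⟩ := hK.struct inferInstance
  · haveI := Fact.mk hq
    obtain ⟨θ, hθ, hθ1⟩ : ∃ θ, IsIrrCharacter (G ⧸ K) θ ∧ θ 1 ≠ 1 := by
      by_contra hcon
      push Not at hcon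
      exact hK.ne_bot (eq_bot_iff.2 (commutator_le.2 fun a _ b _ =>
        commutatorElement_eq_one_iff_mul_comm.2
          (comm_iff_forall_irr_apply_one.2 (fun χ => hcon _ χ.2) a b)))
    have hθp : charDegree θ = p := (h _ (cd_quotient_subset K (charDegree_mem_cd hθ))).resolve_left
      fun e => hθ1 (hθ.isCharacter.charDegree_eq_one_iff.1 e)
    obtain ⟨x, hx1, hx2, hx3⟩ := Cfsg.Lib.PGroup.exists_mem_center_orderOf_eq hP _ hK.ne_bot
    have hx4 : zpowers x = _root_.commutator (G ⧸ K) := hK.isMinNormal.eq_of_le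
      (Cfsg.Lib.PGroup.normal_of_le_center (zpowers_le.2 hx2))
      (by rw [Ne, zpowers_eq_bot]; rintro rfl; rw [orderOf_one] at hx3; exact hq.ne_one hx3.symm)
      (zpowers_le.2 hx1)
    have hc1 : Nat.card (_root_.commutator (G ⧸ K)) = q := by rw [← hx4, Nat.card_zpowers, hx3]
    have hc2 : _root_.commutator (G ⧸ K) ≤ center _ := hx4 ▸ zpowers_le.2 hx2
    set Z := (center (G ⧸ K)).comap (QuotientGroup.mk' K) with hZ
    have hZi : Z.index = p ^ 2 := by
      rw [hZ, index_comap_of_surjective _ (QuotientGroup.mk'_surjective K),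
        ← charDegree_sq_of_card_commutator hq hc1 hc2 hθ hθ1, hθp]
    refine center_index hp h hG hA Z hZi (comm_subgroup_of_cd fun d hd => ?_) (hcm _ hc2)
      fun z hz => mem_center_iff.2 fun y => by
        obtain ⟨y, rfl⟩ := QuotientGroup.mk'_surjective K y
        rw [← map_mul, ← map_mul, mem_center_iff.1 hz]
    by_contra hd1
    obtain ⟨ψ, hψ, rfl⟩ := mem_cd'.1 hd
    haveI := Fintype.ofFinite G
    haveI := Fintype.ofFinite Z
    obtain ⟨χ, hχ, hne⟩ := exists_irr_above Z hψ
    have h5 := charDegree_dvd_charDegree_of_over Z hχ hψ hne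
    have h6 : charDegree χ = p := (h _ (charDegree_mem_cd hχ)).resolve_left
      fun e => hd1 (Nat.dvd_one.1 (e ▸ h5))
    have h7 := eq_of_constituent_of_apply_one_eq (hχ.isCharacter.restrict Z) hψ hne (by
      rw [OneMemClass.coe_one, hχ.apply_one_eq, hψ.apply_one_eq, h6,
        ((Nat.dvd_prime hp).1 (h6 ▸ h5)).resolve_left hd1])
    have h8 := hχ.isCharacter.mul (hθ.isCharacter.comp (QuotientGroup.mk' K))
    have h9 := hψ.sum_norm_sq
    have h10 := charDegree_mem_cd (h8.isIrrCharacter_of_inner_self (by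
      classical
      rw [classInner_self_eq, ← Finset.sum_subset (Finset.subset_univ (Finset.univ.filter (· ∈ Z)))
        (fun g _ hg => by
          rw [Pi.mul_apply, vanish_of_card_commutator hq hc1 hc2 hθ hθ1
            (fun e => hg (Finset.mem_filter.2 ⟨Finset.mem_univ _, e⟩))]
          simp),
        Finset.sum_subtype _ (p := (· ∈ Z)) (by simp),
        Finset.sum_congr rfl (g := fun z : Z => ‖ψ z‖ ^ 2 * (p : ℝ) ^ 2) (fun z _ => by
          rw [Pi.mul_apply, norm_mul, mul_pow, ← h7, hθ.isCharacter.mem_charCenter_iff.1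
            (hθ.center_le_charCenter z.2), hθ.isCharacter.norm_apply_one, hθp]),
        ← Finset.sum_mul, h9, ← Z.card_mul_index, hZi]
      have := Nat.card_pos (α := Z)
      have : (p : ℂ) ≠ 0 := by exact_mod_cast hp.ne_zero
      push_cast
      field_simp))
    rw [charDegree_eq_of_apply_one (n := p * p) (by
      rw [Pi.mul_apply, map_one, hχ.apply_one_eq, hθ.apply_one_eq, h6, hθp, Nat.cast_mul])] at h10
    have := hp.two_le
    rcases h _ h10 with e | e <;> nlinarith
  · haveI := Fact.mk hq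
    obtain ⟨k, hk⟩ := h1.exists_card_eq
    set N := (_root_.commutator (G ⧸ K)).comap (QuotientGroup.mk' K) with hN
    have hNf : N.index = _ := index_comap_of_surjective _ (QuotientGroup.mk'_surjective K)
    have hmul : ∀ d ∈ cd N, ¬ q ∣ d → N.index * d ∈ cd G := by
      intro d hd hpd
      obtain ⟨ψ, hψ, rfl⟩ := mem_cd'.1 hd
      rw [hNf]
      refine h4.mul_mem_cd (QuotientGroup.mk' K) (QuotientGroup.mk'_surjective K) hK.ne_bot h2 hN
        hψ ?_
      rw [hk]
      exact Nat.Coprime.pow_right k ((Nat.Prime.coprime_iff_not_dvd hq).2 hpd).symm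
    have h5 : N.index = p := by
      refine (h _ (by simpa using hmul 1 one_mem_cd hq.not_dvd_one)).resolve_left fun e => ?_
      rw [hNf, index_eq_one] at e
      refine absurd (eq_bot_iff.2 (commutator_le.2 fun a _ b _ =>
        commutatorElement_eq_one_iff_mul_comm.2 ?_)) hK.ne_bot
      exact congrArg Subtype.val (h2.is_comm.comm
        (⟨a, e ▸ mem_top a⟩ : _root_.commutator (G ⧸ K)) ⟨b, e ▸ mem_top b⟩)
    refine absurd ⟨N, inferInstance, comm_subgroup_of_cd fun d hd => ?_, h5⟩ hA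
    obtain ⟨c, -, hc⟩ := exists_mem_cd_of_normal N hd
    have h6 : d ∣ p := by
      rcases h _ hc with e | e
      · rw [Nat.eq_one_of_mul_eq_one_left e]; exact one_dvd _
      · exact e ▸ dvd_mul_left _ _
    rcases h _ (hmul d hd fun h7 => h3 (hNf ▸ h5 ▸ h7.trans h6)) with e | e
    · exact Nat.eq_one_of_mul_eq_one_left e
    · rwa [h5, Nat.mul_eq_left hp.ne_zero] at e

end

/-- Let G be a non-abelian finite group and p a prime. Then the irreducible character degrees of G are exactly 1 and p if and only if either G has an abelian normal subgroup of index p or the centre of G has index p³. -/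
theorem result {G : Type*} [Group G] [Finite G] (hG : ∃ a b : G, a * b ≠ b * a) (p : ℕ) (hp : p.Prime) : ((∀ χ : Cfsg.IrrCharacter G, Cfsg.charDegree (χ : G → ℂ) = 1 ∨ Cfsg.charDegree (χ : G → ℂ) = p) ∧ ∃ χ : Cfsg.IrrCharacter G, Cfsg.charDegree (χ : G → ℂ) = p) ↔ ((∃ A : Subgroup G, A.Normal ∧ (∀ a ∈ A, ∀ b ∈ A, a * b = b * a) ∧ A.index = p) ∨ (Subgroup.center G).index = p ^ 3) := by
  constructor
  · rintro ⟨h, -⟩
    exact or_iff_not_imp_left.2 (forward hp (fun d hd => by
      obtain ⟨χ, rfl⟩ := mem_cd.1 hd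
      exact h χ) hG)
  · intro h
    have h1 : ∀ χ : IrrCharacter G, charDegree (χ : G → ℂ) = 1 ∨ charDegree (χ : G → ℂ) = p := by
      intro χ
      rcases h with ⟨A, _, h1, h2⟩ | h
      · exact (Nat.dvd_prime hp).1 (h2 ▸ dvd_index_of_comm h1 (charDegree_mem_cd χ.2))
      · obtain ⟨i, -, e⟩ := (Nat.dvd_prime_pow hp).1 (h ▸ dvd_index_of_comm (A := center G)
          (fun a ha b _ => (mem_center_iff.1 ha b).symm) (charDegree_mem_cd χ.2))
        have h2 := charDegree_sq_le_index_center χ.2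
        rw [h, e, ← pow_mul, Nat.pow_le_pow_iff_right hp.one_lt] at h2
        have h3 : i = 0 ∨ i = 1 := by omega
        rcases h3 with rfl | rfl <;> simp [e]
    refine ⟨h1, ?_⟩
    by_contra hcon
    push Not at hcon
    obtain ⟨a, b, hab⟩ := hG
    exact hab (comm_iff_forall_irr_apply_one.2 (fun χ => χ.2.isCharacter.charDegree_eq_one_iff.1
      ((h1 χ).resolve_right (hcon χ))) a b)

end Cfsg.Agent.S4459
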