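import Cfsg.Statements.S4461
import Cfsg.Agent.Lib.CharDeg.Broline

set_option autoImplicit false
open Cfsg

namespace Cfsg.Agent.S4461

open Cfsg.Lib.Char Cfsg.Lib.CharDeg in

/-- Let χ be an irreducible character of the finite group G and K its kernel (the elements where χ takes the value χ(1)). Suppose either that K is not contained in the Fitting subgroup F(G), or that K = F(G) with G/K solvable and K ≠ G. Then there is an irreducible character ψ of G with ψ(1) > χ(1) whose kernel is properly contained in K. -/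
theorem result {G : Type*} [Group G] [Finite G] (χ : Cfsg.IrrCharacter G) (K : Subgroup G) [K.Normal] (hK : (∀ g : G, g ∈ K ↔ (χ : G → ℂ) g = (χ : G → ℂ) 1)) (h : ¬ K ≤ Cfsg.fittingSubgroup G ∨ (K = Cfsg.fittingSubgroup G ∧ Group.IsSolvable (G ⧸ K) ∧ K ≠ ⊤)) : ∃ ψ : Cfsg.IrrCharacter G, Cfsg.charDegree (χ : G → ℂ) < Cfsg.charDegree (ψ : G → ℂ) ∧ ∃ L : Subgroup G, (∀ g : G, g ∈ L ↔ (ψ : G → ℂ) g = (ψ : G → ℂ) 1) ∧ L < K := by
  have h1 : K = charKer (χ : G → ℂ) := by
    ext g
    rw [hK, χ.2.isCharacter.mem_charKer_iff]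
  have h2 : ∃ ψ, IsIrrCharacter G ψ ∧ charDegree (χ : G → ℂ) < charDegree ψ ∧
      charKer ψ < charKer (χ : G → ℂ) := by
    rcases h with h | ⟨h, h3, h4⟩
    · exact exists_larger_of_not_le_fitting χ.2 (h1 ▸ h)
    · haveI : Group.IsSolvable K := by rw [h]; infer_instance
      haveI : Group.IsSolvable G := Group.isSolvable_of_ker_le_range K.subtype
        (QuotientGroup.mk' K) (by simp)
      exact exists_larger_of_eq_fitting χ.2 (h1 ▸ h) (h1 ▸ h4)
  obtain ⟨ψ, h3, h4, h5⟩ := h2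
  exact ⟨⟨ψ, h3⟩, h4, charKer ψ, fun g => h3.isCharacter.mem_charKer_iff, h1 ▸ h5⟩

end Cfsg.Agent.S4461
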