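import Cfsg.Statements.S4462
import Cfsg.Agent.Lib.CharDeg.Broline
import Cfsg.Agent.Lib.HH.Height
import Cfsg.Agent.Lib.PF.Sec6Grp

set_option autoImplicit false
open Cfsg

namespace Cfsg.Agent.S4462

open Cfsg.Lib.Char Cfsg.Lib.CharDeg Cfsg.Lib.HH Cfsg.Lib.Core

universe u

theorem res_eq_bot (n : ℕ) : ∀ (G : Type u) [Group G] [Finite G] [Group.IsSolvable G],
    (cd G).card ≤ n → res n (⊤ : Subgroup G) = ⊥ := by
  induction n with
  | zero =>
    intro G _ _ _ h
    exact absurd (Finset.card_pos.2 ⟨1, one_mem_cd (G := G)⟩) (by omega)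
  | succ n ih =>
    intro G _ _ _ h
    by_cases hF : fittingSubgroup G = ⊤
    · refine eq_bot_iff.2 ((res_anti (by omega : 1 ≤ n + 1) ⊤).trans_eq ?_)
      rw [res_one_eq_bot_iff, Group.isNilpotent_top]
      exact fittingSubgroup_eq_top_iff.1 hF
    · have h1 := ih (G ⧸ fittingSubgroup G)
        (by have := Finset.card_lt_card (cd_quotient_fitting_ssubset hF); omega)
      refine res_add_eq_bot (N := fittingSubgroup G) ?_ (res_one_eq_bot_iff.2 inferInstance)
      rw [← map_mk'_eq_bot_iff, map_res, Subgroup.map_top_of_surjective _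
        (QuotientGroup.mk'_surjective _), h1]

/-- Let G be a finite solvable group with exactly n distinct irreducible character degrees. Then G has normal subgroups 1 = N₀ ≤ N₁ ≤ ⋯ ≤ Nₙ = G with every quotient N_{i+1}/N_i nilpotent (the nilpotent length of G is at most n). -/
theorem result {G : Type*} [Group G] [Finite G] (hsolv : Group.IsSolvable G) (n : ℕ) (hcd : Nat.card {d : ℕ // ∃ χ : Cfsg.IrrCharacter G, Cfsg.charDegree (χ : G → ℂ) = d} = n) : ∃ N : Fin (n + 1) → Subgroup G, N 0 = ⊥ ∧ N (Fin.last n) = ⊤ ∧ Monotone N ∧ (∀ i, (N i).Normal) ∧ ∀ i : Fin n, ∀ h : (N i.castSucc).subgroupOf (N i.succ) |>.Normal, Group.IsNilpotent (↥(N i.succ) ⧸ (N i.castSucc).subgroupOf (N i.succ)) := by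
  obtain ⟨F, h1, h2, h3, h4, h5⟩ := (chain_iff_res n).2 (res_eq_bot n G (card_cd.trans hcd).le)
  exact ⟨F, h1, h2, h3, h4, fun i _ =>
    (Cfsg.Lib.PF.isNilpotent_quotient_iff (h3 i.castSucc_le_succ)).2 (h5 i)⟩

end Cfsg.Agent.S4462
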