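import Cfsg.Statements.S4469
import Cfsg.Agent.Lib.CharDeg.Blichfeldt
import Cfsg.Agent.Lib.Clifford.Monomial
import Cfsg.Agent.S4470

set_option autoImplicit false
open Cfsg

namespace Cfsg.Agent.S4469

open Lib.Char Lib.Induce Lib.Clifford Subgroup

theorem exists_torus {P : Type*} [Group P] [Finite P] {p : ℕ} [Fact p.Prime] (hP : IsPGroup p P)
    {χ : P → ℂ} (hχ : IsCharacter P χ) : ∃ B : Subgroup P, B.Normal ∧
      B.index ∣ (charDegree χ).factorial ∧ ∀ x ∈ B, ∀ y ∈ B, χ (x * y * x⁻¹ * y⁻¹) = χ 1 := by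
  have := Fintype.ofFinite P
  refine hχ.induction_on (P := fun χ => ∃ B : Subgroup P, B.Normal ∧
      B.index ∣ (charDegree χ).factorial ∧ ∀ x ∈ B, ∀ y ∈ B, χ (x * y * x⁻¹ * y⁻¹) = χ 1)
    ⟨⊤, inferInstance, by simp, fun _ _ _ _ => rfl⟩ ?_
  rintro ψ φ hψ hφ ⟨B, hB, h1, h2⟩
  obtain ⟨H, lam, rfl⟩ := isMonomial_of_isPGroup hP hψ
  refine ⟨H.normalCore ⊓ B, inferInstance, ?_, fun x hx y hy => ?_⟩
  · rw [charDegree_eq_of_apply_one (n := H.index + charDegree φ) (by
      rw [Pi.add_apply, indFun_one, hφ.apply_one_eq]; simp),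
      ← relIndex_mul_index (inf_le_right : H.normalCore ⊓ B ≤ B), inf_relIndex_right]
    refine (mul_dvd_mul ((relIndex_dvd_index_of_normal _ _).trans ?_) h1).trans
      (Nat.factorial_mul_factorial_dvd_factorial_add _ _)
    classical
    rw [normalCore_eq_ker, index_ker, index_eq_card, ← Nat.card_perm]
    exact card_subgroup_dvd_card _
  · rw [Pi.add_apply, Pi.add_apply, h2 x hx.2 y hy.2,
      (indFun_apply_eq_apply_one_iff H (isCharacter_hom lam) (by simp) _).2 fun g => ?_]
    let a : H := ⟨_, hx.1 g⟩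
    let b : H := ⟨_, hy.1 g⟩
    have e : g * (x * y * x⁻¹ * y⁻¹) * g⁻¹ = (a * b * a⁻¹ * b⁻¹ : H) := by
      simp [a, b, mul_assoc]
    refine ⟨e ▸ (a * b * a⁻¹ * b⁻¹).2, ?_⟩
    rw [show (⟨_, _⟩ : H) = a * b * a⁻¹ * b⁻¹ from Subtype.ext e]
    simp [mul_comm (lam a : ℂ), mul_assoc]

theorem index_dvd {G : Type*} [Group G] (A L : Subgroup G) : A.index ∣ A.relIndex L * L.index := by
  rw [← inf_relIndex_right, relIndex_mul_index inf_le_right]
  exact index_dvd_of_le inf_le_left

/-- The classical bound for finite linear groups, in explicit form. Let the finite group G have a faithful character of degree n. Then G has an abelian normal subgroup whose index is at most n! · 12^(n·(π(n+1)+1)), π(k) denoting the number of primes not exceeding k. -/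
theorem result {G : Type*} [Group G] [Finite G] (χ : G → ℂ) (hχ : Cfsg.IsCharacter G χ) (hfaith : ∀ g : G, χ g = χ 1 → g = 1) (n : ℕ) (hn : Cfsg.charDegree χ = n) : ∃ A : Subgroup G, A.Normal ∧ (∀ x ∈ A, ∀ y ∈ A, x * y = y * x) ∧ A.index ≤ Nat.factorial n * 12 ^ (n * (Nat.primeCounting (n + 1) + 1)) := by
  obtain ⟨A, hA, hab, h1⟩ := S4470.result χ hχ hfaith n hn
  obtain ⟨H, h2, -, h3⟩ := (hn ▸ Lib.CharDeg.linDeg_of_faithful hχ hfaith).exists_hall
  refine ⟨A, hA, hab, ?_⟩
  have h0 : A.index ≠ 0 := A.index_ne_zero_of_finite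
  have key : ∀ p : ℕ, p.Prime →
      p ^ A.index.factorization p ≤ p ^ n.factorial.factorization p * 12 ^ n := fun p hp => by
    have : Fact p.Prime := ⟨hp⟩
    obtain ⟨P⟩ : Nonempty (Sylow p G) := inferInstance
    obtain ⟨B, -, h4, h5⟩ := exists_torus P.isPGroup' (hχ.restrict P)
    replace h4 : B.index ∣ n.factorial := hn ▸ h4
    have h6 : p ^ A.index.factorization p ∣ A.relIndex P :=
      (Nat.Coprime.pow_left _ ((Nat.Prime.coprime_iff_not_dvd hp).2 P.not_dvd_index)).dvd_of_dvd_mul_right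
        ((Nat.ordProj_dvd _ _).trans (index_dvd A P))
    have h7 := index_dvd (A.subgroupOf P) B
    have h8 : (A.subgroupOf P).relIndex B = A.relIndex (B.map (P : Subgroup G).subtype) :=
      relIndex_comap ..
    have h9 := h1 (B.map (P : Subgroup G).subtype) (by
      rintro _ ⟨x, hx, rfl⟩ _ ⟨y, hy, rfl⟩
      have := hfaith _ (h5 x hx y hy)
      simpa [mul_inv_eq_iff_eq_mul] using this)
    obtain ⟨k, hk⟩ := P.isPGroup'.index B
    rw [hk, hp.pow_dvd_iff_le_factorization (Nat.factorial_ne_zero _)] at h4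
    refine (Nat.le_of_dvd (Nat.pos_of_ne_zero (mul_ne_zero index_ne_zero_of_finite
      index_ne_zero_of_finite)) (h6.trans h7)).trans ?_
    rw [mul_comm, hk]
    exact Nat.mul_le_mul (Nat.pow_le_pow_right hp.pos h4) (h8.trans_le h9)
  rw [← Nat.factorization_prod_pow_eq_self h0, Finsupp.prod, Nat.support_factorization,
    ← Finset.prod_filter_mul_prod_filter_not _ (· ≤ n + 1), mul_add, mul_one, pow_add, ← mul_assoc]
  refine Nat.mul_le_mul ((Finset.prod_le_prod' fun p hp =>
    key p (Nat.prime_of_mem_primeFactors (Finset.mem_filter.1 hp).1)).trans ?_) ?_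
  · rw [Finset.prod_mul_distrib, Finset.prod_const, ← pow_mul]
    refine Nat.mul_le_mul (Nat.le_of_dvd (Nat.factorial_pos _) (Finset.prod_dvd_of_isRelPrime
      (fun p hp q hq hpq => Nat.coprime_iff_isRelPrime.1 (Nat.coprime_pow_primes _ _
        (Nat.prime_of_mem_primeFactors (Finset.mem_filter.1 hp).1)
        (Nat.prime_of_mem_primeFactors (Finset.mem_filter.1 hq).1) hpq))
      fun p _ => Nat.ordProj_dvd _ _))
      (Nat.pow_le_pow_right (by norm_num) (Nat.mul_le_mul_left _ ?_))
    rw [Nat.primeCounting, Nat.primeCounting', Nat.count_eq_card_filter_range]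
    exact Finset.card_le_card fun p hp => Finset.mem_filter.2
      ⟨Finset.mem_range.2 (Nat.lt_succ_of_le (Finset.mem_filter.1 hp).2),
        Nat.prime_of_mem_primeFactors (Finset.mem_filter.1 hp).1⟩
  · refine (Nat.le_of_dvd (Nat.pos_of_ne_zero index_ne_zero_of_finite)
      (Nat.Coprime.dvd_of_dvd_mul_right (n := H.index) (Nat.Coprime.prod_left fun p hp => ?_)
        (Dvd.dvd.trans ?_ (index_dvd A H)))).trans (h1 H h2)
    · have hp' := Nat.prime_of_mem_primeFactors (Finset.mem_filter.1 hp).1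
      exact Nat.Coprime.pow_left _ ((Nat.Prime.coprime_iff_not_dvd hp').2 fun e =>
        (Finset.mem_filter.1 hp).2 (h3 p hp' e))
    · conv_rhs => rw [← Nat.factorization_prod_pow_eq_self h0, Finsupp.prod,
        Nat.support_factorization]
      exact Finset.prod_dvd_prod_of_subset _ _ _ (Finset.filter_subset _ _)

end Cfsg.Agent.S4469
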