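import Cfsg.Statements.S4472
import Cfsg.Agent.Lib.LinDeg.Schur
import Cfsg.Agent.Lib.Core.PSolvable
import Cfsg.Agent.Lib.Coprime.SZ

set_option autoImplicit false
open Cfsg

namespace Cfsg.Agent.S4472

open Cfsg.Lib Cfsg.Lib.LinDeg Cfsg.Lib.Char Cfsg.Lib.Clifford Subgroup
open scoped commutatorElement

/-- Let the finite p-solvable group G have a faithful character of degree n, and let p^a be the index of O_p(G) in a Sylow p-subgroup of G (the p-part of [G : O_p(G)]). Then a ≤ Σ_{i ≥ 0} ⌊n / ((p − 1) p^i)⌋ (a finite sum; the terms vanish for p^i > n). -/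
theorem result {G : Type*} [Group G] [Finite G] (χ : G → ℂ) (hχ : Cfsg.IsCharacter G χ) (hfaith : ∀ g : G, χ g = χ 1 → g = 1) (n : ℕ) (hn : Cfsg.charDegree χ = n) (p : ℕ) (hp : p.Prime) (hsolv : Cfsg.IsPSolvable p G) : ((Cfsg.pCore p G).index).factorization p ≤ ∑ i ∈ Finset.range (n + 1), n / ((p - 1) * p ^ i) := by
  classical
  haveI := Fact.mk hp
  let π := QuotientGroup.mk' (pCore p G)
  let N := pPrimeCore p (G ⧸ pCore p G)
  have hN : (Nat.card N).Coprime p := Core.pPrimeCore_coprime p _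
  have hO : pCore p G ≤ N.comap π := fun x hx => by
    rw [mem_comap, show π x = 1 from (QuotientGroup.eq_one_iff x).2 hx]; exact one_mem _
  have hrel : (pCore p G).relIndex (N.comap π) = Nat.card N := by
    rw [← Core.card_map_mk'_eq_relIndex, Core.map_comap_mk']
  obtain ⟨Q, h1, h2, h3, h4⟩ := Coprime.exists_complement hO le_normalizer_of_normal
    (hrel ▸ Core.coprime_card_of_isPGroup (Core.pCore_isPGroup p G) hN)
  obtain ⟨S⟩ : Nonempty (Sylow p (G ⧸ pCore p G)) := inferInstance
  let Γ := N ⊔ (S : Subgroup _)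
  haveI := Fintype.ofFinite Γ
  haveI := Fintype.ofFinite S
  let M := N.subgroupOf Γ
  let f : Q →* M := (((π.comp Q.subtype).codRestrict Γ fun q => mem_sup_left (h1 q.2)).codRestrict M fun q => h1 q.2)
  have hf : ∀ q, ((f q : Γ) : G ⧸ pCore p G) = π q := fun _ => rfl
  have hM : Nat.card M = Nat.card N := Core.card_subgroupOf_of_le le_sup_left
  let e := MulEquiv.ofBijective f ((Nat.bijective_iff_injective_and_card f).2
    ⟨(injective_iff_map_eq_one f).2 fun q hq => Subtype.ext (mem_bot.1 (h2 ▸ ⟨(QuotientGroup.eq_one_iff _).1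
      (congrArg (fun x : M => ((x : Γ) : G ⧸ pCore p G)) hq), q.2⟩)), by rw [h4, hrel, hM]⟩)
  let η : M → ℂ := fun m => χ (e.symm m)
  have hη : IsCharacter M η := hχ.comp (Q.subtype.comp e.symm.toMonoidHom)
  have hηf : ∀ q, η (f q) = χ q := fun q => congrArg (fun q : Q => χ q) (e.symm_apply_apply q)
  obtain ⟨k, hk⟩ : ∃ k, M.index = p ^ k := by
    obtain ⟨k, hk⟩ := IsPGroup.iff_card.1 S.isPGroup'
    obtain ⟨j, -, hj⟩ := (Nat.dvd_prime_pow hp).1 (hk ▸ relIndex_dvd_card N S)
    exact ⟨j, (relIndex_sup_left _ _).trans hj⟩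
  obtain ⟨ψ, h5, h6, h7⟩ := exists_ext M (by rw [hM, hk]; exact hN.pow_right k) n hη (fun g => funext fun m => by
    obtain ⟨q, rfl⟩ := e.surjective m
    obtain ⟨x, hx⟩ := QuotientGroup.mk'_surjective (pCore p G) g
    have hc : (Nat.card (zpowers (x * q * x⁻¹))).Coprime (Nat.card (pCore p G)) := by
      refine (Core.coprime_card_of_isPGroup (Core.pCore_isPGroup p G) ?_).symm
      rw [Nat.card_zpowers, ← MulAut.conj_apply, MulEquiv.orderOf_eq, Subgroup.orderOf_coe]
      exact (h4.trans hrel ▸ hN).coprime_dvd_left (orderOf_dvd_natCard q)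
    obtain ⟨y, hy, h⟩ := Coprime.exists_conj_mem_of_le_sup (A := Q) le_normalizer_of_normal
      (zpowers_le.2 (h3.ge (Normal.conj_mem inferInstance _ (h1 q.2) x))) hc
      (Or.inr (Core.isSolvable_of_isPGroup (Core.pCore_isPGroup p G)))
    have h' := hηf ⟨_, h _ (mem_zpowers _)⟩
    rw [hχ.isClassFunction.conj_apply', hχ.isClassFunction.conj_apply, ← hηf] at h'
    refine Eq.trans (congrArg η (Subtype.ext (Subtype.ext ?_))) h'
    rw [hf]
    simp only [map_mul, map_inv, show π y = 1 from (QuotientGroup.eq_one_iff y).2 hy, inv_one, one_mul, mul_one]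
    rw [show π x = g from hx]
    rfl) (by rw [← map_one f, hηf, ← hn]; exact hχ.apply_one_eq)
  let ι : S →* Γ := inclusion le_sup_right
  have h8 : ψ 1 = n := (congrFun h6 1).trans (by rw [← map_one f, hηf, ← hn]; exact hχ.apply_one_eq)
  have := card_dvd_of_rational S.isPGroup' (h5.comp ι) (n := n) (by rw [map_one, h8]) (fun s hs => ?_) fun s j hj => ?_
  · rw [S.card_eq_multiplicity] at this
    exact factorization_le this
  · rw [map_one] at hs
    have h9 : (s : G ⧸ pCore p G) ∈ N := Core.centralizer_pPrimeCore_le_of_isPSolvable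
      (Core.isPSolvable_quotient hsolv _) (Core.pCore_quotient_pCore p G) fun m hm => by
        let m' : Γ := ⟨m, mem_sup_left hm⟩
        haveI := h5.charKer_normal
        have a1 : ⁅m', ι s⁆ ∈ M := commutator_le_left M ⊤ (commutator_mem_commutator hm (mem_top _))
        have a2 := h5.mem_charKer_iff.1 (commutator_le_right ⊤ (charKer ψ)
          (commutator_mem_commutator (mem_top m') (h5.mem_charKer_iff.2 hs)))
        obtain ⟨q, hq⟩ := e.surjective ⟨_, a1⟩
        have a3 : χ q = χ 1 := by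
          rw [← hηf, show f q = _ from hq, ← h6, hχ.apply_one_eq, hn, ← h8]
          exact a2
        rw [show q = 1 from Subtype.ext (hfaith _ a3), map_one] at hq
        exact congrArg Subtype.val (commutatorElement_eq_one_iff_mul_comm.1 (congrArg Subtype.val hq).symm)
    exact Subtype.ext (mem_bot.1 (Core.inf_eq_bot_of_isPGroup_of_coprime S.isPGroup' hN ▸ ⟨s.2, h9⟩))
  · obtain ⟨a, ha⟩ := S.isPGroup' s
    obtain ⟨σ, b1, b2⟩ := exists_ringEquiv_pow_fix (k := j) (pow_ne_zero a hp.ne_zero) Nat.card_pos.ne'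
      (hM ▸ hN.symm.pow_left a) (((Nat.Prime.coprime_iff_not_dvd hp).2 hj).symm.pow_right a)
    rw [map_pow, ← h5.isGeneralizedCharacter.map_apply_eq_pow_of_dvd σ.toRingHom
      (orderOf_dvd_of_pow_eq_one (by rw [← map_pow, ha, map_one])) b1]
    exact h7 σ.toRingHom b2 _

end Cfsg.Agent.S4472
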