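import Cfsg.Statements.S4473
import Cfsg.Agent.Lib.CharDeg.Codeg
import Cfsg.Agent.Lib.PSL2.DicksonClosed
import Cfsg.Agent.Lib.Induce.Character

set_option autoImplicit false
open Cfsg

namespace Cfsg.Agent.S4473

open Cfsg.Lib.Char Cfsg.Lib.CharDeg Cfsg.Lib.PSL2 Matrix MulAction
open scoped MatrixGroups

/-- Let the finite group G have a faithful irreducible character χ of degree 2 that is primitive: χ is not induced from a character of any proper subgroup. Then the centre of G has index 12, 24 or 60. -/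
theorem result {G : Type*} [Group G] [Fintype G] (χ : Cfsg.IrrCharacter G) (hfaith : ∀ g : G, (χ : G → ℂ) g = (χ : G → ℂ) 1 → g = 1) (h2 : Cfsg.charDegree (χ : G → ℂ) = 2) (hprim : ∀ H : Subgroup G, H ≠ ⊤ → ∀ θ : H → ℂ, Cfsg.IsCharacter H θ → (χ : G → ℂ) ≠ Cfsg.indFun H θ) : (Subgroup.center G).index = 12 ∨ (Subgroup.center G).index = 24 ∨ (Subgroup.center G).index = 60 := by
  classical
  obtain ⟨χ, hχ⟩ := χ
  obtain ⟨n, ρ, _, rfl⟩ := id hχ
  simp only at hfaith h2 hprim
  obtain rfl : n = 2 := by rwa [charDegree_character, Module.finrank_fin_fun] at h2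
  have hρ : Function.Injective ρ := (injective_iff_map_eq_one ρ).2 fun g hg =>
    hfaith g ((character_eq_character_one_iff ρ g).2 hg)
  let R : G →* GL (Fin 2) ℂ := GeneralLinearGroup.toLin.symm.toMonoidHom.comp ρ.asGroupHom
  have hR : ∀ g v, R g • v = ρ g v := fun g v => by
    have : GeneralLinearGroup.toLin (R g) = ρ.asGroupHom g := MulEquiv.apply_symm_apply _ _
    rw [← ρ.asGroupHom_apply, ← this]
    rfl
  have hR1 : Function.Injective R := fun a b h => hρ (LinearMap.ext fun v => by rw [← hR, h, hR])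
  let φ : G →* PGL(2, ℂ) := ProjGenLinGroup.mk.comp R
  have hφ : φ.ker = Subgroup.center G := Subgroup.ext fun g => by
    rw [MonoidHom.mem_ker, MonoidHom.comp_apply, ProjGenLinGroup.mk_eq_one,
      Subgroup.mem_center_iff, Subgroup.mem_center_iff]
    refine ⟨fun h a => hR1 (by rw [map_mul, map_mul, h]), fun h A => ?_⟩
    obtain ⟨c, hc⟩ := exists_eq_smul_of_commute ρ (ρ g) fun a => by
      rw [← Module.End.mul_eq_comp, ← Module.End.mul_eq_comp, ← map_mul, ← map_mul, h]
    refine Units.ext (ext_of_mulVec_single fun i => ?_)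
    change (A * R g) • (Pi.single i 1 : Fin 2 → ℂ) = (R g * A) • (Pi.single i 1 : Fin 2 → ℂ)
    rw [mul_smul, mul_smul, hR, hR, hc]
    exact mulVec_smul A.1 c _
  have h3 : ∀ x : P1 ℂ, ¬ ((stabilizer PGL(2, ℂ) x).comap φ).index ∣ 2 := fun x h3 => by
    set K := (stabilizer PGL(2, ℂ) x).comap φ
    have h4 : ¬ IsIrrCharacter K fun k => ρ.character k := fun h4 => by
      have := (isIrrCharacter_character_iff (ρ.comp K.subtype)).1 h4
      let W : Subrepresentation (ρ.comp K.subtype) := ⟨x.submodule, fun k v hv => by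
        have h5 : R k • x = x := (pgl_mk_smul _ _).symm.trans k.2
        induction x using Projectivization.ind with | h w hw =>
        rw [Projectivization.smul_mk, Projectivization.mk_eq_mk_iff'] at h5
        rw [Projectivization.submodule_mk, Submodule.mem_span_singleton] at hv ⊢
        obtain ⟨a, rfl⟩ := hv
        obtain ⟨b, h5⟩ := h5
        exact ⟨a * b, by rw [map_smul, mul_smul, h5, hR]; rfl⟩⟩
      have h5 := x.finrank_submodule
      rcases eq_bot_or_eq_top W with e | e
      · rw [show x.submodule = ⊥ from congrArg (·.toSubmodule) e, finrank_bot] at h5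
        omega
      · rw [show x.submodule = ⊤ from congrArg (·.toSubmodule) e, finrank_top,
          Module.finrank_fin_fun] at h5
        omega
    have h5 := hχ.isCharacter.comp K.subtype
    obtain ⟨θ, h6, h7⟩ := h5.isClassFunction.exists_irr_inner_ne_zero fun e =>
      hχ.apply_one_ne_zero (congrFun e 1)
    have h8 : charDegree θ < 2 := lt_of_le_of_ne (h2 ▸ h5.charDegree_le_of_constituent h6 h7)
      fun e => h4 (Cfsg.Lib.Induce.eq_of_constituent_of_apply_one_eq h5 h6 h7
        (hχ.apply_one_eq.trans (by rw [h6.apply_one_eq, e, h2])) ▸ h6)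
    have h9 := Nat.le_of_dvd two_pos h3
    refine hprim K (fun e => ?_) θ h6.isCharacter (eq_indFun_of_index_mul_le hχ K h6.isCharacter h7
      ((Nat.mul_le_mul h9 (Nat.lt_succ_iff.1 h8)).trans h2.ge))
    have := charDegree_le_index_mul hχ K h6.isCharacter h7
    rw [Subgroup.index_eq_one.2 e] at this
    omega
  have : Finite φ.range := .of_surjective _ φ.rangeRestrict_surjective
  rw [← hφ, Subgroup.index_ker]
  rcases dickson_regular φ.range (fun x => by_contra fun h => Nat.not_prime_zero
    (ringChar.eq_zero (R := ℂ) ▸ exists_char_of_inf_unip_ne_bot h)) with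
    ⟨x, h⟩ | ⟨x, y, -, h⟩ | ⟨⟨e⟩⟩ | ⟨⟨e⟩⟩ | ⟨⟨e⟩⟩
  · exact absurd (Subgroup.index_dvd_two_iff.2 ⟨1, fun b => .inr (h _ ⟨b, rfl⟩)⟩) (h3 x)
  · refine absurd (Subgroup.index_dvd_two_iff.2 ?_) (h3 x)
    by_cases h4 : ∀ a, φ a • x = x
    · exact ⟨1, fun b => .inr (h4 b)⟩
    obtain ⟨a, ha⟩ := not_forall.1 h4
    refine ⟨a, fun b => (h _ ⟨b, rfl⟩).symm.imp (fun hb => ?_) (·.1)⟩
    rw [Subgroup.mem_comap, mem_stabilizer_iff, map_mul, mul_smul,
      ((h _ ⟨a, rfl⟩).resolve_left fun e => ha e.1).1, hb.2]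
  · left
    rw [Nat.card_congr e.toEquiv, nat_card_alternatingGroup]
    simp [Nat.factorial]
  · right; left
    rw [Nat.card_congr e.toEquiv, Nat.card_perm]
    simp [Nat.factorial]
  · right; right
    rw [Nat.card_congr e.toEquiv, nat_card_alternatingGroup]
    simp [Nat.factorial]

end Cfsg.Agent.S4473
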