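import Cfsg.Statements.S4474
import Cfsg.Agent.Lib.CharDeg.RealRep

set_option autoImplicit false
open Cfsg

namespace Cfsg.Agent.S4474

open Cfsg.Lib.Char Cfsg.Lib.CharDeg in

/-- Let χ be an irreducible character of the finite group G. Then the Frobenius–Schur indicator of χ (the average over s ∈ G of χ(s²)) equals 1 if and only if χ is afforded by a real representation: there is a representation of G on a real coordinate space whose trace function, viewed in ℂ, is χ. -/
theorem result {G : Type*} [Group G] [Fintype G] (χ : Cfsg.IrrCharacter G) : ((Nat.card G : ℂ)⁻¹ * ∑ s : G, (χ : G → ℂ) (s * s)) = 1 ↔ ∃ (n : ℕ) (ρ : Representation ℝ G (Fin n → ℝ)), ∀ g : G, ((LinearMap.trace ℝ (Fin n → ℝ) (ρ g) : ℝ) : ℂ) = (χ : G → ℂ) g := by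
  rw [frobeniusSchur_eq_one_iff χ.2]
  constructor
  · rintro ⟨n, Y, hY⟩
    exact ⟨n, matRep Y, fun g => by rw [trace_matRep, hY]⟩
  · rintro ⟨n, ρ, h⟩
    exact ⟨n, repMat ρ, fun g => by rw [trace_repMat, h]⟩

end Cfsg.Agent.S4474
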