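import Cfsg.Statements.S4477
import Cfsg.Agent.Lib.CharDeg.FS
import Cfsg.Agent.Lib.PGroup.CyclicMax

set_option autoImplicit false
open Cfsg

namespace Cfsg.Agent.S4477

open Cfsg.Lib.Char Cfsg.Lib.CharDeg Cfsg.Lib.Core Cfsg.Lib Subgroup
open scoped ComplexConjugate

def powK (G : Type*) [Group G] (n : ℕ) : Subgroup (G →* ℂˣ) where
  carrier := {lam | lam ^ n = 1}
  mul_mem' := fun {a b} (ha : a ^ n = 1) (hb : b ^ n = 1) =>
    (mul_pow a b n).trans (by rw [ha, hb]; exact MonoidHom.ext fun g => by simp)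
  one_mem' := one_pow n
  inv_mem' := fun {a} (ha : a ^ n = 1) => MonoidHom.ext fun g => by
    have := DFunLike.congr_fun ha g
    simpa using this

theorem step {G : Type*} [Group G] [Finite G] (hG : IsPGroup 2 G) (hc : ¬ IsCyclic G) {z : G}
    (hz : z ∈ _root_.commutator G) (hz1 : z ∈ center G) (hz2 : z * z = 1) {m : ℤ}
    (h : (Nat.card {s : G // s * s = 1} : ℤ) - Nat.card {s : G // s * s = z} = 8 * m + 4) :
    (_root_.commutator G).index = 4 := by
  classical
  have := Fintype.ofFinite G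
  have := finite_hom_units G
  let q : IrrCharacter G → Prop := fun χ => charDegree (χ : G → ℂ) = 2 ∧
    (χ : G → ℂ) z ≠ (χ : G → ℂ) 1 ∧ ∀ g, ((χ : G → ℂ) g).im = 0
  have hlin : ∀ lam : G →* ℂˣ, lam z = 1 := fun lam =>
    Abelianization.commutator_subset_ker lam hz
  have h1 : ∀ χ : IrrCharacter G, ∃ k : ℤ,
      ((Nat.card G : ℂ)⁻¹ * ∑ s, (χ : G → ℂ) (s * s)) * conj ((χ : G → ℂ) 1) -
      ((Nat.card G : ℂ)⁻¹ * ∑ s, (χ : G → ℂ) (s * s)) * conj ((χ : G → ℂ) z) =
        (((if q χ then 4 else 0) + 8 * k : ℤ) : ℂ) := fun χ => by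
    by_cases h0 : (χ : G → ℂ) z = (χ : G → ℂ) 1
    · exact ⟨0, by simp [q, h0]⟩
    obtain ⟨ω, -, hω⟩ := mem_charCenter.1 (χ.2.center_le_charCenter hz1)
    have e1 := hω 1
    have e2 := hω z
    rw [mul_one] at e1
    rw [hz2, e1, ← mul_assoc] at e2
    have e3 : ω * ω = 1 := (mul_eq_right₀ χ.2.apply_one_ne_zero).1 e2.symm
    have e4 : ω = -1 := (mul_self_eq_one_iff.1 e3).resolve_left fun h => h0 (by rw [e1, h, one_mul])
    obtain ⟨ν, h2, h3⟩ := exists_int_frobeniusSchur χ.2
    obtain ⟨j, hj⟩ := exists_charDegree_eq_pow Nat.prime_two hG χ.2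
    have key : ((Nat.card G : ℂ)⁻¹ * ∑ s, (χ : G → ℂ) (s * s)) * conj ((χ : G → ℂ) 1) -
        ((Nat.card G : ℂ)⁻¹ * ∑ s, (χ : G → ℂ) (s * s)) * conj ((χ : G → ℂ) z) =
          ν * 2 * 2 ^ j := by
      rw [h2, e1, e4, χ.2.apply_one_eq, hj]
      simp [map_ofNat]; ring
    rw [key]
    rcases j with _ | _ | j
    · obtain ⟨lam, hl⟩ := χ.2.isCharacter.exists_hom_of_apply_one (by simp [χ.2.apply_one_eq, hj])
      exact absurd (by simp [hl, hlin]) h0
    · rcases h3 with ⟨⟨g, hg⟩, rfl⟩ | ⟨hg, rfl | rfl⟩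
      · exact ⟨0, by rw [if_neg fun h => hg (h.2.2 g)]; simp⟩
      · exact ⟨0, by rw [if_pos ⟨hj, h0, hg⟩]; norm_num⟩
      · exact ⟨-1, by rw [if_pos ⟨hj, h0, hg⟩]; norm_num⟩
    · refine ⟨ν * 2 ^ j, ?_⟩
      rw [if_neg fun h => by have := h.1; rw [hj, pow_succ, pow_succ] at this; omega]
      push_cast; ring
  choose k hk using h1
  have h2 : (Nat.card {s : G // s * s = 1} : ℤ) - Nat.card {s : G // s * s = z} =
      ∑ χ, ((if q χ then 4 else 0) + 8 * k χ : ℤ) := by
    have : (Nat.card {s : G // s * s = 1} : ℂ) - Nat.card {s : G // s * s = z} =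
        ∑ χ, (((if q χ then 4 else 0) + 8 * k χ : ℤ) : ℂ) := by
      rw [card_sq_eq_sum_irr, card_sq_eq_sum_irr, ← Finset.sum_sub_distrib]
      exact Finset.sum_congr rfl fun χ _ => hk χ
    exact_mod_cast this
  rw [Finset.sum_add_distrib, ← Finset.mul_sum, ← Finset.sum_filter, Finset.sum_const,
    ← Fintype.card_subtype, ← Nat.card_eq_fintype_card, h, nsmul_eq_mul] at h2
  have h3 : Nat.card {χ // q χ} % 2 = 1 := by omega
  have hL : IsPGroup 2 (G →* ℂˣ) := fun lam => by
    obtain ⟨n, hn⟩ := hG.exists_card_eq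
    exact ⟨n, MonoidHom.ext fun g => by
      rw [MonoidHom.pow_apply, ← map_pow, ← hn, pow_card_eq_one', map_one, MonoidHom.one_apply]⟩
  have hq : ∀ (lam : G →* ℂˣ) (χ : IrrCharacter G), q χ →
      (∀ g, (χ : G → ℂ) g ≠ 0 → lam g ^ 2 = 1) → q (linPerm G lam χ) := fun lam χ hχ hl => by
    refine ⟨(charDegree_linPerm _ _).trans hχ.1, by simpa [linPerm_apply, hlin] using hχ.2.1,
      fun g => ?_⟩
    rw [linPerm_apply]
    by_cases h0 : (χ : G → ℂ) g = 0
    · simp [h0]
    have : (lam g : ℂ) * lam g = 1 := by rw [← Units.val_mul, ← sq, hl g h0, Units.val_one]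
    rcases mul_self_eq_one_iff.1 this with h | h <;> simp [h, hχ.2.2 g]
  let C₂ := powK G 2
  let C₄ := powK G 4
  have h4 := card_modEq_card_fixed (hL.to_subgroup C₂) ((linPerm G).comp C₂.subtype) q
    fun s χ hχ => hq s χ hχ fun g _ => DFunLike.congr_fun s.2 g
  have h5 := card_modEq_card_fixed (hL.to_subgroup C₄) ((linPerm G).comp C₄.subtype)
    (fun χ => q χ ∧ ∀ s, (linPerm G).comp C₂.subtype s χ = χ) fun s χ hχ => by
      refine ⟨hq s χ hχ.1 fun g hg => ?_, fun u => ?_⟩
      · have e : ((s : G →* ℂˣ) ^ 2) ^ 2 = 1 := by rw [← pow_mul]; exact s.2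
        have := (linPerm_eq_iff _ _).1 (hχ.2 ⟨s ^ 2, e⟩) g
        exact Units.ext ((mul_eq_right₀ hg).1 this)
      · change linPerm G u (linPerm G s χ) = linPerm G s χ
        have : linPerm G u χ = χ := hχ.2 u
        conv_rhs => rw [← this]
        exact Subtype.ext (funext fun g => by simp only [linPerm_apply]; ring)
  have h6 := h4.trans h5
  rw [Nat.ModEq, h3] at h6
  obtain ⟨⟨χ, ⟨hχ, -⟩, h7⟩⟩ := (Nat.card_pos_iff.1 (Nat.pos_of_ne_zero fun h => by
    rw [h] at h6; omega)).1
  have h8 := card_fixing_le_sq χ.2 (fun lam => lam ∈ C₄) fun lam hl =>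
    (linPerm_eq_iff _ _).1 (h7 ⟨lam, hl⟩)
  rw [hχ.1] at h8
  have h9 : 4 ≤ Nat.card C₂ := card_hom_sq_eq_one hG hc
  have h10 : C₂ ≤ C₄ := fun lam hl => by
    have e : lam ^ 2 = 1 := hl
    change lam ^ (2 * 2) = 1
    rw [pow_mul, e]; exact MonoidHom.ext fun g => by simp
  have h11 : C₂ = C₄ := eq_of_le_of_card_ge h10 (le_trans h8 h9)
  have h12 : C₂ = ⊤ := by
    have e : ∀ (n : ℕ) (lam : G →* ℂˣ), lam ^ 2 ^ (n + 1) = 1 → lam ∈ C₂ := by
      intro n
      induction n with
      | zero => exact fun lam h => h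
      | succ n ih =>
        intro lam h
        have : lam ^ 2 ∈ C₂ := ih _ (by rw [← pow_mul, ← pow_succ', h])
        rw [h11]
        change lam ^ (2 * 2) = 1
        rw [pow_mul]
        exact this
    refine eq_top_iff.2 fun lam _ => ?_
    obtain ⟨n, hn⟩ := hL lam
    exact e n lam (by rw [pow_succ, pow_mul, hn, one_pow])
  rw [← card_hom_units, ← card_top, ← h12]
  exact le_antisymm (h11 ▸ h8) h9

universe u in
theorem main (G : Type u) [Group G] [Finite G] : IsPGroup 2 G →
    Nat.card {x : G // orderOf x = 2} % 4 = 1 → IsCyclic G ∨ (_root_.commutator G).index = 4 := by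
  refine induction_on_card (P := fun G _ _ => IsPGroup 2 G →
    Nat.card {x : G // orderOf x = 2} % 4 = 1 → IsCyclic G ∨ (_root_.commutator G).index = 4) G ?_
  intro G _ _ ih hG ht
  by_cases hc : IsCyclic G
  · exact Or.inl hc
  right
  by_cases h0 : _root_.commutator G = ⊥
  · exfalso
    have hcomm : ∀ a b : G, a * b = b * a := fun a b =>
      commutatorElement_eq_one_iff_mul_comm.1 (mem_bot.1 (h0 ▸
        commutator_mem_commutator (mem_top a) (mem_top b)))
    letI : CommGroup G := { ‹Group G› with mul_comm := hcomm }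
    have h1 : Nat.card (powMonoidHom 2 : G →* G).ker = Nat.card {x : G // orderOf x = 2} + 1 := by
      rw [← card_mul_self_eq_one]
      exact Cfsg.Lib.Inv.card_subtype_congr fun a => by simp [sq]
    obtain ⟨n, hn⟩ := (hG.to_subgroup (powMonoidHom 2 : G →* G).ker).exists_card_eq
    have h2 := PGroup.sq_le_index_frattini hG hc
    have h3 : (powMonoidHom 2 : G →* G).range ≤ frattini G := by
      rintro _ ⟨x, rfl⟩
      exact PGroup.pow_mem_frattini hG x
    have h4 := Nat.le_of_dvd (Nat.pos_of_ne_zero index_ne_zero_of_finite) (index_dvd_of_le h3)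
    rw [index_range, hn] at h4
    rw [hn] at h1
    rcases n with _ | _ | n
    · omega
    · omega
    · rw [pow_succ, pow_succ] at h1; omega
  obtain ⟨z, hz, hz1, hz2⟩ := PGroup.exists_mem_center_orderOf_eq hG _ h0
  have hZ : zpowers z ≤ center G := zpowers_le.2 hz1
  haveI : (zpowers z).Normal := ⟨fun n hn g => by
    rw [mem_center_iff.1 (hZ hn) g, mul_inv_cancel_right]; exact hn⟩
  have hz0 : z ≠ 1 := fun h => by simp [h] at hz2
  have hnc : ¬ IsCyclic (G ⧸ zpowers z) := fun h => h0 (by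
    have := commutative_of_cyclic_center_quotient (QuotientGroup.mk' (zpowers z))
      (by rw [QuotientGroup.ker_mk']; exact hZ)
    rw [eq_bot_iff, _root_.commutator_def, commutator_le]
    exact fun a _ b _ => commutatorElement_eq_one_iff_mul_comm.2 (this a b))
  by_cases h1 : Nat.card {x : G ⧸ zpowers z // orderOf x = 2} % 4 = 1
  · have := (ih _ (card_quotient_lt (by simpa using hz0)) (hG.to_quotient _) h1).resolve_left hnc
    rw [← this, _root_.commutator_def (G ⧸ zpowers z),
      ← map_top_of_surjective _ (QuotientGroup.mk'_surjective _), ← map_commutator,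
      index_map_eq _ (QuotientGroup.mk'_surjective _) (by simpa [← _root_.commutator_def] using hz)]
    rfl
  have h2 : Even (Nat.card (G ⧸ zpowers z)) := by
    obtain ⟨n, hn⟩ := (hG.to_quotient (zpowers z)).exists_card_eq
    rcases n with _ | n
    · rw [pow_zero, Nat.card_eq_one_iff_unique] at hn
      exact absurd (@isCyclic_of_subsingleton _ _ hn.1) hnc
    · rw [hn, pow_succ]; simp
  have h3 := Nat.odd_iff.1 (Cfsg.Lib.Inv.odd_card_involutions h2)
  have hzz : z * z = 1 := by rw [← sq, ← hz2, pow_orderOf_eq_one]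
  have h4 := QuotientGroup.card_preimage_mk (zpowers z) {x | x * x = 1}
  rw [Nat.card_zpowers, hz2] at h4
  have h5 : Nat.card ((QuotientGroup.mk : G → G ⧸ zpowers z) ⁻¹' {x | x * x = 1}) =
      Nat.card {s : G // s * s = 1} + Nat.card {s : G // s * s = z} := by
    rw [← Cfsg.Lib.Inv.card_subtype_or fun a h1 h2 => hz0 (h2.symm.trans h1)]
    refine Cfsg.Lib.Inv.card_subtype_congr fun a => ?_
    rw [Set.mem_preimage, Set.mem_setOf_eq, ← QuotientGroup.mk_mul, QuotientGroup.eq_one_iff]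
    constructor
    · intro h
      obtain ⟨k, hk⟩ := mem_zpowers_iff.1 h
      rcases PGroup.zpow_eq_one_or_self_of_sq (z := z) (by rw [sq, hzz]) k with ⟨-, h⟩ | ⟨-, h⟩
      · exact Or.inl (hk ▸ h)
      · exact Or.inr (hk ▸ h)
    · rintro (h | h) <;> simp [h]
  have h6 := card_mul_self_eq_one (G := G ⧸ zpowers z)
  have h7 := card_mul_self_eq_one (G := G)
  change _ = 2 * Nat.card {x : G ⧸ zpowers z // x * x = 1} at h4
  exact step hG hc hz hz1 hzz (m := ((Nat.card {s : G // s * s = 1} : ℤ) -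
    Nat.card {s : G // s * s = z} - 4) / 8) (by omega)

/-- Let G be a finite 2-group whose number of involutions is congruent to 1 modulo 4. Then G is cyclic or its commutator subgroup has index 4. -/
theorem result {G : Type*} [Group G] [Finite G] (hG : IsPGroup 2 G) (ht : Nat.card {x : G // orderOf x = 2} % 4 = 1) : IsCyclic G ∨ (commutator G).index = 4 := by
  exact main G hG ht

end Cfsg.Agent.S4477
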