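import Cfsg.Statements.S4478
import Cfsg.Agent.Lib.CharDeg.FS

set_option autoImplicit false
open Cfsg

namespace Cfsg.Agent.S4478

open Cfsg.Lib.Char Cfsg.Lib.CharDeg in

/-- Let G be a finite group of even order and χ an irreducible character of G whose degree x is divisible by the full power of 2 dividing the order of G and, for every odd prime p such that G has an element of order 2p, by the full power of p dividing the order of G. Then all involutions of G are conjugate, the centralizer of every involution has order exactly x with x coprime to its index, and the Frobenius–Schur indicator of χ equals 1. -/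
theorem result {G : Type*} [Group G] [Fintype G] (heven : Even (Nat.card G)) (χ : Cfsg.IrrCharacter G) (h2 : 2 ^ (Nat.card G).factorization 2 ∣ Cfsg.charDegree (χ : G → ℂ)) (hp : ∀ p : ℕ, p.Prime → p ≠ 2 → (∃ g : G, orderOf g = 2 * p) → p ^ (Nat.card G).factorization p ∣ Cfsg.charDegree (χ : G → ℂ)) : (∀ s t : G, orderOf s = 2 → orderOf t = 2 → IsConj s t) ∧ (∀ s : G, orderOf s = 2 → Nat.card (Subgroup.centralizer ({s} : Set G)) = Cfsg.charDegree (χ : G → ℂ) ∧ (Nat.card (Subgroup.centralizer ({s} : Set G))).Coprime (Subgroup.centralizer ({s} : Set G)).index) ∧ (Nat.card G : ℂ)⁻¹ * ∑ g : G, (χ : G → ℂ) (g * g) = 1 := by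
  classical
  have hG : Nat.card G ≠ 0 := Nat.card_pos.ne'
  have h1 : (χ : G → ℂ) ≠ fun _ => 1 := fun h => by
    rw [h, charDegree_one, Nat.dvd_one, Nat.pow_eq_one] at h2
    have := Nat.prime_two.factorization_pos_of_dvd hG (even_iff_two_dvd.1 heven)
    omega
  have h3 := sum_sq_of_defect χ.2 h1
    (fun g hg => χ.2.apply_eq_zero_of_defect_zero Nat.prime_two h2 hg)
    (fun p h4 h5 h6 g hg => χ.2.apply_eq_zero_of_defect_zero h4 (hp p h4 h5 h6) hg)
  have h0 := (Cfsg.Lib.Inv.odd_card_involutions heven).pos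
  set t := Nat.card {x : G // orderOf x = 2} with ht
  set d := charDegree (χ : G → ℂ) with hd
  have hd0 : 0 < d := χ.2.charDegree_pos
  obtain ⟨ν, h4, h5⟩ := exists_int_frobeniusSchur χ.2
  have h6 : (Nat.card G : ℤ) * ν = t * d := by
    have : (Nat.card G : ℂ) * ν = t * d := by
      rw [← h4, h3, χ.2.apply_one_eq, mul_inv_cancel_left₀ (card_ne_zero_complex G)]
    exact_mod_cast this
  have h7 : ν = 1 := by
    have : (0 : ℤ) < t * d := by positivity
    rcases h5 with ⟨-, h⟩ | ⟨-, h | h⟩
    · simp [h] at h6; omega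
    · exact h
    · rw [h] at h6; omega
  rw [h7, mul_one] at h6
  have h8 : Nat.card G = t * d := by exact_mod_cast h6
  have h9 : ∀ s : G, orderOf s = 2 → ∀ p : ℕ, p.Prime →
      p ∣ Nat.card (Subgroup.centralizer ({s} : Set G)) →
      p ^ (Nat.card G).factorization p ∣ d := fun s hs p h10 h11 => by
    by_cases h12 : p = 2
    · exact h12 ▸ h2
    haveI := Fact.mk h10
    obtain ⟨x, hx⟩ := exists_prime_orderOf_dvd_card' p h11
    refine hp p h10 h12 ⟨s * x, ?_⟩
    have hc : Commute s x := (Subgroup.mem_centralizer_singleton_iff.1 x.2).symm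
    rw [hc.orderOf_mul_eq_mul_orderOf_of_coprime, hs, Subgroup.orderOf_coe, hx]
    rw [hs, Subgroup.orderOf_coe, hx]
    exact (Nat.coprime_primes Nat.prime_two h10).2 (Ne.symm h12)
  have h10 : ∀ s : G, orderOf s = 2 → Nat.card (Subgroup.centralizer ({s} : Set G)) ∣ d := by
    intro s hs
    rw [Nat.dvd_iff_prime_pow_dvd_dvd]
    intro p k h11 h12
    rcases k with _ | k
    · simp
    refine dvd_trans (pow_dvd_pow p ?_) (h9 s hs p h11 ((dvd_pow_self p k.succ_ne_zero).trans h12))
    exact (h11.pow_dvd_iff_le_factorization hG).1 (h12.trans (Subgroup.card_subgroup_dvd_card _))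
  have h11 : ∀ s : G, orderOf s = 2 → Nat.card {y : G // IsConj s y} ≤ t := fun s hs =>
    Cfsg.Lib.Inv.card_subtype_mono fun y hy => by
      obtain ⟨c, rfl⟩ := isConj_iff.1 hy
      rw [← hs]
      exact (MulAut.conj c).orderOf_eq s
  have h12 : ∀ s : G, orderOf s = 2 → Nat.card {y : G // IsConj s y} = t ∧
      Nat.card (Subgroup.centralizer ({s} : Set G)) = d := fun s hs => by
    have e := Cfsg.Lib.Inv.card_class_mul_card_centralizer s
    have e1 := Nat.le_of_dvd hd0 (h10 s hs)
    have e2 := h11 s hs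
    rw [h8] at e
    constructor <;> nlinarith
  refine ⟨fun s u hs hu => ?_, fun s hs => ⟨(h12 s hs).2, ?_⟩, by rw [h4, h7]; simp⟩
  · let f : {y : G // IsConj s y} → {x : G // orderOf x = 2} := fun y => ⟨y.1, by
      obtain ⟨c, hc⟩ := isConj_iff.1 y.2
      rw [← hc, ← hs]
      exact (MulAut.conj c).orderOf_eq s⟩
    have hf : Function.Injective f := fun a b h =>
      Subtype.ext (congrArg (Subtype.val : {x : G // orderOf x = 2} → G) h)
    obtain ⟨y, hy⟩ := (hf.bijective_of_nat_card_le (h12 s hs).1.ge).2 ⟨u, hu⟩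
    have e : y.1 = u := congrArg (Subtype.val : {x : G // orderOf x = 2} → G) hy
    exact e ▸ y.2
  · refine Nat.coprime_of_dvd fun p h13 h14 h15 => ?_
    have e := h9 s hs p h13 h14
    rw [← (h12 s hs).2] at e
    have e2 := Nat.mul_dvd_mul e h15
    rw [Subgroup.card_mul_index, ← pow_succ] at e2
    exact Nat.pow_succ_factorization_not_dvd hG h13 e2

end Cfsg.Agent.S4478
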