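import Cfsg.Statements.S4479
import Cfsg.Agent.Lib.Modular.KleinOrder

set_option autoImplicit false
open Cfsg

namespace Cfsg.Agent.S4479

open Cfsg.Lib.Block Cfsg.Lib.Char Cfsg.Lib.Modular Cfsg.Lib.Inv
open scoped ComplexConjugate

/-- An order formula from the principal 2-block. Let G be a finite group of order 4·g₀ with g₀ odd having no normal 2-complement (no normal subgroup of order g₀); let P be a Sylow 2-subgroup, J an involution of P, and fix a maximal ideal M of the algebraic integers containing 2. Suppose the principal 2-block consists of the principal character and three further distinct characters χ₁, χ₂, χ₃ of degrees x₁, x₂, x₃, with χ_i(J) = ε_i = ±1. Then, writing c(J) and c(P) for the orders of the centralizers of J and of P, the order of G equals 8·α·c(J)³/c(P)² with α = x₁x₂x₃ / ((x₁ + ε₁)(x₂ + ε₂)(x₃ + ε₃)). -/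
theorem result {G : Type*} [Group G] [Finite G] (M : Ideal Cfsg.AlgInt) (hM : Cfsg.IsPModular 2 M) (g₀ : ℕ) (hg₀ : Odd g₀) (hG : Nat.card G = 4 * g₀) (hnc : ¬ ∃ N : Subgroup G, N.Normal ∧ Nat.card N = g₀) (P : Sylow 2 G) (J : G) (hJ : J ∈ (P : Subgroup G)) (hJ2 : orderOf J = 2) (χ₁ χ₂ χ₃ : Cfsg.IrrCharacter G) (ε₁ ε₂ ε₃ : ℤ) (hB : Cfsg.principalBlock M G = {χ : Cfsg.IrrCharacter G | (χ : G → ℂ) = (fun _ => 1) ∨ χ = χ₁ ∨ χ = χ₂ ∨ χ = χ₃}) (hdist : (χ₁ : G → ℂ) ≠ (fun _ => 1) ∧ (χ₂ : G → ℂ) ≠ (fun _ => 1) ∧ (χ₃ : G → ℂ) ≠ (fun _ => 1) ∧ χ₁ ≠ χ₂ ∧ χ₁ ≠ χ₃ ∧ χ₂ ≠ χ₃) (hε : (ε₁ = 1 ∨ ε₁ = -1) ∧ (ε₂ = 1 ∨ ε₂ = -1) ∧ (ε₃ = 1 ∨ ε₃ = -1)) (hval : (χ₁ : G → ℂ) J = ε₁ ∧ (χ₂ : G → ℂ) J = ε₂ ∧ (χ₃ : G → ℂ) J = ε₃) : (Nat.card G : ℚ) = 8 * (((Cfsg.charDegree (χ₁ : G → ℂ) : ℚ) * Cfsg.charDegree (χ₂ : G → ℂ) * Cfsg.charDegree (χ₃ : G → ℂ)) / ((Cfsg.charDegree (χ₁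 : G → ℂ) + ε₁) * (Cfsg.charDegree (χ₂ : G → ℂ) + ε₂) * (Cfsg.charDegree (χ₃ : G → ℂ) + ε₃))) * (Nat.card (Subgroup.centralizer ({J} : Set G)) : ℚ) ^ 3 / (Nat.card (Subgroup.centralizer ((P : Subgroup G) : Set G)) : ℚ) ^ 2 := by
  classical
  obtain ⟨hP, hn⟩ := isKleinFour_of_card hg₀ hG hnc P
  obtain ⟨n1, n2, n3, n4, n5, n6⟩ := hdist
  have hne : ∀ χ : IrrCharacter G, (χ : G → ℂ) = (fun _ => 1) ↔ χ = irrOne G := fun χ =>
    ⟨fun e => Subtype.ext e, fun e => e ▸ rfl⟩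
  rw [Ne, hne] at n1 n2 n3
  have hinj : Function.Injective ![irrOne G, χ₁, χ₂, χ₃] := by
    intro i j
    fin_cases i <;> fin_cases j <;>
      simp [n1, n2, n3, n4, n5, n6, Ne.symm n1, Ne.symm n2, Ne.symm n3, n4.symm, n5.symm, n6.symm]
  have hB' : ∀ ψ, ψ ∈ principalBlock M G ↔ ∃ i, ![irrOne G, χ₁, χ₂, χ₃] i = ψ := fun ψ => by
    rw [hB, Set.mem_ofPred, hne]
    simp [Fin.exists_fin_succ, eq_comm]
  obtain ⟨e1, e2⟩ := kleinFour_order_formula hM hP hn hJ hJ2 hinj hB' (ε := ![1, ε₁, ε₂, ε₃])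
    (fun i => by fin_cases i <;> simp [hε.1, hε.2.1, hε.2.2])
    (fun i => by fin_cases i <;> simp [hval.1, hval.2.1, hval.2.2])
  have d1 : charDegree (irrOne G : G → ℂ) = 1 := charDegree_eq_of_apply_one (by simp)
  simp only [Fin.sum_univ_four, Matrix.cons_val, d1] at e1 e2
  have p1 := χ₁.2.charDegree_pos
  have p2 := χ₂.2.charDegree_pos
  have p3 := χ₃.2.charDegree_pos
  have pc := Nat.card_pos (α := Subgroup.centralizer ({J} : Set G))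
  have pP := Nat.card_pos (α := Subgroup.centralizer ((P : Subgroup G) : Set G))
  set x₁ := charDegree (χ₁ : G → ℂ)
  set x₂ := charDegree (χ₂ : G → ℂ)
  set x₃ := charDegree (χ₃ : G → ℂ)
  have e1' : (1 : ℚ) + ε₁ * x₁ + ε₂ * x₂ + ε₃ * x₃ = 0 := by exact_mod_cast e1
  have q1 : (ε₁ : ℚ) * ε₁ = 1 := by rcases hε.1 with rfl | rfl <;> simp
  have q2 : (ε₂ : ℚ) * ε₂ = 1 := by rcases hε.2.1 with rfl | rfl <;> simp
  have q3 : (ε₃ : ℚ) * ε₃ = 1 := by rcases hε.2.2 with rfl | rfl <;> simp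
  have r1 : (1 : ℚ) / (ε₁ * x₁) = ε₁ / x₁ := by
    rcases hε.1 with rfl | rfl <;> simp [neg_div]
  have r2 : (1 : ℚ) / (ε₂ * x₂) = ε₂ / x₂ := by
    rcases hε.2.1 with rfl | rfl <;> simp [neg_div]
  have r3 : (1 : ℚ) / (ε₃ * x₃) = ε₃ / x₃ := by
    rcases hε.2.2 with rfl | rfl <;> simp [neg_div]
  have key : ((x₁ : ℚ) + ε₁) * (x₂ + ε₂) * (x₃ + ε₃) =
      x₁ * x₂ * x₃ * (1 + ε₁ / x₁ + ε₂ / x₂ + ε₃ / x₃) := by
    field_simp
    linear_combination ε₁ * ε₂ * ε₃ * e1' - ε₂ * ε₃ * x₁ * q1 - ε₁ * ε₃ * x₂ * q2 -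
      ε₁ * ε₂ * x₃ * q3
  rw [r1, r2, r3] at e2
  push_cast at e2
  simp only [mul_one, div_one] at e2
  have h0 : (1 : ℚ) + ε₁ / x₁ + ε₂ / x₂ + ε₃ / x₃ ≠ 0 := fun e => by
    rw [e, mul_zero] at e2
    exact absurd e2 (ne_of_lt (by positivity))
  rw [key, div_mul_cancel_left₀ (by positivity), mul_right_comm, mul_div_right_comm, ← e2,
    mul_inv_cancel_right₀ h0]

end Cfsg.Agent.S4479
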