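import Cfsg.Statements.S4480
import Cfsg.Agent.Lib.Modular.KleinOrder

set_option autoImplicit false
open Cfsg

namespace Cfsg.Agent.S4480

open Cfsg.Lib.Block Cfsg.Lib.Char Cfsg.Lib.Modular Cfsg.Lib.Inv
open scoped ComplexConjugate

/-- Same setting as the Klein-four order formula: G of order 4·g₀ (g₀ odd) with no normal 2-complement, P a Sylow 2-subgroup, J an involution of P, M over 2, principal 2-block {1, χ₁, χ₂, χ₃} with χ_i(J) = ε_i = ±1. Suppose ε₁ε₂ε₃ = −1 and ε₃ = −1, and put q = x₃ = χ₃(1). Then there is a natural number m with 4·c(J) = m·c(P)·(q + 1), and the order of G equals (m³·c(P)/4)·(q³ − q)/2, that is 8·#G = m³·c(P)·(q³ − q). -/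
theorem result {G : Type*} [Group G] [Finite G] (M : Ideal Cfsg.AlgInt) (hM : Cfsg.IsPModular 2 M) (g₀ : ℕ) (hg₀ : Odd g₀) (hG : Nat.card G = 4 * g₀) (hnc : ¬ ∃ N : Subgroup G, N.Normal ∧ Nat.card N = g₀) (P : Sylow 2 G) (J : G) (hJ : J ∈ (P : Subgroup G)) (hJ2 : orderOf J = 2) (χ₁ χ₂ χ₃ : Cfsg.IrrCharacter G) (ε₁ ε₂ ε₃ : ℤ) (hB : Cfsg.principalBlock M G = {χ : Cfsg.IrrCharacter G | (χ : G → ℂ) = (fun _ => 1) ∨ χ = χ₁ ∨ χ = χ₂ ∨ χ = χ₃}) (hdist : (χ₁ : G → ℂ) ≠ (fun _ => 1) ∧ (χ₂ : G → ℂ) ≠ (fun _ => 1) ∧ (χ₃ : G → ℂ) ≠ (fun _ => 1) ∧ χ₁ ≠ χ₂ ∧ χ₁ ≠ χ₃ ∧ χ₂ ≠ χ₃) (hε : (ε₁ = 1 ∨ ε₁ = -1) ∧ (ε₂ = 1 ∨ ε₂ = -1) ∧ (ε₃ = 1 ∨ ε₃ = -1)) (hval : (χ₁ : G → ℂ) J = ε₁ ∧ (χ₂ : G → ℂ) J = ε₂ ∧ (χ₃ : G → ℂ) J = ε₃) (hprod : ε₁ * ε₂ * ε₃ = -1) (hε₃ : ε₃ = -1) : ∃ m : ℕ, 4 * Nat.card (Subgroup.centralizer ({J} : Set G)) = m * Nat.card (Subgroup.centralizer ((P : Subgroup G) : Set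 G)) * (Cfsg.charDegree (χ₃ : G → ℂ) + 1) ∧ 8 * Nat.card G = m ^ 3 * Nat.card (Subgroup.centralizer ((P : Subgroup G) : Set G)) * (Cfsg.charDegree (χ₃ : G → ℂ) ^ 3 - Cfsg.charDegree (χ₃ : G → ℂ)) := by
  classical
  obtain ⟨hP, hn⟩ := isKleinFour_of_card hg₀ hG hnc P
  obtain ⟨n1, n2, n3, n4, n5, n6⟩ := hdist
  have hne : ∀ χ : IrrCharacter G, (χ : G → ℂ) = (fun _ => 1) ↔ χ = irrOne G := fun χ =>
    ⟨fun e => Subtype.ext e, fun e => e ▸ rfl⟩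
  rw [Ne, hne] at n1 n2 n3
  have hinj : Function.Injective ![irrOne G, χ₁, χ₂, χ₃] := by
    intro i j
    fin_cases i <;> fin_cases j <;>
      simp [n1, n2, n3, n4, n5, n6, Ne.symm n1, Ne.symm n2, Ne.symm n3, n4.symm, n5.symm, n6.symm]
  have hB' : ∀ ψ, ψ ∈ principalBlock M G ↔ ∃ i, ![irrOne G, χ₁, χ₂, χ₃] i = ψ := fun ψ => by
    rw [hB, Set.mem_ofPred, hne]
    simp [Fin.exists_fin_succ, eq_comm]
  obtain ⟨e1, e2⟩ := kleinFour_order_formula hM hP hn hJ hJ2 hinj hB' (ε := ![1, ε₁, ε₂, ε₃])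
    (fun i => by fin_cases i <;> simp [hε.1, hε.2.1, hε.2.2])
    (fun i => by fin_cases i <;> simp [hval.1, hval.2.1, hval.2.2])
  have d1 : charDegree (irrOne G : G → ℂ) = 1 := charDegree_eq_of_apply_one (by simp)
  simp only [Fin.sum_univ_four, Matrix.cons_val, d1] at e1 e2
  have p1 := χ₁.2.charDegree_pos
  have p2 := χ₂.2.charDegree_pos
  have p3 := χ₃.2.charDegree_pos
  have pc := Nat.card_pos (α := Subgroup.centralizer ({J} : Set G))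
  have pP := Nat.card_pos (α := Subgroup.centralizer ((P : Subgroup G) : Set G))
  have := Fintype.ofFinite G
  subst hε₃
  obtain ⟨rfl, rfl⟩ : ε₁ = 1 ∧ ε₂ = 1 := by
    rcases hε.1 with rfl | rfl <;> rcases hε.2.1 with rfl | rfl <;> omega
  have e3 := kleinFour_sum_frobeniusSchur hM hP hJ2 hinj hB'
  have hν : ∀ χ : IrrCharacter G, (χ : G → ℂ) J = 1 ∨ (χ : G → ℂ) J = -1 → ∃ ν : ℤ,
      (Nat.card G : ℂ)⁻¹ * ∑ s, (χ : G → ℂ) (s * s) = ν ∧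
        (ν = 1 ∨ ν = 0 ∧ ∃ g, ((χ : G → ℂ) g).im ≠ 0) := fun χ hχ => by
    obtain ⟨ν, h1, h2 | ⟨-, h2 | rfl⟩⟩ := Lib.CharDeg.exists_int_frobeniusSchur χ.2
    · exact ⟨ν, h1, Or.inr h2.symm⟩
    · exact ⟨ν, h1, Or.inl h2⟩
    obtain ⟨k, hk⟩ := even_charDegree_of_frobeniusSchur χ.2 (by simpa using h1)
    obtain ⟨n, h3, h4⟩ := exists_int_apply_of_sq_eq_one χ.2.isCharacter (u := J)
      (hJ2 ▸ pow_orderOf_eq_one J)
    rw [h3] at hχ
    have : n = 1 ∨ n = -1 := by exact_mod_cast hχ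
    omega
  obtain ⟨v1, v2, v3⟩ := hval
  push_cast at v1 v2 v3
  obtain ⟨ν₁, a1, b1⟩ := hν χ₁ (Or.inl v1)
  obtain ⟨ν₂, a2, b2⟩ := hν χ₂ (Or.inl v2)
  obtain ⟨ν₃, a3, b3⟩ := hν χ₃ (Or.inr v3)
  have a0 : (Nat.card G : ℂ)⁻¹ * ∑ s, (irrOne G : G → ℂ) (s * s) = 1 := by
    show _ * ∑ _s : G, (1 : ℂ) = 1
    simp
  simp only [Fin.sum_univ_four, Matrix.cons_val, a0, a1, a2, a3, v1, v2, v3,
    show (irrOne G : G → ℂ) J = 1 from rfl] at e3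
  have e4 : 1 * 1 + ν₁ * 1 + ν₂ * 1 + ν₃ * -1 = 0 := by exact_mod_cast e3
  obtain ⟨-, g, hg⟩ := b1.resolve_left (by omega)
  have hx : charDegree (χ₂ : G → ℂ) = charDegree (χ₁ : G → ℂ) := by
    obtain ⟨i, hi⟩ := (hB' _).1 (conj_mem_principalBlock ((hB' χ₁).2 ⟨1, rfl⟩))
    have hi' := congrFun (congrArg Subtype.val hi)
    fin_cases i
    · refine absurd (Subtype.ext (funext fun g => ?_)) n1
      have := congrArg conj (hi' g)
      simp only [Complex.conj_conj] at this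
      rw [← this]; exact map_one _
    · exact absurd (Complex.conj_eq_iff_im.1 (hi' g).symm) hg
    · exact charDegree_eq_of_apply_one ((hi' 1).trans (by
        simp only [χ₁.2.apply_one_eq, map_natCast]))
    · have := hi' J
      simp [v1, v3] at this
      norm_num at this
  obtain ⟨k, hk⟩ := int_dvd_charDegree_sub_of_const χ₁.2.isCharacter (P : Subgroup G) (c := 1)
    fun g hg hg1 => by
      rw [χ₁.2.isClassFunction.eq_of_isConj (k4_sylow_isConj P hP hn (k4_orderOf hP hg hg1) hJ2),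
        v1, Int.cast_one]
  rw [hP.card_four] at hk
  rw [hx] at e1 e2
  obtain ⟨r, hr⟩ : Nat.card (Subgroup.centralizer ((P : Subgroup G) : Set G)) ∣
      Nat.card (Subgroup.centralizer ({J} : Set G)) :=
    Subgroup.card_dvd_of_le (Subgroup.centralizer_le (Set.singleton_subset_iff.2 hJ))
  have hi := (Subgroup.centralizer ({J} : Set G)).card_mul_index
  set i := (Subgroup.centralizer ({J} : Set G)).index
  obtain ⟨l, hl⟩ : ∃ l, charDegree (χ₁ : G → ℂ) = 2 * l + 1 := ⟨k.toNat * 2, by omega⟩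
  have h3 : charDegree (χ₃ : G → ℂ) = 4 * l + 3 := by omega
  rw [h3, hl, ← hi, hr] at e2
  rw [h3, ← hi, hr]
  set c := Nat.card (Subgroup.centralizer ((P : Subgroup G) : Set G))
  have hr0 : 0 < r := Nat.pos_of_mul_pos_left (hr ▸ pc)
  have e5 : i * (l + 1) ^ 2 = r ^ 2 * ((2 * l + 1) * (4 * l + 3)) := by
    have : (i : ℚ) * (l + 1) ^ 2 = r ^ 2 * ((2 * l + 1) * (4 * l + 3)) := by
      push_cast at e2
      field_simp at e2
      linear_combination e2 / 8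
    exact_mod_cast this
  have c1 : Nat.Coprime (l + 1) ((2 * l + 1) * (4 * l + 3)) := by
    refine Nat.Coprime.mul_right ?_ ?_
    · rw [show 2 * l + 1 = l + (l + 1) by ring]; simp
    · rw [show 4 * l + 3 = l + (l + 1) * 3 by ring]; simp
  obtain ⟨m, rfl⟩ : l + 1 ∣ r := (Nat.pow_dvd_pow_iff two_ne_zero).1
    ((c1.pow_left 2).dvd_of_dvd_mul_right (e5 ▸ Dvd.intro_left _ rfl))
  refine ⟨m, by ring, ?_⟩
  have e6 : i = m ^ 2 * ((2 * l + 1) * (4 * l + 3)) :=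
    Nat.eq_of_mul_eq_mul_right (by positivity : 0 < (l + 1) ^ 2) (by rw [e5]; ring)
  rw [e6, show (4 * l + 3) ^ 3 - (4 * l + 3) = (4 * l + 3) * (4 * l + 2) * (4 * l + 4) from
    Nat.sub_eq_of_eq_add (by ring)]
  ring

end Cfsg.Agent.S4480
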