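import Cfsg.Statements.S4481
import Cfsg.Agent.Lib.Modular.Dihedral

set_option autoImplicit false
open Cfsg

namespace Cfsg.Agent.S4481

open Cfsg.Lib.Block Cfsg.Lib.Char Cfsg.Lib.Modular Cfsg.Lib.Inv
open scoped ComplexConjugate

/-- The principal 2-block of a group with dihedral Sylow 2-subgroups. Let G be a finite group whose Sylow 2-subgroup P is dihedral of order 2^n ≥ 8, let σ be an element of P of order 2^(n−1), ζ a primitive 2^(n−1)-th root of unity, and M a maximal ideal of the algebraic integers containing 2. Then the principal 2-block consists of exactly 3 + 2^(n−2) irreducible characters, which can be labelled 1, χ₁, χ₂, χ₃ and χ^(j) for 1 ≤ j ≤ 2^(n−2) − 1 (all distinct), with signs δ₁, δ₂, δ₃ such that for 0 < λ < 2^(n−1): χ₁(σ^λ) = δ₁, χ₂(σ^λ) = δ₂(−1)^(λ+1), χ₃(σ^λ) =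 δ₃(−1)^(λ+1) and χ^(j)(σ^λ) = δ₁(ζ^(jλ) + ζ^(−jλ)); and for every element ρ of odd order and every j: 1 + δ₁χ₁(ρ) = −δ₂χ₂(ρ) − δ₃χ₃(ρ) = δ₁χ^(j)(ρ). -/
theorem result {G : Type*} [Group G] [Finite G] (M : Ideal Cfsg.AlgInt) (hM : Cfsg.IsPModular 2 M) (n : ℕ) (hn : 3 ≤ n) (P : Sylow 2 G) (hP : Nonempty ((P : Subgroup G) ≃* DihedralGroup (2 ^ (n - 1)))) (σ : G) (hσ : σ ∈ (P : Subgroup G)) (hσo : orderOf σ = 2 ^ (n - 1)) (ζ : ℂ) (hζ : IsPrimitiveRoot ζ (2 ^ (n - 1))) : Nat.card (Cfsg.principalBlock M G) = 3 + 2 ^ (n - 2) ∧ ∃ (χ₁ χ₂ χ₃ : Cfsg.IrrCharacter G) (χ' : Fin (2 ^ (n - 2) - 1) → Cfsg.IrrCharacter G) (δ₁ δ₂ δ₃ : ℤ), (δ₁ = 1 ∨ δ₁ = -1) ∧ (δ₂ = 1 ∨ δ₂ = -1) ∧ (δ₃ = 1 ∨ δ₃ = -1) ∧ Function.Injective χ' ∧ (χ₁ : G → ℂ) ≠ (fun _ => 1) ∧ (χ₂ : G → ℂ) ≠ (fun _ => 1) ∧ (χ₃ : G → ℂ) ≠ (fun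 _ => 1) ∧ χ₁ ≠ χ₂ ∧ χ₁ ≠ χ₃ ∧ χ₂ ≠ χ₃ ∧ (∀ j, χ' j ≠ χ₁ ∧ χ' j ≠ χ₂ ∧ χ' j ≠ χ₃ ∧ (χ' j : G → ℂ) ≠ (fun _ => 1)) ∧ Cfsg.principalBlock M G = {χ : Cfsg.IrrCharacter G | (χ : G → ℂ) = (fun _ => 1) ∨ χ = χ₁ ∨ χ = χ₂ ∨ χ = χ₃ ∨ ∃ j, χ = χ' j} ∧ (∀ l : ℕ, 0 < l → l < 2 ^ (n - 1) → (χ₁ : G → ℂ) (σ ^ l) = δ₁ ∧ (χ₂ : G → ℂ) (σ ^ l) = δ₂ * (-1) ^ (l + 1) ∧ (χ₃ : G → ℂ) (σ ^ l) = δ₃ * (-1) ^ (l + 1) ∧ ∀ j : Fin (2 ^ (n - 2) - 1), (χ' j : G → ℂ) (σ ^ l) = δ₁ * (ζ ^ (((j : ℕ) + 1) * l) + (ζ ^ (((j : ℕ) + 1) * l))⁻¹)) ∧ ∀ ρ : G, Odd (orderOf ρ) → ∀ j : Fin (2 ^ (n - 2) - 1), 1 + δ₁ * (χ₁ : G → ℂ) ρ = -δ₂ * (χ₂ : G → ℂ) ρ - δ₃ * (χ₃ : G → ℂ) ρ ∧ 1 + δ₁ * (χ₁ : G → ℂ) ρ = δ₁ * (χ' j : G → ℂ) ρ := by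
  classical
  obtain ⟨e⟩ := hP
  obtain ⟨m, rfl⟩ : ∃ m, n = m + 2 := ⟨n - 2, by omega⟩
  simp only [show m + 2 - 1 = m + 1 from rfl, show m + 2 - 2 = m from rfl] at *
  obtain ⟨a, b, m', hm, h⟩ := exists_mc_of_dihedral P.2
    (Nat.le_self_pow (by omega) 2) e
  obtain rfl : m = m' := by simpa using hm
  obtain ⟨χ₁, χ₂, χ₃, χ', δ₁, δ₂, δ₃, h1, h2, h3, h4, n1, n2, n3, n4, n5, n6, n7, hB, hv, ho⟩ :=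
    Dih.exists_principal (Dih.mc_of_orderOf h (by omega) hσ hσo) hM hζ
  have hne : ∀ χ : IrrCharacter G, (χ : G → ℂ) = (fun _ => 1) ↔ χ = irrOne G := fun χ =>
    ⟨fun e => Subtype.ext e, fun e => e ▸ rfl⟩
  refine ⟨?_, χ₁, χ₂, χ₃, χ', δ₁, δ₂, δ₃, h1, h2, h3, h4, mt (hne _).1 n1, mt (hne _).1 n2,
    mt (hne _).1 n3, n4, n5, n6, fun j => ⟨(n7 j).1, (n7 j).2.1, (n7 j).2.2.1,
      mt (hne _).1 (n7 j).2.2.2⟩, Set.ext fun χ => by rw [hB, Set.mem_ofPred, hne]; rfl, hv,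
    fun ρ hρ j => ⟨(ho ρ hρ.not_two_dvd_nat).1, (ho ρ hρ.not_two_dvd_nat).2 j⟩⟩
  have : principalBlock M G = insert (irrOne G) (insert χ₁ (insert χ₂ (insert χ₃
      (Set.range χ')))) := Set.ext fun χ => by simp [hB, eq_comm]
  have hk : 0 < 2 ^ m := by positivity
  rw [this, Nat.card_coe_set_eq, Set.ncard_insert_of_notMem, Set.ncard_insert_of_notMem,
    Set.ncard_insert_of_notMem, Set.ncard_insert_of_notMem, Set.ncard_range_of_injective h4,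
    Nat.card_eq_fintype_card, Fintype.card_fin]
  · omega
  · simpa using fun j => (n7 j).2.2.1
  · simpa [n6] using fun j => (n7 j).2.1
  · simpa [n4, n5] using fun j => (n7 j).1
  · simpa [n1.symm, n2.symm, n3.symm] using fun j => (n7 j).2.2.2

end Cfsg.Agent.S4481
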