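import Cfsg.Statements.S4482
import Cfsg.Agent.Lib.Modular.Dihedral

set_option autoImplicit false
open Cfsg

namespace Cfsg.Agent.S4482

open Cfsg.Lib.Block Cfsg.Lib.Char Cfsg.Lib.Modular Cfsg.Lib.Inv
open scoped ComplexConjugate

/-- An order formula for groups with dihedral Sylow 2-subgroups and one class of involutions. Let G be a finite group whose Sylow 2-subgroup P = ⟨σ, τ⟩ is dihedral of order 2^n ≥ 8 (σ of order 2^(n−1), τ an involution inverting σ), let J be the central involution σ^(2^(n−2)), and suppose J, τ and στ are conjugate in G. Fix M over 2 and let χ₁ be an irreducible character in the principal 2-block taking one constant value δ₁ = ±1 at every non-identity power of σ, with χ₁ ≠ 1. Then, with x₁ = χ₁(1) and c(·) denoting orders of centralizers, x₁ ≠ δ₁ and #G · (x₁ − δ₁)² = 2·x₁(x₁ + δ₁)·c(J)³·(1/c(J, τ) + 1/c(J, στ))², where c(J, y) is the order of the joint centralizer of J and y. -/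
theorem result {G : Type*} [Group G] [Finite G] (M : Ideal Cfsg.AlgInt) (hM : Cfsg.IsPModular 2 M) (n : ℕ) (hn : 3 ≤ n) (P : Sylow 2 G) (σ τ : G) (hσ : σ ∈ (P : Subgroup G)) (hτ : τ ∈ (P : Subgroup G)) (hσo : orderOf σ = 2 ^ (n - 1)) (hτo : orderOf τ = 2) (hrel : τ * σ * τ⁻¹ = σ⁻¹) (hgen : Subgroup.closure ({σ, τ} : Set G) = (P : Subgroup G)) (hconj : IsConj (σ ^ (2 ^ (n - 2))) τ ∧ IsConj (σ ^ (2 ^ (n - 2))) (σ * τ)) (χ₁ : Cfsg.IrrCharacter G) (hχ₁ : χ₁ ∈ Cfsg.principalBlock M G) (h1 : (χ₁ : G → ℂ) ≠ (fun _ => 1)) (δ₁ : ℤ) (hδ₁ : δ₁ = 1 ∨ δ₁ = -1) (hval : ∀ l : ℕ, 0 < l → l < 2 ^ (n - 1) → (χ₁ : G → ℂ) (σ ^ l) = δ₁) : (Cfsg.charDegree (χ₁ : G → ℂ) : ℤ) ≠ δ₁ ∧ (Nat.card G : ℚ) * ((Cfsg.charDegree (χ₁ : G → ℂ) : ℚ) - δ₁) ^ 2 = 2 * (Cfsg.charDegree (χ₁ : G → ℂ) : ℚ) * ((Cfsg.charDegree (χ₁ : G → ℂ) : ℚ) + δ₁) * (Nat.card (Subgroup.centralizer ({σ ^ (2 ^ (n - 2))} : Set G)) : ℚ) ^ 3 * (1 / (Nat.card (Subgroup.centralizer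 ({σ ^ (2 ^ (n - 2)), τ} : Set G)) : ℚ) + 1 / (Nat.card (Subgroup.centralizer ({σ ^ (2 ^ (n - 2)), σ * τ} : Set G)) : ℚ)) ^ 2 := by
  classical
  have := Fintype.ofFinite G
  obtain ⟨m, rfl⟩ : ∃ m, n = m + 2 := ⟨n - 2, by omega⟩
  simp only [show m + 2 - 1 = m + 1 from rfl, show m + 2 - 2 = m from rfl] at *
  have hk : 2 ≤ 2 ^ m := Nat.le_self_pow (by omega) 2
  have hN : 2 ^ (m + 1) = 2 * 2 ^ m := pow_succ' _ _
  have h : MC (P : Subgroup G) σ τ m 0 0 := by
    refine ⟨hσo, ?_, ?_, by simpa using hrel, by simpa using mul_self_of_orderOf hτo, by simp⟩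
    · rintro ⟨k, rfl⟩
      have : σ ^ 2 = 1 := by
        rw [sq, ← eq_inv_iff_mul_eq_one, ← hrel]; simp only; group
      have := Nat.le_of_dvd two_pos (orderOf_dvd_of_pow_eq_one this)
      omega
    · rw [← hgen, Subgroup.zpowers_eq_closure, Subgroup.zpowers_eq_closure,
        ← Subgroup.closure_union]; rfl
  have hζ := Complex.isPrimitiveRoot_exp (2 ^ (m + 1)) (by positivity)
  set ζ := Complex.exp (2 * Real.pi * Complex.I / (2 ^ (m + 1) : ℕ))
  have hζ1 : ζ ≠ 1 := hζ.ne_one (by omega)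
  have hζk : ζ ^ 2 ^ m = -1 := (hζ.pow (by positivity) (pow_succ 2 m)).eq_neg_one_of_two_right
  set T := tfun M σ (2 ^ (m + 1)) ζ with hT
  have hTg : IsGeneralizedCharacter G T :=
    isGeneralizedCharacter_tfun (by positivity) (Dih.pow_N h) hζ.1
  set s := (δ₁ : ℂ) • (χ₁ : G → ℂ) with hs'
  have hs : IsSIrr G s := isSIrr_smul χ₁.2 hδ₁
  have hδ : (δ₁ : ℂ) * δ₁ = 1 := by rcases hδ₁ with rfl | rfl <;> simp
  have i1 : classInner T (fun _ => 1) = 1 := Dih.inner_tfun_one hM (by positivity) hζ.1 hζ1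
  have i2 : classInner T s = 1 := by
    rw [hT, inner_tfun_smul hχ₁, ← fco_one (by positivity) hζ.1 hζ1, fco, fco]
    congr 1
    refine Finset.sum_congr rfl fun l hl => ?_
    rcases Nat.eq_zero_or_pos l with rfl | hl0
    · simp
    · rw [hval l hl0 (Finset.mem_range.1 hl), hδ]
  have i3 : classInner T T = 3 := by
    rw [hT, Dih.inner_tfun_tfun h hM hζ.1 hζ.1 hζ1 hζ1, if_pos rfl, if_neg (by
      rw [← sq]; exact hζ.pow_ne_one_of_pos_of_lt (by omega) (by omega))]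
    norm_num
  have i4 : classInner s (fun _ => 1) = 0 := by
    rw [hs', classInner_smul_left, χ₁.2.inner_eq_zero_of_ne isIrrCharacter_one h1, mul_zero]
  have ht : IsSIrr G (T - (fun _ => 1) - s) := isSIrr_of_inner_self
    ((hTg.sub isGeneralizedCharacter_one).sub hs.isGeneralizedCharacter) (by
      simp only [classInner_sub_left, classInner_sub_right, i1, i2, i3, i4, hs.inner_self,
        isSIrr_one.inner_self, isSIrr_one.inner_comm hTg, hs.inner_comm hTg,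
        hs.inner_symm isSIrr_one i4]
      ring)
  have e := Dih.order_formula h hM (Dih.one_class h hconj.1 hconj.2) hζk Finset.univ
    ![fun _ => 1, s, T - (fun _ => 1) - s] (fun i _ => by
      fin_cases i
      exacts [isSIrr_one, hs, ht]) (by simp [Fin.sum_univ_three, hT])
  have v1 : T 1 = 0 := Dih.tfun_of_odd h hM (by simp)
  have v2 : T (σ ^ 2 ^ m) = 4 := by
    rw [hT, Dih.tfun_pow h hM hζ.1 (by omega), hζk]; norm_num
  have v3 : s (σ ^ 2 ^ m) = 1 := by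
    rw [hs', Pi.smul_apply, hval _ (by omega) (by omega), smul_eq_mul, hδ]
  have v4 : s 1 = δ₁ * charDegree (χ₁ : G → ℂ) := by
    rw [hs', Pi.smul_apply, χ₁.2.apply_one_eq, smul_eq_mul]
  have n1 := hs.apply_one_ne_zero
  have n2 := ht.apply_one_ne_zero
  simp only [Fin.sum_univ_three, Matrix.cons_val, Pi.sub_apply, v1, v2, v3, v4] at e n1 n2
  set x := charDegree (χ₁ : G → ℂ)
  set R : ℚ := 2 * Nat.card (Subgroup.centralizer ({σ ^ 2 ^ m} : Set G)) ^ 3 *
    (1 / Nat.card (Subgroup.centralizer ({σ ^ 2 ^ m, τ} : Set G)) +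
      1 / Nat.card (Subgroup.centralizer ({σ ^ 2 ^ m, σ * τ} : Set G))) ^ 2 with hR
  have hR0 : 0 < R := by
    have := Nat.card_pos (α := Subgroup.centralizer ({σ ^ 2 ^ m} : Set G))
    have := Nat.card_pos (α := Subgroup.centralizer ({σ ^ 2 ^ m, τ} : Set G))
    have := Nat.card_pos (α := Subgroup.centralizer ({σ ^ 2 ^ m, σ * τ} : Set G))
    positivity
  have e2 : (Nat.card G : ℂ) * (x - δ₁) ^ 2 = x * (x + δ₁) * R := by
    rw [← e]
    have n3 : (1 : ℂ) + δ₁ * x ≠ 0 := fun e => n2 (by linear_combination -e)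
    rw [show (0 : ℂ) - 1 - δ₁ * x = -(1 + δ₁ * x) by ring]
    rcases hδ₁ with rfl | rfl <;> push_cast at n1 n3 ⊢
    · rw [one_mul] at n1 n3 ⊢; field_simp; ring
    · rw [neg_one_mul] at n1 n3 ⊢
      have := neg_ne_zero.1 n1
      field_simp; ring
  have e3 : (Nat.card G : ℚ) * (x - δ₁) ^ 2 = x * (x + δ₁) * R := by exact_mod_cast e2
  refine ⟨fun hx => ?_, by rw [e3, hR]; ring⟩
  have hx' : (x : ℚ) = δ₁ := by exact_mod_cast hx
  rw [hx'] at e3
  rcases hδ₁ with rfl | rfl <;> norm_num at e3 <;> linarith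

end Cfsg.Agent.S4482
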