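import Cfsg.Statements.S4484
import Cfsg.Agent.Lib.CharDeg.Unitary
import Cfsg.Agent.Lib.Cyc.Prime
import Cfsg.Agent.Lib.Small.Recog

set_option autoImplicit false
open Cfsg

namespace Cfsg.Agent.S4484

open Subgroup Finset Cfsg.Lib.Char Cfsg.Lib.CharDeg Cfsg.Lib.Block Cfsg.Lib.Modular Cfsg.Lib.Small
open scoped ComplexConjugate

theorem arc {p r s : ℕ} (hp : 0 < p) (h : 6 * r / p = 6 * s / p) :
    ‖Complex.exp (2 * Real.pi * Complex.I / p) ^ s - Complex.exp (2 * Real.pi * Complex.I / p) ^ r‖ < 1 := by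
  have p0 : (0 : ℝ) < p := by exact_mod_cast hp
  have a1 : 6 * s < 6 * r + p := by
    have := Nat.div_add_mod (6 * r) p
    have := Nat.div_add_mod (6 * s) p
    have := Nat.mod_lt (6 * s) hp
    rw [← h] at *
    omega
  have a2 : 6 * r < 6 * s + p := by
    have := Nat.div_add_mod (6 * r) p
    have := Nat.div_add_mod (6 * s) p
    have := Nat.mod_lt (6 * r) hp
    rw [← h] at *
    omega
  have b1 : (6 * s : ℝ) < 6 * r + p := by exact_mod_cast a1
  have b2 : (6 * r : ℝ) < 6 * s + p := by exact_mod_cast a2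
  have e : Complex.exp (2 * Real.pi * Complex.I / p) ^ s - Complex.exp (2 * Real.pi * Complex.I / p) ^ r =
      Complex.exp (Complex.I * (2 * Real.pi * r / p : ℝ)) *
        (Complex.exp (Complex.I * (2 * Real.pi * (s - r) / p : ℝ)) - 1) := by
    rw [← Complex.exp_nat_mul, ← Complex.exp_nat_mul, mul_sub, mul_one, ← Complex.exp_add]
    congr 2 <;> push_cast <;> ring
  rw [e, norm_mul, Complex.norm_exp_I_mul_ofReal, one_mul, Complex.norm_exp_I_mul_ofReal_sub_one,
    Real.norm_eq_abs, abs_lt]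
  have pi := Real.pi_pos
  have c1 : 2 * Real.pi * (s - r) / p / 2 < Real.pi / 6 := by
    rw [div_div, div_lt_div_iff₀ (by positivity) (by norm_num)]; nlinarith
  have c2 : -(Real.pi / 6) < 2 * Real.pi * (s - r) / p / 2 := by
    rw [div_div, ← neg_div, div_lt_div_iff₀ (by norm_num) (by positivity)]; nlinarith
  have d1 := Real.sin_lt_sin_of_lt_of_le_pi_div_two (by linarith) (by linarith) c1
  have d2 := Real.sin_lt_sin_of_lt_of_le_pi_div_two (by linarith) (by linarith) c2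
  rw [Real.sin_neg, Real.sin_pi_div_six] at *
  constructor <;> linarith

theorem fourier {p : ℕ} {ζ : ℂ} (hζ : IsPrimitiveRoot ζ p) (m : Fin p → ℕ) (i : Fin p) :
    ∑ k ∈ range p, (ζ ^ i.1)⁻¹ ^ k * ∑ j : Fin p, m j * ζ ^ (j.1 * k) = p * m i := by
  have z0 : ζ ≠ 0 := hζ.ne_zero i.pos.ne'
  simp only [mul_sum]
  rw [sum_comm, sum_eq_single i (fun j _ ji => ?_) (by simp)]
  · rw [sum_congr rfl (g := fun _ => (m i : ℂ)) fun k _ => by
      rw [pow_mul, mul_left_comm, ← mul_pow, inv_mul_cancel₀ (pow_ne_zero _ z0), one_pow, mul_one]]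
    simp
  · rw [sum_congr rfl (g := fun k => (m j : ℂ) * ((ζ ^ i.1)⁻¹ * ζ ^ j.1) ^ k) fun k _ => by
      rw [pow_mul]; ring, ← mul_sum, geom_sum_eq (fun e => ji (Fin.ext (hζ.pow_inj j.2 i.2 (by
        rw [inv_mul_eq_one₀ (pow_ne_zero _ z0)] at e; exact e.symm)))), mul_pow, inv_pow, ← pow_mul,
      ← pow_mul, mul_comm _ p, mul_comm _ p, pow_mul, pow_mul, hζ.pow_eq_one]
    simp

theorem lt_six {g : ℕ} (h : 2 ≤ g) : g < 6 ^ (g - 1) := by
  obtain ⟨k, rfl⟩ := Nat.exists_eq_add_of_le' h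
  have := Nat.lt_pow_self (n := k) (by norm_num : 1 < 6)
  rw [show k + 2 - 1 = k + 1 by omega, pow_succ]
  omega

/-- A refinement of Burnside's result on simple groups of order divisible by only two primes. Let G be a finite simple group of order p^a · q^b · g₀ with p, q distinct primes, a > 0, g₀ coprime to p and q, and the order of G different from p. Then g₀ − 1 > log p / log 6, that is 6^(g₀ − 1) > p. -/
theorem result {G : Type*} [Group G] [Finite G] [IsSimpleGroup G] (p q a b g₀ : ℕ) (hp : p.Prime) (hq : q.Prime) (hpq : p ≠ q) (ha : 0 < a) (hg : Nat.card G = p ^ a * q ^ b * g₀) (hcop : ¬ p ∣ g₀) (hcoq : ¬ q ∣ g₀) (hne : Nat.card G ≠ p) : p < 6 ^ (g₀ - 1) := by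
  classical
  haveI := Fact.mk hp
  have pG : p ∣ Nat.card G := hg ▸ ((dvd_pow_self p ha.ne').mul_right _).mul_right _
  have hG : ¬ IsMulCommutative G := fun h => by
    letI : CommGroup G := { (inferInstance : Group G) with mul_comm := h.1.1 }
    exact hne ((Nat.prime_dvd_prime_iff_eq hp IsSimpleGroup.prime_card).1 pG).symm
  obtain ⟨P⟩ : Nonempty (Sylow p G) := inferInstance
  haveI : Nontrivial P := (Subgroup.nontrivial_iff_ne_bot _).2 (P.ne_bot_of_dvd_card pG)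
  obtain ⟨z, hz, oz⟩ := exists_mem_orderOf_eq_of_isPGroup (p := p) (H := center P)
    (P.2.to_subgroup _) ((Subgroup.nontrivial_iff_ne_bot _).1 P.2.center_nontrivial)
  obtain ⟨σ, oσ, hP⟩ : ∃ σ : G, orderOf σ = p ∧ (P : Subgroup G) ≤ centralizer {σ} :=
    ⟨z, (Subgroup.orderOf_coe z).trans oz, fun x hx => mem_centralizer_singleton_iff.2
      (congrArg Subtype.val (Subgroup.mem_center_iff.1 hz ⟨x, hx⟩))⟩
  have σp : σ ^ p = 1 := oσ ▸ pow_orderOf_eq_one σ
  set h := (centralizer ({σ} : Set G)).index with hh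
  have ph : ¬ p ∣ h := fun e => P.not_dvd_index (e.trans (index_dvd_of_le hP))
  obtain ⟨M, hM⟩ := exists_isPModular hp
  haveI : Modular p M := ⟨hM⟩
  obtain ⟨χ, c1, c2, c3⟩ : ∃ χ : IrrCharacter G, χ ∈ principalBlock M G ∧ χ ≠ irrOne G ∧
      ¬ q ∣ charDegree (χ : G → ℂ) := by
    by_contra hn
    push Not at hn
    have e := sum_block_mul_conj_eq_zero hM (Lib.Block.isPBlock_principalBlock (M := M) (G := G)) (x := 1) (y := σ)
      (by rw [orderOf_one]; exact hp.not_dvd_one) (oσ ▸ dvd_rfl)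
    rw [← add_sum_erase _ _ (mem_filter.2 ⟨mem_univ _, Lib.Block.irrOne_mem_principalBlock⟩)] at e
    have q0 : (q : ℂ) ≠ 0 := Nat.cast_ne_zero.2 hq.ne_zero
    refine not_isIntegral_inv_prime hq ?_
    have e2 : (q : ℂ)⁻¹ = -∑ χ ∈ (univ.filter fun χ => χ ∈ principalBlock M G).erase (irrOne G),
        (q : ℂ)⁻¹ * ((χ : G → ℂ) 1 * conj ((χ : G → ℂ) σ)) := by
      rw [← mul_sum, eq_neg_iff_add_eq_zero, ← mul_one_add]
      simp only [irrOne, map_one, mul_one] at e
      rw [irrOne, e, mul_zero]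
    rw [e2]
    refine IsIntegral.neg (IsIntegral.sum _ fun χ hχ => ?_)
    obtain ⟨c, hc⟩ := hn χ (mem_filter.1 (mem_of_mem_erase hχ)).2 (ne_of_mem_erase hχ)
    rw [χ.2.apply_one_eq, hc, Nat.cast_mul, mul_assoc, inv_mul_cancel_left₀ q0]
    exact (isIntegral_natCast c).mul (isIntegral_conj (χ.2.isCharacter.isIntegral σ))
  have n0 := χ.2.charDegree_pos
  have nG := χ.2.charDegree_dvd_card
  obtain ⟨d, h', N, d0, cop, e1, e2⟩ := Nat.exists_coprime' (m := h) (n := charDegree (χ : G → ℂ))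
    (Nat.gcd_pos_of_pos_right _ n0)
  have N0 : 0 < N := Nat.pos_of_ne_zero (by rintro rfl; omega)
  have Nc : (N : ℂ) ≠ 0 := Nat.cast_ne_zero.2 N0.ne'
  have dc : (d : ℂ) ≠ 0 := Nat.cast_ne_zero.2 d0.ne'
  have dg : d ∣ g₀ := by
    have a1 : d ∣ p ^ a * q ^ b * g₀ := hg ▸ (Dvd.intro_left _ e2.symm).trans nG
    refine Nat.Coprime.dvd_of_dvd_mul_left (Nat.Coprime.mul_right ?_ ?_) a1
    · exact ((hp.coprime_iff_not_dvd.2 fun e => ph (e.trans (Dvd.intro_left _ e1.symm))).symm).pow_right a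
    · exact ((hq.coprime_iff_not_dvd.2 fun e => c3 (e.trans (Dvd.intro_left _ e2.symm))).symm).pow_right b
  have g0 : 0 < g₀ := Nat.pos_of_ne_zero (by rintro rfl; simp at hcop)
  have dle := Nat.le_of_dvd g0 dg
  have cc : ∀ k, 0 < k → k < p → centralChar (χ : G → ℂ) (σ ^ k) = h' * ((χ : G → ℂ) (σ ^ k) / N) := by
    intro k k0 kp
    have o : orderOf (σ ^ k) = p := by
      rw [← oσ]; exact Nat.Coprime.orderOf_pow (oσ ▸ Nat.coprime_of_lt_prime k0.ne' kp hp)
    have z : zpowers (σ ^ k) = zpowers σ := Subgroup.eq_of_le_of_card_ge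
      (zpowers_le_of_mem (npow_mem_zpowers σ k)) (by rw [Nat.card_zpowers, Nat.card_zpowers, o, oσ])
    rw [centralChar_def, ← Lib.Cyc.centralizer_zpowers, z, Lib.Cyc.centralizer_zpowers, ← hh,
      χ.2.apply_one_eq, e1, e2]
    push_cast
    field_simp
  have wi : ∀ k, 0 < k → k < p → IsIntegral ℤ ((χ : G → ℂ) (σ ^ k) / N) := by
    intro k k0 kp
    have a1 := χ.2.isIntegral_centralChar (σ ^ k)
    rw [cc k k0 kp] at a1
    obtain ⟨u, v, huv⟩ := Nat.isCoprime_iff_coprime.2 cop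
    have : (χ : G → ℂ) (σ ^ k) / N = u * (h' * ((χ : G → ℂ) (σ ^ k) / N)) + v * (χ : G → ℂ) (σ ^ k) := by
      have : (u : ℂ) * h' + v * N = 1 := by exact_mod_cast huv
      field_simp
      linear_combination -(χ : G → ℂ) (σ ^ k) * this
    rw [this]
    exact ((isIntegral_intCast u).mul a1).add ((isIntegral_intCast v).mul (χ.2.isCharacter.isIntegral _))
  have : NeZero p := ⟨hp.ne_zero⟩
  have hζ := Complex.isPrimitiveRoot_exp p hp.ne_zero
  have harc := fun r s => arc (p := p) (r := r) (s := s) hp.pos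
  generalize Complex.exp (2 * Real.pi * Complex.I / p) = ζ at hζ harc
  have p1 : ∀ j : ℕ, (ζ ^ j) ^ p = 1 := fun j => by rw [← pow_mul, mul_comm, pow_mul, hζ.pow_eq_one, one_pow]
  have zi : ∀ w : ℂ, w ^ p = 1 → IsIntegral ℤ w ∧ red M w = 1 := fun w hw =>
    ⟨IsIntegral.of_pow hp.pos (hw ▸ isIntegral_one), red_eq_one_of_pow_eq_one (k := 1) (by rwa [pow_one])⟩
  obtain ⟨m, m1, -⟩ := exists_mult χ.2.isCharacter hζ σp
  have cong : ∀ i j : Fin p, (N : ℤ) ∣ m i - m j := by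
    intro i j
    have f : ∑ k ∈ range p, ((ζ ^ i.1)⁻¹ ^ k - (ζ ^ j.1)⁻¹ ^ k) * ((χ : G → ℂ) (σ ^ k) / N) =
        ((p * (m i - m j) : ℤ) : ℂ) / (N : ℤ) := by
      simp only [← mul_div_assoc, sub_mul, m1]
      rw [← sum_div, sum_sub_distrib, fourier hζ, fourier hζ]
      push_cast; ring
    have t : ∀ k ∈ range p, IsIntegral ℤ (((ζ ^ i.1)⁻¹ ^ k - (ζ ^ j.1)⁻¹ ^ k) * ((χ : G → ℂ) (σ ^ k) / N)) ∧
        red M (((ζ ^ i.1)⁻¹ ^ k - (ζ ^ j.1)⁻¹ ^ k) * ((χ : G → ℂ) (σ ^ k) / N)) = 0 := by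
      intro k hk
      rcases k.eq_zero_or_pos with rfl | k0
      · simp [isIntegral_zero]
      have r : ∀ l : ℕ, ((ζ ^ l)⁻¹ ^ k) ^ p = 1 := fun l => by
        rw [← pow_mul, mul_comm, pow_mul, inv_pow, p1]; simp
      have a1 := wi k k0 (mem_range.1 hk)
      refine ⟨((zi _ (r i)).1.sub (zi _ (r j)).1).mul a1, ?_⟩
      rw [red_mul (mem_locRing_of_isIntegral ((zi _ (r i)).1.sub (zi _ (r j)).1))
        (mem_locRing_of_isIntegral a1), red_sub (mem_locRing_of_isIntegral (zi _ (r i)).1)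
        (mem_locRing_of_isIntegral (zi _ (r j)).1), (zi _ (r i)).2, (zi _ (r j)).2, sub_self, zero_mul]
    obtain ⟨c, hc⟩ := int_dvd_of_isIntegral_div (by exact_mod_cast N0.ne')
      (f ▸ IsIntegral.sum _ fun k hk => (t k hk).1)
    have f2 := congrArg (red M) f
    rw [red_sum _ _ fun k hk => mem_locRing_of_isIntegral (t k hk).1, sum_eq_zero fun k hk => (t k hk).2,
      hc, Int.cast_mul, mul_div_cancel_left₀ _ (by exact_mod_cast N0.ne'), eq_comm,
      red_intCast_eq_zero_iff] at f2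
    obtain ⟨c, rfl⟩ := f2
    exact ⟨c, mul_left_cancel₀ (a := (p : ℤ)) (by exact_mod_cast hp.ne_zero) (by rw [hc]; ring)⟩
  obtain ⟨i₀, -, hmin⟩ := exists_min_image univ m univ_nonempty
  have hb : ∀ i, ∃ c, m i = m i₀ + N * c := fun i => by
    obtain ⟨c, hc⟩ := (Nat.modEq_iff_dvd' (hmin i (mem_univ _))).1 (Nat.modEq_iff_dvd.2 (cong i i₀))
    have := hmin i (mem_univ _)
    exact ⟨c, by omega⟩
  choose c hc using hb
  have s1 : N * d = p * m i₀ + N * ∑ i, c i := by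
    have := m1 0
    rw [pow_zero, χ.2.apply_one_eq, e2] at this
    simp only [mul_zero, pow_zero, mul_one] at this
    have : N * d = ∑ i, m i := by exact_mod_cast this
    rw [this, sum_congr rfl fun i _ => hc i, sum_add_distrib, ← mul_sum]
    simp
  have s2 : (χ : G → ℂ) (σ ^ 1) / N = ∑ i : Fin p, c i * ζ ^ i.1 := by
    rw [m1, div_eq_iff Nc, sum_congr rfl (g := fun i : Fin p => (m i₀ : ℂ) * ζ ^ i.1 + c i * ζ ^ i.1 * N)
      fun i _ => by rw [hc i]; push_cast; ring, sum_add_distrib, ← mul_sum, ← sum_mul,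
      Fin.sum_univ_eq_sum_range (fun i => ζ ^ i), hζ.geom_sum_eq_zero hp.one_lt]
    simp
  have s3 : (p : ℤ) ∣ d - ∑ i, c i := by
    have a1 := (memLocalIdeal_sub_iff (by rw [centralChar_one]; exact natCast_mem _ _)
      (mem_locRing_of_isIntegral (χ.2.isIntegral_centralChar _))).1 (c1 (σ ^ 1))
    have a0 : ∀ i : Fin p, (c i : ℂ) * ζ ^ i.1 ∈ locRing M := fun i =>
      mul_mem (natCast_mem _ _) (mem_locRing_of_isIntegral (zi _ (p1 i)).1)
    rw [cc 1 one_pos hp.one_lt, s2, centralChar_one, pow_one, ← hh, e1,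
      red_mul (natCast_mem _ _) (sum_mem fun i _ => a0 i), red_sum _ _ fun i _ => a0 i,
      sum_congr rfl (g := fun i => (c i : Res M)) fun i _ => by
          rw [red_mul (natCast_mem _ _) (mem_locRing_of_isIntegral (zi _ (p1 i)).1), (zi _ (p1 i)).2,
            red_natCast, mul_one], red_natCast, red_natCast, Nat.cast_mul] at a1
    have a2 : (h' : Res M) ≠ 0 := fun e => ph (((CharP.cast_eq_zero_iff (Res M) p h').1 e).trans
      (Dvd.intro _ e1.symm))
    rw [← CharP.intCast_eq_zero_iff (Res M) p]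
    push_cast
    rw [mul_left_cancel₀ a2 a1, sub_self]
  have s4 : ∑ i, c i ≤ d := Nat.le_of_mul_le_mul_left (by omega) N0
  rcases s4.lt_or_eq with s4 | s4
  · have := Int.le_of_dvd (by omega) s3
    have := hp.two_le
    exact lt_of_le_of_lt (by omega) (lt_six (by omega))
  have m0 : m i₀ = 0 := by
    rw [s4] at s1
    exact (Nat.mul_eq_zero.1 (by omega)).resolve_left hp.ne_zero
  set J := univ.filter fun i => m i ≠ 0 with hJ
  have j1 : #J ≤ d := by
    rw [← s4, card_eq_sum_ones]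
    refine (sum_le_sum fun i hi => ?_).trans (sum_le_sum_of_subset (subset_univ J))
    have := (mem_filter.1 hi).2
    rw [hc i, m0, zero_add] at this
    exact Nat.pos_of_ne_zero fun e => this (by rw [e, mul_zero])
  obtain ⟨i₁, hi₁⟩ : J.Nonempty := by
    obtain ⟨i, -, hi⟩ := exists_ne_zero_of_sum_ne_zero (s4.trans_ne d0.ne')
    exact ⟨i, mem_filter.2 ⟨mem_univ _, by rw [hc i]; positivity⟩⟩
  by_contra hlt
  have hlt' : 6 ^ (#J - 1) < p := by
    refine lt_of_le_of_ne ((Nat.pow_le_pow_right (by norm_num) (by omega)).trans (not_lt.1 hlt)) fun e => ?_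
    rcases Nat.eq_zero_or_pos (#J - 1) with e0 | e0
    · rw [e0] at e; exact hp.one_lt.ne e
    · have : 6 ∣ p := e ▸ dvd_pow_self 6 e0.ne'
      have := (Nat.dvd_prime hp).1 this
      rcases this with e | e
      · omega
      · rw [← e] at hp; norm_num at hp
  have key : ∀ x y : ℕ, x < y → y < p → ¬ ∀ j ∈ J.erase i₁,
      6 * ((j.1 + (p - i₁)) * x % p) / p = 6 * ((j.1 + (p - i₁)) * y % p) / p := by
    intro x y xy yp hbox
    obtain ⟨t, rfl⟩ := Nat.exists_eq_add_of_le xy.le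
    refine pow_ne_one_of_lt_orderOf (x := σ) (n := t) (by omega) (by omega)
      (eq_one_of_arc hG χ.2 (fun e => c2 (Subtype.ext e)) (w := m) (lam := fun j => ζ ^ (j.1 * t)) hp.ne_zero
        (by rw [← pow_mul, mul_comm, pow_mul, σp, one_pow]) (fun j => p1 _)
        (fun k => by simp only [← pow_mul, m1, mul_assoc]) (mem_filter.1 hi₁).2 fun j hj => ?_)
    by_cases e : j = i₁
    · simp [e]
    have a1 := harc _ _ (hbox j (mem_erase.2 ⟨e, mem_filter.2 ⟨mem_univ _, hj⟩⟩))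
    rw [← pow_eq_pow_mod _ hζ.pow_eq_one, ← pow_eq_pow_mod _ hζ.pow_eq_one] at a1
    have a2 : (ζ ^ ((j.1 + (p - i₁)) * (x + t)) - ζ ^ ((j.1 + (p - i₁)) * x)) * ζ ^ (i₁.1 * t) =
        ζ ^ ((j.1 + (p - i₁)) * x) * (ζ ^ (j.1 * t) - ζ ^ (i₁.1 * t)) := by
      obtain ⟨l, hl⟩ := Nat.exists_eq_add_of_le i₁.2.le
      have a3 : ζ ^ (i₁.1 * t) * ζ ^ (l * t) = 1 := by
        rw [← pow_add, ← add_mul, ← hl, pow_mul, hζ.pow_eq_one, one_pow]
      rw [show p - i₁ = l by omega]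
      linear_combination ζ ^ ((j.1 + l) * x) * ζ ^ (j.1 * t) * a3
    have a3 := congrArg norm a2
    rw [norm_mul, norm_mul, Complex.norm_eq_one_of_pow_eq_one (p1 _) hp.ne_zero,
      Complex.norm_eq_one_of_pow_eq_one (p1 _) hp.ne_zero, mul_one, one_mul] at a3
    exact a3 ▸ a1
  obtain ⟨x, y, xy, e⟩ := Fintype.exists_ne_map_eq_of_card_lt
    (fun (x : Fin p) (j : J.erase i₁) => (⟨6 * ((j.1.1 + (p - i₁)) * x % p) / p,
      (Nat.div_lt_iff_lt_mul hp.pos).2 (by have := Nat.mod_lt ((j.1.1 + (p - i₁)) * x) hp.pos; omega)⟩ : Fin 6))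
    (by rw [Fintype.card_fun, Fintype.card_coe, card_erase_of_mem hi₁]; simpa using hlt')
  have e' : ∀ j ∈ J.erase i₁, 6 * ((j.1 + (p - i₁)) * x % p) / p = 6 * ((j.1 + (p - i₁)) * y % p) / p :=
    fun j hj => congrArg Fin.val (congrFun e ⟨j, hj⟩)
  rcases lt_or_gt_of_ne (Fin.val_ne_of_ne xy) with l | l
  · exact key x y l y.2 e'
  · exact key y x l x.2 fun j hj => (e' j hj).symm

end Cfsg.Agent.S4484
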