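import Cfsg.Statements.S4489
import Cfsg.Agent.Lib.Clifford.Correspondence
import Cfsg.Agent.Lib.Char.Galois
import Cfsg.Agent.Lib.Char.Product
import Cfsg.Agent.Lib.PGroup.Alperin
import Cfsg.Agent.Lib.PGroup.RankOne
import Cfsg.Agent.Lib.Core.Basic

set_option autoImplicit false
open Cfsg

namespace Cfsg.Agent.S4489

open Cfsg.Lib Cfsg.Lib.Char Cfsg.Lib.Induce Cfsg.Lib.Clifford Subgroup

universe u

/-- The Galois conjugates of a function. -/
def orb {G : Type*} (χ : G → ℂ) : Set (G → ℂ) := {φ | ∃ σ : ℂ ≃+* ℂ, φ = fun g => σ (χ g)}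

variable {G : Type u} [Group G] [Finite G] {χ : G → ℂ}

theorem orb_finite (h : IsIrrCharacter G χ) : (orb χ).Finite :=
  (Set.finite_range fun ψ : IrrCharacter G => (ψ : G → ℂ)).subset (by
    rintro _ ⟨σ, rfl⟩
    exact ⟨⟨_, h.map_ringEquiv σ⟩, rfl⟩)

theorem inner_map [Fintype G] {φ θ : G → ℂ} (hθ : IsIrrCharacter G θ) (h : classInner φ θ ≠ 0) (σ : ℂ ≃+* ℂ) :
    classInner (fun g => σ (φ g)) (fun g => σ (θ g)) ≠ 0 := by
  have := classInner_map_ringHom σ.toRingHom φ hθ.isCharacter.isGeneralizedCharacter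
  exact this ▸ (map_ne_zero σ.toRingHom).2 h

theorem orb_le (N : Subgroup G) [N.Normal] [Fintype N] (h : IsIrrCharacter G χ) {θ : N → ℂ}
    (hθ : IsIrrCharacter N θ) (h1 : classInner (fun n : N => χ n) θ ≠ 0) :
    (orb θ).ncard ≤ N.index * (orb χ).ncard := by
  have := (orb_finite h).to_subtype
  let f : (G ⧸ N) × orb χ → N → ℂ := fun x => conjChar N x.1.out fun n => x.2.2.choose (θ n)
  rw [← Nat.card_coe_set_eq (orb χ), index, ← Nat.card_prod]
  refine (Set.ncard_le_ncard (t := Set.range f) ?_ (Set.finite_range f)).trans ?_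
  · rintro _ ⟨σ, rfl⟩
    have h2 : (fun g => σ (χ g)) ∈ orb χ := ⟨σ, rfl⟩
    have h3 := inner_map hθ h1 h2.choose
    have h4 := h2.choose_spec
    obtain ⟨g, hg⟩ := exists_conjChar_eq_of_constituents N (h.map_ringEquiv σ)
      (hθ.map_ringEquiv h2.choose) (hθ.map_ringEquiv σ)
      (by rwa [show (fun n : N => σ (χ n)) = fun n : N => h2.choose (χ n) from
        funext fun n => congrFun h4 n]) (inner_map hθ h1 σ)
    obtain ⟨n, e⟩ := QuotientGroup.mk_out_eq_mul N g
    refine ⟨(g, ⟨_, h2⟩), ?_⟩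
    simp only [f, e]
    rw [conjChar_mul, hg, conjChar_of_mem N (hθ.map_ringEquiv σ).isCharacter.isClassFunction n.2]
  · rw [← Set.image_univ, ← Set.ncard_univ]
    exact Set.ncard_image_le

theorem base (h : IsIrrCharacter G χ) (hk : charKer χ = ⊥) (c : G) [(zpowers c).Normal] :
    (orderOf c).totient ≤ (zpowers c).index * (orb χ).ncard := by
  classical
  have := Fintype.ofFinite G
  obtain ⟨θ, hθ, h1⟩ := exists_irr_below (zpowers c) h
  refine le_trans ?_ (orb_le _ h hθ h1)
  obtain ⟨l, rfl⟩ := hθ.exists_hom_of_comm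
  let c' : zpowers c := ⟨c, mem_zpowers c⟩
  have h2 : IsPrimitiveRoot (l c' : ℂ) (orderOf c) := ⟨by
    rw [← Units.val_pow_eq_pow_val, ← map_pow, show c' ^ orderOf c = 1 from
      Subtype.ext (pow_orderOf_eq_one c), map_one, Units.val_one], fun k e => by
    have h3 := clifford_sum_group _ h hθ h1
    have h4 : ∀ g : G, conjChar _ g (fun n => (l n : ℂ)) (c' ^ k) = conjChar _ g (fun n => (l n : ℂ)) 1 :=
      fun g => by
        obtain ⟨j, hj⟩ := mem_powers_iff_mem_zpowers.2 (‹(zpowers c).Normal›.conj_mem c c'.2 g)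
        rw [conjChar_eq_comp]
        beta_reduce
        rw [map_one, map_pow, show MulAut.conjNormal g c' = c' ^ j from Subtype.ext hj.symm,
          ← pow_mul, mul_comm, pow_mul, map_pow, map_pow, Units.val_pow_eq_pow_val, Units.val_pow_eq_pow_val,
          e, one_pow, map_one, Units.val_one]
    have h5 := congrFun h3 (c' ^ k)
    simp only [Pi.smul_apply, Finset.sum_apply, h4] at h5
    have h6 := congrFun h3 1
    simp only [Pi.smul_apply, Finset.sum_apply] at h6
    exact orderOf_dvd_of_pow_eq_one (mem_bot.1 (hk ▸ h.isCharacter.mem_charKer_iff.2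
      (mul_left_cancel₀ (natCard_cast_ne_zero _) (h5.trans h6.symm))))⟩
  rw [← h2.card_primitiveRoots, ← Set.ncard_coe_finset]
  refine (Set.ncard_le_ncard (t := (fun φ => φ c') '' orb fun n => (l n : ℂ)) (fun z hz => ?_)
    ((orb_finite hθ).image _)).trans (Set.ncard_image_le (orb_finite hθ))
  have : NeZero (orderOf c) := ⟨(orderOf_pos c).ne'⟩
  obtain ⟨i, -, hi, rfl⟩ := (h2.isPrimitiveRoot_iff).1 ((mem_primitiveRoots (orderOf_pos c)).1 hz)
  obtain ⟨σ, hσ⟩ := exists_ringEquiv_pow (orderOf_pos c).ne' hi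
  exact ⟨_, ⟨σ, rfl⟩, hσ _ h2.pow_eq_one⟩

theorem step {p : ℕ} [hp : Fact p.Prime] (hG : IsPGroup p G) (h : IsIrrCharacter G χ) (hk : charKer χ = ⊥)
    (A : Subgroup G) [A.Normal] (hA : IsElementaryAbelian p A) (hc : Nat.card A = p ^ 2) :
    ∃ (H : Subgroup G) (ψ : H → ℂ), H.index = p ∧ IsIrrCharacter H ψ ∧ charDegree χ = p * charDegree ψ ∧
      Nat.card H ≤ (charKer ψ).index ^ p ∧ (orb ψ).ncard ≤ (orb χ).ncard := by
  classical
  have := Fintype.ofFinite G
  have := hA.1
  have := hG.isNilpotent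
  have hf : ∀ g, χ g = χ 1 → g = 1 := fun g e => mem_bot.1 (hk ▸ h.isCharacter.mem_charKer_iff.2 e)
  obtain ⟨θ, hθ, h1⟩ := exists_irr_below A h
  obtain ⟨l, rfl⟩ := hθ.exists_hom_of_comm
  set H := inertia A fun n => (l n : ℂ)
  have h2 : H ≠ ⊤ := fun e => PGroup.elemAb_not_isCyclic hA hc.ge (isCyclic_of_injective_ringHom
    ((Units.coeHom ℂ).comp l) ((injective_iff_map_eq_one _).2 fun a ha => Subtype.ext (hf _ (by
      have h3 := res_eq_smul_of_invariant A h hθ h1 ((inertia_eq_top_iff A).1 e)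
      have h4 := congrFun h3 a
      have h5 := congrFun h3 1
      simp only [Pi.smul_apply, map_one, Units.val_one] at h4 h5
      rw [h4, show (l a : ℂ) = 1 from ha, ← h5]; rfl))))
  have h3 : H.index = p := by
    have h4 := PGroup.relIndex_centralizer_eq_of_card_sq (hG.to_subgroup ⊤) (by rw [normalizer_eq_top]) hc
      fun e => h2 (top_le_iff.1 (e.trans (centralizer_le_inertia A _)))
    rw [relIndex_top_right] at h4
    exact ((Nat.dvd_prime hp.1).1 (h4 ▸ index_dvd_of_le (centralizer_le_inertia A _))).resolve_left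
      (mt index_eq_one.1 h2)
  have := PGroup.normal_of_index_eq hG h3
  have hAH : A ≤ H := le_inertia A hθ.isCharacter.isClassFunction
  obtain ⟨ψ, hψ, h4, h5⟩ := exists_indFun_eq_of_over A hAH hθ le_rfl h h1
  rw [← h5] at h1
  refine ⟨H, ψ, h3, hψ, charDegree_eq_of_apply_one (by
    rw [← h4, indFun_one, h3, hψ.apply_one_eq, Nat.cast_mul]), ?_, ?_⟩
  · have := Fintype.ofFinite (G ⧸ H)
    have h6 := index_iInf_le fun q : G ⧸ H => (charKer ψ).comap (MulAut.conjNormal q.out⁻¹ : MulAut H).toMonoidHom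
    rw [Finset.prod_congr rfl fun q _ => index_comap_of_surjective _ (MulEquiv.surjective _), Finset.prod_const,
      Finset.card_univ, ← Nat.card_eq_fintype_card, ← index, h3] at h6
    refine le_trans (index_bot.symm.trans (congrArg index (eq_bot_iff.2 fun x hx => ?_).symm)).le h6
    refine mem_bot.2 (Subtype.ext (hf _ ?_))
    rw [← h4, indFun_eq_sum_quotient H hψ.isCharacter.isClassFunction,
      indFun_eq_sum_quotient H hψ.isCharacter.isClassFunction]
    refine Finset.sum_congr rfl fun q _ => ?_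
    have h7 := hψ.isCharacter.mem_charKer_iff.1 (mem_iInf.1 hx q)
    rw [extendByZero_of_mem H ψ (by simpa using ‹H.Normal›.conj_mem _ x.2 q.out⁻¹), mul_one, inv_mul_cancel,
      extendByZero_of_mem H ψ (one_mem H)]
    exact (congrArg ψ (Subtype.ext (by simp))).trans h7
  · obtain ⟨⟨z, hz⟩, hz1⟩ := ne_bot_iff_exists_ne_one.1 (PGroup.normal_inf_center_ne_bot A fun e =>
      PGroup.elemAb_not_isCyclic hA hc.ge (e ▸ inferInstance))
    have h6 : χ z = χ 1 * l ⟨z, hz.1⟩ := by
      have h3 := clifford_sum_group A h hθ (h5 ▸ h1)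
      have h7 := congrFun h3 ⟨z, hz.1⟩
      have h8 := congrFun h3 1
      have h9 : ∀ g : G, conjChar A g (fun n => (l n : ℂ)) ⟨z, hz.1⟩ = l ⟨z, hz.1⟩ := fun g => by
        simp only [conjChar_apply, mem_center_iff.1 hz.2 g, mul_inv_cancel_right]
      simp only [Pi.smul_apply, Finset.sum_apply, h9, Finset.sum_const, smul_eq_mul, nsmul_eq_mul] at h7
      simp only [Pi.smul_apply, Finset.sum_apply, conjChar_eq_comp, map_one, Units.val_one,
        Finset.sum_const, smul_eq_mul, nsmul_eq_mul, OneMemClass.coe_one] at h8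
      refine mul_left_cancel₀ (natCard_cast_ne_zero H) ?_
      rw [h7, ← mul_assoc, ← mul_assoc, h8, mul_one]
    have h7 : ∀ a : A, (l a : ℂ) ^ p = 1 := fun a => by
      rw [← Units.val_pow_eq_pow_val, ← map_pow, show a ^ p = 1 from Subtype.ext (hA.2 a a.2), map_one,
        Units.val_one]
    have h8 : IsPrimitiveRoot (l ⟨z, hz.1⟩ : ℂ) p := by
      rw [← orderOf_eq_prime (h7 _) fun e => hz1 (Subtype.ext (hf z (by rw [h6, e, mul_one])))]
      exact IsPrimitiveRoot.orderOf _
    refine Set.ncard_le_ncard_of_injOn (indFun H) ?_ ?_ (orb_finite h)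
    · rintro _ ⟨σ, rfl⟩
      exact ⟨σ, h4 ▸ indFun_map_ringHom H σ.toRingHom ψ⟩
    · rintro _ ⟨σ, rfl⟩ _ ⟨τ, rfl⟩ e
      let ρ := σ.trans τ.symm
      have h9 : ∀ g, ρ (χ g) = χ g := fun g => by
        have := congrFun ((indFun_map_ringHom H σ.toRingHom ψ).symm.trans
          (e.trans (indFun_map_ringHom H τ.toRingHom ψ))) g
        rw [h4] at this
        exact τ.symm_apply_eq.2 this
      have h10 : ∀ a : A, ρ (l a) = l a := fun a => by
        have : NeZero p := ⟨hp.1.ne_zero⟩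
        obtain ⟨i, -, hi⟩ := h8.eq_pow_of_pow_eq_one (h7 a)
        have h11 := h9 z
        rw [h6, map_mul, h9] at h11
        rw [← hi, map_pow, mul_left_cancel₀ h.apply_one_ne_zero h11]
      have h11 := eq_of_indFun_eq_of_over A hAH hθ le_rfl (hψ.map_ringEquiv ρ) hψ
        (by simpa only [h10] using inner_map hθ h1 ρ) h1
        ((indFun_map_ringHom H ρ.toRingHom ψ).trans (by rw [h4]; exact funext h9))
      exact funext fun g => τ.symm_apply_eq.1 (congrFun h11 g)

theorem main {p : ℕ} [hp : Fact p.Prime] (G : Type u) [Group G] [Finite G] : IsPGroup p G →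
    ∀ (χ : G → ℂ) (a t : ℕ), IsIrrCharacter G χ → (charKer χ).index = p ^ a →
    (orb χ).ncard ≤ (p - 1) * p ^ t → (p - 1) * a + 1 ≤ charDegree χ + (p - 1) * (t + 1) * charDegree χ := by
  refine Core.induction_on_card (P := fun G _ _ => IsPGroup p G → ∀ (χ : G → ℂ) (a t : ℕ),
    IsIrrCharacter G χ → (charKer χ).index = p ^ a → (orb χ).ncard ≤ (p - 1) * p ^ t →
    (p - 1) * a + 1 ≤ charDegree χ + (p - 1) * (t + 1) * charDegree χ) G fun G _ _ ih => ?_
  intro hG χ a t h ha ht
  have hp1 := hp.1.one_lt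
  have hd := h.charDegree_pos
  by_cases hk : charKer χ = ⊥
  swap
  · have := h.isCharacter.charKer_normal
    obtain ⟨χ', h1, h2⟩ := h.exists_eq_comp_of_surjective (QuotientGroup.mk' (charKer χ))
      (QuotientGroup.mk'_surjective _) fun x hx =>
        h.isCharacter.mem_charKer_iff.1 ((QuotientGroup.eq_one_iff x).1 hx)
    rw [← charDegree_congr (χ := χ') (h2 1)]
    refine ih _ (Core.card_quotient_lt hk) (hG.to_quotient _) χ' a t h1 ?_ (le_trans ?_ ht)
    · rw [show charKer χ' = ⊥ from eq_bot_iff.2 fun x hx => ?_, index_bot, ← ha, index]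
      induction x using QuotientGroup.induction_on with | H x => ?_
      exact (QuotientGroup.eq_one_iff x).2 (h.isCharacter.mem_charKer_iff.2
        ((h2 x).symm.trans ((h1.isCharacter.mem_charKer_iff.1 hx).trans (h2 1))))
    · refine Set.ncard_le_ncard_of_injOn (fun φ g => φ (QuotientGroup.mk' _ g)) ?_
        (fun φ _ φ' _ e => funext fun x => ?_) (orb_finite h)
      · rintro _ ⟨σ, rfl⟩
        exact ⟨σ, by simp only [h2]⟩
      · induction x using QuotientGroup.induction_on with | H x => exact congrFun e x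
  rw [hk, index_bot] at ha
  by_cases hA : ∃ A : Subgroup G, A.Normal ∧ IsElementaryAbelian p A ∧ Nat.card A = p ^ 2
  · obtain ⟨A, _, hA, hc⟩ := hA
    obtain ⟨H, ψ, h1, h2, h3, h4, h5⟩ := step hG h hk A hA hc
    have h6 := H.index_mul_card
    obtain ⟨b, hb⟩ := (hG.to_subgroup H).index (charKer ψ)
    have h7 := ih H (by rw [← h6, h1]; exact lt_mul_left Nat.card_pos hp1) (hG.to_subgroup H) ψ b t h2 hb
      (h5.trans ht)
    have h8 : a ≤ b * p + 1 := (Nat.pow_le_pow_iff_right hp1).1 (by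
      rw [← ha, ← h6, h1, pow_succ', pow_mul, ← hb]; exact Nat.mul_le_mul_left _ h4)
    rw [h3]
    obtain ⟨q, rfl⟩ : ∃ q, p = q + 1 := ⟨p - 1, by omega⟩
    rw [Nat.add_sub_cancel] at h7 ⊢
    nlinarith [Nat.mul_le_mul_left q h8, Nat.mul_le_mul_left (q + 1) h7]
  rcases a with _ | a
  · omega
  have h0 : 0 < p - 1 := by omega
  rcases PGroup.isCyclic_or_of_no_normal_rank_two hG fun E h1 h2 h3 => hA ⟨E, h1, h2, h3⟩ with
    hc | ⟨rfl, c, b, m, hm, hc, hG2, hb, htop, h1⟩
  · obtain ⟨c, hc⟩ := IsCyclic.exists_generator (α := G)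
    have e : zpowers c = ⊤ := eq_top_iff.2 fun x _ => hc x
    have : (zpowers c).Normal := e ▸ inferInstance
    have h1 := base h hk c
    rw [e, index_top, one_mul, orderOf_eq_card_of_forall_mem_zpowers hc, ha,
      Nat.totient_prime_pow_succ hp.1, mul_comm] at h1
    have h2 := (Nat.pow_le_pow_iff_right hp1).1 (Nat.le_of_mul_le_mul_left (h1.trans ht) h0)
    nlinarith [Nat.mul_le_mul_left (p - 1) h2, Nat.mul_le_mul_left ((p - 1) * (t + 1)) hd]
  · have hi : (zpowers c).index = 2 := Nat.eq_of_mul_eq_mul_right (Nat.two_pow_pos m) (by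
      rw [← pow_succ', ← hG2, ← hc, ← Nat.card_zpowers, index_mul_card])
    have := PGroup.normal_of_index_eq hG hi
    have h2 := base h hk c
    obtain ⟨m, rfl⟩ : ∃ k, m = k + 1 := ⟨m - 1, by omega⟩
    rw [hi, hc, Nat.totient_prime_pow_succ Nat.prime_two] at h2
    have h3 : m ≤ t + 1 := (Nat.pow_le_pow_iff_right one_lt_two).1 (by rw [pow_succ]; omega)
    have h4 : charDegree χ ≠ 1 := fun e => by
      have h5 := h.isCharacter.apply_commutator_of_apply_one (h.isCharacter.charDegree_eq_one_iff.1 e) b c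
      have h6 : b * c * b⁻¹ = c := mul_inv_eq_one.1 (mem_bot.1 (hk ▸ h.isCharacter.mem_charKer_iff.2 h5))
      rw [h6] at h1
      have h7 : ∀ k, c = c ^ k → 1 ≡ k [MOD 2 ^ (m + 1)] := fun k e => by
        rwa [← hc, ← pow_eq_pow_iff_modEq, pow_one]
      have h8 : c ≠ c⁻¹ := fun e => by
        have := orderOf_dvd_of_pow_eq_one ((pow_two c).trans (mul_eq_one_iff_eq_inv.2 e))
        rw [hc] at this
        have := (Nat.pow_dvd_pow_iff_le_right one_lt_two).1 (this.trans (pow_one 2).symm.dvd)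
        omega
      rcases h1 with h1 | h1 | ⟨h1, -, h9⟩
      · exact h8 h1.2.2
      · exact h8 h1.2
      · have h10 : 2 ^ 2 ≤ 2 ^ m := Nat.pow_le_pow_right two_pos (by omega)
        have h11 : 0 < 2 ^ m - 1 - 1 := by omega
        rw [Nat.add_sub_cancel] at h9
        have := Nat.le_of_dvd h11 ((Nat.modEq_iff_dvd' (by omega)).1 (h7 _ h9))
        rw [pow_succ] at this
        omega
    have h5 := Nat.pow_right_injective le_rfl (ha.symm.trans hG2)
    have h6 : 2 ≤ charDegree χ := by omega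
    nlinarith [Nat.mul_le_mul_left (t + 1) h6]

/-- Let P be a finite p-group of order p^a with a > 0, and χ a faithful irreducible character of P of degree f whose field of values ℚ(χ) has degree (p − 1)·p^t over ℚ. Then a ≤ (f − 1)/(p − 1) + (t + 1)·f; in integer form, (p − 1)·a ≤ (f − 1) + (p − 1)(t + 1)·f. -/
theorem result {P : Type*} [Group P] [Finite P] (p a : ℕ) (hp : p.Prime) (ha : 0 < a) (hP : Nat.card P = p ^ a) (χ : Cfsg.IrrCharacter P) (hfaith : ∀ g : P, (χ : P → ℂ) g = (χ : P → ℂ) 1 → g = 1) (f t : ℕ) (hf : Cfsg.charDegree (χ : P → ℂ) = f) (hfield : Module.finrank ℚ (IntermediateField.adjoin ℚ (Set.range (χ : P → ℂ))) = (p - 1) * p ^ t) : (p - 1) * a ≤ (f - 1) + (p - 1) * (t + 1) * f := by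
  have := Fact.mk hp
  have h0 : 0 < (p - 1) * p ^ t := Nat.mul_pos (by have := hp.one_lt; omega) (pow_pos hp.pos t)
  have := Module.finite_of_finrank_pos (hfield ▸ h0)
  have h1 := main P (.of_card hP) χ a t χ.2 (by
    rw [show charKer χ.1 = ⊥ from eq_bot_iff.2 fun g hg => hfaith g (χ.2.isCharacter.mem_charKer_iff.1 hg), index_bot, hP]) (by
    rw [← hfield, ← AlgHom.card ℚ _ ℂ, ← Nat.card_eq_fintype_card, ← Set.ncard_univ]
    refine (Set.ncard_le_ncard (t := (fun φ g => φ ⟨χ.1 g, IntermediateField.subset_adjoin _ _ ⟨g, rfl⟩⟩) ''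
      Set.univ) ?_ (Set.toFinite _)).trans Set.ncard_image_le
    rintro _ ⟨σ, rfl⟩
    exact ⟨σ.toRingHom.toRatAlgHom.comp (IntermediateField.val _), trivial, rfl⟩)
  have := χ.2.charDegree_pos
  rw [hf] at h1 this
  omega

end Cfsg.Agent.S4489
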