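import Cfsg.Statements.S4492
import Cfsg.Agent.Lib.Block.Constr

set_option autoImplicit false
open Cfsg

namespace Cfsg.Agent.S4492

open Cfsg.Lib.Block Cfsg.Lib.Char Cfsg.Lib.Transfer MonoidAlgebra Subgroup

/-- Let G be a finite p-solvable group, N = O_{p'}(G) its largest normal subgroup of order prime to p, and θ an irreducible character of N invariant under conjugation by G; fix a maximal ideal M of the algebraic integers containing p. Then the irreducible characters of G lying over θ (those whose restriction to N contains θ) form a single p-block of G, and the defect groups of that block are exactly the Sylow p-subgroups of G. -/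
theorem result {G : Type*} [Group G] [Fintype G] (p : ℕ) [Fact p.Prime] (M : Ideal Cfsg.AlgInt) (hM : Cfsg.IsPModular p M) (hsolv : Cfsg.IsPSolvable p G) (N : Subgroup G) [hN : N.Normal] [Fintype N] (hNdef : N = Cfsg.pPrimeCore p G) (θ : Cfsg.IrrCharacter N) (hinv : ∀ (g : G) (n : N), (θ : N → ℂ) ⟨g * n * g⁻¹, hN.conj_mem n n.2 g⟩ = (θ : N → ℂ) n) : ∃ B : Set (Cfsg.IrrCharacter G), Cfsg.IsPBlock M B ∧ (∀ χ : Cfsg.IrrCharacter G, χ ∈ B ↔ Cfsg.classInner (fun n : N => (χ : G → ℂ) n) (θ : N → ℂ) ≠ 0) ∧ (∀ P : Sylow p G, Cfsg.IsDefectGroup p M B (P : Subgroup G)) ∧ ∀ D : Subgroup G, Cfsg.IsDefectGroup p M B D → ∃ P : Sylow p G, D = (P : Subgroup G) := by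
  have : Modular p M := ⟨hM⟩
  obtain ⟨B, hB, h1, h2, -⟩ := exists_block_over (M := M)
    (Lib.Core.isPConstrained_of_isPSolvable hsolv) hNdef (θ := θ) fun g =>
      ⟨normalizer_eq_top N ▸ mem_top g, fun χ hχ => ⟨θ, rfl, fun k k' h => by
        rw [Set.mem_singleton_iff.1 hχ, ← hinv g k]; exact congrArg _ (Subtype.ext h)⟩⟩
  refine ⟨B, hB, h1, h2, fun D hD => ?_⟩
  obtain ⟨P⟩ : Nonempty (Sylow p G) := inferInstance
  obtain ⟨x, rfl⟩ := hB.exists_conj_eq (h2 P) hD
  exact ⟨x • P, rfl⟩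

end Cfsg.Agent.S4492
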