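import Cfsg.Statements.S4493
import Cfsg.Agent.Lib.CharDeg.Ito

set_option autoImplicit false
open Cfsg

namespace Cfsg.Agent.S4493

open Cfsg.Lib.Char Cfsg.Lib.CharDeg Cfsg.Lib.Core in

/-- Let G be a finite solvable group and p a prime. Then G has a normal abelian Sylow p-subgroup if and only if no irreducible character degree of G is divisible by p. -/
theorem result {G : Type*} [Group G] [Finite G] (hsolv : Group.IsSolvable G) (p : ℕ) (hp : p.Prime) : (∃ P : Subgroup G, P.Normal ∧ (∀ x ∈ P, ∀ y ∈ P, x * y = y * x) ∧ IsPGroup p P ∧ ¬ p ∣ P.index) ↔ ∀ χ : Cfsg.IrrCharacter G, ¬ p ∣ Cfsg.charDegree (χ : G → ℂ) := by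
  haveI := Fact.mk hp
  constructor
  · rintro ⟨P, hP, h1, -, h3⟩ χ hd
    exact h3 (hd.trans (dvd_index_of_comm h1 (charDegree_mem_cd χ.2)))
  · intro hb
    have h : ∀ n ∈ cd G, ¬ p ∣ n := fun n hn => by
      obtain ⟨χ, rfl⟩ := mem_cd.1 hn
      exact hb χ
    exact ⟨pCore p G, inferInstance, comm_of_normal_of_not_dvd_cd (pCore_isPGroup p G) h,
      pCore_isPGroup p G, not_dvd_index_pCore_of_cd G (isPSolvable_of_isSolvable hsolv) h⟩

end Cfsg.Agent.S4493
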