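import Cfsg.Statements.S4495
import Cfsg.Agent.Lib.CharDeg.SelfCent

set_option autoImplicit false
open Cfsg

namespace Cfsg.Agent.S4495

/-- Let the finite group G contain an element x of prime order p with C_G(x) = ⟨x⟩, and let t be the number of conjugacy classes of elements of order p. If t ≠ p − 1 then the commutator subgroup has index at most (p − 1)/t; if t = p − 1 it has index exactly p. -/
theorem result {G : Type*} [Group G] [Finite G] (p : ℕ) (hp : p.Prime) (x : G) (hx : orderOf x = p) (hC : Subgroup.centralizer ({x} : Set G) = Subgroup.zpowers x) (t : ℕ) (ht : Nat.card {C : ConjClasses G // ∃ g ∈ C.carrier, orderOf g = p} = t) : (t ≠ p - 1 → (commutator G).index * t ≤ p - 1) ∧ (t = p - 1 → (commutator G).index = p) := by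
  have h : Lib.CharDeg.SelfCent p x := ⟨hp, hx, hC⟩
  have hm := h.card_classes_mul
  rw [ht] at hm
  have hp1 : 0 < p - 1 := by have := hp.one_lt; omega
  constructor
  · intro hne
    have hxc := h.mem_commutator (fun e => hne (by rw [e, mul_one] at hm; exact hm))
    have htop := h.sup_normalizer_eq_top _ hxc
    rw [← hm, mul_comm]
    refine Nat.mul_le_mul_left _ ?_
    rw [← Subgroup.relIndex_top_right, ← htop, Subgroup.relIndex_sup_right]
    refine Nat.le_of_dvd (Nat.pos_of_ne_zero (fun e => ?_))
      (Subgroup.relIndex_dvd_of_le_left _ (Subgroup.zpowers_le.mpr hxc))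
    rw [e] at hm
    omega
  · intro e
    rw [e] at hm
    exact (h.index_commutator (Nat.eq_of_mul_eq_mul_left hp1 (by rw [hm, mul_one]))).1

end Cfsg.Agent.S4495
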