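import Cfsg.Statements.S4497
import Cfsg.Agent.Lib.CharDeg.SelfCent

set_option autoImplicit false
open Cfsg

namespace Cfsg.Agent.S4497

/-- Let the finite group G contain an element x of prime order p with C_G(x) = ⟨x⟩, let t be the number of conjugacy classes of elements of order p, and let S* = O_{p′}(G) be the largest normal subgroup of order prime to p. Then S* ≤ G′; if t ≠ p − 1 the quotient G′/S* is simple (in particular non-trivial); if t = p − 1 then G′ = S*. -/
theorem result {G : Type*} [Group G] [Finite G] (p : ℕ) (hp : p.Prime) (x : G) (hx : orderOf x = p) (hC : Subgroup.centralizer ({x} : Set G) = Subgroup.zpowers x) (t : ℕ) (ht : Nat.card {C : ConjClasses G // ∃ g ∈ C.carrier, orderOf g = p} = t) : Cfsg.pPrimeCore p G ≤ commutator G ∧ (t ≠ p - 1 → ∀ h : ((Cfsg.pPrimeCore p G).subgroupOf (commutator G)).Normal, IsSimpleGroup (↥(commutator G) ⧸ (Cfsg.pPrimeCore p G).subgroupOf (commutator G))) ∧ (t = p - 1 → commutator G = Cfsg.pPrimeCore p G) := by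
  have h : Lib.CharDeg.SelfCent p x := ⟨hp, hx, hC⟩
  haveI := Fact.mk hp
  have hm := h.card_classes_mul
  rw [ht] at hm
  have hp1 : 0 < p - 1 := by have := hp.one_lt; omega
  have hxO : x ∉ pPrimeCore p G := h.not_mem_of_not_dvd (Lib.Core.not_dvd_card_pPrimeCore p G)
  refine ⟨h.le_commutator hxO, fun hne hn => ?_, fun e => ?_⟩
  · have hxc := h.mem_commutator (fun e => hne (by rw [e, mul_one] at hm; exact hm))
    haveI : Nontrivial (↥(commutator G) ⧸ (pPrimeCore p G).subgroupOf (commutator G)) :=
      ⟨⟨QuotientGroup.mk ⟨x, hxc⟩, 1, fun e => hxO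
        ((QuotientGroup.eq_one_iff (⟨x, hxc⟩ : commutator G)).mp e)⟩⟩
    refine ⟨fun M hM => ?_⟩
    set M' := M.comap (QuotientGroup.mk' ((pPrimeCore p G).subgroupOf (commutator G))) with hM'
    by_cases hd : p ∣ Nat.card M'
    · right
      have h1 : Subgroup.normalClosure ({x} : Set G) ≤ M'.map (commutator G).subtype := by
        refine (Subgroup.closure_le _).mpr fun y hy => ?_
        obtain ⟨a, rfl, hy2⟩ := Group.mem_conjugatesOfSet_iff.mp hy
        obtain ⟨g, rfl⟩ := isConj_iff.mp hy2
        have hy' : g * a * g⁻¹ ∈ commutator G := (inferInstance : (commutator G).Normal).conj_mem _ hxc g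
        exact ⟨⟨_, hy'⟩, ((h.conj g).subgroup hy').mem_of_dvd M' hd, rfl⟩
      have h2 := (h.commutator_le_of_mem _ (Subgroup.subset_normalClosure (Set.mem_singleton x))).trans h1
      have h3 : M' = ⊤ := by
        rw [eq_top_iff]
        intro y _
        obtain ⟨z, hz, e⟩ := h2 y.2
        rwa [← Subtype.ext e]
      rw [← Lib.Core.map_comap_mk' _ M, ← hM', h3,
        Subgroup.map_top_of_surjective _ (QuotientGroup.mk'_surjective _)]
    · left
      have h1 : M' ≤ pPrimeCore p (commutator G) :=
        Lib.Core.le_pPrimeCore inferInstance (Lib.Core.coprime_iff_not_dvd.mpr hd)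
      have h2 : (pPrimeCore p (commutator G)).map (commutator G).subtype ≤ pPrimeCore p G :=
        Lib.Core.le_pPrimeCore inferInstance
          (Lib.Core.coprime_map _ (Lib.Core.pPrimeCore_coprime p _))
      rw [← Lib.Core.map_comap_mk' _ M, ← hM', Lib.Core.map_mk'_eq_bot_iff]
      exact h1.trans (Lib.Core.map_subtype_le_iff.mp h2)
  · rw [e] at hm
    have := (h.index_commutator (Nat.eq_of_mul_eq_mul_left hp1 (by rw [hm, mul_one]))).2
    exact le_antisymm (Lib.Core.le_pPrimeCore inferInstance
      (Lib.Core.coprime_iff_not_dvd.mpr (h.not_dvd_of_not_mem this))) (h.le_commutator hxO)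

end Cfsg.Agent.S4497
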