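import Cfsg.Statements.S4498
import Cfsg.Agent.Lib.Modular.Vanish

set_option autoImplicit false
open Cfsg

namespace Cfsg.Agent.S4498

open Cfsg.Lib.Block Cfsg.Lib.Char Cfsg.Lib.Modular
open scoped ComplexConjugate

/-- Let p and q be distinct primes dividing the order of the finite group G, and suppose G has no element of order p·q. Fix maximal ideals M_p over p and M_q over q of the algebraic integers. Then the principal p-block and the principal q-block of G have a non-principal irreducible character in common. -/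
theorem result {G : Type*} [Group G] [Finite G] (p q : ℕ) [Fact p.Prime] [Fact q.Prime] (hpq : p ≠ q) (hp : p ∣ Nat.card G) (hq : q ∣ Nat.card G) (hno : ∀ g : G, orderOf g ≠ p * q) (Mp Mq : Ideal Cfsg.AlgInt) (hMp : Cfsg.IsPModular p Mp) (hMq : Cfsg.IsPModular q Mq) : ∃ χ : Cfsg.IrrCharacter G, (χ : G → ℂ) ≠ (fun _ => 1) ∧ χ ∈ Cfsg.principalBlock Mp G ∧ χ ∈ Cfsg.principalBlock Mq G := by
  classical
  have : Modular p Mp := ⟨hMp⟩
  have : Modular q Mq := ⟨hMq⟩
  have := Fintype.ofFinite G
  obtain ⟨y, hy⟩ := exists_prime_orderOf_dvd_card' p hp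
  obtain ⟨ω, hω, h⟩ := exists_sum_inter_eq hpq hno
    (Lib.Block.isPBlock_principalBlock (G := G) (M := Mp)).fblk_mem_SG
    (Lib.Block.isPBlock_principalBlock (G := G) (M := Mq)).fblk_mem_SG (y := y) (hy ▸ dvd_rfl)
  by_contra hne
  push Not at hne
  rw [Finset.sum_eq_single (irrOne G)] at h
  · have hq' : q.Prime := Fact.out
    obtain ⟨k, hk⟩ : ∃ k, (Nat.card G).factorization q = k + 1 :=
      Nat.exists_eq_succ_of_ne_zero (hq'.factorization_pos_of_dvd Nat.card_pos.ne' hq).ne'
    apply not_isIntegral_inv_prime hq'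
    have e : (q : ℂ)⁻¹ = (q : ℂ) ^ k * ω := by
      rw [hk] at h
      simp only [irrOne_apply, mul_one] at h
      refine inv_eq_of_mul_eq_one_right ?_
      rw [h]; ring
    rw [e]
    exact ((isIntegral_natCast q).pow k).mul hω
  · intro χ hχ h1
    simp only [Finset.mem_filter, Finset.mem_univ, true_and, Set.mem_inter_iff] at hχ
    exact absurd hχ.2 (hne χ (fun e => h1 (Subtype.ext e)) hχ.1)
  · intro h1
    exact absurd (by simp [Lib.Block.irrOne_mem_principalBlock]) h1

end Cfsg.Agent.S4498
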