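import Cfsg.Statements.S4502
import Cfsg.Agent.Lib.Cyc.Perfect
import Cfsg.Agent.S0920

set_option autoImplicit false
open Cfsg

namespace Cfsg.Agent.S4502

open Cfsg.Lib.Block Cfsg.Lib.Char Cfsg.Lib.Cyc Subgroup in

/-- Let G be a finite group whose order is divisible by the prime p exactly once, and let P be a Sylow p-subgroup. Then the number of irreducible characters of G of degree not divisible by p equals the number of conjugacy classes of the normalizer of P. -/
theorem result {G : Type*} [Group G] [Finite G] (p : ℕ) [Fact p.Prime] (hdiv : p ∣ Nat.card G) (hsq : ¬ p ^ 2 ∣ Nat.card G) (P : Sylow p G) : Nat.card {χ : Cfsg.IrrCharacter G // ¬ p ∣ Cfsg.charDegree (χ : G → ℂ)} = Nat.card (ConjClasses (Subgroup.normalizer ((P : Subgroup G) : Set G))) := by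
  classical
  have hp : p.Prime := Fact.out
  obtain ⟨M, hM⟩ := Cfsg.Lib.Modular.exists_isPModular hp
  haveI : Modular p M := ⟨hM⟩
  have h0 : Nat.card G ≠ 0 := Nat.card_pos.ne'
  have h1 : (Nat.card G).factorization p = 1 := by
    have := mt (hp.pow_dvd_iff_le_factorization h0).2 hsq
    have := (hp.dvd_iff_one_le_factorization h0).1 hdiv
    omega
  have hP : Nat.card P = p := by rw [P.card_eq_multiplicity, h1, pow_one]
  obtain ⟨h2, h3⟩ := S0920.result p M hM (P : Subgroup G) P.isPGroup'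
  have hd : ∀ b : Blk (normalizer ((P : Subgroup G) : Set G)) M,
      IsDefectGroup p M b.1 ((P : Subgroup G).subgroupOf _) := fun b => by
    obtain ⟨D, hD⟩ := b.2.exists_isDefectGroup (p := p)
    have : ((P : Subgroup G).subgroupOf (normalizer ((P : Subgroup G) : Set G))).Normal :=
      normal_in_normalizer
    have h4 := b.2.le_defectGroup_of_normal (P := (P : Subgroup G).subgroupOf _) hD
      P.isPGroup'.comap_subtype
    rwa [(P.subtype le_normalizer).is_maximal' hD.isPGroup h4] at hD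
  choose β hβ hβ1 hβ2 using fun b => h2 _ b.2 (hd b)
  have hc : ∀ b, Nat.card (β b) = Nat.card b.1 := fun b => by
    obtain ⟨e, ⟨_, _, _, _, _, h⟩, _, _, _, _, _, h'⟩ := exists_dade_pair (hβ1 b)
      (isCyclic_of_prime_card hP) (fun h => hp.one_lt.ne (by rw [← hP, h, card_bot])) le_rfl (hd b)
      (hβ2 b)
    exact h.card_eq.trans h'.card_eq.symm
  have hn : ∀ b, ∀ χ ∈ β b, ¬ p ∣ charDegree (χ : G → ℂ) := fun b χ hχ h => by
    have h4 := (hβ b).card_defectGroup (hβ1 b)
    rw [((hβ b).blockDefect_eq_zero_iff_mem hχ).2 (le_antisymm (Nat.factorization_le_factorization_of_dvd_right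
      χ.2.charDegree_dvd_card (charDegree_ne_zero χ.2) h0)
      (h1 ▸ (hp.dvd_iff_one_le_factorization (charDegree_ne_zero χ.2)).1 h)), hP, pow_zero] at h4
    exact hp.one_lt.ne' h4
  rw [← card_irr_eq_card_conjClasses, ← Nat.card_congr (Equiv.ofBijective
    (fun x : Σ b, β b => (⟨x.2, hn _ _ x.2.2⟩ : {χ : IrrCharacter G // ¬ p ∣ charDegree (χ : G → ℂ)}))
    ⟨?_, fun χ => ?_⟩), ← Nat.card_congr (Equiv.sigmaFiberEquiv (blkOf M)), Nat.card_sigma,
    Nat.card_sigma]
  · exact Finset.sum_congr rfl fun b _ => (hc b).trans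
      (Nat.card_congr (Equiv.subtypeEquivRight fun χ => mem_blk_iff.trans eq_comm))
  · rintro ⟨b, χ, hχ⟩ ⟨b', χ', hχ'⟩ e
    obtain rfl : χ = χ' := congrArg Subtype.val e
    have h4 := (hβ b).eq_of_mem (hβ b') hχ hχ'
    obtain rfl : b = b' := Subtype.ext ((h3 _ (hβ b) (hβ1 b)).unique ⟨b.2, hd b, hβ2 b⟩
      ⟨b'.2, hd b', h4 ▸ hβ2 b'⟩)
    rfl
  · obtain ⟨b, ⟨h4, h5, h6⟩, -⟩ := h3 _ (isPBlock_blockOf χ.1)
      ((isPBlock_blockOf χ.1).isDefectGroup_sylow (mem_blockOf_self _) χ.2 P)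
    exact ⟨⟨⟨b, h4⟩, χ.1, (hβ2 ⟨b, h4⟩).unique h6 ▸ mem_blockOf_self _⟩, rfl⟩

end Cfsg.Agent.S4502
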