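import Cfsg.Statements.S4505
import Cfsg.Agent.Lib.Modular.ClassDefect

set_option autoImplicit false
open Cfsg

namespace Cfsg.Agent.S4505

open Cfsg.Lib.Block Cfsg.Lib.Char Cfsg.Lib.Modular
open scoped ComplexConjugate

/-- Let G be a finite group, p a prime and M a maximal ideal of the algebraic integers containing p. For every σ, the number of p-blocks of defect exactly σ is at most the number of conjugacy classes of p-regular elements whose centralizer has order divisible by p^σ but not by p^(σ+1). -/
theorem result {G : Type*} [Group G] [Finite G] (p : ℕ) [Fact p.Prime] (M : Ideal Cfsg.AlgInt) (hM : Cfsg.IsPModular p M) (σ : ℕ) : Nat.card {B : Set (Cfsg.IrrCharacter G) // Cfsg.IsPBlock M B ∧ Cfsg.blockDefect p B = σ} ≤ Nat.card {C : ConjClasses G // ∃ g : G, ConjClasses.mk g = C ∧ ¬ p ∣ orderOf g ∧ (Nat.card (Subgroup.centralizer ({g} : Set G))).factorization p = σ} := by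
  classical
  have : Modular p M := ⟨hM⟩
  have := Fintype.ofFinite (ConjClasses G)
  have := Fintype.ofFinite {B : Set (IrrCharacter G) // IsPBlock M B ∧ blockDefect p B = σ}
  set T := {C : ConjClasses G // ∃ g : G, ConjClasses.mk g = C ∧ ¬ p ∣ orderOf g ∧
    (Nat.card (Subgroup.centralizer ({g} : Set G))).factorization p = σ}
  have := Fintype.ofFinite T
  have hT : ∀ C : ConjClasses G, C ∈ Finset.univ.filter (fun C : ConjClasses G =>
      ¬ p ∣ orderOf (crep C) ∧
      (Nat.card (Subgroup.centralizer ({crep C} : Set G))).factorization p = σ) ↔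
      ∃ g : G, ConjClasses.mk g = C ∧ ¬ p ∣ orderOf g ∧
        (Nat.card (Subgroup.centralizer ({g} : Set G))).factorization p = σ := fun C => by
    rw [Finset.mem_filter]
    refine ⟨fun h => ⟨_, mk_crep C, h.2⟩, ?_⟩
    rintro ⟨g, rfl, h1, h2⟩
    have hc := isConj_crep_mk g
    refine ⟨Finset.mem_univ _, ?_, by rw [card_centralizer_eq_of_isConj hc, h2]⟩
    obtain ⟨c, hc⟩ := isConj_iff.1 hc
    rwa [← hc, orderOf_conj_eq] at h1
  have hli : LinearIndependent (Res M) fun (B : {B : Set (IrrCharacter G) // IsPBlock M B ∧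
      blockDefect p B = σ}) (C : T) => (eblk M B.1).coeff (crep C.1) := by
    rw [Fintype.linearIndependent_iff]
    intro c hc B
    obtain ⟨χ, hχ⟩ := B.2.1.nonempty
    have key : ∀ B' : {B : Set (IrrCharacter G) // IsPBlock M B ∧ blockDefect p B = σ},
        ∑ C : T, (eblk M B'.1).coeff (crep C.1) * red M (centralChar (χ : G → ℂ) (crep C.1)) =
          if B' = B then 1 else 0 := fun B' => by
      have h1 := lam_eblk_eq_sum_filter B.2.1 B'.2.1 (by rw [B.2.2, B'.2.2]) hχ
      rw [B.2.2, Finset.sum_subtype _ hT, B'.2.1.lam_eblk] at h1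
      rw [← h1]
      refine if_congr ⟨fun h => Subtype.ext (B'.2.1.eq_of_mem B.2.1 h hχ), ?_⟩ rfl rfl
      rintro rfl; exact hχ
    have h2 : ∑ C : T, (∑ B', c B' * (eblk M B'.1).coeff (crep C.1)) *
        red M (centralChar (χ : G → ℂ) (crep C.1)) = 0 := Finset.sum_eq_zero fun C _ => by
      have := congrFun hc C
      simp only [Finset.sum_apply, Pi.smul_apply, smul_eq_mul, Pi.zero_apply] at this
      rw [this, zero_mul]
    simp_rw [Finset.sum_mul] at h2
    rw [Finset.sum_comm] at h2
    simp_rw [mul_assoc, ← Finset.mul_sum, key] at h2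
    simpa using h2
  have := hli.fintype_card_le_finrank
  rwa [Module.finrank_fintype_fun_eq_card, ← Nat.card_eq_fintype_card,
    ← Nat.card_eq_fintype_card] at this

end Cfsg.Agent.S4505
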