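import Cfsg.Statements.S4506
import Cfsg.Agent.Lib.Modular.Contrib
import Cfsg.Agent.Lib.Char.Galois

set_option autoImplicit false
open Cfsg

namespace Cfsg.Agent.S4506

open Cfsg.Lib.Char Cfsg.Lib.Block Cfsg.Lib.Modular Subgroup
open scoped ComplexConjugate

theorem bound {G : Type*} [Group G] [Fintype G] {p : ℕ} [hp : Fact p.Prime]
    (χ : IrrCharacter G) (S : Finset (IrrCharacter G)) (hS : S.Nonempty)
    (h : ∀ ψ ∈ S, ∀ g : G, ¬ p ∣ orderOf g → (ψ : G → ℂ) g = (χ : G → ℂ) g) :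
    S.card ≤ p ^ ((Nat.card G).factorization p - (charDegree (χ : G → ℂ)).factorization p) ∧
    (S.card = p ^ ((Nat.card G).factorization p - (charDegree (χ : G → ℂ)).factorization p) →
      (∀ g : G, p ∣ orderOf g → ∑ ψ ∈ S, (ψ : G → ℂ) g = 0) ∧
      ((charDegree (χ : G → ℂ)).factorization p < (Nat.card G).factorization p →
        ∃ x y : G, orderOf x = p ∧ ¬ p ∣ orderOf y ∧ Commute x y ∧ (χ : G → ℂ) (x * y) ≠ 0)) := by
  classical
  obtain ⟨M, hM⟩ := exists_isPModular hp.out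
  haveI : Modular p M := ⟨hM⟩
  set e := (Nat.card G).factorization p - (charDegree (χ : G → ℂ)).factorization p with he
  obtain ⟨n, hn, -⟩ := exists_int_regInner M χ.2 χ.2.isGeneralizedCharacter
  rw [← he] at hn
  set ρ : ℝ := (regInner p (χ : G → ℂ) χ).re with hρ
  have hρc : regInner p (χ : G → ℂ) χ = ρ := by
    rw [hρ, regInner_self_eq, Complex.ofReal_re]
  have hρ0 : 0 < ρ := lt_of_le_of_ne (regInner_self_re_nonneg _) fun h0 =>
    regInner_self_ne_zero (p := p) χ.2.apply_one_ne_zero (by rw [hρc, ← h0]; simp)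
  have hn' : (p : ℝ) ^ e * ρ = n := by
    rw [hρc] at hn; exact_mod_cast hn
  have hpe : (0 : ℝ) < (p : ℝ) ^ e := pow_pos (by exact_mod_cast hp.out.pos) e
  have hn1 : (1 : ℝ) ≤ n := by
    have : (0 : ℝ) < n := hn' ▸ mul_pos hpe hρ0
    have h2 : (0 : ℤ) < n := by exact_mod_cast this
    exact_mod_cast h2
  have hcl := isClassFunction_pRegularPart (p := p) χ.2.isClassFunction
  have hin : ∀ ψ ∈ S, classInner (pRegularPart p (χ : G → ℂ)) ψ = ρ := fun ψ hψ =>
    (regInner_congr (fun _ _ => rfl) (h ψ hψ)).trans hρc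
  have hpar : ∑ ψ : IrrCharacter G, ‖classInner (pRegularPart p (χ : G → ℂ)) ψ‖ ^ 2 = ρ := by
    have h1 := hcl.inner_eq_sum_irr (pRegularPart p (χ : G → ℂ))
    rw [← regInner_eq_both, hρc] at h1
    have h2 : ((∑ ψ : IrrCharacter G, ‖classInner (pRegularPart p (χ : G → ℂ)) ψ‖ ^ 2 : ℝ) : ℂ) =
        ρ := by
      rw [h1]; push_cast
      exact Finset.sum_congr rfl fun ψ _ => (Complex.mul_conj' _).symm
    exact_mod_cast h2
  rw [← Finset.sum_add_sum_compl S, Finset.sum_congr rfl (g := fun _ => ρ ^ 2) (fun ψ hψ => by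
    rw [hin ψ hψ, Complex.norm_real, Real.norm_eq_abs, sq_abs]), Finset.sum_const,
    nsmul_eq_mul] at hpar
  have hnn : 0 ≤ ∑ ψ ∈ Sᶜ, ‖classInner (pRegularPart p (χ : G → ℂ)) ψ‖ ^ 2 :=
    Finset.sum_nonneg fun _ _ => sq_nonneg _
  have h1 : S.card * ρ ≤ 1 := by
    by_contra h2
    push Not at h2
    nlinarith
  have h2 : (S.card : ℝ) * n ≤ p ^ e := by rw [← hn']; nlinarith
  have hc0 : (0 : ℝ) ≤ S.card := Nat.cast_nonneg _
  refine ⟨by
    have : (S.card : ℝ) ≤ p ^ e := by nlinarith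
    exact_mod_cast this, fun heq => ?_⟩
  have heq' : (S.card : ℝ) = p ^ e := by exact_mod_cast heq
  have hn2 : (n : ℝ) = 1 := by rw [heq'] at h2; nlinarith
  have h3 : S.card * ρ = 1 := by rw [heq', hn', hn2]
  have h4 : ∑ ψ ∈ Sᶜ, ‖classInner (pRegularPart p (χ : G → ℂ)) ψ‖ ^ 2 = 0 := by nlinarith
  have h5 : ∀ ψ ∈ Sᶜ, classInner (pRegularPart p (χ : G → ℂ)) ψ = 0 := fun ψ hψ => by
    simpa using (Finset.sum_eq_zero_iff_of_nonneg (fun _ _ => sq_nonneg _)).1 h4 ψ hψ
  refine ⟨fun g hg => ?_, fun hlt => ?_⟩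
  · have h6 := hcl.apply_eq_sum_irr g
    rw [pRegularPart_of_dvd _ hg, ← Finset.sum_add_sum_compl S, Finset.sum_eq_zero (s := Sᶜ)
      (fun ψ hψ => by rw [h5 ψ hψ, zero_mul]), add_zero,
      Finset.sum_congr rfl (fun ψ hψ => by rw [hin ψ hψ]), ← Finset.mul_sum] at h6
    exact (mul_eq_zero.1 h6.symm).resolve_left (by exact_mod_cast hρ0.ne')
  · obtain ⟨u, hu, hu'⟩ := exists_unit_omega_zreg M χ.2
    have h7 := hu' χ
    have hn3 : (n : ℂ) = 1 := by exact_mod_cast hn2
    rw [conj_apply_inv_eq χ.2.isGeneralizedCharacter, ← he, hn, hn3, mul_one,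
      omega_eq_sum_classes χ.2.isClassFunction (zreg_mem_fix χ.2.isClassFunction)] at h7
    have hmem := mem_SG.1 (zreg_mem_SG (p := p) (M := M) (irr_mem χ))
    rw [← h7, red_sum _ _ (fun C _ => mul_mem (hmem _) (centralChar_mem χ.2 _))] at hu
    obtain ⟨C, -, hC⟩ := Finset.exists_ne_zero_of_sum_ne_zero hu
    rw [red_mul (hmem _) (centralChar_mem χ.2 _), coeff_zreg] at hC
    set y := crep C
    have hy : ¬ p ∣ orderOf y := fun hy => hC (by rw [if_pos hy, red_zero, zero_mul])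
    rw [if_neg hy] at hC
    have hpc : p ∣ Nat.card (centralizer ({y} : Set G)) := by
      by_contra hpc
      refine right_ne_zero_of_mul hC ?_
      have hi : (centralizer ({y} : Set G)).index.factorization p =
          (Nat.card G).factorization p := by
        rw [← (centralizer ({y} : Set G)).card_mul_index,
          Nat.factorization_mul Nat.card_pos.ne' index_ne_zero_of_finite, Finsupp.add_apply,
          Nat.factorization_eq_zero_of_not_dvd hpc, zero_add]
      have e1 : centralChar (χ : G → ℂ) y =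
          ((centralizer ({y} : Set G)).index : ℂ) / charDegree (χ : G → ℂ) * (χ : G → ℂ) y := by
        rw [centralChar_def, χ.2.apply_one_eq]; ring
      rw [e1, red_mul (natCast_div_mem χ.2.charDegree_pos.ne' (Or.inl (hi ▸ hlt.le))) (irr_mem χ y),
        red_natCast_div_eq_zero χ.2.charDegree_pos.ne' (hi ▸ hlt), zero_mul]
    obtain ⟨x, hx⟩ := exists_prime_orderOf_dvd_card' p hpc
    have hxo : orderOf (x : G) = p := by rw [Subgroup.orderOf_coe, hx]
    have hxy : Commute (x : G) y⁻¹ :=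
      (show Commute (x : G) y from mem_centralizer_singleton_iff.1 x.2).inv_right
    refine ⟨x, y⁻¹, hxo, by rwa [orderOf_inv], hxy, fun h0 => left_ne_zero_of_mul hC ?_⟩
    have := red_char_regPart (p := p) (M := M) χ.2.isCharacter (x * y⁻¹)
    rw [regPart_mul hp.out ⟨1, by rw [hxo, pow_one]⟩ (by rwa [orderOf_inv]) hxy, h0, red_zero] at this
    exact this

/-- Let G be a finite group, p a prime, p^a the p-part of the order of G and g′ its p′-part. Call two irreducible characters p-conjugate when one is obtained from the other by applying a field automorphism of ℂ that fixes the g′-th roots of unity, and let r be the number of characters p-conjugate to the irreducible character χ (χ included). Then the exponent of p in r·χ(1) is at most a; and if p^a divides r·χ(1) then p^a already divides χ(1). -/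
theorem result {G : Type*} [Group G] [Finite G] (p : ℕ) (hp : p.Prime) (χ : Cfsg.IrrCharacter G) (r : ℕ) (hr : Nat.card {ψ : Cfsg.IrrCharacter G // ∃ σ : ℂ ≃+* ℂ, σ (Complex.exp (2 * Real.pi * Complex.I / ((Nat.card G / p ^ (Nat.card G).factorization p) : ℕ))) = Complex.exp (2 * Real.pi * Complex.I / ((Nat.card G / p ^ (Nat.card G).factorization p) : ℕ)) ∧ (ψ : G → ℂ) = fun g => σ ((χ : G → ℂ) g)} = r) : (r * Cfsg.charDegree (χ : G → ℂ)).factorization p ≤ (Nat.card G).factorization p ∧ (p ^ (Nat.card G).factorization p ∣ r * Cfsg.charDegree (χ : G → ℂ) → p ^ (Nat.card G).factorization p ∣ Cfsg.charDegree (χ : G → ℂ)) := by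
  classical
  haveI : Fact p.Prime := ⟨hp⟩
  haveI := Fintype.ofFinite G
  set m := Nat.card G / p ^ (Nat.card G).factorization p with hm
  have hm0 : m ≠ 0 := (Nat.ordCompl_pos p Nat.card_pos.ne').ne'
  set ζ := Complex.exp (2 * Real.pi * Complex.I / (m : ℕ)) with hζ
  have hprim : IsPrimitiveRoot ζ m := Complex.isPrimitiveRoot_exp m hm0
  set S := Finset.univ.filter (fun ψ : IrrCharacter G => ∃ σ : ℂ ≃+* ℂ, σ ζ = ζ ∧
    (ψ : G → ℂ) = fun g => σ ((χ : G → ℂ) g)) with hS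
  have hSr : S.card = r := by rw [← hr, Nat.subtype_card S (by simp [hS])]
  have hχS : χ ∈ S := Finset.mem_filter.2 ⟨Finset.mem_univ _, RingEquiv.refl ℂ, rfl, rfl⟩
  have hfix : ∀ σ : ℂ ≃+* ℂ, σ ζ = ζ → ∀ z : ℂ, z ^ m = 1 → σ z = z := by
    intro σ hσ z hz
    haveI : NeZero m := ⟨hm0⟩
    obtain ⟨i, -, rfl⟩ := hprim.eq_pow_of_pow_eq_one hz
    rw [map_pow, hσ]
  have hdvd : ∀ g : G, ¬ p ∣ orderOf g → orderOf g ∣ m := fun g hg =>
    (((Nat.Prime.coprime_iff_not_dvd hp).2 hg).symm.pow_right _).dvd_of_dvd_mul_left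
      (by rw [hm, Nat.ordProj_mul_ordCompl_eq_self]; exact orderOf_dvd_natCard g)
  obtain ⟨h1, h2⟩ := bound (p := p) χ S ⟨χ, hχS⟩ (fun ψ hψ g hg => by
    obtain ⟨σ, hσ, e⟩ := (Finset.mem_filter.1 hψ).2
    rw [e]
    exact χ.2.isGeneralizedCharacter.map_apply_eq_self_of_dvd σ.toRingHom (hdvd g hg) (hfix σ hσ))
  rw [hSr] at h1 h2
  have hr0 : r ≠ 0 := hSr ▸ (Finset.card_pos.2 ⟨χ, hχS⟩).ne'
  have hd0 := χ.2.charDegree_pos.ne'
  have ht : (charDegree (χ : G → ℂ)).factorization p ≤ (Nat.card G).factorization p :=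
    (Nat.factorization_le_iff_dvd hd0 Nat.card_pos.ne').2 χ.2.charDegree_dvd_card p
  have hrf : r.factorization p ≤
      (Nat.card G).factorization p - (charDegree (χ : G → ℂ)).factorization p :=
    (Nat.pow_le_pow_iff_right hp.one_lt).1
      ((Nat.le_of_dvd (Nat.pos_of_ne_zero hr0) (Nat.ordProj_dvd r p)).trans h1)
  rw [Nat.factorization_mul hr0 hd0, Finsupp.add_apply]
  refine ⟨by omega, fun hdv => ?_⟩
  rw [hp.pow_dvd_iff_le_factorization (mul_ne_zero hr0 hd0), Nat.factorization_mul hr0 hd0,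
    Finsupp.add_apply] at hdv
  rw [hp.pow_dvd_iff_le_factorization hd0]
  by_contra hlt
  push Not at hlt
  have hre : r = p ^ ((Nat.card G).factorization p - (charDegree (χ : G → ℂ)).factorization p) := by
    refine le_antisymm h1 (Nat.le_of_dvd (Nat.pos_of_ne_zero hr0) ?_)
    rw [hp.pow_dvd_iff_le_factorization hr0]; omega
  obtain ⟨h3, h4⟩ := h2 hre
  obtain ⟨x, y, hx, hy, hxy, hne⟩ := h4 hlt
  set U : Subgroup (RingAut ℂ) := MulAction.stabilizer (RingAut ℂ) ζ with hU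
  have horb : (MulAction.orbit U (χ : G → ℂ)).ncard = r := by
    rw [← hSr, ← Set.ncard_coe_finset, ← Set.ncard_image_of_injective _ Subtype.val_injective]
    congr 1
    ext φ
    constructor
    · rintro ⟨σ, rfl⟩
      exact ⟨⟨_, χ.2.map_ringEquiv σ.1⟩, Finset.mem_filter.2 ⟨Finset.mem_univ _, σ.1, σ.2, rfl⟩, rfl⟩
    · rintro ⟨ψ, hψ, rfl⟩
      obtain ⟨σ, hσ, e⟩ := (Finset.mem_filter.1 hψ).2
      exact ⟨⟨σ, hσ⟩, e.symm⟩
  have hle : MulAction.stabilizer U (χ : G → ℂ) ≤ MulAction.stabilizer U ((χ : G → ℂ) (x * y)) :=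
    fun σ hσ => congrFun hσ (x * y)
  have hdv2 := index_dvd_of_le hle
  rw [MulAction.index_stabilizer, MulAction.index_stabilizer, horb, hre] at hdv2
  have hsub : MulAction.orbit U ((χ : G → ℂ) (x * y)) ⊆
      (fun k => (χ : G → ℂ) (x ^ k * y)) '' (Finset.Ico 1 p : Set ℕ) := by
    rintro _ ⟨σ, rfl⟩
    obtain ⟨k, hk, hσk⟩ := exists_pow_of_ringHom σ.1.toRingHom (n := Nat.card G) Nat.card_pos.ne'
    have hpk : ¬ p ∣ k := fun h => hp.ne_one
      (Nat.eq_one_of_dvd_coprimes hk h (hx ▸ orderOf_dvd_natCard x))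
    refine ⟨k % p, Finset.mem_coe.2 (Finset.mem_Ico.2 ⟨Nat.pos_of_ne_zero fun h0 =>
      hpk (Nat.dvd_of_mod_eq_zero h0), Nat.mod_lt _ hp.pos⟩), ?_⟩
    have e1 := χ.2.isGeneralizedCharacter.map_apply_eq_pow_of_dvd σ.1.toRingHom
      (orderOf_dvd_natCard (x * y)) hσk
    have hmG : m ∣ Nat.card G := Nat.ordCompl_dvd _ _
    have e2 : ζ ^ k = ζ ^ 1 := by
      rw [← hσk ζ (hprim.pow_eq_one_iff_dvd _ |>.2 hmG), pow_one]; exact σ.2
    have e3 : y ^ k = y := by
      have h5 : k ≡ 1 [MOD m] := by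
        rw [hprim.eq_orderOf]
        exact (hprim.isOfFinOrder hm0).pow_eq_pow_iff_modEq.1 e2
      rw [pow_eq_pow_iff_modEq.2 (h5.of_dvd (hdvd y hy)), pow_one]
    change (χ : G → ℂ) (x ^ (k % p) * y) = σ.1.toRingHom ((χ : G → ℂ) (x * y))
    rw [e1, hxy.mul_pow, e3, ← hx, pow_mod_orderOf]
  have hlt2 : (MulAction.orbit U ((χ : G → ℂ) (x * y))).ncard < p := by
    refine lt_of_le_of_lt ((Set.ncard_le_ncard hsub (Set.toFinite _)).trans
      (Set.ncard_image_le (Set.toFinite _))) ?_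
    rw [Set.ncard_coe_finset, Nat.card_Ico]
    have := hp.pos; omega
  obtain ⟨i, -, hi⟩ := (Nat.dvd_prime_pow hp).1 hdv2
  have hi0 : i = 0 := by
    by_contra h0
    rw [hi] at hlt2
    exact absurd (Nat.le_self_pow h0 p) (by omega)
  rw [hi0, pow_zero, ← MulAction.index_stabilizer, index_eq_one] at hi
  have h6 := h3 (x * y) (by
    rw [← pPart_ne_one_iff hp, pPart_mul hp ⟨1, by rw [hx, pow_one]⟩ hy hxy]
    rintro rfl
    rw [orderOf_one] at hx; exact hp.ne_one hx.symm)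
  rw [Finset.sum_congr rfl (g := fun _ => (χ : G → ℂ) (x * y)) (fun ψ hψ => by
    obtain ⟨σ, hσ, e⟩ := (Finset.mem_filter.1 hψ).2
    rw [e]
    exact (show (⟨σ, hσ⟩ : U) ∈ MulAction.stabilizer U ((χ : G → ℂ) (x * y)) by
      rw [hi]; trivial)), Finset.sum_const, hSr, nsmul_eq_mul] at h6
  exact mul_ne_zero (by exact_mod_cast hr0) hne h6

end Cfsg.Agent.S4506
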