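import Cfsg.Statements.S4507
import Cfsg.Agent.Lib.Cyc.One

set_option autoImplicit false
open Cfsg

namespace Cfsg.Agent.S4507

open Cfsg.Lib.Block Cfsg.Lib.Char Cfsg.Lib.Cyc Cfsg.Lib.Modular Subgroup in

/-- Let G be a finite group whose order g is divisible by the prime p exactly once, g′ = g/p, and fix a maximal ideal M of the algebraic integers containing p. Call two irreducible characters p-conjugate when a field automorphism of ℂ fixing the g′-th roots of unity carries one to the other. Let B be a p-block of positive defect (its defect group is a Sylow p-subgroup). Then B contains a subset Y (the exceptional family) such that: Y is a full p-conjugacy class (its members are pairwise p-conjugate and every p-conjugate of a member of Y lies in Y); every member of B outside Y is p-conjugate only to itself; the size t of Y divides p − 1 and B has exactly t + (p − 1)/t members; and there are signs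 δ_χ = ±1 (χ ∈ B) such that for every p-regular element x and every θ ∈ Y, Σ_{χ ∈ B ∖ Y} δ_χ χ(x) + δ_θ θ(x) = 0. -/
theorem result {G : Type*} [Group G] [Finite G] (p : ℕ) [Fact p.Prime] (M : Ideal Cfsg.AlgInt) (hM : Cfsg.IsPModular p M) (hdiv : p ∣ Nat.card G) (hsq : ¬ p ^ 2 ∣ Nat.card G) (B : Set (Cfsg.IrrCharacter G)) (hB : Cfsg.IsPBlock M B) (hd : 0 < Cfsg.blockDefect p B) : ∃ Y : Set (Cfsg.IrrCharacter G), Y ⊆ B ∧ Y.Nonempty ∧ (∀ θ ∈ Y, ∀ ψ : Cfsg.IrrCharacter G, (∃ σ : ℂ ≃+* ℂ, σ (Complex.exp (2 * Real.pi * Complex.I / ((Nat.card G / p ^ (Nat.card G).factorization p) : ℕ))) = Complex.exp (2 * Real.pi * Complex.I / ((Nat.card G / p ^ (Nat.card G).factorization p) : ℕ)) ∧ (ψ : G → ℂ) = fun g => σ ((θ : G → ℂ) g)) ↔ ψ ∈ Y) ∧ (∀ χ ∈ B, χ ∉ Y → ∀ ψ : Cfsg.IrrCharacter G, (∃ σ : ℂ ≃+* ℂ, σ (Complex.exp (2 * Real.pi * Complex.I / ((Nat.card G / p ^ (Nat.card G).factorization p) : ℕ))) = Complex.exp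 (2 * Real.pi * Complex.I / ((Nat.card G / p ^ (Nat.card G).factorization p) : ℕ)) ∧ (ψ : G → ℂ) = fun g => σ ((χ : G → ℂ) g)) → ψ = χ) ∧ Nat.card Y ∣ p - 1 ∧ Nat.card B = Nat.card Y + (p - 1) / Nat.card Y ∧ ∃ δ : Cfsg.IrrCharacter G → ℤ, (∀ χ ∈ B, δ χ = 1 ∨ δ χ = -1) ∧ ∀ x : G, ¬ p ∣ orderOf x → ∀ θ ∈ Y, (∑ᶠ χ ∈ B \ Y, (δ χ : ℂ) * (χ : G → ℂ) x) + (δ θ : ℂ) * (θ : G → ℂ) x = 0 := by
  haveI : Modular p M := ⟨hM⟩
  classical
  have := Fintype.ofFinite G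
  have hp : p.Prime := Fact.out
  have h0 : Nat.card G ≠ 0 := Nat.card_pos.ne'
  obtain ⟨D, hD⟩ := hB.exists_isDefectGroup (p := p)
  have h1 : Nat.card D = p := by
    have : ¬ 2 ≤ (Nat.card G).factorization p := mt (hp.pow_dvd_iff_le_factorization h0).2 hsq
    have h2 : blockDefect p B ≤ (Nat.card G).factorization p := Nat.sub_le _ _
    rw [hB.card_defectGroup hD, show blockDefect p B = 1 by omega, pow_one]
  obtain ⟨κ, hm⟩ := hB.isBlkIdem_top.exists_isMaxPair (hB.isDefectGroup_iff_isDefIn_top.1 hD)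
  obtain ⟨F, X, Ξ, δ, b, h⟩ := exists_dade hB (isCyclic_of_prime_card h1)
    (fun h => hp.one_lt.ne (by rw [← h1, h, card_bot])) hm
  rw [h1] at h
  generalize relIndex (G := G) _ _ = e at h
  have hpos := (Nat.ordCompl_pos p h0).ne'
  have hω := Complex.isPrimitiveRoot_exp _ hpos
  have hΞ : B \ Dade.exc p X = Ξ := by
    rw [h.eq_union, Set.union_sdiff_right, h.disjoint.sdiff_eq_left]
  obtain ⟨t, ht⟩ := h.dvd
  have ht' : Nat.card (Dade.exc p X) = t := by rw [h.card_exc, ht, Nat.mul_div_cancel_left _ h.pos]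
  have ht0 : 0 < t := Nat.pos_of_mul_pos_left (ht ▸ Nat.sub_pos_of_lt hp.one_lt)
  refine ⟨Dade.exc p X, h.eq_union ▸ Set.subset_union_right, ?_, ?_, fun χ hχ hχ' ψ ⟨σ, hσ, e⟩ => ?_,
    ht' ▸ ⟨e, by rw [ht, mul_comm]⟩, ?_, fun χ => if χ ∈ Ξ then b χ else δ, fun χ _ => ?_, ?_⟩
  · obtain ⟨ζ, hζ⟩ := h.exists_ne_one
    exact ⟨_, ζ, hζ, rfl⟩
  · rintro _ ⟨ζ, hζ, rfl⟩ ψ
    refine ⟨fun ⟨σ, hσ, e⟩ => ?_, ?_⟩
    · obtain ⟨k, hk, -, h2⟩ := exists_pPow_of_fix (G := G) σ.toRingHom hω hσ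
      exact ⟨ζ ^ k, ⟨pow_mem_mu hζ.1 k, h.pow_ne_one hζ.1 hζ.2 hk.1⟩, Subtype.ext (funext fun g =>
        (h.X_pow hζ.1 hζ.2 hk g).trans ((h2 _ g).symm.trans (congrFun e g).symm))⟩
    · rintro ⟨η, hη, rfl⟩
      have h2 := pow_eq_one_of_mem_mu hζ.1
      have : NeZero p := ⟨hp.ne_zero⟩
      have h3 : IsPrimitiveRoot ζ p := orderOf_eq_prime h2 hζ.2 ▸ IsPrimitiveRoot.orderOf ζ
      obtain ⟨l, -, rfl⟩ := h3.eq_pow_of_pow_eq_one (pow_eq_one_of_mem_mu hη.1)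
      obtain ⟨σ, h4, h5⟩ := exists_ringEquiv_pow_fix hp.ne_zero hpos (Nat.coprime_ordCompl hp h0)
        (k := l) ((hp.coprime_iff_not_dvd.2 fun h => hη.2 ((h3.pow_eq_one_iff_dvd l).2 h)).symm)
      obtain ⟨k, hk, h6, h7⟩ := exists_pPow_of_fix (G := G) σ.toRingHom hω (h5 _ hω.pow_eq_one)
      refine ⟨σ, h5 _ hω.pow_eq_one, funext fun g => ?_⟩
      rw [← h4 ζ h2, show σ ζ = ζ ^ k from h6 hdiv ζ h2, h.X_pow hζ.1 hζ.2 hk]
      exact (h7 _ g).symm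
  · obtain ⟨k, hk, -, h2⟩ := exists_pPow_of_fix (G := G) σ.toRingHom hω hσ
    exact Subtype.ext (funext fun g => (congrFun e g).trans ((h2 _ g).trans
      (h.Ξ_pow (hΞ.le ⟨hχ, hχ'⟩) hk g)))
  · rw [h.card_eq, ht', ht, Nat.mul_div_cancel_left _ h.pos, Nat.mul_div_cancel _ ht0, add_comm]
  · dsimp only
    split_ifs with h2
    exacts [h.signb χ h2, h.sign]
  · rintro x hx _ ⟨ζ, hζ, rfl⟩
    rw [hΞ, finsum_mem_coe_finset, ← h.reg ζ hζ.1 hζ.2 x hx, add_comm]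
    simp only [if_neg (h.notMem ζ hζ.1 hζ.2)]
    exact congrArg _ (Finset.sum_congr rfl fun ξ hξ => by rw [if_pos hξ])

end Cfsg.Agent.S4507
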