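import Cfsg.Statements.S4508
import Cfsg.Agent.Lib.Cyc.Prime2
import Cfsg.Agent.Lib.CharDeg.SelfCent

set_option autoImplicit false
open Cfsg

namespace Cfsg.Agent.S4508

open Subgroup Cfsg.Lib.Char Cfsg.Lib.Clifford Cfsg.Lib.Small Cfsg.Lib.Cyc Cfsg.Lib.CharDeg Finset

theorem dvd_of_vanish {G : Type*} [Group G] [Finite G] {χ : G → ℂ} {u : G}
    (hG : ¬ 2 ∣ (commutator G).index) (hχ : IsCharacter G χ) {e : ℕ}
    (he : Even e) (h0 : e ≠ 0) (hu : u ^ e = 1) (h : ∀ k, 0 < k → k < e → χ (u ^ k) = 0) :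
    2 * e ∣ charDegree χ := by
  have : NeZero e := ⟨h0⟩
  have hζ := Complex.isPrimitiveRoot_exp e h0
  generalize Complex.exp (2 * Real.pi * Complex.I / e) = ζ at hζ
  obtain ⟨m, h1, h2⟩ := exists_mult hχ hζ hu
  have h3 : (e : ℂ) ≠ 0 := Nat.cast_ne_zero.2 h0
  have h4 := mult_unique hζ (a := fun j => m j) (b := fun _ => charDegree χ / e) fun k hk => by
    rw [← h1, ← mul_sum]
    rcases k.eq_zero_or_pos with rfl | h5
    · simp [hχ.apply_one_eq, h3]
    · have h6 : ζ ^ k ≠ 1 := hζ.pow_ne_one_of_pos_of_lt h5.ne' hk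
      simp only [mul_comm _ k, pow_mul]
      rw [h k h5 hk, Fin.sum_univ_eq_sum_range fun j => (ζ ^ k) ^ j, geom_sum_eq h6, ← pow_mul,
        mul_comm k, pow_mul, hζ.pow_eq_one]
      simp
  have h5 : ∀ j, e * m j = charDegree χ := fun j => by
    have := congrFun h4 j
    rw [eq_div_iff h3, mul_comm] at this
    exact_mod_cast this
  have h6 : ∀ j, m j = m 0 := fun j => Nat.eq_of_mul_eq_mul_left (Nat.pos_of_ne_zero h0)
    ((h5 j).trans (h5 0).symm)
  have h8 : detChar χ u ^ (commutator G).index = 1 := by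
    rw [← detHom_apply, ← Units.val_pow_eq_pow_val, ← map_pow, MonoidHom.mem_ker.1
      (Abelianization.commutator_subset_ker (detHom χ) (Subgroup.pow_index_mem _ u)), Units.val_one]
  rw [h2, ← pow_mul, hζ.pow_eq_one_iff_dvd] at h8
  simp only [h6] at h8
  rw [← sum_mul, Fin.sum_univ_eq_sum_range (fun j => j)] at h8
  obtain ⟨c, hc⟩ := h8
  have h7 : (e - 1) * m 0 * (commutator G).index = 2 * c :=
    Nat.eq_of_mul_eq_mul_left (Nat.pos_of_ne_zero h0) (by
      rw [← mul_assoc, ← mul_assoc, ← sum_range_id_mul_two, mul_right_comm _ 2, mul_right_comm _ 2, hc]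
      ring)
  rw [← h5 0, mul_comm 2]
  refine mul_dvd_mul_left _ ((Nat.prime_two.dvd_mul.1
    ((Nat.prime_two.dvd_mul.1 ⟨_, h7⟩).resolve_right hG)).resolve_left ?_)
  obtain ⟨r, rfl⟩ := he
  omega

/-- Let the finite group G contain an element x of prime order p with C_G(x) = ⟨x⟩, and let t be the number of conjugacy classes of elements of order p. If G has an irreducible character of degree p − 1, then t is even or the commutator subgroup has even index. -/
theorem result {G : Type*} [Group G] [Finite G] (p : ℕ) (hp : p.Prime) (x : G) (hx : orderOf x = p) (hC : Subgroup.centralizer ({x} : Set G) = Subgroup.zpowers x) (t : ℕ) (ht : Nat.card {C : ConjClasses G // ∃ g ∈ C.carrier, orderOf g = p} = t) (χ : Cfsg.IrrCharacter G) (hχ : Cfsg.charDegree (χ : G → ℂ) + 1 = p) : Even t ∨ Even (commutator G).index := by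
  classical
  haveI := Fact.mk hp
  have sc : SelfCent p x := ⟨hp, hx, hC⟩
  have hC' : Nat.card (centralizer ({x} : Set G)) = p := by rw [hC, Nat.card_zpowers, hx]
  obtain ⟨P, hP⟩ := sc.exists_sylow
  obtain ⟨t', S, Y, a, δ, h⟩ := exists_pb P (by
    change Nat.card (P : Subgroup G) = p
    rw [hP, sc.card_zpowers])
  generalize (centralizer ((P : Subgroup G) : Set G)).relIndex
    (normalizer ((P : Subgroup G) : Set G)) = e at h
  have he := h.toPB0.relIndex_eq hx
  rw [hC] at he
  have h1 := sc.card_classes_mul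
  rw [ht, he] at h1
  by_contra hn
  rw [not_or, Nat.not_even_iff_odd, even_iff_two_dvd] at hn
  have e1 : e ≠ 1 := fun e1 => by
    have h2 := (sc.index_commutator (he.trans e1)).1
    rw [e1, mul_one] at h1
    rcases hp.eq_two_or_odd' with rfl | ho
    · exact hn.2 (h2 ▸ dvd_rfl)
    · have := hn.1
      rw [h1, Nat.odd_iff] at this
      rw [Nat.odd_iff] at ho
      omega
  have p2 : p ≠ 2 := by
    rintro rfl
    exact e1 (Nat.eq_one_of_mul_eq_one_left h1)
  have ee : Even e := by
    have : Even (t * e) := h1 ▸ hp.even_sub_one p2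
    exact (Nat.even_mul.1 this).resolve_left (Nat.not_even_iff_odd.2 hn.1)
  have hR : Nat.card (zpowers x) = p := sc.card_zpowers
  have p1 := hp.two_le
  have d0 : (charDegree (χ : G → ℂ) : ℤ) = p - 1 := by omega
  have pz : (p : ℤ) ≠ 0 := by omega
  have h0 : fixDim (χ : G → ℂ) (zpowers x) = 0 := by
    rcases h.toPB0.mem_of_not_dvd hx hC' (χ := χ)
      (Nat.not_dvd_of_pos_of_lt (by omega) (by omega)) with hm | hm
    · have f := h.toPB0.fixS hm hR
      have g := h.toPB0.modS hm
      rcases h.signS χ hm with e2 | e2 <;> rw [e2, d0] at f g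
      · have := Int.le_of_dvd (by omega) g
        omega
      · exact_mod_cast (mul_eq_zero.1 (f.trans (by ring))).resolve_left pz
    · have f := h.toPB0.fixY hm hR
      have g := h.toPB0.modY hm
      have e3 : e ≤ p - 1 := Nat.le_of_dvd (by omega) ⟨t, by rw [← h1, mul_comm]⟩
      have e4 := h.toPB0.pos
      rcases h.sign with e2 | e2 <;> rw [e2, d0] at f g
      · have : (p : ℤ) ∣ e - 1 := by
          have := dvd_sub g (dvd_refl (p : ℤ))
          rwa [show (p : ℤ) - 1 + e * 1 - p = e - 1 by ring] at this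
        have := Int.le_of_dvd (by omega) this
        omega
      · by_contra h5
        have : (1 : ℤ) ≤ fixDim (χ : G → ℂ) (zpowers x) := by omega
        nlinarith
  obtain ⟨u, u1, u2, u3⟩ := h.toPB0.exists_compl hx hC'
  have hd := dvd_of_vanish hn.2 χ.2.isCharacter ee h.toPB0.pos.ne' (u2 ▸ pow_orderOf_eq_one u)
    fun k h4 h5 => by
      rw [← avg_eq_of_selfCent χ.2.isCharacter.isClassFunction hx hC' (pow_mem u1 k)
        fun h6 => Nat.not_dvd_of_pos_of_lt h4 h5 (u3 k h6),
        avg_eq_zero χ.2.isCharacter h0 (pow_mem u1 k)]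
  rw [show charDegree (χ : G → ℂ) = t * e by omega] at hd
  exact (Nat.not_even_iff_odd.2 hn.1) (even_iff_two_dvd.2
    (Nat.dvd_of_mul_dvd_mul_right h.toPB0.pos hd))

end Cfsg.Agent.S4508
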