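import Cfsg.Statements.S4509
import Cfsg.Agent.Lib.CharDeg.SelfCent

set_option autoImplicit false
open Cfsg

namespace Cfsg.Agent.S4509

/-- Let the finite group G contain an element x of prime order p with C_G(x) = ⟨x⟩; let t be the number of conjugacy classes of elements of order p and 1 + n·p the number of subgroups of order p. Then G has a normal subgroup of order 1 + n·p if and only if either t = p − 1, or t < p − 1 and G″ ≠ G′. Moreover, if t = p − 1 then G′ has order 1 + n·p and G/G′ is cyclic of order p; and if t < p − 1 and G″ ≠ G′ then G″ has order 1 + n·p and G′ has order p·(1 + n·p). -/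
theorem result {G : Type*} [Group G] [Finite G] (p : ℕ) (hp : p.Prime) (x : G) (hx : orderOf x = p) (hC : Subgroup.centralizer ({x} : Set G) = Subgroup.zpowers x) (t : ℕ) (ht : Nat.card {C : ConjClasses G // ∃ g ∈ C.carrier, orderOf g = p} = t) (n : ℕ) (hn : Nat.card {H : Subgroup G // Nat.card H = p} = 1 + n * p) : ((∃ S : Subgroup G, S.Normal ∧ Nat.card S = 1 + n * p) ↔ (t = p - 1 ∨ (t < p - 1 ∧ derivedSeries G 2 ≠ derivedSeries G 1))) ∧ (t = p - 1 → Nat.card (commutator G) = 1 + n * p ∧ IsCyclic (G ⧸ commutator G) ∧ (commutator G).index = p) ∧ (t < p - 1 → derivedSeries G 2 ≠ derivedSeries G 1 → Nat.card (derivedSeries G 2) = 1 + n * p ∧ Nat.card (commutator G) = p * (1 + n * p)) := by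
  have h : Lib.CharDeg.SelfCent p x := ⟨hp, hx, hC⟩
  haveI := Fact.mk hp
  have hm := h.card_classes_mul
  rw [ht] at hm
  have hp1 : 0 < p - 1 := by have := hp.one_lt; omega
  rw [h.card_subgroups] at hn
  have A : t = p - 1 → Nat.card (commutator G) = 1 + n * p ∧ IsCyclic (G ⧸ commutator G) ∧
      (commutator G).index = p := by
    intro e
    rw [e] at hm
    have he := Nat.eq_of_mul_eq_mul_left hp1 (hm.trans (mul_one _).symm)
    obtain ⟨h1, h2⟩ := h.index_commutator he
    refine ⟨?_, isCyclic_of_prime_card (p := p) h1, h1⟩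
    have e1 := (commutator G).card_mul_index
    have e2 := (Subgroup.zpowers x).card_mul_index
    rw [← Subgroup.relIndex_mul_index (Subgroup.le_normalizer (H := Subgroup.zpowers x)), he,
      one_mul, hn, h.card_zpowers, ← e1, h1, mul_comm] at e2
    exact (Nat.eq_of_mul_eq_mul_right hp.pos e2).symm
  have B : t < p - 1 → derivedSeries G 2 ≠ derivedSeries G 1 →
      Nat.card (derivedSeries G 2) = 1 + n * p ∧ Nat.card (commutator G) = p * (1 + n * p) := by
    intro hlt hne
    have hxc := h.mem_commutator (fun e => hlt.ne (by rw [e, mul_one] at hm; exact hm))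
    have hle : derivedSeries G 2 ≤ commutator G := by
      rw [← derivedSeries_one]
      exact Subgroup.commutator_le_left _ _
    have hx2 : x ∉ derivedSeries G 2 := fun hx2 =>
      hne (le_antisymm hle (h.commutator_le_of_mem _ hx2))
    have h1 : commutator G = Subgroup.zpowers x ⊔ derivedSeries G 2 := by
      refine le_antisymm (fun g hg => ?_) (sup_le (Subgroup.zpowers_le.mpr hxc) hle)
      have : (QuotientGroup.mk g : G ⧸ derivedSeries G 2) ∈
          Subgroup.zpowers (QuotientGroup.mk x : G ⧸ derivedSeries G 2) := by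
        apply (h.quotient hx2).mem_of_commute
        rw [← QuotientGroup.mk_mul, ← QuotientGroup.mk_mul, QuotientGroup.eq]
        have := Subgroup.commutator_mem_commutator (inv_mem hxc) (inv_mem hg)
        simpa [commutatorElement_def, mul_assoc] using this
      obtain ⟨k, hk⟩ := Subgroup.mem_zpowers_iff.mp this
      rw [← QuotientGroup.mk_zpow, QuotientGroup.eq] at hk
      have e : g = x ^ k * ((x ^ k)⁻¹ * g) := by group
      rw [e]
      exact mul_mem (Subgroup.mem_sup_left (Subgroup.zpow_mem_zpowers _ _))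
        (Subgroup.mem_sup_right hk)
    have h2 : Nat.card (derivedSeries G 2) = 1 + n * p := by
      rw [← hn, h.card_eq_index_iff hx2, eq_top_iff, ← h.sup_normalizer_eq_top _ hxc, h1,
        ← sup_assoc, sup_eq_left.mpr Subgroup.le_normalizer]
    refine ⟨h2, ?_⟩
    rw [h1, Lib.Core.card_sup_of_disjoint (by rw [Subgroup.normalizer_eq_top]; exact le_top)
      (by rw [inf_comm]; exact h.inf_eq_bot hx2), h.card_zpowers, h2]
  refine ⟨⟨?_, ?_⟩, A, B⟩
  · rintro ⟨S, hS, hc⟩
    by_cases e : t = p - 1
    · exact Or.inl e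
    have he : (Subgroup.zpowers x).relIndex
        (Subgroup.normalizer (Subgroup.zpowers x : Set G)) ≠ 0 := fun e => by
      rw [e] at hm; omega
    refine Or.inr ⟨lt_of_le_of_ne (hm ▸ Nat.le_mul_of_pos_right _ (Nat.pos_of_ne_zero he)) e,
      fun e2 => ?_⟩
    have hxS : x ∉ S := h.not_mem_of_not_dvd (by
      rw [hc]
      intro hd
      exact hp.one_lt.ne' (Nat.dvd_one.mp ((Nat.dvd_add_left (Dvd.intro_left n rfl)).mp hd)))
    have h1 := h.commutator_le_sup S ((h.card_eq_index_iff hxS).mp (hc.trans hn.symm))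
    have hxc := h.mem_commutator (fun e' => e (by rw [e', mul_one] at hm; exact hm))
    apply hxS
    have h2 : derivedSeries G 2 ≤ S := by
      change ⁅derivedSeries G 1, derivedSeries G 1⁆ ≤ S
      rw [derivedSeries_one, ← Lib.Core.map_mk'_eq_bot_iff, Subgroup.map_commutator, eq_bot_iff]
      have h3 : (commutator G).map (QuotientGroup.mk' S) ≤
          Subgroup.zpowers (QuotientGroup.mk' S x) := by
        rw [← MonoidHom.map_zpowers, Lib.Core.map_mk'_le_map_mk'_iff]
        exact h1
      refine (Subgroup.commutator_mono h3 h3).trans (Subgroup.commutator_le.mpr ?_)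
      rintro _ ⟨k, rfl⟩ _ ⟨l, rfl⟩
      exact commutatorElement_eq_one_iff_commute.mpr (Commute.zpow_zpow_self _ _ _)
    exact h2 (e2 ▸ hxc)
  · rintro (e | ⟨h1, h2⟩)
    · exact ⟨_, inferInstance, (A e).1⟩
    · exact ⟨_, inferInstance, (B h1 h2).1⟩

end Cfsg.Agent.S4509
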