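import Cfsg.Statements.S4510
import Cfsg.Agent.Lib.Modular.ClassDefect

set_option autoImplicit false
open Cfsg

namespace Cfsg.Agent.S4510

open Cfsg.Lib.Block Cfsg.Lib.Char Cfsg.Lib.Modular
open scoped ComplexConjugate

/-- Let G be a finite group, p a prime, M a maximal ideal of the algebraic integers containing p, and call the defect of a conjugacy class the exponent of p in the order of the centralizer of its elements. Two irreducible characters lying in p-blocks of defect exactly d lie in the same block if and only if their central characters (class size times χ(x)/χ(1)) agree modulo the local ideal at M at every p-regular element x whose class has defect exactly d. -/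
theorem result {G : Type*} [Group G] [Finite G] (p : ℕ) [Fact p.Prime] (M : Ideal Cfsg.AlgInt) (hM : Cfsg.IsPModular p M) (d : ℕ) (χ ψ : Cfsg.IrrCharacter G) (hχ : Cfsg.blockDefect p (Cfsg.blockOf M (χ : G → ℂ)) = d) (hψ : Cfsg.blockDefect p (Cfsg.blockOf M (ψ : G → ℂ)) = d) : Cfsg.SameBlock M (χ : G → ℂ) (ψ : G → ℂ) ↔ ∀ x : G, ¬ p ∣ orderOf x → (Nat.card (Subgroup.centralizer ({x} : Set G))).factorization p = d → Cfsg.MemLocalIdeal M (Cfsg.centralChar (χ : G → ℂ) x - Cfsg.centralChar (ψ : G → ℂ) x) := by
  classical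
  have : Modular p M := ⟨hM⟩
  have := Fintype.ofFinite (ConjClasses G)
  refine ⟨fun h x _ _ => h x, fun h => ?_⟩
  have h1 := lam_eblk_eq_sum_filter (isPBlock_blockOf (M := M) χ) (isPBlock_blockOf (M := M) ψ)
    (by rw [hχ, hψ]) (mem_blockOf_self χ)
  have h2 := lam_eblk_eq_sum_filter (isPBlock_blockOf (M := M) ψ) (isPBlock_blockOf (M := M) ψ)
    le_rfl (mem_blockOf_self ψ)
  rw [hχ] at h1
  rw [hψ, (isPBlock_blockOf ψ).lam_eblk_of_mem (mem_blockOf_self ψ)] at h2
  refine sameBlock_symm (mem_blockOf.1 ((isPBlock_blockOf (M := M) ψ).mem_iff_lam.2 ?_))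
  rw [h1, h2]
  refine Finset.sum_congr rfl fun C hC => ?_
  rw [Finset.mem_filter] at hC
  rw [(memLocalIdeal_sub_iff (mem_locRing_of_isIntegral (χ.2.isIntegral_centralChar _))
    (mem_locRing_of_isIntegral (ψ.2.isIntegral_centralChar _))).1 (h _ hC.2.1 hC.2.2)]

end Cfsg.Agent.S4510
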