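import Cfsg.Statements.S4513
import Cfsg.Agent.Lib.Modular.CentralDefect

set_option autoImplicit false
open Cfsg

namespace Cfsg.Agent.S4513

open Cfsg.Lib.Block Cfsg.Lib.Char Cfsg.Lib.Modular
open scoped ComplexConjugate

/-- Blocks of defect one for p = 2. Let M be a maximal ideal of the algebraic integers containing 2, B a 2-block of the finite group G whose defect group is the subgroup generated by an involution x, C = C_G(x), b a block of C inducing B and θ a member of b taking the same value at x as at 1 (there is exactly one). Then B consists of exactly two irreducible characters, which agree on every element of odd order, and they can be labelled χ₁, χ₂ with signs ε₁, ε₂ = ±1, ε₁ε₂ = −1, such that χᵢ(x y) = εᵢ θ(y) for every element y of C of odd order. -/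
theorem result {G : Type*} [Group G] [Finite G] (M : Ideal Cfsg.AlgInt) (hM : Cfsg.IsPModular 2 M) (x : G) (hx : orderOf x = 2)
    (B : Set (Cfsg.IrrCharacter G)) (hB : Cfsg.IsPBlock M B) (hBD : Cfsg.IsDefectGroup 2 M B (Subgroup.zpowers x))
    (b : Set (Cfsg.IrrCharacter ↥(Subgroup.centralizer ({x} : Set G)))) (hb : Cfsg.IsInducedBlock M (Subgroup.centralizer ({x} : Set G)) b B)
    (θ : Cfsg.IrrCharacter ↥(Subgroup.centralizer ({x} : Set G))) (hθ : θ ∈ b)
    (hθx : ∀ z : ↥(Subgroup.centralizer ({x} : Set G)), (z : G) = x → (θ : ↥(Subgroup.centralizer ({x} : Set G)) → ℂ) z = (θ : ↥(Subgroup.centralizer ({x} : Set G)) → ℂ) 1) :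
    Nat.card B = 2 ∧ (∀ χ ∈ B, ∀ ψ ∈ B, ∀ g : G, ¬ 2 ∣ orderOf g → (χ : G → ℂ) g = (ψ : G → ℂ) g) ∧
      ∃ χ₁ ∈ B, ∃ χ₂ ∈ B, χ₁ ≠ χ₂ ∧ ∃ ε₁ ε₂ : ℤ, (ε₁ = 1 ∨ ε₁ = -1) ∧ (ε₂ = 1 ∨ ε₂ = -1) ∧ ε₁ * ε₂ = -1 ∧
        ∀ y : ↥(Subgroup.centralizer ({x} : Set G)), ¬ 2 ∣ orderOf y →
          (χ₁ : G → ℂ) (x * y) = (ε₁ : ℂ) * (θ : ↥(Subgroup.centralizer ({x} : Set G)) → ℂ) y ∧ (χ₂ : G → ℂ) (x * y) = (ε₂ : ℂ) * (θ : ↥(Subgroup.centralizer ({x} : Set G)) → ℂ) y := by
  classical
  have : Modular 2 M := ⟨hM⟩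
  have := Fintype.ofFinite G
  have hp : Nat.Prime 2 := Nat.prime_two
  have hx' : ∃ k, orderOf x = 2 ^ k := ⟨1, hx⟩
  have hx1 : x ≠ 1 := by rintro rfl; simp at hx
  have hd : blockDefect 2 B = 1 := by
    rw [hB.blockDefect_eq_factorization hBD, Nat.card_zpowers, hx, hp.factorization_self]
  have hk : Nat.card B = 2 := by
    have h1 := four_mul_card_le hB
    have h2 := blockRank_lt_card hB (hd ▸ one_ne_zero)
    have h3 := blockRank_pos hB
    rw [hd] at h1
    omega
  obtain ⟨χ₁, χ₂, hne, hB2⟩ := Set.ncard_eq_two.1 hk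
  have h1 : χ₁ ∈ B := by simp [hB2]
  have h2 : χ₂ ∈ B := by simp [hB2]
  have hfil : Finset.univ.filter (· ∈ B) = {χ₁, χ₂} := by ext; simp [hB2]
  have g1 := χ₁.2.isCharacter.isGeneralizedCharacter
  have g2 := χ₂.2.isCharacter.isGeneralizedCharacter
  have hself : ∀ χ ∈ B, contr 2 B χ χ = 1 := fun χ hχ => by
    have a := contr_self_pos (p := 2) hχ
    have b := contr_self_lt hB (hd ▸ one_ne_zero) hχ
    rw [hd] at b
    omega
  have hreg : ∀ χ ∈ B, regInner 2 (χ : G → ℂ) χ = 1 / 2 := fun χ hχ => by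
    have := cast_contr (p := 2) hχ χ.2.isCharacter.isGeneralizedCharacter
    rw [hself χ hχ, hd] at this
    push_cast at this
    linear_combination -this / 2
  have h12 : contr 2 B χ₁ χ₂ ^ 2 = 1 := by
    have := sum_contr_sq hB h1
    rw [hfil, Finset.sum_pair hne, hself _ h1, hd] at this
    push_cast at this
    linarith
  have c12 := cast_contr (p := 2) h1 g2
  rw [hd] at c12
  have hr12 : regInner 2 (χ₁ : G → ℂ) χ₂ = 1 / 2 := by
    rcases sq_eq_one_iff.1 h12 with e | e
    · rw [e] at c12; push_cast at c12; linear_combination -c12 / 2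
    · exfalso
      rw [e] at c12; push_cast at c12
      have h0 : regInner 2 (χ₁.1 + χ₂.1) (χ₁.1 + χ₂.1) = 0 := by
        rw [regInner_add_left, regInner_add_right, regInner_add_right, hreg _ h1, hreg _ h2,
          regInner_comm g2 g1]
        linear_combination -c12
      have := eq_zero_of_regInner_self h0 (not_dvd_orderOf_one hp)
      rw [Pi.add_apply, χ₁.2.apply_one_eq, χ₂.2.apply_one_eq] at this
      have h3 := χ₁.2.charDegree_pos
      norm_cast at this
      omega
  have hagree : ∀ g, ¬ 2 ∣ orderOf g → (χ₁ : G → ℂ) g = (χ₂ : G → ℂ) g := fun g hg => by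
    have h0 : regInner 2 (χ₁.1 - χ₂.1) (χ₁.1 - χ₂.1) = 0 := by
      rw [regInner_sub_left, regInner_sub_right, regInner_sub_right, hreg _ h1, hreg _ h2,
        regInner_comm g2 g1, hr12]
      ring
    exact sub_eq_zero.1 (eq_zero_of_regInner_self h0 hg)
  have hsing : ∀ g, 2 ∣ orderOf g → (χ₂ : G → ℂ) g = -(χ₁ : G → ℂ) g := fun g hg => by
    have := ((inSpan_of_mem h1).pRegularPart hM hB χ₁.2.isClassFunction).apply_eq_sum
      (isClassFunction_pRegularPart χ₁.2.isClassFunction) g
    rw [hfil, Finset.sum_pair hne, pRegularPart_of_dvd _ hg] at this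
    have e1 : classInner (pRegularPart 2 (χ₁ : G → ℂ)) χ₁ = 1 / 2 := hreg _ h1
    have e2 : classInner (pRegularPart 2 (χ₁ : G → ℂ)) χ₂ = 1 / 2 := hr12
    rw [e1, e2] at this
    linear_combination -2 * this
  refine ⟨hk, fun χ hχ ψ hψ g hg => ?_, χ₁, h1, χ₂, h2, hne, ?_⟩
  · rw [hB2] at hχ hψ
    rcases hχ with rfl | rfl <;> rcases hψ with rfl | rfl <;> simp [hagree g hg]
  -- the local block
  have hPC : Subgroup.zpowers x ≤ Subgroup.centralizer ({x} : Set G) := by
    rw [Subgroup.zpowers_le, Subgroup.mem_centralizer_singleton_iff]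
  have hbD := hb.isDefectGroup_subgroupOf hBD hPC (by
    refine le_trans ?_ (Subgroup.centralizer_le_normalizer _)
    intro c hc y hy
    obtain ⟨n, rfl⟩ := Subgroup.mem_zpowers_iff.1 hy
    exact ((commute_of_mem_centralizer ⟨c, hc⟩).zpow_left n).eq)
  have hmem : ∀ z : Subgroup.centralizer ({x} : Set G),
      z ∈ (Subgroup.zpowers x).subgroupOf (Subgroup.centralizer ({x} : Set G)) →
      z = 1 ∨ (z : G) = x := fun z hz => by
    rw [Subgroup.mem_subgroupOf, mem_zpowers_iff_mem_range_orderOf, hx] at hz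
    obtain ⟨n, hn, e⟩ := Finset.mem_image.1 hz
    rw [Finset.mem_range] at hn
    interval_cases n
    · left; exact Subtype.ext (by simpa using e.symm)
    · right; simpa using e.symm
  have hcen : (Subgroup.zpowers x).subgroupOf (Subgroup.centralizer ({x} : Set G)) ≤
      Subgroup.center _ := fun z hz => by
    rcases hmem z hz with rfl | e
    · exact one_mem _
    · rw [show z = selfC x from Subtype.ext e]; exact selfC_mem_center x
  have hθr := card_mul_regInner_canonical (sup_centralizer_eq_top_of_le_center hcen) hb.1 hbD hθ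
    (fun z hz => by
      rcases hmem z hz with rfl | e
      · rfl
      · exact hθx z e)
  rw [Nat.card_congr (Subgroup.subgroupOfEquivOfLe hPC).toEquiv, Nat.card_zpowers, hx] at hθr
  have hf := (inSpan_of_mem hθ).secFun hM hx' hb θ.2.isClassFunction
  have hfc := isClassFunction_secFun (p := 2) x θ.1
  have hff := classInner_secFun_secFun hp hx' θ.2.isClassFunction θ.1
  have hfs := hf.eq_sum hfc
  rw [hfil, Finset.sum_pair hne] at hfs
  set a := classInner (secFun 2 x θ.1) χ₁ with ha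
  have hb' : classInner (secFun 2 x θ.1) χ₂ = -a := by
    have := congrFun hfs 1
    rw [secFun_eq_zero_of_not_dvd hp hx' hx1 _ (not_dvd_orderOf_one hp)] at this
    simp only [Pi.add_apply, Pi.smul_apply, smul_eq_mul] at this
    rw [← hagree 1 (not_dvd_orderOf_one hp)] at this
    apply mul_right_cancel₀ χ₁.2.apply_one_ne_zero
    linear_combination -this
  rw [hb'] at hfs
  have hnorm : 2 * a * conj (2 * a) = 1 := by
    rw [hf.inner_eq_sum hfc, hfil, Finset.sum_pair hne, ← ha, hb',
      ← conj_classInner (secFun 2 x θ.1) χ₁, ← conj_classInner (secFun 2 x θ.1) χ₂,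
      ← ha, hb'] at hff
    push_cast at hθr
    simp only [map_mul, map_neg, map_ofNat] at hff ⊢
    linear_combination 2 * hff + hθr
  have hval : ∀ y : Subgroup.centralizer ({x} : Set G), ¬ 2 ∣ orderOf y →
      θ.1 y = 2 * a * (χ₁ : G → ℂ) (x * y) ∧ 2 ∣ orderOf (x * y) := fun y hy => by
    have hs : 2 ∣ orderOf (x * y) := by
      rw [← pPart_ne_one_iff hp, pPart_mul hp hx' (by rwa [Subgroup.orderOf_coe])
        (commute_of_mem_centralizer y)]
      exact hx1
    refine ⟨?_, hs⟩
    have := congrFun hfs (x * y)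
    rw [secFun_mul hp hx' θ.2.isClassFunction hy] at this
    simp only [Pi.add_apply, Pi.smul_apply, smul_eq_mul] at this
    rw [this, hsing _ hs]; ring
  obtain ⟨n, hn⟩ := g1.exists_int_of_sq_eq_one (g := x) (by rw [← hx, pow_orderOf_eq_one])
  have h5 := (hval 1 (not_dvd_orderOf_one hp)).1
  rw [OneMemClass.coe_one, mul_one, hn, θ.2.apply_one_eq] at h5
  have hn0 : (n : ℂ) ≠ 0 := fun e => by
    rw [e, mul_zero] at h5
    exact θ.2.charDegree_pos.ne' (by exact_mod_cast h5)
  have hreal : conj (2 * a) = 2 * a := by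
    rw [show 2 * a = (charDegree θ.1 : ℂ) / n by rw [h5, mul_div_cancel_right₀ _ hn0]]
    simp
  rw [hreal] at hnorm
  rcases mul_self_eq_one_iff.1 hnorm with e | e
  · refine ⟨1, -1, by simp, by simp, by simp, fun y hy => ?_⟩
    obtain ⟨v1, v2⟩ := hval y hy
    rw [hsing _ v2, v1, e]; simp
  · refine ⟨-1, 1, by simp, by simp, by simp, fun y hy => ?_⟩
    obtain ⟨v1, v2⟩ := hval y hy
    rw [hsing _ v2, v1, e]; simp

end Cfsg.Agent.S4513
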