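import Cfsg.Statements.S4633
import Cfsg.Agent.Lib.Cyc.Local

set_option autoImplicit false
open Cfsg

namespace Cfsg.Agent.S4633

open Cfsg.Lib.Block Cfsg.Lib.Cyc in

/-- Let B be a block of the finite group G relative to a maximal ideal M of the algebraic integers containing the prime p, with a nontrivial cyclic defect group P. Let c be a block of C_G(P) inducing B and T the stabilizer of c in N_G(P) (the elements of N_G(P) conjugating c to itself); T contains C_G(P). Then T/C_G(P) is cyclic of order dividing p − 1, and it acts freely on the non-identity elements of P: an element of T fixing some non-identity element of P under conjugation lies in C_G(P). -/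
theorem result {G : Type*} [Group G] [Finite G] (p : ℕ) [Fact p.Prime] (M : Ideal Cfsg.AlgInt) (hM : Cfsg.IsPModular p M) (B : Set (Cfsg.IrrCharacter G)) (hB : Cfsg.IsPBlock M B) (P : Subgroup G) (hPD : Cfsg.IsDefectGroup p M B P) (hP1 : P ≠ ⊥) (hcyc : IsCyclic P) (c : Set (Cfsg.IrrCharacter (Subgroup.centralizer (P : Set G)))) (hc : Cfsg.IsInducedBlock M (Subgroup.centralizer (P : Set G)) c B) (T : Subgroup G) (hT : ∀ g : G, g ∈ T ↔ (g ∈ Subgroup.normalizer (P : Set G) ∧ Cfsg.StabilizesBlock (Subgroup.centralizer (P : Set G)) c g)) [hn : ((Subgroup.centralizer (P : Set G)).subgroupOf T).Normal] : IsCyclic (T ⧸ (Subgroup.centralizer (P : Set G)).subgroupOf T) ∧ (Subgroup.centralizer (P : Set G)).relIndex T ∣ p - 1 ∧ ∀ g ∈ T, ∀ x ∈ P, x ≠ 1 → g * x * g⁻¹ = x → g ∈ Subgroup.centralizer (P : Set G) := by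
  haveI : Modular p M := ⟨hM⟩
  have hm := hc.isMaxPair hPD
  have hT' : T = Subgroup.normalizer (P : Set G) ⊓ stab (ebl _ M c) := by
    rw [hc.1.eq_stab hT, top_inf_eq]
  obtain ⟨z, hz⟩ := exists_prime_orderOf_dvd_card' p
    (hm.pgrp.card_eq_or_dvd.resolve_left (mt Subgroup.card_eq_one.1 hP1))
  have hZ : Nat.card (Subgroup.zpowers (z : G)) = p := by
    rw [Nat.card_zpowers, Subgroup.orderOf_coe, hz]
  have hZP : Subgroup.zpowers (z : G) ≤ P := Subgroup.zpowers_le.2 z.2
  have hZ1 : Subgroup.zpowers (z : G) ≠ ⊥ := fun h => by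
    rw [h, Subgroup.card_bot] at hZ; exact (Fact.out : p.Prime).one_lt.ne hZ
  have hTN : T ≤ Subgroup.normalizer (Subgroup.zpowers (z : G) : Set G) :=
    (hT' ▸ inf_le_left).trans (Cfsg.Lib.Misc.normalizer_le_normalizer_of_le_cyclic hcyc hZP)
  have he : (Subgroup.centralizer (Subgroup.zpowers (z : G) : Set G)).subgroupOf T =
      (Subgroup.centralizer (P : Set G)).subgroupOf T := by
    rw [← inf_centralizer_eq hm hcyc hZP hZ1, ← hT', Subgroup.inf_subgroupOf_left]
  refine ⟨?_, ?_, fun g hg x hx h1 h => mem_centralizer_of_fix hm hcyc (hT' ▸ hg) hx h1 h⟩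
  · obtain ⟨ψ, hψ⟩ := exists_hom_units hZ hTN
    rw [he] at hψ
    exact isCyclic_of_injective ((QuotientGroup.kerLift ψ).comp
      (QuotientGroup.quotientMulEquivOfEq hψ.symm).toMonoidHom)
      ((QuotientGroup.kerLift_injective ψ).comp (MulEquiv.injective _))
  · have := relIndex_dvd_pred hZ hTN
    rwa [Subgroup.relIndex, he] at this

end Cfsg.Agent.S4633
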