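import Cfsg.Statements.S4634
import Cfsg.Agent.Lib.Cyc.Perfect
import Cfsg.Agent.Lib.Cyc.TI

set_option autoImplicit false
open Cfsg

namespace Cfsg.Agent.S4634

open Cfsg.Lib.Block Cfsg.Lib.Char Cfsg.Lib.Cyc Subgroup in

/-- Let B be a block of the finite group G relative to a maximal ideal M of the algebraic integers containing the prime p, with a nontrivial cyclic defect group P, let c be a block of C_G(P) inducing B, T the stabilizer of c in N_G(P) and e the index of C_G(P) in T. Let F be any finite group of order #P · e having a cyclic subgroup Q of order #P that is its own centralizer (F is then the semidirect product of Q by a cyclic group of order e acting faithfully). Then there is a perfect isometry from the set of all irreducible characters of F onto B whose signs agree on all the characters of F that do not contain Q in their kernel. -/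
theorem result {G : Type*} [Group G] [Finite G] (p : ℕ) [Fact p.Prime] (M : Ideal Cfsg.AlgInt) (hM : Cfsg.IsPModular p M) (B : Set (Cfsg.IrrCharacter G)) (hB : Cfsg.IsPBlock M B) (P : Subgroup G) (hPD : Cfsg.IsDefectGroup p M B P) (hP1 : P ≠ ⊥) (hcyc : IsCyclic P) (c : Set (Cfsg.IrrCharacter (Subgroup.centralizer (P : Set G)))) (hc : Cfsg.IsInducedBlock M (Subgroup.centralizer (P : Set G)) c B) (T : Subgroup G) (hT : ∀ g : G, g ∈ T ↔ (g ∈ Subgroup.normalizer (P : Set G) ∧ Cfsg.StabilizesBlock (Subgroup.centralizer (P : Set G)) c g)) (e : ℕ) (he : (Subgroup.centralizer (P : Set G)).relIndex T = e) (F : Type*) [Group F] [Finite F] (hF : Nat.card F = Nat.card P * e) (Q : Subgroup F) (hQ : IsCyclic Q) (hQcard : Nat.card Q = Nat.card P) (hQC : Subgroup.centralizer (Q : Set F) = Q) : ∃ (I : Cfsg.IrrCharacter F → Cfsg.IrrCharacter G) (ε : Cfsg.IrrCharacter F → ℤ), Cfsg.IsPerfectIsometry p M (Set.univ : Set (Cfsg.IrrCharacter F)) B I ε ∧ ∀ η η' : Cfsg.IrrCharacter F, (∃ x ∈ Q, (η : F → ℂ) x ≠ (η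 : F → ℂ) 1) → (∃ x ∈ Q, (η' : F → ℂ) x ≠ (η' : F → ℂ) 1) → ε η = ε η' := by
  haveI : Modular p M := ⟨hM⟩
  classical
  have hp : p.Prime := Fact.out
  have := Fintype.ofFinite G
  have := Fintype.ofFinite F
  obtain ⟨_, _, _, _, _, h⟩ := exists_dade hB hcyc hP1 (hc.isMaxPair hPD)
  rw [← top_inf_eq (normalizer _), ← hc.1.eq_stab hT, he] at h
  have hi : Q.index = e := Nat.eq_of_mul_eq_mul_left Nat.card_pos
    (Q.card_mul_index.trans (hF.trans (by rw [hQcard])))
  have hQp : IsPGroup p Q := IsPGroup.of_card (hQcard.trans h.eq_pow)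
  let S : Sylow p F := hQp.toSylow (hi ▸ h.not_dvd)
  have hS : (S : Subgroup F) = Q := rfl
  have hN : normalizer (Q : Set F) = ⊤ := by
    have h1 := card_sylow_modEq_one p F
    have h2 := S.card_dvd_index
    rw [S.card_eq_index_normalizer] at h1 h2
    rw [← index_eq_one]
    exact Nat.ModEq.eq_of_lt_of_lt h1 ((Nat.le_of_dvd (hi ▸ h.pos) h2).trans_lt (hi ▸ h.lt)) hp.one_lt
  have := normalizer_eq_top_iff.1 hN
  have hU : principalBlock M F = Set.univ := Set.eq_univ_of_forall fun χ =>
    sameBlock_of_centralizer_isPGroup hQp (hQC.symm ▸ hQp) (irrOne F) χ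
  obtain ⟨_, _, Ξ, _, b, h', hv⟩ := exists_dade_principal_of_ti (M := M) S hQ
    (fun h1 => h.one_lt.ne' (by rw [← hQcard, ← hS, h1, card_bot])) fun x hx h1 y hy =>
      mem_centralizer_of_fix ((isInducedBlock_principal (M := M) hQp).isMaxPair
        (isDefectGroup_principal_iff.2 ⟨S, rfl⟩)) hQ ((inert_principal.trans hN).ge (mem_top y)) hx h1
        (mul_inv_eq_iff_eq_mul.2 (mem_centralizer_singleton_iff.1 hy))
  rw [hS, hN, hQC, relIndex_top_right, hi, hQcard, hU] at h'
  obtain ⟨I, ε, h1, h2⟩ := h.exists_perfect h'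
  have key : ∀ η ∈ Ξ, η ∉ kerSet Q → ∀ η' ∉ kerSet Q, η = η' := fun η hη h3 η' h4 => by
    by_contra h5
    have h6 := omega_ssum_of_notMem_kerSet h3
    rw [omega_apply, ev_ssum_subgroup, div_eq_zero_iff, or_iff_left η.2.apply_one_ne_zero,
      ← Finset.add_sum_erase _ _ (Finset.mem_univ 1), Finset.sum_congr rfl fun (x : Q) hx => hv η hη x
        (dvd_orderOf_of_mem_pgroup hQp x.2 (by simpa using hx)), Finset.sum_const,
      Finset.card_erase_of_mem (Finset.mem_univ 1), Finset.card_univ, ← Nat.card_eq_fintype_card,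
      hQcard, OneMemClass.coe_one, η.2.apply_one_eq, nsmul_eq_mul] at h6
    have h7 : (charDegree (η : F → ℂ) : ℤ) + (Nat.card P - 1 : ℕ) * -b η = 0 := by exact_mod_cast h6
    have h8 := sum_kerSet_mul_conj (N := Q) Q.one_mem Q.one_mem
    simp only [fun χ : IrrCharacter F => χ.2.apply_one_eq, map_natCast, hi, ← sq] at h8
    have h9 := Finset.sum_le_sum_of_subset (f := fun χ : IrrCharacter F => charDegree χ.1 ^ 2)
      (Finset.subset_univ (insert η (insert η' (Finset.univ.filter (· ∈ kerSet Q)))))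
    rw [sum_charDegree_sq, Finset.sum_insert (by simp [h3, h5]), Finset.sum_insert (by simp [h4]),
      hF, show ∑ χ with χ ∈ kerSet Q, charDegree χ.1 ^ 2 = e by exact_mod_cast h8] at h9
    have h10 := η.2.charDegree_pos
    have h11 := η'.2.charDegree_pos
    have h12 : e < Nat.card P := h.lt.trans_le (h.eq_pow ▸ Nat.le_self_pow h.defect_pos.ne' p)
    obtain ⟨m, hm⟩ := Nat.exists_eq_add_one_of_ne_zero h.ne_zero
    rw [hm, Nat.add_sub_cancel] at h7
    rw [hm] at h9 h12
    rcases h'.signb η hη with e | e <;> rw [e] at h7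
    · rw [show charDegree (η : F → ℂ) = m by omega] at h9
      nlinarith
    · omega
  refine ⟨I, ε, h1, fun η η' h3 h4 => ?_⟩
  have h5 : η ∉ kerSet Q := fun h => h3.elim fun x hx => hx.2 (h x hx.1)
  have h6 : η' ∉ kerSet Q := fun h => h4.elim fun x hx => hx.2 (h x hx.1)
  by_cases hη : η ∈ Ξ
  · rw [key η hη h5 η' h6]
  by_cases hη' : η' ∈ Ξ
  · rw [key η' hη' h6 η h5]
  · rw [h2 η hη, h2 η' hη']

end Cfsg.Agent.S4634
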