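import Cfsg.Statements.S4635
import Cfsg.Agent.Lib.Cyc.Perfect

set_option autoImplicit false
open Cfsg

namespace Cfsg.Agent.S4635

open Cfsg.Lib.Block Cfsg.Lib.Cyc Subgroup in

/-- Let B be a block of the finite group G relative to a maximal ideal M of the algebraic integers containing the prime p, with a nontrivial cyclic defect group P; let Z be the subgroup of order p of P and H = N_G(Z), which contains N_G(P). Let c be the block of H with defect group P that induces B. Then B and c contain the same number of irreducible characters, have the same p-regular rank, and there is a perfect isometry from c onto B. -/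
theorem result {G : Type*} [Group G] [Finite G] (p : ℕ) [Fact p.Prime] (M : Ideal Cfsg.AlgInt) (hM : Cfsg.IsPModular p M) (B : Set (Cfsg.IrrCharacter G)) (hB : Cfsg.IsPBlock M B) (P : Subgroup G) (hPD : Cfsg.IsDefectGroup p M B P) (hP1 : P ≠ ⊥) (hcyc : IsCyclic P) (Z : Subgroup G) (hZ : Z ≤ P) (hZcard : Nat.card Z = p) (H : Subgroup G) (hH : H = Subgroup.normalizer (Z : Set G)) (c : Set (Cfsg.IrrCharacter H)) (hcD : Cfsg.IsDefectGroup p M c (P.subgroupOf H)) (hc : Cfsg.IsInducedBlock M H c B) : Nat.card c = Nat.card B ∧ Cfsg.blockRank p c = Cfsg.blockRank p B ∧ ∃ (I : Cfsg.IrrCharacter H → Cfsg.IrrCharacter G) (ε : Cfsg.IrrCharacter H → ℤ), Cfsg.IsPerfectIsometry p M c B I ε := by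
  haveI : Modular p M := ⟨hM⟩
  obtain ⟨e, ⟨_, _, _, _, _, h⟩, _, _, _, _, _, h'⟩ := exists_dade_pair hPD hcyc hP1
    (hH ▸ Cfsg.Lib.Misc.normalizer_le_normalizer_of_le_cyclic hcyc hZ) hcD hc
  obtain ⟨I, ε, h1, -⟩ := h.exists_perfect h'
  exact ⟨h'.card_eq.trans h.card_eq.symm, h'.rank_eq.trans h.rank_eq.symm, I, ε, h1⟩

end Cfsg.Agent.S4635
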