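import Cfsg.Statements.S4636

set_option autoImplicit false
open scoped Pointwise
open Cfsg

namespace Cfsg.Agent.S4636

theorem eq_of_card_eq {G : Type*} [Group G] [Finite G] {P : Subgroup G} (hcyc : IsCyclic P)
    {A B : Subgroup G} (hA : A ≤ P) (hB : B ≤ P) (h : Nat.card A = Nat.card B) : A = B := by
  classical
  have key : ∀ C : Subgroup G, C ≤ P → ∀ x ∈ P, x ^ Nat.card C = 1 → x ∈ C := by
    intro C hC x hx hx1
    letI := Fintype.ofFinite P
    have hle := IsCyclic.card_pow_eq_one_le (α := P) (n := Nat.card C) Nat.card_pos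
    have hsub : (Finset.univ.filter (fun y : P => (y : G) ∈ C)) ⊆
        (Finset.univ.filter (fun y : P => y ^ Nat.card C = 1)) := by
      intro y hy
      simp only [Finset.mem_filter, Finset.mem_univ, true_and] at hy ⊢
      ext
      have := congrArg Subtype.val (pow_card_eq_one' (G := C) (x := ⟨y, hy⟩))
      exact this
    have hc : (Finset.univ.filter (fun y : P => (y : G) ∈ C)).card = Nat.card C := by
      rw [← Nat.card_congr (Subgroup.subgroupOfEquivOfLe hC).toEquiv, Nat.card_eq_fintype_card,
        Fintype.card_subtype]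
      rfl
    have heq := Finset.eq_of_subset_of_card_le hsub (by rw [hc]; exact hle)
    have : (⟨x, hx⟩ : P) ∈ (Finset.univ.filter (fun y : P => y ^ Nat.card C = 1)) := by
      simp only [Finset.mem_filter, Finset.mem_univ, true_and]
      ext; simpa using hx1
    rw [← heq] at this
    simpa using this
  apply le_antisymm
  · intro x hx
    apply key B hB x (hA hx)
    rw [← h]
    have := congrArg Subtype.val (pow_card_eq_one' (G := A) (x := ⟨x, hx⟩))
    exact this
  · intro x hx
    apply key A hA x (hB hx)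
    rw [h]
    have := congrArg Subtype.val (pow_card_eq_one' (G := B) (x := ⟨x, hx⟩))
    exact this

/-- Let P be a nontrivial cyclic p-subgroup of the finite group G and Z its subgroup of order p. For every x outside N_G(Z), P meets its conjugate xPx⁻¹ trivially; consequently N_G(Q) ≤ N_G(Z) for every nontrivial subgroup Q of P. -/
theorem result {G : Type*} [Group G] [Finite G] (p : ℕ) [Fact p.Prime] (P : Subgroup G) (hP : IsPGroup p P) (hP1 : P ≠ ⊥) (hcyc : IsCyclic P) (Z : Subgroup G) (hZ : Z ≤ P) (hZcard : Nat.card Z = p) : (∀ x : G, x ∉ Subgroup.normalizer (Z : Set G) → P ⊓ MulAut.conj x • P = ⊥) ∧ ∀ Q : Subgroup G, Q ≤ P → Q ≠ ⊥ → Subgroup.normalizer (Q : Set G) ≤ Subgroup.normalizer (Z : Set G) := by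
  have hp : p.Prime := Fact.out
  -- every nontrivial subgroup of `P` contains `Z`
  have hsub : ∀ Q : Subgroup G, Q ≤ P → Q ≠ ⊥ → Z ≤ Q := by
    intro Q hQ hQ1
    have hQp : IsPGroup p Q := hP.to_le hQ
    have hdvd : p ∣ Nat.card Q := by
      rcases hQp.card_eq_or_dvd with h | h
      · exact absurd (Subgroup.card_eq_one.mp h) hQ1
      · exact h
    obtain ⟨y, hy⟩ := exists_prime_orderOf_dvd_card' p hdvd
    have hle : Subgroup.zpowers (y : G) ≤ Q := by
      rw [Subgroup.zpowers_le]; exact y.2
    have hc : Nat.card (Subgroup.zpowers (y : G)) = p := by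
      rw [Nat.card_zpowers, Subgroup.orderOf_coe, hy]
    rw [eq_of_card_eq hcyc hZ (hle.trans hQ) (hZcard.trans hc.symm)]
    exact hle
  have hcard : ∀ (x : G) (A : Subgroup G), Nat.card (MulAut.conj x • A : Subgroup G) = Nat.card A :=
    fun x A => (Nat.card_congr (Subgroup.equivSMul (MulAut.conj x) A).toEquiv).symm
  have hnorm : ∀ x : G, MulAut.conj x • Z ≤ P → x ∈ Subgroup.normalizer (Z : Set G) := by
    intro x hx
    have := eq_of_card_eq hcyc hx hZ (hcard x Z)
    exact Subgroup.conjAct_pointwise_smul_iff.mp this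
  refine ⟨fun x hx => ?_, fun Q hQ hQ1 g hg => ?_⟩
  · by_contra hne
    apply hx
    have h1 : Z ≤ MulAut.conj x • P := (hsub _ inf_le_left hne).trans inf_le_right
    rw [← Subgroup.inv_mem_iff]
    apply hnorm
    rw [map_inv]
    exact Subgroup.pointwise_smul_subset_iff.mpr (by simpa using h1)
  · apply hnorm
    have h2 : MulAut.conj g • Q = Q := Subgroup.conjAct_pointwise_smul_eq_self hg
    calc MulAut.conj g • Z ≤ MulAut.conj g • Q :=
          Subgroup.pointwise_smul_le_pointwise_smul_iff.mpr (hsub Q hQ hQ1)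
      _ = Q := h2
      _ ≤ P := hQ

end Cfsg.Agent.S4636
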