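import Cfsg.Statements.S4639
import Cfsg.Agent.Lib.Block.FreeAb

set_option autoImplicit false
open Cfsg

namespace Cfsg.Agent.S4639

open Cfsg.Lib.Block Cfsg.Lib.Char Cfsg.Lib.Transfer MonoidAlgebra Subgroup

/-- Let B be a block of the finite group G relative to a maximal ideal M of the algebraic integers containing the prime p, with a nontrivial commutative defect group P. Let c be a block of C_G(P) inducing B, T the stabilizer of c in N_G(P) and e the index of C_G(P) in T. Suppose that T/C_G(P) is commutative (all commutators of elements of T lie in C_G(P)) and acts freely on the non-identity elements of P (an element of T fixing a non-identity element of P under conjugation lies in C_G(P)). Then B has at most e + (#P − 1)/e irreducible characters and p-regular rank at most e; equality holds in the first bound exactly when it holds in the second; and both equalities hold when e ≤ 3. -/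
theorem result {G : Type*} [Group G] [Finite G] (p : ℕ) [Fact p.Prime] (M : Ideal Cfsg.AlgInt) (hM : Cfsg.IsPModular p M) (B : Set (Cfsg.IrrCharacter G)) (hB : Cfsg.IsPBlock M B) (P : Subgroup G) (hPD : Cfsg.IsDefectGroup p M B P) (hP1 : P ≠ ⊥) (hPab : ∀ x ∈ P, ∀ y ∈ P, x * y = y * x) (c : Set (Cfsg.IrrCharacter (Subgroup.centralizer (P : Set G)))) (hc : Cfsg.IsInducedBlock M (Subgroup.centralizer (P : Set G)) c B) (T : Subgroup G) (hT : ∀ g : G, g ∈ T ↔ (g ∈ Subgroup.normalizer (P : Set G) ∧ Cfsg.StabilizesBlock (Subgroup.centralizer (P : Set G)) c g)) (e : ℕ) (he : (Subgroup.centralizer (P : Set G)).relIndex T = e) (hEab : ∀ g ∈ T, ∀ h ∈ T, g * h * g⁻¹ * h⁻¹ ∈ Subgroup.centralizer (P : Set G)) (hfree : ∀ g ∈ T, ∀ x ∈ P, x ≠ 1 → g * x * g⁻¹ = x → g ∈ Subgroup.centralizer (P : Set G)) : Nat.card B ≤ e + (Nat.card P - 1) / e ∧ Cfsg.blockRank p B ≤ e ∧ (Nat.card B = e + (Nat.card P - 1) / e ↔ Cfsg.blockRank p B = e) ∧ (e ≤ 3 → Nat.card B = e + (Nat.card P - 1) / e ∧ Cfsg.blockRank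 p B = e) := by
  have : Modular p M := ⟨hM⟩
  obtain ⟨ω₀, hm, rfl, -, rfl⟩ := Cfsg.IsInducedBlock.exists_isMax hc hPD hT
  subst he
  obtain ⟨h1, h2, h3⟩ := hm.counts_of_free (fun x hx y hy => hPab y hy x hx) hfree hP1
  change blockRank p B ≤ ω₀.ind at h2
  change Nat.card B ≤ ω₀.ind + (Nat.card ω₀.grp - 1) / ω₀.ind ∧ blockRank p B ≤ ω₀.ind ∧
    (Nat.card B = ω₀.ind + (Nat.card ω₀.grp - 1) / ω₀.ind ↔ blockRank p B = ω₀.ind) ∧
    (ω₀.ind ≤ 3 → Nat.card B = ω₀.ind + (Nat.card ω₀.grp - 1) / ω₀.ind ∧ blockRank p B = ω₀.ind)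
  exact ⟨by omega, h2, by omega, fun h => ⟨by have := h3 h; omega, h3 h⟩⟩

end Cfsg.Agent.S4639
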