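import Cfsg.Statements.S4641
import Cfsg.Agent.Lib.Block.Pim

set_option autoImplicit false
open Cfsg

namespace Cfsg.Agent.S4641

open Cfsg.Lib.Block Cfsg.Lib.Char Cfsg.Lib.Modular

/-- Let B be a block of the finite group G relative to a maximal ideal M of the algebraic integers containing the prime p, let p^a be the p-part of the order of G and p^d the order of a defect group D of B, and let g be the greatest common divisor of the degrees of the members of B. Then the p-part of g is exactly p^(a−d), and writing g = p^(a−d)·u there is a positive integer v, prime to p and at least the p-regular rank of B (its number of irreducible Brauer characters), with Σ_{χ ∈ B} χ(1)² = p^(2a−d)·u²·v. -/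
theorem result {G : Type*} [Group G] [Finite G] (p : ℕ) [Fact p.Prime] (M : Ideal Cfsg.AlgInt) (hM : Cfsg.IsPModular p M) (B : Set (Cfsg.IrrCharacter G)) (hB : Cfsg.IsPBlock M B) (D : Subgroup G) (hD : Cfsg.IsDefectGroup p M B D) (a d : ℕ) (ha : (Nat.card G).factorization p = a) (hd : Nat.card D = p ^ d) (g : ℕ) (hg1 : ∀ χ ∈ B, g ∣ Cfsg.charDegree (χ : G → ℂ)) (hg2 : ∀ g' : ℕ, (∀ χ ∈ B, g' ∣ Cfsg.charDegree (χ : G → ℂ)) → g' ∣ g) : g.factorization p = a - d ∧ ∃ v : ℕ, 0 < v ∧ ¬ p ∣ v ∧ Cfsg.blockRank p B ≤ v ∧ ∑ᶠ χ ∈ B, Cfsg.charDegree (χ : G → ℂ) ^ 2 = p ^ (2 * a - d) * (g / p ^ (a - d)) ^ 2 * v := by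
  classical
  have : Modular p M := ⟨hM⟩
  have := Fintype.ofFinite G
  have hp : p.Prime := Fact.out
  obtain rfl : d = blockDefect p B :=
    Nat.pow_right_injective hp.two_le (hd.symm.trans (hB.card_defectGroup hD))
  obtain ⟨η, hη, h0⟩ := exists_height_zero p hB.nonempty
  have hle : ∀ χ : IrrCharacter G, (charDegree (χ : G → ℂ)).factorization p ≤ a := fun χ =>
    ha ▸ (Nat.factorization_le_iff_dvd χ.2.charDegree_pos.ne' Nat.card_pos.ne').2
      χ.2.charDegree_dvd_card p
  have hg0 : g ≠ 0 := fun e => η.2.charDegree_pos.ne' (zero_dvd_iff.1 (e ▸ hg1 η hη))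
  have h1 := blockDefect_eq_sub_add (p := p) hη
  have h2 := hle η
  have h3 : g.factorization p = a - blockDefect p B := by
    refine le_antisymm ?_ ((hp.pow_dvd_iff_le_factorization hg0).1 (hg2 _ fun χ hχ => ?_))
    · have := (Nat.factorization_le_iff_dvd hg0 η.2.charDegree_pos.ne').2 (hg1 η hη) p
      omega
    · have := blockDefect_eq_sub_add (p := p) hχ
      have := hle χ
      exact (hp.pow_dvd_iff_le_factorization χ.2.charDegree_pos.ne').2 (by omega)
  have h4 : ¬ p ∣ g / p ^ (a - blockDefect p B) := h3 ▸ Nat.not_dvd_ordCompl hp hg0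
  have h5 : p ^ (a - blockDefect p B) * (g / p ^ (a - blockDefect p B)) = g :=
    h3 ▸ Nat.ordProj_mul_ordCompl_eq_self g p
  obtain ⟨v, hv, e⟩ := exists_sum_degree_sq hB hg1 (Dvd.intro_left _ h5) h4
  have hv0 := (blockRank_pos hB).trans_le hv
  have h6 := factorization_sum_degree_sq hB
  generalize g / p ^ (a - blockDefect p B) = u at *
  have e' : ∑ χ with χ ∈ B, charDegree (χ : G → ℂ) ^ 2 =
      p ^ (2 * a - blockDefect p B) * u ^ 2 * v := by
    rw [e, ← h5, ha, show 2 * a - blockDefect p B = a - blockDefect p B + a by omega]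
    ring
  refine ⟨h3, v, hv0, fun h => ?_, hv, (finsum_mem_irr_eq_sum_filter _ _).trans e'⟩
  have hu : u ≠ 0 := fun e => h4 (e ▸ dvd_zero p)
  have h7 : p ^ (2 * a - blockDefect p B + 1) ∣ ∑ χ with χ ∈ B, charDegree (χ : G → ℂ) ^ 2 := by
    rw [e', pow_succ, mul_assoc]
    exact Nat.mul_dvd_mul_left _ (h.mul_left _)
  have := (hp.pow_dvd_iff_le_factorization (by rw [e']; have := hp.pos; positivity)).1 h7
  omega

end Cfsg.Agent.S4641
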