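import Cfsg.Statements.S4645
import Cfsg.Agent.Lib.Cyc.Dade

set_option autoImplicit false
open Cfsg

namespace Cfsg.Agent.S4645

open Cfsg.Lib.Block Cfsg.Lib.Cyc Subgroup in

/-- Let B be a block of the finite group G relative to a maximal ideal M of the algebraic integers containing the prime p, with a nontrivial cyclic defect group P; let c be a block of C_G(P) inducing B and T the stabilizer of c in N_G(P). Let Q be a nontrivial subgroup of P (so C_G(P) ≤ C_G(Q)), f the block of C_G(Q) induced by c inside C_G(Q), and T' the stabilizer of f in N_G(Q). Then T' = T·C_G(Q), the index of C_G(Q) in T' equals the index of C_G(P) in T, f has p-regular rank 1, and f is a nilpotent block of C_G(Q). -/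
theorem result {G : Type*} [Group G] [Finite G] (p : ℕ) [Fact p.Prime] (M : Ideal Cfsg.AlgInt) (hM : Cfsg.IsPModular p M) (B : Set (Cfsg.IrrCharacter G)) (hB : Cfsg.IsPBlock M B) (P : Subgroup G) (hPD : Cfsg.IsDefectGroup p M B P) (hP1 : P ≠ ⊥) (hcyc : IsCyclic P) (c : Set (Cfsg.IrrCharacter (Subgroup.centralizer (P : Set G)))) (hc : Cfsg.IsInducedBlock M (Subgroup.centralizer (P : Set G)) c B) (T : Subgroup G) (hT : ∀ g : G, g ∈ T ↔ (g ∈ Subgroup.normalizer (P : Set G) ∧ Cfsg.StabilizesBlock (Subgroup.centralizer (P : Set G)) c g)) (Q : Subgroup G) (hQP : Q ≤ P) (hQ1 : Q ≠ ⊥) (f : Set (Cfsg.IrrCharacter (Subgroup.centralizer (Q : Set G)))) (hf : Cfsg.IsInducedBlockIn M (Subgroup.centralizer (Q : Set G)) (Subgroup.centralizer (P : Set G)) c f) (T' : Subgroup G) (hT' : ∀ g : G, g ∈ T' ↔ (g ∈ Subgroup.normalizer (Q : Set G) ∧ Cfsg.StabilizesBlock (Subgroup.centralizer (Q : Set G)) f g)) : T' = T ⊔ Subgroup.centralizer (Q : Set G) ∧ (Subgroup.centralizer (Q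 : Set G)).relIndex T' = (Subgroup.centralizer (P : Set G)).relIndex T ∧ Cfsg.blockRank p f = 1 ∧ Cfsg.IsNilpotentBlock p M f := by
  haveI : Modular p M := ⟨hM⟩
  have := Fintype.ofFinite G
  have hm := hc.isMaxPair hPD
  have hP := le_centralizer_of_isCyclic hcyc le_rfl
  have h1 : P ≤ centralizer (Q : Set G) := hP.trans (centralizer_le hQP)
  have hs : Sub p M ⊤ Q (ebl _ M f) P (ebl _ M c) :=
    ((hf.2.1.isPair (hm.pgrp.to_le hQP)).nsub hm.isPair hQP
      (h1.trans (centralizer_le_normalizer _)) (fix_anti h1 (ebl_mem_cen f).1)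
      ((isInducedBlockIn_iff_ebl hm.pgrp hP (centralizer_le hQP) inf_le_right
        (centralizer_le_normalizer _) hc.1 hf.2.1).1 hf)).sub
  have h2 : T = normalizer (P : Set G) ⊓ stab (ebl _ M c) := by rw [hc.1.eq_stab hT, top_inf_eq]
  have h3 : T' = inert M Q f := by rw [hf.2.1.eq_stab hT', top_inf_eq, inert]
  obtain ⟨v, ψ, -, h⟩ := (loc_of_sub hB hcyc hf.2.1 hm hs).exists_nil_of_ne_bot hQ1
  refine ⟨by rw [h2, h3, inert_eq_sup hm hcyc hs], by rw [h2, h3, relIndex_inert_eq hm hcyc hs hQ1],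
    h.blockRank_eq, ?_⟩
  have h4 := (hm.centralizer hs h1).isNilIn_iff_of_comm hP
  rw [top_inf_eq] at h4
  rw [hf.2.1.isNilpotentBlock_iff, h4]
  exact fun x hx => (inf_centralizer_eq hm hcyc hQP hQ1).le ⟨⟨hx.1.2, hx.2⟩, hx.1.1⟩

end Cfsg.Agent.S4645
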