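import Cfsg.Statements.S4648
import Cfsg.Agent.Lib.Sym.Small

set_option autoImplicit false
open Cfsg

namespace Cfsg.Agent.S4648

open Cfsg.Lib.Block Cfsg.Lib.Char Cfsg.Lib.Modular Cfsg.Lib.Sym
open scoped ComplexConjugate

/-- Let B be a block of the finite group G relative to a maximal ideal M of the algebraic integers containing the prime p, with a nontrivial defect group D. If B has p-regular rank 1 and at most four irreducible characters, then B is nilpotent, D has exactly as many elements as B has irreducible characters, and p is 2 or 3. -/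
theorem result {G : Type*} [Group G] [Finite G] (p : ℕ) [Fact p.Prime] (M : Ideal Cfsg.AlgInt) (hM : Cfsg.IsPModular p M) (B : Set (Cfsg.IrrCharacter G)) (hB : Cfsg.IsPBlock M B) (D : Subgroup G) (hD : Cfsg.IsDefectGroup p M B D) (hD1 : D ≠ ⊥) (hl : Cfsg.blockRank p B = 1) (hk : Nat.card B ≤ 4) : Cfsg.IsNilpotentBlock p M B ∧ Nat.card D = Nat.card B ∧ (p = 2 ∨ p = 3) := by
  have : Modular p M := ⟨hM⟩
  have hp : p.Prime := Fact.out
  have h1 := (hB.card_defectGroup hD).trans (card_eq_of_rank_one hB hl hk).symm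
  have h2 : 1 < Nat.card D := D.one_lt_card_iff_ne_bot.2 hD1
  have h3 : p ∣ Nat.card D := hD.isPGroup.card_eq_or_dvd.resolve_left h2.ne'
  refine ⟨?_, h1, ?_⟩
  · obtain ⟨ω₀, hm, rfl⟩ := Prs.exists_isMax hB hD
    have h4 : ω₀.grp ≤ Subgroup.centralizer (ω₀.grp : Set G) ∧ ω₀.Free := by
      by_cases hc : IsCyclic ω₀.grp
      · exact ⟨le_centralizer_of_comm hc.isMulCommutative, free_of_isCyclic hm hc⟩
      have h5 : Nat.card ω₀.grp = 4 := by
        by_contra h
        obtain h | h : Nat.card ω₀.grp = 2 ∨ Nat.card ω₀.grp = 3 := by omega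
        · exact hc (isCyclic_of_prime_card h)
        · exact hc (isCyclic_of_prime_card h)
      obtain rfl : p = 2 := (Nat.prime_dvd_prime_iff_eq hp Nat.prime_two).1
        (hp.dvd_of_dvd_pow (n := 2) (h3.trans h5.dvd))
      have h6 := (isCyclic_or_isKleinFour h5).resolve_left hc
      exact ⟨Cfsg.Lib.Inv.k4_le_centralizer h6, hm.free_of_kleinFour h6⟩
    have h5 := hm.ind_mul_card_of_free h4.1 h4.2
    have h6 := ω₀.ind_ne_zero
    rw [hB.isNilpotentBlock_iff_top, hm.isNilIn_iff_ind h4.1]
    rw [hl, ← h1] at h5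
    by_contra h
    nlinarith [show 2 ≤ ω₀.ind by omega]
  · have := Nat.le_of_dvd (by omega) h3
    have := hp.two_le
    have : p ≠ 4 := by rintro rfl; exact absurd hp (by decide)
    omega

end Cfsg.Agent.S4648
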