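import Cfsg.Statements.S4649
import Cfsg.Agent.Lib.Cyc.Dade

set_option autoImplicit false
open Cfsg

namespace Cfsg.Agent.S4649

open Cfsg.Lib.Block Cfsg.Lib.Cyc Subgroup in

/-- A block with cyclic defect group, of a finite group relative to a maximal ideal M of the algebraic integers containing the prime p, is nilpotent if and only if its p-regular rank is 1 (it has a unique irreducible Brauer character). -/
theorem result {G : Type*} [Group G] [Finite G] (p : ℕ) [Fact p.Prime] (M : Ideal Cfsg.AlgInt) (hM : Cfsg.IsPModular p M) (B : Set (Cfsg.IrrCharacter G)) (hB : Cfsg.IsPBlock M B) (P : Subgroup G) (hPD : Cfsg.IsDefectGroup p M B P) (hcyc : IsCyclic P) : Cfsg.IsNilpotentBlock p M B ↔ Cfsg.blockRank p B = 1 := by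
  haveI : Modular p M := ⟨hM⟩
  have := Fintype.ofFinite G
  obtain ⟨κ, hm⟩ := hB.isBlkIdem_top.exists_isMaxPair (hB.isDefectGroup_iff_isDefIn_top.1 hPD)
  rw [hB.isNilpotentBlock_iff_top, hm.isNilIn_iff_of_comm (le_centralizer_of_isCyclic hcyc le_rfl),
    top_inf_eq]
  rcases eq_or_ne P ⊥ with rfl | h1
  · exact iff_of_true (fun x _ y hy => by simp [mem_bot.1 hy])
      (Cfsg.Lib.Modular.blockRank_eq_one_of_sup_centralizer (by simp) hB hPD)
  obtain ⟨P, X, Ξ, δ, c, h⟩ := exists_dade hB hcyc h1 hm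
  rw [h.rank_eq, relIndex_eq_one]

end Cfsg.Agent.S4649
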