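import Cfsg.Statements.S4650
import Cfsg.Agent.Lib.Block.Quot

set_option autoImplicit false
open Cfsg

namespace Cfsg.Agent.S4650

open Cfsg.Lib.Block Cfsg.Lib.Char Cfsg.Lib.Transfer MonoidAlgebra Subgroup

/-- Let B be a block of the finite group G relative to a maximal ideal M of the algebraic integers containing the prime p, with a nontrivial commutative defect group P; let c be a block of C_G(P) inducing B and T the stabilizer of c in N_G(P). Then T/C_G(P) acts freely on the non-identity elements of P (an element of T fixing a non-identity element of P under conjugation lies in C_G(P)) if and only if, for every nontrivial subgroup Q of P, the block of C_G(Q) induced by c inside C_G(Q) is a nilpotent block of C_G(Q). -/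
theorem result {G : Type*} [Group G] [Finite G] (p : ℕ) [Fact p.Prime] (M : Ideal Cfsg.AlgInt) (hM : Cfsg.IsPModular p M) (B : Set (Cfsg.IrrCharacter G)) (hB : Cfsg.IsPBlock M B) (P : Subgroup G) (hPD : Cfsg.IsDefectGroup p M B P) (hPab : ∀ x ∈ P, ∀ y ∈ P, x * y = y * x) (hP1 : P ≠ ⊥) (c : Set (Cfsg.IrrCharacter (Subgroup.centralizer (P : Set G)))) (hc : Cfsg.IsInducedBlock M (Subgroup.centralizer (P : Set G)) c B) (T : Subgroup G) (hT : ∀ g : G, g ∈ T ↔ (g ∈ Subgroup.normalizer (P : Set G) ∧ Cfsg.StabilizesBlock (Subgroup.centralizer (P : Set G)) c g)) : (∀ g ∈ T, ∀ x ∈ P, x ≠ 1 → g * x * g⁻¹ = x → g ∈ Subgroup.centralizer (P : Set G)) ↔ ∀ Q : Subgroup G, Q ≤ P → Q ≠ ⊥ → ∀ f : Set (Cfsg.IrrCharacter (Subgroup.centralizer (Q : Set G))), Cfsg.IsInducedBlockIn M (Subgroup.centralizer (Q : Set G)) (Subgroup.centralizer (P : Set G)) c f → Cfsg.IsNilpotentBlock p M f := by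
  have : Modular p M := ⟨hM⟩
  have hm := hc.isMaxPair hPD
  have hP : P ≤ centralizer (P : Set G) := fun x hx y hy => hPab y hy x hx
  have hT' := hc.1.eq_stab hT
  have key : ∀ Q ≤ P, ∀ f : Set (IrrCharacter (centralizer (Q : Set G))), IsPBlock M f →
      (IsInducedBlockIn M (centralizer (Q : Set G)) (centralizer (P : Set G)) c f ↔
        NSub p M ⊤ Q (ebl _ M f) P (ebl _ M c)) := fun Q hQ f hf => by
    have h1 : P ≤ centralizer (Q : Set G) := hP.trans (centralizer_le hQ)
    rw [isInducedBlockIn_iff_ebl hm.pgrp hP (centralizer_le hQ) inf_le_right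
      (centralizer_le_normalizer _) hc.1 hf]
    exact ⟨fun h => (hf.isPair (hm.pgrp.to_le hQ)).nsub hm.isPair hQ
      (h1.trans (centralizer_le_normalizer _)) (fix_anti h1 (ebl_mem_cen f).1) h, NSub.mul_ne_zero⟩
  have key2 : ∀ Q ≤ P, ∀ f : Set (IrrCharacter (centralizer (Q : Set G))), IsPBlock M f →
      NSub p M ⊤ Q (ebl _ M f) P (ebl _ M c) → (IsNilpotentBlock p M f ↔
        ∀ g ∈ T, g ∈ centralizer (Q : Set G) → g ∈ centralizer (P : Set G)) := fun Q hQ f hf h => by
    have h1 := (hm.centralizer h.sub (hP.trans (centralizer_le hQ))).isNilIn_iff_of_comm hP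
    rw [top_inf_eq] at h1
    rw [hf.isNilpotentBlock_iff, h1, hT']
    exact ⟨fun h g hg hg' => h ⟨⟨hg', hg.1.2⟩, hg.2⟩, fun h g hg => h g ⟨⟨trivial, hg.1.2⟩, hg.2⟩ hg.1.1⟩
  constructor
  · intro h Q hQ hQ1 f hf
    refine (key2 Q hQ f hf.2.1 ((key Q hQ f hf.2.1).1 hf)).2 fun g hg hg' => ?_
    obtain ⟨⟨x, hx⟩, hx1⟩ := ne_bot_iff_exists_ne_one.1 hQ1
    refine h g hg x (hQ hx) (fun e => hx1 (Subtype.ext e)) ?_
    rw [← hg' x hx, mul_inv_cancel_right]
  · intro h g hg x hx hx1 hgx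
    have hQ : zpowers x ≤ P := zpowers_le.2 hx
    obtain ⟨f, hf⟩ := hm.isPair.exists_nsub hQ
      (hP.trans ((centralizer_le hQ).trans (centralizer_le_normalizer _)))
    obtain ⟨f, h1, rfl⟩ := hf.left.exists_eq_ebl
    refine (key2 _ hQ f h1 hf).1 (h _ hQ (by simpa using hx1) f ((key _ hQ f h1).2 hf)) g hg ?_
    rw [← le_centralizer_singleton_iff, zpowers_le, mem_centralizer_singleton_iff]
    exact (mul_inv_eq_iff_eq_mul.1 hgx).symm

end Cfsg.Agent.S4650
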