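import Cfsg.Statements.S4654
import Cfsg.Agent.Lib.Block.Quot

set_option autoImplicit false
open Cfsg

namespace Cfsg.Agent.S4654

open Cfsg.Lib.Block Cfsg.Lib.Char Cfsg.Lib.Transfer MonoidAlgebra Subgroup

/-- Fix a prime p and a maximal ideal M of the algebraic integers containing p. Let P be a normal p-subgroup of the finite group G, B a p-block of G and e a p-block of C_G(P) such that (P, e) is a Brauer pair of B (as P is normal, this says that e occurs in the idempotent of B, which is supported on C_G(P)). Let T be the stabilizer of e in G under conjugation. Then the idempotent of e is a block idempotent of T: some block E of T has, at every element of T, the same idempotent coefficient as e (zero off C_G(P)); and the idempotent of B is the sum of the distinct G-conjugates of the idempotent of e: its coefficient at g is the sum over all x in G of the coefficient of e at x⁻¹ g x, divided by the order of T. -/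
theorem result {G : Type*} [Group G] [Fintype G] (p : ℕ) [Fact p.Prime] (M : Ideal Cfsg.AlgInt) (hM : Cfsg.IsPModular p M) (P : Subgroup G) [P.Normal] (hP : IsPGroup p P) (B : Set (Cfsg.IrrCharacter G)) (e : Set (Cfsg.IrrCharacter (Subgroup.centralizer (P : Set G)))) (hBe : Cfsg.IsBrauerPairOf p M B P e) (T : Subgroup G) (hT : ∀ x : G, x ∈ T ↔ Cfsg.StabilizesBlock (Subgroup.centralizer (P : Set G)) e x) : (∃ E : Set (Cfsg.IrrCharacter T), Cfsg.IsPBlock M E ∧ ∀ t : T, Cfsg.blockCoeff E t = Cfsg.subgroupBlockCoeff (Subgroup.centralizer (P : Set G)) e (t : G)) ∧ ∀ g : G, Cfsg.blockCoeff B g = (Nat.card T : ℂ)⁻¹ * ∑ x : G, Cfsg.subgroupBlockCoeff (Subgroup.centralizer (P : Set G)) e (x⁻¹ * g * x) := by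
  have : Modular p M := ⟨hM⟩
  obtain ⟨hB, he, h1⟩ := isBrauerPairOf_iff.1 hBe
  obtain rfl : T = stab (ebl _ M e) := Subgroup.ext fun g => by
    rw [hT, he.stabilizesBlock_iff, and_iff_right (le_normalizer_top trivial)]
  constructor
  · obtain ⟨E, h2, -, h3⟩ := he.exists_stab_block hP h1.isPair.mem_fix he.isBlkIdem.mem_cen.1
      (le_inf (le_inf le_top (le_top.trans le_normalizer_top)) le_rfl)
    exact ⟨E, h2, h3⟩
  · intro g
    have h2 := hB.fblk_eq_rtr he (by rw [← hB.br_eblk_of_normal hP]; exact h1.mul)
    have h3 := congrArg (fun a => a.coeff g) (sum_cj_eq_rtr_top (fix_anti (le_inf le_top le_rfl)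
      (he.fbl_mem_fix_stab le_normalizer_top)))
    simp only [← h2, coeff_sum', coeff_cj, coeff_fbl, ← Nat.cast_smul_eq_nsmul ℂ, coeff_smul',
      coeff_fblk] at h3
    rw [h3, inv_mul_cancel_left₀ (Nat.cast_ne_zero.2 Nat.card_pos.ne')]

end Cfsg.Agent.S4654
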