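import Cfsg.Statements.S4657
import Cfsg.Agent.Lib.Block.PairDict

set_option autoImplicit false
open Cfsg

namespace Cfsg.Agent.S4657

open Cfsg.Lib.Block Cfsg.Lib.Char Cfsg.Lib.Transfer MonoidAlgebra Subgroup

/-- Fix a prime p and a maximal ideal M of the algebraic integers containing p. Every Brauer pair (P, e) of the finite group G is a Brauer pair of exactly one p-block B of G. -/
theorem result {G : Type*} [Group G] [Fintype G] (p : ℕ) [Fact p.Prime] (M : Ideal Cfsg.AlgInt) (hM : Cfsg.IsPModular p M) (P : Subgroup G) (e : Set (Cfsg.IrrCharacter (Subgroup.centralizer (P : Set G)))) (hPe : Cfsg.IsBrauerPair p M P e) : ∃! B : Set (Cfsg.IrrCharacter G), Cfsg.IsBrauerPairOf p M B P e := by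
  have : Modular p M := ⟨hM⟩
  simp only [isBrauerPairOf_iff_isInducedBlock hPe.1]
  obtain ⟨B, hB⟩ := inducedBlockDefined_centralizer hPe.1 hPe.2
  exact ⟨B, hB, fun B' h => h.unique hB⟩

end Cfsg.Agent.S4657
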