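import Cfsg.Statements.S4662
import Cfsg.Agent.Lib.Block.PairDict

set_option autoImplicit false
open Cfsg

namespace Cfsg.Agent.S4662

open Cfsg.Lib.Block Cfsg.Lib.Char Cfsg.Lib.Transfer MonoidAlgebra Subgroup

/-- Fix a prime p and a maximal ideal M of the algebraic integers containing p. Let (P, e) be a maximal Brauer pair of the p-block B of the finite group G, Q ≤ P, and f the p-block of C_G(Q) with (Q, f) ≤ (P, e). Let T be the stabilizer of f in N_G(Q). Then the idempotent of f is a block idempotent of T, and N_P(Q) is contained in a defect group of that block of T; moreover for some x in G the conjugate pair (x Q x⁻¹, conjugate of f) again lies below (P, e) and, with T' the stabilizer of the conjugate of f in N_G(x Q x⁻¹), N_P(x Q x⁻¹) is a defect group of the block of T' whose idempotent is that of the conjugate of f. -/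
theorem result {G : Type*} [Group G] [Fintype G] (p : ℕ) [Fact p.Prime] (M : Ideal Cfsg.AlgInt) (hM : Cfsg.IsPModular p M) (B : Set (Cfsg.IrrCharacter G)) (P Q : Subgroup G) (e : Set (Cfsg.IrrCharacter (Subgroup.centralizer (P : Set G)))) (f : Set (Cfsg.IrrCharacter (Subgroup.centralizer (Q : Set G)))) (hmax : Cfsg.IsMaximalBrauerPair p M B P e) (hQP : Q ≤ P) (hf : Cfsg.IsPBlock M f) (hle : Cfsg.SubpairLE p M Q f P e) (T : Subgroup G) (hT : ∀ y : G, y ∈ T ↔ y ∈ Subgroup.normalizer (Q : Set G) ∧ Cfsg.StabilizesBlock (Subgroup.centralizer (Q : Set G)) f y) : (∃ F : Set (Cfsg.IrrCharacter T), Cfsg.IsPBlock M F ∧ (∀ t : T, Cfsg.blockCoeff F t = Cfsg.subgroupBlockCoeff (Subgroup.centralizer (Q : Set G)) f (t : G)) ∧ ∃ D : Subgroup T, Cfsg.IsDefectGroup p M F D ∧ (P ⊓ Subgroup.normalizer (Q : Set G)).subgroupOf T ≤ D) ∧ ∃ x : G, Cfsg.SubpairLE p M (Q.map (MulAut.conj x).toMonoidHom) (Cfsg.conjBlock Q x f) P e ∧ ∀ (T' : Subgroup G), (∀ y : G, y ∈ T'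 ↔ y ∈ Subgroup.normalizer ((Q.map (MulAut.conj x).toMonoidHom) : Set G) ∧ Cfsg.StabilizesBlock (Subgroup.centralizer ((Q.map (MulAut.conj x).toMonoidHom) : Set G)) (Cfsg.conjBlock Q x f) y) → ∃ F' : Set (Cfsg.IrrCharacter T'), Cfsg.IsPBlock M F' ∧ (∀ t : T', Cfsg.blockCoeff F' t = Cfsg.subgroupBlockCoeff (Subgroup.centralizer ((Q.map (MulAut.conj x).toMonoidHom) : Set G)) (Cfsg.conjBlock Q x f) (t : G)) ∧ Cfsg.IsDefectGroup p M F' ((P ⊓ Subgroup.normalizer ((Q.map (MulAut.conj x).toMonoidHom) : Set G)).subgroupOf T') := by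
  have : Modular p M := ⟨hM⟩
  have hm := hmax.isMaxPair
  have h := hle.sub
  have h1 := h.left hm.isPair
  have h0 := h1.isBlkIdem_stab le_top
  have key : ∀ (Q : Subgroup G) (f : Set (IrrCharacter (centralizer (Q : Set G)))), IsPBlock M f →
      IsPGroup p Q → ∃ E : Set (IrrCharacter ↥(⊤ ⊓ normalizer (Q : Set G) ⊓ stab (ebl _ M f))),
      IsPBlock M E ∧ ebl _ M E = ebl _ M f ∧
      ∀ t, blockCoeff E t = subgroupBlockCoeff _ f t := fun Q f hf hQ =>
    hf.exists_stab_block hQ (le_inf (le_inf le_top le_normalizer) (hf.isPair hQ).mem_fix)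
      ((le_inf le_top le_rfl).trans (hf.isPair hQ).inf_centralizer_le_stab) le_rfl
  obtain rfl := hf.eq_stab hT
  constructor
  · obtain ⟨E, h2, h3, h4⟩ := key Q f hf h1.pgrp
    obtain ⟨D, h5, h6⟩ := exists_isDefIn_ge ((h.inf_stab_eq hm.isPair le_top).ge.trans inf_le_right)
      hm.pgrp.to_inf_left (h.br_ne_zero hm.isPair inf_le_left inf_le_right)
    exact ⟨E, h2, h4, _, (h2.isDefectGroup_iff_isDefIn h5.le).2 (by rwa [h3]), comap_mono h6⟩
  · obtain ⟨D, hD⟩ := h0.exists_isDefIn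
    obtain ⟨x, -, h2, -, h3⟩ := hm.exists_conj_isDefIn (hm.of_sub h) le_rfl hD
    refine ⟨x, h2.subpairLE_conj hf hmax.1.1.2, fun T' hT' => ?_⟩
    obtain rfl := (hf.conjBlock x).eq_stab hT'
    obtain ⟨E, h4, h5, h6⟩ := key _ _ (hf.conjBlock x) (isPGroup_conj h1.pgrp x)
    rw [conj_inf_stab (conj_top x), h2.inf_stab_eq hm.isPair le_top, ← ebl_conjBlock] at h3
    exact ⟨E, h4, h6, (h4.isDefectGroup_iff_isDefIn h3.le).2 (by rwa [h5])⟩

end Cfsg.Agent.S4662
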