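import Cfsg.Statements.S4664
import Cfsg.Agent.Lib.Modular.Vanish

set_option autoImplicit false
open Cfsg

namespace Cfsg.Agent.S4664

open Cfsg.Lib.Block Cfsg.Lib.Char Cfsg.Lib.Modular
open scoped ComplexConjugate

/-- Fix a prime p and a maximal ideal M of the algebraic integers containing p, and let B be a p-block of the finite group G. Let m be the p'-part of the order of G and η = exp(2πi/m). Then every coefficient of the idempotent of B lies in the cyclotomic field ℚ(η). -/
theorem result {G : Type*} [Group G] [Fintype G] (p : ℕ) [Fact p.Prime] (M : Ideal Cfsg.AlgInt) (hM : Cfsg.IsPModular p M) (B : Set (Cfsg.IrrCharacter G)) (hB : Cfsg.IsPBlock M B) (g : G) : Cfsg.blockCoeff B g ∈ IntermediateField.adjoin ℚ ({Complex.exp (2 * Real.pi * Complex.I / ((Nat.card G / p ^ (Nat.card G).factorization p : ℕ) : ℂ))} : Set ℂ) := by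
  classical
  have : Modular p M := ⟨hM⟩
  have hp : p.Prime := Fact.out
  by_cases hg : p ∣ orderOf g
  · rw [hB.blockCoeff_eq_zero hg]; exact zero_mem _
  set m := Nat.card G / p ^ (Nat.card G).factorization p with hm
  have hm0 : m ≠ 0 := (Nat.ordCompl_pos p Nat.card_pos.ne').ne'
  have hdvd : orderOf g ∣ m := by
    have h1 : orderOf g ∣ p ^ (Nat.card G).factorization p * m := by
      rw [hm, Nat.ordProj_mul_ordCompl_eq_self]; exact orderOf_dvd_natCard g
    exact Nat.Coprime.dvd_of_dvd_mul_left
      (Nat.Coprime.pow_right _ ((hp.coprime_iff_not_dvd.2 hg).symm)) h1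
  have hprim := Complex.isPrimitiveRoot_exp m hm0
  rw [blockCoeff_eq]
  refine mul_mem (inv_mem (natCast_mem _ _)) (sum_mem fun χ _ => mul_mem ?_ ?_)
  · rw [χ.2.apply_one_eq]; exact natCast_mem _ _
  · rw [← χ.2.apply_inv]
    obtain ⟨n, ε, -, hε, h⟩ := χ.2.isCharacter.exists_eigenvalues g⁻¹
    have := h 1
    simp only [pow_one] at this
    rw [this]
    refine sum_mem fun i _ => ?_
    have h2 : ε i ^ m = 1 := by
      obtain ⟨c, hc⟩ := hdvd
      rw [hc, pow_mul, ← orderOf_inv, hε, one_pow]
    have : NeZero m := ⟨hm0⟩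
    obtain ⟨k, -, hk⟩ := hprim.eq_pow_of_pow_eq_one h2
    rw [← hk]
    exact pow_mem (IntermediateField.mem_adjoin_simple_self ℚ _) k

end Cfsg.Agent.S4664
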