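import Cfsg.Statements.S4666
import Cfsg.Agent.Lib.Modular.Rank

set_option autoImplicit false
open Cfsg

namespace Cfsg.Agent.S4666

open Cfsg.Lib.Block Cfsg.Lib.Char Cfsg.Lib.Modular
open scoped ComplexConjugate

/-- Fix a prime p and a maximal ideal M of the algebraic integers containing p, and a p-block B of the finite group G of defect d. For every integer combination χ of the irreducible characters in B, p^d times the function that agrees with χ on p-regular elements and vanishes elsewhere is again an integer combination of the irreducible characters in B. -/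
theorem result {G : Type*} [Group G] [Fintype G] (p : ℕ) [Fact p.Prime] (M : Ideal Cfsg.AlgInt) (hM : Cfsg.IsPModular p M) (B : Set (Cfsg.IrrCharacter G)) (hB : Cfsg.IsPBlock M B) (χ : G → ℂ) (hχ : (∃ n : Cfsg.IrrCharacter G → ℤ, ∀ g : G, χ g = ∑ᶠ ψ ∈ B, (n ψ : ℂ) * (ψ : G → ℂ) g)) : (∃ n : Cfsg.IrrCharacter G → ℤ, ∀ g : G, (p ^ Cfsg.blockDefect p B : ℂ) * Cfsg.pRegularPart p χ g = ∑ᶠ ψ ∈ B, (n ψ : ℂ) * (ψ : G → ℂ) g) := by
  classical
  have : Modular p M := ⟨hM⟩
  obtain ⟨n, hn⟩ := hχ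
  have h1 : χ = ∑ ψ with ψ ∈ B, (n ψ : ℂ) • (ψ : G → ℂ) := funext fun g => by
    rw [hn, finsum_mem_irr_eq_sum_filter, Finset.sum_apply]
    rfl
  have hg : IsGeneralizedCharacter G χ := h1 ▸ isGeneralizedCharacter_sum _ _ fun ψ _ =>
    ψ.2.isGeneralizedCharacter.intCast_smul _
  have hs : InSpan B χ := h1 ▸ inSpan_sum _ _ fun ψ hψ =>
    (inSpan_of_mem (Finset.mem_filter.1 hψ).2).smul _
  refine ⟨fun ψ => contr p B ψ χ, fun g => ?_⟩
  rw [(hs.pRegularPart hM hB hg.isClassFunction).eq_sum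
    (isClassFunction_pRegularPart hg.isClassFunction), finsum_mem_irr_eq_sum_filter,
    Finset.sum_apply, Finset.mul_sum]
  refine Finset.sum_congr rfl fun ψ hψ => ?_
  rw [cast_contr (Finset.mem_filter.1 hψ).2 hg, regInner_comm ψ.2.isGeneralizedCharacter hg,
    mul_assoc]
  rfl

end Cfsg.Agent.S4666
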