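import Cfsg.Statements.S4668
import Cfsg.Agent.Lib.Block.Quot

set_option autoImplicit false
open Cfsg

namespace Cfsg.Agent.S4668

open Cfsg.Lib.Block Cfsg.Lib.Char Cfsg.Lib.Transfer MonoidAlgebra Subgroup

/-- Fix a prime p and a maximal ideal M of the algebraic integers containing p. Let Q₀ < Q₁ < ⋯ < Q_m be a strictly increasing chain of p-subgroups of the finite group G and N the intersection of their normalizers. Then every block idempotent of N is supported on C_G(Q_m): for every p-block E of N, the idempotent coefficient of E vanishes at every element of N outside C_G(Q_m). -/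
theorem result {G : Type*} [Group G] [Fintype G] (p : ℕ) [Fact p.Prime] (M : Ideal Cfsg.AlgInt) (hM : Cfsg.IsPModular p M) (m : ℕ) (Q : Fin (m + 1) → Subgroup G) (hQ : StrictMono Q) (hQp : ∀ i, IsPGroup p (Q i)) (N : Subgroup G) (hN : ∀ g : G, g ∈ N ↔ ∀ i, g ∈ Subgroup.normalizer (Q i : Set G)) (E : Set (Cfsg.IrrCharacter N)) (hE : Cfsg.IsPBlock M E) (n : N) (hn : (n : G) ∉ Subgroup.centralizer (Q (Fin.last m) : Set G)) : Cfsg.blockCoeff E n = 0 := by
  have : Modular p M := ⟨hM⟩
  have hN' : N ≤ normalizer (Q (Fin.last m) : Set G) := fun g hg => (hN g).1 hg _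
  have h1 : ebl N M E ∈ supp (Res M) (N ⊓ centralizer (Q (Fin.last m) : Set G)) := fun g hg =>
    by_contra fun h => hg ⟨mem_of_coeff_ne_zero (ebl_mem_cen E).2 h,
      mem_centralizer_of_chain hQ.monotone hQp hN (ebl_mem_cen E) hE.ebl_idem h _⟩
  have h2 := fbl_mem_supp_of_ebl inf_le_left (le_normalizer_inf_centralizer le_normalizer hN')
    hE.fblk_mem_SG h1 n fun h => hn h.2
  rwa [fbl, coeff_emb_subtype] at h2

end Cfsg.Agent.S4668
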