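import Cfsg.Statements.S4670
import Cfsg.Agent.Lib.Block.Quot

set_option autoImplicit false
open Cfsg

namespace Cfsg.Agent.S4670

open Cfsg.Lib.Block Cfsg.Lib.Char Cfsg.Lib.Transfer MonoidAlgebra Subgroup

/-- Fix a prime p and a maximal ideal M of the algebraic integers containing p. Let P be a p-subgroup of the finite group G and H a subgroup containing N_G(P). For every p-block B of G with defect group P there is exactly one p-block c of H with defect group P whose idempotent agrees with that of B, modulo the local ideal at M, at every element of C_G(P) (their Brauer-map images at P coincide); and every p-block c of H with defect group P arises in this way from exactly one such B. This is the Brauer correspondence over H. -/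
theorem result {G : Type*} [Group G] [Fintype G] (p : ℕ) [Fact p.Prime] (M : Ideal Cfsg.AlgInt) (hM : Cfsg.IsPModular p M) (P H : Subgroup G) (hP : IsPGroup p P) (hH : Subgroup.normalizer (P : Set G) ≤ H) : (∀ B : Set (Cfsg.IrrCharacter G), Cfsg.IsPBlock M B → Cfsg.IsDefectGroup p M B P → ∃! c : Set (Cfsg.IrrCharacter H), Cfsg.IsPBlock M c ∧ Cfsg.IsDefectGroup p M c (P.subgroupOf H) ∧ ∀ x : G, x ∈ Subgroup.centralizer (P : Set G) → Cfsg.MemLocalIdeal M (Cfsg.blockCoeff B x - Cfsg.subgroupBlockCoeff H c x)) ∧ (∀ c : Set (Cfsg.IrrCharacter H), Cfsg.IsPBlock M c → Cfsg.IsDefectGroup p M c (P.subgroupOf H) → ∃! B : Set (Cfsg.IrrCharacter G), Cfsg.IsPBlock M B ∧ Cfsg.IsDefectGroup p M B P ∧ ∀ x : G, x ∈ Subgroup.centralizer (P : Set G) → Cfsg.MemLocalIdeal M (Cfsg.blockCoeff B x - Cfsg.subgroupBlockCoeff H c x)) := by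
  have : Modular p M := ⟨hM⟩
  have hPH : P ≤ H := le_normalizer.trans hH
  have h0 : ⊤ ⊓ normalizer (P : Set G) = H ⊓ normalizer (P : Set G) := by
    rw [top_inf_eq, inf_eq_right.2 hH]
  refine ⟨fun B hB hD => ?_, fun c hc hD => ?_⟩
  · obtain ⟨_, ⟨c, hc, rfl⟩, h1, h2⟩ := hB.isBlkIdem_top.exists_corr
      (hB.isDefectGroup_iff_isDefIn_top.1 hD) h0
    refine ⟨c, ⟨hc, (hc.isDefectGroup_iff_isDefIn hPH).2 h1,
      (br_eq_br_iff hB.fblk_mem_SG hc.fblk_mem_SG).1 h2.symm⟩, fun c' ⟨hc', _, h3⟩ => ?_⟩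
    exact (hc.eq_of_ebl_eq hc' (hc.isBlkIdem.eq_of_br_eq hc'.isBlkIdem hP hPH h1.ne_zero
      (h2.trans ((br_eq_br_iff hB.fblk_mem_SG hc'.fblk_mem_SG).2 h3)))).symm
  · obtain ⟨a, ha, h1, h2⟩ := hc.isBlkIdem.exists_corr
      ((hc.isDefectGroup_iff_isDefIn hPH).1 hD) h0.symm
    obtain ⟨B, hB, rfl⟩ := isBlkIdem_top_iff.1 ha
    refine ⟨B, ⟨hB, hB.isDefectGroup_iff_isDefIn_top.2 h1,
      (br_eq_br_iff hB.fblk_mem_SG hc.fblk_mem_SG).1 h2⟩, fun B' ⟨hB', _, h3⟩ => ?_⟩
    exact (hB.eq_of_eblk_eq hB' (ha.eq_of_br_eq hB'.isBlkIdem_top hP le_top h1.ne_zero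
      (h2.trans ((br_eq_br_iff hB'.fblk_mem_SG hc.fblk_mem_SG).2 h3).symm))).symm

end Cfsg.Agent.S4670
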