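import Cfsg.Statements.S4672
import Cfsg.Agent.Lib.Block.Quot

set_option autoImplicit false
open Cfsg

namespace Cfsg.Agent.S4672

open Cfsg.Lib.Block Cfsg.Lib.Char Cfsg.Lib.Transfer MonoidAlgebra Subgroup

/-- Fix a prime p and a maximal ideal M of the algebraic integers containing p. Let N be a normal subgroup of the finite group G of p-power index and c a p-block of N stable under conjugation by G. Then the idempotent of c is a block idempotent of G: there is a p-block B of G whose idempotent coefficients agree with those of c on N and vanish off N; and for every defect group P of such a block B, G = NP and P ∩ N is a defect group of c. -/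
theorem result {G : Type*} [Group G] [Fintype G] (p : ℕ) [Fact p.Prime] (M : Ideal Cfsg.AlgInt) (hM : Cfsg.IsPModular p M) (N : Subgroup G) [N.Normal] (hN : ∃ k : ℕ, N.index = p ^ k) (c : Set (Cfsg.IrrCharacter N)) (hc : Cfsg.IsPBlock M c) (hst : ∀ x : G, Cfsg.StabilizesBlock N c x) : (∃ B : Set (Cfsg.IrrCharacter G), Cfsg.IsPBlock M B ∧ ∀ g : G, Cfsg.blockCoeff B g = Cfsg.subgroupBlockCoeff N c g) ∧ ∀ B : Set (Cfsg.IrrCharacter G), Cfsg.IsPBlock M B → (∀ g : G, Cfsg.blockCoeff B g = Cfsg.subgroupBlockCoeff N c g) → ∀ P : Subgroup G, Cfsg.IsDefectGroup p M B P → N ⊔ P = ⊤ ∧ Cfsg.IsDefectGroup p M c ((P ⊓ N).subgroupOf N) := by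
  have : Modular p M := ⟨hM⟩
  have hi : ∃ k, N.relIndex ⊤ = p ^ k := by rwa [relIndex_top_right]
  have h1 := hc.isBlkIdem.of_relIndex le_top le_normalizer_top hi
    fun x _ => (hc.stabilizesBlock_iff.1 (hst x)).2
  refine ⟨?_, fun B hB h P hP => ?_⟩
  · obtain ⟨B, hB, h2⟩ := isBlkIdem_top_iff.1 h1
    exact ⟨B, hB, fblk_eq_fbl_iff_coeff.1
      (fblk_eq_fbl_of_normal hB.fblk_mem_SG hc.fblk_mem_SG h2.symm)⟩
  · have h2 := hB.isDefectGroup_iff_isDefIn_top.1 hP
    rw [eblk_eq_of_coeff h] at h2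
    obtain ⟨h3, h4⟩ := hc.isBlkIdem.fong' h1 le_top le_normalizer_top h2
    exact ⟨sup_comm P N ▸ sup_eq_of_not_dvd le_top le_top hi h3,
      (hc.isDefectGroup_iff_isDefIn inf_le_right).2 h4⟩

end Cfsg.Agent.S4672
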