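import Cfsg.Statements.S4673
import Cfsg.Agent.Lib.Block.Quot

set_option autoImplicit false
open Cfsg

namespace Cfsg.Agent.S4673

open Cfsg.Lib.Block Cfsg.Lib.Char Cfsg.Lib.Transfer MonoidAlgebra Subgroup

/-- Fix a prime p and a maximal ideal M of the algebraic integers containing p. Let N ≤ L be normal subgroups of the finite group G with L/N a p-group, let B be a p-block of G covering the p-block c of N (some member of B has a constituent in c on restriction to N), and suppose that N contains a defect group of B. Then the stabilizer T of c in G satisfies T ∩ L = N. -/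
theorem result {G : Type*} [Group G] [Fintype G] (p : ℕ) [Fact p.Prime] (M : Ideal Cfsg.AlgInt) (hM : Cfsg.IsPModular p M) (N L : Subgroup G) [N.Normal] [L.Normal] [Fintype N] (hNL : N ≤ L) (hLN : ∃ k : ℕ, (N.subgroupOf L).index = p ^ k) (B : Set (Cfsg.IrrCharacter G)) (hB : Cfsg.IsPBlock M B) (c : Set (Cfsg.IrrCharacter N)) (hc : Cfsg.IsPBlock M c) (hcov : (∃ χ ∈ B, ∃ θ ∈ c, Cfsg.classInner (fun n : N => (χ : G → ℂ) n) (θ : N → ℂ) ≠ 0)) (hD : ∃ D : Subgroup G, Cfsg.IsDefectGroup p M B D ∧ D ≤ N) (T : Subgroup G) (hT : ∀ x : G, x ∈ T ↔ Cfsg.StabilizesBlock N c x) : T ⊓ L = N := by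
  have : Modular p M := ⟨hM⟩
  obtain rfl : T = ⊤ ⊓ stab (ebl N M c) := Subgroup.ext fun g => by
    rw [hT, hc.stabilizesBlock_iff, and_iff_right (le_normalizer_top trivial), top_inf_eq]
  obtain ⟨D, hD, hDN⟩ := hD
  have hf := hc.isBlkIdem
  have he := hB.isBlkIdem_top
  have h0 := (hB.covers_iff_mul_ebl hc).1 (covers_subtype_iff.2 hcov)
  have h1 : N ≤ ⊤ ⊓ stab (ebl N M c) ⊓ L := le_inf (le_inf le_top hf.mem_cen.1) hNL
  have hi : ∃ k, N.relIndex (⊤ ⊓ stab (ebl N M c) ⊓ L) = p ^ k := by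
    obtain ⟨k, hk⟩ := hLN
    obtain ⟨j, -, hj⟩ := (Nat.dvd_prime_pow Fact.out).1 
      (Dvd.intro _ ((relIndex_mul_relIndex _ _ _ h1 inf_le_right).trans hk))
    exact ⟨j, hj⟩
  have h2 := hf.of_relIndex h1 (le_top.trans le_normalizer_top) hi
    (fix_anti inf_le_left (mem_fix_inf_stab _ _))
  obtain ⟨R, hR⟩ := h2.exists_isDefIn (p := p)
  obtain ⟨E, h3, h4⟩ := (he.mul_stab hf le_top le_normalizer_top h0).exists_isDefIn_inf_eq h2
    inf_le_left (Lib.Core.le_normalizer_inf le_normalizer (le_top.trans le_normalizer_top))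
    (by rwa [mul_assoc, hf.idem]) hR
  obtain ⟨x, -, h5⟩ := he.exists_conj_eq (he.isDefIn_of_mul_stab hf le_top le_normalizer_top h0 h3)
    (hB.isDefectGroup_iff_isDefIn_top.1 hD)
  have h6 : R ≤ N := h4 ▸ inf_le_left.trans (h5 ▸ (conj_mono x hDN).trans_eq
    (conj_eq_self_of_normal x N))
  rw [← sup_eq_of_not_dvd hR.le h1 hi
    (hf.fong' h2 h1 (le_top.trans le_normalizer_top) hR).1, sup_eq_right.2 h6]

end Cfsg.Agent.S4673
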