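import Cfsg.Statements.S4674
import Cfsg.Agent.Lib.Block.Quot

set_option autoImplicit false
open Cfsg

namespace Cfsg.Agent.S4674

open Cfsg.Lib.Block Cfsg.Lib.Char Cfsg.Lib.Transfer MonoidAlgebra Subgroup

/-- Fix a prime p and a maximal ideal M of the algebraic integers containing p. Let N be a normal subgroup of the finite group G, Q a p-subgroup of N, H = N_G(Q) and L = H ∩ N = N_N(Q). Let d be a p-block of N with defect group Q and e the p-block of L with defect group Q that induces d inside N (its Brauer correspondent). Then block induction from H to G is a bijection from the p-blocks of H covering e onto the p-blocks of G covering d: every block of H covering e induces exactly one block of G, and that block covers d; and every block of G covering d is induced by exactly one block of H covering e. -/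
theorem result {G : Type*} [Group G] [Fintype G] (p : ℕ) [Fact p.Prime] (M : Ideal Cfsg.AlgInt) (hM : Cfsg.IsPModular p M) (N : Subgroup G) [N.Normal] [Fintype N] (Q : Subgroup G) (hQ : IsPGroup p Q) (hQN : Q ≤ N) [Fintype ↥(Subgroup.normalizer (Q : Set G) ⊓ N)] (d : Set (Cfsg.IrrCharacter N)) (hd : Cfsg.IsPBlock M d) (hdQ : Cfsg.IsDefectGroup p M d (Q.subgroupOf N)) (e : Set (Cfsg.IrrCharacter ↥(Subgroup.normalizer (Q : Set G) ⊓ N))) (he : Cfsg.IsPBlock M e) (heQ : Cfsg.IsDefectGroup p M e (Q.subgroupOf (Subgroup.normalizer (Q : Set G) ⊓ N))) (hed : Cfsg.IsInducedBlockIn M N (Subgroup.normalizer (Q : Set G) ⊓ N) e d) : (∀ c : Set (Cfsg.IrrCharacter ↥(Subgroup.normalizer (Q : Set G))), Cfsg.IsPBlock M c → (∃ ψ ∈ c, ∃ ξ ∈ e, Cfsg.classInner (fun l : ↥(Subgroup.normalizer (Q : Set G) ⊓ N) => (ψ : ↥(Subgroup.normalizer (Q : Set G)) → ℂ) (Subgroup.inclusion inf_le_left l)) (ξ : ↥(Subgroup.normalizer (Q : Set G) ⊓ N) → ℂ) ≠ 0) → ∃! B : Set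 (Cfsg.IrrCharacter G), Cfsg.IsInducedBlock M (Subgroup.normalizer (Q : Set G)) c B ∧ (∃ χ ∈ B, ∃ θ ∈ d, Cfsg.classInner (fun n : N => (χ : G → ℂ) n) (θ : N → ℂ) ≠ 0)) ∧ (∀ B : Set (Cfsg.IrrCharacter G), Cfsg.IsPBlock M B → (∃ χ ∈ B, ∃ θ ∈ d, Cfsg.classInner (fun n : N => (χ : G → ℂ) n) (θ : N → ℂ) ≠ 0) → ∃! c : Set (Cfsg.IrrCharacter ↥(Subgroup.normalizer (Q : Set G))), (Cfsg.IsPBlock M c ∧ ∃ ψ ∈ c, ∃ ξ ∈ e, Cfsg.classInner (fun l : ↥(Subgroup.normalizer (Q : Set G) ⊓ N) => (ψ : ↥(Subgroup.normalizer (Q : Set G)) → ℂ) (Subgroup.inclusion inf_le_left l)) (ξ : ↥(Subgroup.normalizer (Q : Set G) ⊓ N) → ℂ) ≠ 0) ∧ Cfsg.IsInducedBlock M (Subgroup.normalizer (Q : Set G)) c B) := by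
  have : Modular p M := ⟨hM⟩
  have hC := centralizer_le_normalizer (Q : Set G)
  have hL : normalizer (Q : Set G) ≤ normalizer ((normalizer (Q : Set G) ⊓ N : Subgroup G) : Set G) :=
    Lib.Core.le_normalizer_inf le_normalizer (le_top.trans le_normalizer_top)
  have hQL : Q ≤ normalizer (Q : Set G) ⊓ N := le_inf le_normalizer hQN
  have h1 := (he.isDefectGroup_iff_isDefIn hQL).1 heQ
  have h2 := (isInducedBlockIn_iff_ebl hQ hQL inf_le_right
    (le_inf (inf_le_right.trans hC) inf_le_left) inf_le_left he hd).1 hed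
  have h3 : br Q (ebl N M d) = ebl _ M e := (hd.isBlkIdem.isDefIn_of_br_mul
    (by rw [inf_comm N]; exact he.isBlkIdem) (by rwa [inf_comm N]) h2).2
  have h4 : ebl N M d ∈ fix (Res M) Q := fix_anti hQN (ebl_mem_cen d).1
  refine ⟨fun c hc h => ?_, fun B hB h => ?_⟩
  · have h5 := (hc.covers_inclusion_iff inf_le_left hL he).1 ((covers_le_iff _).2 h)
    obtain ⟨B, hB⟩ := inducedBlockDefined_of_local hQ le_normalizer hC le_rfl hc
    refine ⟨B, ⟨hB, covers_subtype_iff.1 ((hB.2.1.covers_iff_mul_ebl hd).2 fun h0 => h5 ?_)⟩,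
      fun B' h' => h'.1.unique hB⟩
    have h6 := (isInducedBlock_iff_ebl' hQ le_normalizer hC le_rfl hc hB.2.1).1 hB
    rw [← h6, (commute_of_mem_cen (br_mem_cen_of_le hC le_rfl (eblk_mem_fix' B _))
      (ebl_mem_cen c)).eq, mul_assoc, ← h3, ← br_mul hQ (eblk_mem_fix' B Q) h4, h0, map_zero,
      mul_zero]
  · have h5 := hB.isBlkIdem_top.br_mul_br_ne_zero hd.isBlkIdem le_top le_normalizer_top
      ((hB.covers_iff_mul_ebl hd).1 (covers_subtype_iff.2 h)) hQ hQN
      (left_ne_zero_of_mul h2)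
    have h6 := br_mem_cen_of_le hC le_rfl (eblk_mem_fix' (M := M) B (normalizer (Q : Set G)))
    rw [h3, (commute_of_supp_of_fix (supp_mono inf_le_left (ebl_mem_cen e).2) h6.1).eq.symm] at h5
    obtain ⟨_, ⟨c, hc, rfl⟩, h7, h8⟩ := exists_isBlkIdem_mul_ne_zero h6
      (br_idem hQ (eblk_mem_fix' B Q) hB.eblk_idem) h5
    rw [(commute_of_supp_of_fix (supp_mono inf_le_left (ebl_mem_cen e).2) (ebl_mem_cen c).1).eq] at h8
    have h12 := (covers_le_iff _).1 ((hc.covers_inclusion_iff inf_le_left hL he).2 h8)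
    refine ⟨c, ⟨⟨hc, h12⟩,
      (isInducedBlock_iff_ebl' hQ le_normalizer hC le_rfl hc hB).2 h7⟩, fun c' ⟨⟨hc', h9⟩, h10⟩ => ?_⟩
    have h11 := (hc'.covers_inclusion_iff inf_le_left hL he).1 ((covers_le_iff _).2 h9)
    exact hc'.eq_of_ebl_eq hc (hB.isBlkIdem_top.harris_knorr hc'.isBlkIdem hc.isBlkIdem
      he.isBlkIdem h1 h11 ((isInducedBlock_iff_ebl hQ le_normalizer hC le_rfl hc' hB).1 h10) h8
      (by rw [h7]; exact hc.ebl_ne_zero))

end Cfsg.Agent.S4674
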