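import Cfsg.Statements.S4681
import Cfsg.Agent.Lib.Block.PairDict

set_option autoImplicit false
open Cfsg

namespace Cfsg.Agent.S4681

open Cfsg.Lib.Block Cfsg.Lib.Char Cfsg.Lib.Transfer MonoidAlgebra Subgroup

/-- Fix a prime p and a maximal ideal M of the algebraic integers containing p. Let B₀ be the principal p-block of the finite group G, P a Sylow p-subgroup and e₀ the principal p-block of C_G(P). Then (P, e₀) is a maximal Brauer pair of B₀, and the fusion system of B₀ on (P, e₀) is the fusion system of G on P: its maps from each subgroup of P are exactly the conjugation maps into P by elements of G. -/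
theorem result {G : Type*} [Group G] [Fintype G] (p : ℕ) [Fact p.Prime] (M : Ideal Cfsg.AlgInt) (hM : Cfsg.IsPModular p M) (S : Sylow p G) : Cfsg.IsMaximalBrauerPair p M (Cfsg.principalBlock M G) (S : Subgroup G) (Cfsg.principalBlock M (Subgroup.centralizer ((S : Subgroup G) : Set G))) ∧ ∀ F : Cfsg.FusionSystem (S : Subgroup G), Cfsg.IsBlockFusionSystemOn p M (Cfsg.principalBlock M G) (S : Subgroup G) (Cfsg.principalBlock M (Subgroup.centralizer ((S : Subgroup G) : Set G))) F → ∀ Q : Subgroup G, F.Hom Q = (Cfsg.groupFusionSystem (S : Subgroup G)).Hom Q := by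
  have : Modular p M := ⟨hM⟩
  have h0 : IsPBlock M (principalBlock M G) := isPBlock_principalBlock
  have hm : IsMaxPair p M ⊤ (eblk M (principalBlock M G)) S (ebl _ M (principalBlock M _)) :=
    ⟨h0.isBlkIdem_top, (isPairOf_principal_iff S.isPGroup').2 rfl,
      h0.isDefectGroup_iff_isDefIn_top.1 (isDefectGroup_principal_iff.2 ⟨S, rfl⟩)⟩
  refine ⟨isMaximalBrauerPair_iff.2 ⟨h0, isPBlock_principalBlock, hm⟩, fun F hF Q => ?_⟩
  rw [Lib.Fusion.hom_eq_iff]
  intro φ
  rw [hF.blkFus, (Lib.Fusion.grp_group (S : Subgroup G)).mor]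
  refine ⟨fun ⟨g, hg, h1, f, h2, h3⟩ => ⟨h2.le, fun x hx => h1 x hx ▸ h3.le (conj_mem_conj.2 hx),
    g, hg, h1⟩, fun ⟨h1, h3, g, hg, h2⟩ => ?_⟩
  replace h3 : g ⋆ Q ≤ S := conj_le_iff.2 fun x hx => h2 x hx ▸ h3 x hx
  obtain ⟨f, hf⟩ := hm.isPair.exists_sub h1
  obtain ⟨f', hf'⟩ := hm.isPair.exists_sub h3
  refine ⟨g, hg, h2, f, hf, ?_⟩
  rwa [(isPairOf_principal_iff (S.isPGroup'.to_le h3)).1 ((hm.of_sub hf).conj_of_mem
    (eblk_mem_fix _) hg), ← (isPairOf_principal_iff (S.isPGroup'.to_le h3)).1 (hm.of_sub hf')]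

end Cfsg.Agent.S4681
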