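import Cfsg.Statements.S4682
import Cfsg.Agent.Lib.Block.Quot

set_option autoImplicit false
open Cfsg

namespace Cfsg.Agent.S4682

open Cfsg.Lib.Block Cfsg.Lib.Char Cfsg.Lib.Transfer MonoidAlgebra Subgroup

/-- Fix a prime p and a maximal ideal M of the algebraic integers containing p, a p-block B of the finite group G with maximal Brauer pair (P, e), P abelian, and a Brauer pair (Q, f) ≤ (P, e). Let T_Q be the stabilizer of f in N_G(Q) and T_P the stabilizer of e in N_G(P). Then every element of T_Q is a product of an element of T_P and an element of C_G(Q); and the index of C_G(Q) in T_Q equals the index of T_P ∩ C_G(Q) in T_P ∩ N_G(Q). -/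
theorem result {G : Type*} [Group G] [Fintype G] (p : ℕ) [Fact p.Prime] (M : Ideal Cfsg.AlgInt) (hM : Cfsg.IsPModular p M) (B : Set (Cfsg.IrrCharacter G)) (P : Subgroup G) (e : Set (Cfsg.IrrCharacter (Subgroup.centralizer (P : Set G)))) (hmax : Cfsg.IsMaximalBrauerPair p M B P e) (hab : ∀ x ∈ P, ∀ y ∈ P, x * y = y * x) (Q : Subgroup G) (f : Set (Cfsg.IrrCharacter (Subgroup.centralizer (Q : Set G)))) (hQP : Q ≤ P) (hf : Cfsg.IsPBlock M f) (hle : Cfsg.SubpairLE p M Q f P e) (TQ : Subgroup G) (hTQ : ∀ y : G, y ∈ TQ ↔ y ∈ Subgroup.normalizer (Q : Set G) ∧ Cfsg.StabilizesBlock (Subgroup.centralizer (Q : Set G)) f y) (TP : Subgroup G) (hTP : ∀ y : G, y ∈ TP ↔ y ∈ Subgroup.normalizer (P : Set G) ∧ Cfsg.StabilizesBlock (Subgroup.centralizer (P : Set G)) e y) : (∀ x ∈ TQ, ∃ y ∈ TP, ∃ c ∈ Subgroup.centralizer (Q : Set G), x = y * c) ∧ ((Subgroup.centralizer (Q : Set G)).subgroupOf TQ).index = ((TP ⊓ Subgroup.centralizer (Q : Set G)).subgroupOf (TP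 ⊓ Subgroup.normalizer (Q : Set G))).index := by
  have : Modular p M := ⟨hM⟩
  have hm := hmax.isMaxPair
  have h := hle.sub
  obtain rfl := hf.eq_stab hTQ
  obtain rfl := hmax.1.1.2.eq_stab hTP
  have h1 : ∀ x ∈ ⊤ ⊓ normalizer (Q : Set G) ⊓ stab (ebl _ M f),
      ∃ y ∈ ⊤ ⊓ normalizer (P : Set G) ⊓ stab (ebl _ M e), ∃ c ∈ centralizer (Q : Set G),
      x = y * c := fun x hx => by
    obtain ⟨y, h1, c, h2, h3⟩ := hm.exists_mul_of_le_centralizer h
      (fun x hx y hy => hab y (hQP hy) x hx) hx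
    exact ⟨y, h1, c, h2.2, h3⟩
  refine ⟨h1, ?_⟩
  have h2 : ⊤ ⊓ normalizer (Q : Set G) ⊓ stab (ebl _ M f) = (⊤ ⊓ normalizer (P : Set G) ⊓
      stab (ebl _ M e) ⊓ normalizer (Q : Set G)) ⊔ centralizer (Q : Set G) := by
    refine le_antisymm (fun x hx => ?_) (sup_le (fun x hx => ⟨⟨trivial, hx.2⟩, h.cj_eq hm.isPair
      (le_normalizer_top trivial) hx.2 hx.1.1.2 hx.1.2⟩) ((le_inf le_top le_rfl).trans
      (h.left hm.isPair).inf_centralizer_le_stab))
    obtain ⟨y, h3, c, h4, rfl⟩ := h1 x hx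
    exact mul_mem_sup ⟨h3, (mul_mem_cancel_right (centralizer_le_normalizer _ h4)).1 hx.1.2⟩ h4
  rw [h2, ← relIndex, ← relIndex, Lib.Core.relIndex_sup_of_le_normalizer
    (inf_le_right.trans (normalizer_le_normalizer_centralizer Q)), ← inf_relIndex_right,
    ← inf_relIndex_right (_ ⊓ centralizer (Q : Set G))]
  congr 1
  exact le_antisymm (le_inf (le_inf (inf_le_right.trans inf_le_left) inf_le_left) inf_le_right)
    (inf_le_inf_right _ inf_le_right)

end Cfsg.Agent.S4682
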