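import Cfsg.Statements.S4683
import Cfsg.Agent.Lib.Modular.Subsection

set_option autoImplicit false
open Cfsg

namespace Cfsg.Agent.S4683

open Cfsg.Lib.Block Cfsg.Lib.Char Cfsg.Lib.Modular
open scoped ComplexConjugate

/-- Fix a prime p and a maximal ideal M of the algebraic integers containing p, a p-block B of the finite group G, a p-element u and a p-block e of C = C_G(u) such that (⟨u⟩, e) is a Brauer pair of B (a Brauer element of B). For χ ∈ B let χ_u be the e-part of the class function c ↦ χ(u c) on C and χ_u' the e-part of c ↦ χ(u⁻¹ c). Then the sum over χ ∈ B and over the p-regular elements s of C of χ_u(s)·χ_u'(s⁻¹) equals the order of C times the p-regular rank of e (the number of irreducible Brauer characters of e). -/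
theorem result {G : Type*} [Group G] [Fintype G] (p : ℕ) [Fact p.Prime] (M : Ideal Cfsg.AlgInt) (hM : Cfsg.IsPModular p M) (B : Set (Cfsg.IrrCharacter G)) (u : G) (hu : ∃ k : ℕ, orderOf u = p ^ k) (e : Set (Cfsg.IrrCharacter (Subgroup.centralizer (Subgroup.zpowers u : Set G)))) (hBe : Cfsg.IsBrauerPairOf p M B (Subgroup.zpowers u) e) : ∑ᶠ χ ∈ B, ∑ᶠ s : Subgroup.centralizer (Subgroup.zpowers u : Set G), Cfsg.pRegularPart p (Cfsg.blockPart e (fun c : Subgroup.centralizer (Subgroup.zpowers u : Set G) => (χ : G → ℂ) (u * c))) s * Cfsg.blockPart e (fun c : Subgroup.centralizer (Subgroup.zpowers u : Set G) => (χ : G → ℂ) (u⁻¹ * c)) s⁻¹ = (Nat.card (Subgroup.centralizer (Subgroup.zpowers u : Set G)) : ℂ) * (Cfsg.blockRank p e : ℂ) := by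
  classical
  have : Modular p M := ⟨hM⟩
  have key : ∀ (H : Subgroup G) (_ : H = Subgroup.centralizer ({u} : Set G))
      (e : Set (IrrCharacter H)) (_ : IsPBlock M e)
      (_ : ∀ ξ ∈ e, MemLocalIdeal M (∑ᶠ x : H, blockCoeff B x * (ξ : H → ℂ) x / (ξ : H → ℂ) 1 - 1)),
      ∑ᶠ χ ∈ B, ∑ᶠ s : H, pRegularPart p (blockPart e (fun c : H => (χ : G → ℂ) (u * c))) s *
        blockPart e (fun c : H => (χ : G → ℂ) (u⁻¹ * c)) s⁻¹ =
        (Nat.card H : ℂ) * (blockRank p e : ℂ) := by
    rintro _ rfl e he h
    obtain ⟨ξ, hξ⟩ := he.nonempty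
    have hs : res (Subgroup.centralizer ({u} : Set G)).subtype (fblk B) ∈ SG _ M :=
      fun c => hBe.2.1.fblk_mem_SG c
    have hf := res_mem_fix_of_top (Subgroup.centralizer ({u} : Set G)).subtype (fblk_mem_fix B)
    have hind : IsInducedBlock M _ e B := by
      rw [(inducedBlockDefined_centralizer_singleton hu he).isInducedBlock_iff hBe.2.1 hξ]
      have h1 := h ξ hξ
      rw [finsum_eq_sum_of_fintype] at h1
      have h2 : omega ξ (res (Subgroup.centralizer ({u} : Set G)).subtype (fblk B)) = _ :=
        omega_eq_sum _ _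
      simp only [coeff_res, coeff_fblk, Subgroup.coe_subtype] at h2
      rw [← h2, memLocalIdeal_sub_iff (omega_mem ξ.2 hf hs) (one_mem _), red_one,
        ← lam_redA ξ.2 hf hs] at h1
      exact h1.symm ▸ one_ne_zero
    rw [← sum_regInner_blockPart_secRes hu hind, finsum_mem_irr_eq_sum_filter, Finset.mul_sum]
    refine Finset.sum_congr rfl fun χ _ => ?_
    have hc := isClassFunction_secRes u χ.2.isClassFunction
    rw [← regInner_blockPart_blockPart he hc hc, regInner, card_mul_classInner,
      finsum_eq_sum_of_fintype]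
    refine Finset.sum_congr rfl fun s _ => ?_
    congr 1
    have hχ := χ.2.isGeneralizedCharacter.restrict (Subgroup.centralizer ({u} : Set G))
    rw [blockPart_secRes e χ.2.isClassFunction, shift_apply,
      ← (isGeneralizedCharacter_blockPart hχ e).apply_inv, mul_inv_rev,
      (isClassFunction_blockPart _ _).mul_comm,
      ← blockPart_shift e hχ.isClassFunction (inv_mem (selfC_mem_center u))]
    rfl
  refine key _ ?_ e hBe.1.2 hBe.2.2
  rw [Subgroup.zpowers_eq_closure, Subgroup.centralizer_closure]

end Cfsg.Agent.S4683
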