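import Cfsg.Statements.S4689
import Cfsg.Agent.Lib.Block.Nilp

set_option autoImplicit false
open Cfsg

namespace Cfsg.Agent.S4689

open Cfsg.Lib.Block Cfsg.Lib.Char Cfsg.Lib.Transfer MonoidAlgebra Subgroup

/-- Fix a prime p and a maximal ideal M of the algebraic integers containing p, and a nilpotent p-block B of the finite group G. Then B has p-regular rank one (a single irreducible Brauer character), and some χ₀ ∈ B restricts to that Brauer character: every χ ∈ B agrees on the p-regular elements with a natural-number multiple of χ₀. -/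
theorem result {G : Type*} [Group G] [Fintype G] (p : ℕ) [Fact p.Prime] (M : Ideal Cfsg.AlgInt) (hM : Cfsg.IsPModular p M) (B : Set (Cfsg.IrrCharacter G)) (hnil : Cfsg.IsNilpotentBlock p M B) : Cfsg.blockRank p B = 1 ∧ ∃ χ₀ ∈ B, ∀ χ ∈ B, ∃ d : ℕ, ∀ x : G, Cfsg.pRegularPart p (χ : G → ℂ) x = (d : ℂ) * Cfsg.pRegularPart p (χ₀ : G → ℂ) x := by
  have : Modular p M := ⟨hM⟩
  obtain ⟨hB, hn⟩ := isNilpotentBlock_iff.1 hnil
  refine ⟨hB.blockRank_eq_one_of_nil hn, ?_⟩
  obtain ⟨P, hP⟩ := hB.exists_isDefectGroup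
  obtain ⟨ω₀, hm, -⟩ := Prs.exists_isMax hB hP
  have := Fintype.ofFinite ω₀.grp
  obtain ⟨χ, hχ, h0⟩ := exists_height_zero p hB.nonempty
  refine ⟨χ, hχ, fun ψ hψ => ?_⟩
  obtain ⟨η, h⟩ := hm.exists_apply_eq_of_nil hn hχ h0 hψ
  refine ⟨charDegree η.1, fun x => ?_⟩
  rw [Lib.Modular.pRegularPart_apply, Lib.Modular.pRegularPart_apply]
  split_ifs with hx
  · rw [mul_zero]
  · exact h x hx

end Cfsg.Agent.S4689
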