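import Cfsg.Statements.S4690
import Cfsg.Agent.Lib.Block.Nilp

set_option autoImplicit false
open Cfsg

namespace Cfsg.Agent.S4690

open Cfsg.Lib.Block Cfsg.Lib.Char Cfsg.Lib.Transfer MonoidAlgebra Subgroup

/-- Fix a prime p and a maximal ideal M of the algebraic integers containing p, and a nilpotent p-block B of the finite group G with defect group P. Then there is a bijection from B onto the irreducible characters of P carrying the height of each χ ∈ B to the exponent of p in the degree of its image. -/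
theorem result {G : Type*} [Group G] [Fintype G] (p : ℕ) [Fact p.Prime] (M : Ideal Cfsg.AlgInt) (hM : Cfsg.IsPModular p M) (B : Set (Cfsg.IrrCharacter G)) (hnil : Cfsg.IsNilpotentBlock p M B) (P : Subgroup G) (hP : Cfsg.IsDefectGroup p M B P) : ∃ Φ : B ≃ Cfsg.IrrCharacter P, ∀ χ : B, Cfsg.blockHeight p B ((χ : Cfsg.IrrCharacter G) : G → ℂ) = (Cfsg.charDegree ((Φ χ : Cfsg.IrrCharacter P) : P → ℂ)).factorization p := by
  have : Modular p M := ⟨hM⟩
  obtain ⟨hB, hn⟩ := isNilpotentBlock_iff.1 hnil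
  obtain ⟨ω₀, hm, rfl⟩ := Prs.exists_isMax hB hP
  have := Fintype.ofFinite ω₀.grp
  obtain ⟨χ, hχ, h0⟩ := exists_height_zero p hB.nonempty
  refine ⟨(hm.nilEquiv hn hχ h0).symm, fun ψ => ?_⟩
  obtain ⟨η, rfl⟩ := (hm.nilEquiv hn hχ h0).surjective ψ
  rw [Equiv.symm_apply_apply]
  exact hm.blockHeight_nilIrr hn hχ h0 η

end Cfsg.Agent.S4690
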