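import Cfsg.Statements.S4693
import Cfsg.Agent.Lib.Block.Quot

set_option autoImplicit false
open Cfsg

namespace Cfsg.Agent.S4693

open Cfsg.Lib.Block Cfsg.Lib.Char Cfsg.Lib.Transfer MonoidAlgebra Subgroup

/-- Fix a prime p and a maximal ideal M of the algebraic integers containing p, a p-block B of the finite group G with maximal Brauer pair (P, e) and fusion system F on P, and a Brauer pair (Q, f) ≤ (P, e) with Q centric in F. Suppose every element of G normalizes Q and stabilizes f. Then the idempotent of B agrees with that of f modulo M at every element of G, and f is the idempotent of a nilpotent block of Q·C_G(Q): some p-block of Q·C_G(Q) has the idempotent coefficients of f and is nilpotent. -/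
theorem result {G : Type*} [Group G] [Fintype G] (p : ℕ) [Fact p.Prime] (M : Ideal Cfsg.AlgInt) (hM : Cfsg.IsPModular p M) (B : Set (Cfsg.IrrCharacter G)) (P : Subgroup G) (e : Set (Cfsg.IrrCharacter (Subgroup.centralizer (P : Set G)))) (hmax : Cfsg.IsMaximalBrauerPair p M B P e) (F : Cfsg.FusionSystem P) (hF : Cfsg.IsBlockFusionSystemOn p M B P e F) (Q : Subgroup G) (f : Set (Cfsg.IrrCharacter (Subgroup.centralizer (Q : Set G)))) (hQP : Q ≤ P) (hf : Cfsg.IsPBlock M f) (hle : Cfsg.SubpairLE p M Q f P e) (hcen : F.IsCentric Q) (hG : ∀ x : G, x ∈ Subgroup.normalizer (Q : Set G) ∧ Cfsg.StabilizesBlock (Subgroup.centralizer (Q : Set G)) f x) : (∀ g : G, Cfsg.MemLocalIdeal M (Cfsg.blockCoeff B g - Cfsg.subgroupBlockCoeff (Subgroup.centralizer (Q : Set G)) f g)) ∧ ∃ F' : Set (Cfsg.IrrCharacter ↥(Q ⊔ Subgroup.centralizer (Q : Set G))), Cfsg.IsPBlock M F' ∧ (∀ t : ↥(Q ⊔ Subgroup.centralizer (Q : Set G)), Cfsg.blockCoeff F' t = Cfsg.subgroupBlockCoeff (Subgroup.centralizer (Q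 : Set G)) f (t : G)) ∧ Cfsg.IsNilpotentBlock p M F' := by
  have : Modular p M := ⟨hM⟩
  have hm := hmax.isMaxPair
  have h := hle.sub
  have h1 := hm.of_sub h
  have hB := hmax.1.2.1
  have hs : ∀ X : Subgroup G, X ≤ ⊤ ⊓ normalizer (Q : Set G) ⊓ stab (ebl _ M f) := fun X x _ =>
    ⟨⟨trivial, (hG x).1⟩, (hf.stabilizesBlock_iff.1 (hG x).2).2⟩
  have hN : ∀ X : Subgroup G, X ≤ normalizer (Q : Set G) := fun X x _ => (hG x).1
  have : Q.Normal := Lib.Core.normal_of_top_le_normalizer (hN ⊤)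
  constructor
  · intro g
    rw [memLocalIdeal_coeff_iff hB.fblk_mem_SG hf.fblk_mem_SG, hm.blk.eq_of_mul_ne_zero
      (h1.isPair.isBlkIdem le_top (hN ⊤) rfl ((hs ⊤).trans inf_le_right))
      (by rw [← hB.br_eblk_of_normal h1.pgrp]; exact h1.mul_ne_zero)]
  · obtain ⟨E, h2, h3, h4⟩ := hf.exists_stab_block h1.pgrp (le_sup_left (b := centralizer (Q : Set G)))
      le_sup_right (hs _)
    have h5 := h2.isBlkIdem
    refine ⟨E, h2, h4, h2.isNilpotentBlock_iff.2 (isNilIn_of_normal h5 (D := Q) ?_ (hN _)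
      fun x hx => mem_centralizer_of_mem_sup h1.pgrp le_normalizer hx)⟩
    rw [h3] at h5 ⊢
    have h6 := (hF.blkFus.centric_iff hm h).1 hcen
    rw [top_inf_eq] at h6
    refine hf.isBlkIdem.isDefIn_of_fong h5 le_sup_right
      ((hN _).trans (normalizer_le_normalizer_centralizer Q)) h1.pgrp le_sup_left
      (by rw [h1.isPair.br_eq]; exact hf.ebl_ne_zero) ?_ h6
    rw [relIndex_self]
    exact (Fact.out : p.Prime).not_dvd_one

end Cfsg.Agent.S4693
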