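import Cfsg.Statements.S4694
import Cfsg.Agent.Lib.Block.Quot

set_option autoImplicit false
open Cfsg

namespace Cfsg.Agent.S4694

open Cfsg.Lib.Block Cfsg.Lib.Char Cfsg.Lib.Transfer MonoidAlgebra Subgroup

/-- Fix a prime p and a maximal ideal M of the algebraic integers containing p, a p-block B of the finite group G and a Brauer pair (Q, e) of B. Let T be the stabilizer of e in N_G(Q) and suppose that (Q, e) carries a weight: the block of T whose idempotent is that of e contains an irreducible character χ that is constant on the cosets of Q and whose degree has p-part equal to the p-part of the index of Q in T. Then Z(Q) is a defect group of e as a block of C_G(Q), and Q is the largest normal p-subgroup of T: every p-subgroup of T normalized by T lies in Q. -/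
theorem result {G : Type*} [Group G] [Fintype G] (p : ℕ) [Fact p.Prime] (M : Ideal Cfsg.AlgInt) (hM : Cfsg.IsPModular p M) (B : Set (Cfsg.IrrCharacter G)) (Q : Subgroup G) (e : Set (Cfsg.IrrCharacter (Subgroup.centralizer (Q : Set G)))) (hQe : Cfsg.IsBrauerPairOf p M B Q e) (T : Subgroup G) (hT : ∀ y : G, y ∈ T ↔ y ∈ Subgroup.normalizer (Q : Set G) ∧ Cfsg.StabilizesBlock (Subgroup.centralizer (Q : Set G)) e y) (F' : Set (Cfsg.IrrCharacter T)) (hF' : Cfsg.IsPBlock M F') (hF'e : ∀ t : T, Cfsg.blockCoeff F' t = Cfsg.subgroupBlockCoeff (Subgroup.centralizer (Q : Set G)) e (t : G)) (χ : Cfsg.IrrCharacter T) (hχ : χ ∈ F') (hχQ : ∀ q : G, q ∈ Q → ∀ t : T, ∀ t' : T, (t' : G) = q * (t : G) → (χ : T → ℂ) t' = (χ : T → ℂ) t) (hdeg : (Cfsg.charDegree (χ : T → ℂ)).factorization p + (Nat.card Q).factorization p = (Nat.card T).factorization p) : Cfsg.IsDefectGroup p M e ((Q ⊓ Subgroup.centralizer (Q : Set G)).subgroupOf (Subgroup.centralizer (Q : Set G))) ∧ ∀ R : Subgroup G, R ≤ T → IsPGroup p R → (∀ t ∈ T, t ∈ Subgroup.normalizer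 (R : Set G)) → R ≤ Q := by
  have : Modular p M := ⟨hM⟩
  obtain ⟨hB, he, h⟩ := isBrauerPairOf_iff.1 hQe
  have hT' := he.eq_stab hT
  have hN : T ≤ normalizer (Q : Set G) := fun y hy => ((hT y).1 hy).1
  have hC : centralizer (Q : Set G) ≤ T := by
    rw [hT']; exact le_trans (by simp) h.isPair.inf_centralizer_le_stab
  have hQT : Q ≤ T := by
    rw [hT']; exact le_inf (le_inf le_top le_normalizer) h.isPair.mem_fix
  have hXT : Q ⊔ centralizer (Q : Set G) ≤ T := sup_le hQT hC
  have h1 : emb T.subtype (eblk M F') = ebl _ M e := ebl_eq_of_coeff hC hF'e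
  have : (Q.subgroupOf T).Normal := (normal_subgroupOf_iff_le_normalizer hQT).2 hN
  have : ((Q ⊔ centralizer (Q : Set G)).subgroupOf T).Normal :=
    (normal_subgroupOf_iff_le_normalizer hXT).2
      (Lib.Core.le_normalizer_sup hN (Lib.Core.le_normalizer_centralizer hN))
  have hker : χ ∈ kerSet (Q.subgroupOf T) := fun n hn => hχQ n hn 1 n (by simp)
  rw [← Nat.card_congr (subgroupOfEquivOfLe hQT).toEquiv] at hdeg
  have hX : IsBlkIdem (Q ⊔ centralizer (Q : Set G)) M (ebl _ M e) :=
    h.isPair.isBlkIdem le_sup_left (hXT.trans hN) (by rw [top_inf_eq, inf_eq_right.2 le_sup_right])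
      (hXT.trans (hT'.le.trans inf_le_right))
  constructor
  · have h2 := hF'.isDefIn_of_defect_zero_quotient (Q := Q.subgroupOf T)
      (X := (Q ⊔ centralizer (Q : Set G)).subgroupOf T) (h.pgrp.comap_subtype) (subgroupOf_mono _ le_sup_left)
      (fun x hx hx' y hy => Subtype.ext (mem_centralizer_of_mem_sup h.pgrp le_normalizer hx
        (mt (orderOf_coe x ▸ ·) hx') y hy))
      (by rw [← isBlkIdem_emb_iff T.subtype_injective, map_subgroupOf_eq_of_le hXT, h1]
          exact hX) hχ hker hdeg
    rw [← isDefIn_emb_iff T.subtype_injective, map_subgroupOf_eq_of_le hXT,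
      map_subgroupOf_eq_of_le hQT, h1] at h2
    rw [he.isDefectGroup_iff_isDefIn inf_le_right]
    exact (he.isBlkIdem.fong' hX le_sup_right
      ((hXT.trans hN).trans (normalizer_le_normalizer_centralizer Q)) h2).2
  · intro R hR hR' hRN
    have : (R.subgroupOf T).Normal := (normal_subgroupOf_iff_le_normalizer hR).2 hRN
    exact fun x hx => le_of_defect_zero_quotient (M := M) (R := R.subgroupOf T) hR'.comap_subtype
      hker hdeg (show (⟨x, hR hx⟩ : T) ∈ _ from hx)

end Cfsg.Agent.S4694
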