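import Cfsg.Statements.S4697
import Cfsg.Agent.Lib.Modular.DualSys

set_option autoImplicit false
open Cfsg

namespace Cfsg.Agent.S4697

open Cfsg.Lib.Block Cfsg.Lib.Char Cfsg.Lib.Modular
open scoped ComplexConjugate

/-- Let p be a prime, M a maximal ideal of the algebraic integers containing p, and B a p-block of the finite group G with an abelian defect group D of order p^d. If D has rank 2 (its least number of generators is 2) then B contains at most p^d irreducible characters; if D has rank 3 then the number k of irreducible characters in B satisfies k^3 ≤ p^(5d). -/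
theorem result {G : Type*} [Group G] [Finite G] (p : ℕ) [Fact p.Prime] (M : Ideal Cfsg.AlgInt) (hM : Cfsg.IsPModular p M) (B : Set (Cfsg.IrrCharacter G)) (hB : Cfsg.IsPBlock M B) (D : Subgroup G) (hBD : Cfsg.IsDefectGroup p M B D) (hab : IsMulCommutative D) (d : ℕ) (hDd : Nat.card D = p ^ d) : (Group.rank D = 2 → Nat.card B ≤ p ^ d) ∧ (Group.rank D = 3 → Nat.card B ^ 3 ≤ p ^ (5 * d)) := by
  have : Modular p M := ⟨hM⟩
  refine ⟨fun h => hDd ▸ card_le_of_rank_le_two hB hBD h.le, fun h => ?_⟩
  rw [mul_comm, pow_mul, ← hDd]
  exact card_pow_three_le_of_rank hB hBD h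

end Cfsg.Agent.S4697
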