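import Cfsg.Statements.S4699
import Cfsg.Agent.Lib.Cyc.Stab
import Cfsg.Agent.Lib.Transfer.SylowIn

set_option autoImplicit false
open Cfsg

namespace Cfsg.Agent.S4699

/-- Let p be a prime and G a finite group whose Sylow p-subgroup P is cyclic of order p^n with n ≥ 2 and meets every other Sylow p-subgroup trivially. Then every faithful irreducible representation of G on a finite-dimensional space over a finite field of characteristic p has dimension at least p^n − (p − 1). -/
theorem result {G : Type*} [Group G] [Finite G] (p : ℕ) [Fact p.Prime] (P : Sylow p G) (hcyc : IsCyclic P) (n : ℕ) (hn : 2 ≤ n) (hPn : Nat.card P = p ^ n) (hTI : ∀ Q : Sylow p G, Q ≠ P → (P : Subgroup G) ⊓ (Q : Subgroup G) = ⊥) (F : Type*) [Field F] [Finite F] [CharP F p] (V : Type*) [AddCommGroup V] [Module F V] [FiniteDimensional F V] (ρ : Representation F G V) (hfaith : Function.Injective ρ) (hirr : ρ.IsIrreducible) : p ^ n - (p - 1) ≤ Module.finrank F V := by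
  by_contra h
  obtain ⟨x, hx⟩ := Lib.Cyc.exists_zpowers_eq hcyc
  have h0 := (Fact.out : p.Prime).two_le
  obtain ⟨n, rfl⟩ := Nat.exists_eq_add_of_le' hn
  rw [hx, Nat.card_zpowers] at hPn
  have h1 := Lib.Cyc.map_pow_eq_one_of_ti ρ (n := n + 1) hPn
    (hx ▸ Lib.Transfer.sylow_not_dvd_relIndex P Subgroup.le_normalizer)
    (hx ▸ Lib.OddChar.free_of_ti_sylow P fun g hg => hTI (g • P) fun e =>
      hg (Sylow.smul_eq_iff_mem_normalizer.1 e)) (show _ ≤ p ^ (n + 2) by generalize p ^ (n + 2) = q at h; omega)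
  have h2 := orderOf_dvd_of_pow_eq_one (hfaith (h1.trans ρ.map_one.symm))
  rw [hPn] at h2
  have := (Nat.pow_dvd_pow_iff_le_right h0).1 (h2.trans (pow_one p).symm.dvd)
  omega

end Cfsg.Agent.S4699
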