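import Cfsg.Statements.S4701
import Cfsg.Agent.Lib.Cyc.Brauer2

set_option autoImplicit false
open Cfsg

namespace Cfsg.Agent.S4701

/-- Let G be a finite perfect group and p a prime dividing the order of G with p^3 larger than the order of G. Suppose a Sylow p-subgroup of G is not normal and G has no normal subgroup of order 2. Then p > 3 and G is isomorphic to PSL(2, p), or to SL(2, 2^m) with p = 2^m + 1. -/
theorem result {G : Type*} [Group G] [Finite G] (hperf : commutator G = ⊤) (p : ℕ) [Fact p.Prime] (hdvd : p ∣ Nat.card G) (hbig : Nat.card G < p ^ 3) (P : Sylow p G) (hP : ¬ (P : Subgroup G).Normal) (h2 : ∀ N : Subgroup G, N.Normal → Nat.card N ≠ 2) : (∃ (F : Type) (_ : Field F) (_ : Fintype F), Fintype.card F = p ∧ 3 < p ∧ Nonempty (G ≃* Matrix.ProjectiveSpecialLinearGroup (Fin 2) F)) ∨ (∃ (m : ℕ) (F : Type) (_ : Field F) (_ : Fintype F), Fintype.card F = 2 ^ m ∧ p = 2 ^ m + 1 ∧ 3 < p ∧ Nonempty (G ≃* Matrix.SpecialLinearGroup (Fin 2) F)) := by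
  have h1 := Lib.Cyc.brauer_of_lt_cube hperf hbig P hP
  refine (h1.of_eq_bot (Subgroup.card_eq_one.1 ?_)).sl
  have h3 := h2 (pPrimeCore p G) inferInstance
  have h4 := Nat.card_pos (α := pPrimeCore p G)
  have h5 := (pPrimeCore p G).card_mul_index
  have h6 := h1.1
  have h7 := (Fact.out : p.Prime).eq_two_or_odd
  obtain ⟨q, rfl⟩ := Nat.exists_eq_add_of_le' (show 5 ≤ p by omega)
  by_contra h8
  have h9 := Nat.mul_le_mul_right (pPrimeCore (q + 5) G).index
    (show 3 ≤ Nat.card (pPrimeCore (q + 5) G) by omega)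
  rcases h1.card with e | e <;> rw [← Subgroup.index_eq_card] at e
  · rw [show (q + 5) ^ 2 - 1 = q ^ 2 + 10 * q + 24 from Nat.sub_eq_of_eq_add (by ring)] at e
    nlinarith [Nat.zero_le (q ^ 3), Nat.zero_le (q ^ 2)]
  · rw [show q + 5 - 1 = q + 4 from rfl, show q + 5 - 2 = q + 3 from rfl] at e
    nlinarith [Nat.zero_le (q ^ 3), Nat.zero_le (q ^ 2)]

end Cfsg.Agent.S4701
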