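import Cfsg.Statements.S4702
import Cfsg.Agent.Lib.Small.ElemCent

set_option autoImplicit false
open Cfsg

namespace Cfsg.Agent.S4702

/-- Let G be a triply transitive permutation group on a finite set of odd size m ≥ 3 in which only the identity fixes three or more points. Then m = 2^a + 1 for some a ≥ 1 and G is isomorphic to SL(2, 2^a). -/
theorem result {α : Type*} [Fintype α] [DecidableEq α] (hm : 3 ≤ Fintype.card α) (hodd : Odd (Fintype.card α)) (G : Subgroup (Equiv.Perm α)) (h3 : MulAction.IsMultiplyPretransitive G α 3) (hfix : ∀ g : G, 3 ≤ Nat.card (MulAction.fixedBy α g) → g = 1) : ∃ a : ℕ, 1 ≤ a ∧ Fintype.card α = 2 ^ a + 1 ∧ ∃ (F : Type) (_ : Field F) (_ : Fintype F), Fintype.card F = 2 ^ a ∧ Nonempty (G ≃* Matrix.SpecialLinearGroup (Fin 2) F) := by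
  have hc : Nat.card α = Fintype.card α := Nat.card_eq_fintype_card
  have h : Lib.Perm.ZT G α := Lib.Perm.ZT.of_sharp h3 (Lib.Perm.sharp_three_iff.2
    fun g a b c h1 h2 h3 ha hb hc => hfix g (by
      rw [Nat.card_coe_set_eq, ← Set.ncard_eq_three.2 ⟨a, b, c, h1, h2, h3, rfl⟩]
      exact Set.ncard_le_ncard (by rintro x (rfl | rfl | rfl) <;> assumption))) (hc ▸ hm)
  obtain ⟨a⟩ := h.nonempty
  obtain ⟨b, hab⟩ := h.exists_ne a
  have e := h.card_zker a
  have e2 := (h.card_stab2_iff hab.symm).2 h3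
  obtain ⟨p, hp, hE⟩ := h.elab_of_large hab.symm (by omega)
  have := Fact.mk hp
  obtain ⟨f, hf⟩ := (Lib.PGroup.elemAb_isPGroup hE).exists_card_eq
  have h2 := h.two_le_card_zker a
  have hf0 : f ≠ 0 := by rintro rfl; simp [hf] at h2
  obtain rfl : p = 2 := by
    rw [← hc, ← e, hf, Nat.odd_add_one, Nat.not_odd_iff_even, Nat.even_pow] at hodd
    exact hp.even_iff.1 hodd.1
  let _ := Fintype.ofFinite (GaloisField 2 f)
  have hK := GaloisField.card 2 f hf0
  obtain ⟨φ⟩ := Lib.Small.ZT_equiv_psl_of_even h h3 (hc ▸ hodd) (GaloisField 2 f) (by omega)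
  obtain ⟨ψ⟩ := Lib.PSL2.equiv_sl_psl_of_even (F := GaloisField 2 f) (by
    rw [hK, Nat.not_odd_iff_even, Nat.even_pow]; exact ⟨even_two, hf0⟩)
  exact ⟨f, by omega, by omega, GaloisField 2 f, inferInstance, inferInstance,
    Nat.card_eq_fintype_card.symm.trans hK, ⟨φ.trans ψ.symm⟩⟩

end Cfsg.Agent.S4702
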