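import Cfsg.Statements.S4703
import Cfsg.Agent.Lib.Blau.Main

set_option autoImplicit false
open Cfsg

namespace Cfsg.Agent.S4703

/-- Let G be a finite group whose centre Z has odd order, p > 7 a prime, and suppose a Sylow p-subgroup of G has order p and is not normal. Let ζ be a faithful irreducible character of G (only the identity lies in its kernel). Then either G/Z is isomorphic to PSL(2, p) and ζ has degree (p + 1)/2 or (p − 1)/2, or ζ has degree at least p − 2. -/
theorem result {G : Type*} [Group G] [Finite G] (hZ : Odd (Nat.card (Subgroup.center G))) (p : ℕ) [Fact p.Prime] (hp : 7 < p) (P : Sylow p G) (hP : Nat.card P = p) (hnn : ¬ (P : Subgroup G).Normal) (ζ : G → ℂ) (hζ : Cfsg.IsIrrCharacter G ζ) (hfaith : ∀ g : G, ζ g = ζ 1 → g = 1) : ((∃ (F : Type) (_ : Field F) (_ : Fintype F), Fintype.card F = p ∧ Nonempty (G ⧸ Subgroup.center G ≃* Matrix.ProjectiveSpecialLinearGroup (Fin 2) F)) ∧ (2 * Cfsg.charDegree ζ = p + 1 ∨ 2 * Cfsg.charDegree ζ = p - 1)) ∨ p - 2 ≤ Cfsg.charDegree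 ζ := by
  refine or_iff_not_imp_right.2 fun hd => ?_
  obtain ⟨h1, h2, -⟩ | ⟨e, h1, -, -, h2⟩ := Lib.Blau.main hp P hP hnn hζ hfaith (by omega) rfl
  · exact ⟨⟨ZMod p, inferInstance, inferInstance, ZMod.card p, h1⟩, h2⟩
  · have := h2 hZ
    omega

end Cfsg.Agent.S4703
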