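import Cfsg.Statements.S4707
import Cfsg.Agent.Lib.Cyc.PTwo2
import Cfsg.Agent.Lib.Small.W2p2

set_option autoImplicit false
open Cfsg

namespace Cfsg.Agent.S4707

/-- Let p > 3 be a prime and G a primitive permutation group of degree 2p that is not doubly transitive. If a Sylow p-subgroup of G has normalizer of order 2p, then p = 5 and G is isomorphic to the alternating group of degree 5. -/
theorem result {α : Type*} [Fintype α] [DecidableEq α] {p : ℕ} [Fact p.Prime] (hp : 3 < p) (hα : Fintype.card α = 2 * p) (G : Subgroup (Equiv.Perm α)) (hprim : MulAction.IsPreprimitive G α) (hnot2 : ¬ MulAction.IsMultiplyPretransitive G α 2) (P : Sylow p G) (hN : Nat.card (Subgroup.normalizer ((P : Subgroup G) : Set G)) = 2 * p) : p = 5 ∧ Nonempty (G ≃* alternatingGroup (Fin 5)) := by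
  open Cfsg.Lib.Cyc Cfsg.Lib.Perm Subgroup MulAction in
  have hα' := Nat.card_eq_fintype_card.trans hα
  obtain ⟨a⟩ := (Nat.card_pos_iff.1 (show 0 < Nat.card α by omega)).1
  have h1 : ∀ K : Subgroup G, K.Normal → K ≠ ⊥ → 2 * p ∣ Nat.card K := fun K _ h => by
    have := isPretransitive_of_normal (α := α) K h
    rw [← hα', ← index_stabilizer_of_transitive K a]
    exact index_dvd_card _
  have h2 : p ∣ Nat.card G := (dvd_mul_left p 2).trans (by
    rw [← hα', ← index_stabilizer_of_transitive G a]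
    exact index_dvd_card _)
  obtain ⟨hP, ht⟩ := card_sylow_of_normalizer (by omega) P (P.ne_bot_of_dvd_card h2) hN
  have hn : ¬ (P : Subgroup G).Normal := fun h => by
    have := Nat.le_of_dvd (by omega) (hP ▸ h1 P h (P.ne_bot_of_dvd_card h2))
    omega
  have := isSimpleGroup_of_dvd (fun K hK h => (dvd_mul_left p 2).trans (h1 K hK h)) P hP hn ht
  obtain ⟨m, F, _, _, h3, h4, ⟨φ⟩⟩ := equiv_sl_of_perm hp P hP hn hN (.inr ⟨hα', hnot2⟩)
  obtain ⟨-, b, h5, h6, -⟩ := (Lib.Small.W2p.wielandt Fact.out hα' a).resolve_left hnot2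
  have h7 : b * (b + 1) ∣ 2 ^ m := ⟨2, by linarith [Nat.add_right_cancel (h3.symm.trans h6)]⟩
  obtain ⟨i, -, rfl⟩ := (Nat.dvd_prime_pow Nat.prime_two).1 ((dvd_mul_right _ _).trans h7)
  obtain ⟨j, -, h8⟩ := (Nat.dvd_prime_pow Nat.prime_two).1 ((dvd_mul_left _ _).trans h7)
  obtain rfl : i = 0 := by
    rcases i with _ | i
    · rfl
    rcases j with _ | j <;> omega
  have h9 : Fintype.card F = 4 := by omega
  obtain ⟨f1⟩ := Lib.PSL2.equiv_sl_psl_of_even (F := F) (by
    rw [Nat.card_eq_fintype_card, h9]; decide)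
  obtain ⟨f2⟩ := Agent.S0252.result h9
  exact ⟨h6, ⟨φ.trans (f1.trans f2)⟩⟩

end Cfsg.Agent.S4707
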