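import Cfsg.Statements.S4708
import Cfsg.Agent.Lib.Modular.Vanish
import Cfsg.Agent.Lib.Block.Graded

set_option autoImplicit false
open Cfsg

namespace Cfsg.Agent.S4708

open Cfsg.Lib.Block Cfsg.Lib.Char Cfsg.Lib.Modular
open scoped ComplexConjugate

/-- Let p be a prime, M a maximal ideal of the algebraic integers containing p, G a finite group and H a normal subgroup. Write λ(X) for the sum of the squares of the degrees of the irreducible characters in the principal p-block of a group X. Then λ(H) ≤ λ(G) ≤ [G : H]·λ(H). -/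
theorem result {G : Type*} [Group G] [Finite G] (p : ℕ) [Fact p.Prime] (M : Ideal Cfsg.AlgInt) (hM : Cfsg.IsPModular p M) (H : Subgroup G) [H.Normal] : (∑ᶠ θ ∈ Cfsg.principalBlock M H, Cfsg.charDegree (θ : H → ℂ) ^ 2) ≤ (∑ᶠ χ ∈ Cfsg.principalBlock M G, Cfsg.charDegree (χ : G → ℂ) ^ 2) ∧ (∑ᶠ χ ∈ Cfsg.principalBlock M G, Cfsg.charDegree (χ : G → ℂ) ^ 2) ≤ H.index * ∑ᶠ θ ∈ Cfsg.principalBlock M H, Cfsg.charDegree (θ : H → ℂ) ^ 2 := by
  classical
  have : Modular p M := ⟨hM⟩
  have := Fintype.ofFinite G
  have hB := Lib.Block.isPBlock_principalBlock (G := G) (M := M)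
  have hb := Lib.Block.isPBlock_principalBlock (G := H) (M := M)
  have hcov : Covers H.subtype (principalBlock M G) (principalBlock M H) :=
    covers_subtype_iff.2 ⟨irrOne G, Lib.Block.irrOne_mem_principalBlock, irrOne H,
      Lib.Block.irrOne_mem_principalBlock, by
        rw [show (fun n : H => (irrOne G : G → ℂ) n) = (irrOne H : H → ℂ) from rfl,
          (irrOne H).2.inner_self]; exact one_ne_zero⟩
  rw [finsum_mem_irr_eq_sum_filter, finsum_mem_irr_eq_sum_filter]
  constructor
  · choose! c hc1 hc2 using fun θ (hθ : θ ∈ principalBlock M H) => hcov.exists_over hB hb hθ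
    rw [← Finset.sum_fiberwise_of_maps_to (t := Finset.univ.filter (· ∈ principalBlock M G))
      (g := c) (fun θ hθ => by simpa using hc1 θ (by simpa using hθ))]
    refine Finset.sum_le_sum fun χ _ => le_trans (Finset.sum_sq_le_sq_sum_of_nonneg
      fun _ _ => Nat.zero_le _) (Nat.pow_le_pow_left ?_ 2)
    obtain ⟨n, hn⟩ := (χ.2.isCharacter.restrict H).exists_eq_sum_nat
    have h1 : charDegree (χ : G → ℂ) = ∑ θ : IrrCharacter H, n θ * charDegree (θ : H → ℂ) := by
      have := congrFun hn 1
      simp only [OneMemClass.coe_one, Finset.sum_apply, Pi.smul_apply, smul_eq_mul] at this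
      rw [χ.2.apply_one_eq] at this
      simp_rw [fun θ : IrrCharacter H => θ.2.apply_one_eq] at this
      exact_mod_cast this
    rw [h1]
    refine le_trans (Finset.sum_le_sum fun θ hθ => ?_)
      (Finset.sum_le_sum_of_subset (Finset.subset_univ _))
    simp only [Finset.mem_filter, Finset.mem_univ, true_and] at hθ
    have h2 := (over_subtype_iff _ _).1 (hc2 θ hθ.1)
    rw [hθ.2, hn, classInner_sum_smul_irr] at h2
    exact Nat.le_mul_of_pos_left _ (Nat.pos_of_ne_zero (by exact_mod_cast h2))
  · have hfix : emb H.subtype (fblk (principalBlock M H)) ∈ fix ℂ (⊤ : Subgroup G) := fun g _ => by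
      have hg : H.map (MulAut.conj g).toMonoidHom = H := Subgroup.Normal.map_conj_eq H g
      change cj g (fbl H _) = fbl H _
      rw [cj_fbl hg, cjSet_eq hg, preimage_irrEquiv_principalBlock]
    have h1 := congrArg (fun a => a.coeff 1) (emb_fblk_eq hfix)
    have h2 := coeff_emb_subtype H (fblk (principalBlock M H)) 1
    simp only [OneMemClass.coe_one] at h2
    simp only [h2, coeff_fblk, blockCoeff_eq] at h1
    have h3 : ∑ χ with χ ∈ {χ : IrrCharacter G | Over H.subtype (χ : G → ℂ) (principalBlock M H)},
        charDegree (χ : G → ℂ) ^ 2 =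
        H.index * ∑ θ with θ ∈ principalBlock M H, charDegree (θ : H → ℂ) ^ 2 := by
      simp_rw [fun χ : IrrCharacter G => χ.2.isCharacter.conj_apply_one,
        fun χ : IrrCharacter H => χ.2.isCharacter.conj_apply_one,
        fun χ : IrrCharacter G => χ.2.apply_one_eq, fun χ : IrrCharacter H => χ.2.apply_one_eq,
        ← sq] at h1
      rw [← card_inv_mul_index, mul_assoc] at h1
      have := mul_left_cancel₀ (inv_ne_zero (card_ne_zero_complex G)) h1
      exact_mod_cast this.symm
    rw [← h3]
    refine Finset.sum_le_sum_of_subset fun χ hχ => ?_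
    simp only [Finset.mem_filter, Finset.mem_univ, true_and] at hχ ⊢
    exact hcov.over H.subtype_injective hB hb hχ

end Cfsg.Agent.S4708
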