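import Cfsg.Statements.S4711
import Cfsg.Agent.Lib.CharDeg.Broline
import Cfsg.Agent.Lib.CharDeg.PrincSolv
import Cfsg.Agent.Lib.Block.DefectOrder
import Cfsg.Agent.Lib.Block.Kernel
import Cfsg.Agent.Lib.FGS.Sylow
import Cfsg.Agent.Lib.Transfer.Criteria
import Cfsg.Agent.Lib.Coprime.PLengthOne
import Cfsg.Agent.Lib.PGroup.Frattini
import Cfsg.Agent.Lib.Core.PSolvable

set_option autoImplicit false
open Cfsg

namespace Cfsg.Agent.S4711


open Cfsg.Lib.Char Cfsg.Lib.CharDeg Cfsg.Lib.Block Cfsg.Lib.Transfer Cfsg.Lib.Core Subgroup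
open scoped commutatorElement

theorem res_inf_le {K : Type*} [Group K] [Finite K] {p : ℕ} [Fact p.Prime] (P : Sylow p K)
    (L : Subgroup K) [L.Normal]
    (h : ∀ n ∈ normalizer ((P : Subgroup K) : Set K), ∀ y ∈ (P : Subgroup K), ⁅n, y⁆ ∈ L) :
    pResidual p K ⊓ (P : Subgroup K) ≤ L := by
  have hf := QuotientGroup.mk'_surjective L
  let Q := P.mapSurjective hf
  have hQ : normalizer ((Q : Subgroup (K ⧸ L)) : Set (K ⧸ L)) ≤ centralizer ((Q : Subgroup (K ⧸ L)) : Set (K ⧸ L)) := by
    intro x hx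
    obtain ⟨x, rfl⟩ := hf x
    have h1 : x ∈ normalizer ((P : Subgroup K) : Set K) ⊔ (QuotientGroup.mk' L).ker := by
      rw [← Cfsg.Lib.FGS.comap_normalizer_map_sylow hf P]; exact hx
    obtain ⟨n, hn, l, hl, rfl⟩ := mem_sup_of_normal_right.1 h1
    rintro _ ⟨y, hy, rfl⟩
    rw [map_mul, MonoidHom.mem_ker.1 hl, mul_one]
    refine (commutatorElement_eq_one_iff_mul_comm.1 ?_).symm
    rw [← map_commutatorElement]
    exact (QuotientGroup.eq_one_iff _).2 (h n hn y hy)
  intro x hx
  have h1 := pResidual_le_ker Q.isPGroup' ((MonoidHom.transferSylow Q hQ).comp (QuotientGroup.mk' L)) hx.1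
  have h2 := (MonoidHom.ker_transferSylow_isComplement' Q hQ).disjoint
  exact (QuotientGroup.eq_one_iff _).1 (disjoint_def.1 h2 h1 ⟨x, hx.2, rfl⟩)

theorem ncl_le {G : Type*} [Group G] [Finite G] {p : ℕ} [Fact p.Prime] {M : Ideal Cfsg.AlgInt}
    (hM : Cfsg.IsPModular p M) (P : Sylow p G) {N : Subgroup G}
    (hN : N = normalizer ((P : Subgroup G) : Set G))
    (h : ∀ χ ∈ principalBlock M G, IsIrrCharacter N (fun n : N => (χ : G → ℂ) n))
    (R : Subgroup N) [R.Normal] (hR : pPrimeCore p N ≤ R) (x : N)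
    (hx : (x : G) ∈ normalClosure ((R.map N.subtype : Subgroup G) : Set G)) : x ∈ R := by
  have : Modular p M := ⟨hM⟩
  have := Fintype.ofFinite N
  have hPN : (P : Subgroup G) ≤ N := hN ▸ le_normalizer
  have hn : ((P.subtype hPN : Sylow p N) : Subgroup N).Normal :=
    normal_subgroupOf_of_le_normalizer hN.le
  have hs : IsPSolvable p N := isPSolvable_of_pLengthLE
    ((Cfsg.Lib.Coprime.pLengthLE_one_iff_normal (P.subtype hPN)).2 inferInstance)
  rw [← QuotientGroup.eq_one_iff]
  refine eq_one_of_forall_irr_apply_eq fun ψ hψ => ?_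
  have hψ' := hψ.comp_surjective _ (QuotientGroup.mk'_surjective R)
  have hk : ∀ r ∈ R, ψ (QuotientGroup.mk' R r) = ψ (QuotientGroup.mk' R 1) := fun r hr => by
    rw [map_one, QuotientGroup.mk'_apply, (QuotientGroup.eq_one_iff _).2 hr]
  have hb : (⟨_, hψ'⟩ : IrrCharacter N) ∈ principalBlock M N :=
    (mem_principalBlock_iff_of_isPSolvable hM hs _).2 fun n hn => hk n (hR hn)
  have hind : IsInducedBlock M N (principalBlock M N) (principalBlock M G) :=
    (inducedBlockDefined_of_local P.isPGroup' hPN (hN ▸ centralizer_le_normalizer _) hN.le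
      isPBlock_principalBlock).isInducedBlock_principal_iff.2 rfl
  obtain ⟨χ, hχ, h0⟩ := hind.exists_mem_inner_ne_zero hb
  have e := (h χ hχ).eq_of_inner_ne_zero hψ' h0
  have hc := χ.2.isCharacter
  have := hc.charKer_normal
  have hle : normalClosure ((R.map N.subtype : Subgroup G) : Set G) ≤ charKer (χ : G → ℂ) := by
    refine normalClosure_le_normal ?_
    rintro _ ⟨r, hr, rfl⟩
    exact hc.mem_charKer_iff.2 ((congrFun e r).trans ((hk r hr).trans (congrFun e 1).symm))
  exact (congrFun e x).symm.trans ((hc.mem_charKer_iff.1 (hle hx)).trans (congrFun e 1))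

/-- Let p be a prime, M a maximal ideal of the algebraic integers containing p, G a finite group, P a Sylow p-subgroup and N = N_G(P). Then G has p-length 1 (G = O_{p',p,p'}(G)) if and only if every irreducible character in the principal p-block of G restricts to an irreducible character of N. -/
theorem result {G : Type*} [Group G] [Finite G] (p : ℕ) [Fact p.Prime] (M : Ideal Cfsg.AlgInt) (hM : Cfsg.IsPModular p M) (P : Sylow p G) : Cfsg.PLengthLE p 1 G ↔ ∀ χ ∈ Cfsg.principalBlock M G, Cfsg.IsIrrCharacter ↥(Subgroup.normalizer ((P : Subgroup G) : Set G)) (fun n : ↥(Subgroup.normalizer ((P : Subgroup G) : Set G)) => (χ : G → ℂ) n) := by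
  have : Modular p M := ⟨hM⟩
  have := Fintype.ofFinite G
  set N := normalizer ((P : Subgroup G) : Set G) with hN
  constructor
  · intro h χ hχ
    have hn := (Cfsg.Lib.Coprime.pLengthLE_one_iff_normal P).1 h
    refine isIrrCharacter_res_of_sup_ker χ.2 (K := pPrimeCore p G)
      (mem_kerSet_iff_le.1 (principalBlock_subset_kerSet (not_dvd_card_pPrimeCore p G) hχ)) ?_
    have h1 := P.normalizer_sup_eq_top' (N := pPrimeCore p G ⊔ P) le_sup_right
    rw [eq_top_iff, ← h1]
    exact sup_le le_sup_right (sup_le le_sup_left (le_normalizer.trans le_sup_right))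
  intro h
  have hPN : (P : Subgroup G) ≤ N := le_normalizer
  have hn : ((P : Subgroup G).subgroupOf N).Normal := normal_subgroupOf_of_le_normalizer le_rfl
  set Φ := (frattini P).map (P : Subgroup G).subtype with hΦ
  have hΦP : Φ ≤ P := map_subtype_le _
  have hΦn : (Φ.subgroupOf N).Normal :=
    normal_subgroupOf_of_le_normalizer (Cfsg.Lib.Core.normalizer_le_normalizer_map_subtype _)
  have hdis : Disjoint ((P : Subgroup G).subgroupOf N) (pPrimeCore p N) :=
    disjoint_iff.2 (inf_pPrimeCore_eq_bot (P.isPGroup'.comap_subtype))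
  set K := normalClosure ((((P : Subgroup G).subgroupOf N ⊔ pPrimeCore p N).map N.subtype : Subgroup G) : Set G) with hK
  set L := normalClosure (((Φ.subgroupOf N ⊔ pPrimeCore p N).map N.subtype : Subgroup G) : Set G) with hL
  have hPK : (P : Subgroup G) ≤ K := fun x hx =>
    subset_normalClosure ⟨⟨x, hPN hx⟩, mem_sup_left hx, rfl⟩
  have hΦL : Φ ≤ L := fun x hx =>
    subset_normalClosure ⟨⟨x, hPN (hΦP hx)⟩, mem_sup_left hx, rfl⟩
  have h1 := res_inf_le (P.subtype hPK) (L.subgroupOf K) (fun n hn' y hy => by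
    have hnN : (n : G) ∈ N := by
      rw [Sylow.coe_subtype, ← subgroupOf_normalizer_eq hPK] at hn'
      exact hn'
    obtain ⟨s, hs, o, ho, e⟩ := mem_sup_of_normal_right.1
      (ncl_le hM P hN h _ le_sup_right ⟨n, hnN⟩ n.2)
    have hc := commute_of_normal_of_disjoint _ _ hn inferInstance hdis ⟨y, hPN hy⟩ o hy ho
    have hc' : (y : G) * o = o * y := congrArg Subtype.val hc
    have e' : (s : G) * o = n := congrArg Subtype.val e
    refine hΦL ?_
    have : ((⁅n, y⁆ : K) : G) = ⁅(s : G), (y : G)⁆ := by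
      simp only [commutatorElement_def, coe_mul, coe_inv, ← e']
      calc (s : G) * o * y * ((s : G) * o)⁻¹ * (y : G)⁻¹ = s * (o * y) * (o : G)⁻¹ * (s : G)⁻¹ * (y : G)⁻¹ := by group
        _ = _ := by rw [← hc']; group
    rw [coe_subtype, this]
    exact ⟨_, Cfsg.Lib.PGroup.commutatorElement_mem_frattini P.isPGroup' ⟨s, hs⟩ ⟨y, hy⟩, rfl⟩)
  have h2 : HasNormalPComplement p K := by
    refine hasNormalPComplement_subgroup_of_inf_le_frattini hPK P.isPGroup'
      (P.subtype hPK).not_dvd_index ?_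
    rintro _ ⟨⟨x, hx, rfl⟩, hxP⟩
    obtain ⟨s, hs, o, ho, e⟩ := mem_sup_of_normal_right.1
      (ncl_le hM P hN h _ le_sup_right ⟨x, hPN hxP⟩ (h1 ⟨hx, hxP⟩))
    have : o = 1 := disjoint_def.1 hdis (by
      rw [eq_inv_mul_of_mul_eq e]
      exact mul_mem (inv_mem (hΦP hs)) hxP) ho
    rw [this, mul_one] at e
    rw [e] at hs
    exact hs
  refine Cfsg.Lib.Coprime.pLengthLE_one_of_normal_sup P (K := (pResidual p K).map K.subtype)
    inferInstance (coprime_map _ (hasNormalPComplement_iff_card_pResidual.1 h2)) ?_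
  have h3 := congrArg (map K.subtype) (pResidual_sup_sylow (P.subtype hPK))
  rw [Subgroup.map_sup, Sylow.coe_subtype, map_subgroupOf_eq_of_le hPK, ← MonoidHom.range_eq_map,
    range_subtype] at h3
  rw [h3]
  infer_instance

end Cfsg.Agent.S4711
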