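import Cfsg.Statements.S4712
import Cfsg.Agent.Lib.Block.Pim

set_option autoImplicit false
open Cfsg

namespace Cfsg.Agent.S4712

open Cfsg.Lib.Block Cfsg.Lib.Char Cfsg.Lib.Modular

/-- Let p be an odd prime, M a maximal ideal of the algebraic integers containing p, G a finite group of order n with p-part p^a, and B a p-block of G. Call an irreducible character χ p-rational when χ(g^k) = χ(g) for every g and every k coprime to n with k ≡ 1 modulo n/p^a (χ is fixed by the Galois automorphisms fixing the roots of unity of order prime to p). Then the number of p-rational irreducible characters in B is at least the p-regular rank of B (the number of irreducible Brauer characters in B). -/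
theorem result {G : Type*} [Group G] [Finite G] (p : ℕ) [Fact p.Prime] (hodd : p ≠ 2) (M : Ideal Cfsg.AlgInt) (hM : Cfsg.IsPModular p M) (B : Set (Cfsg.IrrCharacter G)) (hB : Cfsg.IsPBlock M B) : Cfsg.blockRank p B ≤ Nat.card {χ : Cfsg.IrrCharacter G // χ ∈ B ∧ ∀ k : ℕ, Nat.Coprime k (Nat.card G) → k ≡ 1 [MOD Nat.card G / p ^ (Nat.card G).factorization p] → ∀ g : G, (χ : G → ℂ) (g ^ k) = (χ : G → ℂ) g} := by
  classical
  have : Modular p M := ⟨hM⟩
  have := Fintype.ofFinite G
  have hp : p.Prime := Fact.out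
  have hN : Nat.card G ≠ 0 := Nat.card_pos.ne'
  set a := (Nat.card G).factorization p with ha
  set m := Nat.card G / p ^ a with hm
  have hco : (p ^ a).Coprime m := (Nat.coprime_ordCompl hp hN).pow_left a
  have hmul : p ^ a * m = Nat.card G := Nat.ordProj_mul_ordCompl_eq_self _ p
  have : NeZero (p ^ a) := ⟨pow_ne_zero _ hp.ne_zero⟩
  obtain ⟨r, hr⟩ := (ZMod.isCyclic_units_of_prime_pow p hp hodd a).exists_monoid_generator
  obtain ⟨k, k1, k2⟩ := Nat.chineseRemainder hco (r : ZMod (p ^ a)).val 1
  have hk : k.Coprime (Nat.card G) := by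
    rw [← hmul]
    exact Nat.Coprime.mul_right (k1.gcd_eq.trans (ZMod.val_coe_unit_coprime r))
      (k2.gcd_eq.trans (Nat.gcd_one_left m))
  have h1 : ∀ g : G, ¬ p ∣ orderOf g → g ^ k = g := fun g hg => by
    have : orderOf g ∣ m := (((Nat.Prime.coprime_iff_not_dvd hp).2 hg).symm.pow_right a)
      |>.dvd_of_dvd_mul_left (hmul ▸ orderOf_dvd_natCard g)
    exact (pow_eq_pow_iff_modEq.2 (k2.of_dvd this)).trans (pow_one g)
  refine (blockRank_le_card_fixed hB hk h1).trans ?_
  rw [Nat.card_eq_fintype_card, Fintype.card_subtype]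
  refine Finset.card_le_card fun χ hχ => ?_
  obtain ⟨h2, h3⟩ := (Finset.mem_filter.1 hχ).2
  refine Finset.mem_filter.2 ⟨Finset.mem_univ _, h2, fun l hl hl' g => ?_⟩
  obtain ⟨j, hj⟩ := hr (ZMod.unitOfCoprime l (hl.coprime_dvd_right (Dvd.intro _ hmul)))
  have h4 : l ≡ k ^ j [MOD Nat.card G] := by
    rw [← hmul, ← Nat.modEq_and_modEq_iff_modEq_mul hco]
    refine ⟨?_, hl'.trans (by simpa using (k2.pow j).symm)⟩
    rw [← ZMod.natCast_eq_natCast_iff, Nat.cast_pow, (ZMod.natCast_eq_natCast_iff _ _ _).2 k1,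
      ZMod.natCast_zmod_val]
    simpa using (congrArg Units.val hj).symm
  rw [pow_eq_pow_iff_modEq.2 (h4.of_dvd (orderOf_dvd_natCard g))]
  clear h4 hj
  induction j with
  | zero => simp
  | succ j ih => rw [pow_succ, pow_mul, h3, ih]

end Cfsg.Agent.S4712
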