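import Cfsg.Statements.S4714
import Cfsg.Agent.Lib.Modular.CentralDefect

set_option autoImplicit false
open Cfsg

namespace Cfsg.Agent.S4714

open Cfsg.Lib.Block Cfsg.Lib.Char Cfsg.Lib.Modular
open scoped ComplexConjugate

/-- Let p be a prime, M a maximal ideal of the algebraic integers containing p, D a p-subgroup of the finite group G with G = D·C_G(D), and B a p-block with defect group D. Let χ be a member of B having D in its kernel (there is exactly one, the canonical character of B). Then the irreducible characters in B are exactly the functions θ on G for which there is an irreducible character ζ of D such that θ(yx) = ζ(y)χ(x) whenever y ∈ D, x has order prime to p and x commutes with y, and θ(z) = 0 whenever the p-part of z does not lie in D. -/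
theorem result {G : Type*} [Group G] [Finite G] (p : ℕ) [Fact p.Prime] (M : Ideal Cfsg.AlgInt) (hM : Cfsg.IsPModular p M) (D : Subgroup G) (hD : IsPGroup p D) (hG : D ⊔ Subgroup.centralizer (D : Set G) = ⊤) (B : Set (Cfsg.IrrCharacter G)) (hB : Cfsg.IsPBlock M B) (hBD : Cfsg.IsDefectGroup p M B D) (χ : Cfsg.IrrCharacter G) (hχ : χ ∈ B) (hχD : ∀ y ∈ D, (χ : G → ℂ) y = (χ : G → ℂ) 1) : (∀ θ : Cfsg.IrrCharacter G, θ ∈ B ↔ ∃ ζ : Cfsg.IrrCharacter D, (∀ (y : D) (x : G), ¬ p ∣ orderOf x → Commute (y : G) x → (θ : G → ℂ) ((y : G) * x) = (ζ : D → ℂ) y * (χ : G → ℂ) x) ∧ (∀ z : G, (∀ y : G, Cfsg.IsPPart p z y → y ∉ D) → (θ : G → ℂ) z = 0)) ∧ ∀ ζ : Cfsg.IrrCharacter D, ∃ θ ∈ B, (∀ (y : D) (x : G), ¬ p ∣ orderOf x → Commute (y : G) x → (θ : G → ℂ) ((y : G) * x) = (ζ : D → ℂ) y * (χ : G → ℂ) x) ∧ (∀ z : G, (∀ y : G, Cfsg.IsPPart p z y → y ∉ D) → (θ : G → ℂ) z = 0) := by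
  have : Modular p M := ⟨hM⟩
  have := Fintype.ofFinite G
  have hp : p.Prime := Fact.out
  have hc := regSet_subset_of_sup_centralizer hD hG
  have key : ∀ (θ : G → ℂ) (ζ : D → ℂ), ((∀ (y : D) (x : G), ¬ p ∣ orderOf x → Commute (y : G) x →
      θ ((y : G) * x) = ζ y * (χ : G → ℂ) x) ∧ (∀ z : G, (∀ y : G, IsPPart p z y → y ∉ D) →
      θ z = 0)) ↔ θ = secLift p ζ χ := fun θ ζ => by
    constructor
    · rintro ⟨h1, h2⟩
      exact eq_secLift hD hc (fun y x hx => h1 y x hx (hc hx _ y.2))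
        fun z hz => h2 z fun y hy => by rwa [← (isPPart_iff hp).1 hy]
    · rintro rfl
      exact ⟨fun y x hx _ => secLift_mul hD hc _ _ y hx,
        fun z hz => secLift_eq_zero hD hc _ _ (hz _ (isPPart_pPart hp z))⟩
  simp only [key]
  refine ⟨fun θ => ⟨exists_eq_secLift hG hB hBD hχ hχD, ?_⟩,
    exists_mem_eq_secLift hG hB hBD hχ hχD⟩
  rintro ⟨ζ, h⟩
  obtain ⟨θ', h1, h2⟩ := exists_mem_eq_secLift hG hB hBD hχ hχD ζ
  rwa [show θ = θ' from Subtype.ext (h.trans h2.symm)]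

end Cfsg.Agent.S4714
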