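import Cfsg.Statements.S4715
import Cfsg.Agent.Lib.Block.Major

set_option autoImplicit false
open Cfsg

namespace Cfsg.Agent.S4715

open Cfsg.Lib.Block Cfsg.Lib.Char Cfsg.Lib.Transfer MonoidAlgebra Subgroup

/-- Let p be a prime, M a maximal ideal of the algebraic integers containing p, B a p-block of the finite group G with defect group D of order p^d, H = D·C_G(D), b a block of H inducing B, T the stabilizer of b in N_G(D) and e = [T : H] the inertial index of B; let n be the integer with p^n ≤ e < p^(n+1) and p^c the order of the centre of D. Then every irreducible character in B has height h with h + c ≤ n + d. -/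
theorem result {G : Type*} [Group G] [Finite G] (p : ℕ) [Fact p.Prime] (M : Ideal Cfsg.AlgInt) (hM : Cfsg.IsPModular p M) (B : Set (Cfsg.IrrCharacter G)) (hB : Cfsg.IsPBlock M B) (D : Subgroup G) (hBD : Cfsg.IsDefectGroup p M B D) (d : ℕ) (hDd : Nat.card D = p ^ d) (H : Subgroup G) (hH : H = D ⊔ Subgroup.centralizer (D : Set G)) (b : Set (Cfsg.IrrCharacter H)) (hind : Cfsg.IsInducedBlock M H b B) (T : Subgroup G) (hT : ∀ g : G, g ∈ T ↔ (g ∈ Subgroup.normalizer (D : Set G) ∧ ∀ θ ∈ b, ∀ θ' : Cfsg.IrrCharacter H, (∀ h h' : H, (h' : G) = g * h * g⁻¹ → (θ' : H → ℂ) h' = (θ : H → ℂ) h) → θ' ∈ b)) (e : ℕ) (he : H.relIndex T = e) (n : ℕ) (hn : p ^ n ≤ e ∧ e < p ^ (n + 1)) (c : ℕ) (hc : Nat.card (Subgroup.center D) = p ^ c) : ∀ χ ∈ B, Cfsg.blockHeight p B (χ : G → ℂ) + c ≤ n + d := by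
  have : Modular p M := ⟨hM⟩
  have := Fintype.ofFinite G
  intro χ hχ
  have hP := hBD.isPGroup
  have hb := hind.1
  have hPH : D ≤ H := hH ▸ le_sup_left
  have hCH : centralizer (D : Set G) ≤ H := hH ▸ le_sup_right
  have hN : H ≤ normalizer (D : Set G) := hH ▸ sup_le le_normalizer (centralizer_le_normalizer _)
  have hN' : normalizer (D : Set G) ≤ normalizer (H : Set G) :=
    hH ▸ Lib.Core.le_normalizer_sup le_rfl (normalizer_le_normalizer_centralizer D)
  obtain rfl : T = normalizer (D : Set G) ⊓ stab (ebl H M b) := Subgroup.ext fun g => by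
    rw [hT, mem_inf]
    exact and_congr_right fun hg => (hb.mem_stab_iff (hN' hg)).symm
  have h1 := hb.isBlkIdem.inf_centralizer hP hPH (by rw [inf_eq_right.2 hCH, ← hH])
  rw [inf_eq_right.2 hCH, ← top_inf_eq (centralizer _)] at h1
  have hm : IsMaxPair p M ⊤ (eblk M B) D (ebl H M b) := ⟨hB.isBlkIdem_top, ⟨le_top, hP, h1,
    (isInducedBlock_iff_ebl' hP hPH hCH hN hb hB).1 hind⟩, hB.isDefectGroup_iff_isDefIn_top.1 hBD⟩
  have h2 := hB.card_center_le hm hχ
  have h3 : (center D).map D.subtype = D ⊓ centralizer (D : Set G) := by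
    rw [← centralizer_univ, ← coe_top, centralizer_map_subtype, top_map_subtype]
  have h4 : blockDefect p B = d :=
    Nat.pow_right_injective (Fact.out : p.Prime).two_le ((hB.card_defectGroup hBD).symm.trans hDd)
  rw [← h3, card_map_of_injective D.subtype_injective, hc, ← hH, he, h4] at h2
  have h5 := (Nat.pow_lt_pow_iff_right (Fact.out : p.Prime).one_lt).1 (h2.trans_lt
    ((Nat.mul_lt_mul_of_pos_right hn.2 (pow_pos (Fact.out : p.Prime).pos _)).trans_eq
      (pow_add _ _ _).symm))
  have h6 := Lib.Modular.blockHeight_le_blockDefect (p := p) hχ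
  omega

end Cfsg.Agent.S4715
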