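import Cfsg.Statements.S4721
import Cfsg.Agent.Lib.Modular.AbFrobThree

set_option autoImplicit false
open Cfsg

namespace Cfsg.Agent.S4721

open Cfsg.Lib.Block Cfsg.Lib.Char Cfsg.Lib.Modular
open scoped ComplexConjugate

/-- Let p be a prime, M a maximal ideal of the algebraic integers containing p, and G a finite group with a nontrivial abelian Sylow p-subgroup P, N = N_G(P), C = C_G(P), such that N/C is cyclic of order 3, #P > 4, and C_G(y) ∩ N = C for every non-identity y ∈ P. Then the principal p-block is the disjoint union of a set X of exactly 3 characters containing the principal character and a set Y of (#P − 1)/3 characters, with signs a_χ = ±1 (χ ∈ X, a = 1 at the principal character) and δ = ±1 such that every χ ∈ X takes the value a_χ at every element whose p-part is a non-identity element of P, and there is a map ζ from the non-principal linear characters of P onto Y, constant on N-conjugacy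 classes, with ζ_ψ(z) = δ·Σ ψ'(y) over the N-orbit of ψ, for z with p-part y ≠ 1 in P. If moreover G has an involution lying in no proper normal subgroup of G, then exactly two of the three numbers −δ and a_χ (χ ∈ X non-principal) equal −1, and the product of the degrees of the two non-principal members of X and of any member of Y is a perfect square. -/
theorem result {G : Type*} [Group G] [Finite G] (p : ℕ) [Fact p.Prime] (M : Ideal Cfsg.AlgInt) (hM : Cfsg.IsPModular p M) (P : Sylow p G) (hab : IsMulCommutative P) (hP1 : Nat.card P ≠ 1) (hCN : (Subgroup.centralizer ((P : Subgroup G) : Set G)).relIndex (Subgroup.normalizer ((P : Subgroup G) : Set G)) = 3) (hcyc : ∃ g : G, g ∈ Subgroup.normalizer ((P : Subgroup G) : Set G) ∧ Subgroup.centralizer ((P : Subgroup G) : Set G) ⊔ Subgroup.zpowers g = Subgroup.normalizer ((P : Subgroup G) : Set G)) (hm2 : 3 + 1 < Nat.card P) (hfrob : ∀ y : G, y ∈ (P : Subgroup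 G) → y ≠ 1 → Subgroup.centralizer ({y} : Set G) ⊓ Subgroup.normalizer ((P : Subgroup G) : Set G) = Subgroup.centralizer ((P : Subgroup G) : Set G)) : ∃ (X Y : Set (Cfsg.IrrCharacter G)), Cfsg.principalBlock M G = X ∪ Y ∧ Disjoint X Y ∧ Nat.card X = 3 ∧ Nat.card Y = (Nat.card P - 1) / 3 ∧ (∃ χ₁ ∈ X, (χ₁ : G → ℂ) = fun _ => 1) ∧ ∃ (a : Cfsg.IrrCharacter G → ℤ) (δ : ℤ) (ζ : (↥(P : Subgroup G) →* ℂˣ) → Cfsg.IrrCharacter G), (δ = 1 ∨ δ = -1) ∧ (∀ χ ∈ X, (a χ = 1 ∨ a χ = -1) ∧ ∀ z y : G, Cfsg.IsPPart p z y → y ∈ (P : Subgroup G) → y ≠ 1 → (χ : G → ℂ) z = (a χ : ℂ)) ∧ (∀ ψ : ↥(P : Subgroup G) →* ℂˣ, ψ ≠ 1 → ζ ψ ∈ Y) ∧ (∀ η ∈ Y, ∃ ψ : ↥(P : Subgroup G) →* ℂˣ, ψ ≠ 1 ∧ ζ ψ = η) ∧ (∀ ψ ψ' : ↥(P : Subgroup G) →* ℂˣ, ψ ≠ 1 → (∃ n : G, n ∈ Subgroup.normalizer ((P : Subgroup G) : Set G) ∧ ∀ w w' : ↥(P : Subgroup G), (w' : G) = n * w * n⁻¹ → ψ' w' = ψ w) → ζ ψ' = ζ ψ) ∧ (∀ ψ : ↥(P : Subgroup G) →* ℂˣ, ψ ≠ 1 → ∀ (z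 : G) (y : ↥(P : Subgroup G)), Cfsg.IsPPart p z (y : G) → (y : G) ≠ 1 → (ζ ψ : G → ℂ) z = (δ : ℂ) * ∑ᶠ ψ' ∈ {ψ' : ↥(P : Subgroup G) →* ℂˣ | ∃ n : G, n ∈ Subgroup.normalizer ((P : Subgroup G) : Set G) ∧ ∀ w w' : ↥(P : Subgroup G), (w' : G) = n * w * n⁻¹ → ψ' w' = ψ w}, ((ψ' y : ℂˣ) : ℂ)) ∧ ((∃ t : G, orderOf t = 2 ∧ ∀ K : Subgroup G, K.Normal → t ∈ K → K = ⊤) → Nat.card {χ : Cfsg.IrrCharacter G // χ ∈ X ∧ (χ : G → ℂ) ≠ (fun _ => 1) ∧ a χ = -1} + (if δ = 1 then 1 else 0) = 2 ∧ ∀ η ∈ Y, IsSquare (Cfsg.charDegree (η : G → ℂ) * ∏ᶠ χ ∈ {χ : Cfsg.IrrCharacter G | χ ∈ X ∧ (χ : G → ℂ) ≠ fun _ => 1}, Cfsg.charDegree (χ : G → ℂ))) := by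
  classical
  have : Modular p M := ⟨hM⟩
  have h : AbFrob (P : Subgroup G) 3 := ⟨hab, hCN, hfrob⟩
  obtain ⟨X, Y, a, d, δ, ζ, e⟩ := h.exists_abExc (M := M) hm2
  have hY : Y.card = (Nat.card P - 1) / 3 := e.card_eq (by omega)
  obtain ⟨χ₂, χ₃, h2, h3, h23, hX, s2, s3⟩ := e.exists_three h
  refine ⟨X, Y, Set.ext fun χ => by simpa using e.mem χ,
    Finset.disjoint_coe.2 e.disj, ?_, by simpa using hY, ⟨irrOne G, e.one_mem, rfl⟩,
    a, δ, ζ, e.sign, fun χ hχ => ⟨?_, fun z y hz hy h1 => ?_⟩, e.maps, e.surj,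
    fun ψ ψ' h1 hψ => e.congr ψ h1 ψ' hψ, fun ψ h1 z y hz hy => ?_, fun ⟨t, ht, hK⟩ => ?_⟩
  · simpa [hX] using Finset.card_eq_three.2 ⟨_, _, _, h2.symm, h3.symm, h23, rfl⟩
  · simp only [hX, Finset.coe_insert, Finset.coe_singleton, Set.mem_insert_iff,
      Set.mem_singleton_iff] at hχ
    rcases hχ with rfl | rfl | rfl
    exacts [Or.inl e.a_one, s2, s3]
  · rw [h.apply_eq ((e.mem χ).2 (Or.inl hχ)) hz hy h1, e.valX h hχ hy h1]
  · rw [h.apply_eq ((e.mem _).2 (Or.inr (e.maps ψ h1))) hz y.2 hy,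
      e.valY h h1 fun e => hy (congrArg Subtype.val e), e.d_eq_zero h, Int.cast_zero, zero_add]
    rfl
  obtain ⟨r1, r2⟩ := e.involution h hm2 ht hK h2 h3 h23 hX s2 s3
  have hm : ∀ χ : IrrCharacter G, (χ ∈ (X : Set (IrrCharacter G)) ∧ (χ : G → ℂ) ≠ fun _ => 1) ↔
      χ ∈ ({χ₂, χ₃} : Finset (IrrCharacter G)) := fun χ => by
    have : ((χ : G → ℂ) = fun _ => 1) ↔ χ = irrOne G :=
      ⟨fun h => Subtype.ext h, fun h => h ▸ rfl⟩
    simp only [hX, Finset.coe_insert, Finset.coe_singleton, Set.mem_insert_iff,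
      Set.mem_singleton_iff, ne_eq, this, Finset.mem_insert, Finset.mem_singleton]
    constructor
    · tauto
    · rintro (rfl | rfl) <;> simp [h2, h3]
  refine ⟨?_, fun η hη => ?_⟩
  · rw [← r1, Nat.subtype_card (Finset.filter (a · = -1) {χ₂, χ₃})
      fun χ => by rw [Finset.mem_filter, ← hm, and_assoc], Finset.card_filter,
      Finset.sum_pair h23]
  · rw [show {χ : IrrCharacter G | χ ∈ (X : Set (IrrCharacter G)) ∧ (χ : G → ℂ) ≠ fun _ => 1} =
      ({χ₂, χ₃} : Finset (IrrCharacter G)) from Set.ext hm, finprod_mem_coe_finset,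
      Finset.prod_pair h23]
    exact r2 η hη

end Cfsg.Agent.S4721
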