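import Cfsg.Statements.S4722
import Cfsg.Agent.Lib.Modular.Column

set_option autoImplicit false
open Cfsg

namespace Cfsg.Agent.S4722

open Cfsg.Lib.Block Cfsg.Lib.Char Cfsg.Lib.Modular
open scoped ComplexConjugate

/-- Let M be a maximal ideal of the algebraic integers containing 2, P a 2-subgroup of the finite group G, U a subset of P, and t an involution of G such that no element of U is inverted by any conjugate of t. Let θ be a generalized character of P vanishing outside U, and for χ in the principal 2-block B₀ put a_χ = #P⁻¹ Σ_{y ∈ P} χ(y) θ(y⁻¹). Then Σ_{χ ∈ B₀} a_χ χ(t)^2/χ(1) = 0, Σ_{χ ∈ B₀} a_χ χ(1) = 0 and Σ_{χ ∈ B₀} a_χ χ(t) = 0. If moreover #P⁻¹ Σ_{y ∈ P} θ(y) ≠ 0, then either at least two of the a_χ have positive real part and at least two have negative real part, or G has a proper normal subgroup containing O_2'(G) and t. -/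
theorem result {G : Type*} [Group G] [Finite G] (M : Ideal Cfsg.AlgInt) (hM : Cfsg.IsPModular 2 M) (P : Subgroup G) (hP : IsPGroup 2 P) (U : Set G) (hUP : U ⊆ (P : Set G)) (t : G) (ht : orderOf t = 2) (hinv : ∀ u ∈ U, ∀ g : G, (g * t * g⁻¹) * u * (g * t * g⁻¹)⁻¹ ≠ u⁻¹) (θ : ↥P → ℂ) (hθ : Cfsg.IsGeneralizedCharacter ↥P θ) (hθU : ∀ y : ↥P, (y : G) ∉ U → θ y = 0) : (∑ᶠ χ ∈ Cfsg.principalBlock M G, ((Nat.card ↥P : ℂ)⁻¹ * ∑ᶠ y : ↥P, (χ : G → ℂ) (y : G) * θ y⁻¹) * (χ : G → ℂ) t ^ 2 / (χ : G → ℂ) 1 = 0) ∧ (∑ᶠ χ ∈ Cfsg.principalBlock M G, ((Nat.card ↥P : ℂ)⁻¹ * ∑ᶠ y : ↥P, (χ : G → ℂ) (y : G) * θ y⁻¹) * (χ : G → ℂ) 1 = 0) ∧ (∑ᶠ χ ∈ Cfsg.principalBlock M G, ((Nat.card ↥P : ℂ)⁻¹ * ∑ᶠ y : ↥P, (χ : G → ℂ) (y : G) * θ y⁻¹) * (χ : G → ℂ) t = 0) ∧ ((Nat.card ↥P : ℂ)⁻¹ * ∑ᶠ y : ↥P, θ y ≠ 0 → (2 ≤ Nat.card {χ : Cfsg.IrrCharacter G // χ ∈ Cfsg.principalBlock M G ∧ 0 < (((Nat.card ↥P : ℂ)⁻¹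 * ∑ᶠ y : ↥P, (χ : G → ℂ) (y : G) * θ y⁻¹)).re} ∧ 2 ≤ Nat.card {χ : Cfsg.IrrCharacter G // χ ∈ Cfsg.principalBlock M G ∧ (((Nat.card ↥P : ℂ)⁻¹ * ∑ᶠ y : ↥P, (χ : G → ℂ) (y : G) * θ y⁻¹)).re < 0}) ∨ ∃ K : Subgroup G, K.Normal ∧ K ≠ ⊤ ∧ Cfsg.pPrimeCore 2 G ≤ K ∧ t ∈ K) := by
  classical
  have : Modular 2 M := ⟨hM⟩
  have := Fintype.ofFinite P
  have hB := (Lib.Block.isPBlock_principalBlock (G := G) (M := M)).fblk_mem_SG
  have hU : ∀ y : P, θ y ≠ 0 → (y : G) ∈ U := fun y hy => by_contra fun h => hy (hθU y h)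
  have ht2 : t ^ 2 = 1 := ht ▸ pow_orderOf_eq_one t
  have hti : t⁻¹ = t := inv_eq_of_mul_eq_one_right (sq t ▸ ht2)
  have hinv' : ∀ y : P, θ y ≠ 0 → ∀ u : G, t * u * t⁻¹ = u⁻¹ → ¬ IsConj u y := fun y hy u hu h => by
    obtain ⟨c, hc⟩ := isConj_iff.1 h
    refine hinv y (hU y hy) c ?_
    rw [← hc]
    calc _ = c * (t * u * t⁻¹) * c⁻¹ := by group
      _ = _ := by rw [hu]; group
  have h1 : ∑ χ with χ ∈ principalBlock M G, col P θ χ * (χ : G → ℂ) 1 = 0 :=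
    sum_col_mul_apply_eq_zero hP hB fun y hy => hinv' y hy _ (by
      rw [pPart_of_not_dvd Nat.prime_two (by simp)]; simp)
  have h2 : ∑ χ with χ ∈ principalBlock M G, col P θ χ * (χ : G → ℂ) t = 0 :=
    sum_col_mul_apply_eq_zero hP hB fun y hy => hinv' y hy _ (by
      rw [pPart_of_pElt Nat.prime_two ⟨1, ht⟩, mul_inv_cancel_right, hti])
  have h3 := sum_col_mul_mul_div_eq_zero (θ := θ) (s := t) (t := t) hP hB fun y hy x =>
    hinv' y hy _ (by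
      rw [← pPart_conj, ← pPart_inv]
      congr 1
      simp only [mul_inv_rev, hti, inv_inv, mul_assoc]
      rw [← sq, ht2, mul_one])
  simp only [finsum_mem_irr_eq_sum_filter]
  refine ⟨?_, h1, h2, fun h0 => ?_⟩
  · rw [← h3]
    exact Finset.sum_congr rfl fun χ _ => by rw [sq, mul_div_assoc]; rfl
  choose a ha using fun χ : IrrCharacter G => exists_int_col hθ χ.2.isCharacter
  have h0' : a (irrOne G) ≠ 0 := fun e => h0 (by
    rw [finsum_eq_sum_of_fintype, ← col_one, ← coe_irrOne, ha, e, Int.cast_zero])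
  simp only [ha] at h1 h2 h3
  change (2 ≤ Nat.card {χ : IrrCharacter G // χ ∈ principalBlock M G ∧ 0 < (col P θ χ).re} ∧
    2 ≤ Nat.card {χ : IrrCharacter G // χ ∈ principalBlock M G ∧ (col P θ χ).re < 0}) ∨ _
  simp only [ha, Complex.intCast_re, Int.cast_pos, Int.cast_lt_zero]
  have hs : ∀ q : IrrCharacter G → Prop, ¬ 2 ≤ Nat.card {χ // q χ} → {χ | q χ}.Subsingleton :=
    fun q h => (Set.subsingleton_coe _).1
      (Finite.card_le_one_iff_subsingleton.1 (Nat.lt_succ_iff.1 (not_le.1 h)))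
  by_contra hn
  rw [not_or, not_and_or] at hn
  rcases hn.1 with h | h
  · refine hn.2 (exists_mem_charKer_of_one_neg (M := M) (a := fun χ => -a χ) ht2 ?_ ?_ ?_
      (neg_ne_zero.2 h0') (by simpa using hs _ h))
    · simp [h1]
    · simp [h2]
    · simp [h3]
  · exact hn.2 (exists_mem_charKer_of_one_neg ht2 h1 h2 h3 h0' (hs _ h))

end Cfsg.Agent.S4722
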