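import Cfsg.Statements.S4727
import Cfsg.Agent.Lib.Block.KerPair

set_option autoImplicit false
open Cfsg

namespace Cfsg.Agent.S4727

open Cfsg.Lib.Block Cfsg.Lib.Char Cfsg.Lib.Transfer MonoidAlgebra Subgroup

/-- Let p be a prime, π a set of primes containing p, M a maximal ideal of the algebraic integers containing p, and B a p-block of the finite group G with defect group D; let B₁ be the block of N_G(D) with defect group D that induces B (the Brauer correspondent of B). Suppose every element of O_π'(N_G(D)), the largest normal subgroup of N_G(D) whose order has no prime divisor in π, lies in the kernel of every member of B₁. If y is a p-element whose centralizer C has a normal Hall π'-subgroup (every element of C whose order has no prime divisor in π lies in O_π'(C)), then χ(y x) = χ(y) for every χ ∈ B and every x ∈ C whose order has no prime divisor in π. -/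
theorem result {G : Type*} [Group G] [Finite G] (p : ℕ) [Fact p.Prime] (M : Ideal Cfsg.AlgInt) (hM : Cfsg.IsPModular p M) (π : Set ℕ) (hpπ : p ∈ π) (B : Set (Cfsg.IrrCharacter G)) (hB : Cfsg.IsPBlock M B) (D : Subgroup G) (hBD : Cfsg.IsDefectGroup p M B D) (B₁ : Set (Cfsg.IrrCharacter ↥(Subgroup.normalizer (D : Set G)))) (hB₁ : Cfsg.IsInducedBlock M (Subgroup.normalizer (D : Set G)) B₁ B) (hB₁D : Cfsg.IsDefectGroup p M B₁ (D.subgroupOf (Subgroup.normalizer (D : Set G)))) (hker : ∀ n : ↥(Subgroup.normalizer (D : Set G)), n ∈ Cfsg.piCore {q | q ∉ π} ↥(Subgroup.normalizer (D : Set G)) → n ∈ Cfsg.blockKer B₁) (y : G) (hy : ∃ k : ℕ, orderOf y = p ^ k) (hC : ∀ x : ↥(Subgroup.centralizer ({y} : Set G)), (∀ q : ℕ, q.Prime → q ∣ orderOf x → q ∉ π) → x ∈ Cfsg.piCore {q | q ∉ π} ↥(Subgroup.centralizer ({y} : Set G))) : ∀ χ ∈ B, ∀ x : G, x ∈ Subgroup.centralizer ({y} : Set G) → (∀ q : ℕ, q.Prime → q ∣ orderOf x → q ∉ π) → (χ : G → ℂ) (y * x) = (χ : G → ℂ) y := by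
  have : Modular p M := ⟨hM⟩
  intro χ hχ x hx hx'
  have hp : p.Prime := Fact.out
  let y' : centralizer ({y} : Set G) := ⟨y, mem_centralizer_singleton_iff.2 rfl⟩
  have h1 : ∀ g : centralizer ({y} : Set G), Lib.Modular.pPart p (g : G) = y → (χ : G → ℂ) g =
      blockPart (indSet M _ B) (fun h : centralizer ({y} : Set G) => (χ : G → ℂ) h) g := fun g hg => by
    rw [← hB.blockPart_centralizer χ.2.isClassFunction hg, blockPart_irr, if_pos hχ]
  have h2 : centralizer (zpowers y : Set G) = centralizer {y} := by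
    rw [zpowers_eq_closure, centralizer_closure]
  refine (h1 (y' * ⟨x, hx⟩) (Lib.Modular.pPart_mul (y := x) hp hy (fun h => hx' p hp h hpπ)
    (mem_centralizer_singleton_iff.1 hx).symm)).trans ((blockPart_mul_of_mem_blkKer _ (mem_blkKer.2 fun ξ hξ => ?_)
      _).trans (h1 y' (Lib.Modular.pPart_of_pElt hp hy)).symm)
  refine hB₁.piCore_subset_blockKer (π := {q | q ∉ π}) hBD (fun h => h hpπ) hker hξ (Q := zpowers y)
    (Lib.Modular.isPGroup_zpowers hp hy) (zpowers_le.2 y'.2) h2.le ?_ _
    (hC _ (by rwa [← orderOf_coe])) ξ (mem_blockOf_self ξ)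
  rw [br_eq_self_of_supp (supp_mono h2.ge (ebl_mem_cen _).2)]
  exact (isPBlock_blockOf ξ).ebl_ne_zero

end Cfsg.Agent.S4727
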