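import Cfsg.Statements.S4728
import Cfsg.Agent.Lib.Block.KerPair

set_option autoImplicit false
open Cfsg

namespace Cfsg.Agent.S4728

open Cfsg.Lib.Block Cfsg.Lib.Char Cfsg.Lib.Transfer MonoidAlgebra Subgroup

/-- Let p be a prime, π a set of primes containing p, M a maximal ideal of the algebraic integers containing p, B a p-block of the finite group G with defect group D, and B₁ the block of N_G(D) with defect group D inducing B. Let D₀ be a p-subgroup, H₀ = D₀·C_G(D₀), and b a block of H₀ inducing B. Write O_π'(X) for the largest normal subgroup of X whose order has no prime divisor in π. Suppose that O_π'(C_G(D₀)) is a normal Hall π'-subgroup of C_G(D₀) (it contains every element of C_G(D₀) whose order has no prime divisor in π) and that every element of it lies in the kernel of every member of b. Then every element of O_π'(N_G(D)) lies in the kernel of every member of B₁. -/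
theorem result {G : Type*} [Group G] [Finite G] (p : ℕ) [Fact p.Prime] (M : Ideal Cfsg.AlgInt) (hM : Cfsg.IsPModular p M) (π : Set ℕ) (hpπ : p ∈ π) (B : Set (Cfsg.IrrCharacter G)) (hB : Cfsg.IsPBlock M B) (D : Subgroup G) (hBD : Cfsg.IsDefectGroup p M B D) (B₁ : Set (Cfsg.IrrCharacter ↥(Subgroup.normalizer (D : Set G)))) (hB₁ : Cfsg.IsInducedBlock M (Subgroup.normalizer (D : Set G)) B₁ B) (hB₁D : Cfsg.IsDefectGroup p M B₁ (D.subgroupOf (Subgroup.normalizer (D : Set G)))) (D₀ : Subgroup G) (hD₀ : IsPGroup p D₀) (H₀ : Subgroup G) (hH₀ : H₀ = D₀ ⊔ Subgroup.centralizer (D₀ : Set G)) (b : Set (Cfsg.IrrCharacter ↥H₀)) (hb : Cfsg.IsInducedBlock M H₀ b B) (hcompl : ∀ x : ↥(Subgroup.centralizer (D₀ : Set G)), (∀ q : ℕ, q.Prime → q ∣ orderOf x → q ∉ π) → x ∈ Cfsg.piCore {q | q ∉ π} ↥(Subgroup.centralizer (D₀ : Set G))) (hkerb : ∀ x : ↥(Subgroup.centralizer (D₀ : Set G)), x ∈ Cfsg.piCore {q | q ∉ π} ↥(Subgroup.centralizer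 (D₀ : Set G)) → ∀ θ ∈ b, ∀ h : ↥H₀, (h : G) = (x : G) → (θ : ↥H₀ → ℂ) h = (θ : ↥H₀ → ℂ) 1) : ∀ n : ↥(Subgroup.normalizer (D : Set G)), n ∈ Cfsg.piCore {q | q ∉ π} ↥(Subgroup.normalizer (D : Set G)) → n ∈ Cfsg.blockKer B₁ := by
  have : Modular p M := ⟨hM⟩
  have hπ : p ∉ {q | q ∉ π} := fun h => h hpπ
  have h1 : D₀ ≤ H₀ := hH₀ ▸ le_sup_left
  have h2 : centralizer (D₀ : Set G) ≤ H₀ := hH₀ ▸ le_sup_right
  have h3 : H₀ ≤ normalizer (D₀ : Set G) := hH₀ ▸ sup_le le_normalizer (centralizer_le_normalizer _)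
  have h4 : IsPairOf p M ⊤ (eblk M B) D₀ (ebl H₀ M b) := by
    refine ⟨le_top, hD₀, ?_, (isInducedBlock_iff_ebl' hD₀ h1 h2 h3 hb.1 hB).1 hb⟩
    have := hb.1.isBlkIdem.inf_centralizer hD₀ h1 (by rw [inf_eq_right.2 h2, hH₀])
    rwa [inf_eq_right.2 h2, ← top_inf_eq (centralizer _)] at this
  obtain ⟨P, e, h5, h6, h7⟩ := h4.exists_max hB.isBlkIdem_top
  have h8 : ∀ y ∈ ⊤ ⊓ centralizer (D₀ : Set G), Lib.Core.IsPiNumber {q | q ∉ π} (orderOf y) →
      y ∈ piCoreOf {q | q ∉ π} (centralizer (D₀ : Set G)) := fun y hy h =>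
    ⟨⟨y, hy.2⟩, hcompl _ (by rwa [← orderOf_coe]), rfl⟩
  have h9 := h7.e0_inf_mul hπ (Lib.Core.piCoreOf_isPiSubgroup _ _)
    (le_inf le_top (Lib.Core.piCoreOf_le _ _)) h8 ((hb.1.e0_mul_iff (not_dvd_card_piCoreOf hπ _)
      ((Lib.Core.piCoreOf_le _ _).trans h2) ((h3.trans (normalizer_le_normalizer_centralizer _)).trans
        (Lib.Core.normalizer_le_normalizer_piCoreOf _ _))).2
      fun y ⟨z, hz, hy⟩ θ hθ => hkerb z hz θ hθ y hy.symm)
  obtain ⟨e', hm⟩ := hB.isBlkIdem_top.exists_isMaxPair (hB.isDefectGroup_iff_isDefIn_top.1 hBD)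
  refine (hB₁.e0_piCoreOf_iff hm hπ).2 ((IsMaxPair.mk hB.isBlkIdem_top h5 h6).e0_piCoreOf_mul hm.pair hπ
    (e0_mul_of_le (fun h => not_dvd_card_piCoreOf hπ _ (h.trans (card_dvd_of_le inf_le_left)))
      (fun y hy => ?_) h9))
  have h10 := Lib.Core.piCoreOf_le _ _ hy
  exact ⟨h8 y (inf_centralizer_anti h7.le h10)
    (Lib.Core.isPiSubgroup_iff_orderOf.1 (Lib.Core.piCoreOf_isPiSubgroup _ _) y hy), h10.2⟩

end Cfsg.Agent.S4728
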