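import Cfsg.Statements.S4729
import Cfsg.Agent.Lib.Block.Lam
import Cfsg.Agent.Lib.Clifford.Det

set_option autoImplicit false
open Cfsg

namespace Cfsg.Agent.S4729

open Cfsg.Lib.Char Cfsg.Lib.Block Cfsg.Lib.Clifford Subgroup in
open scoped ComplexConjugate in
theorem key {G : Type*} [Group G] [Finite G] (p : ℕ) [hp : Fact p.Prime] (M : Ideal Cfsg.AlgInt)
    [Modular p M] (hperf : _root_.commutator G = ⊤) (P : Sylow p G) (χ : Cfsg.IrrCharacter G)
    (hχ : χ ∈ Cfsg.principalBlock M G) (hdeg : Cfsg.charDegree (χ : G → ℂ) < 2 * p) {y : G}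
    (hy : y ∈ centralizer ((P : Subgroup G) : Set G)) (hyp : ¬ p ∣ orderOf y) :
    (χ : G → ℂ) y = (χ : G → ℂ) 1 := by
  classical
  set Q := zpowers y with hQ
  haveI := Fintype.ofFinite Q
  have hQp : ¬ p ∣ Nat.card Q := by rwa [hQ, Nat.card_zpowers]
  have hs := (sameBlock_iff_red isIrrCharacter_one χ.2).1 hχ
  have hred : ∀ z : Q, red M ((χ : G → ℂ) z) = red M ((χ : G → ℂ) 1) := by
    intro z
    have hz : (z : G) ∈ centralizer ((P : Subgroup G) : Set G) := (zpowers_le.2 hy) z.2
    have hidx : ¬ p ∣ (centralizer ({(z : G)} : Set G)).index := fun h =>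
      P.not_dvd_index (h.trans (index_dvd_of_le fun x hx =>
        mem_centralizer_singleton_iff.2 (hz x hx)))
    have hi : ((centralizer ({(z : G)} : Set G)).index : ℂ) ≠ 0 := by
      exact_mod_cast index_ne_zero_of_finite
    have e : (χ : G → ℂ) z = ((centralizer ({(z : G)} : Set G)).index : ℂ)⁻¹ *
        centralChar (χ : G → ℂ) z * (χ : G → ℂ) 1 := by
      have := χ.2.apply_one_ne_zero
      rw [centralChar_def]; field_simp
    rw [e, red_mul (mul_mem (natCast_inv_mem hidx) (centralChar_mem χ.2 _)) (irr_mem χ 1),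
      red_mul (natCast_inv_mem hidx) (centralChar_mem χ.2 _), ← hs, centralChar_one,
      ← red_mul (natCast_inv_mem hidx) (natCast_mem _ _), inv_mul_cancel₀ hi, red_one, one_mul]
  obtain ⟨n, hn⟩ := (χ.2.isCharacter.restrict Q).exists_eq_sum_nat
  have hdvd : ∀ ψ : IrrCharacter Q, ψ ≠ irrOne Q → p ∣ n ψ := by
    intro ψ hψ
    have h1 : classInner (fun x : Q => (χ : G → ℂ) x) ψ = n ψ := by
      rw [hn]; exact classInner_sum_smul_irr (fun ψ => (n ψ : ℂ)) ψ
    have h2 := card_mul_classInner (fun x : Q => (χ : G → ℂ) x) ψ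
    rw [h1] at h2
    have h3 : ∑ x : Q, conj ((ψ : Q → ℂ) x) = 0 := by
      rw [← map_sum, ψ.2.sum_eq_zero (fun h => hψ (Subtype.ext h)), map_zero]
    have hc : ∀ x : Q, conj ((ψ : Q → ℂ) x) ∈ locRing M := fun x => char_mem ψ.2.isCharacter.conj x
    have h4 : red M (((Nat.card Q * n ψ : ℕ) : ℂ)) = 0 := by
      rw [Nat.cast_mul, h2, red_sum _ _ (fun x _ => mul_mem (irr_mem χ _) (hc x)),
        Finset.sum_congr rfl (fun x _ => by rw [red_mul (irr_mem χ _) (hc x), hred x]),
        ← Finset.mul_sum, ← red_sum _ _ (fun x _ => hc x), h3, red_zero, mul_zero]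
    exact ((Nat.Prime.dvd_mul hp.out).1 ((red_natCast_eq_zero_iff _).1 h4)).resolve_left hQp
  haveI : IsMulCommutative Q := by rw [hQ]; infer_instance
  have hsum : ∑ ψ, n ψ = charDegree (χ : G → ℂ) := by
    have := congrFun hn 1
    simp only [OneMemClass.coe_one, Finset.sum_apply, Pi.smul_apply, smul_eq_mul] at this
    rw [χ.2.apply_one_eq, Finset.sum_congr rfl
      (fun ψ _ => by rw [ψ.2.apply_one_of_comm, mul_one])] at this
    exact_mod_cast this.symm
  have hzero : ∀ ψ : IrrCharacter Q, ψ ≠ irrOne Q → n ψ = 0 := by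
    intro ψ hψ
    by_contra hne
    have hothers : ∀ φ, φ ≠ irrOne Q → φ ≠ ψ → n φ = 0 := by
      intro φ h1 h2
      by_contra hne'
      have h3 : n φ + n ψ ≤ ∑ ψ, n ψ := by
        rw [← Finset.sum_pair h2]
        exact Finset.sum_le_sum_of_subset (Finset.subset_univ _)
      have := Nat.le_of_dvd (Nat.pos_of_ne_zero hne) (hdvd ψ hψ)
      have := Nat.le_of_dvd (Nat.pos_of_ne_zero hne') (hdvd φ h1)
      omega
    have hnψ : n ψ = p := by
      obtain ⟨c, hc⟩ := hdvd ψ hψ
      have h3 : n ψ ≤ ∑ ψ, n ψ := Finset.single_le_sum (fun _ _ => Nat.zero_le _) (Finset.mem_univ ψ)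
      have h4 : c < 2 := by
        by_contra h5
        have : p * 2 ≤ p * c := Nat.mul_le_mul_left p (by omega)
        omega
      have h5 : c ≠ 0 := by rintro rfl; exact hne (by simpa using hc)
      rw [hc, show c = 1 by omega, mul_one]
    have hdet : ∀ x : Q, (ψ : Q → ℂ) x ^ p = 1 := by
      intro x
      have e1 := congrFun (detChar_restrict χ.2.isCharacter Q) x
      rw [hn, detChar_sum _ _ (fun φ _ => φ.2.isCharacter.natCast_smul _), Finset.prod_apply,
        Finset.prod_eq_single ψ] at e1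
      · rw [detChar_natCast_smul ψ.2.isCharacter, hnψ,
          detChar_of_apply_one ψ.2.isCharacter ψ.2.apply_one_of_comm, Pi.pow_apply] at e1
        rw [e1, ← detHom_apply]
        have : (x : G) ∈ (detHom (χ : G → ℂ)).ker :=
          Abelianization.commutator_subset_ker _ (by rw [hperf]; trivial)
        rw [MonoidHom.mem_ker.1 this, Units.val_one]
      · intro φ _ hφ
        rw [detChar_natCast_smul φ.2.isCharacter, Pi.pow_apply]
        by_cases h1 : φ = irrOne Q
        · rw [h1, coe_irrOne, detChar_one, one_pow]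
        · rw [hothers φ h1 hφ, pow_zero]
      · simp
    apply hψ
    apply Subtype.ext
    funext x
    obtain ⟨lam, hl⟩ := ψ.2.exists_hom_of_comm
    have h1 := hdet x
    have h2 := hom_apply_pow_card lam x
    rw [hl] at h1 ⊢
    have h3 := pow_gcd_eq_one.2 ⟨h1, h2⟩
    rwa [(Nat.Prime.coprime_iff_not_dvd hp.out).2 hQp, pow_one] at h3
  have e : ∀ x : Q, (χ : G → ℂ) x = n (irrOne Q) := by
    intro x
    have := congrFun hn x
    rw [this, Finset.sum_apply, Finset.sum_eq_single (irrOne Q) (fun φ _ h => by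
      rw [hzero φ h]; simp) (by simp)]
    simp [irrOne_apply]
  exact (e ⟨y, mem_zpowers y⟩).trans (e 1).symm

open Cfsg.Lib.Block Subgroup in

/-- Let p be a prime, M a maximal ideal of the algebraic integers containing p, G a finite perfect group and P a Sylow p-subgroup. If the principal p-block of G contains a faithful irreducible character of degree less than 2p, then the centralizer of P is a p-group. -/
theorem result {G : Type*} [Group G] [Finite G] (p : ℕ) [Fact p.Prime] (M : Ideal Cfsg.AlgInt) (hM : Cfsg.IsPModular p M) (hperf : commutator G = ⊤) (P : Sylow p G) (χ : Cfsg.IrrCharacter G) (hχ : χ ∈ Cfsg.principalBlock M G) (hfaith : ∀ g : G, (χ : G → ℂ) g = (χ : G → ℂ) 1 → g = 1) (hdeg : Cfsg.charDegree (χ : G → ℂ) < 2 * p) : IsPGroup p ↥(Subgroup.centralizer ((P : Subgroup G) : Set G)) := by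
  haveI : Modular p M := ⟨hM⟩
  have hp : p.Prime := Fact.out
  intro x
  set n := orderOf (x : G) with hn
  have hn0 : n ≠ 0 := (orderOf_pos _).ne'
  refine ⟨n.factorization p, Subtype.ext ?_⟩
  refine hfaith _ (key p M hperf P χ hχ hdeg (pow_mem x.2 _) ?_)
  rw [SubgroupClass.coe_pow, orderOf_pow_of_dvd (pow_ne_zero _ hp.ne_zero) (Nat.ordProj_dvd n p)]
  exact Nat.not_dvd_ordCompl hp hn0

end Cfsg.Agent.S4729
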