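import Cfsg.Statements.S4732
import Cfsg.Agent.Lib.CharDeg.Jordan

set_option autoImplicit false
universe u v
open Cfsg

namespace Cfsg.Agent.S4732

/-- Let p be a prime. There is a function f of two natural-number arguments such that every finite group G admitting a faithful representation of degree n over a field of characteristic p, with Sylow p-subgroups of order p^m, has a normal abelian subgroup A with [G : A] < f(m, n). -/
theorem result (p : ℕ) [Fact p.Prime] : ∃ f : ℕ → ℕ → ℕ, ∀ (G : Type u) [Group G] [Finite G] (F : Type v) [Field F] [CharP F p] (n : ℕ) (ρ : Representation F G (Fin n → F)), Function.Injective ρ → ∀ m : ℕ, (Nat.card G).factorization p = m → ∃ A : Subgroup G, A.Normal ∧ IsMulCommutative A ∧ A.index < f m n := by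
  have h := fun m n : ℕ => Cfsg.Lib.CharDeg.Jordan.exists_bound.{u, v, v} p (p ^ m) (n * n) (n * n)
  choose c hc using h
  refine ⟨fun m n => (c m n).factorial + 1, fun G _ _ F _ _ n ρ hρ m hm => ?_⟩
  have hD : Module.finrank F (Module.End F (Fin n → F)) ≤ n * n := by
    simp [Module.finrank_linearMap]
  obtain ⟨A, hA, hAi⟩ := hc m n G F (Module.End F (Fin n → F)) ρ hρ hD (fun P hP => by
    obtain ⟨Q, hQ⟩ := hP.exists_le_sylow
    rw [← hm, ← Q.card_eq_multiplicity]
    exact Subgroup.card_le_of_le hQ) ((Submodule.finrank_le _).trans hD)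
  refine ⟨A.normalCore, inferInstance, .of_setLike_mul_comm fun a ha b hb =>
    setLike_mul_comm (A.normalCore_le ha) (A.normalCore_le hb), Nat.lt_succ_of_le ?_⟩
  refine le_trans (Nat.le_of_dvd (Nat.factorial_pos _) ?_) (Nat.factorial_le hAi)
  rw [Subgroup.normalCore_eq_ker, Subgroup.index_ker, Subgroup.index_eq_card, ← Nat.card_perm]
  exact Subgroup.card_subgroup_dvd_card _

end Cfsg.Agent.S4732
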