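import Cfsg.Statements.S4955
import Cfsg.Agent.Lib.Clifford.Degree
import Cfsg.Agent.Lib.Clifford.PElt
import Cfsg.Agent.Lib.Char.Galois

set_option autoImplicit false
open Cfsg

namespace Cfsg.Agent.S4955

open Cfsg.Lib.Char Cfsg.Lib.Clifford in

/-- Let X be a finite group with an abelian normal Sylow p-subgroup V (a normal p-subgroup of index prime to p in which any two elements commute), and let G be a complement to V in X. Then for every v in V, writing C for the centralizer of v in G, the number k(X) of conjugacy classes of X satisfies k(X) ≤ (order of C)·(order of V) − ((order of G) − k(G)); the statement is written with the subtracted term moved to the left. In particular, if some v in V is centralized by no nonidentity element of G, then k(X) is at most the order of V. -/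
theorem result {X : Type*} [Group X] [Finite X] (p : ℕ) [Fact p.Prime] (V : Subgroup X) [V.Normal] (hVp : IsPGroup p V) (hidx : ¬ p ∣ V.index) (hab : ∀ a ∈ V, ∀ b ∈ V, a * b = b * a) (G : Subgroup X) (hGV : Subgroup.IsComplement' V G) (v : X) (hv : v ∈ V) : Nat.card (ConjClasses X) + Nat.card G ≤ Nat.card ↥(G ⊓ Subgroup.centralizer ({v} : Set X)) * Nat.card V + Nat.card (ConjClasses G) := by
  classical
  haveI := Fintype.ofFinite X
  haveI := Fintype.ofFinite V
  let π : X →* G := hGV.symm.QuotientMulEquiv.toMonoidHom.comp (QuotientGroup.mk' V)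
  have hπ : Function.Surjective π :=
    hGV.symm.QuotientMulEquiv.surjective.comp (QuotientGroup.mk'_surjective V)
  have hπV : ∀ g ∈ V, π g = 1 := fun g hg => by
    change hGV.symm.QuotientMulEquiv (g : X ⧸ V) = 1
    rw [(QuotientGroup.eq_one_iff g).2 hg, map_one]
  let ι : IrrCharacter G → IrrCharacter X := fun β => ⟨_, β.2.comp_surjective π hπ⟩
  have hι : Function.Injective ι := fun β γ h => Subtype.ext (funext fun g => by
    obtain ⟨x, rfl⟩ := hπ g
    exact congrFun (congrArg Subtype.val h) x)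
  set S := Finset.univ.filter (fun g : X => Subgroup.zpowers g = Subgroup.zpowers v) with hS
  have hSV : ∀ g ∈ S, g ∈ V := fun g hg =>
    (Subgroup.zpowers_le.2 hv) ((Finset.mem_filter.1 hg).2 ▸ Subgroup.mem_zpowers g)
  have hS0 : 0 < S.card := Finset.card_pos.2 ⟨v, by simp [hS]⟩
  have hcent : ∀ g ∈ S, Nat.card (Subgroup.centralizer ({g} : Set X)) =
      Nat.card ↥(G ⊓ Subgroup.centralizer ({v} : Set X)) * Nat.card V := by
    intro g hg
    rw [← Subgroup.centralizer_closure, ← Subgroup.zpowers_eq_closure, (Finset.mem_filter.1 hg).2,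
      Subgroup.zpowers_eq_closure, Subgroup.centralizer_closure, ← Nat.card_prod]
    refine (Nat.card_congr (Equiv.ofBijective
      (fun x : ↥(G ⊓ Subgroup.centralizer ({v} : Set X)) × V => ⟨x.2 * x.1, Subgroup.mul_mem _
        (Subgroup.mem_centralizer_singleton_iff.2 (hab _ x.2.2 v hv)) x.1.2.2⟩) ⟨?_, ?_⟩)).symm
    · rintro ⟨a, b⟩ ⟨c, d⟩ h
      have := hGV.1 (a₁ := (b, ⟨a, a.2.1⟩)) (a₂ := (d, ⟨c, c.2.1⟩)) (congrArg Subtype.val h)
      exact Prod.ext (Subtype.ext (congrArg (fun t => (t.2 : X)) this)) (congrArg Prod.fst this)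
    · rintro ⟨x, hx⟩
      obtain ⟨⟨b, a⟩, rfl⟩ := hGV.2 x
      exact ⟨(⟨a, a.2, (Subgroup.mul_mem_cancel_left _
        (Subgroup.mem_centralizer_singleton_iff.2 (hab _ b.2 v hv))).1 hx⟩, b), rfl⟩
  have h1 : ∑ χ : IrrCharacter X, ∑ g ∈ S, ‖(χ : X → ℂ) g‖ ^ 2 =
      (S.card : ℝ) * (Nat.card ↥(G ⊓ Subgroup.centralizer ({v} : Set X)) * Nat.card V : ℕ) := by
    rw [Finset.sum_comm, Finset.sum_congr rfl (fun g hg => by rw [sum_irr_norm_sq, hcent g hg]),
      Finset.sum_const, nsmul_eq_mul]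
  have h2 : ∀ χ : IrrCharacter X, (S.card : ℝ) ≤ ∑ g ∈ S, ‖(χ : X → ℂ) g‖ ^ 2 := by
    intro χ
    refine χ.2.isGeneralizedCharacter.card_le_sum_norm_sq S (fun k hk g hg => ?_) (fun g hg h0 => ?_)
    · rw [hS, Finset.mem_filter] at hg ⊢
      refine ⟨Finset.mem_univ _, Eq.trans (le_antisymm ?_ ?_) hg.2⟩
      · exact Subgroup.zpowers_le.2 (Subgroup.pow_mem _ (Subgroup.mem_zpowers g) k)
      · obtain ⟨m, hm⟩ := exists_pow_eq_self_of_coprime (hk.coprime_dvd_right (orderOf_dvd_natCard g))
        have := Subgroup.pow_mem _ (Subgroup.mem_zpowers (g ^ k)) m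
        rw [hm] at this
        exact Subgroup.zpowers_le.2 this
    · obtain ⟨k, hk⟩ := hVp ⟨g, hSV g hg⟩
      exact hidx ((dvd_charDegree_of_apply_eq_zero χ.2.isCharacter (congrArg Subtype.val hk) h0).trans
        (charDegree_dvd_index_of_comm V χ.2 hab))
  have h3 : ∑ χ ∈ Finset.univ.image ι, ∑ g ∈ S, ‖(χ : X → ℂ) g‖ ^ 2 = (S.card : ℝ) * Nat.card G := by
    rw [Finset.sum_image (fun a _ b _ h => hι h), ← sum_charDegree_sq G, Nat.cast_sum, Finset.mul_sum]
    refine Finset.sum_congr rfl fun β _ => ?_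
    rw [Finset.sum_congr rfl (g := fun _ => ((charDegree (β : G → ℂ) ^ 2 : ℕ) : ℝ)), Finset.sum_const,
      nsmul_eq_mul]
    intro g hg
    change ‖(β : G → ℂ) (π g)‖ ^ 2 = _
    rw [hπV g (hSV g hg), β.2.isCharacter.norm_apply_one, Nat.cast_pow]
  have h4 := Finset.card_nsmul_le_sum (Finset.univ.image ι)ᶜ _ _ (fun χ _ => h2 χ)
  rw [← Finset.sum_add_sum_compl (Finset.univ.image ι), h3] at h1
  have h5 := Finset.card_add_card_compl (Finset.univ.image ι)
  rw [Finset.card_image_of_injective _ hι, Finset.card_univ, ← Nat.card_eq_fintype_card,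
    ← Nat.card_eq_fintype_card, card_irr_eq_card_conjClasses, card_irr_eq_card_conjClasses] at h5
  have h6 : (S.card : ℝ) * ((Nat.card G : ℕ) + ((Finset.univ.image ι)ᶜ).card) ≤
      (S.card : ℝ) * (Nat.card ↥(G ⊓ Subgroup.centralizer ({v} : Set X)) * Nat.card V : ℕ) := by
    rw [← h1, mul_add]
    rw [nsmul_eq_mul, mul_comm] at h4
    linarith
  have h7 := le_of_mul_le_mul_left h6 (by exact_mod_cast hS0)
  have h8 : Nat.card G + ((Finset.univ.image ι)ᶜ).card ≤
      Nat.card ↥(G ⊓ Subgroup.centralizer ({v} : Set X)) * Nat.card V := by exact_mod_cast h7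
  omega

end Cfsg.Agent.S4955
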