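import Cfsg.Statements.S4956
import Cfsg.Agent.Lib.Coprime.SZ

set_option autoImplicit false
open Cfsg

namespace Cfsg.Agent.S4956

/-- Let X be a finite group, V an abelian normal subgroup of X (any two elements of V commute) and G a complement to V in X whose order is coprime to that of V. Let S be a set of representatives of the orbits of G on V under conjugation: S lies in V and every element of V is conjugate under G to exactly one member of S. Then the number of conjugacy classes of X equals the sum, over s in S, of the number of conjugacy classes of the centralizer of s in G. -/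
theorem result {X : Type*} [Group X] [Finite X] (V : Subgroup X) [V.Normal] (hab : ∀ a ∈ V, ∀ b ∈ V, a * b = b * a) (G : Subgroup X) (hGV : Subgroup.IsComplement' V G) (hcop : (Nat.card V).Coprime (Nat.card G)) (S : Finset X) (hSV : ∀ s ∈ S, s ∈ V) (hrep : ∀ v ∈ V, ∃! s, s ∈ S ∧ ∃ g ∈ G, g * v * g⁻¹ = s) : Nat.card (ConjClasses X) = ∑ s ∈ S, Nat.card (ConjClasses ↥(G ⊓ Subgroup.centralizer ({s} : Set X))) := by
  classical
  have hVn : V.Normal := inferInstance
  obtain ⟨m, hm1, hm0⟩ := Nat.chineseRemainder hcop 1 0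
  have hV : ∀ v ∈ V, v ^ m = v := fun v hv => by
    have := pow_eq_pow_of_modEq hm1 (pow_card_eq_one' (x := (⟨v, hv⟩ : V)))
    rw [pow_one] at this
    exact congrArg Subtype.val this
  have hG : ∀ v ∈ G, v ^ m = 1 := fun v hv => by
    have := pow_eq_pow_of_modEq hm0 (pow_card_eq_one' (x := (⟨v, hv⟩ : G)))
    rw [pow_zero] at this
    exact congrArg Subtype.val this
  have hpow : ∀ s ∈ V, ∀ c ∈ G, c * s = s * c → (s * c) ^ m = s := fun s hs c hc h => by
    rw [Commute.mul_pow h.symm, hV s hs, hG c hc, mul_one]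
  rw [← Finset.sum_coe_sort, ← Nat.card_sigma]
  symm
  refine Nat.card_congr (Equiv.ofBijective (fun x => Quotient.lift
    (fun c : ↥(G ⊓ Subgroup.centralizer ({(x.1 : X)} : Set X)) => ConjClasses.mk ((x.1 : X) * c))
      (fun a b h => ?_) x.2) ⟨?_, ?_⟩)
  · obtain ⟨c, rfl⟩ := isConj_iff.1 h
    refine ConjClasses.mk_eq_mk_iff_isConj.2 (isConj_iff.2 ⟨c, ?_⟩)
    have := Subgroup.mem_centralizer_singleton_iff.1 c.2.2
    rw [← mul_assoc, this]
    simp [mul_assoc]
  · rintro ⟨⟨s, hs⟩, ⟨a, ha⟩⟩ ⟨⟨t, ht⟩, ⟨b, hb⟩⟩ h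
    obtain ⟨x, hx⟩ := isConj_iff.1 (ConjClasses.mk_eq_mk_iff_isConj.1 h)
    change x * (s * a) * x⁻¹ = t * b at hx
    have ha' := Subgroup.mem_centralizer_singleton_iff.1 ha.2
    have hb' := Subgroup.mem_centralizer_singleton_iff.1 hb.2
    have h1 : x * s * x⁻¹ = t := by
      rw [← hpow s (hSV s hs) a ha.1 ha', ← hpow t (hSV t ht) b hb.1 hb', ← hx, conj_pow]
    have h2 : x * a * x⁻¹ = b := by
      have : x * (s * a) * x⁻¹ = (x * s * x⁻¹) * (x * a * x⁻¹) := by group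
      rw [this, h1] at hx
      exact mul_left_cancel hx
    obtain ⟨⟨⟨v, hv⟩, ⟨g, hg⟩⟩, rfl⟩ := hGV.2 x
    simp only at h1 h2
    have h3 : g * s * g⁻¹ = t := by
      have := hab v hv _ (hVn.conj_mem s (hSV s hs) g)
      rw [← h1]
      calc g * s * g⁻¹ = v * (g * s * g⁻¹) * v⁻¹ := by rw [this]; group
        _ = _ := by group
    obtain rfl : s = t := (hrep s (hSV s hs)).unique ⟨hs, 1, G.one_mem, by simp⟩ ⟨ht, g, hg, h3⟩
    have h4 : g * a * g⁻¹ = b := by
      have h5 : (g * a * g⁻¹) * b⁻¹ ∈ V := by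
        have : (g * a * g⁻¹) * b⁻¹ = v⁻¹ * (b * v * b⁻¹) := by rw [← h2]; group
        rw [this]
        exact V.mul_mem (V.inv_mem hv) (hVn.conj_mem v hv b)
      have h6 : (g * a * g⁻¹) * b⁻¹ ∈ G :=
        G.mul_mem (G.mul_mem (G.mul_mem hg ha.1) (G.inv_mem hg)) (G.inv_mem hb.1)
      exact mul_inv_eq_one.1 (Subgroup.disjoint_def.1 hGV.disjoint h5 h6)
    congr 1
    refine Quotient.sound (isConj_iff.2 ⟨⟨g, hg, ?_⟩, Subtype.ext h4⟩)
    exact Subgroup.mem_centralizer_singleton_iff.2 (mul_inv_eq_iff_eq_mul.1 h3)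
  · intro C
    obtain ⟨x, rfl⟩ := ConjClasses.mk_surjective C
    have hx : x ^ m ∈ V := by
      obtain ⟨k, hk⟩ := (Nat.modEq_zero_iff_dvd).1 hm0
      rw [hk, ← hGV.symm.index_eq_card, pow_mul]
      exact V.pow_mem (V.pow_index_mem x) k
    have hc : Commute (x ^ m)⁻¹ x := (Commute.self_pow x m).symm.inv_left
    have hb : ((x ^ m)⁻¹ * x) ^ m = 1 := by
      rw [hc.mul_pow, hV _ (V.inv_mem hx), inv_mul_cancel]
    have hcop' : (Nat.card (Subgroup.zpowers ((x ^ m)⁻¹ * x))).Coprime (Nat.card V) := by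
      rw [Nat.card_zpowers]
      exact (Nat.coprime_of_mul_modEq_one 1 (by rwa [mul_one])).coprime_dvd_left
        (orderOf_dvd_of_pow_eq_one hb)
    obtain ⟨n, hn, h1⟩ := Cfsg.Lib.Coprime.exists_conj_mem_of_le_sup (N := V) (A := G)
      (B := Subgroup.zpowers ((x ^ m)⁻¹ * x)) (le_top.trans (Subgroup.normalizer_eq_top V).ge)
      (le_top.trans hGV.sup_eq_top.ge) hcop' (Or.inl inferInstance)
    have h2 := h1 _ (Subgroup.mem_zpowers _)
    obtain ⟨s, ⟨hs, g, hg, h3⟩, -⟩ := hrep _ hx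
    have h4 : n⁻¹ * x ^ m * n = x ^ m := by rw [hab _ (V.inv_mem hn) _ hx]; group
    refine ⟨⟨⟨s, hs⟩, ConjClasses.mk ⟨g * (n⁻¹ * ((x ^ m)⁻¹ * x) * n) * g⁻¹,
      G.mul_mem (G.mul_mem hg h2) (G.inv_mem hg), ?_⟩⟩, ?_⟩
    · refine Subgroup.mem_centralizer_singleton_iff.2 ?_
      change _ * s = s * _
      have h5 : s = g * (n⁻¹ * x ^ m * n) * g⁻¹ := by rw [h4, h3]
      rw [h5]
      group
    · refine ConjClasses.mk_eq_mk_iff_isConj.2 (isConj_iff.2 ⟨n * g⁻¹, ?_⟩)
      change n * g⁻¹ * (s * (g * (n⁻¹ * ((x ^ m)⁻¹ * x) * n) * g⁻¹)) * (n * g⁻¹)⁻¹ = x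
      have h5 : s = g * (n⁻¹ * x ^ m * n) * g⁻¹ := by rw [h4, h3]
      rw [h5]
      group

end Cfsg.Agent.S4956
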