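import Cfsg.Statements.S4957
import Cfsg.Agent.Lib.KT.Main

set_option autoImplicit false
open Cfsg

namespace Cfsg.Agent.S4957

/-- Let X be a finite group and V a normal subgroup of X in which every element has order dividing the prime p, whose index in X is prime to p and which is its own centralizer in X; so V is an elementary abelian normal Sylow p-subgroup, and any complement G to V in X is a group of order prime to p acting faithfully on the vector space V by conjugation (the coprime linear setting of the k(GV) problem). Suppose a complement G to V in X is transitive by conjugation on the nonidentity elements of V. Then X has at most (order of V) conjugacy classes, and if equality holds then G is cyclic (hence, being transitive, a Singer cycle), or V has order 8 and G has order 21 (the nonabelian group of order 21 inside the simple group of order 168), or V has order 9 and G has order 16 (a semidihedral Sylow 2-subgroup of the 2-dimensional general linear group over the field with 3 elements). -/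
theorem result {X : Type*} [Group X] [Finite X] (p : ℕ) [Fact p.Prime] (V : Subgroup X) [V.Normal] (hVexp : ∀ v ∈ V, v ^ p = 1) (hidx : ¬ p ∣ V.index) (hself : Subgroup.centralizer (V : Set X) = V) (G : Subgroup X) (hGV : Subgroup.IsComplement' V G) (htrans : ∀ v ∈ V, ∀ w ∈ V, v ≠ 1 → w ≠ 1 → ∃ g ∈ G, g * v * g⁻¹ = w) : Nat.card (ConjClasses X) ≤ Nat.card V ∧ (Nat.card (ConjClasses X) = Nat.card V → (IsCyclic G ∨ (Nat.card V = 8 ∧ Nat.card G = 21) ∨ (Nat.card V = 9 ∧ Nat.card G = 16))) := by
  have hp : p.Prime := Fact.out
  have hV : IsElementaryAbelian p V := ⟨Subgroup.le_centralizer_iff_isMulCommutative.1 hself.ge, hVexp⟩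
  have hc : ¬ p ∣ Nat.card G := hGV.symm.index_eq_card ▸ hidx
  have hf : G ⊓ Subgroup.centralizer (V : Set X) = ⊥ := by rw [hself, inf_comm, hGV.disjoint.eq_bot]
  by_cases h0 : V = ⊥
  · subst h0
    have h1 : G = ⊥ := le_bot_iff.1 (hf ▸ le_inf le_rfl (Subgroup.le_centralizer_iff.1 bot_le))
    have h2 := hGV.card_mul
    have h3 := Lib.KT.kk_le_card X
    subst h1
    rw [Subgroup.card_bot] at h2 ⊢
    exact ⟨by simp only [Lib.KT.kk] at h3; omega, fun _ => .inl inferInstance⟩
  obtain ⟨n, hn⟩ := Lib.PGroup.elemAb_card hV
  have L : Lib.KT.St p n V G := ⟨hV, hn, Nat.pos_of_ne_zero (by rintro rfl; exact h0 (Subgroup.card_eq_one.1 hn)),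
    Subgroup.le_normalizer_of_normal, hf, hc, htrans⟩
  obtain ⟨⟨v, hv⟩, h1⟩ := Subgroup.ne_bot_iff_exists_ne_one.1 h0
  replace h1 : v ≠ 1 := fun e => h1 (Subtype.ext e)
  have h2 := Lib.KT.kk_le_add hp hV hGV hc hv fun w hw hw1 => htrans w hw v hv hw1 h1
  have h3 := Lib.KT.kk_le_card ↥(G ⊓ Subgroup.centralizer {v})
  obtain ⟨h4, h5⟩ := L.bound hv h1
  rw [hn]
  simp only [Lib.KT.kk] at h2 h3 h4 h5
  exact ⟨by omega, fun e => h5 (by omega)⟩

end Cfsg.Agent.S4957
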