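import Cfsg.Statements.S4958
import Cfsg.Agent.Lib.KGV.Gauss

set_option autoImplicit false
open Cfsg

namespace Cfsg.Agent.S4958

open Cfsg.Lib Cfsg.Lib.KGV Subgroup

/-- Let X be a finite group and V a normal subgroup of X in which every element has order dividing the prime p, whose index in X is prime to p and which is its own centralizer in X; so V is an elementary abelian normal Sylow p-subgroup, and any complement G to V in X is a group of order prime to p acting faithfully on the vector space V by conjugation (the coprime linear setting of the k(GV) problem). Let G be a complement to V in X and suppose that for some v in V the centralizer of v in G is abelian. Then the number of conjugacy classes of X is at most the order of V (the abelian-stabilizer criterion for the k(GV) problem). -/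
theorem result {X : Type*} [Group X] [Finite X] (p : ℕ) [Fact p.Prime] (V : Subgroup X) [V.Normal] (hVexp : ∀ v ∈ V, v ^ p = 1) (hidx : ¬ p ∣ V.index) (hself : Subgroup.centralizer (V : Set X) = V) (G : Subgroup X) (hGV : Subgroup.IsComplement' V G) (v : X) (hv : v ∈ V) (hab : ∀ a ∈ G ⊓ Subgroup.centralizer ({v} : Set X), ∀ b ∈ G ⊓ Subgroup.centralizer ({v} : Set X), a * b = b * a) : Nat.card (ConjClasses X) ≤ Nat.card V := by
  classical
  haveI := Fintype.ofFinite X
  have hV : ∀ a ∈ V, ∀ b ∈ V, a * b = b * a := fun a ha _ hb => (hself.ge hb) a ha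
  obtain ⟨e⟩ := PLocal.nonempty_elemAbCoord (p := p) (V := V) ⟨⟨⟨fun a b => Subtype.ext (hV _ a.2 _ b.2)⟩⟩, hVexp⟩
  obtain ⟨F, _, _, ⟨f⟩⟩ := Clifford.exists_ringHom_charP p
  have hC : G ⊓ centralizer {v} ≤ normalizer (V : Set X) := le_top.trans (normalizer_eq_top V).ge
  refine crit hidx hV hGV hv (hVexp v hv) (f := f) (good_comm (fun a b => Subtype.ext (hab _ a.2 _ b.2))
    (fun h => hidx (hGV.symm.index_eq_card ▸ h.trans (card_dvd_of_le inf_le_left))) _ (rep e hC) rfl)
    (fun c hc => Subtype.ext (disjoint_def.1 hGV.disjoint (hself.le fun u hu => ?_) c.2.1))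
    fun c => (dl_rep e hC c).le
  obtain ⟨w, rfl⟩ := (e.mem_iff u).1 hu
  have := e_rep e hC c w
  rw [(dl_eq_one _).1 hc] at this
  exact (eq_mul_inv_iff_mul_eq.1 this)

end Cfsg.Agent.S4958
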