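import Cfsg.Statements.S4964
import Cfsg.Agent.Lib.Block.Constr

set_option autoImplicit false
open Cfsg

namespace Cfsg.Agent.S4964

open Cfsg.Lib.Block Cfsg.Lib.Char Cfsg.Lib.Transfer MonoidAlgebra Subgroup

/-- Let D be a normal p-subgroup of the finite group G, let D′ be its commutator subgroup (normal in G), and fix a maximal ideal M of the algebraic integers containing p. Then (i) two irreducible characters of G ⧸ D′ lie in the same p-block if and only if their inflations to G do, and (ii) every p-block of G contains the inflation of some irreducible character of G ⧸ D′; so inflation induces a bijection between the p-blocks of G ⧸ D′ and the p-blocks of G. -/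
theorem result {G : Type*} [Group G] [Finite G] (p : ℕ) [Fact p.Prime] (M : Ideal Cfsg.AlgInt) (hM : Cfsg.IsPModular p M) (D : Subgroup G) [D.Normal] (hD : IsPGroup p D) : (∀ χ ψ : Cfsg.IrrCharacter (G ⧸ ⁅D, D⁆), Cfsg.SameBlock M (χ : G ⧸ ⁅D, D⁆ → ℂ) (ψ : G ⧸ ⁅D, D⁆ → ℂ) ↔ Cfsg.SameBlock M ((χ : G ⧸ ⁅D, D⁆ → ℂ) ∘ QuotientGroup.mk) ((ψ : G ⧸ ⁅D, D⁆ → ℂ) ∘ QuotientGroup.mk)) ∧ ∀ B : Set (Cfsg.IrrCharacter G), Cfsg.IsPBlock M B → ∃ χ : Cfsg.IrrCharacter (G ⧸ ⁅D, D⁆), ∃ θ ∈ B, (θ : G → ℂ) = (χ : G ⧸ ⁅D, D⁆ → ℂ) ∘ QuotientGroup.mk := by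
  have : Modular p M := ⟨hM⟩
  have hφ := QuotientGroup.mk'_surjective ⁅D, D⁆
  have hk : IsPGroup p (QuotientGroup.mk' ⁅D, D⁆).ker := by
    rw [QuotientGroup.ker_mk']; exact hD.to_le (commutator_le_left D D)
  have hc : ∀ x, ¬ p ∣ orderOf x → QuotientGroup.mk' ⁅D, D⁆ x ∈
      centralizer (D.map (QuotientGroup.mk' ⁅D, D⁆) : Set _) →
        x ∈ centralizer ((QuotientGroup.mk' ⁅D, D⁆).ker : Set G) := fun x hx h => by
    have h1 := mem_centralizer_of_map_mem hD (QuotientGroup.ker_mk' _).le hx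
      (normalizer_eq_top D ▸ mem_top x) h
    rw [QuotientGroup.ker_mk']
    exact centralizer_le (commutator_le_left D D) h1
  refine ⟨fun χ ψ => ⟨fun h => sameBlock_infl hφ h, fun h => ?_⟩, fun B hB => ?_⟩
  · have h1 := (isPBlock_blockOf (M := M) (infl _ hφ χ)).preimage_infl_of_normal hφ hk hD hc
    exact h1.sameBlock (mem_blockOf_self _) h
  · obtain ⟨χ, h⟩ := hB.preimage_infl_nonempty hφ hk
    exact ⟨χ, _, h, rfl⟩

end Cfsg.Agent.S4964
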