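import Cfsg.Statements.S4967
import Cfsg.Agent.Lib.GLC.RealOrd
import Cfsg.Agent.Lib.GLC.SelfDual

set_option autoImplicit false
open Cfsg

namespace Cfsg.Agent.S4967

open Module Polynomial Lib.GLC Lib.Symp


/-- Let F be a finite field with r elements and of characteristic p, H a finite abelian group of order prime to p, and V a faithful irreducible representation of H over F of dimension n (faithful: distinct elements act differently; irreducible: the only H-invariant subspaces are 0 and V). Call V self-dual when it carries a nondegenerate H-invariant bilinear form. If n = 1 and V is self-dual then H has order at most 2. If n ≥ 2 then V is self-dual if and only if n is even and the order of H divides r^(n/2) + 1. -/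
theorem result {F : Type*} [Field F] [Fintype F] (p : ℕ) [Fact p.Prime] [CharP F p] {H : Type*} [CommGroup H] [Finite H] (hcop : ¬ p ∣ Nat.card H) {V : Type*} [AddCommGroup V] [Module F V] [FiniteDimensional F V] (ρ : Representation F H V) (hfaith : Function.Injective ρ) (hirr : ∀ U : Submodule F V, (∀ h : H, ∀ u ∈ U, ρ h u ∈ U) → U = ⊥ ∨ U = ⊤) : (Module.finrank F V = 1 → (∃ B : LinearMap.BilinForm F V, B.Nondegenerate ∧ ∀ h : H, ∀ x y : V, B (ρ h x) (ρ h y) = B x y) → Nat.card H ≤ 2) ∧ (2 ≤ Module.finrank F V → ((∃ B : LinearMap.BilinForm F V, B.Nondegenerate ∧ ∀ h : H, ∀ x y : V, B (ρ h x) (ρ h y) = B x y) ↔ (Even (Module.finrank F V) ∧ Nat.card H ∣ Fintype.card F ^ (Module.finrank F V / 2) + 1))) := by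
  have key : 1 ≤ finrank F V → ∃ (g : H) (φ : F[X]), (∀ x, x ∈ Submonoid.powers g) ∧ φ.Monic ∧ Irreducible φ ∧
      Blocks (ρ g) {φ} ∧ φ.coeff 0 ≠ 0 ∧ φ.natDegree = finrank F V ∧ (∀ m, Nat.card H ∣ m ↔ φ ∣ X ^ m - 1) ∧
      ((∃ B : LinearMap.BilinForm F V, B.Nondegenerate ∧ ∀ h : H, ∀ x y : V, B (ρ h x) (ρ h y) = B x y) →
        rdual φ = φ) := fun h1 => by
    haveI : Nontrivial V := Module.nontrivial_of_finrank_pos (R := F) h1
    have hc : ∀ a ∈ Set.range ρ, ∀ b ∈ Set.range ρ, a * b = b * a := by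
      rintro _ ⟨a, rfl⟩ _ ⟨b, rfl⟩; rw [← map_mul, ← map_mul, mul_comm]
    letI := Algebra.adjoinCommRingOfComm F hc
    haveI : NoZeroDivisors (Algebra.adjoin F (Set.range ρ)) := ⟨fun {a b} hab => by
      rcases hirr (LinearMap.ker a.1) (fun h u hu => by
        have : a.1 * ρ h = ρ h * a.1 := congrArg Subtype.val (mul_comm a ⟨ρ h, Algebra.subset_adjoin ⟨h, rfl⟩⟩)
        rw [LinearMap.mem_ker] at hu ⊢
        rw [← End.mul_apply, this, End.mul_apply, hu, map_zero]) with h | h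
      · refine Or.inr (Subtype.ext (LinearMap.ext fun v => LinearMap.ker_eq_bot.1 h ?_))
        simpa using congrArg (fun c : Algebra.adjoin F (Set.range ρ) => c.1 v) hab
      · exact Or.inl (Subtype.ext (LinearMap.ker_eq_top.1 h))⟩
    haveI : IsDomain (Algebra.adjoin F (Set.range ρ)) := NoZeroDivisors.to_isDomain _
    haveI : IsCyclic H := isCyclic_of_injective_ringHom
      (MonoidHom.codRestrict ρ (Algebra.adjoin F (Set.range ρ)) fun h => Algebra.subset_adjoin ⟨h, rfl⟩)
      fun a b e => hfaith (congrArg Subtype.val e)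
    obtain ⟨g, hg⟩ := IsCyclic.exists_monoid_generator (α := H)
    have h2 : ∀ U : Submodule F V, (∀ u ∈ U, ρ g u ∈ U) → U = ⊥ ∨ U = ⊤ := fun U hU => hirr U fun h u hu => by
      obtain ⟨k, rfl⟩ := hg h
      simp only [map_pow]
      exact End.pow_apply_mem_of_forall_mem k hU u hu
    have h3 : End.IsSemisimple (ρ g) := End.isSemisimple_iff.2 fun U hU => by
      rcases h2 U hU with rfl | rfl
      · exact ⟨⊤, by simp, isCompl_bot_top⟩
      · exact ⟨⊥, by simp, isCompl_top_bot⟩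
    have hb := blocks_typ (ρ g)
    obtain ⟨φ, hφ⟩ := Multiset.exists_mem_of_ne_zero (s := typ (ρ g)) fun e => by
      have := hb.finrank_eq; simp [e] at this; omega
    have h4 : finrank F V ≤ φ.natDegree := by
      obtain ⟨ν, e⟩ := Multiset.exists_cons_of_mem hφ
      rw [e, ← Multiset.singleton_add] at hb
      obtain ⟨A, B, hA, hB, -, h5, -⟩ := hb.exists_isCompl
      have h6 := h5.finrank_eq
      have h7 := (typ_pp _ _ hφ).natDegree_pos
      rcases h2 A hA with rfl | rfl <;> simp at h6 <;> omega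
    have h5 := eq_singleton_of_le hb (typ_pp _) hφ h4
    have hu : IsUnit (ρ g) := (Group.isUnit g).map ρ
    have h6 := hb.isUnit_iff.1 hu _ hφ
    rw [h5] at hb
    refine ⟨g, φ, hg, (typ_pp _ _ hφ).monic, isSemisimple_iff_typ.1 h3 _ hφ, hb, h6, by simpa using hb.finrank_eq.symm,
      fun m => ?_, fun ⟨B, hB, h⟩ => by simpa [h5] using (cl_typ_of_form hB hu (h g)).2⟩
    rw [← orderOf_eq_card_of_forall_mem_powers hg, ← orderOf_injective ρ hfaith, orderOf_dvd_iff_pow_eq_one,
      hb.pow_eq_one_iff]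
    simp
  refine ⟨fun h1 hB => ?_, fun h1 => ?_⟩
  · obtain ⟨g, φ, -, h2, h3, -, h4, h5, h6, h7⟩ := key h1.ge
    refine Nat.le_of_dvd two_pos ((h6 2).2 ((dvd_sq_sub_one_iff h2 h3).2 ?_))
    by_contra! h
    have := (even_of_rdual_eq h2 (h7 hB) h4 (fun e => h.1 (eq_X_sub_C_of_root h2 h3 e))
      (fun e => h.2 (eq_X_sub_C_of_root h2 h3 e))).2
    simp [h5, h1] at this
  obtain ⟨g, φ, hg, h2, h3, hb, h4, h5, h6, h7⟩ := key (by omega)
  have h8 := fun h => even_of_rdual_eq h2 h h4 (eval_ne_zero_of_two_le h3 (by omega) _)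
    (eval_ne_zero_of_two_le h3 (by omega) _)
  rw [h6, ← Nat.card_eq_fintype_card, ← h5]
  refine ⟨fun hB => ⟨(h8 (h7 hB)).2, dvd_of_rdual_eq h2 h3 h4 (h7 hB) ?_⟩, fun ⟨h9, h10⟩ => ?_⟩
  · have := (h8 (h7 hB)).2
    grind
  have h11 := rdual_eq_of_dvd h2 h3 h10
  obtain ⟨B, hB⟩ := exists_spE_cyc h2 (h8 h11).1 h11 h9
  obtain ⟨e, he⟩ := hb.sim (blocks_cyc h2)
  have h12 : SpE (B.comp e e) (ρ g) := ISim.spE ⟨e, fun _ _ => rfl, he⟩ hB
  refine ⟨_, h12.nd, fun h => ?_⟩
  obtain ⟨k, rfl⟩ := hg h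
  simpa only [map_pow] using (h12.pow k).inv

end Cfsg.Agent.S4967
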