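import Cfsg.Statements.S5010
import Cfsg.Agent.Lib.CharDeg.VanP
import Cfsg.Agent.Lib.CharDeg.TwoDeg
import Cfsg.Agent.Lib.Solv.System
import Cfsg.Agent.Lib.Core.Frattini
import Cfsg.Agent.S0574

set_option autoImplicit false
open Cfsg

namespace Cfsg.Agent.S5010

open Subgroup Cfsg.Lib.BG Cfsg.Lib.Core Cfsg.Lib.Char Cfsg.Lib.Clifford Cfsg.Lib.Induce
  Cfsg.Lib.CharDeg Cfsg.Lib
open scoped commutatorElement

theorem dvd_of_sqf {p k : ℕ} (hp : p.Prime) (h : Squarefree (p ^ k)) : p ^ k ∣ p := by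
  rcases k with _ | _ | k
  · simp
  · simp
  · exact absurd (h p ⟨p ^ k, by ring⟩) (by simpa using hp.one_lt.ne')

theorem core {Γ B : Type*} [CommGroup Γ] [Group B] [Finite B] {p : ℕ} [hp : Fact p.Prime]
    (hB : IsPGroup p B) (φ : B →* MulAut Γ) (hφ : ∀ b, φ b = 1 → b = 1)
    (h : ∀ (b : B) (c : Γ), c ^ orderOf b = 1 → c = 1)
    (ho : ∀ γ : Γ, Squarefree ((MulAction.stabilizer (MulAut Γ) γ).comap φ).index) :
    Nat.card B ∣ p := by
  have h1 : ∀ γ : Γ, ((MulAction.stabilizer (MulAut Γ) γ).comap φ).index ∣ p := fun γ => by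
    obtain ⟨k, hk⟩ := hB.index ((MulAction.stabilizer (MulAut Γ) γ).comap φ)
    rw [hk]
    exact dvd_of_sqf hp.out (hk ▸ ho γ)
  have h2 : ∀ γ : Γ, _root_.commutator B ≤ (MulAction.stabilizer (MulAut Γ) γ).comap φ :=
    fun γ => by
    rcases (Nat.dvd_prime hp.out).1 (h1 γ) with e | e
    · rw [index_eq_one.1 e]; exact le_top
    · haveI := PGroup.normal_of_index_eq hB e
      exact PGroup.commutator_le_of_index_prime _ e
  obtain ⟨γ, hγ⟩ := VanP.exists_reg φ (fun a b => by
    have : φ ⁅a, b⁆ = 1 := MulEquiv.ext fun γ =>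
      h2 γ (commutator_mem_commutator (mem_top a) (mem_top b))
    rwa [map_commutatorElement, commutatorElement_eq_one_iff_mul_comm] at this) h
  have : (MulAction.stabilizer (MulAut Γ) γ).comap φ = ⊥ :=
    eq_bot_iff.2 fun b hb => hφ b (hγ b hb)
  simpa [this] using h1 γ

variable {G : Type*} [Group G] [Finite G]

/-- All degrees are squarefree. -/
def SF (G : Type*) [Group G] [Finite G] : Prop := ∀ n ∈ cd G, Squarefree n

theorem SF.quot (h : SF G) (N : Subgroup G) [N.Normal] : SF (G ⧸ N) :=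
  fun n hn => h n (cd_quotient_subset N hn)

theorem SF.sub (h : SF G) (N : Subgroup G) [N.Normal] : SF N := fun n hn => by
  obtain ⟨k, -, hk⟩ := exists_mem_cd_of_normal N hn
  exact (h _ hk).squarefree_of_dvd (Dvd.intro_left _ rfl)

theorem SF.inertia (h : SF G) (N : Subgroup G) [N.Normal] {θ : N → ℂ} (hθ : IsIrrCharacter N θ) :
    Squarefree (inertia N θ).index := by
  haveI := Fintype.ofFinite N
  haveI := Fintype.ofFinite G
  obtain ⟨χ, h2, h3⟩ := exists_irr_above N hθ
  obtain ⟨η, h4, e, -⟩ := exists_indFun_eq_of_over N (le_inertia N hθ.isClassFunction) hθ le_rfl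
    h2 h3
  refine (h _ (charDegree_mem_cd h2)).squarefree_of_dvd ?_
  rw [← e, charDegree_indFun' _ h4.isCharacter]
  exact Dvd.intro _ rfl

theorem SF.nil (h : SF G) [Group.IsNilpotent G] : derivedSeries G 2 = ⊥ := by
  rw [← card_eq_one, Nat.eq_one_iff_not_exists_prime_dvd]
  intro p hp
  haveI := Fact.mk hp
  have h1 : derivedSeries (G ⧸ pPrimeCore p G) 2 = ⊥ :=
    derivedSeries_two_eq_bot_of_cd (m := p) fun n hn => by
      obtain ⟨k, rfl⟩ := exists_eq_pow_of_mem_cd hp (isPGroup_quotient_pPrimeCore p) hn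
      exact (Nat.dvd_prime hp).1 (dvd_of_sqf hp (h.quot _ _ hn))
  have h2 : derivedSeries G 2 ≤ pPrimeCore p G := by
    rw [← map_mk'_eq_bot_iff, map_derivedSeries_eq (QuotientGroup.mk'_surjective _), h1]
  exact coprime_iff_not_dvd.1 (coprime_of_le h2 (pPrimeCore_coprime p G))

theorem SF.card_dvd (h : SF G) (hF : IsMulCommutative (fittingSubgroup G)) (p : ℕ)
    [hp : Fact p.Prime] : Nat.card (pCore p (G ⧸ fittingSubgroup G)) ∣ p := by
  set F := fittingSubgroup G
  set B := pCore p (G ⧸ F)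
  set V := F ⊓ pPrimeCore p G
  have hV : IsMulCommutative V := abelian_of_le hF inf_le_left
  have hV' : PiGrp {p}ᶜ V := PiGrp.p'_iff.2 (coprime_iff_not_dvd.1
    (coprime_of_le inf_le_right (pPrimeCore_coprime p G)))
  have hB' : IsPGroup p B := pCore_isPGroup p _
  have hs := QuotientGroup.mk'_surjective F
  obtain ⟨ψ, hψ⟩ : ∃ ψ : G ⧸ F →* MulAut V, ∀ g : G, ψ g = MulAut.conjNormal g :=
    ⟨QuotientGroup.lift F MulAut.conjNormal fun g hg => MulEquiv.ext fun v => Subtype.ext (by
      simp [le_cent_iff.1 (abelian_cent hF) g hg v v.2.1]), fun _ => rfl⟩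
  let φ : B →* MulAut (V →* ℂˣ) :=
    { toFun := fun b => (ψ b).monoidHomCongrLeft
      map_one' := by ext; simp [MulAut.one_def]
      map_mul' := fun a b => by ext; simp [MulAut.mul_def] }
  refine core (Γ := V →* ℂˣ) hB' φ ?_ (fun (b : B) c hc =>
    (pow_eq_one_iff_of_coprime (((PiGrp.p_iff.2 hB').elt b.2).coprime hV')).1 ⟨by simpa using hc,
      MonoidHom.ext fun v => by rw [MonoidHom.pow_apply, ← map_pow, pow_card_eq_one', map_one]; rfl⟩)
    fun l => ?_
  · rintro ⟨b, hb⟩ h5
    obtain ⟨x, rfl⟩ := hs b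
    have hx : x ∈ 𝐂(V) := inv_mem_iff.1 (mem_cent.2 fun v hv => by
      letI : CommGroup V := { mul_comm := hV.1.1 }
      have h7 : (ψ (x : G)).symm ⟨v, hv⟩ = ⟨v, hv⟩ :=
        (CommGroup.forall_apply_eq_apply_iff (M := ℂ) V).1 fun m =>
          DFunLike.congr_fun (DFunLike.congr_fun h5 m) ⟨v, hv⟩
      rw [hψ] at h7
      have h8 : _ * v * _ = v := congrArg Subtype.val h7
      exact (mul_inv_eq_iff_eq_mul.1 h8).symm)
    set C := B.comap (QuotientGroup.mk' F) ⊓ 𝐂(V)
    have h2 : Group.IsNilpotent C := by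
      haveI : (V.subgroupOf C).Normal := inferInstance
      have h3 : IsPGroup p (C ⧸ V.subgroupOf C) := by
        intro c
        obtain ⟨c, rfl⟩ := QuotientGroup.mk_surjective c
        obtain ⟨k, hk⟩ := hB' ⟨_, c.2.1⟩
        have h4 : (c : G) ^ p ^ k ∈ F :=
          (QuotientGroup.eq_one_iff _).1 (congrArg Subtype.val hk)
        obtain ⟨j, hj⟩ := isPGroup_quotient_pPrimeCore (G := F) p
          ((⟨_, h4⟩ : F) : F ⧸ pPrimeCore p F)
        refine ⟨k + j, ?_⟩
        rw [← QuotientGroup.mk_pow, QuotientGroup.eq_one_iff] at hj ⊢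
        refine mem_subgroupOf.2 ⟨?_, ?_⟩
        · simpa [pow_add, pow_mul] using pow_mem h4 (p ^ j)
        · have := pPrimeCoreOf_le_pPrimeCore (p := p) F (mem_map_of_mem F.subtype hj)
          simpa [pow_add, pow_mul] using this
      haveI := h3.isNilpotent
      exact Subgroup.isNilpotent_of_ker_le_center (QuotientGroup.mk' (V.subgroupOf C)) fun c hc =>
        mem_center_iff.2 fun d => Subtype.ext (mem_cent.1 d.2.2 c
          (mem_subgroupOf.1 ((QuotientGroup.eq_one_iff _).1 hc))).symm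
    exact Subtype.ext ((QuotientGroup.eq_one_iff _).2
      (le_fittingSubgroup inferInstance h2 ⟨hb, hx⟩))
  · have hθ := isIrrCharacter_hom l
    refine (h.inertia V hθ).squarefree_of_dvd ?_
    refine dvd_trans ?_ (Solv.relIndex_dvd_index_of_normal' _ (B.comap (QuotientGroup.mk' F)))
    let π : B.comap (QuotientGroup.mk' F) →* B :=
      ((QuotientGroup.mk' F).comp (B.comap (QuotientGroup.mk' F)).subtype).codRestrict B
        fun c => c.2
    have hπ : Function.Surjective π := fun ⟨b, hb⟩ => by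
      obtain ⟨x, rfl⟩ := hs b
      exact ⟨⟨x, hb⟩, rfl⟩
    rw [← index_comap_of_surjective _ hπ, relIndex]
    refine dvd_of_eq (congrArg index (Subgroup.ext fun x => ?_))
    rw [mem_subgroupOf, ← inv_mem_iff (x := (x : G)), mem_inertia_iff]
    change (ψ (x : G)).monoidHomCongrLeft l = l ↔ _
    rw [hψ, MonoidHom.ext_iff]
    exact forall_congr' fun v => Units.ext_iff

theorem SF.der_le [Group.IsSolvable G] (h : SF G) (hF : IsMulCommutative (fittingSubgroup G)) :
    derivedSeries G 2 ≤ fittingSubgroup G := by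
  rw [← map_mk'_eq_bot_iff, map_derivedSeries_eq (QuotientGroup.mk'_surjective _)]
  set H := G ⧸ fittingSubgroup G
  have h1 : _root_.commutator H ≤ 𝐂(fittingSubgroup H) := by
    refine cent_symm ?_
    refine (fittingSubgroup_eq_iSup_pCore H).trans_le (iSup_le fun q => cent_symm ?_)
    haveI := Fact.mk q.2
    have h2 : IsCyclic (pCore q H) := by
      rcases (Nat.dvd_prime q.2).1 (h.card_dvd hF q) with e | e
      · rw [card_eq_one.1 e]; infer_instance
      · exact isCyclic_of_prime_card e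
    exact PGroup.commutator_le_centralizer_of_isCyclic h2 le_normalizer_of_normal
      le_normalizer_of_normal
  exact commutator_eq_bot_iff_le_centralizer.2
    (h1.trans (centralizer_le (h1.trans centralizer_fittingSubgroup_le)))

/-- Let `G` be a finite solvable group. If every irreducible complex character degree of `G` is squarefree (1 included), then the derived length of `G` is at most 4. -/
theorem result {G : Type*} [Group G] [Finite G] [Group.IsSolvable G]
    (h : ∀ χ : Cfsg.IrrCharacter G, Squarefree (Cfsg.charDegree (χ : G → ℂ))) : derivedSeries G 4 = ⊥ := by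
  have hG : SF G := fun n hn => by
    obtain ⟨χ, rfl⟩ := mem_cd.1 hn
    exact h χ
  have h1 := (hG.quot (frattini G)).der_le
    (isMulCommutative_fittingSubgroup_of_frattini_eq_bot (frattini_quotient_frattini G))
  rw [← map_derivedSeries_eq (QuotientGroup.mk'_surjective _), map_le_iff_le_comap,
    comap_fittingSubgroup_mk'_of_le_frattini le_rfl] at h1
  have h2 := S0574.ds_add h1 2
  rw [(hG.sub (fittingSubgroup G)).nil, Subgroup.map_bot] at h2
  exact le_bot_iff.1 h2

end Cfsg.Agent.S5010
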