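import Cfsg.Statements.S5017
import Cfsg.Agent.Lib.Root.RankOne
import Cfsg.Agent.Lib.Comp.Quasisimple

set_option autoImplicit false
open Cfsg

namespace Cfsg.Agent.S5017

open Cfsg.Lib Cfsg.Lib.Root

/-- Let X be a rank one group with unipotent subgroups A and B and N a normal subgroup of X. Then either X = N A or N lies in the centre of X. Consequently a perfect rank one group is quasisimple. -/
theorem result {X : Type*} [Group X] {A B : Subgroup X} (h : Cfsg.IsRankOneGroup X A B) :
    (∀ N : Subgroup X, N.Normal → N ⊔ A = ⊤ ∨ N ≤ Subgroup.center X) ∧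
    (Group.IsPerfect X → Cfsg.IsQuasisimple X) := by
  refine ⟨fun N hN => group_dichotomy h N, fun hp => ?_⟩
  have : Nontrivial X := by
    obtain ⟨a, -, ha⟩ := r1_exists_ne_one h.2
    exact ⟨a, 1, ha⟩
  have hc : commutator X = ⊤ := hp.commutator_eq_top
  refine Comp.isQuasisimple_of_normal hc (fun N hN => ?_)
  rcases group_dichotomy h N with e | e
  · left
    have hA := h.2.nilpotent_left
    let f := QuotientGroup.mk' N
    have hs : Function.Surjective (f.comp A.subtype) := by
      rw [← MonoidHom.range_eq_top, MonoidHom.range_comp, Subgroup.range_subtype]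
      have := congrArg (Subgroup.map f) e
      rwa [Subgroup.map_sup, (Subgroup.map_eq_bot_iff _).2 (by simp [f]), bot_sup_eq,
        ← MonoidHom.range_eq_map, MonoidHom.range_eq_top.2 (QuotientGroup.mk'_surjective _)]
        at this
    have : Group.IsNilpotent (X ⧸ N) := Group.nilpotent_of_surjective _ hs
    by_contra hN'
    have : Nontrivial (X ⧸ N) := QuotientGroup.nontrivial_iff.2 hN'
    exact Group.IsPerfect.not_isNilpotent (X ⧸ N) inferInstance
  · exact Or.inr e

end Cfsg.Agent.S5017
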