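import Cfsg.Statements.S5018
import Cfsg.Agent.Lib.Root.RankOne

set_option autoImplicit false
open Cfsg

namespace Cfsg.Agent.S5018

open Cfsg.Lib Cfsg.Lib.Root

open Cfsg.Lib.Transfer
open scoped Cfsg.Lib.Transfer

/-- A rank one group is not nilpotent, and its second centre equals its centre. -/
theorem result {X : Type*} [Group X] {A B : Subgroup X} (h : Cfsg.IsRankOneGroup X A B) :
    Subgroup.upperCentralSeries X 2 = Subgroup.center X ∧ ¬ Group.IsNilpotent X := by
  refine ⟨le_antisymm ?_ ?_, not_nilpotent_group h⟩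
  · intro z hz
    have hz' : ∀ y, z * y * z⁻¹ * y⁻¹ ∈ Subgroup.center X := by
      rw [show (2 : ℕ) = 1 + 1 from rfl, Subgroup.mem_upperCentralSeries_succ_iff,
        Subgroup.upperCentralSeries_one] at hz
      exact hz
    have := mem_centralizer_of_fixes h.2 (n := z) (fun C hC => ?_)
    · rwa [h.1, Subgroup.coe_top, Subgroup.centralizer_univ] at this
    obtain ⟨D, hD, hDC, -⟩ := exists_ne_mem_Om h.2 C C
    obtain ⟨c, hc, hc1⟩ := r1_exists_ne_one (r1_of_mem_Om h.2 hC hD hDC.symm)
    refine eq_of_conj_eq_self h.2 (conj_mem_Om h.2 hC (h.1 ▸ Subgroup.mem_top z)) hC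
      (conj_mem_conj.2 hc) (by simpa using hc1) ?_
    have e : z * c * z⁻¹ = (z * c * z⁻¹ * c⁻¹) * c := by group
    rw [e, ← conj_conj, conj_eq_self_of_mem hc]
    exact conj_eq_self_of_mem_centralizer (Subgroup.center_le_centralizer _ (hz' c))
  · rw [← Subgroup.upperCentralSeries_one]
    exact Subgroup.upperCentralSeries_mono X (by norm_num)

end Cfsg.Agent.S5018
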