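import Cfsg.Statements.S5020
import Cfsg.Agent.Lib.Root.Special
import Cfsg.Agent.S5017

set_option autoImplicit false
open Cfsg

namespace Cfsg.Agent.S5020

open Cfsg.Lib Cfsg.Lib.Root

open Cfsg.Lib.Transfer
open scoped Cfsg.Lib.Transfer

/-- Let X be a special rank one group with abelian unipotent subgroups A and B, and H = N(A) ∩ N(B) its diagonal subgroup. Then either A has at most three elements and X is isomorphic to SL₂(2), SL₂(3) or PSL₂(3); or X = X' A with the commutator subgroup X' quasisimple and the commutator subgroup ⁅A, H⁆ having more than three elements. -/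
theorem result {X : Type*} [Group X] {A B : Subgroup X} (h : Cfsg.IsRankOneGroup X A B)
    (hs : Cfsg.IsSpecialRankOnePair A B) (hab : Cfsg.HasAbelianUnipotents A B) :
    (ENat.card A ≤ 3 ∧ (Nonempty (X ≃* Matrix.SpecialLinearGroup (Fin 2) (ZMod 2)) ∨
        Nonempty (X ≃* Matrix.SpecialLinearGroup (Fin 2) (ZMod 3)) ∨
        Nonempty (X ≃* Matrix.ProjectiveSpecialLinearGroup (Fin 2) (ZMod 3)))) ∨
    (commutator X ⊔ A = ⊤ ∧ Cfsg.IsQuasisimple (commutator X) ∧
      3 < ENat.card ↥(⁅A, Cfsg.rankOneDiagonal A B⁆ : Subgroup X)) := by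
  by_cases h4 : 3 < ENat.card A
  · right
    have hc : commutator X = ⊤ := by
      have := commutator_self_of_special hs hab h4
      rwa [h.1] at this
    refine ⟨by rw [hc, top_sup_eq], ?_, by rwa [commutator_diagonal hs hab h4]⟩
    rw [hc, Comp.isQuasisimple_top_iff]
    exact (S5017.result h).2 ⟨hc⟩
  left
  have h3 := not_lt.1 h4
  refine ⟨h3, ?_⟩
  have : Finite A := ENat.card_lt_top.1 (h3.trans_lt (ENat.coe_lt_top 3))
  have h3' : Nat.card A ≤ 3 := by
    rw [ENat.card_eq_coe_natCard] at h3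
    exact_mod_cast h3
  obtain ⟨a, ha, ha1⟩ := r1_exists_ne_one h.2
  have h1 : 1 < Nat.card A := (Subgroup.one_lt_card_iff_ne_bot A).2 (r1_ne_bot h.2)
  have hp : (Nat.card A).Prime := by
    interval_cases Nat.card A <;> norm_num
  have : Fact (Nat.card A).Prime := ⟨hp⟩
  have hz : Subgroup.zpowers a = A := by
    have := (zpowers_eq_top_of_prime_card (G := A) rfl (g := ⟨a, ha⟩) (by simpa using ha1))
    have := congrArg (Subgroup.map A.subtype) this
    rwa [MonoidHom.map_zpowers, ← MonoidHom.range_eq_map, Subgroup.range_subtype] at this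
  have hap : a ^ Nat.card A = 1 := by
    exact congrArg Subtype.val (pow_card_eq_one' (G := A) (x := ⟨a, ha⟩))
  have htop : Subgroup.closure {a, (pt A B a)⁻¹} = ⊤ := by
    rw [eq_top_iff, ← h.1]
    have m1 : a ∈ Subgroup.closure {a, (pt A B a)⁻¹} := Subgroup.subset_closure (by simp)
    have m2 : pt A B a ∈ Subgroup.closure {a, (pt A B a)⁻¹} :=
      inv_mem_iff.1 (Subgroup.subset_closure (by simp))
    have hA : A ≤ Subgroup.closure {a, (pt A B a)⁻¹} := by
      conv_lhs => rw [← hz]
      exact (Subgroup.zpowers_le).2 m1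
    refine sup_le hA ?_
    conv_lhs => rw [← mu_conj_left h.2 ha ha1]
    rw [conj_le_iff]
    intro x hx
    have m3 : mu A B a ∈ Subgroup.closure {a, (pt A B a)⁻¹} := mul_mem (mul_mem m1 m2) m1
    exact mul_mem (mul_mem m3 (hA hx)) (inv_mem m3)
  have main : ∀ p : ℕ, [Fact p.Prime] → a ^ p = 1 →
      Nonempty (X ≃* Matrix.SpecialLinearGroup (Fin 2) (ZMod p)) ∨
      ((-1 : Matrix.SpecialLinearGroup (Fin 2) (ZMod p)) ≠ 1 ∧
        Nonempty (X ≃* Matrix.ProjectiveSpecialLinearGroup (Fin 2) (ZMod p))) := by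
    intro p _ hap
    obtain ⟨φ, hr, hk⟩ := exists_hom_sl2_zmod hs hab ha ha1 hap
    rw [htop] at hr
    have e : X ≃* φ.range := Subgroup.topEquiv.symm.trans (MulEquiv.subgroupCongr hr.symm)
    rcases range_equiv_of_ker_le_center φ hk with ⟨-, ⟨f⟩⟩ | ⟨h1, ⟨f⟩⟩
    · exact Or.inl ⟨e.trans f⟩
    · exact Or.inr ⟨h1, ⟨e.trans f⟩⟩
  have : Nat.card A = 2 ∨ Nat.card A = 3 := by omega
  rcases this with e | e
  · rw [e] at hap
    rcases main 2 hap with h | ⟨h, -⟩
    · exact Or.inl h
    · exact absurd (by decide) h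
  · rw [e] at hap
    exact Or.inr ((main 3 hap).imp id And.right)

end Cfsg.Agent.S5020
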