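import Cfsg.Statements.S5023
import Cfsg.Agent.Lib.Root.Quadratic

set_option autoImplicit false
open Cfsg

namespace Cfsg.Agent.S5023

open Cfsg.Lib Cfsg.Lib.Root

open Cfsg.Lib.Transfer
open scoped Cfsg.Lib.Transfer

/-- Let X be a rank one group with unipotent subgroups A and B that acts faithfully on an abelian group V (written additively) with A acting quadratically: a' • (a • v − v) = a • v − v for all a, a' in A and v in V. Then A is either torsion-free or an elementary abelian p-group for some prime p. -/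
theorem result {X : Type*} [Group X] {A B : Subgroup X} (h : Cfsg.IsRankOneGroup X A B)
    {V : Type*} [AddCommGroup V] [DistribMulAction X V] (hf : ∀ x : X, (∀ v : V, x • v = v) → x = 1)
    (hq : ∀ a ∈ A, ∀ a' ∈ A, ∀ v : V, a' • (a • v - v) = a • v - v) :
    (∀ a ∈ A, a ≠ 1 → ¬ IsOfFinOrder a) ∨ ∃ p : ℕ, p.Prime ∧ Cfsg.IsElementaryAbelian p A := by
  have comm : ∀ x y : X, (∀ v : V, y • (x • v - v) = x • v - v) →
      (∀ v : V, x • (y • v - v) = y • v - v) → x * y = y * x := by
    intro x y h1 h2
    rw [← mul_inv_eq_one]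
    apply hf
    intro v
    have e : ∀ w : V, (x * y) • w = (y * x) • w := by
      intro w
      have a1 := h1 w
      have a2 := h2 w
      rw [smul_sub, sub_eq_iff_eq_add] at a1 a2
      rw [mul_smul, mul_smul, a1, a2]; abel
    rw [mul_smul, e, smul_inv_smul]
  have hA : IsMulCommutative A :=
    ⟨⟨fun a b => Subtype.ext (comm _ _ (hq _ a.2 _ b.2) (hq _ b.2 _ a.2))⟩⟩
  have hB : IsMulCommutative B := by
    obtain ⟨x, -, e⟩ := exists_swap h.2
    rw [← e]
    infer_instance
  have hX : ∃ x y : X, ∃ n : V, y • (x • n - n) ≠ x • n - n := by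
    by_contra hc
    push Not at hc
    obtain ⟨a, ha, ha1⟩ := r1_exists_ne_one h.2
    exact ha1 (r1_eq_one_of_commute h.2 ha fun b _ => comm _ _ (hc _ _) (hc _ _))
  exact (elementary_or_torsionFree (special_of_quadratic h hq hX) ⟨hA, hB⟩).symm

end Cfsg.Agent.S5023
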