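import Cfsg.Statements.S5026
import Cfsg.Agent.Lib.Root.Abstract

set_option autoImplicit false
open Cfsg

namespace Cfsg.Agent.S5026

open Cfsg.Lib Cfsg.Lib.Root

open Cfsg.Lib.Transfer Subgroup
open scoped Cfsg.Lib.Transfer

theorem mem_iff {G : Type*} [Group G] {S : Set (Subgroup G)} {C : Subgroup G} {x : G} :
    C ∈ centralizingMembers S (zpowers x) ↔ C ∈ S ∧ ∀ c ∈ C, c * x = x * c := by
  refine and_congr_right fun _ => ?_
  rw [← cm_iff_le]
  constructor
  · exact fun h c hc => h c hc x (mem_zpowers x)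
  · rintro h c hc _ ⟨n, rfl⟩
    exact (Commute.zpow_right (h c hc) n).eq

/-- Let S be a degenerate set of abstract root subgroups of G (a set of abstract transvection groups) and let a, b be commuting non-identity elements of members of S with a b ≠ 1. Then the members of S centralizing a b are exactly those centralizing both a and b. -/
theorem result {G : Type*} [Group G] {S : Set (Subgroup G)} (hS : Cfsg.IsRootSubgroupSet S) (hdeg : Cfsg.IsDegenerateRootSet S)
    {a b : G} (ha : a ∈ Cfsg.rootElements S) (hb : b ∈ Cfsg.rootElements S) (hab : a * b = b * a) (hab1 : a * b ≠ 1) :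
    Cfsg.centralizingMembers S (Subgroup.zpowers (a * b)) =
      Cfsg.centralizingMembers S (Subgroup.zpowers a) ∩ Cfsg.centralizingMembers S (Subgroup.zpowers b) := by
  have key : ∀ {a b : G}, a ∈ rootElements S → b ∈ rootElements S → a * b = b * a → a * b ≠ 1 →
      ∀ C ∈ S, (∀ c ∈ C, c * (a * b) = a * b * c) → ∀ c ∈ C, c * a = a * c := by
    rintro a b ⟨ha1, A, hA, ha⟩ ⟨hb1, B, hB, hb⟩ hab hab1 C hC h
    by_contra hn
    have r : ∀ {A : Subgroup G}, A ∈ S → ¬ Cm C A → IsRankOnePair A C := by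
      intro A hA hn
      rcases rs_tri hS hA hC with h | h | ⟨E, hE, h⟩
      · exact absurd h.symm hn
      · exact h
      · exact absurd (h.case hE) (hdeg A hA C hC)
    have h1 := r hA fun h' => hn fun c hc => h' c hc a ha
    have h2 := r hB fun h' => hn fun c hc => by
      have := h c hc
      rwa [mul_assoc, ← h' c hc b hb, ← mul_assoc, ← mul_assoc, mul_left_inj] at this
    have e0 : (a * b) ⋆ C = C := conj_eq_self_of_comm fun c hc => (h c hc).symm
    have e : a ⋆ C = b⁻¹ ⋆ C := by
      conv_rhs => rw [← e0, conj_conj, hab, inv_mul_cancel_left]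
    have e1 : Om A C = Om B C := by
      rw [← Om_self_conj h1 ha ha1, e, Om_self_conj h2 (inv_mem hb) (inv_ne_one.2 hb1)]
    have hB' : B ∈ Om A C := e1 ▸ left_mem_Om
    have e2 : a ⋆ B = B := eq_of_mem_of_mem h1 (conj_mem_Om h1 hB' (mem_sup_left ha)) hB'
      (by rw [mem_conj, mul_assoc, ← hab, inv_mul_cancel_left]; exact hb) hb hb1
    have e3 := eq_of_conj_eq_self h1 left_mem_Om hB' ha ha1 e2
    exact hab1 (r1_eq_one h1 (mul_mem ha (e3 ▸ hb)) e0)
  ext C
  simp only [Set.mem_inter_iff, mem_iff]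
  constructor
  · rintro ⟨hC, h⟩
    exact ⟨⟨hC, key ha hb hab hab1 C hC h⟩, hC, key hb ha hab.symm (hab ▸ hab1) C hC (hab ▸ h)⟩
  · rintro ⟨⟨hC, h1⟩, -, h2⟩
    exact ⟨hC, fun c hc => by rw [← mul_assoc, h1 c hc, mul_assoc, h2 c hc, mul_assoc]⟩

end Cfsg.Agent.S5026
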