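import Cfsg.Statements.S5027
import Cfsg.Agent.Lib.Root.Abstract

set_option autoImplicit false
open Cfsg

namespace Cfsg.Agent.S5027

open Cfsg.Lib Cfsg.Lib.Root

open Cfsg.Lib.Transfer
open scoped Cfsg.Lib.Transfer commutatorElement

/-- Let S be a set of abstract root subgroups of G such that every member of S has a rank one partner in S (the graph of rank one pairs on S has no isolated vertex). Then the second centre of G equals its centre. -/
theorem result {G : Type*} [Group G] {S : Set (Subgroup G)} (hS : Cfsg.IsRootSubgroupSet S)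
    (hF : ∀ A ∈ S, ¬ Cfsg.IsIsolatedIn (Cfsg.FAdj S) S A) : Subgroup.upperCentralSeries G 2 = Subgroup.center G := by
  refine le_antisymm ?_ ?_
  · intro z hz
    have hz' : ∀ y, ⁅z, y⁆ ∈ Subgroup.center G := by
      rw [show (2 : ℕ) = 1 + 1 from rfl, Subgroup.mem_upperCentralSeries_succ_iff,
        Subgroup.upperCentralSeries_one] at hz
      exact hz
    have : Subgroup.centralizer {z} = ⊤ := rs_eq_top hS fun A hA a ha => by
      rw [Subgroup.mem_centralizer_singleton_iff]
      by_cases ha1 : a = 1
      · simp [ha1]
      obtain ⟨D, hD, h⟩ := (hasP_iff hA).1 (hF A hA)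
      have hc := fun x => (Subgroup.mem_center_iff.1 (hz' a) x).symm
      have := rs_key_one hS hD h (rs_conj hS hA z) (fun x _ => hc x) (fun x _ => hc x) ha ha1
        (by rw [show ⁅z, a⁆ * a = z * a * z⁻¹ by group]; exact conj_mem_conj.2 ha)
      exact (commutatorElement_eq_one_iff_mul_comm.1 this).symm
    rw [Subgroup.mem_center_iff]
    intro g
    exact Subgroup.mem_centralizer_singleton_iff.1 (this ▸ Subgroup.mem_top g)
  · rw [← Subgroup.upperCentralSeries_one]
    exact Subgroup.upperCentralSeries_mono G (by norm_num)

end Cfsg.Agent.S5027
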