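import Cfsg.Statements.S5029
import Cfsg.Agent.Lib.Root.Lines

set_option autoImplicit false
open Cfsg

namespace Cfsg.Agent.S5029

open Cfsg.Lib Cfsg.Lib.Root

open Cfsg.Lib.Transfer Subgroup
open scoped Cfsg.Lib.Transfer commutatorElement

/-- Let S be a set of abstract root subgroups of G, A ∈ S having a rank one partner in S, and B ∈ S with C = ⁅A, B⁆ ∈ S. Then the members of S contained in AC are the conjugates of A by elements of B together with C, they partition AC, the members of S inside AC partition AC so that A is a line partner of C, and for every non-identity a ∈ A the map b ↦ a⁻¹ b⁻¹ a b is an isomorphism from B onto C. -/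
theorem result {G : Type*} [Group G] {S : Set (Subgroup G)} (hS : Cfsg.IsRootSubgroupSet S)
    {A B : Subgroup G} (hA : ¬ Cfsg.IsIsolatedIn (Cfsg.FAdj S) S A) (hAS : A ∈ S) (hB : B ∈ S) (hC : ⁅A, B⁆ ∈ S) :
    Cfsg.membersIn S (A ⊔ ⁅A, B⁆) = (fun b : G => Cfsg.conjBy A b) '' (B : Set G) ∪ {⁅A, B⁆} ∧
    Cfsg.IsSubgroupPartition (A ⊔ ⁅A, B⁆) (Cfsg.membersIn S (A ⊔ ⁅A, B⁆)) ∧
    A ∈ Cfsg.linePartners S ⁅A, B⁆ ∧
    ∀ a ∈ A, a ≠ 1 → ∃ φ : ↥B ≃* ↥⁅A, B⁆, ∀ b : ↥B, (φ b : G) = a⁻¹ * (b : G)⁻¹ * a * b := by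
  have hP := (hasP_iff hAS).1 hA
  have hc := rs_cc hS hAS hB hC
  refine ⟨?_, hc.partition hS hAS hP hC, line_symm hAS (hc.line hS hAS hP hC), fun a ha ha1 => ?_⟩
  · ext E
    rw [hc.mem_line_iff hS hAS hP hC]
    rfl
  · let φ : B →* ↥⁅A, B⁆ := MonoidHom.mk' (fun b => ⟨⁅a⁻¹, (b : G)⁻¹⁆, hc.mem (inv_mem ha)
      (inv_mem b.2)⟩) fun b b' => by
        apply Subtype.ext
        change ⁅a⁻¹, ((b : G) * b')⁻¹⁆ = ⁅a⁻¹, (b : G)⁻¹⁆ * ⁅a⁻¹, (b' : G)⁻¹⁆
        rw [hc.bb _ b.2 _ b'.2, mul_inv_rev, commutatorElement_mul_right_eq_mul_conj,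
          mul_assoc ⁅a⁻¹, _⁆, ← hc.cb _ (hc.mem (inv_mem ha) (inv_mem b'.2)) _ (inv_mem b.2)]
        group
    have hφ : Function.Bijective φ := by
      constructor
      · rw [injective_iff_map_eq_one]
        intro b hb
        have := hc.eq_one_of_comm' hS hAS hP (inv_mem ha) (inv_ne_one.2 ha1) (inv_mem b.2)
          (commutatorElement_eq_one_iff_mul_comm.1 (congrArg Subtype.val hb))
        exact Subtype.ext (inv_eq_one.1 this)
      · intro c
        obtain ⟨b, hb, e⟩ := hc.right _ (inv_mem ha) (inv_ne_one.2 ha1) c c.2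
        exact ⟨⟨b⁻¹, inv_mem hb⟩, Subtype.ext (by simpa [φ] using e)⟩
    exact ⟨MulEquiv.ofBijective φ hφ, fun b => by simp [φ, commutatorElement_def]⟩

end Cfsg.Agent.S5029
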