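import Cfsg.Statements.S5030
import Cfsg.Agent.Lib.Root.Lines

set_option autoImplicit false
open Cfsg

namespace Cfsg.Agent.S5030

open Cfsg.Lib Cfsg.Lib.Root

open Cfsg.Lib.Transfer Subgroup
open scoped Cfsg.Lib.Transfer commutatorElement

/-- Let S be a set of abstract root subgroups of G and A, B, C ∈ S with ⁅A, B⁆ ∈ S and ⁅B, C⁆ ∈ S, where A and C are different and commute. For a non-identity b ∈ B put X = ⟨A, b⁻¹ C b⟩ and Y = ⟨b⁻¹ A b, C⟩ and R = ⟨A, B, C⟩. Then X and Y are either both abelian or both nilpotent of class exactly two; X and Y commute elementwise; XY is normal in R with R = (XY) B; and R is nilpotent. -/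
theorem result {G : Type*} [Group G] {S : Set (Subgroup G)} (hS : Cfsg.IsRootSubgroupSet S)
    {A B C : Subgroup G} (hA : A ∈ S) (hB : B ∈ S) (hC : C ∈ S) (hAB : ⁅A, B⁆ ∈ S) (hBC : ⁅B, C⁆ ∈ S)
    (hAC : C ∈ Cfsg.commutingPartners S A)
    {b : G} (hb : b ∈ B) (hb1 : b ≠ 1) :
    ((IsMulCommutative ↥(A ⊔ Cfsg.conjBy C b⁻¹) ∧ IsMulCommutative ↥(Cfsg.conjBy A b⁻¹ ⊔ C)) ∨
      ((¬ IsMulCommutative ↥(A ⊔ Cfsg.conjBy C b⁻¹) ∧
          ⁅⁅A ⊔ Cfsg.conjBy C b⁻¹, A ⊔ Cfsg.conjBy C b⁻¹⁆, A ⊔ Cfsg.conjBy C b⁻¹⁆ = ⊥) ∧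
        (¬ IsMulCommutative ↥(Cfsg.conjBy A b⁻¹ ⊔ C) ∧
          ⁅⁅Cfsg.conjBy A b⁻¹ ⊔ C, Cfsg.conjBy A b⁻¹ ⊔ C⁆, Cfsg.conjBy A b⁻¹ ⊔ C⁆ = ⊥))) ∧
    ⁅A ⊔ Cfsg.conjBy C b⁻¹, Cfsg.conjBy A b⁻¹ ⊔ C⁆ = ⊥ ∧
    (∀ r ∈ A ⊔ B ⊔ C, Cfsg.conjBy ((A ⊔ Cfsg.conjBy C b⁻¹) ⊔ (Cfsg.conjBy A b⁻¹ ⊔ C)) r =
      (A ⊔ Cfsg.conjBy C b⁻¹) ⊔ (Cfsg.conjBy A b⁻¹ ⊔ C)) ∧
    ((A ⊔ Cfsg.conjBy C b⁻¹) ⊔ (Cfsg.conjBy A b⁻¹ ⊔ C)) ⊔ B = A ⊔ B ⊔ C ∧
    Group.IsNilpotent ↥(A ⊔ B ⊔ C) := by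
  simp only [conjBy]
  have h1 := rs_cc hS hA hB hAB
  have h2 := (rs_cc hS hB hC hBC).symm
  have hac : Cm A C := cm_iff.1 hAC.2.2
  have hb' := inv_mem hb
  have hb1' := inv_ne_one.2 hb1
  have hX := chain_class_two hS hA hC hBC h2 hac hb' hb1'
  have hY := chain_class_two hS hC hA hAB h1 hac.symm hb' hb1'
  rw [sup_comm C] at hY
  have hs := chain_sup h1 h2 hb' hb1'
  have key : ∀ {A C E F : Subgroup G}, CC A B E → CC C B F → Cm A C →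
      IsMulCommutative ↥(A ⊔ b⁻¹ ⋆ C) → IsMulCommutative ↥(C ⊔ b⁻¹ ⋆ A) := by
    intro A C E F h1 h2 hac h
    have h3 : Cm A F := (hac.sup_right ((cm_self_iff.2 h).mono le_sup_left le_sup_right)).mono
      le_rfl (le_sup_right.trans (h2.sup_conj hb' hb1').ge)
    have h4 : ⁅⁅A, B⁆, C⁆ = ⊥ := commutator_commutator_eq_bot_of_rotate
      (by rw [h2.symm.eq]; exact cm_iff.2 h3.symm)
      (by rw [cm_iff.2 hac.symm, commutator_bot_left])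
    rw [h1.eq, cm_iff] at h4
    have h5 : Cm C (b⁻¹ ⋆ A) := (hac.symm.sup_right h4.symm).mono le_rfl (h1.conj_le hb')
    exact cm_self_iff.1 ((h2.aa.sup_right h5).sup_left (h5.symm.sup_right (h1.aa.conj _)))
  refine ⟨?_, cm_iff.2 (chain_cm h1 h2 hac hb'), fun r hr => ?_, ?_,
    chain_nilpotent hS hA hC hAB hBC h1 h2 hac⟩
  · by_cases h : IsMulCommutative ↥(A ⊔ b⁻¹ ⋆ C)
    · exact Or.inl ⟨h, by rw [sup_comm]; exact key h1 h2 hac h⟩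
    · exact Or.inr ⟨⟨h, hX⟩, fun h' => h (key h2 h1 hac.symm (by rw [sup_comm]; exact h')), hY⟩
  · rw [hs]
    refine conj_eq_self_iff.2 ((sup_le (sup_le ?_ ?_) ?_ : A ⊔ B ⊔ C ≤ _) hr)
    · exact (le_sup_left.trans le_sup_left).trans le_normalizer
    · intro b hb
      refine conj_eq_self_iff.1 ?_
      rw [conj_sup, h1.conj_line hb, h2.conj_line hb]
    · exact (le_sup_left.trans le_sup_right).trans le_normalizer
  · rw [hs]
    refine le_antisymm (sup_le (sup_le (sup_le ?_ ?_) (sup_le ?_ ?_)) ?_) (sup_le (sup_le ?_ ?_) ?_)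
    · exact le_sup_left.trans le_sup_left
    · exact h1.le_sup.trans le_sup_left
    · exact le_sup_right
    · exact h2.le_sup.trans (sup_le le_sup_right (le_sup_right.trans le_sup_left))
    · exact le_sup_right.trans le_sup_left
    · exact (le_sup_left.trans le_sup_left).trans le_sup_left
    · exact le_sup_right
    · exact (le_sup_left.trans le_sup_right).trans le_sup_left

end Cfsg.Agent.S5030
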