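import Cfsg.Statements.S5037
import Cfsg.Agent.Lib.Root.Graph

set_option autoImplicit false
open Cfsg

namespace Cfsg.Agent.S5037

open Cfsg.Lib Cfsg.Lib.Root

open Cfsg.Lib.Transfer Subgroup
open scoped Cfsg.Lib.Transfer commutatorElement

/-- Let S be a class of abstract root subgroups of G that is either degenerate or non-degenerate (so either the commutator case never occurs, or all three cases occur), and A ≠ C members of S. If every member of S commuting with A commutes with C, then A and C have the same commuting members of S; and if every rank one partner of A is a rank one partner of C, then A and C commute and have the same rank one partners. -/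
theorem result {G : Type*} [Group G] {S : Set (Subgroup G)} (hS : Cfsg.IsRootSubgroupClass S)
    (hdn : Cfsg.IsDegenerateRootSet S ∨ Cfsg.IsNondegenerateRootSet S)
    {A C : Subgroup G} (hA : A ∈ S) (hC : C ∈ S) (hAC : A ≠ C) :
    (Cfsg.centralizingMembers S A ⊆ Cfsg.centralizingMembers S C →
      Cfsg.centralizingMembers S A = Cfsg.centralizingMembers S C) ∧
    (Cfsg.rankOnePartners S A ⊆ Cfsg.rankOnePartners S C →
      ⁅A, C⁆ = ⊥ ∧ Cfsg.rankOnePartners S A = Cfsg.rankOnePartners S C) := by
  have hall : ∀ A ∈ S, HasP S A := by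
    rcases hdn with hd | hd
    swap
    · exact nondeg_hasP hS hd
    refine class_hasP hS hA ?_
    by_contra hn
    obtain ⟨g, rfl⟩ := hS.2.2 A hA C hC
    have : normalizer (A : Set G) = ⊤ := rs_eq_top hS.1 fun B hB => by
      rcases rs_tri hS.1 hA hB with h | h | ⟨E, hE, h⟩
      · exact h.symm.le_normalizer
      · exact absurd ⟨B, hB, h⟩ hn
      · exact absurd (h.case hE) (hd A hA B hB)
    exact hAC (conj_eq_self_iff.2 (this ▸ mem_top g)).symm
  constructor
  · intro h
    have h' : ∀ E ∈ S, Cm E A → Cm E C := fun E hE hc => cm_iff_le.2 (h ⟨hE, cm_iff_le.1 hc⟩).2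
    have hac := h' A hA (rs_cm hS.1 hA)
    obtain ⟨B, hB, h2⟩ := hall C hC
    have h1 : IsRankOnePair A B := by
      rcases rs_tri hS.1 hA hB with k | k | ⟨F, hF, k⟩
      · exact absurd (h' B hB k.symm).symm (r1_not_cm h2)
      · exact k
      · exfalso
        obtain ⟨f, hf, hf1⟩ := k.exists_ne_one
        obtain ⟨b, hb, hb1⟩ := k.symm.exists_left_ne_one
        obtain ⟨a, -, e⟩ := k.symm.exists_conj hb hb1 hf
        exact hf1 (rs_key_one hS.1 hC (r1_symm h2) (rs_conj hS.1 hB a) (k.cb f hf)
          (h' F hF k.ca f hf) hb hb1 (by rw [k.cb f hf b hb, ← e]; exact conj_mem_conj.2 hb))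
    have := theta_symm (r := fun A C => ∀ E ∈ S, Cm E A → Cm E C) (fun A C g h E hE hc => by
      have := (h _ (rs_conj hS.1 hE g⁻¹) (by simpa only [inv_conj_conj] using hc.conj g⁻¹)).conj g
      rwa [conj_inv_conj] at this) hac h' h1 h2
    exact h.antisymm fun E hE => ⟨hE.1, cm_iff_le.1 (this E hE.1 (cm_iff_le.2 hE.2))⟩
  · intro h
    have h' : ∀ E ∈ S, IsRankOnePair A E → IsRankOnePair C E := fun E hE hc => (h ⟨hE, hc⟩).2
    have hac : Cm A C := by
      rcases rs_tri hS.1 hA hC with k | k | ⟨E, hE, k⟩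
      · exact k
      · exact absurd rfl (h' C hC k).ne
      exfalso
      obtain ⟨D₀, hD₀, k0⟩ := hall E hE
      have l1 := line_symm hC (k.symm.line hS.1 hC (hall C hC) hE)
      obtain ⟨P, hP, F, hF, p1, p2, e⟩ := line_special hS.1 hE hD₀ k0 l1
      obtain ⟨-, a, ha, rfl⟩ := k.symm.of_point hS.1 hC (hall C hC) hE
        ⟨hP, by rw [sup_comm, ← e]; exact le_sup_right⟩ p2.ne_left.symm
      have q1 := p1.conj a⁻¹
      have q2 := r1_conj k0 a⁻¹
      rw [inv_conj_conj] at q1
      rw [k.ca.symm.conj_eq (inv_mem ha)] at q2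
      have hD := rs_conj hS.1 hD₀ a⁻¹
      generalize a⁻¹ ⋆ D₀ = D at q1 q2 hD
      obtain ⟨c, hc, hc1⟩ := rs_exists_ne_one hS.1 hC
      have l2 := line_symm hA (k.line hS.1 hA (hall A hA) hE)
      rcases line_opp hS.1 hE hD q2 l2 ⟨hA, le_sup_right⟩
        ⟨rs_conj hS.1 hA c, sup_comm A E ▸ k.conj_le hc⟩ (k.conj_ne hc hc1).symm with r | r
      · exact q1.not_r1 (h' D hD r)
      · have r' := r1_conj r c⁻¹
        rw [inv_conj_conj] at r'
        have := r1_conj (h' _ (rs_conj hS.1 hD c⁻¹) r') c
        rw [conj_inv_conj, conj_eq_self_of_mem hc] at this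
        exact q1.not_r1 this
    obtain ⟨B, hB, h1⟩ := hall A hA
    have := theta_symm (r := fun A C => ∀ E ∈ S, IsRankOnePair A E → IsRankOnePair C E)
      (fun A C g h E hE hc => by
        have := r1_conj (h _ (rs_conj hS.1 hE g⁻¹)
          (by simpa only [inv_conj_conj] using r1_conj hc g⁻¹)) g
        rwa [conj_inv_conj] at this) hac h' h1 (h' B hB h1)
    exact ⟨cm_iff.2 hac, h.antisymm fun E hE => ⟨hE.1, this E hE.1 hE.2⟩⟩

end Cfsg.Agent.S5037
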