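import Cfsg.Statements.S5033
import Cfsg.Agent.Lib.Root.Graph
import Cfsg.Agent.S5037

set_option autoImplicit false
open Cfsg

namespace Cfsg.Agent.S5033

open Cfsg.Lib Cfsg.Lib.Root

open Cfsg.Lib.Transfer Subgroup
open scoped Cfsg.Lib.Transfer commutatorElement

/-- Quasisimplicity criterion for groups generated by abstract root subgroups. Let S be a set of abstract root subgroups of G with more than one member such that: the graph of rank one pairs on S is connected; no two different members of S have the same set of commuting members of S; if S is degenerate then every member of S has more than three elements; and every rank one pair in S is special. Then for every A ∈ S one has G = G' A with A ∩ G' ≠ 1, and the commutator subgroup G' is quasisimple. Moreover G is perfect if S is non-degenerate, or if some rank one pair A, B in S generates a perfect group. -/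
theorem result {G : Type*} [Group G] {S : Set (Subgroup G)} (hS : Cfsg.IsRootSubgroupSet S) (h2 : ∃ A ∈ S, ∃ B ∈ S, A ≠ B)
    (h1 : Cfsg.IsConnectedFamily (Cfsg.FAdj S) S)
    (h2' : ∀ A ∈ S, ∀ C ∈ S, A ≠ C → Cfsg.centralizingMembers S A ≠ Cfsg.centralizingMembers S C)
    (h3 : Cfsg.IsDegenerateRootSet S → ∀ A ∈ S, 3 < ENat.card A)
    (h4 : ∀ A ∈ S, ∀ B ∈ Cfsg.rankOnePartners S A, Cfsg.IsSpecialRankOnePair A B) :
    (∀ A ∈ S, commutator G ⊔ A = ⊤ ∧ A ⊓ commutator G ≠ ⊥) ∧ Cfsg.IsQuasisimple ↥(commutator G) ∧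
    (Cfsg.IsNondegenerateRootSet S → commutator G = ⊤) ∧
    ((∃ A ∈ S, ∃ B ∈ Cfsg.rankOnePartners S A, Group.IsPerfect ↥(A ⊔ B)) → commutator G = ⊤) := by
  obtain ⟨A₀, hA₀, B₀, hB₀, hne₀⟩ := h2
  have hcl := class_of_connected hS hA₀ h1
  have hall := class_hasP hcl hA₀ (hasP_of_freach (h1 A₀ hA₀ B₀ hB₀) hne₀.symm)
  have top : ∀ N : Subgroup G, N.Normal → ∀ A ∈ S, A ≤ N → N = ⊤ := by
    intro N hN A hA h
    refine rs_eq_top hS fun B hB => ?_
    obtain ⟨g, rfl⟩ := hcl.2.2 A hA B hB
    exact conj_le_iff.2 fun a ha => hN.conj_mem a (h ha) g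
  have perf : IsDegenerateRootSet S → ∀ A ∈ S, ∀ B ∈ S, IsRankOnePair A B →
      ⁅A ⊔ B, A ⊔ B⁆ = A ⊔ B := fun hd A hA B hB h =>
    commutator_self_of_special (h4 A hA B ⟨hB, h⟩) ⟨hS.commutative A hA, hS.commutative B hB⟩
      (h3 hd A hA)
  have hdn : IsDegenerateRootSet S ∨ IsNondegenerateRootSet S := by
    by_cases hd : IsDegenerateRootSet S
    · exact Or.inl hd
    right
    simp only [IsDegenerateRootSet, not_forall, not_not] at hd
    obtain ⟨A, hA, B, hB, h⟩ := hd
    have hc := rs_cc_of_case hS hA hB h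
    obtain ⟨D, hD, hr⟩ := hall A hA
    exact ⟨⟨A, hA, _, h.1, hc.ne_left, cm_iff.2 hc.ca.symm⟩, ⟨A, hA, D, hD, hr⟩, A, hA, B, hB, h⟩
  have hp : commutator G = ⊤ := by
    rcases hdn with hd | hd
    · obtain ⟨D, hD, hr⟩ := hall A₀ hA₀
      exact top _ inferInstance A₀ hA₀ (le_sup_left.trans ((perf hd A₀ hA₀ D hD hr).ge.trans
        (commutator_mono le_top le_top)))
    · obtain ⟨A, -, B, -, h⟩ := hd.2.2
      exact top _ inferInstance _ h.1 (commutator_mono le_top le_top)
  refine ⟨fun A hA => ⟨by rw [hp, top_sup_eq], by rw [hp, inf_top_eq]; exact hS.ne_bot A hA⟩, ?_,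
    fun _ => hp, fun _ => hp⟩
  rw [hp, Comp.isQuasisimple_top_iff]
  have : Nontrivial G := by
    obtain ⟨a, -, ha⟩ := rs_exists_ne_one hS hA₀
    exact ⟨a, 1, ha⟩
  refine Comp.isQuasisimple_of_normal hp fun N hN => ?_
  by_cases hfix : ∀ n ∈ N, ∀ A ∈ S, n ⋆ A = A
  · right
    intro n hn
    have : centralizer {n} = ⊤ := rs_eq_top hS fun A hA a ha => by
      obtain ⟨D, hD, hr⟩ := hall A hA
      exact mem_centralizer_singleton_iff.2 (mem_centralizer_of_fixes hr
        (fun C hC => hfix n hn C (rs_Om hS hA hD hC)) a (mem_sup_left ha))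
    exact mem_center_iff.2 fun g => mem_centralizer_singleton_iff.1 (this ▸ mem_top g)
  left
  push Not at hfix
  obtain ⟨n, hn, A, hA, hne⟩ := hfix
  have hA' := rs_conj hS hA n
  obtain ⟨E, hE, hEA⟩ := Set.not_subset.1 fun h => h2' _ hA' A hA hne
    ((S5037.result hcl hdn hA' hA hne).1 h)
  have hc : Cm E (n ⋆ A) := cm_iff_le.2 hE.2
  let f := QuotientGroup.mk' N
  have hf : ∀ {A : Subgroup G}, A.map f = ⊥ → A ≤ N := fun h => by
    simpa [f] using (Subgroup.map_eq_bot_iff _).1 h
  have e1 : ⁅E.map f, A.map f⁆ = ⊥ := by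
    have := congrArg (Subgroup.map f) (cm_iff.2 hc)
    rwa [map_commutator, map_conj, show f n = 1 by simpa [f] using hn, conj_one,
      Subgroup.map_bot] at this
  rcases rs_tri hS hE.1 hA with h | h | ⟨C, hC, h⟩
  · exact absurd ⟨hE.1, cm_iff_le.1 h⟩ hEA
  swap
  · exact top N hN C hC (hf (by rw [← h.eq, map_commutator, e1]))
  rcases r1_map_or_eq f h with k | k
  · exact absurd e1 (r1_commutator_ne_bot k)
  rcases hdn with hd | hd
  · refine top N hN A hA (le_sup_right.trans (hf (A := E ⊔ A) ?_))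
    rw [← perf hd E hE.1 A hA h, map_commutator, Subgroup.map_sup, k, sup_idem, ← map_commutator,
      cm_iff.2 (rs_cm hS hA), Subgroup.map_bot]
  · obtain ⟨C, -, F, hF, k1, k2⟩ := nondeg_exists_special hcl hd hA hE.1 (r1_symm h)
    refine top N hN F hF (hf ?_)
    rw [← k1.eq, map_commutator, k, ← map_commutator, cm_iff.2 k2.ca, Subgroup.map_bot]

end Cfsg.Agent.S5033
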