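import Cfsg.Statements.S5035
import Cfsg.Agent.Lib.Root.Graph

set_option autoImplicit false
open Cfsg

namespace Cfsg.Agent.S5035

open Cfsg.Lib Cfsg.Lib.Root

open Cfsg.Lib.Transfer Subgroup
open scoped Cfsg.Lib.Transfer commutatorElement

/-- Let S be a set of abstract root subgroups of G whose graph of rank one pairs is connected, and f a homomorphism from G onto a group H. Then either the images of the members of S form a set of abstract root subgroups of H whose graph of rank one pairs is again connected, or H equals the image of a member of S. -/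
theorem result {G H : Type*} [Group G] [Group H] {S : Set (Subgroup G)} (hS : Cfsg.IsRootSubgroupSet S)
    (hc : Cfsg.IsConnectedFamily (Cfsg.FAdj S) S) (f : G →* H) (hf : Function.Surjective f) :
    (Cfsg.IsRootSubgroupSet ((fun A : Subgroup G => A.map f) '' S) ∧
      Cfsg.IsConnectedFamily (Cfsg.FAdj ((fun A : Subgroup G => A.map f) '' S)) ((fun A : Subgroup G => A.map f) '' S)) ∨
    ∃ A ∈ S, A.map f = ⊤ := by
  by_cases hb : ∃ A ∈ S, A.map f = ⊥
  · right
    obtain ⟨A, hA, e⟩ := hb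
    refine ⟨A, hA, ?_⟩
    have : f.ker = ⊤ := rs_eq_top hS fun B hB => by
      obtain ⟨g, rfl⟩ := freach_exists_conj (hc A hA B hB)
      rw [← Subgroup.map_eq_bot_iff, map_conj, e, Subgroup.map_bot]
    rw [e, eq_top_iff]
    intro y _
    obtain ⟨x, rfl⟩ := hf y
    exact (this ▸ mem_top x : x ∈ f.ker)
  left
  push Not at hb
  refine ⟨⟨?_, ?_, ?_, ?_, ?_⟩, ?_⟩
  · rintro _ ⟨A, hA, rfl⟩
    have := hS.commutative A hA
    infer_instance
  · rintro _ ⟨A, hA, rfl⟩
    exact hb A hA
  · rw [iSup_image, eq_top_iff, ← map_top_of_surjective f hf, ← hS.generates, Subgroup.map_iSup]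
    exact iSup_mono fun A => (Subgroup.map_iSup _ _).le
  · rintro _ ⟨A, hA, rfl⟩ y
    obtain ⟨x, rfl⟩ := hf y
    exact ⟨_, rs_conj hS hA x, map_conj f x A⟩
  · rintro _ ⟨A, hA, rfl⟩ _ ⟨B, hB, rfl⟩
    dsimp only
    rcases rs_tri hS hA hB with h | h | ⟨C, hC, h⟩
    · left; rw [← map_commutator, cm_iff.2 h, Subgroup.map_bot]
    · rcases r1_map_or_eq f h with h | h
      · exact Or.inr (Or.inl h)
      · left; rw [h, ← map_commutator, cm_iff.2 (rs_cm hS hB), Subgroup.map_bot]
    · right; right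
      have cm : ∀ {A B : Subgroup G}, Cm A B → Cm (A.map f) (B.map f) := fun h => by
        rw [← cm_iff, ← map_commutator, cm_iff.2 h, Subgroup.map_bot]
      refine CC.case (C := C.map f) ⟨by rw [← map_commutator, h.eq], hb C hC, cm h.aa, cm h.bb,
        cm h.ca, cm h.cb, ?_, ?_⟩ ⟨C, hC, rfl⟩
      · rintro _ ⟨a, ha, rfl⟩ h1 _ ⟨c, hc, rfl⟩
        obtain ⟨b, hb, rfl⟩ := h.right a ha (fun e => h1 (by rw [e, map_one])) c hc
        exact ⟨f b, mem_map_of_mem f hb, by rw [map_commutatorElement]⟩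
      · rintro _ ⟨b, hb, rfl⟩ h1 _ ⟨c, hc, rfl⟩
        obtain ⟨a, ha, rfl⟩ := h.left b hb (fun e => h1 (by rw [e, map_one])) c hc
        exact ⟨f a, mem_map_of_mem f ha, by rw [map_commutatorElement]⟩
  · rintro _ ⟨A, hA, rfl⟩ _ ⟨B, hB, rfl⟩
    have := hc A hA B hB
    clear hB
    induction this with
    | refl => exact .refl
    | tail _ h ih =>
      rcases r1_map_or_eq f h.2.2 with h' | h'
      · exact ih.tail ⟨⟨_, h.1, rfl⟩, ⟨_, h.2.1, rfl⟩, h'⟩
      · dsimp only at ih ⊢
        rwa [← h']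

end Cfsg.Agent.S5035
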