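import Cfsg.Statements.S5036
import Cfsg.Agent.Lib.Root.Graph

set_option autoImplicit false
open Cfsg

namespace Cfsg.Agent.S5036

open Cfsg.Lib Cfsg.Lib.Root

open Cfsg.Lib.Transfer Subgroup
open scoped Cfsg.Lib.Transfer commutatorElement

/-- Let S be a set of abstract root subgroups of G, A, B ∈ S with C = ⁅A, B⁆ ∈ S, and D ∈ S with ⁅D, C⁆ = A. Put X = ⟨B, D⟩ and N = AC. Then B, D form a rank one pair; the conjugates of A under X are the conjugates of C under X, namely the conjugates of A by elements of B together with C, equally the conjugates of C by elements of D together with A, and they partition N; and the centralizer of N in X is central in X. -/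
theorem result {G : Type*} [Group G] {S : Set (Subgroup G)} (hS : Cfsg.IsRootSubgroupSet S)
    {A B D : Subgroup G} (hA : A ∈ S) (hB : B ∈ S) (hC : ⁅A, B⁆ ∈ S) (hD : D ∈ S) (hDC : ⁅D, ⁅A, B⁆⁆ = A) :
    Cfsg.IsRankOnePair B D ∧
    {E | ∃ x ∈ B ⊔ D, E = Cfsg.conjBy A x} = {E | ∃ x ∈ B ⊔ D, E = Cfsg.conjBy ⁅A, B⁆ x} ∧
    {E | ∃ x ∈ B ⊔ D, E = Cfsg.conjBy A x} = (fun b : G => Cfsg.conjBy A b) '' (B : Set G) ∪ {⁅A, B⁆} ∧
    {E | ∃ x ∈ B ⊔ D, E = Cfsg.conjBy A x} = (fun d : G => Cfsg.conjBy ⁅A, B⁆ d) '' (D : Set G) ∪ {A} ∧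
    Cfsg.IsSubgroupPartition (A ⊔ ⁅A, B⁆) {E | ∃ x ∈ B ⊔ D, E = Cfsg.conjBy A x} ∧
    ∀ x ∈ (B ⊔ D) ⊓ Subgroup.centralizer ((A ⊔ ⁅A, B⁆ : Subgroup G) : Set G), ∀ y ∈ B ⊔ D, x * y = y * x := by
  have h1 := rs_cc hS hA hB hC
  have h2 := (rs_cc hS hD hC (hDC.symm ▸ hA)).symm
  rw [hDC] at h2
  generalize ⁅A, B⁆ = C at *
  simp only [conjBy]
  have hr := r1_of_cc_cc hS hB hD h1 h2
  have hn : B ⊔ D ≤ normalizer ((A ⊔ C : Subgroup G) : Set G) :=
    sup_le (fun b hb => conj_eq_self_iff.1 (h1.conj_line hb)) fun d hd => conj_eq_self_iff.1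
      (by rw [sup_comm]; exact h2.conj_line hd)
  have fix : ∀ {A B C : Subgroup G}, CC A B C → (A ⊔ C) ⊓ centralizer (B : Set G) = C := by
    intro A B C h
    refine le_antisymm (fun x hx => ?_) (le_inf le_sup_right (cm_iff_le.1 h.cb))
    obtain ⟨a, ha, c, hc, rfl⟩ := h.ca.symm.exists_mul hx.1
    have : a ∈ centralizer (B : Set G) :=
      (Subgroup.mul_mem_cancel_right _ (cm_iff_le.1 h.cb hc)).1 hx.2
    rw [h.eq_one_of_comm ha fun b hb => (this b hb).symm, one_mul]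
    exact hc
  have fB := fix h1
  have fD := fix h2
  rw [sup_comm] at fD
  have eqv : ∀ x ∈ B ⊔ D, ∀ E : Subgroup G, x ⋆ ((A ⊔ C) ⊓ centralizer (E : Set G)) =
      (A ⊔ C) ⊓ centralizer ((x ⋆ E : Subgroup G) : Set G) := fun x hx E => by
    rw [conj_inf, conj_eq_self_iff.2 (hn hx), conj_centralizer]
  let T := (fun E : Subgroup G => (A ⊔ C) ⊓ centralizer (E : Set G)) '' Om B D
  have e1 : {E | ∃ x ∈ B ⊔ D, E = x ⋆ C} = T := by
    ext E
    constructor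
    · rintro ⟨x, hx, rfl⟩
      exact ⟨_, conj_mem_Om hr left_mem_Om hx, by dsimp only; rw [← eqv x hx, fB]⟩
    · rintro ⟨F, hF, rfl⟩
      obtain ⟨x, hx, rfl⟩ := exists_conj_eq_of_mem_Om hr hF
      exact ⟨x, hx, by dsimp only; rw [← eqv x hx, fB]⟩
  have e2 : {E | ∃ x ∈ B ⊔ D, E = x ⋆ A} = T := by
    ext E
    constructor
    · rintro ⟨x, hx, rfl⟩
      exact ⟨_, conj_mem_Om hr right_mem_Om hx, by dsimp only; rw [← eqv x hx, fD]⟩
    · rintro ⟨F, hF, rfl⟩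
      obtain ⟨x, hx, rfl⟩ := exists_conj_eq_of_mem_Om (r1_symm hr) (Om_comm hr ▸ hF)
      rw [sup_comm] at hx
      exact ⟨x, hx, by dsimp only; rw [← eqv x hx, fD]⟩
  have e3 : T = (fun b : G => b ⋆ A) '' (B : Set G) ∪ {C} := by
    ext E
    constructor
    · rintro ⟨F, (rfl | ⟨b, hb, rfl⟩), rfl⟩
      · exact Or.inr fB
      · exact Or.inl ⟨b, hb, by dsimp only; rw [← eqv b (mem_sup_left hb), fD]⟩
    · rintro (⟨b, hb, rfl⟩ | rfl)
      · exact ⟨_, conj_mem_Om' hb, by dsimp only; rw [← eqv b (mem_sup_left hb), fD]⟩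
      · exact ⟨_, left_mem_Om, fB⟩
  have e4 : T = (fun d : G => d ⋆ C) '' (D : Set G) ∪ {A} := by
    simp only [T]
    rw [Om_comm hr]
    ext E
    constructor
    · rintro ⟨F, (rfl | ⟨d, hd, rfl⟩), rfl⟩
      · exact Or.inr fD
      · exact Or.inl ⟨d, hd, by dsimp only; rw [← eqv d (mem_sup_right hd), fB]⟩
    · rintro (⟨d, hd, rfl⟩ | rfl)
      · exact ⟨_, conj_mem_Om' hd, by dsimp only; rw [← eqv d (mem_sup_right hd), fB]⟩
      · exact ⟨_, left_mem_Om, fD⟩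
  rw [e1, e2]
  refine ⟨hr, rfl, e3, e4, ⟨?_, fun x hx _ => ?_, ?_⟩, fun x hx y hy => ?_⟩
  · rintro _ ⟨F, -, rfl⟩
    exact inf_le_left
  · rw [e3]
    obtain ⟨a, ha, c, hc, rfl⟩ := h1.ca.symm.exists_mul hx
    by_cases ha1 : a = 1
    · exact ⟨C, Or.inr rfl, by simpa [ha1] using hc⟩
    · obtain ⟨b, hb, e⟩ := h1.exists_conj ha ha1 hc
      exact ⟨b ⋆ A, Or.inl ⟨b, hb, rfl⟩, e ▸ conj_mem_conj.2 ha⟩
  · rintro _ ⟨E, hE, rfl⟩ _ ⟨F, hF, rfl⟩ hne
    rw [eq_bot_iff]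
    intro x hx
    have hx' := centralizer_sup_iff.2 ⟨hx.1.2, hx.2.2⟩
    rw [sup_eq_of_mem_Om hr hE hF (fun e => hne (by rw [e])), centralizer_sup_iff] at hx'
    exact h1.eq_one_of_mem (fD ▸ mem_inf.2 ⟨hx.1.1, hx'.2⟩) (fB ▸ mem_inf.2 ⟨hx.1.1, hx'.1⟩)
  · rcases normal_dichotomy hr (N := (B ⊔ D) ⊓ centralizer ((A ⊔ C : Subgroup G) : Set G))
      inf_le_left (fun g hg n hn' => mem_inf.2 ⟨mul_mem (mul_mem hg hn'.1) (inv_mem hg), by
        rw [← conj_eq_self_iff.2 (hn hg), ← conj_centralizer]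
        exact conj_mem_conj.2 hn'.2⟩) with e | e
    · exfalso
      refine h2.not_cm (Cm.symm (cm_iff_le.2 (le_sup_right.trans (e.trans (sup_le ?_ ?_)))))
      · exact inf_le_right.trans (centralizer_le (by exact_mod_cast le_sup_right))
      · exact cm_iff_le.1 h1.cb.symm
    · exact (e hx y hy).symm

end Cfsg.Agent.S5036
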