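import Cfsg.Statements.S5038
import Cfsg.Agent.Lib.Root.Graph

set_option autoImplicit false
open Cfsg

namespace Cfsg.Agent.S5038

open Cfsg.Lib Cfsg.Lib.Root

open Cfsg.Lib.Transfer Subgroup
open scoped Cfsg.Lib.Transfer commutatorElement

/-- Let S be a set of abstract root subgroups of G in which every member has a rank one partner, A ∈ S and B a line partner of A. Then the subgroup generated by the members of S normalizing AB permutes the members of S inside AB doubly transitively by conjugation. -/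
theorem result {G : Type*} [Group G] {S : Set (Subgroup G)} (hS : Cfsg.IsRootSubgroupSet S)
    (hF : ∀ A ∈ S, ¬ Cfsg.IsIsolatedIn (Cfsg.FAdj S) S A) {A B : Subgroup G} (hA : A ∈ S) (hB : B ∈ Cfsg.linePartners S A) :
    ∀ C₁ ∈ Cfsg.membersIn S (A ⊔ B), ∀ C₂ ∈ Cfsg.membersIn S (A ⊔ B), ∀ D₁ ∈ Cfsg.membersIn S (A ⊔ B),
      ∀ D₂ ∈ Cfsg.membersIn S (A ⊔ B), C₁ ≠ C₂ → D₁ ≠ D₂ →
        ∃ x ∈ ⨆ E ∈ Cfsg.normalizingMembers S (A ⊔ B), E, Cfsg.conjBy C₁ x = D₁ ∧ Cfsg.conjBy C₂ x = D₂ := by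
  have hall : ∀ A ∈ S, HasP S A := fun A hA => (hasP_iff hA).1 (hF A hA)
  intro C₁ h1 C₂ h2 D₁ h3 D₂ h4 hC hD
  simp only [conjBy]
  have mv : ∀ P ∈ membersIn S (A ⊔ B), ∀ Q ∈ membersIn S (A ⊔ B), ∀ R ∈ membersIn S (A ⊔ B),
      Q ≠ P → R ≠ P → ∃ x ∈ ⨆ E ∈ normalizingMembers S (A ⊔ B), E,
        x ⋆ (A ⊔ B) = A ⊔ B ∧ x ⋆ P = P ∧ x ⋆ Q = R := by
    intro P hP Q hQ R hR a b
    obtain ⟨E, hE, hn, e, he, e1⟩ := line_move hS hall hA hB hP hQ hR a b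
    exact ⟨e, mem_iSup_of_mem E (mem_iSup_of_mem ⟨hE.1.1, hn⟩ he), conj_eq_self_iff.2 (hn he),
      (line_cm hE).symm.conj_eq he, e1⟩
  obtain ⟨R, hR, r1, r2⟩ := line_third hS hA (hall A hA) hB C₁ D₁
  obtain ⟨x, hx, x1, -, rfl⟩ := mv R hR C₁ h1 D₁ h3 r1.symm r2.symm
  obtain ⟨y, hy, -, y1, rfl⟩ := mv _ h3 (x ⋆ C₂) ⟨rs_conj hS h2.1 x, x1 ▸ conj_mono x h2.2⟩ D₂ h4
    (fun e => hC (conj_inj.1 e).symm) hD.symm
  exact ⟨y * x, mul_mem hy hx, by rw [← conj_conj, y1], by rw [conj_conj]⟩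

end Cfsg.Agent.S5038
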