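import Cfsg.Statements.S5039
import Cfsg.Agent.Lib.Root.Transv

set_option autoImplicit false
universe u
open Cfsg

namespace Cfsg.Agent.S5039

open Cfsg.Lib Cfsg.Lib.Root

open Cfsg.Lib.Transfer Subgroup
open scoped Cfsg.Lib.Transfer commutatorElement

/-- Let S be a class of abstract root subgroups of G containing two different commuting members. Suppose that, in case S is degenerate and every element of every member of S has order at most 3, the following holds: for every A ∈ S and every rank one partner B of A there are subgroups A₀ ≤ A and B₀ ≤ B generating an image of SL₂(k) with central kernel, k a field with at least four elements, A₀ and B₀ being the images of the unitriangular subgroups. Then every rank one pair A, B in S is special. -/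
theorem result {G : Type u} [Group G] {S : Set (Subgroup G)} (hS : Cfsg.IsRootSubgroupClass S)
    (hcomm : ∃ A ∈ S, ∃ C ∈ S, A ≠ C ∧ ⁅A, C⁆ = ⊥)
    (hH : Cfsg.IsDegenerateRootSet S → (∀ A ∈ S, ∀ a ∈ A, 0 < orderOf a ∧ orderOf a ≤ 3) →
      ∀ A ∈ S, ∀ B ∈ Cfsg.rankOnePartners S A, ∃ A₀ B₀ : Subgroup G, A₀ ≤ A ∧ B₀ ≤ B ∧
        ∃ (k : Type u) (_ : Field k), 3 < ENat.card k ∧ Cfsg.IsPSL2PairOver k A₀ B₀)
    {A B : Subgroup G} (hA : A ∈ S) (hB : B ∈ Cfsg.rankOnePartners S A) : Cfsg.IsSpecialRankOnePair A B := by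
  obtain ⟨hBS, hAB⟩ := id hB
  by_cases hd : IsDegenerateRootSet S
  swap
  · simp only [IsDegenerateRootSet, not_forall, not_not] at hd
    obtain ⟨P, hP, Q, hQ, h⟩ := hd
    exact nondeg_special hS ⟨hcomm, ⟨A, hA, B, hBS, hAB⟩, P, hP, Q, hQ, h⟩ hA hBS hAB
  by_cases hb : ∃ R ∈ S, R ≠ A ∧ Cm R A ∧ ¬ Cm R B
  · obtain ⟨R, hR, h1, h2, h3⟩ := hb
    exact special_of_triangle hS.1 hA hBS hAB ((deg_tri hS.1 hd hR hBS).resolve_left h3) h2.symm
      h1.symm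
  push Not at hb
  obtain ⟨A₀, hA₀, C, hC, hne, hc⟩ := hcomm
  obtain ⟨P, hP, Q, hQ, k1, k2, k3, k4⟩ := exists_triangle hS.1 hd hC (cm_iff.1 hc) hne
    (class_connected hS hA ⟨B, hBS, hAB⟩ A₀ hA₀ C hC)
  have hno : ∀ E ∈ S, ∀ a₁ ∈ E, ∀ a₂ ∈ E, ∀ a₃ ∈ E, a₁ ≠ 1 → a₂ ≠ 1 → a₃ ≠ 1 → a₂ * a₁ ≠ 1 →
      a₃ * a₁ ≠ 1 → a₃ * a₂ ≠ 1 → a₃ * (a₂ * a₁) ≠ 1 → False := by
    intro E hE a₁ h1 a₂ h2 a₃ h3 n1 n2 n3 n4 n5 n6 n7
    obtain ⟨g, rfl⟩ := hS.2.2 Q hQ A hA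
    obtain ⟨x, e⟩ := hS.2.2 E hE _ (rs_conj hS.1 hP g)
    have cj : ∀ {a : G}, a ≠ 1 → x * a * x⁻¹ ≠ 1 := fun h => by simpa using h
    have m : ∀ {a : G}, a ∈ E → x * a * x⁻¹ ∈ g ⋆ P := fun h => e ▸ conj_mem_conj.2 h
    refine no_block hS.1 hA (r1_conj k3 g) (r1_conj k4 g) ((rs_cm hS.1 hP).conj g) (k1.conj g)
      (fun e => k2 (conj_inj.1 e)) hAB hb (m h1) (m h2) (m h3) (cj n1) (cj n2) (cj n3) ?_ ?_ ?_ ?_
    · rw [conj_mul]; exact cj n4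
    · rw [conj_mul]; exact cj n5
    · rw [conj_mul]; exact cj n6
    · rw [conj_mul, conj_mul]; exact cj n7
  obtain ⟨A₀, B₀, hA₀, hB₀, k, _, hk, hφ⟩ := hH hd (fun E hE a ha => by
    have : a ^ 2 = 1 ∨ a ^ 3 = 1 := by
      by_contra hn
      push Not at hn
      have h1 : a ≠ 1 := fun e => hn.1 (by simp [e])
      have h2 : a * a ≠ 1 := sq a ▸ hn.1
      exact hno E hE a ha a ha a ha h1 h1 h1 h2 h2 h2 (by rw [← pow_three]; exact hn.2)
    rcases this with e | e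
    · exact ⟨orderOf_pos_iff.2 (isOfFinOrder_iff_pow_eq_one.2 ⟨2, by norm_num, e⟩),
        (orderOf_le_of_pow_eq_one (by norm_num) e).trans (by norm_num)⟩
    · exact ⟨orderOf_pos_iff.2 (isOfFinOrder_iff_pow_eq_one.2 ⟨3, by norm_num, e⟩),
        orderOf_le_of_pow_eq_one (by norm_num) e⟩) A hA B hB
  have hs := special_of_psl2 hφ
  obtain ⟨s, hs0, hs1⟩ : ∃ s : k, s ≠ 0 ∧ s ≠ -1 := by
    by_contra hn
    push Not at hn
    have e2 : (Set.univ : Set k) ⊆ {0, -1} := fun γ _ => by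
      by_cases h : γ = 0
      · exact Or.inl h
      · exact Or.inr (hn γ h)
    have := (Set.encard_le_encard e2).trans (Set.encard_insert_le _ _)
    rw [Set.encard_univ, Set.encard_singleton] at this
    have := hk.trans_le this
    norm_num at this
  have hs1' : s + 1 ≠ 0 := fun e => hs1 (eq_neg_of_add_eq_zero_left e)
  have key : ∀ E ∈ S, ∀ E₀ ≤ E, (∃ a₁ ∈ E₀, ∃ a₂ ∈ E₀, a₁ ≠ 1 ∧ a₂ ≠ 1 ∧ a₂ * a₁ ≠ 1) → E₀ = E := by
    rintro E hE E₀ hle ⟨a₁, h1, a₂, h2, n1, n2, n3⟩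
    refine le_antisymm hle fun e he => ?_
    by_contra hn
    have n : ∀ {u : G}, u ∈ E₀ → e * u ≠ 1 := fun hu h =>
      hn (eq_inv_of_mul_eq_one_left h ▸ inv_mem hu)
    exact hno E hE a₁ (hle h1) a₂ (hle h2) e he n1 n2 (by simpa using n (one_mem _)) n3 (n h1)
      (n h2) (n (mul_mem h2 h1))
  obtain ⟨φ, -, hker, e1, e2⟩ := hφ
  have u1 : ∀ t : k, t ≠ 0 → φ (xU t) ≠ 1 := fun t ht e => ht (xU_inj
    ((eq_one_of_mem_center sl2_rankOne left_mem_Om (xU_mem t) (hker e)).trans xU_zero.symm))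
  have u2 : ∀ t : k, t ≠ 0 → φ (xL t) ≠ 1 := fun t ht e => ht (xL_inj
    ((eq_one_of_mem_center sl2_rankOne right_mem_Om (xL_mem t) (hker e)).trans xL_zero.symm))
  rwa [key A hA A₀ hA₀ ⟨_, e1 ▸ mem_map_of_mem φ (xU_mem 1), _, e1 ▸ mem_map_of_mem φ (xU_mem s),
      u1 1 one_ne_zero, u1 s hs0, by rw [← map_mul, ← xU_add]; exact u1 _ hs1'⟩,
    key B hBS B₀ hB₀ ⟨_, e2 ▸ mem_map_of_mem φ (xL_mem 1), _, e2 ▸ mem_map_of_mem φ (xL_mem s),
      u2 1 one_ne_zero, u2 s hs0, by rw [← map_mul, ← xL_add]; exact u2 _ hs1'⟩] at hs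

end Cfsg.Agent.S5039
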