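import Cfsg.Statements.S5040
import Cfsg.Agent.Lib.Root.Graph

set_option autoImplicit false
open Cfsg

namespace Cfsg.Agent.S5040

open Cfsg.Lib Cfsg.Lib.Root

open Cfsg.Lib.Transfer Subgroup
open scoped Cfsg.Lib.Transfer commutatorElement

/-- Let S be a non-degenerate class of abstract root subgroups of G and Δ a weak TI-subset of S. Then the members of Δ commute with one another elementwise. -/
theorem result {G : Type*} [Group G] {S : Set (Subgroup G)} (hS : Cfsg.IsRootSubgroupClass S) (hnd : Cfsg.IsNondegenerateRootSet S)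
    {Δ : Set (Subgroup G)} (hΔ : Cfsg.IsWeakTISubset S Δ) : Cfsg.IsAbelianFamily Δ := by
  have hall := nondeg_hasP hS hnd
  obtain ⟨hsub, -, hne, hTI⟩ := hΔ
  let N : Subgroup G :=
    { carrier := {g | ∀ A, A ∈ Δ ↔ g ⋆ A ∈ Δ}
      one_mem' := fun A => by rw [conj_one]
      mul_mem' := fun {x y} hx hy A => by rw [← conj_conj, ← hx, ← hy]
      inv_mem' := fun {x} hx A => by rw [hx (x⁻¹ ⋆ A), conj_inv_conj] }
  have key : ∀ E ∈ S, ∀ A ∈ Δ, Cm E A → E ≤ N := by
    intro E hE A hA hc e he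
    by_cases he1 : e = 1
    · rw [he1]; exact one_mem _
    rcases hTI e ⟨he1, E, hE, he⟩ with h | h
    · intro B
      constructor
      · exact fun hB => h ▸ ⟨B, hB, rfl⟩
      · intro hB
        obtain ⟨B', hB', e1⟩ := h.symm ▸ hB
        exact conj_inj.1 e1 ▸ hB'
    · exact absurd hA (Set.disjoint_left.1 h ⟨A, hA, hc.conj_eq he⟩)
  have opp : ∀ A ∈ Δ, ∀ B ∈ Δ, ¬ IsRankOnePair A B := by
    intro A hA B hB h
    have : N = ⊤ := nondeg_eq_top hS hnd (hsub hA) (hsub hB) h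
      (fun C hC => key C hC.1.1 A hA (line_cm hC).symm)
      (key B (hsub hB) B hB (rs_cm hS.1 (hsub hB)))
    refine hne (hsub.antisymm fun C hC => ?_)
    obtain ⟨g, rfl⟩ := hS.2.2 A (hsub hA) C hC
    exact ((this ▸ mem_top g : g ∈ N) A).1 hA
  intro A hA B hB
  rcases rs_tri hS.1 (hsub hA) (hsub hB) with h | h | ⟨C, hC, h⟩
  · exact h
  · exact absurd h (opp A hA B hB)
  exfalso
  obtain ⟨E, hE, h2⟩ := line_exists_cc hS.1 hall (hsub hA)
    (h.line hS.1 (hsub hA) (hall A (hsub hA)) hC)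
  have r := r1_of_cc_cc hS.1 (hsub hB) hE h h2
  obtain ⟨x, hx, e⟩ := exists_swap r
  have hxN : x ∈ N := sup_le (key B (hsub hB) B hB (rs_cm hS.1 (hsub hB)))
    (key E hE A hA h2.cb.symm) hx
  exact opp B hB E (e ▸ (hxN B).1 hB) r

end Cfsg.Agent.S5040
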