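import Cfsg.Statements.S5043
import Cfsg.Agent.Lib.RI.U1SL

set_option autoImplicit false
open Matrix
open Cfsg

namespace Cfsg.Agent.S5043

/-- Let k be a field and n a natural number. In SL_{n+3}(k) (so in every dimension at least 3) the conjugates of the root subgroup of elementary transvections 1 + c E₁₂ (c ∈ k) — that is, the groups of transvections attached to an incident point–hyperplane pair — form a non-degenerate class of abstract k-root subgroups of SL_{n+3}(k) whose graph of rank one pairs is connected. -/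
theorem result (k : Type*) [Field k] (n : ℕ) :
    Cfsg.IsRootSubgroupClass {A : Subgroup (Matrix.SpecialLinearGroup (Fin (n + 3)) k) |
        ∃ g : Matrix.SpecialLinearGroup (Fin (n + 3)) k,
          A = Cfsg.conjBy (Subgroup.closure {t : Matrix.SpecialLinearGroup (Fin (n + 3)) k |
            ∃ c : k, (t : Matrix (Fin (n + 3)) (Fin (n + 3)) k) = Matrix.transvection 0 1 c}) g} ∧
    Cfsg.IsNondegenerateRootSet {A : Subgroup (Matrix.SpecialLinearGroup (Fin (n + 3)) k) |
        ∃ g : Matrix.SpecialLinearGroup (Fin (n + 3)) k,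
          A = Cfsg.conjBy (Subgroup.closure {t : Matrix.SpecialLinearGroup (Fin (n + 3)) k |
            ∃ c : k, (t : Matrix (Fin (n + 3)) (Fin (n + 3)) k) = Matrix.transvection 0 1 c}) g} ∧
    Cfsg.IsKRootSubgroupSet k {A : Subgroup (Matrix.SpecialLinearGroup (Fin (n + 3)) k) |
        ∃ g : Matrix.SpecialLinearGroup (Fin (n + 3)) k,
          A = Cfsg.conjBy (Subgroup.closure {t : Matrix.SpecialLinearGroup (Fin (n + 3)) k |
            ∃ c : k, (t : Matrix (Fin (n + 3)) (Fin (n + 3)) k) = Matrix.transvection 0 1 c}) g} ∧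
    Cfsg.IsConnectedFamily (Cfsg.FAdj {A : Subgroup (Matrix.SpecialLinearGroup (Fin (n + 3)) k) |
        ∃ g : Matrix.SpecialLinearGroup (Fin (n + 3)) k,
          A = Cfsg.conjBy (Subgroup.closure {t : Matrix.SpecialLinearGroup (Fin (n + 3)) k |
            ∃ c : k, (t : Matrix (Fin (n + 3)) (Fin (n + 3)) k) = Matrix.transvection 0 1 c}) g})
      {A : Subgroup (Matrix.SpecialLinearGroup (Fin (n + 3)) k) |
        ∃ g : Matrix.SpecialLinearGroup (Fin (n + 3)) k,
          A = Cfsg.conjBy (Subgroup.closure {t : Matrix.SpecialLinearGroup (Fin (n + 3)) k |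
            ∃ c : k, (t : Matrix (Fin (n + 3)) (Fin (n + 3)) k) = Matrix.transvection 0 1 c}) g} := by
  open Cfsg.Lib.RI Cfsg.Lib.Root Cfsg.Lib.Transfer in
    have h01 : (0 : Fin (n + 3)) ≠ 1 := by simp
    have h02 : (0 : Fin (n + 3)) ≠ 2 := by simp [Fin.ext_iff, Nat.mod_eq_of_lt]
    have h12 : (1 : Fin (n + 3)) ≠ 2 := by simp [Fin.ext_iff, Nat.mod_eq_of_lt]
    have H := sl_fam (k := k) h01
    have hk := H.kroot (sl_gen H)
    obtain ⟨A, hA, a1⟩ := H.mk' _ (tn_single h01)
    obtain ⟨B, hB, b1⟩ := H.mk' _ (tn_single h02)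
    obtain ⟨C, hC, c1⟩ := H.mk' _ (tn_single h12)
    refine (fun hc => ⟨hc, ⟨⟨A, hA, B, hB, fun e => ?_, cm_iff.2 (a1.cm H.inj b1 ?_)⟩, ⟨A, hA, H.lrs.hasP A hA⟩,
      A, hA, C, hC, (a1.cc H.inj c1 ?_ ?_ (C := B) ?_).case hB⟩, hk, class_connected hc hA (H.lrs.hasP A hA)⟩)
      ⟨hk.1, ⟨A, hA⟩, ?_⟩
    · have := a1.of_cm c1 (e ▸ b1.cm H.inj c1 (by simp [single_mul_single_of_ne, h02.symm, h12.symm]))
      simpa [single_mul_single_of_ne, h02.symm] using congrFun (congrFun this 0) 2
    · simp [single_mul_single_of_ne, h01.symm, h02.symm]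
    · simp [single_mul_single_of_ne, h02.symm]
    · simp [single_mul_single_of_ne, h02.symm]
    · simpa [single_mul_single_of_ne, h02.symm] using b1
    · rintro _ ⟨g, rfl⟩ _ ⟨h, rfl⟩
      exact ⟨h * g⁻¹, ((conj_conj _ _ _).trans (by rw [inv_mul_cancel_right])).symm⟩

end Cfsg.Agent.S5043
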