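import Cfsg.Statements.S5045
import Cfsg.Agent.Lib.RI.Red

set_option autoImplicit false
open Cfsg

namespace Cfsg.Agent.S5045

open Cfsg.Lib.RI Cfsg.Lib.Core Subgroup in
theorem aux {G : Type*} [Group G] [Finite G] {D : Set G} (hD : Cfsg.IsRootInvolutionSet D) :
    ∀ w, Cfsg.IsIsolatedElem (Cfsg.OddAdj D) D w ↔ w ∈ D ∧ w ∈ Cfsg.pCore 2 G := fun w => by
  have h := rt_of hD
  rw [h.iso_iff]
  exact and_congr_right fun hw => ⟨h.mem_pCore hD.generates hw,
    fun e b hb e' => h.not_mem_pCore hw hb e' e⟩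

/-- Let G be a finite group generated by a set D of root involutions, and W the set of members of D whose product with every other member of D has even order or is trivial (the isolated vertices of the odd-order-product graph on D). Then W is conjugation-invariant and generates a normal 2-subgroup of G meeting D in exactly W; the commutator of two members of D lying in different connected components of that graph, each with more than one member, lies in the subgroup generated by W; and for a in such a component, every member of D commuting with a, different from a and with product with a in D, lies in that component or in W. -/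
theorem result {G : Type*} [Group G] [Finite G] {D : Set G} (hD : Cfsg.IsRootInvolutionSet D) :
    (∀ w ∈ {w | Cfsg.IsIsolatedElem (Cfsg.OddAdj D) D w}, ∀ g : G, g * w * g⁻¹ ∈ {w | Cfsg.IsIsolatedElem (Cfsg.OddAdj D) D w}) ∧
    (Subgroup.closure {w | Cfsg.IsIsolatedElem (Cfsg.OddAdj D) D w}).Normal ∧
    IsPGroup 2 ↥(Subgroup.closure {w | Cfsg.IsIsolatedElem (Cfsg.OddAdj D) D w}) ∧
    (Subgroup.closure {w | Cfsg.IsIsolatedElem (Cfsg.OddAdj D) D w} : Set G) ∩ D = {w | Cfsg.IsIsolatedElem (Cfsg.OddAdj D) D w} ∧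
    (∀ a ∈ D, ∀ b ∈ D, (∃ a' ∈ Cfsg.elemComponentOf (Cfsg.OddAdj D) D a, a' ≠ a) →
      (∃ b' ∈ Cfsg.elemComponentOf (Cfsg.OddAdj D) D b, b' ≠ b) →
      Cfsg.elemComponentOf (Cfsg.OddAdj D) D a ≠ Cfsg.elemComponentOf (Cfsg.OddAdj D) D b →
        a * b * a⁻¹ * b⁻¹ ∈ Subgroup.closure {w | Cfsg.IsIsolatedElem (Cfsg.OddAdj D) D w}) ∧
    (∀ a ∈ D, (∃ a' ∈ Cfsg.elemComponentOf (Cfsg.OddAdj D) D a, a' ≠ a) →
      Cfsg.productPartners D a ⊆ Cfsg.elemComponentOf (Cfsg.OddAdj D) D a ∪ {w | Cfsg.IsIsolatedElem (Cfsg.OddAdj D) D w}) := by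
  have h := Cfsg.Lib.RI.rt_of hD
  have h1 : ∀ w ∈ {w | Cfsg.IsIsolatedElem (Cfsg.OddAdj D) D w}, ∀ g : G,
      g * w * g⁻¹ ∈ {w | Cfsg.IsIsolatedElem (Cfsg.OddAdj D) D w} := fun w hw g =>
    (aux hD _).2 ⟨hD.conj_mem w hw.1 g, Cfsg.Lib.RI.cj_mem_normal g ((aux hD w).1 hw).2⟩
  have h2 : Subgroup.closure {w | Cfsg.IsIsolatedElem (Cfsg.OddAdj D) D w} ≤ Cfsg.pCore 2 G :=
    (Subgroup.closure_le _).2 fun w hw => ((aux hD w).1 hw).2
  refine ⟨h1, ?_, (Cfsg.Lib.Core.pCore_isPGroup 2 G).to_le h2, ?_, ?_, ?_⟩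
  · rw [← Subgroup.normalizer_eq_top_iff, eq_top_iff]
    exact Subgroup.le_normalizer_closure_iff.2 fun g _ w hw => Subgroup.subset_closure (h1 w hw g)
  · exact Set.ext fun w => ⟨fun hw => (aux hD w).2 ⟨hw.2, h2 hw.1⟩,
      fun hw => ⟨Subgroup.subset_closure hw, hw.1⟩⟩
  · rintro a ha b hb ⟨a', ha', e1⟩ ⟨b', hb', e2⟩ hne
    obtain ⟨x, hx, h3⟩ := h.exists_od ha'.2 e1
    obtain ⟨y, hy, h4⟩ := h.exists_od hb'.2 e2
    rcases h.comm_or ha hb hx h3 hy h4 (fun e => hne (Set.ext fun z =>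
      ⟨fun hz => ⟨hz.1, (h.oc_symm e).trans hz.2⟩, fun hz => ⟨hz.1, e.trans hz.2⟩⟩)) with e | e
    · rw [e.eq]; simp
    · refine Subgroup.subset_closure (h.iso_iff.2 ?_)
      have : a * b * a⁻¹ * b⁻¹ = a * Cfsg.Lib.RI.cj b a := by
        rw [h.inv_eq ha, Cfsg.Lib.RI.cj_def]; simp [mul_assoc]
      rw [this]
      exact ⟨h.vp_mem ha hb e.1, e.2⟩
  · rintro a ha ⟨a', ha', e1⟩ b ⟨⟨hb, h3, -⟩, h4⟩
    obtain ⟨x, hx, h5⟩ := h.exists_od ha'.2 e1
    by_cases h6 : ∃ y ∈ D, Cfsg.Lib.RI.Od b y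
    · obtain ⟨y, hy, h6⟩ := h6
      exact Or.inl ⟨hb, h.oc_of_prod ha hb h3.symm (h3 ▸ h4) hx h5 hy h6⟩
    · push Not at h6
      exact Or.inr (h.iso_iff.2 ⟨hb, h6⟩)

end Cfsg.Agent.S5045
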