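import Cfsg.Statements.S5046
import Cfsg.Agent.Lib.RI.L3

set_option autoImplicit false
open Cfsg

namespace Cfsg.Agent.S5046

/-- Let G be a finite group generated by a set D of root involutions whose odd-order-product graph is connected, and d ∈ D. Then the members e of D with the same commuting members as d are exactly those for which the union of the commuting members of d and the members whose product with d has order 4 equals the corresponding union for e. -/
theorem result {G : Type*} [Group G] [Finite G] {D : Set G} (hD : Cfsg.IsRootInvolutionSet D)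
    (hc : Cfsg.IsConnectedSet (Cfsg.OddAdj D) D) {d : G} (hd : d ∈ D) :
    Cfsg.sameCommutingClass D d =
      {e | e ∈ D ∧ Cfsg.commutingMembers D d ∪ Cfsg.fourPartners D d = Cfsg.commutingMembers D e ∪ Cfsg.fourPartners D e} := by
  have h := Cfsg.Lib.RI.rt_of hD
  have key : ∀ a ∈ D, ∀ x, x ∈ Cfsg.commutingMembers D a ∪ Cfsg.fourPartners D a ↔
      x ∈ D ∧ ¬ Cfsg.Lib.RI.Od x a := fun a ha x => by
    refine ⟨?_, fun ⟨hx, e⟩ => ?_⟩
    · rintro (e | e)
      · exact ⟨e.1, fun e' => e'.1 e.2⟩
      · exact ⟨e.1, fun e' => (Cfsg.Lib.RI.vp_of_ord (h.sqr ha) (h.sqr e.1) e.2).not_od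
          (h.sqr ha) (h.sqr e.1) e'.symm⟩
    · rcases h.tri hx ha with e' | e' | e'
      · exact Or.inl ⟨hx, e'⟩
      · exact absurd e' e
      · exact Or.inr ⟨hx, (h.vp_symm hx ha e').ord (h.sqr ha) (h.sqr hx)⟩
  ext e
  rw [Cfsg.Lib.RI.mem_ec]
  refine and_congr_right fun he => ⟨fun e1 => Set.ext fun x => ?_, fun e1 => ?_⟩
  · rw [key d hd, key e he]
    exact and_congr_right fun hx => not_congr
      ⟨fun e2 => h.od_of_ec hx he e1 e2 hd, fun e2 => h.od_of_ec hx hd e1.symm e2 he⟩
  · refine h.ec_of_ac hc hd he fun x hx => ?_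
    have := Set.ext_iff.1 e1 x
    rw [key d hd, key e he] at this
    exact not_iff_not.1 ((and_congr_right_iff.1 this) hx)

end Cfsg.Agent.S5046
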