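import Cfsg.Statements.S5048
import Cfsg.Agent.Lib.RI.Red

set_option autoImplicit false
open Cfsg

namespace Cfsg.Agent.S5048

/-- Let G be a finite group generated by a set D of root involutions whose odd-order-product graph is connected, with some product of two different commuting members of D again in D. Then the largest solvable normal subgroup of G is the preimage of the centre of G/O₂(G), and the quotient of G by it is a simple group. -/
theorem result {G : Type*} [Group G] [Finite G] {D : Set G} (hD : Cfsg.IsRootInvolutionSet D)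
    (hc : Cfsg.IsConnectedSet (Cfsg.OddAdj D) D) (hDD : (D ∩ Cfsg.commutingProducts D).Nonempty) :
    Cfsg.solvableRadical G = Cfsg.twoZCore G ∧ IsSimpleGroup (G ⧸ Cfsg.twoZCore G) := by
  have h := Cfsg.Lib.RI.rt_of hD
  have h4 := Cfsg.Lib.RI.four_of hDD
  refine ⟨le_antisymm (sSup_le fun N hN => ?_) (le_sSup ⟨inferInstance, ?_⟩),
    h.simple_quot hD.generates hc h4⟩
  · haveI := hN.1
    refine (h.normal_le hD.generates hc h4 N).resolve_right ?_
    rintro rfl
    haveI := hN.2
    haveI : Group.IsSolvable G := Group.isSolvable_of_surjective (f := (⊤ : Subgroup G).subtype)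
      fun g => ⟨⟨g, trivial⟩, rfl⟩
    obtain ⟨a, ha, -⟩ := id h4
    haveI : Nontrivial G := ⟨a, 1, h.ne_one ha⟩
    refine (Group.IsSolvable.commutator_lt_top_of_nontrivial G).ne (eq_top_iff.2 ?_)
    rw [← hD.generates, Subgroup.closure_le]
    intro d hd
    have := h.mem_commutator hc h4 hd
    rwa [hD.generates] at this
  · haveI : Fact (Nat.Prime 2) := ⟨Nat.prime_two⟩
    haveI := (Cfsg.Lib.Core.pCore_isPGroup 2 G).isNilpotent
    let f : Cfsg.twoZCore G →* Subgroup.center (G ⧸ Cfsg.pCore 2 G) :=
      ((QuotientGroup.mk' (Cfsg.pCore 2 G)).domRestrict _).codRestrict _ fun x => x.2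
    haveI : Group.IsSolvable (Subgroup.center (G ⧸ Cfsg.pCore 2 G)) :=
      Group.isSolvable_of_comm fun a b => Subtype.ext (b.2.comm a).symm
    refine Group.isSolvable_of_ker_le_range (Subgroup.inclusion Cfsg.Lib.RI.pCore_le_zs) f fun x hx => ?_
    exact ⟨⟨x, (QuotientGroup.eq_one_iff _).1 (congrArg Subtype.val hx)⟩, rfl⟩

end Cfsg.Agent.S5048
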