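import Cfsg.Statements.S5049
import Cfsg.Agent.Lib.RI.Red

set_option autoImplicit false
open Cfsg

namespace Cfsg.Agent.S5049

/-- Let G be a finite group generated by a set D of odd transpositions (root involutions with no product of order 4), Q = O₂(G), and for a ∈ D let Q_a be the commutator subgroup of Q with a. Then every member of D commuting with a centralizes Q_a; and for b ∈ D with ab of odd order greater than 1, the centralizer of ab in Q is the intersection of the centralizers of a and b in Q. -/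
theorem result {G : Type*} [Group G] [Finite G] {D : Set G} (hD : Cfsg.IsOddTranspositionSet D) {a : G} (ha : a ∈ D) :
    (∀ e ∈ Cfsg.commutingMembers D a, ∀ q ∈ ⁅Cfsg.pCore 2 G, Subgroup.zpowers a⁆, e * q = q * e) ∧
    (∀ b ∈ Cfsg.oddPartners D a,
      Cfsg.pCore 2 G ⊓ Subgroup.centralizer {a * b} = Cfsg.pCore 2 G ⊓ Subgroup.centralizer {a} ⊓ Subgroup.centralizer {b}) := by
  have h := Cfsg.Lib.RI.rt_of hD.1
  have h1 : ∀ e ∈ D, Commute e a → ∀ q ∈ Cfsg.pCore 2 G, Commute e (Cfsg.Lib.RI.cj q a) :=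
    fun e he hc q hq => by
      have hm := hD.1.conj_mem a ha q
      rcases h.tri he hm with e1 | e1 | e1
      · exact e1
      · exact absurd e1 (Cfsg.Lib.RI.not_od_cj (Cfsg.Lib.Core.pCore_isPGroup 2 G) hq (h.sqr he)
          (h.sqr ha) hc)
      · exact absurd (e1.ord (h.sqr he) (h.sqr hm)) (hD.2 _ he _ hm)
  refine ⟨fun e he q hq => ?_, fun b hb => le_antisymm (fun q hq => ?_) fun q hq => ⟨hq.1.1, ?_⟩⟩
  · rw [Subgroup.commutator_def] at hq
    refine Cfsg.Lib.RI.comm_closure ?_ hq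
    rintro _ ⟨q, hq, _, ⟨k, rfl⟩, rfl⟩
    rw [commutatorElement_def, ← conj_zpow]
    exact ((h1 e he.1 he.2 q hq).zpow_right k).mul_right (Commute.zpow_right he.2 k).inv_right
  · have hq2 : Commute q (a * b) := (Subgroup.mem_centralizer_singleton_iff.1 hq.2)
    have hod := Cfsg.Lib.RI.od_of_ne (h.sqr ha) (h.sqr hb.1) hb.2.1.symm hb.2.2
    have h2 := h1 a ha (Commute.refl a) q hq.1
    have h3 := Cfsg.Lib.RI.cj_of_comm hq2
    rw [Cfsg.Lib.RI.cj_mul] at h3
    have h5 : a * Cfsg.Lib.RI.cj q a = b * Cfsg.Lib.RI.cj q b := by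
      rw [eq_mul_inv_of_mul_eq h3, ← Cfsg.Lib.RI.cj_inv, h.inv_eq hb.1, ← mul_assoc, ← mul_assoc,
        h.sqr ha, one_mul]
    have hs := Cfsg.Lib.RI.mul_sq_of_comm (h.sqr ha) (Cfsg.Lib.RI.cj_mul_self (h.sqr ha) q) h2
    have h6 : Commute (a * Cfsg.Lib.RI.cj q a) b := by
      rw [h5] at hs ⊢
      exact (Commute.refl b).mul_left (Cfsg.Lib.RI.comm_of_mul_sq (h.sqr hb.1)
        (Cfsg.Lib.RI.cj_mul_self (h.sqr hb.1) q) hs).symm
    have h7 := h.l0 hb.1 hod.symm (Cfsg.Lib.RI.two_of_sq hs) h6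
      ((Commute.refl a).mul_left h2.symm) (by
        rw [Cfsg.Lib.RI.cancel2 (h.sqr ha)]; exact hD.1.conj_mem a ha q)
    have h8 : Commute q a := Cfsg.Lib.RI.cj_eq_iff.1
      (Cfsg.Lib.RI.eq_of_mul_eq_one' (Cfsg.Lib.RI.cj_mul_self (h.sqr ha) q) h7).symm
    refine ⟨⟨hq.1, Subgroup.mem_centralizer_singleton_iff.2 h8⟩,
      Subgroup.mem_centralizer_singleton_iff.2 ?_⟩
    have h9 : Commute q b := by simpa using h8.inv_right.mul_right hq2
    exact h9
  · exact Subgroup.mem_centralizer_singleton_iff.2 (Commute.mul_right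
      (Subgroup.mem_centralizer_singleton_iff.1 hq.1.2) (Subgroup.mem_centralizer_singleton_iff.1 hq.2))

end Cfsg.Agent.S5049
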