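import Cfsg.Statements.S5057
import Cfsg.Agent.Lib.D3.L27
import Cfsg.Agent.Lib.Inv.Basic

set_option autoImplicit false
open Cfsg

namespace Cfsg.Agent.S5057

open Cfsg.Lib.D3 Cfsg.Lib.Inv Subgroup

theorem ord (x : alternatingGroup (Fin 6)) :
    orderOf x = 1 ∨ orderOf x = 2 ∨ orderOf x = 3 ∨ orderOf x = 4 ∨ orderOf x = 5 := by
  rcases ex_A6 x with h | h | h <;> have h1 := orderOf_dvd_of_pow_eq_one h <;>
    have h2 := Nat.le_of_dvd (by norm_num) h1 <;> generalize orderOf x = n at h1 h2 <;>
    interval_cases n <;> simp_all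

/-- The involutions of the alternating group of degree 6 form a class of root involutions (a single conjugacy class of involutions generating the group, any two of which commute, have product of odd order, or have product of order 4 whose square is again an involution of the class), and the product of any two of them has order at most 5. -/
theorem result :
    Cfsg.IsRootInvolutionClass {g : ↥(alternatingGroup (Fin 6)) | orderOf g = 2} ∧
    ∀ d ∈ {g : ↥(alternatingGroup (Fin 6)) | orderOf g = 2}, ∀ e ∈ {g : ↥(alternatingGroup (Fin 6)) | orderOf g = 2},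
      orderOf (d * e) ≤ 5 := by
  have h0 : orderOf a6 = 2 := orderOf_eq_two_iff.2 ⟨by decide, by decide⟩
  have hc : ∀ {x}, orderOf x = 2 → IsConj a6 x := fun h =>
    conj_a6 ((sq _).trans (mul_self_of_orderOf h)) (ne_one_of_orderOf h)
  refine ⟨⟨⟨fun d h => h, ?_, fun d h g => (orderOf_conj' g d).trans h, fun a ha b hb => ?_⟩, ⟨a6, h0⟩,
    fun a ha b hb => let ⟨g, h⟩ := isConj_iff.1 ((hc ha).symm.trans (hc hb)); ⟨g, h.symm⟩⟩,
    fun d _ e _ => by rcases ord (d * e) with h | h | h | h | h <;> omega⟩
  · have : IsSimpleGroup (alternatingGroup (Fin 6)) := alternatingGroup.isSimpleGroup (by simp)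
    have hn : (closure {g : alternatingGroup (Fin 6) | orderOf g = 2}).Normal := ⟨fun x hx g => by
      induction hx using closure_induction with
      | mem x hx => exact subset_closure ((orderOf_conj' g x).trans hx)
      | one => simp
      | mul x y _ _ h1 h2 => simpa [mul_assoc] using mul_mem h1 h2
      | inv x _ h => simpa [mul_assoc] using inv_mem h⟩
    exact (hn.eq_bot_or_eq_top).resolve_left fun e => ne_one_of_orderOf h0 (mem_bot.1 (e.le (subset_closure h0)))
  · rcases ord (a * b) with h | h | h | h | h
    · exact Or.inr (Or.inl (h ▸ odd_one))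
    · refine Or.inl ?_
      rw [← inv_eq_of_orderOf h, mul_inv_rev, inv_eq_of_orderOf ha, inv_eq_of_orderOf hb]
    · exact Or.inr (Or.inl (h ▸ by decide))
    · exact Or.inr (Or.inr ⟨h, show orderOf _ = 2 by rw [orderOf_pow' _ two_ne_zero, h]; rfl⟩)
    · exact Or.inr (Or.inl (h ▸ by decide))

end Cfsg.Agent.S5057
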