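import Cfsg.Statements.S5058
import Cfsg.Agent.Lib.RI.U1SL
import Cfsg.Agent.S2579

set_option autoImplicit false
open Matrix
open Cfsg

namespace Cfsg.Agent.S5058

open Cfsg.Lib.RI Cfsg.Lib.Root Cfsg.Lib.Linear Cfsg.Lib.Inv Subgroup
open scoped MatrixGroups commutatorElement

theorem sl2_odd {k : Type*} [Field k] [Finite k] [CharP k 2] {s t : k} (hs : s ≠ 0) (ht : t ≠ 0) :
    Odd (orderOf (xU s * xL t)) := by
  by_contra h
  obtain ⟨h1, h2, h3⟩ := half_pow_of_even (x := xU s) (y := xL t)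
    (by rw [← xU_add, CharTwo.add_self_eq_zero, xU_zero]) (by rw [← xL_add, CharTwo.add_self_eq_zero, xL_zero])
    (Nat.not_odd_iff_even.1 h)
  generalize (xU s * xL t) ^ (orderOf (xU s * xL t) / 2) = z at h1 h2 h3
  have b1 : z.1 * (xU s).1 = (xU s).1 * z.1 := congrArg Subtype.val h2.eq
  have b2 : z.1 * (xL t).1 = (xL t).1 * z.1 := congrArg Subtype.val h3.eq
  have a1 := congrFun (congrFun b1 0) 0
  have a2 := congrFun (congrFun b1 0) 1
  have a3 := congrFun (congrFun b2 0) 0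
  simp [Matrix.mul_apply, Fin.sum_univ_two, hs, ht] at a1 a2 a3
  have a4 : z 0 0 = z 1 1 := mul_left_cancel₀ hs (by linear_combination a2)
  have a5 := sl2_det z
  rw [a1, ← a4, mul_zero, sub_zero] at a5
  have a6 : z 0 0 = 1 := by
    rcases mul_self_eq_one_iff.1 a5 with h | h
    exacts [h, h.trans (CharTwo.neg_eq 1)]
  exact ne_one_of_orderOf h1 (sl2_ext (by simpa) (by simpa) (by simpa) (by simpa [← a4]))

theorem mem_iff {F : Type*} [Field F] {n : ℕ} {t : SL(n + 3, F)} : (∃ c : F, c ≠ 0 ∧ ∃ g : SL(n + 3, F),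
    ((g⁻¹ * t * g : SL(n + 3, F)) : Matrix (Fin (n + 3)) (Fin (n + 3)) F) = Matrix.transvection 0 1 c) ↔
    ∃ e, Tn e ∧ SpecialLinearGroup.coeMonoidHom t = 1 + e := by
  have h01 : (0 : Fin (n + 3)) ≠ 1 := by simp
  constructor
  · rintro ⟨c, hc, g, h⟩
    refine ⟨_, tn_conj ((tn_single h01).smul hc) g, ?_⟩
    have : t = g * (g⁻¹ * t * g) * g⁻¹ := by group
    rw [this]
    show g.1 * (g⁻¹ * t * g).1 * (g⁻¹).1 = _
    rw [h, transvection, mul_add, add_mul, mul_one, SL_coe_mul_inv]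
    simp
  · rintro ⟨e, he, h⟩
    obtain ⟨v, φ, h1, h2, h3, rfl⟩ := tn_iff.1 he
    obtain ⟨g, c, hc, h4⟩ := exists_SL_conj_single h01 h1 h2 h3
    refine ⟨c⁻¹, inv_ne_zero hc, g, ?_⟩
    have := h4 c⁻¹
    rw [mul_inv_cancel₀ hc, one_smul] at this
    rw [SpecialLinearGroup.coeMonoidHom_apply] at h
    show (g⁻¹).1 * t.1 * g.1 = _
    rw [h, ← this, mul_add, add_mul, mul_one,
      SL_coe_inv_mul, transvection, ← mul_assoc, ← mul_assoc, SL_coe_inv_mul, one_mul, mul_assoc,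
      SL_coe_inv_mul, mul_one]

/-- Let F be a finite field of characteristic 2 and n a natural number. Then the transvections of SL_{n+3}(F) (so in every dimension at least 3) (the conjugates of the elementary matrices 1 + c E₁₂, c ≠ 0) form a class of root involutions of SL_{n+3}(F); when F has two elements they form a class of {3,4}⁺-transpositions (every product of odd order has order 1 or 3). -/
theorem result (F : Type*) [Field F] [Fintype F] [CharP F 2] (n : ℕ) :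
    Cfsg.IsRootInvolutionClass {t : Matrix.SpecialLinearGroup (Fin (n + 3)) F | ∃ c : F, c ≠ 0 ∧
        ∃ g : Matrix.SpecialLinearGroup (Fin (n + 3)) F, ((g⁻¹ * t * g : Matrix.SpecialLinearGroup (Fin (n + 3)) F) :
          Matrix (Fin (n + 3)) (Fin (n + 3)) F) = Matrix.transvection 0 1 c} ∧
    (Fintype.card F = 2 → Cfsg.IsThreeFourPlusTranspositionSet {t : Matrix.SpecialLinearGroup (Fin (n + 3)) F | ∃ c : F, c ≠ 0 ∧
        ∃ g : Matrix.SpecialLinearGroup (Fin (n + 3)) F, ((g⁻¹ * t * g : Matrix.SpecialLinearGroup (Fin (n + 3)) F) :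
          Matrix (Fin (n + 3)) (Fin (n + 3)) F) = Matrix.transvection 0 1 c}) := by
  have h01 : (0 : Fin (n + 3)) ≠ 1 := by simp
  have H := sl_fam (k := F) h01
  simp only [mem_iff]
  set ι : SL(n + 3, F) →* Matrix (Fin (n + 3)) (Fin (n + 3)) F := SpecialLinearGroup.coeMonoidHom
  have c2 : ∀ x : Matrix (Fin (n + 3)) (Fin (n + 3)) F, x + x = 0 := fun x => by
    rw [← two_smul F x, CharTwo.two_eq_zero, zero_smul]
  have sq : ∀ {t e}, Tn e → ι t = 1 + e → t * t = 1 := fun {t e} he h => H.inj (by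
    rw [map_mul, h, map_one, add_mul, mul_add, mul_add, he.1.mul_self]; simp [add_assoc, c2])
  have n1 : ∀ {t e}, Tn e → ι t = 1 + e → t ≠ 1 := fun {t e} he h e1 => he.2 (by simpa [e1] using h)
  have pr : ∀ {a b e f}, Tn e → Tn f → ι a = 1 + e → ι b = 1 + f → a * b = b * a ∨
      (Odd (orderOf (a * b)) ∧ ∃ c : F, c ≠ 0 ∧ e * f * e = c • e ∧ f * e * f = c • f) ∨
      (orderOf (a * b) = 4 ∧ ∃ x, Tn x ∧ ι ((a * b) ^ 2) = 1 + x) := fun {a b e f} he hf ha hb => by
    obtain ⟨A, -, hA⟩ := H.mk' e he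
    obtain ⟨B, -, hB⟩ := H.mk' f hf
    have a1 : a ∈ A := (hA.mem a).2 ⟨1, by rw [ha, one_smul]⟩
    have b1 : b ∈ B := (hB.mem b).2 ⟨1, by rw [hb, one_smul]⟩
    rcases H.tri e f he hf with h | ⟨c, hc, h1, h2⟩ | ⟨h1, h2, h3⟩
    · exact Or.inl (hA.cm H.inj hB h a a1 b b1)
    · obtain ⟨φ, hφ, rfl, rfl⟩ := hA.psl₁ H.inj (hB.smul (inv_ne_zero hc))
        (by rw [mul_smul_comm, smul_mul_assoc, h1, smul_smul, inv_mul_cancel₀ hc, one_smul])
        (by rw [smul_mul_assoc, smul_mul_assoc, mul_smul_comm, h2, smul_smul c⁻¹ c, inv_mul_cancel₀ hc, one_smul])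
      obtain ⟨x, hx, rfl⟩ := a1
      obtain ⟨y, hy, rfl⟩ := b1
      obtain ⟨s, rfl⟩ := mem_upper_iff.1 hx
      obtain ⟨t, rfl⟩ := mem_lower_iff.1 hy
      refine Or.inr (Or.inl ⟨?_, c, hc, h1, h2⟩)
      rw [← map_mul, orderOf_injective φ hφ]
      exact sl2_odd (fun e1 => n1 he ha (by simp [e1])) fun e1 => n1 hf hb (by simp [e1])
    · have h4 : ι ((a * b) ^ 2) = 1 + (e * f - f * e) := by
        have := hA.comm_eq hB h1 h2 (s := 1) (t := 1) (by rwa [one_smul]) (by rwa [one_smul])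
        rwa [commutatorElement_def, inv_eq_of_mul_self (sq he ha), inv_eq_of_mul_self (sq hf hb), mul_one,
          one_smul, mul_assoc (a * b), ← pow_two] at this
      refine Or.inr (Or.inr ⟨?_, _, h3, h4⟩)
      exact orderOf_eq_prime_pow (p := 2) (n := 1) (n1 h3 h4) (by
        rw [show 2 ^ (1 + 1) = 2 * 2 from rfl, pow_mul, pow_two]; exact sq h3 h4)
  have hD : IsRootInvolutionSet {t | ∃ e, Tn e ∧ ι t = 1 + e} := by
    refine ⟨fun d ⟨e, he, h⟩ => orderOf_eq_two_iff.2 ⟨n1 he h, sq he h⟩, ?_, fun d ⟨e, he, h⟩ g =>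
      ⟨_, tn_conj he g, ?_⟩, fun a ⟨e, he, ha⟩ b ⟨f, hf, hb⟩ => (pr he hf ha hb).imp id (Or.imp And.left id)⟩
    · refine eq_top_of_transvection_mem _ fun i j h c => ?_
      by_cases hc : c = 0
      · rw [hc, SpecialLinearGroup.transvection_coeff_zero]; exact one_mem _
      · exact subset_closure ⟨_, (tn_single h).smul hc, by simp [ι]; rfl⟩
    · rw [map_mul, map_mul, h, mul_add, add_mul, mul_one, ← map_mul, mul_inv_cancel, map_one]; rfl
  refine ⟨⟨hD, ⟨SpecialLinearGroup.transvection h01 1, _, tn_single h01, rfl⟩, fun a ⟨e, he, ha⟩ b ⟨f, hf, hb⟩ => ?_⟩,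
    fun h2 => ⟨hD, fun a ⟨e, he, ha⟩ b ⟨f, hf, hb⟩ ho => ?_⟩⟩
  · have k1 : ∀ {t e}, Tn e → ι t = 1 + e → IsTransvection (t : Matrix (Fin (n + 3)) (Fin (n + 3)) F) :=
      fun {t e} he h => by
        have : (t : Matrix (Fin (n + 3)) (Fin (n + 3)) F) - 1 = e := by rw [sub_eq_iff_eq_add']; exact h
        rw [IsTransvection, this]
        exact ⟨he.1.rank_eq_one he.2, he.1.mul_self⟩
    obtain ⟨g, hg⟩ := isConj_iff.1 (S2579.result (by omega) a b (k1 he ha) (k1 hf hb))
    exact ⟨g, hg.symm⟩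
  · rcases pr he hf ha hb with h | ⟨-, c, hc, h3, h4⟩ | ⟨h, -⟩
    · rw [eq_of_comm_of_odd (sq he ha) (sq hf hb) h ho, sq hf hb, orderOf_one]
      exact Or.inl rfl
    · have c1 : c = 1 := by
        have := FiniteField.pow_card_sub_one_eq_one c hc
        rwa [h2, pow_one] at this
      rw [c1, one_smul] at h3 h4
      have h5 : a * b * a = b * a * b := H.inj (by
        simp only [map_mul, ha, hb, add_mul, mul_add, mul_one, one_mul, he.1.mul_self, hf.1.mul_self, h3, h4]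
        linear_combination (norm := abel1) c2 e - c2 f)
      refine (Nat.dvd_prime Nat.prime_three).1 (orderOf_dvd_of_pow_eq_one ?_)
      rw [show (a * b) ^ 3 = a * b * a * (b * a * b) by simp [pow_succ, mul_assoc], ← h5,
        show a * b * a * (a * b * a) = a * (b * (a * a) * b) * a by simp [mul_assoc], sq he ha, mul_one, sq hf hb,
        mul_one, sq he ha]
    · rw [h] at ho; exact absurd ho (by decide)

end Cfsg.Agent.S5058
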