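import Cfsg.Statements.S5060
import Cfsg.Agent.Lib.QuadPair.FieldCase

set_option autoImplicit false
open Cfsg

namespace Cfsg.Agent.S5060

open Cfsg.Lib.QuadPair

/-- Let k ⊆ K be fields with the characteristic of k not 2 and k not of order 3, and let α ∈ K be a non-zero element algebraic over k. Then the subgroup of SL₂(K) generated by the upper unitriangular matrices with entry c and the lower unitriangular matrices with entry cα, c ranging over k, is exactly the group of matrices of SL₂(K) with all entries in k(α). -/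
theorem result {k K : Type*} [Field k] [Field K] [Algebra k K] (hk2 : ringChar k ≠ 2) (hk3 : Nat.card k ≠ 3)
    (α : K) (hα : IsAlgebraic k α) (hα0 : α ≠ 0) :
    (Subgroup.closure ({g : Matrix.SpecialLinearGroup (Fin 2) K | ∃ c : k, (g : Matrix (Fin 2) (Fin 2) K) = !![1, algebraMap k K c; 0, 1]} ∪
        {g : Matrix.SpecialLinearGroup (Fin 2) K | ∃ c : k, (g : Matrix (Fin 2) (Fin 2) K) = !![1, 0; algebraMap k K c * α, 1]}) :
      Set (Matrix.SpecialLinearGroup (Fin 2) K)) =
    {g : Matrix.SpecialLinearGroup (Fin 2) K | ∀ i j : Fin 2, (g : Matrix (Fin 2) (Fin 2) K) i j ∈ IntermediateField.adjoin k ({α} : Set K)} := by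
  set K' := IntermediateField.adjoin k ({α} : Set K) with hK'
  have hint : IsIntegral k α := hα.isIntegral
  have : Module.Finite k K' := IntermediateField.adjoin.finiteDimensional hint
  let t : K' := IntermediateField.AdjoinSimple.gen k α
  have ht : t ≠ 0 := fun e => hα0 (congrArg Subtype.val e)
  have hgen : Algebra.adjoin k {t} = ⊤ := by
    have := (IntermediateField.adjoin.powerBasis hint).adjoin_gen_eq_top
    rwa [IntermediateField.adjoin.powerBasis_gen] at this
  have h1 := HG_top_of_field (big_of hk2 hk3) ht hgen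
  have h2 := map_HG (k := k) K'.val t
  have h3 : Subgroup.closure ({g : Matrix.SpecialLinearGroup (Fin 2) K | ∃ c : k, (g : Matrix (Fin 2) (Fin 2) K) = !![1, algebraMap k K c; 0, 1]} ∪
        {g : Matrix.SpecialLinearGroup (Fin 2) K | ∃ c : k, (g : Matrix (Fin 2) (Fin 2) K) = !![1, 0; algebraMap k K c * α, 1]}) = HG k α := by
    rw [HG]
    congr 2
    · ext g
      exact ⟨fun ⟨c, h⟩ => ⟨c, Subtype.ext h.symm⟩, fun ⟨c, h⟩ => ⟨c, h ▸ rfl⟩⟩
    · ext g
      exact ⟨fun ⟨c, h⟩ => ⟨c, Subtype.ext h.symm⟩, fun ⟨c, h⟩ => ⟨c, h ▸ rfl⟩⟩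
  have h4 : K'.val t = α := rfl
  rw [h3, ← h4, ← h2, h1]
  ext g
  constructor
  · rintro ⟨h, -, rfl⟩ i j
    exact (h i j).2
  · intro hg
    refine ⟨mk2 ⟨_, hg 0 0⟩ ⟨_, hg 0 1⟩ ⟨_, hg 1 0⟩ ⟨_, hg 1 1⟩ (Subtype.ext (det2 g)), trivial, ?_⟩
    apply ext2 <;> rfl

end Cfsg.Agent.S5060
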