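import Cfsg.Statements.S5064
import Cfsg.Agent.Lib.QuadPair.Trip

set_option autoImplicit false
universe u
open Cfsg

namespace Cfsg.Agent.S5064

open Cfsg.Lib.QuadPair Cfsg.Lib.Root Cfsg.Lib.Transfer Polynomial
open scoped Cfsg.Lib.Transfer

/-- Let k be a field of characteristic not 2 with k not of order 3, M a finite-dimensional k-vector space and G ≤ GL(M) such that (G, M) is a quadratic pair (M irreducible for G, and G generated by its quadratically acting elements σ whose scalar family 1 + c(σ − 1), c ∈ k, lies in G). Write 𝒬_d for the quadratic elements of G of minimal commutator rank, E(σ) for the subgroup generated by the members of 𝒬_d with the same fixed space and commutator space as σ, and Σ for the set of these subgroups. If σ, τ ∈ 𝒬_d and the subgroup H generated by their two scalar families does not act unipotently on M, then H is isomorphic to SL₂ over a simple algebraic extension k(λ) of k. -/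
theorem result {k : Type u} [Field k] (hk2 : ringChar k ≠ 2) (hk3 : Nat.card k ≠ 3)
    {M : Type u} [AddCommGroup M] [Module k M] [FiniteDimensional k M]
    {G : Subgroup (LinearMap.GeneralLinearGroup k M)} (hG : Cfsg.IsQuadraticPair G)
    {σ τ : LinearMap.GeneralLinearGroup k M} (hσ : σ ∈ Cfsg.minimalQuadraticElements G) (hτ : τ ∈ Cfsg.minimalQuadraticElements G)
    (hH : ¬ Cfsg.IsUnipotentOn (Subgroup.closure (Cfsg.scalarFamily σ ∪ Cfsg.scalarFamily τ))) :
    ∃ (K : Type u) (_ : Field K) (_ : Algebra k K) (lam : K), IsAlgebraic k lam ∧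
      IntermediateField.adjoin k ({lam} : Set K) = ⊤ ∧
      Nonempty (↥(Subgroup.closure (Cfsg.scalarFamily σ ∪ Cfsg.scalarFamily τ)) ≃* Matrix.SpecialLinearGroup (Fin 2) K) := by
  have hk := big_of hk2 hk3
  have hα := mem_min_iff.1 hσ
  have hβ := mem_min_iff.1 hτ
  have hfam : ∀ (σ g : LinearMap.GeneralLinearGroup k M), g ∈ scalarFamily σ ↔
      ∃ c : k, (g : M →ₗ[k] M) - 1 = c • ((σ : M →ₗ[k] M) - 1) := fun σ g =>
    exists_congr fun c => sub_eq_iff_eq_add'.symm
  generalize hH' : Subgroup.closure (Cfsg.scalarFamily σ ∪ Cfsg.scalarFamily τ) = H at hH ⊢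
  generalize ea : (σ : M →ₗ[k] M) - 1 = α at hα
  generalize eb : (τ : M →ₗ[k] M) - 1 = β at hβ
  have h : α * β * α ≠ 0 := by
    intro h
    refine hH (isUnipotentOn_iff.2 ((uni_of_nil hk hα hβ h).mono ?_))
    rw [← hH', Subgroup.closure_le]
    rintro g (hg | hg) <;> obtain ⟨c, e⟩ := (hfam _ _).1 hg
    · exact Subgroup.mem_sup_left (by rw [mem_RG, e, ea]; exact Submodule.smul_mem _ c hα.toQ0.mem_RS)
    · exact Subgroup.mem_sup_right (by rw [mem_RG, e, eb]; exact Submodule.smul_mem _ c hβ.toQ0.mem_RS)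
  obtain ⟨r, ht, hr⟩ := exists_trip_poly hk hα hβ h
  have hmax := annI_max hk hα hβ.toQ0
  set γ := α * β + β * α with hγ
  set I := annI k α γ with hI
  let _ := Ideal.Quotient.field I
  have c1 : ∀ s, Commute α ((aeval γ : k[X] →ₐ[k] _).toRingHom s) := fun s => comm_aeval hα.sq β s
  have c2' : ∀ s, Commute β (aeval γ s) := fun s => by
    have := comm_aeval hβ.sq α s
    rwa [add_comm] at this
  have c2 : ∀ s, Commute (β * aeval γ r) ((aeval γ : k[X] →ₐ[k] _).toRingHom s) := fun s =>
    (c2' s).mul_left ((Commute.all r s).map (aeval γ))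
  have hgen : Algebra.adjoin k {Ideal.Quotient.mk I X} = ⊤ := adjoin_quot Polynomial.adjoin_X
  have halg : IsAlgebraic k (Ideal.Quotient.mk I X) := by
    obtain ⟨m, hm, e⟩ := (IsIntegral.of_finite k γ).isAlgebraic
    refine ⟨m, hm, ?_⟩
    have := Polynomial.aeval_algHom_apply (Ideal.Quotient.mkₐ k I) X m
    rw [Ideal.Quotient.mkₐ_eq_mk, aeval_X_left_apply] at this
    rw [this, Ideal.Quotient.eq_zero_iff_mem, mem_annI, e, mul_zero]
  have hfin : Module.Finite k (k[X] ⧸ I) := by
    have := Algebra.finite_adjoin_simple_of_isIntegral halg.isIntegral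
    rw [hgen] at this
    exact Module.Finite.equiv Subalgebra.topEquiv.toLinearEquiv
  have ht0 : Ideal.Quotient.mk I X ≠ 0 := by
    rw [Ne, Ideal.Quotient.eq_zero_iff_mem, mem_annI, aeval_X, mul_gam hα.sq]; exact h
  have hsurj : ∀ g, ∃ h ∈ HG k (X : k[X]), red I h = g := fun g =>
    exists_lift (by rw [HG_top_of_field hk ht0 hgen]; trivial)
  have hker : (repSL ht _ c1 c2).ker = (red I).ker := by
    ext g
    rw [MonoidHom.mem_ker, MonoidHom.mem_ker, repSL_eq_one, red_eq_one_iff]
    simp only [← (c1 _).eq]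
    rfl
  have hx : ∀ c : k, (repSL ht _ c1 c2 (xR (algebraMap k _ c)) : M →ₗ[k] M) - 1 = c • α := fun c => by
    rw [repSL_xR, Algebra.smul_def]; simp
  have hy : ∀ c : k, (repSL ht _ c1 c2 (yR (algebraMap k _ c * X)) : M →ₗ[k] M) - 1 = c • β := fun c => by
    have : γ * (β * aeval γ r) = β := by
      have h1 := c2' X
      rw [aeval_X] at h1
      rw [← mul_assoc, ← h1.eq, hγ, add_comm, mul_gam hβ.sq, add_comm, hr]
    rw [repSL_yR, Algebra.smul_def]; simp [mul_assoc, this]
  have hrange : (repSL ht _ c1 c2).range = H := by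
    apply le_antisymm
    · rintro _ ⟨g, rfl⟩
      obtain ⟨h, hh, e⟩ := hsurj (red I g)
      have : repSL ht _ c1 c2 h = repSL ht _ c1 c2 g := by
        rw [← MonoidHom.div_mem_ker_iff, hker, MonoidHom.div_mem_ker_iff, e]
      rw [← this]
      refine HG_le (k := k) (K := H.comap _) (fun c => ?_) (fun c => ?_) hh <;> rw [Subgroup.mem_comap, ← hH']
      · exact Subgroup.subset_closure (Or.inl ((hfam _ _).2 ⟨c, by rw [hx, ea]⟩))
      · exact Subgroup.subset_closure (Or.inr ((hfam _ _).2 ⟨c, by rw [hy, eb]⟩))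
    · rw [← hH', Subgroup.closure_le]
      rintro g (hg | hg) <;> obtain ⟨c, e⟩ := (hfam _ _).1 hg
      · exact ⟨_, Units.ext (sub_left_inj.1 ((hx c).trans (ea ▸ e.symm)))⟩
      · exact ⟨_, Units.ext (sub_left_inj.1 ((hy c).trans (eb ▸ e.symm)))⟩
  refine ⟨k[X] ⧸ I, inferInstance, inferInstance, Ideal.Quotient.mk I X, halg,
    IntermediateField.adjoin_eq_top_of_algebra _ _ hgen, ⟨?_⟩⟩
  exact (MulEquiv.subgroupCongr hrange.symm).trans ((QuotientGroup.quotientKerEquivRange _).symm.trans
    ((QuotientGroup.quotientMulEquivOfEq hker).trans (QuotientGroup.quotientKerEquivOfSurjective _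
      fun g => (hsurj g).imp fun _ h => h.2)))

end Cfsg.Agent.S5064
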