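import Cfsg.Statements.S5065
import Cfsg.Agent.Lib.QuadPair.Trip

set_option autoImplicit false
universe u
open Cfsg

namespace Cfsg.Agent.S5065

open Cfsg.Lib.QuadPair Cfsg.Lib.Root Cfsg.Lib.Transfer
open scoped Cfsg.Lib.Transfer

/-- Let k be a field of characteristic not 2 with k not of order 3, M a finite-dimensional k-vector space and G ≤ GL(M) such that (G, M) is a quadratic pair (M irreducible for G, and G generated by its quadratically acting elements σ whose scalar family 1 + c(σ − 1), c ∈ k, lies in G). Write 𝒬_d for the quadratic elements of G of minimal commutator rank, E(σ) for the subgroup generated by the members of 𝒬_d with the same fixed space and commutator space as σ, and Σ for the set of these subgroups. For σ, τ ∈ 𝒬_d put A = E(σ), B = E(τ) and X = ⟨A, B⟩. Then either X acts unipotently on M, or A and B are the unipotent subgroups of a special rank one group X; in the latter case X contains exactly one central involution acting as −1 on the commutator space [M, X] and trivially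 on the fixed space C_M(X), and M is the direct sum of C_M(X) and [M, X]. -/
theorem result {k : Type u} [Field k] (hk2 : ringChar k ≠ 2) (hk3 : Nat.card k ≠ 3)
    {M : Type u} [AddCommGroup M] [Module k M] [FiniteDimensional k M]
    {G : Subgroup (LinearMap.GeneralLinearGroup k M)} (hG : Cfsg.IsQuadraticPair G)
    {σ τ : LinearMap.GeneralLinearGroup k M} (hσ : σ ∈ Cfsg.minimalQuadraticElements G) (hτ : τ ∈ Cfsg.minimalQuadraticElements G) :
    Cfsg.IsUnipotentOn (Cfsg.sameActionSubgroup G σ ⊔ Cfsg.sameActionSubgroup G τ) ∨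
    (Cfsg.IsSpecialRankOnePair (Cfsg.sameActionSubgroup G σ) (Cfsg.sameActionSubgroup G τ) ∧
      (∃! i : LinearMap.GeneralLinearGroup k M, i ∈ Cfsg.sameActionSubgroup G σ ⊔ Cfsg.sameActionSubgroup G τ ∧ i ≠ 1 ∧ i * i = 1 ∧
        (∀ x ∈ Cfsg.sameActionSubgroup G σ ⊔ Cfsg.sameActionSubgroup G τ, i * x = x * i) ∧
        (∀ m ∈ Cfsg.commutatorSubmodule (Cfsg.sameActionSubgroup G σ ⊔ Cfsg.sameActionSubgroup G τ), (i : M →ₗ[k] M) m = -m) ∧
        (∀ m ∈ Cfsg.fixedSubmodule (Cfsg.sameActionSubgroup G σ ⊔ Cfsg.sameActionSubgroup G τ), (i : M →ₗ[k] M) m = m)) ∧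
      IsCompl (Cfsg.fixedSubmodule (Cfsg.sameActionSubgroup G σ ⊔ Cfsg.sameActionSubgroup G τ))
        (Cfsg.commutatorSubmodule (Cfsg.sameActionSubgroup G σ ⊔ Cfsg.sameActionSubgroup G τ))) := by
  have hk := big_of hk2 hk3
  have hα := mem_min_iff.1 hσ
  have hβ := mem_min_iff.1 hτ
  rw [sameAction_eq hα, sameAction_eq hβ]
  generalize (σ : M →ₗ[k] M) - 1 = α at hα
  generalize (τ : M →ₗ[k] M) - 1 = β at hβ
  by_cases h : α * β * α = 0
  · exact Or.inl (isUnipotentOn_iff.2 (uni_of_nil hk hα hβ h))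
  obtain ⟨η, hη, h0, ht⟩ := exists_trip hk hα hβ h
  refine Or.inr ⟨special_of_opp hk hα hβ h, ?_⟩
  rw [← hβ.RG_eq hη h0, comm_sup, fixed_sup, comm_RG hα.toQ0, comm_RG (RS_q0 hη), fixed_RG hα.toQ0, fixed_RG (RS_q0 hη)]
  refine ⟨⟨repK ht (-1), ⟨repK_mem ht hα.toQ0.mem_RS (RS_q0 hη).mem_RS _, fun e => ?_, ?_, fun x hx => ?_, fun m hm => ?_,
    fun m hm => ?_⟩, ?_⟩, ht.isCompl⟩
  · have : (-1 : Matrix.SpecialLinearGroup (Fin 2) k) ∈ (repK ht).ker := e
    rw [repK_ker ht hα.ne, Subgroup.mem_bot] at this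
    have := congrArg (fun g : Matrix.SpecialLinearGroup (Fin 2) k => g 0 0) this
    simp at this
    exact hk.two (by linear_combination -this)
  · rw [← map_mul]; simp
  · have : RG G α ⊔ RG G η ≤ Subgroup.centralizer {repK ht (-1)} := by
      refine sup_le (fun g hg => ?_) (fun g hg => ?_) <;> rw [Subgroup.mem_centralizer_singleton_iff] <;>
        refine comm_of_comm ?_ <;> rw [repK_neg_one, sub_sub_cancel_left, mul_neg, neg_mul, two_mul, mul_add, add_mul]
      · rw [ht.gam_comm hg]
      · rw [add_comm (α * η), ht.symm.gam_comm hg]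
    exact (Subgroup.mem_centralizer_singleton_iff.1 (this hx)).symm
  · rw [repK_neg_one, two_mul, LinearMap.sub_apply, LinearMap.add_apply, ht.gam_apply_range hm]; simp
  · rw [repK_neg_one, two_mul, LinearMap.sub_apply, LinearMap.add_apply, gam_apply_ker hm]; simp
  · rintro i ⟨-, -, -, -, h1, h2⟩
    apply Units.ext
    ext m
    obtain ⟨a, ha, b, hb, rfl⟩ := Submodule.mem_sup.1 (ht.isCompl.sup_eq_top ▸ Submodule.mem_top (x := m))
    rw [map_add, map_add, h1 b hb, h2 a ha, repK_neg_one, two_mul, LinearMap.sub_apply, LinearMap.add_apply,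
      gam_apply_ker ha, LinearMap.sub_apply, LinearMap.add_apply, ht.gam_apply_range hb]
    simp

end Cfsg.Agent.S5065
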