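import Cfsg.Statements.S5067
import Cfsg.Agent.Lib.Root.Abstract

set_option autoImplicit false
open Cfsg

namespace Cfsg.Agent.S5067

open Cfsg.Lib Cfsg.Lib.Root

lemma aux {P : Type*} [Group P] [Group.IsNilpotent P] (hna : ¬ IsMulCommutative P) {E : Subgroup P}
    (hE : IsMulCommutative ↥E) (hn : ∀ g : P, ∀ e ∈ E, g * e * g⁻¹ ∈ E ⊔ commutator P) :
    Group.nilpotencyClass ↥(Subgroup.normalClosure (E : Set P)) < Group.nilpotencyClass P := by
  set N := Subgroup.normalClosure (E : Set P) with hN
  have h1 : N ≤ E ⊔ commutator P := by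
    rw [hN, Subgroup.normalClosure, Subgroup.closure_le]
    intro x hx
    obtain ⟨e, he, hc⟩ := Group.mem_conjugatesOfSet_iff.1 hx
    obtain ⟨g, rfl⟩ := isConj_iff.1 hc
    exact hn g e he
  have h2 : ⁅E ⊔ commutator P, E ⊔ commutator P⁆ ≤ (⊤ : Subgroup P).lowerCentralSeries 2 := by
    set L := (⊤ : Subgroup P).lowerCentralSeries 2 with hL
    have hc : ∀ K : Subgroup P, Cm ((commutator P).map (QuotientGroup.mk' L)) (K.map (QuotientGroup.mk' L)) := by
      intro K
      rw [← cm_iff, ← Subgroup.map_commutator, Subgroup.map_eq_bot_iff, QuotientGroup.ker_mk']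
      exact Subgroup.commutator_mono le_rfl le_top
    have he : Cm (E.map (QuotientGroup.mk' L)) (E.map (QuotientGroup.mk' L)) := by
      rw [← cm_iff, ← Subgroup.map_commutator, cm_iff.2 (cm_self_iff.2 hE), Subgroup.map_bot]
    have : ⁅E ⊔ commutator P, E ⊔ commutator P⁆.map (QuotientGroup.mk' L) = ⊥ := by
      rw [Subgroup.map_commutator, cm_iff]
      conv => arg 1; rw [Subgroup.map_sup]
      refine Cm.sup_left ?_ (hc _)
      rw [Subgroup.map_sup]
      exact Cm.sup_right he (hc _).symm
    rwa [Subgroup.map_eq_bot_iff, QuotientGroup.ker_mk'] at this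
  have h3 : ∀ j, N.lowerCentralSeries (j + 1) ≤ (⊤ : Subgroup P).lowerCentralSeries (j + 2) := by
    intro j
    induction j with
    | zero => exact (Subgroup.commutator_mono h1 h1).trans h2
    | succ j ih =>
      rw [Subgroup.lowerCentralSeries_succ, Subgroup.lowerCentralSeries_succ _ (j + 2)]
      exact Subgroup.commutator_mono ih le_top
  have h4 : ¬ Group.nilpotencyClass P ≤ 1 := fun h => hna (Group.IsNilpotent.nilpotencyClass_le_one_iff.1 h)
  obtain ⟨j, hj⟩ : ∃ j, Group.nilpotencyClass P = j + 2 := ⟨Group.nilpotencyClass P - 2, by omega⟩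
  have h5 := h3 j
  rw [← hj, Subgroup.lowerCentralSeries_nilpotencyClass, le_bot_iff, ← Subgroup.top_subtype_lowerCentralSeries,
    Subgroup.map_eq_bot_iff_of_injective _ N.subtype_injective, Subgroup.lowerCentralSeries_eq_bot_iff_nilpotencyClass_le] at h5
  omega

/-- Let P be a non-abelian nilpotent p-group (every element of p-power order; P possibly infinite) generated by two abelian subgroups E and F. Then the normal closure of E in P, and likewise that of F, has nilpotency class strictly smaller than that of P. -/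
theorem result {P : Type*} [Group P] {p : ℕ} [Fact p.Prime] (hP : IsPGroup p P) [Group.IsNilpotent P]
    (hna : ¬ IsMulCommutative P) {E F : Subgroup P} (hE : IsMulCommutative ↥E) (hF : IsMulCommutative ↥F) (hgen : E ⊔ F = ⊤) :
    Group.nilpotencyClass ↥(Subgroup.normalClosure (E : Set P)) < Group.nilpotencyClass P ∧
    Group.nilpotencyClass ↥(Subgroup.normalClosure (F : Set P)) < Group.nilpotencyClass P := by
  have key : ∀ (E : Subgroup P) (g : P), ∀ e ∈ E, g * e * g⁻¹ ∈ E ⊔ commutator P := by
    intro E g e he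
    have : g * e * g⁻¹ = (g * e * g⁻¹ * e⁻¹) * e := by group
    rw [this]
    exact mul_mem (Subgroup.mem_sup_right (Subgroup.commutator_mem_commutator (Subgroup.mem_top g) (Subgroup.mem_top e)))
      (Subgroup.mem_sup_left he)
  exact ⟨aux hna hE (key E), aux hna hF (key F)⟩

end Cfsg.Agent.S5067
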