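import Cfsg.Statements.S5070
import Cfsg.Agent.Lib.RI.U1
import Cfsg.Agent.Lib.Symp.Group
import Cfsg.Agent.Lib.Linear.Transv

set_option autoImplicit false
open Matrix
open Cfsg

namespace Cfsg.Agent.S5070

open Cfsg.Lib.RI Cfsg.Lib.Root Cfsg.Lib.Linear Cfsg.Lib.Symp Subgroup
open scoped Cfsg.Lib.Transfer

variable {l : Type*} [Fintype l] [DecidableEq l] {F : Type*} [Field F]

/-- The symplectic transvection group with centre `p`. -/
abbrev Tp (p : l ⊕ l → F) : Subgroup (symplecticGroup l F) :=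
  closure {g | ∃ c : F, ∀ v, (g : Matrix (l ⊕ l) (l ⊕ l) F) *ᵥ v = v + (c * (v ⬝ᵥ (J l F *ᵥ p))) • p}

theorem dot_eq (p r : l ⊕ l → F) : (J l F *ᵥ p) ⬝ᵥ r = bil l F r p := by rw [bil_apply, dotProduct_comm]

theorem u1 {p : l ⊕ l → F} (hp : p ≠ 0) :
    U1 F (symplecticGroup l F).subtype (vecMulVec p (J l F *ᵥ p)) (Tp p) := by
  obtain ⟨x, hx⟩ := exists_bilin_eq_one (bil_nondegenerate l F) hp
  refine u1_closure (by rw [vecMulVec_mul_vecMulVec', dot_eq, bil_isAlt, zero_smul])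
    (vecMulVec_ne_zero hp fun e => by rw [← dot_eq, e] at hx; simp at hx) (fun c => ⟨tvSp p c, rfl⟩) fun g =>
      exists_congr fun c => ⟨fun h => ?_, fun h v => (congrArg (· *ᵥ v) h).trans (bil_apply v p ▸ tvMat_mulVec p c v)⟩
  exact Matrix.ext_iff_mulVec.2 fun v => (h v).trans (bil_apply v p ▸ tvMat_mulVec p c v).symm

theorem tri {p r : l ⊕ l → F} (h : bil l F r p ≠ 0) : ∃ c : F, c ≠ 0 ∧
    vecMulVec p (J l F *ᵥ p) * vecMulVec r (J l F *ᵥ r) * vecMulVec p (J l F *ᵥ p) = c • vecMulVec p (J l F *ᵥ p) ∧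
    vecMulVec r (J l F *ᵥ r) * vecMulVec p (J l F *ᵥ p) * vecMulVec r (J l F *ᵥ r) = c • vecMulVec r (J l F *ᵥ r) :=
  ⟨bil l F r p * bil l F p r, mul_ne_zero h fun e => h ((bil_isAlt l F).isRefl _ _ e),
    by simp only [vecMulVec_mul_vecMulVec', smul_mul_assoc, smul_smul, dot_eq],
    by simp only [vecMulVec_mul_vecMulVec', smul_mul_assoc, smul_smul, dot_eq, mul_comm]⟩

theorem tri' {e f : Matrix (l ⊕ l) (l ⊕ l) F} (he : ∃ p, p ≠ 0 ∧ e = vecMulVec p (J l F *ᵥ p))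
    (hf : ∃ p, p ≠ 0 ∧ f = vecMulVec p (J l F *ᵥ p)) :
    e * f = f * e ∨ ∃ c : F, c ≠ 0 ∧ e * f * e = c • e ∧ f * e * f = c • f := by
  obtain ⟨p, -, rfl⟩ := he
  obtain ⟨r, -, rfl⟩ := hf
  by_cases h : bil l F r p = 0
  · exact Or.inl (by simp [vecMulVec_mul_vecMulVec', dot_eq, h, (bil_isAlt l F).isRefl _ _ h])
  · exact Or.inr (tri h)

theorem fam : Fam F (symplecticGroup l F).subtype (fun e => ∃ p, p ≠ 0 ∧ e = vecMulVec p (J l F *ᵥ p))
    {A | ∃ p, p ≠ 0 ∧ A = Tp p} := by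
  refine ⟨Subtype.val_injective, ?_, ?_, ?_, fun e f he hf => (tri' he hf).imp id Or.inl, ?_⟩
  · rintro _ ⟨p, hp, rfl⟩
    exact ⟨_, ⟨p, hp, rfl⟩, u1 hp⟩
  · rintro _ ⟨p, hp, rfl⟩
    exact ⟨_, ⟨p, hp, rfl⟩, u1 hp⟩
  · rintro _ ⟨p, hp, rfl⟩ g
    refine ⟨g.1 *ᵥ p, fun e => hp (by rw [← inv_mulVec_mulVec g p, e, mulVec_zero]), ?_⟩
    have := congrArg (symplecticGroup l F).subtype (conj_tvSp g p 1)
    rw [map_mul, map_mul] at this
    change _ * tvMat p 1 * _ = tvMat _ 1 at this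
    rwa [tvMat, tvMat, one_smul, one_smul, mul_add, add_mul, mul_one, ← map_mul, mul_inv_cancel, map_one,
      add_right_inj] at this
  · rintro _ ⟨p, hp, rfl⟩
    obtain ⟨x, hx⟩ := exists_bilin_eq_one (bil_nondegenerate l F) hp
    exact ⟨_, ⟨x, fun e => by simp [e] at hx, rfl⟩, tri (by simp [hx])⟩

/-- Let F be a field, m a natural number and V = F^{2(m+1)} with the standard non-degenerate alternating form f(u, v) = uᵀ J v. For a non-zero vector p let T(p) be the group of symplectic transvections v ↦ v + c f(v, p) p, c ∈ F. Then the subgroups T(p), p ≠ 0, generate the symplectic group Sp_{2(m+1)}(F) and form a degenerate class of abstract F-root subgroups of it (any two of them either commute elementwise or are the unipotent subgroups of a rank one group that is an image of SL₂(F) with central kernel, never the commutator case), and their graph of rank one pairs is connected.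 -/
theorem result (F : Type*) [Field F] (m : ℕ) :
    Cfsg.IsRootSubgroupClass {A : Subgroup ↥(Matrix.symplecticGroup (Fin (m + 1)) F) | ∃ p : Fin (m + 1) ⊕ Fin (m + 1) → F, p ≠ 0 ∧
        A = Subgroup.closure {g : ↥(Matrix.symplecticGroup (Fin (m + 1)) F) | ∃ c : F, ∀ v : Fin (m + 1) ⊕ Fin (m + 1) → F,
          (g : Matrix (Fin (m + 1) ⊕ Fin (m + 1)) (Fin (m + 1) ⊕ Fin (m + 1)) F) *ᵥ v =
            v + (c * (v ⬝ᵥ (Matrix.J (Fin (m + 1)) F *ᵥ p))) • p}} ∧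
    Cfsg.IsDegenerateRootSet {A : Subgroup ↥(Matrix.symplecticGroup (Fin (m + 1)) F) | ∃ p : Fin (m + 1) ⊕ Fin (m + 1) → F, p ≠ 0 ∧
        A = Subgroup.closure {g : ↥(Matrix.symplecticGroup (Fin (m + 1)) F) | ∃ c : F, ∀ v : Fin (m + 1) ⊕ Fin (m + 1) → F,
          (g : Matrix (Fin (m + 1) ⊕ Fin (m + 1)) (Fin (m + 1) ⊕ Fin (m + 1)) F) *ᵥ v =
            v + (c * (v ⬝ᵥ (Matrix.J (Fin (m + 1)) F *ᵥ p))) • p}} ∧
    Cfsg.IsKRootSubgroupSet F {A : Subgroup ↥(Matrix.symplecticGroup (Fin (m + 1)) F) | ∃ p : Fin (m + 1) ⊕ Fin (m + 1) → F, p ≠ 0 ∧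
        A = Subgroup.closure {g : ↥(Matrix.symplecticGroup (Fin (m + 1)) F) | ∃ c : F, ∀ v : Fin (m + 1) ⊕ Fin (m + 1) → F,
          (g : Matrix (Fin (m + 1) ⊕ Fin (m + 1)) (Fin (m + 1) ⊕ Fin (m + 1)) F) *ᵥ v =
            v + (c * (v ⬝ᵥ (Matrix.J (Fin (m + 1)) F *ᵥ p))) • p}} ∧
    Cfsg.IsConnectedFamily (Cfsg.FAdj {A : Subgroup ↥(Matrix.symplecticGroup (Fin (m + 1)) F) | ∃ p : Fin (m + 1) ⊕ Fin (m + 1) → F, p ≠ 0 ∧
        A = Subgroup.closure {g : ↥(Matrix.symplecticGroup (Fin (m + 1)) F) | ∃ c : F, ∀ v : Fin (m + 1) ⊕ Fin (m + 1) → F,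
          (g : Matrix (Fin (m + 1) ⊕ Fin (m + 1)) (Fin (m + 1) ⊕ Fin (m + 1)) F) *ᵥ v =
            v + (c * (v ⬝ᵥ (Matrix.J (Fin (m + 1)) F *ᵥ p))) • p}})
      {A : Subgroup ↥(Matrix.symplecticGroup (Fin (m + 1)) F) | ∃ p : Fin (m + 1) ⊕ Fin (m + 1) → F, p ≠ 0 ∧
        A = Subgroup.closure {g : ↥(Matrix.symplecticGroup (Fin (m + 1)) F) | ∃ c : F, ∀ v : Fin (m + 1) ⊕ Fin (m + 1) → F,
          (g : Matrix (Fin (m + 1) ⊕ Fin (m + 1)) (Fin (m + 1) ⊕ Fin (m + 1)) F) *ᵥ v =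
            v + (c * (v ⬝ᵥ (Matrix.J (Fin (m + 1)) F *ᵥ p))) • p}} := by
  have H := fam (l := Fin (m + 1)) (F := F)
  have hk := H.kroot (eq_top_of_tvSp_mem _ fun v c => by
    by_cases hv : v = 0
    · rw [hv, tvSp_zero_left]; exact one_mem _
    · exact le_iSup_mem (S := {A | ∃ p, p ≠ 0 ∧ A = Tp p}) ⟨v, hv, rfl⟩ (((u1 hv).mem _).2 ⟨c, rfl⟩))
  have hA : Tp (1 : Fin (m + 1) ⊕ Fin (m + 1) → F) ∈ {A | ∃ p, p ≠ 0 ∧ A = Tp p} := ⟨1, one_ne_zero, rfl⟩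
  refine (fun hc => ⟨hc, H.deg hk.1 fun e f => tri', hk, class_connected hc hA (H.lrs.hasP _ hA)⟩)
    ⟨hk.1, ⟨_, hA⟩, ?_⟩
  rintro _ ⟨p, hp, rfl⟩ _ ⟨r, hr, rfl⟩
  obtain ⟨g, rfl⟩ := exists_sp_of_ne_zero hp hr
  refine ⟨g, (u1 hr).unique ?_⟩
  have := congrArg (symplecticGroup (Fin (m + 1)) F).subtype (conj_tvSp g p 1)
  rw [map_mul, map_mul] at this
  change _ * tvMat p 1 * _ = tvMat _ 1 at this
  rw [tvMat, tvMat, one_smul, one_smul, mul_add, add_mul, mul_one, ← map_mul, mul_inv_cancel, map_one,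
    add_right_inj] at this
  exact this ▸ (u1 hp).conj g

end Cfsg.Agent.S5070
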