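import Cfsg.Statements.S5071
import Cfsg.Agent.Lib.RI.U1
import Cfsg.Agent.Lib.Unitary.Simple
import Cfsg.Agent.Lib.Unitary.Count
import Cfsg.Agent.Lib.Linear.Transv

set_option autoImplicit false
open Matrix
open Cfsg

namespace Cfsg.Agent.S5071

open Cfsg.Lib.RI Cfsg.Lib.Root Cfsg.Lib.Linear Cfsg.Lib.Unitary Subgroup
open scoped Cfsg.Lib.Transfer

variable {F : Type*} [Field F] {q n : ℕ} {σ : F →+* F} {L : Type} [Field L] [Algebra L F] {δ : F}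
  {p r : Fin n → F}

/-- The unitary transvection group with centre `p`. -/
abbrev Tp (q : ℕ) (p : Fin n → F) : Subgroup (SU n F q) :=
  closure {g | (∀ v, ∃ c : F, ((g : SpecialLinearGroup (Fin n) F) : Matrix (Fin n) (Fin n) F) *ᵥ v = v + c • p) ∧
    ∀ v, hermForm n F q v p = 0 → ((g : SpecialLinearGroup (Fin n) F) : Matrix (Fin n) (Fin n) F) *ᵥ v = v}

/-- The nilpotent matrix attached to `p`. -/
def Ep (σ : F →+* F) (δ : F) (p : Fin n → F) : Matrix (Fin n) (Fin n) F := δ • vecMulVec p (σ ∘ p)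

/-- The matrix of an element. -/
abbrev io (n : ℕ) (F : Type*) [Field F] (q : ℕ) : SU n F q →* Matrix (Fin n) (Fin n) F :=
  SpecialLinearGroup.coeMonoidHom.comp (SU n F q).subtype

theorem ep_mulVec (v : Fin n → F) : Ep σ δ p *ᵥ v = (δ * stdForm σ (Fin n) p v) • p := by
  rw [Ep, smul_mulVec, vecMulVec_mulVec', smul_smul, stdForm_eq_dotProduct]

theorem ep_mul : Ep σ δ p * Ep σ δ r = (δ * stdForm σ (Fin n) p r * δ) • vecMulVec p (σ ∘ r) := by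
  rw [Ep, Ep, smul_mul_assoc, mul_smul_comm, vecMulVec_mul_vecMulVec', smul_smul, smul_smul,
    stdForm_eq_dotProduct, mul_right_comm]

theorem ep_mul3 : Ep σ δ p * Ep σ δ r * Ep σ δ p =
    (δ * δ * (stdForm σ (Fin n) p r * stdForm σ (Fin n) r p)) • Ep σ δ p := by
  rw [ep_mul, Ep, smul_mul_assoc, mul_smul_comm, vecMulVec_mul_vecMulVec', smul_smul, smul_smul, smul_smul,
    ← stdForm_eq_dotProduct]
  congr 1; ring

variable (h : IsBar q σ) (hL : ∀ x : F, σ x = x ↔ ∃ c : L, algebraMap L F c = x) (h0 : δ ≠ 0) (hδ : σ δ = -δ)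
include h hL h0 hδ

theorem u1 (hp : p ≠ 0) (hpp : stdForm σ (Fin n) p p = 0) : U1 L (io n F q) (Ep σ δ p) (Tp q p) := by
  have H := h.isHerm (ι := Fin n)
  obtain ⟨x, hx⟩ := H.exists_eq_one hp
  have k : ∀ (c : L) v, (1 + c • Ep σ δ p) *ᵥ v = v + (algebraMap L F c * δ * stdForm σ (Fin n) p v) • p :=
    fun c v => by rw [add_mulVec, one_mulVec, ← algebraMap_smul F c, smul_mulVec, ep_mulVec, smul_smul, mul_assoc]
  refine u1_closure (by rw [ep_mul, hpp, mul_zero, zero_mul, zero_smul]) (fun e => ?_) (fun c => ?_) fun g =>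
    ⟨fun ⟨h1, h2⟩ => ?_, fun ⟨c, h1⟩ => ⟨fun v => ⟨_, (congrArg (· *ᵥ v) h1).trans (k c v)⟩, fun v hv =>
      (congrArg (· *ᵥ v) h1).trans ((k c v).trans (by rw [← h.hermForm_eq, hv]; simp))⟩⟩
  · have := ep_mulVec (σ := σ) (δ := δ) (p := p) x
    rw [e, zero_mulVec, hx, mul_one] at this
    exact smul_ne_zero h0 hp this.symm
  · obtain ⟨g, e⟩ : ∃ g : SpecialLinearGroup (Fin n) F, g.1 = 1 + c • Ep σ δ p :=
      ⟨tvSL p ((algebraMap L F c * δ) • (σ ∘ p)) (by rw [smul_dotProduct, ← stdForm_eq_dotProduct, hpp, smul_zero]),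
        by rw [tvSL_coe, Ep, ← algebraMap_smul F c, smul_smul, vecMulVec_smul]⟩
    refine ⟨⟨g, h.mem_SU.2 fun u v => ?_⟩, e⟩
    rw [e, k, k]
    simp only [map_add, LinearMap.add_apply, LinearMap.map_smulₛₗ₂, map_smul, hpp, smul_eq_mul, map_mul, hδ,
      (hL _).2 ⟨c, rfl⟩, H.symm]
    ring
  · obtain ⟨c, hc⟩ := h1 x
    have e1 := h.mem_SU.1 g.2 x x
    rw [hc] at e1
    simp only [map_add, LinearMap.add_apply, LinearMap.map_smulₛₗ₂, map_smul, hpp, smul_eq_mul, ← H.symm p x, hx,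
      map_one] at e1
    obtain ⟨a, ha⟩ := (hL (c / δ)).1 (by
      rw [map_div₀, hδ, show σ c = -c by linear_combination e1, neg_div_neg_eq])
    refine ⟨a, Matrix.ext_iff_mulVec.2 fun v => ?_⟩
    have := h2 (v - stdForm σ (Fin n) p v • x) (by rw [h.hermForm_eq]; simp [hx])
    rw [mulVec_sub, mulVec_smul, hc, sub_eq_iff_eq_add] at this
    rw [k, ha, div_mul_cancel₀ _ h0]
    exact this.trans (by module)

theorem tri (hr : stdForm σ (Fin n) p r ≠ 0) : ∃ c : L, c ≠ 0 ∧ Ep σ δ p * Ep σ δ r * Ep σ δ p = c • Ep σ δ p ∧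
    Ep σ δ r * Ep σ δ p * Ep σ δ r = c • Ep σ δ r := by
  have H := h.isHerm (ι := Fin n)
  obtain ⟨c, hc⟩ := (hL (δ * δ * (stdForm σ (Fin n) p r * stdForm σ (Fin n) r p))).1 (by
    simp only [map_mul, hδ, H.symm]; ring)
  refine ⟨c, fun e => ?_, by rw [ep_mul3, ← hc, algebraMap_smul], by
    rw [ep_mul3, mul_comm (stdForm σ (Fin n) r p), ← hc, algebraMap_smul]⟩
  rw [e, map_zero] at hc
  exact mul_ne_zero (mul_ne_zero h0 h0) (mul_ne_zero hr (H.eq_zero_comm.not.1 hr)) hc.symm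

theorem tri' {e f : Matrix (Fin n) (Fin n) F} (he : ∃ p, p ≠ 0 ∧ stdForm σ (Fin n) p p = 0 ∧ e = Ep σ δ p)
    (hf : ∃ p, p ≠ 0 ∧ stdForm σ (Fin n) p p = 0 ∧ f = Ep σ δ p) :
    e * f = f * e ∨ ∃ c : L, c ≠ 0 ∧ e * f * e = c • e ∧ f * e * f = c • f := by
  obtain ⟨p, -, -, rfl⟩ := he
  obtain ⟨r, -, -, rfl⟩ := hf
  by_cases h1 : stdForm σ (Fin n) p r = 0
  · exact Or.inl (by simp [ep_mul, h1, h.isHerm.eq_zero_comm.1 h1])
  · exact Or.inr (tri h hL h0 hδ h1)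

theorem fam : Fam L (io n F q) (fun e => ∃ p, p ≠ 0 ∧ stdForm σ (Fin n) p p = 0 ∧ e = Ep σ δ p)
    {A | ∃ p, p ≠ 0 ∧ hermForm n F q p p = 0 ∧ A = Tp q p} := by
  simp only [h.hermForm_eq]
  refine ⟨Subtype.val_injective.comp Subtype.val_injective, ?_, ?_, ?_,
    fun e f he hf => (tri' h hL h0 hδ he hf).imp id Or.inl, ?_⟩
  · rintro _ ⟨p, hp, hpp, rfl⟩
    exact ⟨_, ⟨p, hp, hpp, rfl⟩, u1 h hL h0 hδ hp hpp⟩
  · rintro _ ⟨p, hp, hpp, rfl⟩
    exact ⟨_, ⟨p, hp, hpp, rfl⟩, u1 h hL h0 hδ hp hpp⟩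
  · rintro _ ⟨p, hp, hpp, rfl⟩ g
    have k : ∀ v, io n F q g *ᵥ (io n F q g⁻¹ *ᵥ v) = v := fun v => by
      rw [mulVec_mulVec, ← map_mul, mul_inv_cancel, map_one, one_mulVec]
    have k' : ∀ u v, stdForm σ (Fin n) (io n F q g *ᵥ u) (io n F q g *ᵥ v) = _ := h.mem_SU.1 g.2
    refine ⟨io n F q g *ᵥ p, fun e => hp ?_, (k' p p).trans hpp, Matrix.ext_iff_mulVec.2 fun v => ?_⟩
    · exact h.isHerm.nondeg p fun v => by rw [← k', e, map_zero, LinearMap.zero_apply]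
    · rw [← mulVec_mulVec, ← mulVec_mulVec, ep_mulVec, ep_mulVec, mulVec_smul, ← k' p, k]
  · rintro _ ⟨p, hp, hpp, rfl⟩
    obtain ⟨x, h1, h2, -⟩ := h.isHerm.exists_isotropic_not_orth hp hp hpp hpp
    exact ⟨_, ⟨x, fun e => by simp [e] at h2, h1, rfl⟩, tri h hL h0 hδ h2⟩

theorem conn (T : Matrix (Fin n) (Fin n) F → Prop)
    (hT : ∀ e f, (∃ p, p ≠ 0 ∧ stdForm σ (Fin n) p p = 0 ∧ e = Ep σ δ p) →
      (∃ p, p ≠ 0 ∧ stdForm σ (Fin n) p p = 0 ∧ f = Ep σ δ p) → e * f ≠ f * e → T e → T f) (e f)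
    (he : ∃ p, p ≠ 0 ∧ stdForm σ (Fin n) p p = 0 ∧ e = Ep σ δ p)
    (hf : ∃ p, p ≠ 0 ∧ stdForm σ (Fin n) p p = 0 ∧ f = Ep σ δ p) (h1 : T e) : T f := by
  have k : ∀ p r : Fin n → F, p ≠ 0 → stdForm σ (Fin n) p p = 0 → stdForm σ (Fin n) r r = 0 →
      stdForm σ (Fin n) p r ≠ 0 → T (Ep σ δ p) → T (Ep σ δ r) := fun p r hp hpp hrr h2 => by
    refine hT _ _ ⟨p, hp, hpp, rfl⟩ ⟨r, fun e => by simp [e] at h2, hrr, rfl⟩ fun e => ?_
    obtain ⟨c, hc, h3, -⟩ := tri h hL h0 hδ h2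
    rw [mul_assoc, ← e, ← mul_assoc, (u1 h hL h0 hδ hp hpp).sq, zero_mul] at h3
    exact smul_ne_zero hc (u1 h hL h0 hδ hp hpp).ne h3.symm
  obtain ⟨p, hp, hpp, rfl⟩ := he
  obtain ⟨r, hr, hrr, rfl⟩ := hf
  by_cases h2 : stdForm σ (Fin n) r p = 0
  · obtain ⟨x, h3, h4, h5⟩ := h.isHerm.exists_isotropic_not_orth hp hr hpp h2
    exact k x r (fun e => by simp [e] at h4) h3 hrr (h.isHerm.eq_zero_comm.not.1 h5) (k p x hp hpp h3 h4 h1)
  · exact k p r hp hpp hrr (h.isHerm.eq_zero_comm.not.1 h2) h1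

omit h hL h0 hδ

/-- Let F be a finite field with q² elements, n a natural number, and h the Hermitian form Σ uᵢ vᵢ^q on F^{n+2}. For a non-zero isotropic vector p let T(p) be the group of unitary transvections with centre ⟨p⟩: the elements of SU_{n+2}(q) moving every vector by a multiple of p and fixing every vector perpendicular to p. Let Σ be the set of these T(p) and G₀ the subgroup they generate. Then, viewed inside G₀, the members of Σ form a degenerate class of abstract k-root subgroups of G₀ for some field k with q elements (any two commute or are the unipotent subgroups of a rank one group that is an image of SL₂(k) with central kernel, never the commutator case), and their graph of rank one pairs is connected. -/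
theorem result (F : Type*) [Field F] [Fintype F] (q n : ℕ) (hF : Fintype.card F = q ^ 2) :
    Cfsg.IsRootSubgroupClass ((fun A : Subgroup ↥(Cfsg.SU (n + 2) F q) => A.subgroupOf (⨆ B ∈ {A : Subgroup ↥(Cfsg.SU (n + 2) F q) | ∃ p : Fin (n + 2) → F, p ≠ 0 ∧ Cfsg.hermForm (n + 2) F q p p = 0 ∧
          A = Subgroup.closure {g : ↥(Cfsg.SU (n + 2) F q) |
            (∀ v : Fin (n + 2) → F, ∃ c : F, ((g : Matrix.SpecialLinearGroup (Fin (n + 2)) F) : Matrix (Fin (n + 2)) (Fin (n + 2)) F) *ᵥ v = v + c • p) ∧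
            ∀ v : Fin (n + 2) → F, Cfsg.hermForm (n + 2) F q v p = 0 →
              ((g : Matrix.SpecialLinearGroup (Fin (n + 2)) F) : Matrix (Fin (n + 2)) (Fin (n + 2)) F) *ᵥ v = v}}, B)) ''
      {A : Subgroup ↥(Cfsg.SU (n + 2) F q) | ∃ p : Fin (n + 2) → F, p ≠ 0 ∧ Cfsg.hermForm (n + 2) F q p p = 0 ∧
          A = Subgroup.closure {g : ↥(Cfsg.SU (n + 2) F q) |
            (∀ v : Fin (n + 2) → F, ∃ c : F, ((g : Matrix.SpecialLinearGroup (Fin (n + 2)) F) : Matrix (Fin (n + 2)) (Fin (n + 2)) F) *ᵥ v = v + c • p) ∧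
            ∀ v : Fin (n + 2) → F, Cfsg.hermForm (n + 2) F q v p = 0 →
              ((g : Matrix.SpecialLinearGroup (Fin (n + 2)) F) : Matrix (Fin (n + 2)) (Fin (n + 2)) F) *ᵥ v = v}}) ∧
    Cfsg.IsDegenerateRootSet ((fun A : Subgroup ↥(Cfsg.SU (n + 2) F q) => A.subgroupOf (⨆ B ∈ {A : Subgroup ↥(Cfsg.SU (n + 2) F q) | ∃ p : Fin (n + 2) → F, p ≠ 0 ∧ Cfsg.hermForm (n + 2) F q p p = 0 ∧
          A = Subgroup.closure {g : ↥(Cfsg.SU (n + 2) F q) |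
            (∀ v : Fin (n + 2) → F, ∃ c : F, ((g : Matrix.SpecialLinearGroup (Fin (n + 2)) F) : Matrix (Fin (n + 2)) (Fin (n + 2)) F) *ᵥ v = v + c • p) ∧
            ∀ v : Fin (n + 2) → F, Cfsg.hermForm (n + 2) F q v p = 0 →
              ((g : Matrix.SpecialLinearGroup (Fin (n + 2)) F) : Matrix (Fin (n + 2)) (Fin (n + 2)) F) *ᵥ v = v}}, B)) ''
      {A : Subgroup ↥(Cfsg.SU (n + 2) F q) | ∃ p : Fin (n + 2) → F, p ≠ 0 ∧ Cfsg.hermForm (n + 2) F q p p = 0 ∧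
          A = Subgroup.closure {g : ↥(Cfsg.SU (n + 2) F q) |
            (∀ v : Fin (n + 2) → F, ∃ c : F, ((g : Matrix.SpecialLinearGroup (Fin (n + 2)) F) : Matrix (Fin (n + 2)) (Fin (n + 2)) F) *ᵥ v = v + c • p) ∧
            ∀ v : Fin (n + 2) → F, Cfsg.hermForm (n + 2) F q v p = 0 →
              ((g : Matrix.SpecialLinearGroup (Fin (n + 2)) F) : Matrix (Fin (n + 2)) (Fin (n + 2)) F) *ᵥ v = v}}) ∧
    (∃ (L : Type) (_ : Field L) (_ : Fintype L), Fintype.card L = q ∧ Cfsg.IsKRootSubgroupSet L ((fun A : Subgroup ↥(Cfsg.SU (n + 2) F q) => A.subgroupOf (⨆ B ∈ {A : Subgroup ↥(Cfsg.SU (n + 2) F q) | ∃ p : Fin (n + 2) → F, p ≠ 0 ∧ Cfsg.hermForm (n + 2) F q p p = 0 ∧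
          A = Subgroup.closure {g : ↥(Cfsg.SU (n + 2) F q) |
            (∀ v : Fin (n + 2) → F, ∃ c : F, ((g : Matrix.SpecialLinearGroup (Fin (n + 2)) F) : Matrix (Fin (n + 2)) (Fin (n + 2)) F) *ᵥ v = v + c • p) ∧
            ∀ v : Fin (n + 2) → F, Cfsg.hermForm (n + 2) F q v p = 0 →
              ((g : Matrix.SpecialLinearGroup (Fin (n + 2)) F) : Matrix (Fin (n + 2)) (Fin (n + 2)) F) *ᵥ v = v}}, B)) ''
      {A : Subgroup ↥(Cfsg.SU (n + 2) F q) | ∃ p : Fin (n + 2) → F, p ≠ 0 ∧ Cfsg.hermForm (n + 2) F q p p = 0 ∧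
          A = Subgroup.closure {g : ↥(Cfsg.SU (n + 2) F q) |
            (∀ v : Fin (n + 2) → F, ∃ c : F, ((g : Matrix.SpecialLinearGroup (Fin (n + 2)) F) : Matrix (Fin (n + 2)) (Fin (n + 2)) F) *ᵥ v = v + c • p) ∧
            ∀ v : Fin (n + 2) → F, Cfsg.hermForm (n + 2) F q v p = 0 →
              ((g : Matrix.SpecialLinearGroup (Fin (n + 2)) F) : Matrix (Fin (n + 2)) (Fin (n + 2)) F) *ᵥ v = v}})) ∧
    Cfsg.IsConnectedFamily (Cfsg.FAdj ((fun A : Subgroup ↥(Cfsg.SU (n + 2) F q) => A.subgroupOf (⨆ B ∈ {A : Subgroup ↥(Cfsg.SU (n + 2) F q) | ∃ p : Fin (n + 2) → F, p ≠ 0 ∧ Cfsg.hermForm (n + 2) F q p p = 0 ∧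
          A = Subgroup.closure {g : ↥(Cfsg.SU (n + 2) F q) |
            (∀ v : Fin (n + 2) → F, ∃ c : F, ((g : Matrix.SpecialLinearGroup (Fin (n + 2)) F) : Matrix (Fin (n + 2)) (Fin (n + 2)) F) *ᵥ v = v + c • p) ∧
            ∀ v : Fin (n + 2) → F, Cfsg.hermForm (n + 2) F q v p = 0 →
              ((g : Matrix.SpecialLinearGroup (Fin (n + 2)) F) : Matrix (Fin (n + 2)) (Fin (n + 2)) F) *ᵥ v = v}}, B)) ''
      {A : Subgroup ↥(Cfsg.SU (n + 2) F q) | ∃ p : Fin (n + 2) → F, p ≠ 0 ∧ Cfsg.hermForm (n + 2) F q p p = 0 ∧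
          A = Subgroup.closure {g : ↥(Cfsg.SU (n + 2) F q) |
            (∀ v : Fin (n + 2) → F, ∃ c : F, ((g : Matrix.SpecialLinearGroup (Fin (n + 2)) F) : Matrix (Fin (n + 2)) (Fin (n + 2)) F) *ᵥ v = v + c • p) ∧
            ∀ v : Fin (n + 2) → F, Cfsg.hermForm (n + 2) F q v p = 0 →
              ((g : Matrix.SpecialLinearGroup (Fin (n + 2)) F) : Matrix (Fin (n + 2)) (Fin (n + 2)) F) *ᵥ v = v}})) ((fun A : Subgroup ↥(Cfsg.SU (n + 2) F q) => A.subgroupOf (⨆ B ∈ {A : Subgroup ↥(Cfsg.SU (n + 2) F q) | ∃ p : Fin (n + 2) → F, p ≠ 0 ∧ Cfsg.hermForm (n + 2) F q p p = 0 ∧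
          A = Subgroup.closure {g : ↥(Cfsg.SU (n + 2) F q) |
            (∀ v : Fin (n + 2) → F, ∃ c : F, ((g : Matrix.SpecialLinearGroup (Fin (n + 2)) F) : Matrix (Fin (n + 2)) (Fin (n + 2)) F) *ᵥ v = v + c • p) ∧
            ∀ v : Fin (n + 2) → F, Cfsg.hermForm (n + 2) F q v p = 0 →
              ((g : Matrix.SpecialLinearGroup (Fin (n + 2)) F) : Matrix (Fin (n + 2)) (Fin (n + 2)) F) *ᵥ v = v}}, B)) ''
      {A : Subgroup ↥(Cfsg.SU (n + 2) F q) | ∃ p : Fin (n + 2) → F, p ≠ 0 ∧ Cfsg.hermForm (n + 2) F q p p = 0 ∧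
          A = Subgroup.closure {g : ↥(Cfsg.SU (n + 2) F q) |
            (∀ v : Fin (n + 2) → F, ∃ c : F, ((g : Matrix.SpecialLinearGroup (Fin (n + 2)) F) : Matrix (Fin (n + 2)) (Fin (n + 2)) F) *ᵥ v = v + c • p) ∧
            ∀ v : Fin (n + 2) → F, Cfsg.hermForm (n + 2) F q v p = 0 →
              ((g : Matrix.SpecialLinearGroup (Fin (n + 2)) F) : Matrix (Fin (n + 2)) (Fin (n + 2)) F) *ᵥ v = v}}) := by
  obtain ⟨σ, h⟩ := exists_isBar hF
  obtain ⟨δ, h0, hδ⟩ := h.exists_skew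
  have := h.finite
  let L := Shrink.{0} (fixedField σ)
  let ε : L ≃+* fixedField σ := Shrink.ringEquiv.{0} _
  let _ : Algebra L F := ((fixedField σ).subtype.comp ε.toRingHom).toAlgebra
  have hL : ∀ x : F, σ x = x ↔ ∃ c : L, algebraMap L F c = x := fun x =>
    ⟨fun e => ⟨ε.symm ⟨x, e⟩, congrArg Subtype.val (ε.apply_symm_apply _)⟩, fun ⟨c, e⟩ => e ▸ (ε c).2⟩
  have H := (fam (n := n + 2) h hL h0 hδ)
  have hc := H.loc.conn (conn h hL h0 hδ)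
  obtain ⟨p, hp, hpp⟩ := (h.isHerm (ι := Fin (n + 2))).exists_isotropic (by simp)
  obtain ⟨A, hA, -⟩ := H.loc.mk' _ ⟨p, hp, hpp, rfl⟩
  let _ : Fintype L := Fintype.ofFinite _
  exact ⟨class_of_connected H.loc_kroot.1 hA hc, H.loc.deg H.loc_kroot.1 fun e f => tri' h hL h0 hδ,
    ⟨L, inferInstance, inferInstance, by
      rw [← Nat.card_eq_fintype_card, Nat.card_congr ε.toEquiv, h.card_fixedField], H.loc_kroot⟩, hc⟩

end Cfsg.Agent.S5071
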