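import Cfsg.Statements.S5072
import Cfsg.Agent.Lib.RI.U1
import Cfsg.Agent.Lib.Orth.Matrix

set_option autoImplicit false
open Matrix
open Cfsg

namespace Cfsg.Agent.S5072

open Cfsg.Lib.RI Cfsg.Lib.Root Cfsg.Lib.Orth Subgroup QuadraticMap
open scoped Cfsg.Lib.Transfer

variable {F : Type*} [Field F] {ι : Type} [Fintype ι] [DecidableEq ι] {Q : QuadraticForm F (ι → F)}
  {p r p' r' : ι → F}

/-- The Siegel transvection group of the line spanned by `p`, `r`. -/
abbrev Tl (Q : (ι → F) → F) (p r : ι → F) : Subgroup (isometryGroup F Q) :=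
  closure {σ | ∀ v, Q (v + p) - Q v - Q p = 0 → Q (v + r) - Q v - Q r = 0 →
    ((σ : GL ι F) : Matrix ι ι F) *ᵥ v = v}

/-- The nilpotent endomorphism of a line. -/
def sg (Q : QuadraticForm F (ι → F)) (p r : ι → F) : Module.End F (ι → F) :=
  (polarBilin Q r).smulRight p - (polarBilin Q p).smulRight r

/-- Singular lines. -/
abbrev Ln (Q : (ι → F) → F) (p r : ι → F) : Prop := LinearIndependent F ![p, r] ∧ Q p = 0 ∧ Q r = 0 ∧ Q (p + r) = 0

/-- The endomorphism of an isometry. -/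
noncomputable def io (Q : (ι → F) → F) : isometryGroup F Q →* Module.End F (ι → F) :=
  ((toLinAlgEquiv' : Matrix ι ι F ≃ₐ[F] _) : Matrix ι ι F →* _).comp ((Units.coeHom _).comp (isometryGroup F Q).subtype)

theorem io_apply (g : isometryGroup F ⇑Q) (v : ι → F) : io ⇑Q g v = (isoEquiv Q g).1 v := by
  rw [isoEquiv_apply]; rfl

omit [Fintype ι] [DecidableEq ι]

theorem sg_apply (x : ι → F) : sg Q p r x = polar Q r x • p - polar Q p x • r := rfl

theorem sg_swap : sg Q r (-p) = sg Q p r := LinearMap.ext fun x => by simp [sg_apply]; abel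

theorem Ln.pr (h : Ln Q p r) : polar Q p r = 0 := by rw [polar, h.2.1, h.2.2.1, h.2.2.2]; simp

theorem Ln.rp (h : Ln Q p r) : polar Q r p = 0 := by rw [polar_comm, h.pr]

theorem Ln.pp (h : Ln Q p r) : polar Q p p = 0 := by rw [polar_self', h.2.1, mul_zero]

theorem Ln.rr (h : Ln Q p r) : polar Q r r = 0 := by rw [polar_self', h.2.2.1, mul_zero]

theorem ln_mk (h : LinearIndependent F ![p, r]) (h1 : Q p = 0) (h2 : Q r = 0) (h3 : polar Q p r = 0) : Ln Q p r :=
  ⟨h, h1, h2, by rw [Q_add, h1, h2, h3]; simp⟩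

theorem Ln.swap (h : Ln Q p r) : Ln Q r (-p) :=
  ln_mk (LinearIndependent.pair_iff.2 fun s t e => by
    have := LinearIndependent.pair_iff.1 h.1 (-t) s (by rw [← e]; module)
    exact ⟨this.2, neg_eq_zero.1 this.1⟩) h.2.2.1 (by rw [Q.map_neg, h.2.1]) (by simp [h.rp])

theorem Ln.comb (h : Ln Q p r) (a b : F) : Q (a • p - b • r) = 0 := by
  simp [Q_sub, Q_smul, h.2.1, h.2.2.1, h.pr]

theorem sg3 : sg Q p r * sg Q p' r' * sg Q p r =
    (polar Q p r' * polar Q r p' - polar Q p p' * polar Q r r') • sg Q p r := LinearMap.ext fun x => by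
  simp only [Module.End.mul_apply, LinearMap.smul_apply, sg_apply, polar_sub_right, polar_smul_right',
    polar_comm Q p' p, polar_comm Q r' p, polar_comm Q p' r, polar_comm Q r' r]
  module

theorem tri₁ (h : Ln Q p r) (h' : Ln Q p' r') (ha : polar Q p p' ≠ 0)
    (hd : polar Q p r' * polar Q r p' - polar Q p p' * polar Q r r' = 0) :
    sg Q p r * sg Q p' r' = sg Q p' r' * sg Q p r ∨
      ∃ u w, Ln Q u w ∧ sg Q p r * sg Q p' r' - sg Q p' r' * sg Q p r = sg Q u w := by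
  have e1 : polar Q r r' = polar Q p r' * polar Q r p' / polar Q p p' := by field_simp; linear_combination -hd
  have e : sg Q p r * sg Q p' r' - sg Q p' r' * sg Q p r = sg Q (r - (polar Q r p' / polar Q p p') • p)
      (polar Q p r' • p' - polar Q p p' • r') := LinearMap.ext fun x => by
    simp only [Module.End.mul_apply, LinearMap.sub_apply, sg_apply, polar_sub_right, polar_smul_right',
      polar_sub_left, polar_smul_left', polar_comm Q p' p, polar_comm Q r' p, polar_comm Q p' r, polar_comm Q r' r, e1]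
    match_scalars <;> field_simp <;> ring
  have q1 : Q (r - (polar Q r p' / polar Q p p') • p) = 0 := by simp [Q_sub, Q_smul, h.2.1, h.2.2.1, h.rp]
  have q2 := h'.comb (polar Q p r') (polar Q p p')
  have q3 : polar Q (r - (polar Q r p' / polar Q p p') • p) (polar Q p r' • p' - polar Q p p' • r') = 0 := by
    simp only [polar_sub_right, polar_smul_right', polar_sub_left, polar_smul_left', e1]
    field_simp; ring
  generalize r - (polar Q r p' / polar Q p p') • p = u at e q1 q3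
  generalize polar Q p r' • p' - polar Q p p' • r' = w at e q2 q3
  by_cases hl : LinearIndependent F ![u, w]
  · exact Or.inr ⟨u, w, ln_mk hl q1 q2 q3, e⟩
  refine Or.inl (sub_eq_zero.1 (e.trans (LinearMap.ext fun x => ?_)))
  by_cases hu : u = 0
  · simp [sg_apply, hu]
  obtain ⟨c, rfl⟩ : ∃ c : F, c • u = w := by simpa [LinearIndependent.pair_iff' hu] using hl
  simp [sg_apply, smul_smul, mul_comm]

theorem tri (h : Ln Q p r) (h' : Ln Q p' r') (hd : polar Q p r' * polar Q r p' - polar Q p p' * polar Q r r' = 0) :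
    sg Q p r * sg Q p' r' = sg Q p' r' * sg Q p r ∨
      ∃ u w, Ln Q u w ∧ sg Q p r * sg Q p' r' - sg Q p' r' * sg Q p r = sg Q u w := by
  by_cases h1 : polar Q p p' = 0; swap
  · exact tri₁ h h' h1 hd
  by_cases h2 : polar Q p r' = 0; swap
  · simpa only [sg_swap] using tri₁ h h'.swap h2 (by simp; linear_combination hd)
  by_cases h3 : polar Q r p' = 0; swap
  · simpa only [sg_swap] using tri₁ h.swap h' h3 (by simp; linear_combination hd)
  by_cases h4 : polar Q r r' = 0; swap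
  · simpa only [sg_swap] using tri₁ h.swap h'.swap h4 (by simp; linear_combination hd)
  exact Or.inl (LinearMap.ext fun x => by simp [sg_apply, h1, h2, h3, h4, polar_comm Q p', polar_comm Q r'])

variable [Fintype ι] (hQ : ND Q)
include hQ

theorem Ln.dual (h : Ln Q p r) : ∃ x y, Ln Q x y ∧ polar Q p x = 1 ∧ polar Q r x = 0 ∧ polar Q p y = 0 ∧
    polar Q r y = 1 := by
  have k : ∀ {p r}, Ln Q p r → ∃ y, polar Q p y = 0 ∧ polar Q r y = 1 := fun {p r} h => by
    obtain ⟨y, h1, h2⟩ := exists_perp_polar_eq hQ (W := F ∙ p) (u := r) (fun h1 => by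
      obtain ⟨c, e⟩ := Submodule.mem_span_singleton.1 h1
      simpa using (LinearIndependent.pair_iff.1 h.1 c (-1) (by simp [e])).2) 1
    exact ⟨y, mem_perp_singleton.1 h1, h2⟩
  obtain ⟨y, h1, h2⟩ := k h
  obtain ⟨x, h3, h4⟩ := k h.swap
  obtain ⟨x, h5, h3, h4⟩ : ∃ x, Q x = 0 ∧ polar Q r x = 0 ∧ polar Q p x = 1 :=
    ⟨-x - Q x • p, by rw [polar_neg_left, neg_eq_iff_eq_neg] at h4; simp [Q_sub, Q_smul, h.2.1, polar_comm Q x, h4],
      by simp [h3, h.rp], by simpa [h.pp] using h4⟩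
  obtain ⟨y, h6, h1, h2⟩ : ∃ y, polar Q x y = 0 ∧ polar Q p y = 0 ∧ polar Q r y = 1 :=
    ⟨y - polar Q x y • p, by simp [polar_comm Q x p, h4], by simp [h1, h.pp], by simp [h2, h.rp]⟩
  refine ⟨x, y - Q y • r, ln_mk (LinearIndependent.pair_iff.2 fun s t e => ?_) h5
    (by simp [Q_sub, Q_smul, h.2.2.1, polar_comm Q y, h2]) (by simp [h6, polar_comm Q x r, h3]), h4, h3,
    by simp [h1, h.pr], by simp [h2, h.rr]⟩
  exact ⟨by simpa [h4, h1, h.pr] using congrArg (polar Q p) e, by simpa [h3, h2, h.rr] using congrArg (polar Q r) e⟩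

variable [DecidableEq ι]

theorem u1 (h : Ln Q p r) : U1 F (io ⇑Q) (sg Q p r) (Tl ⇑Q p r) := by
  obtain ⟨x, y, -, h1, h2, h3, h4⟩ := h.dual hQ
  refine u1_closure (LinearMap.ext fun v => by simp [sg_apply, h.pp, h.pr, h.rp, h.rr]) (fun e => ?_)
    (fun c => ⟨(isoEquiv Q).symm (eich Q p (c • r)), LinearMap.ext fun v => ?_⟩) fun g =>
    ⟨fun hg => ?_, fun ⟨c, e⟩ v a b => ?_⟩
  · have := sg_apply (Q := Q) (p := p) (r := r) y
    rw [e, h3, h4] at this
    exact h.1.ne_zero 0 (by simpa using this.symm)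
  · rw [io_apply, MulEquiv.apply_symm_apply, eich_apply h.2.1 (by simp [h.pr])]
    simp only [LinearMap.add_apply, LinearMap.smul_apply, sg_apply, Module.End.one_apply, Q_smul, h.2.2.1,
      polar_smul_left']
    module
  · replace hg : ∀ v, polar Q p v = 0 → polar Q r v = 0 → (isoEquiv Q g).1 v = v := fun v a b =>
      (isoEquiv_apply g v).trans (hg v ((polar_comm Q v p).trans a) ((polar_comm Q v r).trans b))
    simp only [LinearMap.ext_iff, io_apply]
    generalize isoEquiv Q g = σ at hg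
    have k0 : ∀ v, σ.1 (v - polar Q p v • x - polar Q r v • y) = v - polar Q p v • x - polar Q r v • y :=
      fun v => hg _ (by simp [h1, h3]) (by simp [h2, h4])
    have k : ∀ z, ∃ a b : F, σ.1 z = z + a • p + b • r := fun z =>
      ⟨polar Q (σ.1 z - z) x, polar Q (σ.1 z - z) y, hQ.ext fun v => by
        have := O.map_polar σ z (v - polar Q p v • x - polar Q r v • y)
        rw [k0] at this
        simp only [polar_sub_right, polar_smul_right', polar_add_left, polar_smul_left', polar_sub_left] at this ⊢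
        linear_combination this⟩
    obtain ⟨a, b, e1⟩ := k x
    obtain ⟨c, d, e2⟩ := k y
    have q1 := O.map_Q σ x
    have q2 := O.map_Q σ y
    have q3 := O.map_polar σ x y
    simp only [e1, e2, Q_add, Q_smul, polar_add_left, polar_add_right, polar_smul_left', polar_smul_right', h.2.1,
      h.2.2.1, h.pp, h.pr, h.rp, h.rr, h1, h2, h3, h4, polar_comm Q x p, polar_comm Q x r, polar_comm Q y p,
      polar_comm Q y r] at q1 q2 q3
    refine ⟨c, fun v => ?_⟩
    have := k0 v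
    rw [map_sub, map_sub, map_smul, map_smul, e1, e2, show a = 0 by linear_combination q1,
      show d = 0 by linear_combination q2, show b = -c by linear_combination q3] at this
    simp only [LinearMap.add_apply, LinearMap.smul_apply, sg_apply, Module.End.one_apply]
    linear_combination (norm := module) this
  · have := LinearMap.congr_fun e v
    rw [io_apply, isoEquiv_apply] at this
    simpa [sg_apply, (polar_comm Q p v).trans a, (polar_comm Q r v).trans b] using this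

theorem fam : Fam F (io ⇑Q) (fun e => ∃ p r, Ln Q p r ∧ e = sg Q p r)
    {A | ∃ p r, LinearIndependent F ![p, r] ∧ Q p = 0 ∧ Q r = 0 ∧ Q (p + r) = 0 ∧ A = Tl ⇑Q p r} := by
  refine ⟨fun g h e => (isoEquiv Q).injective (O.ext fun v => by rw [← io_apply, e, io_apply]), ?_, ?_, ?_, ?_, ?_⟩
  · rintro _ ⟨p, r, h1, h2, h3, h4, rfl⟩
    exact ⟨_, ⟨p, r, ⟨h1, h2, h3, h4⟩, rfl⟩, u1 hQ ⟨h1, h2, h3, h4⟩⟩
  · rintro _ ⟨p, r, h, rfl⟩
    exact ⟨_, ⟨p, r, h.1, h.2.1, h.2.2.1, h.2.2.2, rfl⟩, u1 hQ h⟩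
  · rintro _ ⟨p, r, h, rfl⟩ g
    refine ⟨(isoEquiv Q g).1 p, (isoEquiv Q g).1 r, ln_mk ?_ (by simp [h.2.1]) (by simp [h.2.2.1]) (by simp [h.pr]),
      LinearMap.ext fun v => by simp [io_apply, sg_apply, O.polar_left]⟩
    exact LinearIndependent.pair_iff.2 fun s t e => LinearIndependent.pair_iff.1 h.1 s t
      ((isoEquiv Q g).1.injective (by simpa using e))
  · rintro _ _ ⟨p, r, h, rfl⟩ ⟨p', r', h', rfl⟩
    have e : sg Q p' r' * sg Q p r * sg Q p' r' =
        (polar Q p r' * polar Q r p' - polar Q p p' * polar Q r r') • sg Q p' r' := by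
      rw [sg3, polar_comm Q p' r, polar_comm Q r' p, polar_comm Q p' p, polar_comm Q r' r, mul_comm]
    by_cases hd : polar Q p r' * polar Q r p' - polar Q p p' * polar Q r r' = 0
    · exact (tri h h' hd).imp id fun h1 => Or.inr ⟨by rw [sg3, hd, zero_smul], by rw [e, hd, zero_smul], h1⟩
    · exact Or.inr (Or.inl ⟨_, hd, sg3, e⟩)
  · rintro _ ⟨p, r, h, rfl⟩
    obtain ⟨x, y, h', h1, h2, h3, h4⟩ := h.dual hQ
    exact ⟨_, ⟨x, y, h', rfl⟩, -1, by simp, by rw [sg3, h1, h2, h3, h4, mul_zero, mul_one, zero_sub],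
      by rw [sg3, polar_comm Q x r, polar_comm Q y p, polar_comm Q x p, polar_comm Q y r, h1, h2, h3, h4, mul_zero, mul_one,
        zero_sub]⟩

omit hQ

theorem conn (s : ι → ι) (hs : ∀ a, s (s a) = a) (h5 : 4 < Fintype.card ι) (h0 : ∀ a, Q (Pi.single a 1) = 0)
    (hb : ∀ a v, polar Q (Pi.single a 1) v = v (s a)) (T : Module.End F (ι → F) → Prop)
    (hT : ∀ e f, (∃ p r, Ln Q p r ∧ e = sg Q p r) → (∃ p r, Ln Q p r ∧ f = sg Q p r) → e * f ≠ f * e → T e → T f)
    (hne : ∀ p r, Ln Q p r → sg Q p r * sg Q p r = 0 ∧ sg Q p r ≠ 0) (e f) (he : ∃ p r, Ln Q p r ∧ e = sg Q p r)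
    (hf : ∃ p r, Ln Q p r ∧ f = sg Q p r) (h1 : T e) : T f := by
  let E (a b : ι) := sg Q (Pi.single a 1) (Pi.single b 1)
  have si : ∀ {a b}, s a = s b ↔ a = b := fun {a b} => ⟨fun h => by rw [← hs a, h, hs], congrArg s⟩
  have ex : ∀ a b c d : ι, ∃ x, x ≠ a ∧ x ≠ b ∧ x ≠ c ∧ x ≠ d := fun a b c d => by
    obtain ⟨x, -, h⟩ := Finset.exists_mem_notMem_of_card_lt_card (s := {a, b, c, d}) (t := Finset.univ)
      (Finset.card_le_four.trans_lt h5)
    exact ⟨x, by simpa [not_or] using h⟩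
  have l : ∀ {a b}, b ≠ a → b ≠ s a → ∃ p r, Ln Q p r ∧ E a b = sg Q p r := fun {a b} h h' =>
    ⟨_, _, ln_mk (LinearIndependent.pair_iff.2 fun x y e =>
      ⟨by simpa [h.symm] using congrFun e a, by simpa [h] using congrFun e b⟩) (h0 a) (h0 b)
      (by simp [hb, h'.symm]), rfl⟩
  have st : ∀ {a b c}, b ≠ a → b ≠ s a → c ≠ a → c ≠ s a → c ≠ b → T (E a b) → T (E (s a) c) ∧ T (E c (s a)) :=
    fun {a b c} h1 h2 h3 h4 h5 t => by
      have h6 : s c ≠ a := fun e => h4 (by rw [← e, hs])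
      refine ⟨hT _ _ (l h1 h2) (l h4 (by rwa [hs])) (fun e => ?_) t,
        hT _ _ (l h1 h2) (l h4.symm (si.not.2 h3.symm)) (fun e => ?_) t⟩ <;> simpa [E, sg_apply, hb, hs, si, h1, h3.symm, h5.symm, h6.symm, Pi.single_apply] using
          congrFun (LinearMap.congr_fun e (Pi.single (s c) 1)) b
  have mv : ∀ {a b d}, b ≠ a → b ≠ s a → d ≠ a → d ≠ s a → T (E a b) → T (E a d) ∧ T (E d a) :=
    fun {a b d} h1 h2 h3 h4 t => by
      obtain ⟨c, c1, c2, c3, c4⟩ := ex a (s a) b d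
      simpa only [hs] using st c2 (by rwa [hs]) h4 (by rwa [hs]) c4.symm (st h1 h2 c1 c2 c3 t).1
  have nc : ∀ e, (∃ p r, Ln Q p r ∧ e = sg Q p r) → ∃ a b, b ≠ a ∧ b ≠ s a ∧ e * E a b ≠ E a b * e := by
    rintro _ ⟨p, r, h, rfl⟩
    obtain ⟨h2, h3⟩ := hne p r h
    generalize sg Q p r = e at h2 h3
    by_contra! hc
    refine h3 ((Pi.basisFun F ι).ext fun a => ?_)
    have k : ∀ j, j ≠ a → e (Pi.single a 1) j = 0 := fun j hj => by
      obtain ⟨b, b1, b2, b3, -⟩ := ex a (s a) j j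
      simpa [E, sg_apply, hb, hs, si, b1.symm, hj, b3.symm, Pi.single_apply] using
        congrFun (LinearMap.congr_fun (hc a b b1 b2) (Pi.single (s b) 1)) j
    have k1 : e (Pi.single a 1) = e (Pi.single a 1) a • Pi.single a 1 := funext fun j => by
      by_cases hj : j = a
      · simp [hj]
      · simp [hj, k j hj]
    have k2 := congrFun (LinearMap.congr_fun h2 (Pi.single a 1)) a
    rw [Module.End.mul_apply, k1, map_smul] at k2
    rw [Pi.basisFun_apply, k1, show e (Pi.single a 1) a = 0 by simpa using k2]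
    simp
  obtain ⟨a, b, a1, a2, a3⟩ := nc e he
  obtain ⟨c, d, c1, c2, c3⟩ := nc f hf
  have t := hT _ _ he (l a1 a2) a3 h1
  refine hT _ _ (l c1 c2) hf c3.symm ?_
  have sy : ∀ {a b}, b ≠ s a → a ≠ s b := fun h e => h (by rw [e, hs])
  by_cases h : c ≠ a ∧ c ≠ s a
  · exact (mv h.1.symm (sy h.2) c1 c2 (mv a1 a2 h.1 h.2 t).2).1
  · have : d ≠ a ∧ d ≠ s a := by
      rcases not_and_or.1 h with h | h <;> rw [not_not.1 h] at c1 c2
      exacts [⟨c1, c2⟩, ⟨by rwa [hs] at c2, c1⟩]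
    exact (mv this.1.symm (sy this.2) c1.symm (sy c2) (mv a1 a2 this.1 this.2 t).2).2

/-- Let F be a field, m a natural number and V = F^{2(m+3)} with the hyperbolic quadratic form q(x, y) = Σ xᵢ yᵢ (non-degenerate, Witt index m + 3 ≥ 3). For a singular line ℓ (a 2-dimensional subspace on which q vanishes) let T(ℓ) be the group of isometries of q fixing every vector of ℓ^⊥ (the Siegel transvection group of ℓ), let Σ be the set of these groups and G₀ the subgroup they generate. Then, viewed inside G₀, the members of Σ form a set of abstract F-root subgroups of G₀ (any two commute, or are the unipotent subgroups of a rank one group that is an image of SL₂(F) with central kernel, or satisfy the commutator case), and their graph of rank one pairs is connected. -/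
theorem result (F : Type*) [Field F] (m : ℕ) :
    Cfsg.IsKRootSubgroupSet F ((fun A : Subgroup ↥(Cfsg.isometryGroup F (Cfsg.quadFormPlus (m + 3) F)) => A.subgroupOf (⨆ B ∈ {A : Subgroup ↥(Cfsg.isometryGroup F (Cfsg.quadFormPlus (m + 3) F)) | ∃ p r : Fin (m + 3) ⊕ Fin (m + 3) → F, LinearIndependent F ![p, r] ∧
          Cfsg.quadFormPlus (m + 3) F p = 0 ∧ Cfsg.quadFormPlus (m + 3) F r = 0 ∧
          Cfsg.quadFormPlus (m + 3) F (p + r) = 0 ∧
          A = Subgroup.closure {σ : ↥(Cfsg.isometryGroup F (Cfsg.quadFormPlus (m + 3) F)) | ∀ v : Fin (m + 3) ⊕ Fin (m + 3) → F,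
            Cfsg.quadFormPlus (m + 3) F (v + p) - Cfsg.quadFormPlus (m + 3) F v - Cfsg.quadFormPlus (m + 3) F p = 0 →
            Cfsg.quadFormPlus (m + 3) F (v + r) - Cfsg.quadFormPlus (m + 3) F v - Cfsg.quadFormPlus (m + 3) F r = 0 →
              ((σ : Matrix.GeneralLinearGroup (Fin (m + 3) ⊕ Fin (m + 3)) F) : Matrix (Fin (m + 3) ⊕ Fin (m + 3)) (Fin (m + 3) ⊕ Fin (m + 3)) F) *ᵥ v = v}}, B)) ''
      {A : Subgroup ↥(Cfsg.isometryGroup F (Cfsg.quadFormPlus (m + 3) F)) | ∃ p r : Fin (m + 3) ⊕ Fin (m + 3) → F, LinearIndependent F ![p, r] ∧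
          Cfsg.quadFormPlus (m + 3) F p = 0 ∧ Cfsg.quadFormPlus (m + 3) F r = 0 ∧
          Cfsg.quadFormPlus (m + 3) F (p + r) = 0 ∧
          A = Subgroup.closure {σ : ↥(Cfsg.isometryGroup F (Cfsg.quadFormPlus (m + 3) F)) | ∀ v : Fin (m + 3) ⊕ Fin (m + 3) → F,
            Cfsg.quadFormPlus (m + 3) F (v + p) - Cfsg.quadFormPlus (m + 3) F v - Cfsg.quadFormPlus (m + 3) F p = 0 →
            Cfsg.quadFormPlus (m + 3) F (v + r) - Cfsg.quadFormPlus (m + 3) F v - Cfsg.quadFormPlus (m + 3) F r = 0 →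
              ((σ : Matrix.GeneralLinearGroup (Fin (m + 3) ⊕ Fin (m + 3)) F) : Matrix (Fin (m + 3) ⊕ Fin (m + 3)) (Fin (m + 3) ⊕ Fin (m + 3)) F) *ᵥ v = v}}) ∧
    Cfsg.IsConnectedFamily (Cfsg.FAdj {A : Subgroup ↥(Cfsg.isometryGroup F (Cfsg.quadFormPlus (m + 3) F)) | ∃ p r : Fin (m + 3) ⊕ Fin (m + 3) → F, LinearIndependent F ![p, r] ∧
          Cfsg.quadFormPlus (m + 3) F p = 0 ∧ Cfsg.quadFormPlus (m + 3) F r = 0 ∧
          Cfsg.quadFormPlus (m + 3) F (p + r) = 0 ∧
          A = Subgroup.closure {σ : ↥(Cfsg.isometryGroup F (Cfsg.quadFormPlus (m + 3) F)) | ∀ v : Fin (m + 3) ⊕ Fin (m + 3) → F,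
            Cfsg.quadFormPlus (m + 3) F (v + p) - Cfsg.quadFormPlus (m + 3) F v - Cfsg.quadFormPlus (m + 3) F p = 0 →
            Cfsg.quadFormPlus (m + 3) F (v + r) - Cfsg.quadFormPlus (m + 3) F v - Cfsg.quadFormPlus (m + 3) F r = 0 →
              ((σ : Matrix.GeneralLinearGroup (Fin (m + 3) ⊕ Fin (m + 3)) F) : Matrix (Fin (m + 3) ⊕ Fin (m + 3)) (Fin (m + 3) ⊕ Fin (m + 3)) F) *ᵥ v = v}})
      {A : Subgroup ↥(Cfsg.isometryGroup F (Cfsg.quadFormPlus (m + 3) F)) | ∃ p r : Fin (m + 3) ⊕ Fin (m + 3) → F, LinearIndependent F ![p, r] ∧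
          Cfsg.quadFormPlus (m + 3) F p = 0 ∧ Cfsg.quadFormPlus (m + 3) F r = 0 ∧
          Cfsg.quadFormPlus (m + 3) F (p + r) = 0 ∧
          A = Subgroup.closure {σ : ↥(Cfsg.isometryGroup F (Cfsg.quadFormPlus (m + 3) F)) | ∀ v : Fin (m + 3) ⊕ Fin (m + 3) → F,
            Cfsg.quadFormPlus (m + 3) F (v + p) - Cfsg.quadFormPlus (m + 3) F v - Cfsg.quadFormPlus (m + 3) F p = 0 →
            Cfsg.quadFormPlus (m + 3) F (v + r) - Cfsg.quadFormPlus (m + 3) F v - Cfsg.quadFormPlus (m + 3) F r = 0 →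
              ((σ : Matrix.GeneralLinearGroup (Fin (m + 3) ⊕ Fin (m + 3)) F) : Matrix (Fin (m + 3) ⊕ Fin (m + 3)) (Fin (m + 3) ⊕ Fin (m + 3)) F) *ᵥ v = v}} := by
  have hQ := nd_qPlus (F := F) (m + 3)
  have H := fam hQ
  refine ⟨H.loc_kroot, H.conn fun T hT => conn Sum.swap Sum.swap_swap (by simp; omega) ?_ ?_ T hT
    fun p r h => ⟨(u1 hQ h).sq, (u1 hQ h).ne⟩⟩
  · rintro (a | a) <;> simp [qPlus_apply]
  · rintro (a | a) v <;> simp [polar_qPlus, Pi.single_apply]

end Cfsg.Agent.S5072
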