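import Cfsg.Statements.S5073
import Cfsg.Agent.Lib.QuadPair.Pairs

set_option autoImplicit false
universe u
open Cfsg

namespace Cfsg.Agent.S5073

open Cfsg.Lib.QuadPair Cfsg.Lib.Root Cfsg.Lib.Transfer
open scoped Cfsg.Lib.Transfer

/-- Let k be a field of characteristic not 2 with k not of order 3, M a finite-dimensional k-vector space and G ≤ GL(M) such that (G, M) is a quadratic pair (M irreducible for G, and G generated by its quadratically acting elements σ whose scalar family 1 + c(σ − 1), c ∈ k, lies in G). Write 𝒬_d for the quadratic elements of G of minimal commutator rank, E(σ) for the subgroup generated by the members of 𝒬_d with the same fixed space and commutator space as σ, and Σ for the set of these subgroups. Let E, F ∈ Σ. If some non-identity element of E commutes with some non-identity element of F, or some non-identity element of E normalizes F, then E and F commute elementwise. -/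
theorem result {k : Type u} [Field k] (hk2 : ringChar k ≠ 2) (hk3 : Nat.card k ≠ 3)
    {M : Type u} [AddCommGroup M] [Module k M] [FiniteDimensional k M]
    {G : Subgroup (LinearMap.GeneralLinearGroup k M)} (hG : Cfsg.IsQuadraticPair G)
    {E F : Subgroup (LinearMap.GeneralLinearGroup k M)} (hE : E ∈ Cfsg.quadraticRootSubgroups G) (hF : F ∈ Cfsg.quadraticRootSubgroups G)
    (h : (∃ e ∈ E, e ≠ 1 ∧ ∃ f ∈ F, f ≠ 1 ∧ e * f = f * e) ∨ E ⊓ Subgroup.normalizer (F : Set (LinearMap.GeneralLinearGroup k M)) ≠ ⊥) :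
    ⁅E, F⁆ = ⊥ := by
  have hk := big_of hk2 hk3
  obtain ⟨α, hα, rfl⟩ := mem_roots_iff.1 hE
  obtain ⟨β, hβ, rfl⟩ := mem_roots_iff.1 hF
  rw [cm_iff]
  rcases h with ⟨e, he, he1, f, hf, hf1, h⟩ | h
  · rw [← hα.RG_eq he (sub_one_ne he1), ← hβ.RG_eq hf (sub_one_ne hf1)]
    exact cm_of_comm hk (hα.of_mem he (sub_one_ne he1)) (hβ.of_mem hf (sub_one_ne hf1)) (comm_iff.1 h)
  · obtain ⟨⟨e, he, hn⟩, he1⟩ := Subgroup.ne_bot_iff_exists_ne_one.1 h
    have he1 : e ≠ 1 := fun h => he1 (Subtype.ext h)
    rw [← hα.RG_eq he (sub_one_ne he1)]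
    refine cm_of_comm hk (hα.of_mem he (sub_one_ne he1)) hβ (comm_of_cj_mem hk (hα.of_mem he (sub_one_ne he1)) hβ rfl ?_)
    have := (Subgroup.mem_normalizer_iff.1 hn _).1 (un_mem_RG hβ.toQ0.mem_RS)
    rw [mem_RG, ← cj_sub_one] at this
    simpa using this

end Cfsg.Agent.S5073
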