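import Cfsg.Statements.S5087
import Cfsg.Agent.Lib.Fusion.Normal
-- import your own Cfsg.Agent.* helpers here

set_option autoImplicit false
open Cfsg

namespace Cfsg.Agent.S5087

/-- In a saturated fusion system over a finite p-group S, a subgroup Q is normal in the system if and only if every subgroup P that equals S or is essential contains Q and every element of Aut_F(P) maps Q onto itself. -/
theorem result {Ω : Type*} [Group Ω] {S : Subgroup Ω} [Finite S] (p : ℕ) [Fact p.Prime] (hS : IsPGroup p S) (F : Cfsg.FusionSystem S) (hF : F.IsSaturated p) (Q : Subgroup Ω) : F.IsNormal Q ↔ ∀ P : Subgroup Ω, (P = S ∨ F.IsEssential p P) → (Q ≤ P ∧ ∀ α ∈ F.autGroup P, (Q.subgroupOf P).map α.toMonoidHom = Q.subgroupOf P) := by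
  open Subgroup Cfsg.Lib.Transfer Cfsg.Lib.Fusion in
  open Cfsg.FusionSystem hiding inv_mem in
  have hF' := Sat.mk hS hF
  refine ⟨fun h P hP => ?_, fun h => hF'.normal_of_essential fun P hP =>
    ⟨(h P hP).1, fun α hα => (map_eq_iff_im_ext α (h P hP).1).1 ((h P hP).2 α hα)⟩⟩
  obtain ⟨h1, h2, h3⟩ := hF'.fcr_of_essential hP
  have hQP := le_of_normal_of_radical hS h h2 h3
  exact ⟨hQP, fun α hα => (map_eq_iff_im_ext α hQP).2 ((mor_ext h1.1 hα).im_eq_of_normal h hQP)⟩

end Cfsg.Agent.S5087
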