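import Cfsg.Statements.S5088
import Cfsg.Agent.Lib.Fusion.Normal
-- import your own Cfsg.Agent.* helpers here

set_option autoImplicit false
open Cfsg

namespace Cfsg.Agent.S5088

/-- In a saturated fusion system over a finite p-group, a subgroup Q is normal in the system if and only if there is a chain of subgroups 1 = Q₀ ≤ Q₁ ≤ ⋯ ≤ Qₙ = Q such that each Qᵢ with i ≥ 1 is strongly closed in the system and [Q, Qᵢ] ≤ Qᵢ₋₁. -/
theorem result {Ω : Type*} [Group Ω] {S : Subgroup Ω} [Finite S] (p : ℕ) [Fact p.Prime] (hS : IsPGroup p S) (F : Cfsg.FusionSystem S) (hF : F.IsSaturated p) (Q : Subgroup Ω) : F.IsNormal Q ↔ ∃ (n : ℕ) (Qs : Fin (n + 1) → Subgroup Ω), Qs 0 = ⊥ ∧ Qs (Fin.last n) = Q ∧ Monotone Qs ∧ ∀ i : Fin n, F.StronglyClosed (Qs i.succ) ∧ ⁅Q, Qs i.succ⁆ ≤ Qs (Fin.castSucc i) := by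
  open Subgroup Cfsg.Lib.Transfer Cfsg.Lib.Fusion in
  open Cfsg.FusionSystem hiding inv_mem in
  have hF' := Sat.mk hS hF
  constructor
  · intro h
    obtain ⟨C, n, h0, hn, hm, hle, hc, hch⟩ := exists_central_series hS h.1
    exact ⟨n, fun i => C i, h0, hn, fun i j hij => hm hij, fun i =>
      ⟨stronglyClosed_of_normal (normal_of_characteristic h (hle _) (hch _)),
        by rw [commutator_comm]; exact hc i⟩⟩
  · rintro ⟨n, Qs, h0, hn, hm, h⟩
    have hsc : ∀ i, F.StronglyClosed (Qs i) := fun i =>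
      Fin.cases (h0 ▸ stronglyClosed_bot F) (fun j => (h j).1) i
    refine hF'.normal_of_series (hn ▸ hsc _) (fun i => if h : i < n + 1 then Qs ⟨i, h⟩ else Q) n
      (by simpa using h0) (by rw [dif_pos (by omega)]; exact hn) (fun i hi => ?_) (fun i hi => ?_) fun i hi => ?_
    · rw [dif_pos (by omega), ← hn]; exact hm (Fin.le_last _)
    · rw [dif_pos (by omega), dif_pos (by omega), commutator_comm]; exact (h ⟨i, hi⟩).2
    · rw [dif_pos (by omega)]; exact weaklyClosed_of_stronglyClosed (hsc _)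

end Cfsg.Agent.S5088
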