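import Cfsg.Statements.S5089
import Cfsg.Agent.Lib.Fusion.Normal
-- import your own Cfsg.Agent.* helpers here

set_option autoImplicit false
open Cfsg

namespace Cfsg.Agent.S5089

/-- A saturated fusion system over a finite p-group has a nontrivial subgroup that is normal in the system (O_p(F) ≠ 1) if and only if some nontrivial abelian subgroup is strongly closed in the system. -/
theorem result {Ω : Type*} [Group Ω] {S : Subgroup Ω} [Finite S] (p : ℕ) [Fact p.Prime] (hS : IsPGroup p S) (F : Cfsg.FusionSystem S) (hF : F.IsSaturated p) : F.core ≠ ⊥ ↔ ∃ Q : Subgroup Ω, Q ≠ ⊥ ∧ IsMulCommutative Q ∧ F.StronglyClosed Q := by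
  open Subgroup Cfsg.Lib.Transfer Cfsg.Lib.Fusion in
  open Cfsg.FusionSystem hiding inv_mem in
  constructor
  · intro h
    have := finite_of_le (core_le F)
    exact ⟨_, centralizerIn_ne_bot (hS.to_le (core_le F)) h,
      ⟨⟨fun x y => Subtype.ext (y.2.2 x x.2.1)⟩⟩,
      stronglyClosed_of_normal (normal_center_of_normal (normal_core F))⟩
  · rintro ⟨Q, h1, h2, h3⟩ h
    exact h1 (le_bot_iff.1 (h ▸ le_core ((Sat.mk hS hF).normal_of_commutative h3
      fun x hx y hy => setLike_mul_comm hx hy)))

end Cfsg.Agent.S5089
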