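import Cfsg.Statements.S5094
import Cfsg.Agent.Lib.Fusion.Group
import Cfsg.Agent.Lib.Inv.ZStarElt

set_option autoImplicit false
open Cfsg

namespace Cfsg.Agent.S5094

open Cfsg.Lib.Fusion Cfsg.Lib.Inv Subgroup

/-- Glauberman's Z*-Theorem in fusion language: for a finite group G with Sylow 2-subgroup S, the centre of the fusion system of G on S is the set of elements of S whose image in G/O(G) is central, O(G) being the largest normal subgroup of odd order. -/
theorem result {G : Type*} [Group G] [Finite G] (S : Sylow 2 G) : (Cfsg.groupFusionSystem (S : Subgroup G)).center = (S : Subgroup G) ⊓ (Subgroup.center (G ⧸ Cfsg.oddCore G)).comap (QuotientGroup.mk' (Cfsg.oddCore G)) := by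
  have hG := grp_group (S : Subgroup G)
  ext z
  rw [(sat_group S).mem_center_iff, mem_inf, mem_comap, mem_center_iff]
  refine and_congr_right fun hz => ⟨fun h q => ?_, fun h P f hf hP => ?_⟩
  · obtain ⟨g, rfl⟩ := QuotientGroup.mk'_surjective _ q
    have := (isoElt_of_sylow S hz fun g hg => h (zpowers z) _ (hG.mor_conj (zpowers_le.2 hz)
      (mem_top g) (by rw [Cfsg.Lib.Transfer.conj_zpowers]; exact zpowers_le.2 hg))
        (mem_zpowers z)).zstar g
    rw [← QuotientGroup.eq_one_iff] at this
    rw [QuotientGroup.mk_mul, QuotientGroup.mk_mul, QuotientGroup.mk_mul, QuotientGroup.mk_inv,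
      QuotientGroup.mk_inv, mul_inv_eq_one, mul_inv_eq_iff_eq_mul] at this
    exact this.symm
  · obtain ⟨g, -, e, -⟩ := hG.exists_conj hf
    have h1 : z⁻¹ * f z ∈ oddCore G := by
      rw [← QuotientGroup.eq, e z hP, QuotientGroup.mk_mul, QuotientGroup.mk_mul, eq_comm,
        QuotientGroup.mk_inv, mul_inv_eq_iff_eq_mul]
      exact h g
    have h2 : z⁻¹ * f z ∈ (S : Subgroup G) := mul_mem (inv_mem hz) (hf.mem hP)
    have := (Cfsg.Lib.Core.inf_pPrimeCore_eq_bot S.2).le ⟨h2, h1⟩
    rw [mem_bot, inv_mul_eq_one] at this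
    exact this.symm

end Cfsg.Agent.S5094
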