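import Cfsg.Statements.S5103
import Cfsg.Agent.Lib.Fusion.Iso
-- import your own Cfsg.Agent.* helpers here

set_option autoImplicit false
open Cfsg

namespace Cfsg.Agent.S5103

/-- A fusion system over a finite p-group that has a model (a finite group realizing it on a Sylow p-subgroup with self-centralizing largest normal p-subgroup) is constrained. -/
theorem result {Ω : Type*} [Group Ω] {S : Subgroup Ω} [Finite S] (p : ℕ) [Fact p.Prime] (hS : IsPGroup p S) (F : Cfsg.FusionSystem S) {G : Type*} [Group G] (ι : S →* G) (hG : F.IsModel p G ι) : F.IsConstrained p := by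
  open Subgroup Cfsg.Lib.Transfer Cfsg.Lib.Fusion in
  open Cfsg.FusionSystem hiding inv_mem in
  obtain ⟨_, h1, ⟨T, hT⟩, h2⟩ := hG
  rw [← (isRealizedBy_iff.1 h1).constrained_iff hS, ← hT]
  have h := sylGrp_group T
  have h3 := h.normal_of_normal (Cfsg.Lib.Core.pCore_isPGroup p G) le_top le_normalizer_of_normal
  exact ⟨h.sat.sat, _, h3, h.centric_of_centralizer_le h3.1 (inf_le_right.trans h2)⟩

end Cfsg.Agent.S5103
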