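import Cfsg.Statements.S5105
import Cfsg.Agent.Lib.Fusion.Model
-- import your own Cfsg.Agent.* helpers here

set_option autoImplicit false
open Cfsg

namespace Cfsg.Agent.S5105

/-- Model Theorem, rigidity: if G is a model of a constrained fusion system over a finite p-group S (through ι : S → G), then every automorphism of G fixing ι(S) elementwise is conjugation by ι(z) for some z in the centre of S. -/
theorem result {Ω : Type*} [Group Ω] {S : Subgroup Ω} [Finite S] (p : ℕ) [Fact p.Prime] (hS : IsPGroup p S) (F : Cfsg.FusionSystem S) (hF : F.IsConstrained p) {G : Type*} [Group G] (ι : S →* G) (hG : F.IsModel p G ι) (ψ : G ≃* G) (hψ : ∀ x : S, ψ (ι x) = ι x) : ∃ z : S, z ∈ Subgroup.center S ∧ ∀ g : G, ψ g = ι z * g * (ι z)⁻¹ := by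
  open Subgroup Cfsg.Lib.Transfer Cfsg.Lib.Fusion in
  open Cfsg.FusionSystem hiding inv_mem in
  obtain ⟨_, h1⟩ := mdl_of_isModel hG
  obtain ⟨z, hz, e⟩ := h1.exists_conj ψ.toMonoidHom fun x hx => by
    rw [fn_apply _ hx]; exact hψ _
  refine ⟨⟨z, hz.1⟩, mem_center_iff.2 fun g => Subtype.ext (hz.2 g g.2), fun g => ?_⟩
  rw [← fn_apply ι hz.1]; exact e g

end Cfsg.Agent.S5105
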