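import Cfsg.Statements.S5107
import Cfsg.Agent.Lib.Fusion.Group
-- import your own Cfsg.Agent.* helpers here

set_option autoImplicit false
open Cfsg

namespace Cfsg.Agent.S5107

/-- If a Sylow p-subgroup S of a finite group G has nilpotency class at most two and its centre is strongly closed in S with respect to G, then every map of the fusion system of G on S is conjugation by an element of N_G(S), and S is the largest subgroup normal in that fusion system. -/
theorem result {G : Type*} [Group G] [Finite G] (p : ℕ) [Fact p.Prime] (S : Sylow p G) (hcl : ⁅(S : Subgroup G), (S : Subgroup G)⁆ ≤ (S : Subgroup G) ⊓ Subgroup.centralizer ((S : Subgroup G) : Set G)) (hZ : Cfsg.IsStronglyClosed ((S : Subgroup G) ⊓ Subgroup.centralizer ((S : Subgroup G) : Set G)) (S : Subgroup G)) : (∀ (P : Subgroup G) (φ : P →* G), φ ∈ (Cfsg.groupFusionSystem (S : Subgroup G)).Hom P → ∃ g ∈ Subgroup.normalizer ((S : Subgroup G) : Set G), ∀ x : P, φ x = g * (x : G) * g⁻¹) ∧ (Cfsg.groupFusionSystem (S : Subgroup G)).core = S := by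
  open Subgroup Cfsg.Lib.Transfer Cfsg.Lib.Fusion in
  open Cfsg.FusionSystem hiding inv_mem in
  have hG := sylGrp_group S
  have hn : (groupFusionSystem (S : Subgroup G)).IsNormal S := by
    refine hG.sat.normal_of_series (stronglyClosed_top _) (fun i => if i = 0 then ⊥ else
      if i = 1 then (S : Subgroup G) ⊓ centralizer ((S : Subgroup G) : Set G) else S) 2 rfl rfl
      ?_ ?_ ?_ <;> intro i hi <;> obtain rfl | rfl : i = 0 ∨ i = 1 := by omega
    · exact bot_le
    · exact inf_le_left
    · exact (commutator_eq_bot_iff_le_centralizer.2 inf_le_right).le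
    · exact hcl
    · exact weaklyClosed_of_stronglyClosed (stronglyClosed_bot _)
    · exact weaklyClosed_of_stronglyClosed (hG.stronglyClosed_iff.2
        ⟨inf_le_left, fun x hx g _ => hZ.2 x hx g⟩)
  refine ⟨fun P φ hφ => ?_, le_antisymm (core_le _) (le_core hn)⟩
  obtain ⟨α, hα, e⟩ := (mor_fn hφ).exists_aut_of_normal hn (mor_fn hφ).le
  rw [hG.autGroup_eq le_rfl] at hα
  obtain ⟨g, -, h⟩ := mem_autInducedBy.1 hα
  exact ⟨g, mem_normalizer_of_ext h, fun x => by
    rw [← fn_coe, ← e x x.2, h x ((mor_fn hφ).le x.2)]⟩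

end Cfsg.Agent.S5107
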