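import Cfsg.Statements.S5112
import Cfsg.Agent.Lib.Fusion.Normal
import Cfsg.Agent.Lib.Inv.MaxClass
import Cfsg.Agent.Lib.PGroup.Holomorph

set_option autoImplicit false
open Cfsg

namespace Cfsg.Agent.S5112

open Cfsg.Lib.Fusion Cfsg.Lib.Inv Cfsg.Lib.PGroup Subgroup

/-- If S is a dihedral or generalized quaternion 2-group of order at least 16, then in every saturated fusion system over S (at the prime 2) the automorphism group Aut_F(S) consists of the inner automorphisms of S. -/
theorem result {Ω : Type*} [Group Ω] {S : Subgroup Ω} [Finite S] (n : ℕ) (hn : 4 ≤ n) (hshape : Nonempty (S ≃* DihedralGroup (2 ^ (n - 1))) ∨ Nonempty (S ≃* QuaternionGroup (2 ^ (n - 2)))) (F : Cfsg.FusionSystem S) (hF : F.IsSaturated 2) : F.autGroup S = Cfsg.Inn S := by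
  obtain ⟨k, rfl⟩ := Nat.exists_eq_add_of_le' hn
  have hS : IsPGroup 2 S := by
    refine IsPGroup.of_card (n := k + 4) ?_
    rcases hshape with ⟨⟨e⟩⟩ | ⟨⟨e⟩⟩ <;> rw [Nat.card_congr e.toEquiv]
    · rw [DihedralGroup.nat_card, show k + 4 - 1 = k + 3 from rfl]; ring
    · rw [Nat.card_eq_fintype_card, QuaternionGroup.card, show k + 4 - 2 = k + 2 from rfl]; ring
  have hF' : Sat F 2 := ⟨hS, hF⟩
  rw [inn_eq]
  refine hF'.autGroup_eq_of_isPGroup (fullyNormalized_top F)
    (isPGroup_of_coprime_eq_one fun α _ hc => ?_)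
  obtain ⟨a, b, δ, h⟩ : ∃ a b δ, MC ((⊤ : Subgroup S).map (holL S)) a b (k + 2) 0 δ := by
    rcases hshape with ⟨⟨e⟩⟩ | ⟨⟨e⟩⟩
    · obtain ⟨a, b, m, hm, h⟩ := exists_mc_of_dihedral ((hS.to_subgroup ⊤).map _) 
        (le_self_pow₀ one_le_two (by omega)) ((holEquiv S).symm.trans e)
      obtain rfl : k + 2 = m := by
        have := Nat.pow_right_injective le_rfl hm
        omega
      exact ⟨a, b, 0, h⟩
    · obtain ⟨a, b, h⟩ := exists_mc_of_quaternion ((holEquiv S).symm.trans e)
      exact ⟨a, b, 1, h⟩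
  refine eq_one_of_map_zpowers_le_centralizer ?_
  rw [MonoidHom.map_zpowers, zpowers_le]
  by_contra hne
  have h16 : 16 ≤ 2 ^ (k + 2 + 2) := Nat.pow_le_pow_right two_pos (by omega : 4 ≤ _)
  rcases h.odd_aut le_rfl (holR_mem_normalizer fun _ _ => mem_top _) (by
    rwa [orderOf_injective _ holR_injective, ← Nat.coprime_two_right]) hne with h1 | ⟨⟨e⟩⟩
  · have := h.card_eq.symm.trans h1.card_four
    omega
  · have := h.card_eq.symm.trans (Nat.card_congr e.toEquiv)
    rw [Nat.card_eq_fintype_card, QuaternionGroup.card] at this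
    omega

end Cfsg.Agent.S5112
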