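import Cfsg.Statements.S5115
import Cfsg.Agent.Lib.Fusion.Solv
-- import your own Cfsg.Agent.* helpers here

set_option autoImplicit false
open Cfsg

namespace Cfsg.Agent.S5115

section
open Subgroup Cfsg.Lib.Transfer Cfsg.Lib.Fusion
open Cfsg.FusionSystem hiding inv_mem
open scoped commutatorElement

theorem aux {G : Type*} [Group G] [Finite G] {p : ℕ} [Fact p.Prime] (S : Sylow p G)
    (hF : (groupFusionSystem (S : Subgroup G)).IsConstrained p) {H : Subgroup G}
    (hH : H.IsSubnormal) : ∀ B : FusionSystem ((S : Subgroup G) ⊓ H), Grp B H →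
      SylGrp B H p ∧ B.IsConstrained p := by
  induction hH with
  | top =>
    intro B hB
    have h := Grp.iso hB (homOn_id ⊤) (Set.injOn_id _) (grp_group (S : Subgroup G)) (im_id _)
      ((im_id _).trans (inf_top_eq _))
    exact ⟨⟨hB, S.2.to_inf_left, by simpa using S.not_dvd_index⟩,
      (h.constrained_iff S.2.to_inf_left).1 hF⟩
  | step H K h1 _ h2 ih =>
    intro B hB
    obtain ⟨A, hA⟩ := exists_grp (inf_le_right : (S : Subgroup G) ⊓ K ≤ K)
    obtain ⟨h3, h4⟩ := ih A hA
    have hn := (normal_subgroupOf_iff_le_normalizer h1).1 h2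
    have e : (S : Subgroup G) ⊓ H = (S : Subgroup G) ⊓ K ⊓ H := by
      rw [inf_assoc, inf_eq_right.2 h1]
    have h5 := h3.nrm_of_normal h1 hn e hB
    exact ⟨h3.of_normal h1 hn e hB, h3.sat.constrained_of_sub h4 h5.satE h5.sub h5.sc⟩

end

/-- If the 2-fusion system of a finite group G on a Sylow 2-subgroup S is constrained, then for every subnormal subgroup H of G the 2-fusion system of H on S ∩ H is constrained. -/
theorem result {G : Type*} [Group G] [Finite G] (S : Sylow 2 G) (hF : (Cfsg.groupFusionSystem (S : Subgroup G)).IsConstrained 2) (H : Subgroup G) (hH : H.IsSubnormal) : (Cfsg.groupFusionSystem ((S : Subgroup G).subgroupOf H)).IsConstrained 2 := by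
  open Subgroup Cfsg.Lib.Transfer Cfsg.Lib.Fusion in
  open Cfsg.FusionSystem hiding inv_mem in
  obtain ⟨B, hB⟩ := exists_grp (inf_le_right : (S : Subgroup G) ⊓ H ≤ H)
  obtain ⟨h1, h2⟩ := aux S hF hH B hB
  have h := Grp.iso (grp_group ((S : Subgroup G).subgroupOf H)) (homOn_hom ⊤ H.subtype)
    (subtype_injective H).injOn hB (by rw [im_hom, Cfsg.Lib.Core.map_subtype_top])
    (by rw [im_hom, subgroupOf_map_subtype])
  exact (h.constrained_iff (S.2.comap_subtype)).1 h2

end Cfsg.Agent.S5115
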