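import Cfsg.Statements.S5119
import Cfsg.Agent.Lib.Fusion.Invariant
-- import your own Cfsg.Agent.* helpers here

set_option autoImplicit false
open Cfsg

namespace Cfsg.Agent.S5119

/-- Let F be a saturated fusion system over a finite p-group S and E a subsystem of F over a subgroup T that is strongly closed in F. Then E is invariant in F (invariance under Aut_F(T) plus the Frattini condition) if and only if the strong invariance condition holds: for P ≤ Q ≤ T, every map φ of E from P into Q and every map ψ of F with source Q, the transported map ψ φ ψ⁻¹ on ψ(P) is a map of E. -/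
theorem result {Ω : Type*} [Group Ω] {S : Subgroup Ω} [Finite S] (p : ℕ) [Fact p.Prime] (hS : IsPGroup p S) (F : Cfsg.FusionSystem S) (hF : F.IsSaturated p) {T : Subgroup Ω} (E : Cfsg.FusionSystem T) (hE : E.IsSubsystemOf F) (hT : F.StronglyClosed T) : E.IsInvariantIn F ↔ ∀ (P Q : Subgroup Ω) (hPQ : P ≤ Q) (_ : Q ≤ T) (φ : P →* Ω) (_ : φ ∈ E.Hom P) (hφQ : ∀ x : P, φ x ∈ Q) (ψ : Q →* Ω) (_ : ψ ∈ F.Hom Q), ∃ χ ∈ E.Hom ((P.subgroupOf Q).map ψ), ∀ (x : P) (hx : ψ (Subgroup.inclusion hPQ x) ∈ (P.subgroupOf Q).map ψ), χ ⟨ψ (Subgroup.inclusion hPQ x), hx⟩ = ψ ⟨φ x, hφQ x⟩ := by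
  open Subgroup Cfsg.Lib.Transfer Cfsg.Lib.Fusion in
  open Cfsg.FusionSystem hiding inv_mem in
  rw [isInvariantIn_iff]
  constructor
  · intro h P Q hPQ hQ φ hφ hφQ ψ hψ
    have hm : ∀ x ∈ P, fn φ x ∈ Q := fun x hx => fn_apply φ hx ▸ hφQ _
    obtain ⟨k, hk⟩ := exists_induced (P := P) (t := fn ψ) (fun x => fn ψ (fn φ x))
      fun x hx y hy e => by rw [(mor_fn hψ).injOn (hPQ hx) (hPQ hy) e]
    have := h.transport (mor_fn hψ) hQ (mor_fn hφ) hPQ hm hk
    rw [im_fn_of_le ψ hPQ] at this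
    refine ⟨_, this.toHom_mem, fun x _ => ?_⟩
    have h1 := hk x x.2
    rwa [fn_apply ψ (hPQ x.2), fn_coe, fn_apply ψ (hφQ x)] at h1
  · intro h
    refine (Sat.mk hS hF).inv_of_transport hE hT fun P Q f g k hg hQ hf hPQ hm e => ?_
    obtain ⟨χ, h1, h2⟩ := h P Q hPQ hQ _ hf.toHom_mem (fun x => hm x x.2) _ hg.toHom_mem
    have h3 := mor_fn h1
    have h4 := hg.homOn.map_toHom hPQ
    refine Mor.congr (f := fn χ) (by rw [← h4]; exact h3) fun y hy => ?_
    obtain ⟨x, hx, rfl⟩ := (hg.mono hPQ).mem_im.1 hy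
    rw [e x hx, fn_apply χ (h4.ge hy)]
    exact (h2 ⟨x, hx⟩ _).symm

end Cfsg.Agent.S5119
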