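import Cfsg.Statements.S5121
import Cfsg.Agent.Lib.Fusion.NrmModel
-- import your own Cfsg.Agent.* helpers here

set_option autoImplicit false
open Cfsg

namespace Cfsg.Agent.S5121

/-- Let G be a finite group with Sylow p-subgroup S and C_G(O_p(G)) ≤ O_p(G). For every subgroup T ≤ S and every normal subsystem E over T of the fusion system of G on S there is exactly one normal subgroup H of G containing T as a Sylow p-subgroup whose fusion system on T is E. -/
theorem result {G : Type*} [Group G] [Finite G] (p : ℕ) [Fact p.Prime] (S : Sylow p G) (hG : Subgroup.centralizer ((Cfsg.pCore p G : Subgroup G) : Set G) ≤ Cfsg.pCore p G) (T : Subgroup G) (hTS : T ≤ S) (E : Cfsg.FusionSystem T) (hE : E.IsNormalIn (Cfsg.groupFusionSystem (S : Subgroup G)) p) : ∃ H : Subgroup G, (∃ hTH : T ≤ H, H.Normal ∧ (∃ R : Sylow p H, (R : Subgroup H) = T.subgroupOf H) ∧ ∀ P : Subgroup G, E.Hom P = (Cfsg.fusionSystemOfSubgroup H T hTH).Hom P) ∧ ∀ H' : Subgroup G, (∃ hTH' : T ≤ H', H'.Normal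 ∧ (∃ R : Sylow p H', (R : Subgroup H') = T.subgroupOf H') ∧ ∀ P : Subgroup G, E.Hom P = (Cfsg.fusionSystemOfSubgroup H' T hTH').Hom P) → H' = H := by
  open Subgroup Cfsg.Lib.Transfer Cfsg.Lib.Fusion in
  open Cfsg.FusionSystem hiding inv_mem in
  · have h := sylGrp_group S
    obtain ⟨K, -, h1, h2, h3, h4⟩ := h.exists_normal_of_nrm (by
      rw [opC, Lib.Core.pCoreOf_top]; exact fun x hx => hG hx.2) ((isNormalIn_iff S.isPGroup').1 hE)
    have h5 := Lib.Core.normal_of_top_le_normalizer h1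
    refine ⟨K, ⟨h3.le, h5, exists_sylow_of_not_dvd_relIndex (S.isPGroup'.to_le hTS)
      (h.of_normal le_top h1 h2.symm h3).syl, fun P => ?_⟩, fun K' ⟨a1, a2, ⟨R, a3⟩, a4⟩ => ?_⟩
    · exact congrArg (fun X : FusionSystem T => X.Hom P) (h3.eq (grp_ofSubgroup h3.le))
    · refine h4 K' le_top (fun x _ => le_normalizer_of_normal (mem_top x)) (h.inf_eq hTS a1 ?_)
        (ext_hom a4 ▸ grp_ofSubgroup a1)
      rw [relIndex, ← a3]
      exact R.not_dvd_index

end Cfsg.Agent.S5121
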