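import Cfsg.Statements.S5123
import Cfsg.Agent.Lib.Fusion.Group
-- import your own Cfsg.Agent.* helpers here

set_option autoImplicit false
open Cfsg

namespace Cfsg.Agent.S5123

/-- Let G be a finite group with Sylow p-subgroup S, P, Q ≤ S and g ∈ G with gPg⁻¹ = Q, and suppose N_S(Q) is a Sylow p-subgroup of N_G(Q). Let N be the set of x ∈ N_S(P) with gxg⁻¹ ∈ N_S(Q)C_G(Q). Then some h ∈ C_G(Q) satisfies (hg)N(hg)⁻¹ ≤ S. -/
theorem result {G : Type*} [Group G] [Finite G] (p : ℕ) [Fact p.Prime] (S : Sylow p G) (P Q : Subgroup G) (hP : P ≤ S) (hQ : Q ≤ S) (g : G) (hg : P.map (MulAut.conj g).toMonoidHom = Q) (hN : (∃ R : Sylow p ↥(Subgroup.normalizer (Q : Set G)), (R : Subgroup ↥(Subgroup.normalizer (Q : Set G))) = (Cfsg.FusionSystem.normalizerIn (S : Subgroup G) Q).subgroupOf (Subgroup.normalizer (Q : Set G)))) : ∃ h ∈ Subgroup.centralizer (Q : Set G), ((Cfsg.FusionSystem.normalizerIn (S : Subgroup G) P) ⊓ (Cfsg.FusionSystem.normalizerIn (S : Subgroup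 G) Q ⊔ Subgroup.centralizer (Q : Set G)).comap (MulAut.conj g).toMonoidHom).map (MulAut.conj (h * g)).toMonoidHom ≤ S := by
  open Subgroup Cfsg.Lib.Transfer Cfsg.Lib.Fusion in
  open Cfsg.FusionSystem hiding inv_mem in
  obtain ⟨R, hR⟩ := hN
  have h : ¬ p ∣ (normalizerIn S Q).relIndex (normalizerIn ⊤ Q) := by
    rw [show normalizerIn ⊤ Q = normalizer (Q : Set G) from top_inf_eq _, relIndex, ← hR]
    exact R.not_dvd_index
  obtain ⟨c, hc, h1⟩ := exists_centralizer_conj_le le_top h (N := g ⋆ (normalizerIn S P ⊓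
    (normalizerIn S Q ⊔ centralizer (Q : Set G)).comap (MulAut.conj g).toMonoidHom))
    (isPGroup_conj S.2.to_inf_left.to_inf_left g) (by
      rw [show centralizerIn ⊤ Q = centralizer (Q : Set G) from top_inf_eq _]
      exact map_le_iff_le_comap.2 inf_le_right)
  rw [conj_conj] at h1
  exact ⟨c, hc.2, h1.trans (normalizerIn_le _ _)⟩

end Cfsg.Agent.S5123
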