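import Cfsg.Statements.S5130
import Cfsg.Agent.Lib.Fusion.PPrime
-- import your own Cfsg.Agent.* helpers here

set_option autoImplicit false
open Cfsg

namespace Cfsg.Agent.S5130

section
open Subgroup Cfsg.Lib.Transfer Cfsg.Lib.Fusion
open Cfsg.FusionSystem hiding inv_mem
open scoped commutatorElement

theorem aux {Ω : Type*} [Group Ω] {U S₁ Z : Subgroup Ω} [Finite U] {p : ℕ} [Fact p.Prime]
    {D : FusionSystem U} (hD : Sat D p) {t : Ω → Ω} (ht : HomOn U t) (h1 : D.StronglyClosed S₁)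
    (hZ : D.StronglyClosed Z) (hk : ∀ x ∈ U, t x = 1 ↔ x ∈ Z) (e1 : ∀ x ∈ S₁, t x = x)
    (e2 : ∀ x ∈ U, t x ∈ S₁) {R : FusionSystem S₁}
    (hR : ∀ P f, Mor R P f ↔ P ≤ S₁ ∧ Mor D P f) :
    Sat R p ∧ ∀ P f, Mor R P f → ∃ g, Mor D (P ⊔ Z) g ∧ ∀ x ∈ P, g x = f x := by
  obtain ⟨E, hE⟩ := exists_fac hZ ht hk (le_antisymm (im_le_iff.2 e2)
    fun x hx => e1 x hx ▸ mem_im_of_mem t (h1.1 hx))
  have up : ∀ P f, Mor E P f → ∃ g, Mor D (P ⊔ Z) g ∧ ∀ x ∈ P, g x = f x := fun P f hf => by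
    obtain ⟨g, hg, e⟩ := hE.up' (hf.le.trans h1.1)
      ((im_eq_self fun x hx => e1 x (hf.le hx)).symm ▸ hf)
    exact ⟨g, hg, fun x hx => by
      rw [← e1 _ (hg.mem_of_stronglyClosed h1 (mem_sup_left hx) (hf.le hx)),
        ← e x (mem_sup_left hx), e1 x (hf.le hx)]⟩
  obtain rfl : E = R := ext_mor fun P f => Iff.trans (b := P ≤ S₁ ∧ Mor D P f) ⟨fun hf => ⟨hf.le, by
    obtain ⟨g, hg, e⟩ := up P f hf
    exact (hg.mono le_sup_left).congr fun x hx => (e x hx).symm⟩, fun ⟨hP, hf⟩ => by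
      have := (hE.mph hZ hD).mor hf (f' := f) fun x hx => by
        rw [e1 x (hP hx), e1 _ (hf.mem_of_stronglyClosed h1 hx (hP hx))]
      rwa [im_eq_self fun x hx => e1 x (hP hx)] at this⟩ (hR P f).symm
  exact ⟨hE.sat hZ hD, up⟩

end

/-- Let F be a saturated fusion system over a finite p-group S that is the direct product of two subgroups S₁ and S₂, each strongly closed in F. Let R be the full subsystem of F over S₁ (all maps of F between subgroups of S₁) and R′ the subsystem over S₁ of those maps that extend to the subgroup generated with S₂ fixing S₂ elementwise. Then R and R′ are saturated, R′ is normal in F and in R, and R is weakly normal in F. -/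
theorem result {Ω : Type*} [Group Ω] {S : Subgroup Ω} [Finite S] (p : ℕ) [Fact p.Prime] (hS : IsPGroup p S) (F : Cfsg.FusionSystem S) (hF : F.IsSaturated p) (S₁ S₂ : Subgroup Ω) (hprod : Cfsg.IsInternalDirectProduct S₁ S₂ S) (h₁ : F.StronglyClosed S₁) (h₂ : F.StronglyClosed S₂) (R R' : Cfsg.FusionSystem S₁) (hR : ∀ P : Subgroup Ω, P ≤ S₁ → R.Hom P = F.Hom P) (hR' : ∀ P : Subgroup Ω, P ≤ S₁ → R'.Hom P = F.centralizerHom S₂ P) : R.IsSaturated p ∧ R'.IsSaturated p ∧ R'.IsNormalIn F p ∧ R'.IsNormalIn R p ∧ R.IsWeaklyNormalIn F p := by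
  open Subgroup Cfsg.Lib.Transfer Cfsg.Lib.Fusion in
  open Cfsg.FusionSystem hiding inv_mem in
  have hF' : Sat F p := ⟨hS, hF⟩
  obtain ⟨a1, a2, a3, a4, a5⟩ := hprod
  have := finite_of_le a1
  have hc : S₁ ≤ centralizerIn S S₂ := fun x hx => ⟨a1 hx, fun y hy => (a3 x hx y hy).symm⟩
  have hn : S₂ ≤ normalizer (S₁ : Set Ω) := a2.trans (le_normalizer_of_stronglyClosed h₁)
  have uniq : ∀ a ∈ S₁, ∀ b ∈ S₂, ∀ a' ∈ S₁, ∀ b' ∈ S₂, a * b = a' * b' → a = a' :=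
    fun a ha b hb a' ha' b' hb' e => (inv_mul_eq_one.1 (mem_bot.1 (a4 ▸ mem_inf.2
      ⟨mul_mem (inv_mem ha') ha, by
        rw [show a'⁻¹ * a = b' * b⁻¹ by rw [inv_mul_eq_iff_eq_mul, ← mul_assoc, ← e]; group]
        exact mul_mem hb' (inv_mem hb)⟩))).symm
  obtain ⟨t, ht⟩ : ∃ t : Ω → Ω, ∀ x ∈ S, t x ∈ S₁ ∧ ∃ b ∈ S₂, x = t x * b := by
    refine Classical.skolem (p := fun x a => x ∈ S → a ∈ S₁ ∧ ∃ b ∈ S₂, x = a * b) |>.1 fun x => ?_
    by_cases hx : x ∈ S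
    · obtain ⟨a, ha, h⟩ := exists_mul_of_mem_sup hn (a5.ge hx)
      exact ⟨a, fun _ => ⟨ha, h⟩⟩
    · exact ⟨1, fun h => absurd h hx⟩
  have ht' : ∀ a ∈ S₁, ∀ b ∈ S₂, t (a * b) = a := fun a ha b hb => by
    obtain ⟨h1, b', hb', e⟩ := ht _ (mul_mem (a1 ha) (a2 hb))
    exact (uniq _ ha _ hb _ h1 _ hb' e).symm
  have hom : HomOn S t := fun x hx y hy => by
    obtain ⟨h1, b, hb, e⟩ := ht x hx
    obtain ⟨h2, c, hc, e'⟩ := ht y hy
    rw [← ht' _ (mul_mem h1 h2) _ (mul_mem hb hc), mul_assoc, ← mul_assoc (t y), a3 _ h2 _ hb,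
      mul_assoc, ← e', ← mul_assoc, ← e]
  have e1 : ∀ x ∈ S₁, t x = x := fun x hx => by simpa using ht' x hx 1 (one_mem _)
  have hk : ∀ x ∈ S, t x = 1 ↔ x ∈ S₂ := fun x hx => ⟨fun h => by
    obtain ⟨-, b, hb, e⟩ := ht x hx
    rw [e, h, one_mul]; exact hb, fun h => by simpa using ht' 1 (one_mem _) x h⟩
  have r1 : ∀ P f, Mor R P f ↔ P ≤ S₁ ∧ Mor F P f := fun P f =>
    ⟨fun h => ⟨h.le, (hom_eq_iff.1 (hR P h.le) f).1 h⟩, fun h => (hom_eq_iff.1 (hR P h.1) f).2 h.2⟩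
  obtain ⟨C, hC⟩ := exists_cz F a2 rfl
  have r2 : ∀ P f, Mor R' P f ↔ P ≤ S₁ ∧ Mor C P f := fun P f =>
    ⟨fun h => ⟨h.le, (hC.mor P f).2 ((hom_eq_centralizerHom.1 (hR' P h.le) f).1 h)⟩,
      fun h => (hom_eq_centralizerHom.1 (hR' P h.1) f).2 ((hC.mor P f).1 h.2)⟩
  obtain ⟨s1, up⟩ := aux hF' hom h₁ h₂ hk e1 (fun x hx => (ht x hx).1) r1
  obtain ⟨s2, -⟩ := aux (hC.sat hF' (hF'.fc (fullyNormalized_of_stronglyClosed h₂)))
    (hom.mono (centralizerIn_le _ _)) (stronglyClosed_of_sub' hC.sub h₁ hc)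
    (stronglyClosed_of_sub hC.sub h₂) (fun x hx => (hk x hx.1).trans ⟨fun h => ⟨h, hx⟩, fun h => h.1⟩)
    e1 (fun x hx => (ht x hx.1).1) r2
  have i1 : Inv R F := hF'.inv_of_transport (isSubsystemOf_iff.2 fun P f h => ((r1 P f).1 h).2) h₁
    fun P Q f g k hg hQ hf hP hm e => (r1 _ _).2 ⟨im_le_iff.2 fun x hx =>
      hg.mem_of_stronglyClosed h₁ (hP hx) (hf.le hx), ((r1 P f).1 hf).2.mor_of_comm hg hg hP hm e⟩
  have sub : R'.IsSubsystemOf F := isSubsystemOf_iff.2 fun P f h => ((r2 P f).1 h).2.of_sub hC.sub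
  have i2 : Inv R' F := hF'.inv_of_transport sub h₁ fun P Q f g k hg hQ hf hP hm e => by
    obtain ⟨g', hg', e'⟩ := up Q g ((r1 _ _).2 ⟨hQ, hg⟩)
    obtain ⟨-, f', hf', e2, e3⟩ := (hC.mor _ _).1 ((r2 _ _).1 hf).2
    have hle : im g P ≤ S₁ := im_le_iff.2 fun x hx => hg.mem_of_stronglyClosed h₁ (hP hx) (hf.le hx)
    obtain ⟨k', hk', e4⟩ := hf'.exists_conj hg' hg' (sup_le_sup_right hP _) (hf'.homOn.mem_of_sup
      (fun x hx => mem_sup_left (e2 x hx ▸ hm x hx)) fun x hx => mem_sup_right ((e3 x hx).symm ▸ hx))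
    have e5 : im g' S₂ = S₂ := hg'.im_eq_of_stronglyClosed h₂ le_sup_right
    rw [(hg'.homOn.mono (sup_le_sup_right hP _)).im_sup, e5, im_congr fun x hx => e' x (hP hx)] at hk'
    refine (r2 _ _).2 ⟨hle, (hC.mor _ _).2 ⟨hle.trans hc, k', hk', fun y hy => ?_, fun y hy => ?_⟩⟩
    · obtain ⟨x, hx, rfl⟩ := (hg.mono hP).mem_im.1 hy
      rw [e x hx, ← e' x (hP hx), e4 x (mem_sup_left hx), e2 x hx, e' _ (hm x hx)]
    · obtain ⟨x, hx, rfl⟩ := (hg'.mono le_sup_right).mem_im.1 (e5.ge hy)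
      rw [e4 x (mem_sup_right hx), e3 x hx]
  refine ⟨s1.sat, s2.sat, Nrm.isNormalIn ⟨i2, s2, hF', fun α hα => ?_⟩,
    ((i2.of_sub' s1 (isSubsystemOf_iff.2 fun P f h => (r1 _ _).2 ⟨h.le, h.of_sub sub⟩)
      i1.sub).nrm_top s2 s1).isNormalIn, (isWeaklyNormalIn_iff hS).2 ⟨s1, hF', i1⟩⟩
  obtain ⟨-, g, hg, e2, e3⟩ := (hC.mor _ _).1 ((r2 _ _).1 (mor_ext le_rfl hα)).2
  rw [a5] at hg
  refine ⟨g, hg.mono (sup_le a1 (centralizerIn_le _ _)), e2, fun c hc => ?_⟩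
  obtain ⟨h1, b, hb, e⟩ := ht c hc.1
  rw [e, hg.homOn.map_mul (a1 h1) (a2 hb), e3 b hb, e2 _ h1, a3 _ (ext_mem α h1) b hb,
    a3 _ h1 b hb, mul_inv_rev, mul_assoc, inv_mul_cancel_left]
  exact mul_mem (inv_mem h1) (ext_mem α h1)

end Cfsg.Agent.S5130
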