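import Cfsg.Statements.S5139
import Cfsg.Agent.Lib.Fusion.PIndex
-- import your own Cfsg.Agent.* helpers here

set_option autoImplicit false
open Cfsg

namespace Cfsg.Agent.S5139

/-- Let G be a finite group with Sylow p-subgroup S and O^p(G) the subgroup generated by the elements of order prime to p. Then the p-residual subsystem of the fusion system of G on S — the saturated subsystem of p-power index over the hyperfocal subgroup — is the fusion system of O^p(G) on S ∩ O^p(G): its maps are exactly the conjugation maps by elements of O^p(G) between subgroups of S ∩ O^p(G). -/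
theorem result {G : Type*} [Group G] [Finite G] (p : ℕ) [Fact p.Prime] (S : Sylow p G) (E : Cfsg.FusionSystem ((Cfsg.groupFusionSystem (S : Subgroup G)).hyperfocalSubgroup p)) (hE : (Cfsg.groupFusionSystem (S : Subgroup G)).IsPResidual p E) : ∃ h : (S : Subgroup G) ⊓ Cfsg.pResidual p G ≤ Cfsg.pResidual p G, ∀ P : Subgroup G, E.Hom P = (Cfsg.fusionSystemOfSubgroup (Cfsg.pResidual p G) ((S : Subgroup G) ⊓ Cfsg.pResidual p G) h).Hom P := by
  open Subgroup Cfsg.Lib.Transfer Cfsg.Lib.Fusion in
  open Cfsg.FusionSystem hiding inv_mem in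
  refine ⟨inf_le_right, fun P => hom_eq_iff.2 fun f => ?_⟩
  have h := sylGrp_group S
  have e : opR p (⊤ : Subgroup G) = Cfsg.pResidual p G := by
    refine le_antisymm (opR_le_iff.2 fun g _ hg => subset_closure hg) ((closure_le _).2 fun g hg => ?_)
    exact mem_opR (mem_top _) hg
  have hB := grp_ofSubgroup (inf_le_right : (S : Subgroup G) ⊓ Cfsg.pResidual p G ≤ _)
  exact mor_iff_of_pIndex ⟨S.2.to_le (hyp_le _ p), hE.1⟩
    (h.of_normal le_top (e ▸ le_normalizer_opR p ⊤) rfl hB).sat hE.2
    (h.pIndex le_top e.le rfl hB) (by rw [h.hyp_eq, e])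

end Cfsg.Agent.S5139
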