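import Cfsg.Statements.S5143
import Cfsg.Agent.Lib.Fusion.ES
-- import your own Cfsg.Agent.* helpers here

set_option autoImplicit false
open Cfsg

namespace Cfsg.Agent.S5143

/-- Let F be a saturated fusion system over a finite p-group S, E a normal subsystem over T, and R a subgroup with T ≤ R ≤ S. Then there is exactly one saturated subsystem D of F over R (exactly one family of map sets) whose p-residual subsystem is that of E: the hyperfocal subgroups of D and E coincide and the p-residual subsystems of D and of E have the same maps. -/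
theorem result {Ω : Type*} [Group Ω] {S : Subgroup Ω} [Finite S] (p : ℕ) [Fact p.Prime] (hS : IsPGroup p S) (F : Cfsg.FusionSystem S) (hF : F.IsSaturated p) {T : Subgroup Ω} (E : Cfsg.FusionSystem T) (hE : E.IsNormalIn F p) (R : Subgroup Ω) (hTR : T ≤ R) (hRS : R ≤ S) : ∃ D : Cfsg.FusionSystem R, (D.IsSaturated p ∧ D.IsSubsystemOf F ∧ D.hyperfocalSubgroup p = E.hyperfocalSubgroup p ∧ ∀ (D₁ : Cfsg.FusionSystem (D.hyperfocalSubgroup p)) (E₁ : Cfsg.FusionSystem (E.hyperfocalSubgroup p)), D.IsPResidual p D₁ → E.IsPResidual p E₁ → ∀ P : Subgroup Ω, D₁.Hom P = E₁.Hom P) ∧ ∀ D' : Cfsg.FusionSystem R, D'.IsSaturated p → D'.IsSubsystemOf F → D'.hyperfocalSubgroup p = E.hyperfocalSubgroup p → (∀ (D₁ : Cfsg.FusionSystem (D'.hyperfocalSubgroup p)) (E₁ : Cfsg.FusionSystem (E.hyperfocalSubgroup p)), D'.IsPResidual p D₁ → E.IsPResidual p E₁ → ∀ P : Subgroup Ω, D₁.Hom P = E₁.Hom P) → ∀ P : Subgroup Ω, D'.Hom P = D.Hom P := by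
  open Subgroup Cfsg.Lib.Transfer Cfsg.Lib.Fusion in
  open Cfsg.FusionSystem hiding inv_mem in
  have hE := (isNormalIn_iff hS).1 hE
  have := finite_of_le hE.le
  have := finite_of_le hRS
  obtain ⟨E₀, h0, -⟩ := hE.satE.exists_pResidual
  have n0 := hE.nrm_pResidual h0
  have hle := (hyp_le E p).trans hTR
  obtain ⟨D, h1, h2, h3⟩ := n0.exists_prod hle hRS
  have e : D.hyperfocalSubgroup p = E.hyperfocalSubgroup p :=
    (hyp_eq_of_pIndex h2.satF.pg h3).symm.trans (hyp_eq_of_pIndex hE.satE.pg h0.2)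
  refine ⟨D, ⟨h2.satF.sat, h1, e, fun D₁ E₁ hD₁ hE₁ P => hom_eq_iff.2 fun f => ?_⟩,
    fun D' s' h1' e' H P => ?_⟩
  · have := finite_of_le (hyp_le D p)
    have := finite_of_le (hyp_le E p)
    exact (mor_iff_of_pIndex ⟨h2.satF.pg.to_le (hyp_le D p), hD₁.1⟩ n0.satE hD₁.2 h3 e).trans
      (mor_iff_of_pIndex n0.satE ⟨n0.satE.pg, hE₁.1⟩ h0.2 hE₁.2 rfl)
  have s' : Sat D' p := ⟨h2.satF.pg, s'⟩
  obtain ⟨D₁, hD₁, n1⟩ := s'.exists_pResidual
  have k1 : D₁.IsSubsystemOf E₀ := fun P => (H D₁ E₀ hD₁ h0 P).le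
  have k2 : E₀.IsSubsystemOf D₁ := fun P => (H D₁ E₀ hD₁ h0 P).ge
  have h2' := congr_of_sub (M := fun _ X => Nrm X D' p) k1 k2 n1
  have h3' := congr_of_sub (M := fun _ X => X.HasPPowerIndexIn D' p) k1 k2 hD₁.2
  exact Set.Subset.antisymm (n0.prod_sub s' h1' h3' h1 h2 le_rfl P)
    (n0.prod_sub h2.satF h1 h3 h1' h2' le_rfl P)

end Cfsg.Agent.S5143
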