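import Cfsg.Statements.S5147
import Cfsg.Agent.Lib.Fusion.Solv
import Cfsg.Agent.S5115
-- import your own Cfsg.Agent.* helpers here

set_option autoImplicit false
open Cfsg

namespace Cfsg.Agent.S5147

/-- Let G be a finite group with Sylow 2-subgroup S whose 2-fusion system on S is constrained, and L a component of G (a subnormal quasisimple subgroup). Then the 2-fusion system of L/Z(L) on the image of S ∩ L is constrained. -/
theorem result {G : Type*} [Group G] [Finite G] (S : Sylow 2 G) (hF : (Cfsg.groupFusionSystem (S : Subgroup G)).IsConstrained 2) (L : Subgroup G) (hL : Cfsg.IsComponent L) : (Cfsg.groupFusionSystem (((S : Subgroup G).subgroupOf L).map (QuotientGroup.mk' (Subgroup.center L)))).IsConstrained 2 := by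
  open Subgroup Cfsg.Lib.Transfer Cfsg.Lib.Fusion in
  open Cfsg.FusionSystem hiding inv_mem in
  have h1 := Cfsg.Agent.S5115.result S hF L hL.1
  obtain ⟨B, hB⟩ := exists_grp (inf_le_right : (S : Subgroup G) ⊓ L ≤ L)
  have h2 : SylGrp (groupFusionSystem ((S : Subgroup G).subgroupOf L)) ⊤ 2 :=
    ⟨grp_group _, S.2.comap_subtype, by
      rw [relIndex_top_right]; simpa [relIndex] using (Cfsg.Agent.S5115.aux S hF hL.1 B hB).1.syl⟩
  refine (h2.fac (homOn_hom ⊤ (QuotientGroup.mk' (center L))) (grp_group _)
    (by rw [im_hom, map_top_of_surjective _ (QuotientGroup.mk'_surjective _)])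
    (im_hom _ _)).constrained_of_central (h2.central_of_le_centralizer inf_le_left
      (le_centralizer_iff.1 fun x hx y _ => ?_)) h2.sat h1
  exact mem_center_iff.1 ((QuotientGroup.eq_one_iff x).1 hx.2.2) y

end Cfsg.Agent.S5147
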