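import Cfsg.Statements.S5156
import Cfsg.Agent.Lib.Fusion.PSolv
-- import your own Cfsg.Agent.* helpers here

set_option autoImplicit false
universe u
open Cfsg

namespace Cfsg.Agent.S5156

/-- A saturated fusion system over a finite p-group has a terminating alternating chain of p'-residual and p-residual subsystems (the chain reaches the trivial system — the notion of solvability adapted to fusion systems of p-solvable groups) if and only if it is constrained and its models are p-solvable (a model is a finite group realizing the system on a Sylow p-subgroup with self-centralizing largest normal p-subgroup; it exists and is unique up to isomorphism for constrained systems). -/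
theorem result {Ω : Type u} [Group Ω] {S : Subgroup Ω} [Finite S] (p : ℕ) [Fact p.Prime] (hS : IsPGroup p S) (F : Cfsg.FusionSystem S) (hF : F.IsSaturated p) : F.HasTerminatingResidualSeries p ↔ (F.IsConstrained p ∧ ∀ (G : Type u) [Group G] (ι : S →* G), F.IsModel p G ι → Cfsg.IsPSolvable p G) := by
  open Subgroup Cfsg.Lib.Transfer Cfsg.Lib.Fusion in
  open Cfsg.FusionSystem hiding inv_mem in
  have hF' : Sat F p := ⟨hS, hF⟩
  refine ⟨fun h => ⟨(constrained_of_terminating (G := PUnit.{1}) (j := fun _ => 1) h Fact.out
    inferInstance hF').1, fun G _ ι hG => ?_⟩, fun ⟨h1, h2⟩ => ?_⟩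
  · obtain ⟨_, h1⟩ := mdl_of_isModel hG
    exact Lib.Core.isPSolvable_top_iff.1 ((constrained_of_terminating h Fact.out inferInstance hF').2
      h1.iso h1.syl h1.char')
  · obtain ⟨G, _, _, V, A, t, h⟩ := exists_mdl hS h1
    exact terminating_of_isPSolvable _ rfl h.iso h.syl h.char'
      (Lib.Core.isPSolvable_top_iff.2 (h2 G _ h.isModel))

end Cfsg.Agent.S5156
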