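import Cfsg.Statements.S5160
import Cfsg.Agent.Lib.Fusion.PPrime
-- import your own Cfsg.Agent.* helpers here

set_option autoImplicit false
open Cfsg

namespace Cfsg.Agent.S5160

/-- Let G be a finite group with nontrivial Sylow p-subgroup S and F its fusion system on S. Suppose (a) no nontrivial proper subgroup of S is strongly closed in F, and (b) the automorphisms of S induced by G are generated by those induced, for R running over the fully normalized radical centric subgroups of F, by the subgroup of N_G(R) generated by its elements of p-power order. Then F is simple. -/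
theorem result {G : Type*} [Group G] [Finite G] (p : ℕ) [Fact p.Prime] (S : Sylow p G) (hS1 : (S : Subgroup G) ≠ ⊥) (ha : ∀ T : Subgroup G, (Cfsg.groupFusionSystem (S : Subgroup G)).StronglyClosed T → T = ⊥ ∨ T = (S : Subgroup G)) (hb : Cfsg.autInducedBy ⊤ (S : Subgroup G) = ⨆ (R : Subgroup G) (_ : (Cfsg.groupFusionSystem (S : Subgroup G)).IsFullyNormalized R ∧ (Cfsg.groupFusionSystem (S : Subgroup G)).IsRadical p R ∧ (Cfsg.groupFusionSystem (S : Subgroup G)).IsCentric R), Cfsg.autInducedBy (Subgroup.closure {g : G | g ∈ Subgroup.normalizer (R : Set G) ∧ ∃ k : ℕ, orderOf g = p ^ k}) (S : Subgroup G)) : (Cfsg.groupFusionSystem (S : Subgroup G)).IsSimple p := by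
  open Subgroup Cfsg.Lib.Transfer Cfsg.Lib.Fusion in
  open Cfsg.FusionSystem hiding inv_mem in
  have hF := sat_group S
  have hg := grp_group (S : Subgroup G)
  refine hF.simple_of hS1 ha fun E hE hi => ?_
  rw [hg.autGroup_eq le_rfl, hb]
  refine iSup₂_le fun R ⟨_, _, h3⟩ α hα => ?_
  obtain ⟨g, h4, h5, rfl⟩ := mem_autInducedBy'.1 hα
  have h6 : closure {g : G | g ∈ normalizer (R : Set G) ∧ ∃ k : ℕ, orderOf g = p ^ k} ≤
      (homOn_cjA R).pre (E.autGroup R) := (closure_le _).2 fun x ⟨hx, k, hk⟩ =>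
    ⟨hx, (hi.primeToP hF).2 R h3.1 (mem_opP (hg.autGroup_eq h3.1 ▸ cjA_mem_autInducedBy (mem_top x))
      ⟨k, by rw [← (homOn_cjA R).map_pow hx, ← hk, pow_orderOf_eq_one, cjA_one]⟩)⟩
  exact (hF.mor_of_centric hE hi.sub (mor_ext le_rfl (hg.autGroup_eq le_rfl ▸
    cjA_mem_autInducedBy (mem_top g))) h3 h3.1 ((mor_ext h3.1 (h6 h4).2).congr fun x hx => by
      rw [ext_cjA h5 (h3.1 hx), ext_cjA (h6 h4).1 hx])).mem_autGroup

end Cfsg.Agent.S5160
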