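import Cfsg.Statements.S5164
import Cfsg.Agent.Lib.HH.Misc
import Cfsg.Agent.Lib.PGroup.Commutator
import Cfsg.Agent.Lib.PGroup.RankOne
import Cfsg.Agent.Lib.Core.PCore

set_option autoImplicit false
open Cfsg

namespace Cfsg.Agent.S5164

open Subgroup Cfsg.Lib Cfsg.Lib.BG Cfsg.Lib.Transfer Cfsg.Lib.HH Equiv

theorem transfer {n p : ℕ} [Fact p.Prime] {S : Sylow p (alternatingGroup (Fin n))} (hS : IsMulCommutative S)
    {α : Type} [Fintype α] [DecidableEq α] (hc : Fintype.card α ≤ n) {Q : Subgroup (Perm α)}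
    (hQ : IsPGroup p Q) (hs : Q ≤ alternatingGroup α) {x y : Perm α} (hx : x ∈ Q) (hy : y ∈ Q) :
    x * y = y * x := by
  classical
  obtain ⟨ι⟩ : Nonempty (α ↪ Fin n) := Function.Embedding.nonempty_of_card_le (by simpa using hc)
  have hle : Q.map (Perm.viaEmbeddingHom ι) ≤ alternatingGroup (Fin n) := by
    rintro _ ⟨σ, hσ, rfl⟩
    rw [Perm.mem_alternatingGroup]
    refine Eq.trans ?_ (Perm.mem_alternatingGroup.1 (hs hσ))
    rw [Perm.viaEmbeddingHom_apply, Perm.viaEmbedding]
    convert Perm.sign_extendDomain σ (ofInjective ι.1 ι.2)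
  have h1 : IsPGroup p ((Q.map (Perm.viaEmbeddingHom ι)).subgroupOf (alternatingGroup (Fin n))) :=
    (Core.isPGroup_subgroupOf_iff hle).2 (hQ.map _)
  obtain ⟨g, hg⟩ := exists_conj_le_sylow S h1
  have h2 := (abelian_conj g).1 (abelian_of_le hS hg)
  have := le_cent_iff.1 (abelian_cent h2) ⟨_, hle (mem_map_of_mem _ hx)⟩ (mem_map_of_mem _ hx)
    ⟨_, hle (mem_map_of_mem _ hy)⟩ (mem_map_of_mem _ hy)
  apply Perm.viaEmbeddingHom_injective ι
  rw [map_mul, map_mul]
  exact congrArg Subtype.val this

def heis (p : ℕ) : Subgroup (Perm (ZMod p × ZMod p)) where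
  carrier := {f | ∃ i j k : ZMod p, ∀ a b, f (a, b) = (a + i, b + j * a + k)}
  one_mem' := ⟨0, 0, 0, by simp⟩
  mul_mem' := by
    rintro f g ⟨i, j, k, hf⟩ ⟨i', j', k', hg⟩
    refine ⟨i' + i, j' + j, k' + k + j * i', fun a b => ?_⟩
    rw [Perm.mul_apply, hg, hf]
    congr 1 <;> ring
  inv_mem' := by
    rintro f ⟨i, j, k, hf⟩
    refine ⟨-i, -j, j * i - k, fun a b => ?_⟩
    rw [Perm.inv_eq_iff_eq, hf]
    congr 1 <;> ring

theorem heis_pow {p : ℕ} {f : Perm (ZMod p × ZMod p)} {i j k : ZMod p}
    (hf : ∀ a b, f (a, b) = (a + i, b + j * a + k)) (m : ℕ) :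
    ∀ a b, (f ^ m) (a, b) = (a + m * i, b + m * j * a + (m * k + m.choose 2 * (j * i))) := by
  induction m with
  | zero => simp
  | succ m ih =>
    intro a b
    rw [pow_succ', Perm.mul_apply, ih, hf, Nat.choose_succ_succ' m 1, Nat.choose_one_right]
    push_cast
    congr 1 <;> ring

theorem heis_exp {p : ℕ} [hp : Fact p.Prime] (h2 : p ≠ 2) {f : Perm (ZMod p × ZMod p)} (hf : f ∈ heis p) :
    f ^ p = 1 := by
  obtain ⟨i, j, k, hf⟩ := hf
  ext1 ⟨a, b⟩
  rw [heis_pow hf, (ZMod.natCast_eq_zero_iff _ _).2 (PGroup.prime_dvd_choose_two hp.out h2)]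
  simp

/-- For n ≥ 6 and a prime p, a nontrivial Sylow p-subgroup of the alternating group of degree n is abelian if and only if n < p². -/
theorem result (n p : ℕ) (hn : 6 ≤ n) [Fact p.Prime] (S : Sylow p (alternatingGroup (Fin n))) (hS : (S : Subgroup (alternatingGroup (Fin n))) ≠ ⊥) : IsMulCommutative S ↔ n < p ^ 2 := by
  have hp : p.Prime := Fact.out
  constructor
  · intro h
    by_contra hlt
    push Not at hlt
    by_cases h2 : p = 2
    · subst h2
      let x : Perm (Fin 6) := swap 0 1 * swap 1 2 * swap 2 3 * swap 4 5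
      let y : Perm (Fin 6) := swap 0 2 * swap 4 5
      obtain ⟨e⟩ := PGroup.nonempty_sup_mulEquiv_dihedral (n := 4) (a := x) (b := y)
        (orderOf_eq_prime_pow (p := 2) (n := 1) (by decide) (by decide)) (by decide) (by decide)
        (fun h => absurd (le_cent_iff.1 (abelian_cent inferInstance) _ h _ (mem_zpowers _)) (by decide))
      have hQ : IsPGroup 2 ↥(zpowers x ⊔ zpowers y) :=
        IsPGroup.of_card (n := 3) (by rw [Nat.card_congr e.toEquiv, DihedralGroup.nat_card]; rfl)
      exact absurd (transfer h (by simpa using hn) hQ (sup_le (zpowers_le.2 (by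
        rw [Perm.mem_alternatingGroup]; decide)) (zpowers_le.2 (by rw [Perm.mem_alternatingGroup]; decide)))
        (mem_sup_left (mem_zpowers x)) (mem_sup_right (mem_zpowers y))) (by decide)
    · have hQ : IsPGroup p (heis p) := fun f => ⟨1, Subtype.ext (by simpa using heis_exp h2 f.2)⟩
      have hs : heis p ≤ alternatingGroup _ := fun f hf => by
        rw [Perm.mem_alternatingGroup]
        have := congrArg Perm.sign (heis_exp h2 hf)
        rw [map_pow, map_one] at this
        rcases Int.units_eq_one_or (Perm.sign f) with e | e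
        · exact e
        · rw [e, (hp.odd_of_ne_two h2).neg_one_pow] at this
          exact absurd this (by decide)
      let σ : Perm (ZMod p × ZMod p) := (Equiv.addRight (1 : ZMod p)).prodCongr (Equiv.refl _)
      let τ : Perm (ZMod p × ZMod p) := Equiv.prodShear (Equiv.refl _) fun a => Equiv.addRight a
      have := transfer h (by simpa [sq] using hlt) hQ hs (x := σ) (y := τ) ⟨1, 0, 0, by simp [σ]⟩
        ⟨0, 1, 0, by simp [τ]⟩
      have := congrArg (fun f : Perm (ZMod p × ZMod p) => (f (0, 0)).2) this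
      simp [σ, τ] at this
  · intro hlt
    refine ⟨⟨fun a b => ?_⟩⟩
    have key : ∀ i : Fin n, a * b * a⁻¹ * b⁻¹ ∈ MulAction.stabilizer (S : Subgroup (alternatingGroup (Fin n))) i := by
      intro i
      set T := MulAction.stabilizer (S : Subgroup (alternatingGroup (Fin n))) i
      obtain ⟨k, hk⟩ := IsPGroup.index S.isPGroup' T
      have h1 : T.index ≤ n := by
        rw [MulAction.index_stabilizer]
        simpa using Set.ncard_le_card (MulAction.orbit (S : Subgroup (alternatingGroup (Fin n))) i)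
      have h2 : k < 2 := (Nat.pow_lt_pow_iff_right hp.one_lt).1 (hk ▸ h1.trans_lt hlt)
      interval_cases k
      · exact (index_eq_one.1 (hk.trans (pow_zero p))).ge (mem_top _)
      · rw [pow_one] at hk
        obtain ⟨m, hm⟩ := IsPGroup.iff_card.1 S.isPGroup'
        haveI : T.Normal := normal_of_index_eq_minFac_card (by
          rw [hk, hm, hp.pow_minFac]
          rintro rfl
          exact hS (card_eq_one.1 (by simpa using hm)))
        haveI : IsCyclic (_ ⧸ T) := isCyclic_of_prime_card (p := p) hk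
        letI := IsCyclic.commGroup (α := _ ⧸ T)
        rw [← QuotientGroup.eq_one_iff]
        simp only [QuotientGroup.mk_mul, QuotientGroup.mk_inv]
        rw [mul_comm (a : _ ⧸ T) b]; group
    rw [← mul_inv_eq_one, mul_inv_rev, ← mul_assoc]
    exact Subtype.ext (Subtype.ext (Equiv.ext key))

end Cfsg.Agent.S5164
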