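import Cfsg.Statements.S5311
import Cfsg.Agent.Lib.Fusion.Comp
-- import your own Cfsg.Agent.* helpers here

set_option autoImplicit false
open Cfsg

namespace Cfsg.Agent.S5311

/-- The layer of a saturated fusion system F over a finite p-group S is characteristic in F: for every automorphism α of S that is an automorphism of F (α and its inverse are morphisms from F to F) and every layer E of F over T, α carries T onto T and, for every map φ of E with source P, the map induced by α on α(P) (that is, α ∘ φ ∘ α⁻¹) is a map of E. -/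
theorem result {Ω : Type*} [Group Ω] {S : Subgroup Ω} [Finite S] (p : ℕ) [Fact p.Prime] (hS : IsPGroup p S) (F : Cfsg.FusionSystem S) (hF : F.IsSaturated p)
    (α : ↥S ≃* ↥S) (hα : F.IsMorphism F (S.subtype.comp α.toMonoidHom))
    (hα' : F.IsMorphism F (S.subtype.comp α.symm.toMonoidHom))
    {T : Subgroup Ω} (E : Cfsg.FusionSystem T) (hE : E.IsLayerOf F p) :
    Cfsg.FusionSystem.imageAlong (S.subtype.comp α.toMonoidHom) T = T ∧
      ∀ (P : Subgroup Ω) (φ : ↥P →* Ω), φ ∈ E.Hom P →
        ∀ φ' : ↥(Cfsg.FusionSystem.imageAlong (S.subtype.comp α.toMonoidHom) P) →* Ω,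
          Cfsg.FusionSystem.InducedAlong (S.subtype.comp α.toMonoidHom) φ φ' →
            φ' ∈ E.Hom (Cfsg.FusionSystem.imageAlong (S.subtype.comp α.toMonoidHom) P) := by
  open Subgroup Cfsg.Lib.Transfer Cfsg.Lib.Fusion in
  open Cfsg.FusionSystem hiding inv_mem in
  · have h := (isLayerOf_iff hS).1 hE
    have m := isMorphism_iff.1 hα
    have m' := isMorphism_iff.1 hα'
    have e : ∀ x ∈ S, fn (S.subtype.comp α.symm.toMonoidHom) (fn (S.subtype.comp α.toMonoidHom) x)
        = x := fun x hx => by
      rw [fn_apply _ hx]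
      exact (fn_coe _ (α ⟨x, hx⟩)).trans (by simp)
    have hi : Iso F F (fn (S.subtype.comp α.toMonoidHom)) := iso_of m.hom
      (fun x hx y hy e' => by rw [← e x hx, e', e y hy])
      (by rw [im_fn, MonoidHom.range_comp, MonoidHom.range_eq_top.2 α.surjective,
        ← MonoidHom.range_eq_map, range_subtype])
      fun P f f' hP hm e' => ⟨fun hf => m.mor hf e', fun hf => by
        have := m'.mor (f' := f) hf fun y hy => by
          obtain ⟨x, hx, rfl⟩ := (m.hom.mono hP).mem_im.1 hy
          rw [e x (hP hx), e' x hx, e _ (hm x hx)]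
        rwa [← (m.hom.mono hP).im_comp, im_eq_self fun x hx => e x (hP hx)] at this⟩
    refine ⟨(imageAlong_eq _ h.nrm.le).trans (h.iso hi).im_eq, fun P φ hφ φ' hφ' => ?_⟩
    have hP := (mor_fn hφ).le.trans h.nrm.le
    exact mor_fn_iff.1 (((h.iso hi).mor_down (mor_fn hφ) (inducedAlong_iff.1 hφ').2.2.2).mono
      (imageAlong_eq _ hP).le)

end Cfsg.Agent.S5311
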