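import Cfsg.Statements.S5346
import Cfsg.Agent.Lib.ThreeTr.VW

set_option autoImplicit false
open Cfsg

namespace Cfsg.Agent.S5346

open Cfsg.Lib Cfsg.Lib.ThreeTr

/-- Let D be a conjugation-invariant generating set of 3-transpositions of a finite group G and d a member of D. Then D has width 1 (no two different members of D commute) if and only if G is the product of the subgroup generated by d with the largest normal 3-subgroup of G. -/
theorem result {G : Type*} [Group G] [Finite G] {D : Set G} (hD : Cfsg.IsThreeTranspositionGroup D) {d : G} (hd : d ∈ D) : Cfsg.commutingWidth D = 1 ↔ Subgroup.zpowers d ⊔ Cfsg.pCore 3 G = ⊤ := by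
  rw [width_eq_one_iff hD hd]
  refine ⟨fun h => zpowers_sup_pCore_eq_top hD h hd, fun h a ha b hb hc => ?_⟩
  have key : ∀ a ∈ D, d * a ∈ Cfsg.pCore 3 G := by
    intro a ha
    have h1 : a ∈ Subgroup.zpowers d ⊔ Cfsg.pCore 3 G := h ▸ Subgroup.mem_top a
    obtain ⟨y, hy, z, hz, rfl⟩ := Subgroup.mem_sup_of_normal_right.1 h1
    have h2 : y = 1 ∨ y = d := by
      obtain ⟨k, rfl⟩ := Subgroup.mem_zpowers_iff.1 hy
      rcases Int.even_or_odd' k with ⟨m, rfl | rfl⟩
      · left
        rw [zpow_mul, zpow_two, TS.sq hD.1 hd, one_zpow]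
      · right
        rw [zpow_add, zpow_mul, zpow_two, TS.sq hD.1 hd, one_zpow, one_mul, zpow_one]
    rcases h2 with rfl | rfl
    · exfalso
      rw [one_mul] at ha
      obtain ⟨k, hk⟩ := Cfsg.Lib.Core.isPGroup_subgroup_iff.1 (Cfsg.Lib.Core.pCore_isPGroup 3 G) _ hz
      exact TS.ne_one hD.1 ha (eq_one_of_pow_coprime (n := 2)
        (Nat.Coprime.pow_left k (by norm_num)) hk (by rw [pow_two, TS.sq hD.1 ha]))
    · rwa [sq_cancel_left (TS.sq hD.1 hd)]
  refine eq_of_commute_of_mul_mem_threeGroup hD.1 (Cfsg.Lib.Core.pCore_isPGroup 3 G) ha hb ?_ hc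
  have := mul_mem (inv_mem (key a ha)) (key b hb)
  rwa [mul_inv_rev, mul_assoc, inv_mul_cancel_left, TS.inv hD.1 ha] at this

end Cfsg.Agent.S5346
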