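import Cfsg.Statements.S5347
import Cfsg.Agent.Lib.ThreeTr.Basic

set_option autoImplicit false
open Cfsg

namespace Cfsg.Agent.S5347

/-- Let D be a conjugation-invariant generating set of 3-transpositions of a finite group G, p a prime bigger than 3, and P a p-subgroup of G. If a member d of D normalizes P then d centralizes P. -/
theorem result {G : Type*} [Group G] [Finite G] {D : Set G} (hD : Cfsg.IsThreeTranspositionGroup D) {p : ℕ} (hp : p.Prime) (hp3 : 3 < p) (P : Subgroup G) (hP : IsPGroup p P) {d : G} (hd : d ∈ D) (hnorm : d ∈ Subgroup.normalizer (P : Set G)) : ∀ x ∈ P, Commute d x := by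
  intro x hx
  refine Cfsg.Lib.ThreeTr.TS.commute_of_mem_normalizer hD.1 ?_ hd hnorm hx (hD.2.1 x d hd)
  intro y hy h6
  have : Fact p.Prime := ⟨hp⟩
  obtain ⟨k, hk⟩ := hP ⟨y, hy⟩
  have hk' : y ^ p ^ k = 1 := congrArg Subtype.val hk
  have h1 : orderOf y ∣ Nat.gcd 6 (p ^ k) :=
    Nat.dvd_gcd (orderOf_dvd_of_pow_eq_one h6) (orderOf_dvd_of_pow_eq_one hk')
  have h2 : Nat.Coprime 6 (p ^ k) := by
    apply Nat.Coprime.pow_right
    rw [show 6 = 2 * 3 by rfl]
    apply Nat.Coprime.mul_left
    · exact (Nat.coprime_primes Nat.prime_two hp).2 (by omega)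
    · exact (Nat.coprime_primes Nat.prime_three hp).2 (by omega)
  rw [h2.gcd_eq_one, Nat.dvd_one, orderOf_eq_one_iff] at h1
  exact h1

end Cfsg.Agent.S5347
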