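import Cfsg.Statements.S5352
import Cfsg.Agent.Lib.ThreeTr.Structure

set_option autoImplicit false
open Cfsg

namespace Cfsg.Agent.S5352

open Cfsg.Lib Cfsg.Lib.ThreeTr

/-- Let D be a conjugacy class of 3-transpositions generating the finite group G, with at least two members, and suppose the largest normal 2-subgroup and the largest normal 3-subgroup of G are both central. Then G has a quasisimple normal subgroup L such that the generalized Fitting subgroup of G is the product of L and the centre; and either L = G or the image of D in G/L has width 1, in the sense that two members of D whose commutator lies in L have the same image modulo L. -/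
theorem result {G : Type*} [Group G] [Finite G] {D : Set G} (hD : Cfsg.IsThreeTranspositionClass D) (hD2 : ∃ a ∈ D, ∃ b ∈ D, a ≠ b) (h2 : Cfsg.pCore 2 G ≤ Subgroup.center G) (h3 : Cfsg.pCore 3 G ≤ Subgroup.center G) : ∃ L : Subgroup G, L.Normal ∧ Cfsg.IsQuasisimple L ∧ Cfsg.generalizedFittingSubgroup G = L ⊔ Subgroup.center G ∧ (L = ⊤ ∨ ∀ a ∈ D, ∀ b ∈ D, a * b * a⁻¹ * b⁻¹ ∈ L → a⁻¹ * b ∈ L) := by
  have hq := qs_layer hD (layer_ne_bot hD hD2 h2 h3)
  refine ⟨Cfsg.layer G, inferInstance, hq, ?_, Or.inr fun a ha b hb h => ?_⟩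
  · rw [Comp.genFitting_def, le_antisymm (fitting_le_center hD h2 h3) Core.center_le_fittingSubgroup]
  · rw [TS.inv hD.1 ha]
    refine qs_mul_mem_of_sq_mem hD hq ha hb ?_
    rwa [TS.inv hD.1 ha, TS.inv hD.1 hb, mul_assoc, ← pow_two] at h

end Cfsg.Agent.S5352
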