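import Cfsg.Statements.S5354
import Cfsg.Agent.Lib.ThreeTr.Structure

set_option autoImplicit false
open Cfsg

namespace Cfsg.Agent.S5354

open Cfsg.Lib Cfsg.Lib.ThreeTr

/-- Let D be a conjugation-invariant generating set of 3-transpositions of the finite group G on which G acts primitively by conjugation, and suppose two different members of D commute (width at least 2). Then G has a quasisimple normal subgroup L of index at most 2 with the generalized Fitting subgroup of G equal to L times the centre, the commuting graph of D is connected, and for d in D the subgroup generated by the members of D commuting with d is a maximal D-subgroup: it is proper, and every subgroup generated by members of D that contains it is either it or G. -/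
theorem result {G : Type*} [Group G] [Finite G] {D : Set G} (hD : Cfsg.IsThreeTranspositionGroup D) (hprim : Cfsg.IsPrimitiveUnderConj D) (hw : ∃ a ∈ D, ∃ b ∈ D, a ≠ b ∧ Commute a b) : (∃ L : Subgroup G, L.Normal ∧ Cfsg.IsQuasisimple L ∧ L.index ≤ 2 ∧ Cfsg.generalizedFittingSubgroup G = L ⊔ Subgroup.center G) ∧ (Cfsg.commutingGraph D).Connected ∧ ∀ d ∈ D, Subgroup.closure {y : G | y ∈ D ∧ Commute d y} ≠ ⊤ ∧ ∀ H : Subgroup G, Cfsg.IsDSubgroup D H → Subgroup.closure {y : G | y ∈ D ∧ Commute d y} ≤ H → H = Subgroup.closure {y : G | y ∈ D ∧ Commute d y} ∨ H = ⊤ := by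
  have hC := class_of_primitive hD hprim
  obtain ⟨h2, h3, hq, hL⟩ := prim_structure hD hprim hw
  obtain ⟨d, hd, -⟩ := hC.2.1
  refine ⟨⟨Cfsg.layer G, inferInstance, hq, ?_, ?_⟩, ?_, fun d hd => ⟨fun h => ?_, ?_⟩⟩
  · exact index_le_two_of_mul_mem hD (fun a ha b hb => hL ▸ mul_mem_commutator hC ha hb) hd
  · rw [Comp.genFitting_def, le_antisymm (fitting_le_center hC h2 h3) Core.center_le_fittingSubgroup]
  · exact (connected_iff_cRel ⟨d, hd⟩).2 fun a ha b hb => prim_cRel hD hprim hw ha hb
  · obtain ⟨a, -, hda⟩ := class_exists_not_commute hC hprim.2.1 hd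
    have := closure_perp_le D d (h ▸ Subgroup.mem_top a)
    exact hda (Subgroup.mem_centralizer_singleton_iff.1 this).symm
  · intro H hH hle
    by_cases h : ∃ a ∈ D, a ∈ H ∧ ¬ Commute d a
    · right
      obtain ⟨a, ha, haH, hda⟩ := h
      rw [eq_top_iff, ← hD.2.2, Subgroup.closure_le]
      intro b hb
      by_cases hdb : Commute d b
      · exact hle (Subgroup.subset_closure ⟨hb, hdb⟩)
      · obtain ⟨k, hk, rfl⟩ := prim_mem_orb_perp hD hprim hw hd ha hb hda hdb
        exact mul_mem (mul_mem (hle hk) haH) (inv_mem (hle hk))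
    · left
      push Not at h
      refine le_antisymm ?_ hle
      rw [← hH]
      exact Subgroup.closure_mono fun a ha => ⟨ha.1, h a ha.1 ha.2⟩

end Cfsg.Agent.S5354
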