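import Cfsg.Statements.S5355
import Cfsg.Agent.Lib.ThreeTr.Structure

set_option autoImplicit false
open Cfsg

namespace Cfsg.Agent.S5355

open Cfsg.Lib Cfsg.Lib.ThreeTr

/-- Let D be a conjugacy class of 3-transpositions generating the finite group G, with at least two members, and d a member of D. Suppose that every member of D commuting with d commutes with exactly the same members of D as d does, and that exactly one member of D other than d commutes with d. Then G is isomorphic to the symmetric group of degree 4. -/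
theorem result {G : Type*} [Group G] [Finite G] {D : Set G} (hD : Cfsg.IsThreeTranspositionClass D) (hD2 : ∃ a ∈ D, ∃ b ∈ D, a ≠ b) {d : G} (hd : d ∈ D) (hV : {y : G | y ∈ D ∧ Commute d y} = {v : G | v ∈ D ∧ ∀ e ∈ D, Commute v e ↔ Commute d e}) (hm : {y : G | y ∈ D ∧ Commute d y}.ncard = 2) : Nonempty (G ≃* Equiv.Perm (Fin 4)) := by
  have hG := class_group hD
  have h1 : (Dx D d).ncard = 1 := by
    have : Dx D d = {y : G | y ∈ D ∧ Commute d y} \ {d} := by
      ext y; exact ⟨fun h => ⟨⟨h.1, h.2.2⟩, h.2.1⟩, fun h => ⟨h.1.1, h.2, h.1.2⟩⟩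
    rw [this, Set.ncard_sdiff_singleton_of_mem (by exact ⟨hd, Commute.refl d⟩), hm]
  have huniq : ∀ x ∈ D, ∀ y ∈ Dx D x, ∀ z ∈ Dx D x, y = z := by
    intro x hx y hy z hz
    obtain ⟨g, rfl⟩ := class_exists_conj hD hd hx
    exact (Set.ncard_le_one (Set.toFinite _)).1 ((ncard_Dx_conj hG g d).trans h1).le y hy z hz
  obtain ⟨d', hd'⟩ := Set.ncard_eq_one.1 h1
  replace hd' : d' ∈ Dx D d := hd' ▸ rfl
  obtain ⟨a, ha, hda⟩ := class_exists_not_commute hD hD2 hd
  have had' : ¬ Commute a d' := fun h => by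
    by_cases h2 : a = d'
    · exact hda (h2 ▸ hd'.2.2)
    · exact hda (huniq d' hd'.1 d (Dx_symm hd hd') a ⟨ha, h2, h.symm⟩ ▸ Commute.refl _)
  obtain ⟨φ, hφ, e1, -, -, -⟩ := TS.exists_hom_four hD.1 hd ha hd'.1 hd'.2.1.symm hd'.2.2 hda had'
  have hs : ∀ i j : Fin 4, i ≠ j → φ (Equiv.swap i j) ∈ D := by
    intro i j hij
    obtain ⟨g, hg⟩ := isConj_iff.1 (Equiv.Perm.isConj_swap (show (0 : Fin 4) ≠ 1 by decide) hij)
    rw [← hg, map_mul, map_mul, map_inv, e1]
    exact hG.2.1 _ d hd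
  have hsurj : φ.range = ⊤ := by
    rw [eq_top_iff, ← hD.2.2, Subgroup.closure_le]
    intro e he
    by_contra hn
    have key : ∀ i j k l : Fin 4, i ≠ j → k ≠ l → Equiv.swap k l ≠ Equiv.swap i j →
        Commute (Equiv.swap i j) (Equiv.swap k l) → ¬ Commute e (φ (Equiv.swap i j)) := by
      intro i j k l hij hkl h2 h3 h4
      refine hn ⟨Equiv.swap k l, huniq _ (hs i j hij) _ ⟨hs k l hkl, fun h => h2 (hφ h), h3.map φ⟩
        e ⟨he, fun h => hn ⟨_, h.symm⟩, h4.symm⟩⟩
    have key2 : ∀ i j k l : Fin 4, i ≠ j → k ≠ l → Equiv.swap k l ≠ Equiv.swap i j →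
        Commute (Equiv.swap i j) (Equiv.swap k l) →
        φ (Equiv.swap i j * Equiv.swap k l) * e * (φ (Equiv.swap i j * Equiv.swap k l))⁻¹ ∈
          Dx D e := by
      intro i j k l hij hkl h2 h3
      have h4 := key i j k l hij hkl h2 h3
      have h5 := key k l i j hkl hij h2.symm h3.symm
      have e2 : φ (Equiv.swap i j * Equiv.swap k l) * e * (φ (Equiv.swap i j * Equiv.swap k l))⁻¹ =
          φ (Equiv.swap i j) * (φ (Equiv.swap k l) * e * φ (Equiv.swap k l)) *
            φ (Equiv.swap i j) := by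
        rw [map_mul, mul_inv_rev, TS.inv hD.1 (hs i j hij), TS.inv hD.1 (hs k l hkl)]
        simp only [mul_assoc]
      refine ⟨hG.2.1 _ e he, ?_, ?_⟩ <;> rw [e2]
      · exact TS.string_ne hD.1 (hs i j hij) (hs k l hkl) he (fun h => h2 (hφ h).symm) (h3.map φ) h4
      · exact TS.string_commute hD.1 (hs i j hij) (hs k l hkl) he (h3.map φ) h4 h5
    have h2 := huniq e he _ (key2 0 1 2 3 (by decide) (by decide) (by decide) (show _ = _ by decide)) _
      (key2 1 2 0 3 (by decide) (by decide) (by decide) (show _ = _ by decide))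
    have h3 : Commute e (φ (Equiv.swap 0 2) * φ (Equiv.swap 1 3)) := by
      have e3 : (Equiv.swap 0 2 * Equiv.swap 1 3 : Equiv.Perm (Fin 4)) =
          (Equiv.swap 1 2 * Equiv.swap 0 3)⁻¹ * (Equiv.swap 0 1 * Equiv.swap 2 3) := by decide
      rw [← map_mul, e3, map_mul, map_inv]
      generalize φ (Equiv.swap 0 1 * Equiv.swap 2 3) = u at h2 ⊢
      generalize φ (Equiv.swap 1 2 * Equiv.swap 0 3) = v at h2 ⊢
      have : v⁻¹ * (u * e * u⁻¹) * u = v⁻¹ * (v * e * v⁻¹) * u := by rw [h2]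
      simpa [Commute, SemiconjBy, mul_assoc] using this.symm
    exact key 0 2 1 3 (by decide) (by decide) (by decide) (show _ = _ by decide)
      (TS.commute_mul_iff hD.1 (hs 0 2 (by decide)) (hs 1 3 (by decide)) he
        (fun h => absurd (hφ h) (by decide)) h3 (Commute.map (show _ = _ by decide) φ)).1
  exact ⟨(MulEquiv.ofBijective φ ⟨hφ, MonoidHom.range_eq_top.1 hsurj⟩).symm⟩

end Cfsg.Agent.S5355
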