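import Cfsg.Statements.S5358
import Cfsg.Agent.Lib.Orth.ReflClass

set_option autoImplicit false
open scoped MatrixGroups
open Cfsg

namespace Cfsg.Agent.S5358

open Cfsg.Lib.Orth QuadraticMap

/-- Let Q be a non-degenerate quadratic form on the n-dimensional coordinate space over the field with three elements and u, v vectors of the same non-zero norm Q(u) = Q(v) spanning different lines (v ≠ u and v ≠ −u). Then the reflection matrices of u and v commute if and only if u and v are orthogonal for the polar form of Q. -/
theorem result (n : ℕ) (Q : QuadraticForm (ZMod 3) (Fin n → ZMod 3)) (hQ : (QuadraticMap.polarBilin Q).Nondegenerate) (u v : Fin n → ZMod 3) (hu : Q u ≠ 0) (huv : Q u = Q v) (h1 : v ≠ u) (h2 : v ≠ -u) : Commute (Cfsg.reflectionMatrix (⇑Q) u) (Cfsg.reflectionMatrix (⇑Q) v) ↔ QuadraticMap.polar (⇑Q) u v = 0 := by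
  have hv : Q v ≠ 0 := huv ▸ hu
  have h3 : Commute (Cfsg.reflectionMatrix (⇑Q) u) (Cfsg.reflectionMatrix (⇑Q) v) ↔
      Commute (refl Q u) (refl Q v) := by
    constructor
    · intro h
      refine O.ext fun x => ?_
      have := congrArg (fun M => Matrix.mulVec M x) h.eq
      simpa only [← Matrix.mulVec_mulVec, reflectionMatrix_mulVec, O.mul_apply] using this
    · intro h
      refine matrix_ext_mulVec fun x => ?_
      simp only [← Matrix.mulVec_mulVec, reflectionMatrix_mulVec]
      rw [← O.mul_apply, h.eq, O.mul_apply]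
  rw [h3, commute_refl_iff hQ hu hv, or_iff_left]
  rintro ⟨c, rfl⟩
  have : ∀ c : ZMod 3, c = 0 ∨ c = 1 ∨ c = -1 := by decide
  rcases this c with rfl | rfl | rfl
  · simp at hv
  · simp at h1
  · simp at h2

end Cfsg.Agent.S5358
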