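import Cfsg.Statements.S5360
import Cfsg.Agent.Lib.Orth.ThreeTr
import Cfsg.Agent.S5352
import Cfsg.Agent.S5353

set_option autoImplicit false
open scoped MatrixGroups
open Cfsg

namespace Cfsg.Agent.S5360

open Cfsg.Lib.Orth QuadraticMap

/-- Let Q be a non-degenerate quadratic form on the n-dimensional coordinate space over the field with three elements, n ≥ 5, c a non-zero scalar, and R the subgroup of the isometry group generated by the reflections of norm c. Then the commutator subgroup of R is quasisimple of index at most 2, the generalized Fitting subgroup of R is the product of the centre and the commutator subgroup, and R acts primitively by conjugation on its reflections of norm c. -/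
theorem result (n : ℕ) (hn : 5 ≤ n) (Q : QuadraticForm (ZMod 3) (Fin n → ZMod 3)) (hQ : (QuadraticMap.polarBilin Q).Nondegenerate) (c : ZMod 3) (hc : c ≠ 0) : Cfsg.IsQuasisimple (commutator ↥(Cfsg.reflectionSubgroup (⇑Q) c)) ∧ (commutator ↥(Cfsg.reflectionSubgroup (⇑Q) c)).index ≤ 2 ∧ Cfsg.generalizedFittingSubgroup ↥(Cfsg.reflectionSubgroup (⇑Q) c) = Subgroup.center ↥(Cfsg.reflectionSubgroup (⇑Q) c) ⊔ commutator ↥(Cfsg.reflectionSubgroup (⇑Q) c) ∧ Cfsg.IsPrimitiveUnderConj {g : ↥(Cfsg.reflectionSubgroup (⇑Q) c) | (g : ↥(Cfsg.isometryGroup (ZMod 3) (⇑Q))) ∈ Cfsg.reflectionsOfNorm (⇑Q) c} := by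
  have hn' : 5 ≤ Module.finrank (ZMod 3) (Fin n → ZMod 3) := by simpa using hn
  have hr := range_reflEmb hQ (by simpa using hn) hc
  have hφ := reflEmb_injective (Q := Q) (c := c)
  have hΩ : commutator (O Q) ≤ (reflEmb Q c).range := hr ▸ commutator_le_ker_classChar hQ c
  have hD := isThreeTranspositionClass_three hQ (by simpa using hn) hc
  haveI : Finite ↥(Cfsg.reflectionSubgroup (⇑Q) c) := Finite.of_injective _ hφ
  have h1 : Cfsg.IsQuasisimple (commutator ↥(Cfsg.reflectionSubgroup (⇑Q) c)) := by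
    rw [← Lib.Comp.isQuasisimple_map_iff_of_injective hφ, map_commutator_of_le_range hQ hn' hΩ]
    exact isQuasisimple_omega hQ hn'
  have h2 : (commutator ↥(Cfsg.reflectionSubgroup (⇑Q) c)).index ≤ 2 := by
    rw [commutator_eq_comap_of_le_range hQ hn' hφ hΩ, Subgroup.index_comap]
    have := Subgroup.relIndex_mul_index hΩ
    rw [index_commutator_of_odd hQ (by decide) (by omega), hr,
      index_ker_classChar hQ (by decide) (by omega)] at this
    rw [hr]; omega
  have h3 : ∀ p : ℕ, p.Prime → Cfsg.pCore p ↥(Cfsg.reflectionSubgroup (⇑Q) c) ≤ Subgroup.center _ :=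
    fun p hp => by
      haveI := Fact.mk hp
      refine (le_center_or_commutator_le hQ hn' hφ hΩ _).resolve_right fun h => ?_
      have := ((Lib.Core.pCore_isPGroup p _).to_le h).isNilpotent
      exact Lib.Comp.isQuasisimple_not_isSolvable h1 inferInstance
  have h4 : ∃ a ∈ {g : ↥(Cfsg.reflectionSubgroup (⇑Q) c) | (g : ↥(Cfsg.isometryGroup (ZMod 3) (⇑Q))) ∈ Cfsg.reflectionsOfNorm (⇑Q) c}, ∃ b ∈ {g : ↥(Cfsg.reflectionSubgroup (⇑Q) c) | (g : ↥(Cfsg.isometryGroup (ZMod 3) (⇑Q))) ∈ Cfsg.reflectionsOfNorm (⇑Q) c}, a ≠ b := by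
    by_contra! h
    obtain ⟨-, ⟨d, hd, -⟩, hg⟩ := hD
    have h5 : (⊤ : Subgroup ↥(Cfsg.reflectionSubgroup (⇑Q) c)) ≤ Subgroup.zpowers d := by
      rw [← hg, Subgroup.closure_le]
      intro x hx
      rw [h x hx d hd]
      exact Subgroup.mem_zpowers d
    haveI : IsCyclic ↥(Cfsg.reflectionSubgroup (⇑Q) c) := ⟨⟨d, fun x => h5 trivial⟩⟩
    exact Lib.Comp.isQuasisimple_not_isSolvable h1 inferInstance
  obtain ⟨L, hL, hq, hF, -⟩ := S5352.result hD h4 (h3 2 Nat.prime_two) (h3 3 Nat.prime_three)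
  have h5 : L = commutator _ := by
    refine le_antisymm ?_ ((le_center_or_commutator_le hQ hn' hφ hΩ L).resolve_left fun h => ?_)
    · rw [← Lib.Comp.qs_commutator_self hq]; exact Subgroup.commutator_mono le_top le_top
    · exact Lib.Comp.qs_not_le_centralizer hq (h.trans (Subgroup.center_le_centralizer _))
  subst h5
  exact ⟨h1, h2, hF.trans (sup_comm _ _),
    (S5353.result hD h4 (h3 2 Nat.prime_two) (h3 3 Nat.prime_three) _ hq hF).1 h2⟩

end Cfsg.Agent.S5360
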