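import Cfsg.Statements.S5361
import Cfsg.Agent.Lib.ThreeTr.Structure

set_option autoImplicit false
open Cfsg

namespace Cfsg.Agent.S5361

open Cfsg.Lib Cfsg.Lib.ThreeTr

/-- Let D be a conjugacy class of 3-transpositions generating the finite group G, and suppose the centre of G is trivial and some two different members of D commute. Then the following are equivalent: (1) the commutator subgroup of G is simple (possibly of prime order); (2) G acts primitively on D by conjugation; (3) the largest normal 2-subgroup and the largest normal 3-subgroup of G are trivial and the commuting graph of D is connected. -/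
theorem result {G : Type*} [Group G] [Finite G] {D : Set G} (hD : Cfsg.IsThreeTranspositionClass D) (hZ : Subgroup.center G = ⊥) (hw : ∃ a ∈ D, ∃ b ∈ D, a ≠ b ∧ Commute a b) : (IsSimpleGroup (commutator G) ↔ Cfsg.IsPrimitiveUnderConj D) ∧ (Cfsg.IsPrimitiveUnderConj D ↔ (Cfsg.pCore 2 G = ⊥ ∧ Cfsg.pCore 3 G = ⊥ ∧ (Cfsg.commutingGraph D).Connected)) := by
  have hG := class_group hD
  have hD2 : ∃ a ∈ D, ∃ b ∈ D, a ≠ b := by
    obtain ⟨a, ha, b, hb, h, -⟩ := hw
    exact ⟨a, ha, b, hb, h⟩
  obtain ⟨d, hd, -⟩ := hD.2.1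
  refine ⟨⟨primitive_of_simple_commutator hD hD2, fun hp => ?_⟩, fun hp => ?_, fun ⟨h2, h3, hc⟩ => ?_⟩
  · obtain ⟨h2, h3, hq, hL⟩ := prim_structure hG hp hw
    rw [← hL]
    refine Comp.isSimpleGroup_of_isQuasisimple hq ?_
    have := Comp.center_layer_le_fitting.trans (fitting_le_center hD h2 h3)
    rwa [← Comp.map_center_subtype, hZ, le_bot_iff,
      Subgroup.map_eq_bot_iff_of_injective _ (Subgroup.subtype_injective _)] at this
  · obtain ⟨h2, h3, -, -⟩ := prim_structure hG hp hw
    rw [hZ, le_bot_iff] at h2 h3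
    exact ⟨h2, h3, (connected_iff_cRel ⟨d, hd⟩).2 fun a ha b hb => prim_cRel hG hp hw ha hb⟩
  · have hq := qs_layer hD (layer_ne_bot hD hD2 (h2 ▸ bot_le) (h3 ▸ bot_le))
    exact primitive_of_qs hD hD2 hq fun a ha b hb =>
      mul_mem_of_cRel hD hq ha ((connected_iff_cRel ⟨d, hd⟩).1 hc a ha b hb)

end Cfsg.Agent.S5361
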