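import Cfsg.Statements.S5362
import Cfsg.Agent.Lib.Fischer.Main
-- import your own Cfsg.Agent.* helpers here

set_option autoImplicit false
open scoped MatrixGroups
open Cfsg

namespace Cfsg.Agent.S5362
open Cfsg.Lib Cfsg.Lib.ThreeTr Subgroup
open Cfsg.Lib.Fischer

/-- Let D be a conjugacy class of 3-transpositions generating the finite group G, with trivial centre and trivial largest normal 2- and 3-subgroups, and suppose the commuting graph of D is not connected. Let F be the generalized Fitting subgroup of G. Then G/F is isomorphic to the symmetric group of degree 3, and F is isomorphic either to the commutator subgroup of the isometry group of the hyperbolic quadratic form in dimension 8 over the field with two elements, or to the commutator subgroup of the isometry group of the hyperbolic quadratic form in dimension 8 over the field with three elements modulo its centre. -/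
theorem result {G : Type*} [Group G] [Finite G] {D : Set G} (hD : Cfsg.IsThreeTranspositionClass D) (hZ : Subgroup.center G = ⊥) (h2 : Cfsg.pCore 2 G = ⊥) (h3 : Cfsg.pCore 3 G = ⊥) (hdisc : ¬ (Cfsg.commutingGraph D).Connected) (F : Subgroup G) [F.Normal] (hF : F = Cfsg.generalizedFittingSubgroup G) : Nonempty (G ⧸ F ≃* Equiv.Perm (Fin 3)) ∧ (Nonempty (F ≃* Cfsg.Omega (ZMod 2) (Cfsg.quadFormPlus 4 (ZMod 2))) ∨ Nonempty (F ≃* Cfsg.POmega (ZMod 3) (Cfsg.quadFormPlus 4 (ZMod 3)))) := by
  have n : ¬ CC D := fun k => hdisc ((connected_iff_cRel (let ⟨d, hd, _⟩ := hD.2.1; ⟨d, hd⟩)).2 k)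
  have h := red_of_class hD (by
    by_contra! k; exact n fun a ha b hb => k a ha b hb ▸ .refl) (h2 ▸ bot_le) (h3 ▸ bot_le)
  obtain rfl : F = layer G := by
    rw [hF, Comp.genFitting_def, le_bot_iff.1
      ((fitting_le_center hD (h2 ▸ bot_le) (h3 ▸ bot_le)).trans hZ.le), sup_bot_eq]
  exact h.triality hD.2.2 hZ n

end Cfsg.Agent.S5362
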