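import Cfsg.Statements.S5363
import Cfsg.Agent.Lib.ThreeTr.Structure
import Cfsg.Agent.Lib.ZStar.Isolated

set_option autoImplicit false
open Cfsg

namespace Cfsg.Agent.S5363

open Cfsg.Lib Cfsg.Lib.ThreeTr

/-- Let D be a conjugation-invariant set of involutions of a finite group G. Then every product of two members of D has odd order or order 2 if and only if, for every a in D and every b in D different from a and commuting with a, the members of D commuting with a b are exactly those commuting with both a and b. -/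
theorem result {G : Type*} [Group G] [Finite G] {D : Set G} (hinv : ∀ d ∈ D, orderOf d = 2) (hconj : ∀ g : G, ∀ d ∈ D, g * d * g⁻¹ ∈ D) : (∀ a ∈ D, ∀ b ∈ D, Odd (orderOf (a * b)) ∨ orderOf (a * b) = 2) ↔ ∀ a ∈ D, ∀ b ∈ D, b ≠ a → Commute a b → {y : G | y ∈ D ∧ Commute (a * b) y} = {y : G | y ∈ D ∧ Commute a y} ∩ {y : G | y ∈ D ∧ Commute b y} := by
  have sq : ∀ d ∈ D, d * d = 1 := fun d hd => mul_self_of_orderOf_two (hinv d hd)
  constructor
  · intro h a ha b hb hne hab
    have key : ∀ a ∈ D, ∀ b ∈ D, b ≠ a → Commute a b → ∀ y ∈ D, Commute (a * b) y → Commute a y := by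
      intro a ha b hb hne hab y hy hc
      rcases h a ha y hy with h1 | h1
      · have c : Commute (a * b) (a * y) := ((Commute.refl a).mul_left hab.symm).mul_right hc
        have e : b * y = (a * b) * (a * y) := by
          rw [hab.eq, mul_assoc, sq_cancel_left (sq a ha)]
        have t2 := (commute_iff_mul_sq (sq a ha) (sq b hb)).1 hab
        rcases h b hb y hy with h2 | h2
        · have h3 : (b * y) ^ (orderOf (b * y) * orderOf (a * y)) = 1 := by
            rw [pow_mul, pow_orderOf_eq_one, one_pow]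
          rw [e, c.mul_pow, pow_mul', pow_mul' (a * y), pow_orderOf_eq_one, one_pow, mul_one,
            ← pow_mul', ← e] at h3
          have := eq_one_of_pow_coprime (h2.mul h1).coprime_two_left t2 h3
          rw [mul_eq_one_iff_eq_inv, inv_eq_of_sq (sq b hb)] at this
          exact absurd this.symm hne
        · have h3 := pow_orderOf_eq_one (b * y)
          rw [h2, e, c.mul_pow, t2, one_mul] at h3
          exact (commute_iff_mul_sq (sq a ha) (sq y hy)).2 h3
      · exact (commute_iff_mul_sq (sq a ha) (sq y hy)).2 (h1 ▸ pow_orderOf_eq_one _)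
    ext y
    refine ⟨fun ⟨hy, hc⟩ => ⟨⟨hy, key a ha b hb hne hab y hy hc⟩,
      ⟨hy, key b hb a ha hne.symm hab.symm y hy (hab.eq ▸ hc)⟩⟩,
      fun ⟨h1, h2⟩ => ⟨h1.1, h1.2.mul_left h2.2⟩⟩
  · intro h a ha b hb
    refine (Nat.even_or_odd (orderOf (a * b))).symm.imp_right fun ⟨m, hm⟩ => ?_
    have h0 : 0 < orderOf (a * b) := orderOf_pos _
    have h1 : (a * b) ^ (2 * m) = 1 := by rw [two_mul, ← hm, pow_orderOf_eq_one]
    have h2 : (a * b) ^ m ≠ 1 := pow_ne_one_of_lt_orderOf (by omega) (by omega)
    obtain ⟨c1, c2⟩ := ZStar.commute_half_pow (sq a ha) (sq b hb) h1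
    have h3 : a * (a * b) ^ m ∈ D := by
      rcases Nat.even_or_odd' m with ⟨k, rfl | rfl⟩
      · rw [← ZStar.conj_left_pow (sq a ha) (sq b hb)]
        simpa using hconj ((a * b) ^ k)⁻¹ a ha
      · rw [← ZStar.conj_right_pow (sq a ha) (sq b hb)]
        simpa using hconj ((a * b) ^ k)⁻¹ b hb
    have h4 := h a ha _ h3 (by simpa using h2) ((Commute.refl a).mul_right c1)
    have h5 : b ∈ {y : G | y ∈ D ∧ Commute (a * (a * (a * b) ^ m)) y} :=
      ⟨hb, by rw [sq_cancel_left (sq a ha)]; exact c2.symm⟩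
    rw [h4] at h5
    refine orderOf_eq_prime ((commute_iff_mul_sq (sq a ha) (sq b hb)).1 h5.1.2) fun h6 => h2 ?_
    rw [h6, one_pow]

end Cfsg.Agent.S5363
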