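import Cfsg.Statements.S5364
import Cfsg.Agent.Lib.ThreeTr.Structure

set_option autoImplicit false
open Cfsg

namespace Cfsg.Agent.S5364

open Cfsg.Lib Cfsg.Lib.ThreeTr

/-- Let D be a conjugation-invariant set of involutions of a finite group G and t an involution in the centre of G such that d t does not lie in D for any d in D. If the images of the members of D in G modulo the subgroup generated by t satisfy the 3-transposition order conditions (each has order 2 and any two have product of order at most 3), then so do the members of D. -/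
theorem result {G : Type*} [Group G] [Finite G] {D : Set G} (hinv : ∀ d ∈ D, orderOf d = 2) (hconj : ∀ g : G, ∀ d ∈ D, g * d * g⁻¹ ∈ D) (t : G) (ht : orderOf t = 2) (htZ : t ∈ Subgroup.center G) (hDt : ∀ d ∈ D, d * t ∉ D) [(Subgroup.zpowers t).Normal] (himg : Cfsg.IsThreeTranspositionSet ((QuotientGroup.mk : G → G ⧸ Subgroup.zpowers t) '' D)) : Cfsg.IsThreeTranspositionSet D := by
  have sq : ∀ d ∈ D, d * d = 1 := fun d hd => mul_self_of_orderOf_two (hinv d hd)
  refine ⟨hinv, fun d hd e he => ?_⟩
  have key : ∀ x : G, ((x : G ⧸ Subgroup.zpowers t) = 1) → (x * e ∈ D) → x = 1 := by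
    intro x hx hxe
    rcases eq_one_or_eq_of_mem_zpowers (mul_self_of_orderOf_two ht)
      ((QuotientGroup.eq_one_iff x).1 hx) with h | h
    · exact h
    · rw [h, ← Subgroup.mem_center_iff.1 htZ e] at hxe
      exact absurd hxe (hDt e he)
  refine (himg.2 _ ⟨d, hd, rfl⟩ _ ⟨e, he, rfl⟩).imp (fun h => key _ h ?_) (fun h => key _ h ?_)
  · have := hconj d e he
    rw [inv_eq_of_sq (sq d hd)] at this
    simpa only [pow_two, mul_assoc, sq e he, mul_one] using this
  · have := hconj (d * e) d hd
    rw [mul_inv_rev, inv_eq_of_sq (sq d hd), inv_eq_of_sq (sq e he)] at this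
    simpa only [pow_succ, pow_zero, one_mul, mul_assoc, sq e he, mul_one] using this

end Cfsg.Agent.S5364
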