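import Cfsg.Statements.S5365
import Cfsg.Agent.Lib.Fischer.Basic
import Cfsg.Agent.Lib.Fi.ExtA

set_option autoImplicit false
open Cfsg

namespace Cfsg.Agent.S5365

open Cfsg.Lib Cfsg.Lib.Fi

open Subgroup Lib.ThreeTr Lib.Fischer Equiv in
theorem loc {G : Type*} [Group G] {D : Set G} (h : FS D) {d : G} (e : closure (Dx D d) ≃* Perm (Fin 3)) :
    (∀ c, ∃ a ∈ Dx D d, a ≠ c) ∧ ∀ a ∈ Dx D d, ∀ b ∈ Dx D d, a ≠ b → ¬ Commute a b ∧
      ∀ y ∈ Dx D d, y = a ∨ y = b ∨ y = a * b * a := by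
  refine ⟨fun c => by_contra fun k => ?_, fun a ha b hb ab => ?_⟩
  · push Not at k
    have := isMulCommutative_closure (k := Dx D d) fun x hx y hy => by rw [k x hx, k y hy]
    have := congrArg e (mul_comm' (e.symm (swap 0 1)) (e.symm (swap 1 2)))
    simp only [map_mul, MulEquiv.apply_symm_apply] at this
    exact absurd this (by decide)
  have s : ∀ x (hx : x ∈ Dx D d), e ⟨x, subset_closure hx⟩ * e ⟨x, subset_closure hx⟩ = 1 ∧
      e ⟨x, subset_closure hx⟩ ≠ 1 := fun x hx => by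
    simpa [← map_mul, Subtype.ext_iff] using ⟨h.sq hx.1, TS.ne_one h.ts hx.1⟩
  have k : ∀ x : Perm (Fin 3), x * x = 1 ∧ x ≠ 1 → ∀ y, y * y = 1 ∧ y ≠ 1 → x ≠ y → x * y ≠ y * x := by decide +kernel
  have k' : ∀ x : Perm (Fin 3), x * x = 1 ∧ x ≠ 1 → ∀ y, y * y = 1 ∧ y ≠ 1 → ∀ z, z * z = 1 ∧ z ≠ 1 →
      x = y ∨ z = x ∨ z = y ∨ z = x * y * x := by decide +kernel
  exact ⟨fun c => k _ (s a ha) _ (s b hb) (by simpa using ab) (by simpa [← map_mul, Subtype.ext_iff] using c.eq),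
    fun y hy => by simpa [← map_mul, Subtype.ext_iff, ab] using k' _ (s a ha) _ (s b hb) _ (s y hy)⟩

/-- Let D be a non-empty conjugation-invariant set of involutions of a finite group G satisfying the 3-transposition order conditions, and suppose that for every d in D the members of D other than d commuting with d generate a subgroup isomorphic to the symmetric group of degree 3, and the largest normal 3-subgroup of the centralizer of d has order 3. Then the subgroup generated by D is isomorphic to the symmetric group of degree 5 or to the direct product of two symmetric groups of degree 3. -/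
theorem result {G : Type*} [Group G] [Finite G] {D : Set G} (hD : Cfsg.IsThreeTranspositionSet D) (hconj : ∀ g : G, ∀ d ∈ D, g * d * g⁻¹ ∈ D) (hne : D.Nonempty) (hloc : ∀ d ∈ D, Nonempty (↥(Subgroup.closure {y : G | y ∈ D ∧ y ≠ d ∧ Commute d y}) ≃* Equiv.Perm (Fin 3)) ∧ Nat.card (Cfsg.pCore 3 ↥(Subgroup.centralizer ({d} : Set G))) = 3) : Nonempty (↥(Subgroup.closure D) ≃* Equiv.Perm (Fin 5)) ∨ Nonempty (↥(Subgroup.closure D) ≃* Equiv.Perm (Fin 3) × Equiv.Perm (Fin 3)) := by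
  open Subgroup Lib.ThreeTr Lib.Fischer Equiv in
  have h : FS D := ⟨hD, fun a ha b hb => by simpa [TS.inv hD ha] using hconj a b hb⟩
  have l := fun d hd => (hloc d hd).1.elim (loc h)
  obtain ⟨d, hd⟩ := hne
  obtain ⟨a, ha, -⟩ := (l d hd).1 1
  obtain ⟨b, hb, ba⟩ := (l d hd).1 a
  obtain ⟨e, he, ed⟩ := (l a ha.1).1 d
  have da := Dx_symm hd ha
  have ab := ((l d hd).2 a ha b hb ba.symm).1
  have de := ((l a ha.1).2 d da e he ed.symm).1
  by_cases eb : Commute e b
  · have w : ∀ u ∈ D, ∀ v ∈ D, ∀ p q, p ≠ q → p ∈ Dx D u → q ∈ Dx D u → p ∈ Dx D v → q ∈ Dx D v → Dx D u ⊆ Dx D v :=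
      fun u hu v _ p q n h1 h2 h3 h4 y hy => by
        rcases ((l u hu).2 p h1 q h2 n).2 y hy with rfl | rfl | rfl
        exacts [h3, h4, (h.dx v).mem h3 h4]
    have be : b ∈ Dx D e := ⟨hb.1, fun k => de (k ▸ hb.2.2), eb⟩
    have w1 : WRel D a b := (w a ha.1 b hb.1 d e ed.symm da he (Dx_symm hd hb) (Dx_symm he.1 be)).antisymm
      (w b hb.1 a ha.1 d e ed.symm (Dx_symm hd hb) (Dx_symm he.1 be) da he)
    have w2 : WRel D d e := (w d hd e he.1 a b ba.symm ha hb (Dx_symm ha.1 he) be).antisymm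
      (w e he.1 d hd a b ba.symm (Dx_symm ha.1 he) be ha hb)
    by_cases all : ∀ x ∈ D, x ∈ Dx D d ∨ x ∈ Dx D a
    · obtain ⟨e1⟩ := (hloc d hd).1
      obtain ⟨e2⟩ := (hloc a ha.1).1
      have c : closure (Dx D a) ≤ centralizer (closure (Dx D d) : Set G) := by
        rw [centralizer_closure, closure_le]
        intro y hy x hx
        rcases ((l d hd).2 a ha b hb ba.symm).2 x hx with rfl | rfl | rfl
        exacts [hy.2.2, (w1.le hy).2.2, (commute_cj hy.2.2.symm (w1.le hy).2.2.symm).symm]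
      obtain ⟨f⟩ := Lib.Fi.equiv_prod (Q := closure D) c (eq_bot_iff.2 fun y hy => congrArg Subtype.val
        ((map_eq_one_iff _ e1.injective).1 ((show ∀ σ : Perm (Fin 3), (∀ τ, τ * σ = σ * τ) → σ = 1 by decide)
          (e1 ⟨y, hy.1⟩) fun τ => by
            obtain ⟨z, rfl⟩ := e1.surjective τ
            rw [← map_mul, ← map_mul]
            exact congrArg _ (Subtype.ext (c hy.2 z z.2))))) (by
        rw [← Subgroup.closure_union]
        exact congrArg _ (Set.Subset.antisymm (Set.union_subset (fun _ k => k.1) fun _ k => k.1) all))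
      exact Or.inr ⟨f.trans (e1.prodCongr e2)⟩
    push Not at all
    obtain ⟨x, hx, xd, xa⟩ := all
    have : (closure D).Normal := ⟨fun g hg k => by
      simpa [TS.inv hD] using (closure_induction (p := fun g _ => k * g * k⁻¹ ∈ closure D)
        (fun y hy => subset_closure (hconj k y hy)) (by simp) (fun y z _ _ h1 h2 => by simpa using mul_mem h1 h2)
        (fun y _ h1 => by simpa [mul_assoc] using inv_mem h1) hg)⟩
    obtain ⟨R, hN, hR, m⟩ : ∃ R : Subgroup G, R.Normal ∧ IsPGroup 3 R ∧ ∀ u ∈ D, ∀ v ∈ D, WRel D u v → u * v ∈ R :=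
      ⟨(pCore 3 (closure D)).map (closure D).subtype, inferInstance, (Lib.Core.pCore_isPGroup 3 _).map _,
        fun u hu v hv k => ⟨_, WRel.mul_mem_pCore h.group (d := ⟨u, subset_closure hu⟩) (w := ⟨v, subset_closure hv⟩) hu hv
          (FS.wRel_coe.2 k), rfl⟩⟩
    have o : ∀ r ∈ R, r * r = 1 → r = 1 := fun r hr k =>
      let ⟨n, hn⟩ := hR ⟨r, hr⟩
      eq_one_of_pow_coprime (m := 2) (n := 3 ^ n) (Nat.Coprime.pow_right n (by decide)) (sq r ▸ k) (congrArg Subtype.val hn)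
    have c : zpowers (a * b) = R ⊓ centralizer {d} := by
      refine eq_of_le_of_card_ge ((zpowers_le (G := G)).2 ⟨m a ha.1 b hb.1 w1,
        mem_centralizer_singleton_iff.2 (ha.2.2.mul_right hb.2.2).symm⟩) ?_
      rw [Nat.card_zpowers, TS.orderOf_mul_eq_three hD ha.1 hb.1 ab, ← (hloc d hd).2,
        ← Lib.Core.card_subgroupOf_of_le (inf_le_right : R ⊓ centralizer {d} ≤ _), inf_subgroupOf_right]
      exact card_le_of_le (Lib.Core.le_pCore inferInstance hR.comap_subtype)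
    have i : ∀ r ∈ R, a * d * r * (a * d)⁻¹ = r⁻¹ := fun r hr => by
      have k := wRel_of_mul_mem_odd hD o hd (hconj r d hd) (mul_conj_mem_of_normal (h.sq hd) hr)
      obtain ⟨j, hj⟩ : ∃ j : ℤ, r * d * r⁻¹ = (d * e) ^ j * d * ((d * e) ^ j)⁻¹ := by
        rcases ((l a ha.1).2 d da e he ed.symm).2 _ (Dx_symm (hconj r d hd) (k.le ha)) with k | k | k
        · exact ⟨0, by simpa using k⟩
        · exact ⟨1, by rw [zpow_one, TS.conj_conj_of_not_commute hD hd he.1 de, k]⟩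
        · exact ⟨-1, by simp [k, h.inv hd, h.inv he.1, h.braid hd he.1 de, mul_assoc, sq_cancel_left (h.sq hd)]⟩
      obtain ⟨n, hn⟩ : ((d * e) ^ j)⁻¹ * r ∈ zpowers (a * b) := c.ge ⟨R.mul_mem (R.inv_mem (R.zpow_mem (m d hd e he.1 w2) j)) hr,
        mem_centralizer_singleton_iff.2 (by rw [mul_inv_eq_iff_eq_mul] at hj; rw [mul_assoc, hj]; group)⟩
      have c1 : Commute (d * e) (a * b) := (ha.2.2.mul_right hb.2.2).mul_left (he.2.2.symm.mul_right eb)
      have c2 : a * d * (d * e) * (a * d)⁻¹ = (d * e)⁻¹ := by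
        simp [h.inv hd, h.inv he.1, h.inv ha.1, mul_assoc, sq_cancel_left (h.sq hd), ha.2.2.eq, he.2.2.symm.left_comm,
          ha.2.2.left_comm, sq_cancel_left (h.sq ha.1)]
      have c3 : a * d * (a * b) * (a * d)⁻¹ = (a * b)⁻¹ := by
        simp [h.inv hd, h.inv hb.1, h.inv ha.1, mul_assoc, sq_cancel_left (h.sq hd), hb.2.2.left_comm,
          ha.2.2.left_comm, sq_cancel_left (h.sq ha.1)]
      rw [eq_inv_mul_iff_mul_eq] at hn
      rw [← hn, ← conj_mul, ← conj_zpow, ← conj_zpow, c2, c3, inv_zpow, inv_zpow, (c1.zpow_zpow j n).eq, mul_inv_rev]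
    have i' : ∀ g, ∀ r ∈ R, g * (a * d) * g⁻¹ * r * (g * (a * d) * g⁻¹)⁻¹ = r⁻¹ := fun g r hr => by
      have := i _ (hN.conj_mem' r hr g)
      calc _ = g * (a * d * (g⁻¹ * r * g) * (a * d)⁻¹) * g⁻¹ := by group
        _ = _ := by rw [this]; group
    obtain ⟨φ, -, e1, e2, e3, -⟩ := TS.exists_hom_four hD ha.1 hx hd ha.2.1 ha.2.2.symm
      (fun k => xa ⟨hx, fun k => xd (k ▸ ha), k⟩) fun k => xd ⟨hx, fun k => xa (k ▸ da), k.symm⟩
    have v : a * d = x * (a * d) * x⁻¹ * (a * x * (a * d) * (a * x)⁻¹) := by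
      simp only [← e1, ← e2, ← e3, ← map_mul, ← map_inv]
      exact congrArg φ (by decide)
    have := i _ (m a ha.1 b hb.1 w1)
    rw [v, ← show ∀ u v r : G, u * (v * r * v⁻¹) * u⁻¹ = u * v * r * (u * v)⁻¹ from fun _ _ _ => by group,
      i' _ _ (m a ha.1 b hb.1 w1), i' _ _ (inv_mem (m a ha.1 b hb.1 w1)), inv_inv, eq_inv_iff_mul_eq_one] at this
    exact absurd ((h.inv hb.1).symm.trans (eq_inv_of_mul_eq_one_left (o _ (m a ha.1 b hb.1 w1) this)).symm) ba
  obtain ⟨φ, i, e1, -, -, -, r⟩ := TS.exists_hom_five hD hd he.1 hb.1 ha.1 de eb (fun k => ab k.symm) hb.2.2 ha.2.2 he.2.2.symm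
  have m : ∀ i j : Fin 5, i ≠ j → φ (swap i j) ∈ D := fun i j n => by
    obtain ⟨g, k⟩ := isConj_iff.1 (Perm.isConj_swap (show (0 : Fin 5) ≠ 1 by decide) n)
    simpa [← k, e1] using hconj (φ g) d hd
  have c : ∀ σ τ, σ * τ = τ * σ → Commute (φ σ) (φ τ) := fun σ τ k => (show Commute σ τ from k).map φ
  refine Or.inl ⟨(MulEquiv.subgroupCongr (le_antisymm ((closure_le _).2 fun x hx => by_contra fun k => ?_)
    (r.le.trans (closure_mono (by simp [Set.insert_subset_iff, hd, he.1, hb.1, ha.1]))))).trans (MonoidHom.ofInjective i).symm⟩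
  have n : ∀ i j : Fin 5, i ≠ j → ¬ Commute x (φ (swap i j)) := fun p q n k' => by
    obtain ⟨s, t, u, a1, a2, a3, a4, a5, a6, a7⟩ := (show ∀ p q : Fin 5, p ≠ q → ∃ s t u : Fin 5, s ≠ t ∧ t ≠ u ∧
      swap s t ≠ swap p q ∧ swap t u ≠ swap p q ∧ swap s t ≠ swap t u ∧ swap p q * swap s t = swap s t * swap p q ∧
      swap p q * swap t u = swap t u * swap p q by decide +kernel) p q n
    rcases ((l _ (m p q n)).2 _ ⟨m s t a1, i.ne a3, c _ _ a6⟩ _ ⟨m t u a2, i.ne a4, c _ _ a7⟩ (i.ne a5)).2 x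
      ⟨hx, fun e => k ⟨_, e.symm⟩, k'.symm⟩ with e | e | e <;> exact k ⟨_, by simpa only [← map_mul] using e.symm⟩
  have s : ∀ p q s t : Fin 5, p ≠ q → s ≠ t → swap p q ≠ swap s t → swap p q * swap s t = swap s t * swap p q →
      φ (swap p q * swap s t) * x * (φ (swap p q * swap s t))⁻¹ ∈ Dx D x := fun p q s t a1 a2 a3 a4 => by
    rw [show _ * x * _ = φ (swap p q) * (φ (swap s t) * x * φ (swap s t)) * φ (swap p q) by
      simp [← map_inv, mul_assoc]]
    exact ⟨h.mem (m p q a1) (h.mem (m s t a2) hx), h.string_ne (m p q a1) (m s t a2) hx (i.ne a3) (c _ _ a4) (n p q a1),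
      h.string_commute (m p q a1) (m s t a2) hx (c _ _ a4) (n p q a1) (n s t a2)⟩
  have s3 := s 0 3 1 2 (by decide) (by decide) (by decide) (by decide)
  have v : φ (swap 0 2 * swap 1 3) = φ (swap 0 1 * swap 2 3) * φ (swap 0 3 * swap 1 2) :=
    (congrArg φ (by decide)).trans (map_mul _ _ _)
  refine ((l x hx).2 _ (s 0 1 2 3 (by decide) (by decide) (by decide) (by decide)) _
    (s 0 2 1 3 (by decide) (by decide) (by decide) (by decide)) (fun k => s3.2.1 ?_)).1 ?_
  · rw [v] at k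
    exact conj_injective _ ((by group : _ = _).trans k.symm)
  · rw [v]
    convert (commute_conj_iff (φ (swap 0 1 * swap 2 3)) _ _).2 s3.2.2 using 1
    group

end Cfsg.Agent.S5365
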