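import Cfsg.Statements.S5368
import Cfsg.Agent.Lib.Fischer.Main
-- import your own Cfsg.Agent.* helpers here

set_option autoImplicit false
open scoped MatrixGroups
open Cfsg

namespace Cfsg.Agent.S5368
open Cfsg.Lib Cfsg.Lib.ThreeTr Subgroup
open Cfsg.Lib.Fischer

/-- Fischer's Theorem on 3-transposition groups. Let D be a conjugacy class of 3-transpositions generating the finite group G, and suppose the centre of G is trivial and the commutator subgroup of G is simple (possibly of prime order). Then one of the following holds: (1) G is isomorphic to a symmetric group with D going to the transpositions; (2) G is isomorphic to a symplectic group over the field with two elements with D going to the transvections (elements g with g − 1 of rank one); (3) G is isomorphic to a projective special unitary group over the field with four elements with D going to the images of the unitary transvections; (4) G is isomorphic to the full isometry group of a hyperbolic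 or elliptic quadratic form over the field with two elements with D going to the orthogonal transvections; (5) G is isomorphic to the subgroup of the isometry group of a non-degenerate quadratic form over the field with three elements generated by the reflections in vectors of a fixed non-zero norm, taken modulo its centre, with D going to the images of those reflections; (6) G with D is of type M(22), M(23) or M(24). -/
theorem result {G : Type*} [Group G] [Finite G] {D : Set G} (hD : Cfsg.IsThreeTranspositionClass D) (hZ : Subgroup.center G = ⊥) (hsimple : IsSimpleGroup (commutator G)) : (∃ n : ℕ, ∃ e : G ≃* Equiv.Perm (Fin n), e '' D = {σ : Equiv.Perm (Fin n) | σ.IsSwap}) ∨ (∃ m : ℕ, ∃ e : G ≃* Matrix.symplecticGroup (Fin m) (ZMod 2), e '' D = {g : Matrix.symplecticGroup (Fin m) (ZMod 2) | ((g : Matrix (Fin m ⊕ Fin m) (Fin m ⊕ Fin m) (ZMod 2)) - 1).rank = 1}) ∨ (∃ (n : ℕ) (F : Type) (_ : Field F) (_ : Fintype F), Fintype.card F = 4 ∧ ∃ e : G ≃* Cfsg.PSU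 n F 2, e '' D = (QuotientGroup.mk : ↥(Cfsg.SU n F 2) → Cfsg.PSU n F 2) '' {g : ↥(Cfsg.SU n F 2) | (((g : Matrix.SpecialLinearGroup (Fin n) F) : Matrix (Fin n) (Fin n) F) - 1).rank = 1}) ∨ ((∃ m : ℕ, ∃ e : G ≃* ↥(Cfsg.isometryGroup (ZMod 2) (Cfsg.quadFormPlus m (ZMod 2))), e '' D = {g : ↥(Cfsg.isometryGroup (ZMod 2) (Cfsg.quadFormPlus m (ZMod 2))) | (((g : GL (Fin m ⊕ Fin m) (ZMod 2)) : Matrix (Fin m ⊕ Fin m) (Fin m ⊕ Fin m) (ZMod 2)) - 1).rank = 1}) ∨ (∃ m : ℕ, ∃ e : G ≃* ↥(Cfsg.isometryGroup (ZMod 2) (Cfsg.quadFormMinus m (ZMod 2) 1 1)), e '' D = {g : ↥(Cfsg.isometryGroup (ZMod 2) (Cfsg.quadFormMinus m (ZMod 2) 1 1)) | (((g : GL ((Fin m ⊕ Fin m) ⊕ Fin 2) (ZMod 2)) : Matrix ((Fin m ⊕ Fin m) ⊕ Fin 2) ((Fin m ⊕ Fin m) ⊕ Fin 2) (ZMod 2)) - 1).rank = 1})) ∨ (∃ n : ℕ, ∃ Q : QuadraticForm (ZMod 3) (Fin n → ZMod 3), (QuadraticMap.polarBilin Q).Nondegenerate ∧ ∃ c : ZMod 3, c ≠ 0 ∧ ∃ e : G ≃* ↥(Cfsg.reflectionSubgroup (⇑Q) c) ⧸ Subgroup.center ↥(Cfsg.reflectionSubgroup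 (⇑Q) c), e '' D = (QuotientGroup.mk : ↥(Cfsg.reflectionSubgroup (⇑Q) c) → _) '' {g : ↥(Cfsg.reflectionSubgroup (⇑Q) c) | (g : ↥(Cfsg.isometryGroup (ZMod 3) (⇑Q))) ∈ Cfsg.reflectionsOfNorm (⇑Q) c}) ∨ (Cfsg.IsOfTypeM22 G D ∨ Cfsg.IsOfTypeM23 G D ∨ Cfsg.IsOfTypeM24 G D) := by
  have hX := hD.2.2
  rcases prim_of_simple hD hZ hsimple with k | h
  · exact .inl ⟨3, k⟩
  by_cases ht : Thick D
  · rcases h.classify_thick ht with ⟨-, m, -, k⟩ | ⟨-, n, hn, k⟩
    · exact .inr (.inl ⟨m, k.out hX hZ⟩)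
    · exact .inr (.inr (.inl ⟨n, F4, inferInstance, inferInstance, card_F4, k.out (by omega) hX hZ⟩))
  rcases h.classify_thin ht with ⟨-, -, n, hn, k⟩ | ⟨-, ⟨-, n, hn, k⟩ | ⟨n, hn, k⟩ | k | k | k⟩
  · exact .inl ⟨n, k.out (by omega) hX hZ⟩
  · exact .inr (.inr (.inr (.inl ((k.out_two hn hX hZ).imp (fun ⟨m, _, e⟩ => ⟨m, e⟩)
      fun ⟨m, _, e⟩ => ⟨m, e⟩))))
  · exact .inr (.inr (.inr (.inr (.inl ⟨n, k.out_three hX hZ⟩))))
  · exact .inr (.inr (.inr (.inr (.inr (.inl (k.out hZ))))))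
  · exact .inr (.inr (.inr (.inr (.inr (.inr (.inl (k.out hZ)))))))
  · exact .inr (.inr (.inr (.inr (.inr (.inr (.inr (k.out hZ)))))))

end Cfsg.Agent.S5368
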