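import Cfsg.Statements.S5369
import Cfsg.Agent.Lib.Fischer.Main
-- import your own Cfsg.Agent.* helpers here

set_option autoImplicit false
open scoped MatrixGroups
open Cfsg

namespace Cfsg.Agent.S5369
open Cfsg.Lib Cfsg.Lib.ThreeTr Subgroup
open Cfsg.Lib.Fischer

/-- Let D be a conjugation-invariant generating set of 3-transpositions of the finite group G on which G acts primitively by conjugation, with trivial centre; let d be a member of D commuting with some other member of D (width at least 2), and let H be the subgroup generated by the members of D other than d commuting with d; suppose the largest normal 3-subgroup and the largest normal 2-subgroup of H are central in H. Then one of the following holds: G is isomorphic to a symmetric group of degree at least 7 with D going to the transpositions; G is isomorphic to the full isometry group of a hyperbolic or elliptic quadratic form in dimension at least 6 over the field with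 two elements with D going to the orthogonal transvections; G is isomorphic to the reflection group of a non-degenerate quadratic form in dimension at least 5 over the field with three elements for one non-zero norm, modulo its centre, with D going to the images of those reflections; or G with D is of type M(22), M(23) or M(24). -/
theorem result {G : Type*} [Group G] [Finite G] {D : Set G} (hD : Cfsg.IsThreeTranspositionGroup D) (hprim : Cfsg.IsPrimitiveUnderConj D) (hZ : Subgroup.center G = ⊥) (d : G) (hd : d ∈ D) (hw : ∃ b ∈ D, b ≠ d ∧ Commute d b) (h3 : Cfsg.pCore 3 ↥(Subgroup.closure {y : G | y ∈ D ∧ y ≠ d ∧ Commute d y}) ≤ Subgroup.center ↥(Subgroup.closure {y : G | y ∈ D ∧ y ≠ d ∧ Commute d y})) (h2 : Cfsg.pCore 2 ↥(Subgroup.closure {y : G | y ∈ D ∧ y ≠ d ∧ Commute d y}) ≤ Subgroup.center ↥(Subgroup.closure {y : G | y ∈ D ∧ y ≠ d ∧ Commute d y})) : (∃ n : ℕ, 7 ≤ n ∧ ∃ e : G ≃* Equiv.Perm (Fin n), e '' D = {σ : Equiv.Perm (Fin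 n) | σ.IsSwap}) ∨ ((∃ m : ℕ, 3 ≤ m ∧ ∃ e : G ≃* ↥(Cfsg.isometryGroup (ZMod 2) (Cfsg.quadFormPlus m (ZMod 2))), e '' D = {g : ↥(Cfsg.isometryGroup (ZMod 2) (Cfsg.quadFormPlus m (ZMod 2))) | (((g : GL (Fin m ⊕ Fin m) (ZMod 2)) : Matrix (Fin m ⊕ Fin m) (Fin m ⊕ Fin m) (ZMod 2)) - 1).rank = 1}) ∨ (∃ m : ℕ, 2 ≤ m ∧ ∃ e : G ≃* ↥(Cfsg.isometryGroup (ZMod 2) (Cfsg.quadFormMinus m (ZMod 2) 1 1)), e '' D = {g : ↥(Cfsg.isometryGroup (ZMod 2) (Cfsg.quadFormMinus m (ZMod 2) 1 1)) | (((g : GL ((Fin m ⊕ Fin m) ⊕ Fin 2) (ZMod 2)) : Matrix ((Fin m ⊕ Fin m) ⊕ Fin 2) ((Fin m ⊕ Fin m) ⊕ Fin 2) (ZMod 2)) - 1).rank = 1})) ∨ (∃ n : ℕ, 5 ≤ n ∧ ∃ Q : QuadraticForm (ZMod 3) (Fin n → ZMod 3), (QuadraticMap.polarBilin Q).Nondegenerate ∧ ∃ c : ZMod 3, c ≠ 0 ∧ ∃ e : G ≃* ↥(Cfsg.reflectionSubgroup (⇑Q) c) ⧸ Subgroup.center ↥(Cfsg.reflectionSubgroup (⇑Q) c), e '' D = (QuotientGroup.mk : ↥(Cfsg.reflectionSubgroup (⇑Q) c) → _) '' {g : ↥(Cfsg.reflectionSubgroup (⇑Q)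 c) | (g : ↥(Cfsg.isometryGroup (ZMod 3) (⇑Q))) ∈ Cfsg.reflectionsOfNorm (⇑Q) c}) ∨ (Cfsg.IsOfTypeM22 G D ∨ Cfsg.IsOfTypeM23 G D ∨ Cfsg.IsOfTypeM24 G D) := by
  have h := prim_of_primitive hD hprim (let ⟨b, hb, e1, e2⟩ := hw; ⟨d, hd, b, hb, e1.symm, e2⟩)
  obtain ⟨ht, hl⟩ := h.lp_of_core hd h2 h3
  rcases h.classify_thin ht with ⟨-, -, n, hn, k⟩ | ⟨-, ⟨-, n, hn, k⟩ | ⟨n, hn, k⟩ | k | k | k⟩
  · exact .inl ⟨n, k.seven_le h hl, k.out (by omega) hD.2.2 hZ⟩
  · exact .inr (.inl (k.out_two hn hD.2.2 hZ))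
  · exact .inr (.inr (.inl ⟨n, hn, k.out_three hD.2.2 hZ⟩))
  · exact .inr (.inr (.inr (.inl (k.out hZ))))
  · exact .inr (.inr (.inr (.inr (.inl (k.out hZ)))))
  · exact .inr (.inr (.inr (.inr (.inr (k.out hZ)))))

end Cfsg.Agent.S5369
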