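import Cfsg.Statements.S5387
import Cfsg.Agent.S2088

set_option autoImplicit false
open Cfsg

namespace Cfsg.Agent.S5387

open Subgroup Lib.Schur

theorem iso_of {P L G : Type*} [Group P] [Group L] [Group G] [Finite P] [Finite L] [Group.IsPerfect L]
    {σ : L →* G} {p : P →* L} (hp : Function.Surjective p)
    (h : Nat.card (hopf (σ.comp p)) ≤ Nat.card σ.ker) : Nonempty (commutator P ≃* L) := by
  have h1 : Function.Surjective (p.comp (commutator P).subtype) := by
    rw [← MonoidHom.range_eq_top, MonoidHom.range_comp, range_subtype, map_commutator_eq,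
      MonoidHom.range_eq_top.2 hp]
    exact Group.IsPerfect.commutator_eq_top
  refine ⟨MulEquiv.ofBijective _ (h1.bijective_of_nat_card_le ?_)⟩
  rw [← σ.ker.card_mul_index, ← (σ.comp (p.comp (commutator P).subtype)).ker.card_mul_index, index_ker,
    index_ker, MonoidHom.range_comp, MonoidHom.range_eq_top.2 h1, ← MonoidHom.range_eq_map]
  refine Nat.mul_le_mul_right _ (le_trans (Nat.card_le_card_of_injective
    (fun x => (⟨x.1.1, x.2, x.1.2⟩ : hopf (σ.comp p))) fun x y e => ?_) h)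
  exact Subtype.ext (Subtype.ext (Subtype.mk.inj e))

/-- Up to isomorphism there is at most one quasisimple group whose centre is elementary abelian of order 4 and whose central quotient is isomorphic to the projective special linear group of dimension 3 over the field with four elements: any two such groups are isomorphic. -/
theorem result {L₁ L₂ : Type*} [Group L₁] [Finite L₁] [Group L₂] [Finite L₂] (F : Type) [Field F] [Fintype F] (hF : Fintype.card F = 4) (h₁ : Cfsg.IsQuasisimple L₁) (h₂ : Cfsg.IsQuasisimple L₂) (hc₁ : Nat.card (Subgroup.center L₁) = 4) (hc₂ : Nat.card (Subgroup.center L₂) = 4) (he₁ : ∀ x ∈ Subgroup.center L₁, x * x = 1) (he₂ : ∀ x ∈ Subgroup.center L₂, x * x = 1) (e₁ : L₁ ⧸ Subgroup.center L₁ ≃* Matrix.ProjectiveSpecialLinearGroup (Fin 3) F) (e₂ : L₂ ⧸ Subgroup.center L₂ ≃* Matrix.ProjectiveSpecialLinearGroup (Fin 3) F) : Nonempty (L₁ ≃* L₂) := by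
  have := h₁.1
  have := h₂.1
  let σ₁ := e₁.toMonoidHom.comp (QuotientGroup.mk' _)
  let σ₂ := e₂.toMonoidHom.comp (QuotientGroup.mk' _)
  have s₁ : Function.Surjective σ₁ := e₁.surjective.comp (QuotientGroup.mk'_surjective _)
  have s₂ : Function.Surjective σ₂ := e₂.surjective.comp (QuotientGroup.mk'_surjective _)
  have k₁ : σ₁.ker = center L₁ := (MonoidHom.ker_comp_of_injective _ _ e₁.injective).trans
    (QuotientGroup.ker_mk' _)
  have k₂ : σ₂.ker = center L₂ := (MonoidHom.ker_comp_of_injective _ _ e₂.injective).trans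
    (QuotientGroup.ker_mk' _)
  let P := (σ₁.comp (MonoidHom.fst L₁ L₂)).eqLocus (σ₂.comp (MonoidHom.snd L₁ L₂))
  let p₁ := (MonoidHom.fst L₁ L₂).comp P.subtype
  let p₂ := (MonoidHom.snd L₁ L₂).comp P.subtype
  have t₁ : Function.Surjective p₁ := fun x => (s₂ (σ₁ x)).elim fun y e => ⟨⟨(x, y), e.symm⟩, rfl⟩
  have t₂ : Function.Surjective p₂ := fun y => (s₁ (σ₂ y)).elim fun x e => ⟨⟨(x, y), e⟩, rfl⟩
  have e : σ₁.comp p₁ = σ₂.comp p₂ := MonoidHom.ext fun x => x.2
  have hk : ∀ x ∈ (σ₁.comp p₁).ker, x.1.1 ∈ center L₁ ∧ x.1.2 ∈ center L₂ := fun x hx =>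
    ⟨k₁.le hx, k₂.le (show x ∈ (σ₂.comp p₂).ker from e ▸ hx)⟩
  obtain ⟨f, hf⟩ := exists_surjective_hopf (S2088.result hF) (ξ := σ₁.comp p₁) (s₁.comp t₁) fun x hx =>
    mem_center_iff.2 fun y => Subtype.ext (Prod.ext (mem_center_iff.1 (hk x hx).1 _)
      (mem_center_iff.1 (hk x hx).2 _))
  have h4 : Nat.card (hopf (σ₁.comp p₁)) ≤ 4 := by
    refine (Nat.card_le_card_of_surjective (fun q : Fin 2 × Fin 2 =>
      f (Multiplicative.ofAdd (0, q.1.1, q.2.1))) fun x => ?_).trans (by simp)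
    obtain ⟨a, rfl⟩ := hf x
    obtain ⟨b, q, rfl⟩ := (by decide : ∀ a : Multiplicative (ZMod 3 × ZMod 4 × ZMod 4), ∃ b,
      ∃ q : Fin 2 × Fin 2, a = b * b * Multiplicative.ofAdd (0, (q.1.1 : ZMod 4), (q.2.1 : ZMod 4))) a
    refine ⟨q, ?_⟩
    rw [map_mul, map_mul, show f b * f b = 1 from Subtype.ext (Subtype.ext (Prod.ext
      (he₁ _ (hk _ (f b).2.1).1) (he₂ _ (hk _ (f b).2.1).2))), one_mul]
  obtain ⟨a⟩ := iso_of t₁ (by rwa [k₁, hc₁])
  obtain ⟨b⟩ := iso_of t₂ (by rwa [k₂, hc₂, ← e])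
  exact ⟨a.symm.trans b⟩

end Cfsg.Agent.S5387
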