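import Cfsg.Statements.S5392
import Cfsg.Agent.Lib.Leech.Co1
import Cfsg.Agent.S5593
import Cfsg.Agent.S1567

set_option autoImplicit false
open Cfsg

namespace Cfsg.Agent.S5392

open Cfsg.Lib.Leech Cfsg.Spor

/-- The Leech lattice modulo twice itself is a faithful irreducible module for the first Conway group: an automorphism of the rank-24 lattice built from the length-24 code that moves every lattice vector only by twice a lattice vector lies in the centre of the automorphism group (the centre consists of ±1, which act trivially there, so the kernel is exactly the centre), and an additive subgroup lying between twice the lattice and the lattice that is invariant under all lattice automorphisms is one of the two. -/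
theorem result : (∀ g : ↥Cfsg.Co0, (∀ v : ↥Cfsg.leechLattice, ∃ w : ↥Cfsg.leechLattice, ((g • v : ↥Cfsg.leechLattice) : Cfsg.GolayPt → ℤ) - (v : Cfsg.GolayPt → ℤ) = 2 • (w : Cfsg.GolayPt → ℤ)) → g ∈ Subgroup.center ↥Cfsg.Co0) ∧ ∀ M : AddSubgroup (Cfsg.GolayPt → ℤ), (∀ v ∈ Cfsg.leechLattice, (2 : ℤ) • v ∈ M) → M ≤ Cfsg.leechLattice → (∀ g : ↥Cfsg.Co0, ∀ v : ↥Cfsg.leechLattice, (v : Cfsg.GolayPt → ℤ) ∈ M → ((g • v : ↥Cfsg.leechLattice) : Cfsg.GolayPt → ℤ) ∈ M) → (∀ x ∈ M, ∃ w ∈ Cfsg.leechLattice, x = (2 : ℤ) • w) ∨ M = Cfsg.leechLattice := by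
  refine ⟨fun g hg => mem_center_iff_code.2 fun x => ?_, fun M h2 hle hinv => ?_⟩
  · obtain ⟨w, hw⟩ := hg x
    exact code_eq_iff.2 ⟨w, w.2, hw⟩
  have hc : ∀ x y : Cfsg.leechLattice, code x = code y → (y : Cfsg.GolayPt → ℤ) ∈ M → (x : Cfsg.GolayPt → ℤ) ∈ M :=
    fun x y h hy => by
      obtain ⟨z, hz, e⟩ := code_eq_iff.1 h
      rw [sub_eq_iff_eq_add.1 e]
      exact M.add_mem (by rw [two_nsmul, ← two_smul ℤ]; exact h2 z hz) hy
  have k2 : ∀ y : Cfsg.leechLattice, nm(y) = 32 → (y : Cfsg.GolayPt → ℤ) ∈ M → M = Cfsg.leechLattice := by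
    intro y hy hM
    refine le_antisymm hle ?_
    rw [← Cfsg.Agent.S1567.result, AddSubgroup.closure_le]
    rintro x ⟨hx, hx'⟩
    obtain ⟨g, rfl⟩ := exists_smul_U hy
    obtain ⟨h, e⟩ := exists_smul_U (x := ⟨x, hx⟩) hx'
    have := hinv (h * g⁻¹) _ hM
    rwa [mul_smul, inv_smul_smul, e] at this
  by_cases h : ∀ x ∈ M, ∃ w ∈ Cfsg.leechLattice, x = (2 : ℤ) • w
  · exact Or.inl h
  right
  push Not at h
  obtain ⟨x, hx, hx'⟩ := h
  obtain ⟨y, hy, e⟩ := exists_short ⟨x, hle hx⟩
  have hyM := hc _ _ e hx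
  have hy0 : y ≠ 0 := by
    rintro rfl
    obtain ⟨z, hz, e'⟩ := code_eq_iff.1 e.symm
    exact hx' z hz (by simpa [two_smul, two_nsmul] using e')
  have a1 := sixteen_dvd_sqNorm y.2
  have a2 := min_sqNorm y.2 fun h => hy0 (Subtype.ext h)
  obtain a | a | a : nm(y) = 32 ∨ nm(y) = 48 ∨ nm(y) = 64 := by omega
  · exact k2 y a hyM
  · have k3 : ∀ z : Cfsg.leechLattice, nm(z) = 48 → (z : Cfsg.GolayPt → ℤ) ∈ M := fun z hz => by
      obtain ⟨g, rfl⟩ := exists_smul_V a
      obtain ⟨h, rfl⟩ := exists_smul_V hz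
      have := hinv (h * g⁻¹) _ hyM
      rwa [mul_smul, inv_smul_smul] at this
    refine k2 leechU' nm_leechU' ?_
    have : leechU' = -(leechV + vW') := by rw [vW']; abel
    rw [this]
    exact M.neg_mem (M.add_mem (k3 _ nm_leechV) (k3 _ nm_vW'))
  · have k4 : ∀ z : Cfsg.leechLattice, nm(z) = 64 → (z : Cfsg.GolayPt → ℤ) ∈ M := fun z hz => by
      obtain ⟨g, hg⟩ := Cfsg.Agent.S5593.result y z a hz
      exact hc _ _ (code_eq_iff.2 hg).symm (hinv g y hyM)
    have la : isL 0x444040404040404040404040404040404040404044444440 = true := by decide +kernel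
    have lb : isL 0x40404040404040404040404040404040404040404444443c = true := by decide +kernel
    refine k2 (lv 0x444040404040404040404040404040404040404044444440 -
      lv 0x40404040404040404040404040404040404040404444443c) ?_ (M.sub_mem (k4 _ ?_) (k4 _ ?_))
    · rw [AddSubgroup.coe_sub, coe_lv la, coe_lv lb]; decide +kernel
    · rw [coe_lv la]; decide +kernel
    · rw [coe_lv lb]; decide +kernel

end Cfsg.Agent.S5392
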