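import Cfsg.Statements.S5393
import Cfsg.Agent.Lib.Mathieu.Move

set_option autoImplicit false
open Cfsg

namespace Cfsg.Agent.S5393

open Cfsg.Lib.Golay Cfsg.Lib.Mathieu Finset

theorem of_le {W : Submodule (ZMod 2) (GolayPt → ZMod 2)} (hW : ∀ σ ∈ M24, ∀ w ∈ W, (fun p => w (σ.symm p)) ∈ W)
    (h : W ≤ golayCode) : W ≤ Submodule.span (ZMod 2) {fun _ => (1 : ZMod 2)} ∨ W = golayCode := by
  refine or_iff_not_imp_left.2 fun n => h.antisymm fun w hw => ?_
  obtain ⟨v, h1, h2⟩ := SetLike.not_le_iff_exists.1 n
  rw [← word_support₂ v] at h1 h2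
  rw [← word_support₂ w] at hw ⊢
  exact (invFam_of_submodule hW).of_cw (mem_CW.2 (h h1)) (fun e => h2 (by rw [e, word_empty]; exact zero_mem _))
    (fun e => h2 (by rw [e, word_univ]; exact Submodule.subset_span rfl)) h1 (mem_CW.2 hw)

/-- The length-24 code built from the squares modulo 23 contains the all-ones word, and the code modulo the all-ones word is an irreducible module over the field with two elements for the code's automorphism group: a subspace of the code that contains the all-ones word and is invariant under every coordinate permutation preserving the code is either the span of the all-ones word or the whole code. -/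
theorem result : (fun _ : Cfsg.GolayPt => (1 : ZMod 2)) ∈ Cfsg.golayCode ∧ ∀ W : Submodule (ZMod 2) (Cfsg.GolayPt → ZMod 2), (fun _ => (1 : ZMod 2)) ∈ W → W ≤ Cfsg.golayCode → (∀ σ ∈ Cfsg.M24, ∀ w ∈ W, (fun p => w (σ.symm p)) ∈ W) → W = Submodule.span (ZMod 2) {fun _ => (1 : ZMod 2)} ∨ W = Cfsg.golayCode := by
  exact ⟨Submodule.subset_span (.inr rfl), fun W h1 h2 h3 =>
    (of_le h3 h2).imp_left fun h => h.antisymm ((Submodule.span_singleton_le_iff_mem _ _).2 h1)⟩

end Cfsg.Agent.S5393
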