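import Cfsg.Statements.S5394
import Cfsg.Agent.Lib.Mathieu.Classes

set_option autoImplicit false
open Cfsg

namespace Cfsg.Agent.S5394

open Cfsg.Lib Cfsg.Lib.Golay Cfsg.Lib.Calc Cfsg.Lib.Grp Cfsg.Lib.Mathieu MulAction
open scoped Pointwise
set_option maxHeartbeats 400000
set_option maxRecDepth 100000

theorem h08 {g : P24} (hg : g ∈ M24) (h : orderOf g = 2) : (fixP g).card = 8 ∨ ∀ p, g p ≠ p := by
  have := card_fixP_mem (l := [8, 0]) (by decide +kernel) hg h
  rw [← fixP_card_eq_zero]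
  simpa using this

theorem hA : R (mk r2A) r2A := mk_rep (by decide +kernel)
theorem hB : R (mk r2B) r2B := mk_rep (by decide +kernel)
theorem oA : fixP (mk r2A) ∈ octads := by rw [Rp.fixP_eq hA]; exact mem_octads_of_isOct (by decide +kernel)

/-- The automorphism group of the length-24 code built from the squares modulo 23 has exactly two conjugacy classes of involutions: an involution either fixes exactly the eight points of an octad or has no fixed points, both kinds occur, and any two involutions of the same kind are conjugate in the group. -/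
theorem result : (∀ g ∈ Cfsg.M24, orderOf g = 2 → (Finset.univ.filter fun p => g p = p) ∈ Cfsg.octads ∨ ∀ p, g p ≠ p) ∧ (∃ g ∈ Cfsg.M24, orderOf g = 2 ∧ (Finset.univ.filter fun p => g p = p) ∈ Cfsg.octads) ∧ (∃ g ∈ Cfsg.M24, orderOf g = 2 ∧ ∀ p, g p ≠ p) ∧ ∀ g ∈ Cfsg.M24, ∀ h ∈ Cfsg.M24, orderOf g = 2 → orderOf h = 2 → ((∀ p, g p ≠ p) ↔ (∀ p, h p ≠ p)) → ∃ k ∈ Cfsg.M24, k * g * k⁻¹ = h := by
  refine ⟨fun g hg h => (h08 hg h).imp_left fun h8 => ?_,
    ⟨mk r2A, (mk r2A).2, by rw [Rp.orderOf_eq hA] <;> decide +kernel, oA⟩,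
    ⟨mk r2B, (mk r2B).2, by rw [Rp.orderOf_eq hB] <;> decide +kernel,
      fixP_card_eq_zero.1 (by rw [Rp.card_fixP hB]; decide +kernel)⟩, fun g hg g' hg' h h' e => ?_⟩
  · obtain ⟨-, k, rfl⟩ := conj_2A hg h h8
    change fixP _ ∈ _
    rw [fixP_conj]; exact (image_mem_octads k.2).2 oA
  · have key : ∀ {x : P24}, (∃ k : M24, (k : P24) * x * (k : P24)⁻¹ = g) → (∃ k : M24, (k : P24) * x * (k : P24)⁻¹ = g') →
        ∃ k ∈ M24, k * g * k⁻¹ = g' := by
      rintro x ⟨k, rfl⟩ ⟨k', rfl⟩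
      exact ⟨k' * (k : P24)⁻¹, M24.mul_mem k'.2 (M24.inv_mem k.2), by group⟩
    by_cases h0 : ∀ p, g p ≠ p
    · exact key (conj_2B hg h (fixP_card_eq_zero.2 h0)).2 (conj_2B hg' h' (fixP_card_eq_zero.2 (e.1 h0))).2
    · exact key (conj_2A hg h ((h08 hg h).resolve_right h0)).2
        (conj_2A hg' h' ((h08 hg' h').resolve_right fun a => h0 (e.2 a))).2

end Cfsg.Agent.S5394
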