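import Cfsg.Statements.S5396
import Cfsg.Agent.Lib.Extraspecial.Two

set_option autoImplicit false
open Cfsg Cfsg.Lib.Orth

namespace Cfsg.Agent.S5396

/-- For every n ≥ 1 there exist finite extraspecial 2-groups of order 2^(2n+1) whose 2-rank (the largest rank of an elementary abelian subgroup) is n, and ones whose 2-rank is n + 1 (so for each such order there are two non-isomorphic extraspecial 2-groups, told apart by their 2-rank). -/
theorem result (n : ℕ) (hn : 1 ≤ n) : ∀ r ∈ ({n, n + 1} : Set ℕ), ∃ (E : Type) (_ : Group E) (_ : Finite E), Cfsg.IsExtraspecial 2 E ∧ Nat.card E = 2 ^ (2 * n + 1) ∧ sSup {k : ℕ | ∃ A : Subgroup E, Cfsg.IsElementaryAbelian 2 A ∧ Nat.card A = 2 ^ k} = r := by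
  have key : ∀ {V : Type} [AddCommGroup V] [Module (ZMod 2) V] [Finite V]
      {q : QuadraticForm (ZMod 2) V}, ND q → Module.finrank (ZMod 2) V = 2 * n →
      ∃ (E : Type) (_ : Group E) (_ : Finite E), Cfsg.IsExtraspecial 2 E ∧
        Nat.card E = 2 ^ (2 * n + 1) ∧ sSup {k : ℕ | ∃ A : Subgroup E,
          Cfsg.IsElementaryAbelian 2 A ∧ Nat.card A = 2 ^ k} = wittIndex q + 1 := by
    intro V _ _ _ q hq hV
    have : Nontrivial V := Module.nontrivial_of_finrank_pos (R := ZMod 2) (by omega)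
    obtain ⟨E, _, _, D, hE, rfl⟩ := Cfsg.Lib.ES.exists_isExtraspecial_Q_eq hq
    have := D.moduleFinite
    refine ⟨E, inferInstance, inferInstance, hE, by rw [D.card_eq_pow, hV], ?_⟩
    refine IsGreatest.csSup_eq ⟨D.exists_elemAb_card_iff.2 le_rfl, fun k hk => ?_⟩
    rcases k with _ | k
    · omega
    · have := D.exists_elemAb_card_iff.1 hk
      omega
  rintro r (rfl | rfl)
  · have := key (nd_qMinus (r - 1) Cfsg.Lib.ES.aniso_zmod_two) (by simp; omega)
    rwa [wittIndex_qMinus _ Cfsg.Lib.ES.aniso_zmod_two, Nat.sub_add_cancel hn] at this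
  · have := key (nd_qPlus (F := ZMod 2) n) (by simp; omega)
    rwa [wittIndex_qPlus] at this

end Cfsg.Agent.S5396
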