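import Cfsg.Statements.S5407
import Cfsg.Agent.Lib.Monster.Basic

set_option autoImplicit false
open Cfsg Cfsg.Lib Cfsg.Lib.Mon Cfsg.Lib.ES Subgroup

namespace Cfsg.Agent.S5407

/-- Let G be a finite group of Monster type at the involution z with Q the extraspecial normal subgroup of order 2^25 of C = C_G(z) (so C/Q is identified with the first Conway group with Q modulo its centre the Leech lattice modulo 2, and z is not weakly closed in Q). Then under any such identification ψ of the Leech lattice modulo 2 with Q modulo its centre, an element x of Q is a conjugate of z other than z exactly when x modulo the centre is the image under ψ of a lattice vector of squared length 64 in the coordinates used here, that is, of norm 8 in the customary normalisation in which the minimal vectors have norm 4 (twice the minimal norm). -/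
theorem result {G : Type*} [Group G] [Finite G] (z : G) (Q : Subgroup (Subgroup.centralizer ({z} : Set G))) [Q.Normal] (hM : Cfsg.IsOfMonsterType z Q) (e : (Subgroup.centralizer ({z} : Set G)) ⧸ Q ≃* Cfsg.Spor.Co1) (ψ : Cfsg.leechLattice → Q ⧸ Subgroup.center Q) (hψ : Cfsg.IsLeechModTwoIso Q e ψ) (x : Q) : (IsConj z ((x : Subgroup.centralizer ({z} : Set G)) : G) ∧ ((x : Subgroup.centralizer ({z} : Set G)) : G) ≠ z) ↔ ∃ v : Cfsg.leechLattice, Cfsg.sqNorm (v : Cfsg.GolayPt → ℤ) = 64 ∧ ψ v = QuotientGroup.mk x := by
  obtain ⟨D, -, hD⟩ := exists_xd hM.1 hψ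
  have hx := mem_map_of_mem (centralizer ({z} : Set G)).subtype x.2
  obtain ⟨g, hg, hne⟩ := exists_conj_of_setting hM.1
  constructor
  · rintro ⟨h1, h2⟩
    obtain ⟨v, h3, h4⟩ := nm_of_isConj D (card_map_of_setting hM.1) hx h1 h2
    exact ⟨v, h4, (hD x v).2 h3⟩
  · rintro ⟨v, h1, h2⟩
    rw [hD] at h2
    exact ⟨isConj_of_nm D (card_map_of_setting hM.1) hg hne hx h2 h1, fun h3 =>
      mk_ne_zero (x := v) (by simp [h1]) (by simp [h1]) (by rw [← h2, h3, D.π_z])⟩

end Cfsg.Agent.S5407
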