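import Cfsg.Statements.S5408
import Cfsg.Agent.Lib.Monster.Basic

set_option autoImplicit false
open Cfsg Cfsg.Lib Cfsg.Lib.Mon Cfsg.Lib.ES Subgroup

namespace Cfsg.Agent.S5408

/-- Let G be a finite group of Monster type at the involution z with Q the extraspecial normal subgroup of order 2^25 of C = C_G(z) (so C/Q is identified with the first Conway group with Q modulo its centre the Leech lattice modulo 2, and z is not weakly closed in Q). Then Q is of plus type: it contains an elementary abelian subgroup of order 2^13. -/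
theorem result {G : Type*} [Group G] [Finite G] (z : G) (Q : Subgroup (Subgroup.centralizer ({z} : Set G))) [Q.Normal] (hM : Cfsg.IsOfMonsterType z Q) : ∃ E : Subgroup Q, Cfsg.IsElementaryAbelian 2 E ∧ Nat.card E = 2 ^ 13 := by
  obtain ⟨h, e, ψ, hψ⟩ := hM
  obtain ⟨D, -, -⟩ := exists_xd h hψ
  obtain ⟨g, hg, hne⟩ := exists_conj_of_setting h
  have h1 := card_inf_conj D (card_map_of_setting h) hg hne
  have h2 := fun x => (D.lg.pr hg hne).sq_eq_one (x := x)
  generalize (Q.map (centralizer ({z} : Set G)).subtype).map (MulAut.conj g).toMonoidHom = R at h1 h2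
  let f := Q.equivMapOfInjective _ (centralizer ({z} : Set G)).subtype_injective
  have h3 : ∀ a ∈ (R.subgroupOf _).comap f.toMonoidHom, a ^ 2 = 1 := fun a ha =>
    Subtype.ext (Subtype.ext (h2 _ ⟨(f a).2, ha⟩))
  refine ⟨(R.subgroupOf _).comap f.toMonoidHom, ⟨⟨⟨fun a b => Commute.of_orderOf_dvd_two (fun y =>
    orderOf_dvd_of_pow_eq_one (Subtype.ext (h3 _ y.2))) a b⟩⟩, h3⟩, ?_⟩
  rw [comap_equiv_eq_map_symm', card_map_of_injective f.symm.injective, Core.card_subgroupOf,
    inf_comm, h1]

end Cfsg.Agent.S5408
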