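import Cfsg.Statements.S5410
import Cfsg.Agent.Lib.Monster.Basic

set_option autoImplicit false
open Cfsg Cfsg.Lib Cfsg.Lib.Mon Cfsg.Lib.ES Subgroup

namespace Cfsg.Agent.S5410

/-- Let G be a finite group of Monster type at the involution z with Q the extraspecial normal subgroup of order 2^25 of C = C_G(z) (so C/Q is identified with the first Conway group with Q modulo its centre the Leech lattice modulo 2, and z is not weakly closed in Q). Let g in G with s = g z g⁻¹ a member of Q other than z, let X be the image in C/Q of the centralizer of s in C, and let E be the image in C/Q of the intersection of g Q g⁻¹ with C. Then E is a normal subgroup of X, elementary abelian of order 2^11, and it has a complement in X isomorphic to the Mathieu group of degree 24 (the automorphism group of the length-24 binary Golay code). -/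
theorem result {G : Type*} [Group G] [Finite G] (z : G) (Q : Subgroup (Subgroup.centralizer ({z} : Set G))) [Q.Normal] (hM : Cfsg.IsOfMonsterType z Q) (s : G) (hsQ : ∃ hsc : s ∈ Subgroup.centralizer ({z} : Set G), (⟨s, hsc⟩ : Subgroup.centralizer ({z} : Set G)) ∈ Q) (hs : IsConj z s) (hs1 : s ≠ z) (g : G) (hg : g * z * g⁻¹ = s) (X E : Subgroup ((Subgroup.centralizer ({z} : Set G)) ⧸ Q)) (hX : X = ((Subgroup.centralizer ({z} : Set G) ⊓ Subgroup.centralizer ({s} : Set G)).subgroupOf (Subgroup.centralizer ({z} : Set G))).map (QuotientGroup.mk' Q)) (hE : E = (((Q.map (Subgroup.centralizer ({z} : Set G)).subtype).map (MulAut.conj g).toMonoidHom ⊓ Subgroup.centralizer ({z} : Set G)).subgroupOf (Subgroup.centralizer ({z} : Set G))).map (QuotientGroup.mk' Q)) : E ≤ X ∧ (∀ x ∈ X, ∀ y ∈ E, x * y * x⁻¹ ∈ E) ∧ Cfsg.IsElementaryAbelian 2 E ∧ Nat.card E = 2 ^ 11 ∧ ∃ K : Subgroup ((Subgroup.centralizer ({z} : Set G)) ⧸ Q), K ≤ X ∧ E ⊓ K = ⊥ ∧ E ⊔ K = X ∧ Nonempty (K ≃* Cfsg.M24) := by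
  obtain ⟨h, e, ψ, hψ⟩ := hM
  obtain ⟨D, hρ, -⟩ := exists_xd h hψ
  subst hg
  rw [← Core.mem_map_subtype_iff] at hsQ
  have hp := D.lg.pr hsQ hs1
  obtain ⟨a, h1, h2⟩ := exists_img_eq D (card_map_of_setting h) hsQ hs1
  have h3 := D.map_centralizer hsQ (D.π_ne_zero hsQ hp.r.ne_one hs1)
  have e1 : D.ρ = e.toMonoidHom.comp (QuotientGroup.mk' Q) := MonoidHom.ext hρ
  let f := (MulAut.conj a).trans e.symm
  have key : ∀ {A : Subgroup _} {B : Subgroup Spor.Co1},
      A.map e.toMonoidHom = B.map (MulAut.conj a).toMonoidHom → A = B.map f.toMonoidHom :=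
    fun {A B} h => by
      have := congrArg (map e.symm.toMonoidHom) h
      rwa [map_map, map_map, show e.symm.toMonoidHom.comp e.toMonoidHom = MonoidHom.id _ from
        MonoidHom.ext e.symm_apply_apply, map_id] at this
  rw [h1, MulAction.stabilizer_smul_eq_stabilizer_map_conj, e1, ← map_map, ← hX] at h3
  rw [XD.img, e1, ← map_map, ← hE] at h2
  rw [key h2, key h3]
  refine ⟨map_mono (signs_sup none ▸ le_sup_left), ?_, ⟨?_, ?_⟩, ?_, perms.map f.toMonoidHom,
    map_mono (signs_sup none ▸ le_sup_right), ?_, ?_,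
    ⟨(permsEquiv.trans (perms.equivMapOfInjective _ f.injective)).symm⟩⟩
  · rintro _ ⟨x, hx, rfl⟩ _ ⟨y, hy, rfl⟩
    exact ⟨_, (mem_normalizer_iff.1 (le_normalizer_signs none hx) y).1 hy, by simp⟩
  · exact ⟨⟨fun a b => Commute.of_orderOf_dvd_two (fun y => orderOf_dvd_of_pow_eq_one (by
      obtain ⟨_, _, ⟨y, hy, rfl⟩, rfl⟩ := y
      exact Subtype.ext (by
        simp only [sq, coe_mul, ← map_mul, mul_self_of_mem_signGrp hy, map_one, coe_one]))) a b⟩⟩
  · rintro _ ⟨_, ⟨y, hy, rfl⟩, rfl⟩
    simp only [sq, ← map_mul, mul_self_of_mem_signGrp hy, map_one]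
  · rw [card_map_of_injective f.injective, card_signs]
  · rw [← Core.map_equiv_inf, signs_inf, Subgroup.map_bot]
  · rw [← Subgroup.map_sup, signs_sup none]

end Cfsg.Agent.S5410
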