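import Cfsg.Statements.S5413
import Cfsg.Agent.Lib.Monster.HN

set_option autoImplicit false
open Cfsg Cfsg.Lib Cfsg.Lib.Mon Cfsg.Lib.ES Cfsg.Lib.Leech Subgroup

namespace Cfsg.Agent.S5413

/-- Let G be a finite group of Monster type at the involution z with Q the extraspecial normal subgroup of order 2^25 of C = C_G(z) (so C/Q is identified with the first Conway group with Q modulo its centre the Leech lattice modulo 2, and z is not weakly closed in Q). Let s be a conjugate of z in Q other than z and let B be a Sylow 5-subgroup of the joint centralizer of z and s. Then the centralizer of B modulo B is a group of Harada–Norton type (an involution whose centralizer D has generalized Fitting subgroup R extraspecial of order 2^9 with D/R the wreath product of the alternating group of degree 5 by a group of order 2, the involution not weakly closed in R). -/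
theorem result {G : Type*} [Group G] [Finite G] (z : G) (Q : Subgroup (Subgroup.centralizer ({z} : Set G))) [Q.Normal] (hM : Cfsg.IsOfMonsterType z Q) (s : G) (hsQ : ∃ hsc : s ∈ Subgroup.centralizer ({z} : Set G), (⟨s, hsc⟩ : Subgroup.centralizer ({z} : Set G)) ∈ Q) (hs : IsConj z s) (hs1 : s ≠ z) (B : Subgroup G) (hB : B ≤ Subgroup.centralizer ({z, s} : Set G)) (hBp : Nat.card B = 5 ^ (Nat.card ↥(Subgroup.centralizer ({z, s} : Set G))).factorization 5) [hn : (B.subgroupOf (Subgroup.centralizer (B : Set G))).Normal] : Cfsg.IsOfHaradaNortonType (↥(Subgroup.centralizer (B : Set G)) ⧸ B.subgroupOf (Subgroup.centralizer (B : Set G))) := by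
  obtain ⟨h, e, ψ, hψ⟩ := hM
  obtain ⟨D, -, -⟩ := exists_xd h hψ
  rw [← Core.mem_map_subtype_iff] at hsQ
  obtain ⟨D, h1⟩ := exists_base D (card_map_of_setting h) hsQ hs hs1
  have : Fact (Nat.Prime 5) := ⟨Nat.prime_five⟩
  rw [card_pair D (card_map_of_setting h) hsQ h1, show Nat.factorization (2 ^ 35 * 244823040) 5 = 1 by
    simp; decide +kernel, pow_one] at hBp
  obtain ⟨q, hq, h2, D, h1, b, h3, h4, h5⟩ := exists_twist_px D hsQ h1 hB hBp (by norm_num)
  rw [(show ∀ q ∈ Mathieu.c24, Mathieu.ordT q.1 = 5 → q.1 = Mathieu.r5A by decide +kernel) q hq h2] at h5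
  obtain ⟨F⟩ := HN.cf
  obtain ⟨hz, R, hR, a1, -, a2⟩ := D.odd_section h3 (by rw [h4]; decide) (h5 ▸ F) hsQ hs hs1
    fun y hy => mem_centralizer_singleton_iff.1 ((centralizer_pair z s ▸ hB hy).2)
  exact ⟨_, R, hR, a1, a2⟩

end Cfsg.Agent.S5413
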