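import Cfsg.Statements.S5414
import Cfsg.Agent.Lib.Monster.Th

set_option autoImplicit false
open Cfsg Cfsg.Lib Cfsg.Lib.Mon Cfsg.Lib.ES Cfsg.Lib.Leech Subgroup

namespace Cfsg.Agent.S5414

/-- Let G be a finite group of Monster type at the involution z with Q the extraspecial normal subgroup of order 2^25 of C = C_G(z) (so C/Q is identified with the first Conway group with Q modulo its centre the Leech lattice modulo 2, and z is not weakly closed in Q). Let s be a conjugate of z in Q other than z and let Y be a subgroup of order 3 of the joint centralizer L of z and s that is not 3-central in L (Y lies in the centre of no Sylow 3-subgroup of L). Then the centralizer of Y modulo Y is a group of Thompson type (an involution whose centralizer D has generalized Fitting subgroup R extraspecial of order 2^9 with D/R the alternating group of degree 9, the involution not weakly closed in R). -/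
theorem result {G : Type*} [Group G] [Finite G] (z : G) (Q : Subgroup (Subgroup.centralizer ({z} : Set G))) [Q.Normal] (hM : Cfsg.IsOfMonsterType z Q) (s : G) (hsQ : ∃ hsc : s ∈ Subgroup.centralizer ({z} : Set G), (⟨s, hsc⟩ : Subgroup.centralizer ({z} : Set G)) ∈ Q) (hs : IsConj z s) (hs1 : s ≠ z) (Y : Subgroup G) (hY : Y ≤ Subgroup.centralizer ({z, s} : Set G)) (hY3 : Nat.card Y = 3) (hnc : ∀ P : Sylow 3 ↥(Subgroup.centralizer ({z, s} : Set G)), ¬ Y.subgroupOf (Subgroup.centralizer ({z, s} : Set G)) ≤ (Subgroup.center ↥(P : Subgroup ↥(Subgroup.centralizer ({z, s} : Set G)))).map (P : Subgroup ↥(Subgroup.centralizer ({z, s} : Set G))).subtype) [hn : (Y.subgroupOf (Subgroup.centralizer (Y : Set G))).Normal] : Cfsg.IsOfThompsonType (↥(Subgroup.centralizer (Y : Set G)) ⧸ Y.subgroupOf (Subgroup.centralizer (Y : Set G))) := by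
  obtain ⟨h, e, ψ, hψ⟩ := hM
  obtain ⟨D, -, -⟩ := exists_xd h hψ
  rw [← Core.mem_map_subtype_iff] at hsQ
  obtain ⟨D, h1⟩ := exists_base D (card_map_of_setting h) hsQ hs hs1
  have : Fact (Nat.Prime 3) := ⟨Nat.prime_three⟩
  obtain ⟨q, hq, h2, D, h1, b, h3, h4, h5⟩ := exists_twist_px D hsQ h1 hY hY3 (by norm_num)
  have h6 := (central_iff D (card_map_of_setting h) hsQ h1 hY h3 h4 h5).not.1 (not_exists.2 hnc)
  rw [← top_inf_eq (centralizer _), show Nat.card ↥(⊤ ⊓ centralizer {Mathieu.mk q.1}) = q.2 from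
    Mathieu.cls24.cent q hq] at h6
  rw [(show ∀ q ∈ Mathieu.c24, Mathieu.ordT q.1 = 3 → ¬ 27 ∣ q.2 → q.1 = Mathieu.r3B by decide +kernel) q hq h2 h6]
    at h5
  obtain ⟨F⟩ := Th.cf
  obtain ⟨hz, R, hR, a1, -, a2⟩ := D.odd_section h3 (by rw [h4]; decide) (h5 ▸ F) hsQ hs hs1
    fun y hy => mem_centralizer_singleton_iff.1 ((centralizer_pair z s ▸ hY hy).2)
  exact ⟨_, R, hR, a1, a2⟩

end Cfsg.Agent.S5414
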