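import Cfsg.Statements.S5420
import Cfsg.Agent.Lib.Extraspecial.Large

set_option autoImplicit false
open Cfsg Cfsg.Lib Subgroup

namespace Cfsg.Agent.S5420

/-- Let Q be an extraspecial 2-subgroup of the finite group G whose centralizer in G is its centre Z and which is normal in the centralizer of Z. If Z lies in the largest normal 2-subgroup of G, then Q is a large extraspecial 2-subgroup of G: it normalizes no non-trivial subgroup of G of odd order. -/
theorem result {G : Type*} [Group G] [Finite G] (Q : Subgroup G) (hL1 : Cfsg.IsExtraspecial 2 ↥Q) (hL2 : Subgroup.centralizer (Q : Set G) = ((Subgroup.center ↥Q).map Q.subtype)) (hL3 : Subgroup.centralizer (((Subgroup.center ↥Q).map Q.subtype) : Set G) ≤ Subgroup.normalizer (Q : Set G)) (hZ : ((Subgroup.center ↥Q).map Q.subtype) ≤ Cfsg.pCore 2 G) : Cfsg.IsLargeExtraspecial Q := by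
  obtain ⟨z, h, hz⟩ := ES.exists_lg hL1 hL2 hL3
  refine h.isLarge hL1 fun K hK hn => h.eq_bot_of_mem_two_normal (Core.pCore_isPGroup 2 G)
    (hZ (hz ▸ mem_zpowers z)) hK hn ?_
  have := Core.pCore_characteristic 2 G
  rw [normalizer_eq_top]
  exact le_top

end Cfsg.Agent.S5420
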