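import Cfsg.Statements.S5422
import Cfsg.Agent.Lib.Extraspecial.Large

set_option autoImplicit false
open Cfsg Cfsg.Lib Subgroup

namespace Cfsg.Agent.S5422

/-- Let Q be an extraspecial 2-subgroup of the finite group G whose centralizer in G is its centre Z and which is normal in the centralizer of Z; suppose Q has width at least 2 (order 2^(2w+1) with w ≥ 2) and g is an element of G not normalizing Z with g Z g⁻¹ inside Q. Then Z lies inside g Q g⁻¹; writing V for the subgroup generated by Z and g Z g⁻¹ (a four-group), the normalizer of V induces on V its full automorphism group, that is, the centralizer of V has index 6 in the normalizer of V; and Q is a large extraspecial 2-subgroup of G. -/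
theorem result {G : Type*} [Group G] [Finite G] (Q : Subgroup G) (hL1 : Cfsg.IsExtraspecial 2 ↥Q) (hL2 : Subgroup.centralizer (Q : Set G) = ((Subgroup.center ↥Q).map Q.subtype)) (hL3 : Subgroup.centralizer (((Subgroup.center ↥Q).map Q.subtype) : Set G) ≤ Subgroup.normalizer (Q : Set G)) (w : ℕ) (hw : 2 ≤ w) (hcard : Nat.card ↥Q = 2 ^ (2 * w + 1)) (g : G) (hg : g ∉ Subgroup.normalizer (((Subgroup.center ↥Q).map Q.subtype) : Set G)) (hZg : (((Subgroup.center ↥Q).map Q.subtype)).map (MulAut.conj g).toMonoidHom ≤ Q) : ((Subgroup.center ↥Q).map Q.subtype) ≤ (Q).map (MulAut.conj g).toMonoidHom ∧ (Subgroup.centralizer ((((Subgroup.center ↥Q).map Q.subtype) ⊔ (((Subgroup.center ↥Q).map Q.subtype)).map (MulAut.conj g).toMonoidHom : Subgroup G) : Set G)).relIndex (Subgroup.normalizer ((((Subgroup.center ↥Q).map Q.subtype) ⊔ (((Subgroup.center ↥Q).map Q.subtype)).map (MulAut.conj g).toMonoidHom : Subgroup G) : Set G)) = 6 ∧ Cfsg.IsLargeExtraspecial Q := by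
  obtain ⟨z, h, hz⟩ := ES.exists_lg hL1 hL2 hL3
  rw [hz, MonoidHom.map_zpowers] at hZg ⊢
  rw [hz] at hg
  change zpowers (g * z * g⁻¹) ≤ Q at hZg
  have h1 : g * z * g⁻¹ ∈ Q := hZg (mem_zpowers _)
  have h2 : g * z * g⁻¹ ≠ z := fun e => hg (by
    rw [← Core.map_conj_eq_iff, MonoidHom.map_zpowers]
    exact congrArg zpowers e)
  refine ⟨zpowers_le.2 (h.mem_conj h1), ?_, h.isLarge hL1 fun K hK hn =>
    h.eq_bot_of_conj_mem h1 h2 hK hn⟩
  change (centralizer ((zpowers z ⊔ zpowers (g * z * g⁻¹) : Subgroup G) : Set G)).relIndex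
    (normalizer ((zpowers z ⊔ zpowers (g * z * g⁻¹) : Subgroup G) : Set G)) = 6
  rw [← PGroup.closure_pair_eq_sup]
  refine ES.relIndex_centralizer_eq_six h.ord (h.conj g).ord (h.comm h1).symm h2
    fun u hu v hv hu1 hv1 huv => ?_
  obtain ⟨x, -, hx⟩ := h.exists_conj_pair h1 h2 hu hv hu1 hv1 huv
  exact ⟨x, hx⟩

end Cfsg.Agent.S5422
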