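import Cfsg.Statements.S5423
import Cfsg.Agent.Lib.Extraspecial.Transv

set_option autoImplicit false
open Cfsg

namespace Cfsg.Agent.S5423

open Matrix Subgroup Cfsg.Lib
open scoped IsMulCommutative Pointwise

section
variable {n : ℕ}

/-- Affine matrices, the affine coordinate being the index `1`. -/
def aff (A : Matrix (Fin (n + 1)) (Fin (n + 1)) (ZMod 2)) (t : Fin (n + 1) → ZMod 2) :
    Matrix (Fin (n + 2)) (Fin (n + 2)) (ZMod 2) :=
  of (Fin.insertNth (α := fun _ => Fin (n + 2) → ZMod 2) 1 (Fin.insertNth (α := fun _ => ZMod 2) 1 1 0)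
    fun i => Fin.insertNth (α := fun _ => ZMod 2) 1 (t i) (A i))

variable (A : Matrix (Fin (n + 1)) (Fin (n + 1)) (ZMod 2)) (t : Fin (n + 1) → ZMod 2) (i j : Fin (n + 1))
@[simp] theorem aff11 : aff A t 1 1 = 1 := by simp [aff]
@[simp] theorem aff12 : aff A t 1 ((1 : Fin (n + 2)).succAbove j) = 0 := by simp [aff]
@[simp] theorem aff21 : aff A t ((1 : Fin (n + 2)).succAbove i) 1 = t i := by simp [aff]
@[simp] theorem aff22 : aff A t ((1 : Fin (n + 2)).succAbove i) ((1 : Fin (n + 2)).succAbove j) = A i j := by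
  simp [aff]

theorem ext2 {X Y : Matrix (Fin (n + 2)) (Fin (n + 2)) (ZMod 2)} (h11 : X 1 1 = Y 1 1)
    (h12 : ∀ j, X 1 ((1 : Fin (n + 2)).succAbove j) = Y 1 ((1 : Fin (n + 2)).succAbove j))
    (h21 : ∀ i, X ((1 : Fin (n + 2)).succAbove i) 1 = Y ((1 : Fin (n + 2)).succAbove i) 1)
    (h22 : ∀ i j, X ((1 : Fin (n + 2)).succAbove i) ((1 : Fin (n + 2)).succAbove j) =
      Y ((1 : Fin (n + 2)).succAbove i) ((1 : Fin (n + 2)).succAbove j)) : X = Y := by
  ext i j
  refine Fin.succAboveCases 1 ?_ (fun i => ?_) i <;> refine Fin.succAboveCases 1 ?_ (fun j => ?_) j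
  exacts [h11, h12 j, h21 i, h22 i j]

theorem aff_mul (A' : Matrix (Fin (n + 1)) (Fin (n + 1)) (ZMod 2)) (t' : Fin (n + 1) → ZMod 2) :
    aff A t * aff A' t' = aff (A * A') (t + A *ᵥ t') := by
  refine ext2 ?_ (fun j => ?_) (fun i => ?_) (fun i j => ?_) <;>
    simp [mul_apply, Fin.sum_univ_succAbove _ (1 : Fin (n + 2)), mulVec, dotProduct]

theorem aff_one : aff (1 : Matrix (Fin (n + 1)) (Fin (n + 1)) (ZMod 2)) 0 = 1 := by
  refine ext2 ?_ (fun j => ?_) (fun i => ?_) (fun i j => ?_) <;> simp [one_apply]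

theorem aff_tv : aff (1 : Matrix (Fin (n + 1)) (Fin (n + 1)) (ZMod 2)) (Pi.single 0 1) = transvection 0 1 1 := by
  have h0 : ∀ i : Fin (n + 1), (0 : Fin (n + 2)) = (1 : Fin (n + 2)).succAbove i ↔ i = 0 := fun i => by
    rw [← Fin.one_succAbove_zero, Fin.succAbove_right_inj, eq_comm]
  refine ext2 ?_ (fun j => ?_) (fun i => ?_) (fun i j => ?_) <;>
    simp [one_apply, transvection, single_apply, Pi.single_apply, h0]

variable {A t} in
theorem aff_inj {A' : Matrix (Fin (n + 1)) (Fin (n + 1)) (ZMod 2)} {t' : Fin (n + 1) → ZMod 2}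
    (h : aff A t = aff A' t') : A = A' ∧ t = t' :=
  ⟨Matrix.ext fun i j => by rw [← aff22 A t, h, aff22], funext fun i => by rw [← aff21 A t, h, aff21]⟩

theorem eq_aff {X : Matrix (Fin (n + 2)) (Fin (n + 2)) (ZMod 2)}
    (h : ∀ j, X 1 j = (1 : Matrix (Fin (n + 2)) (Fin (n + 2)) (ZMod 2)) 1 j) : ∃ A t, X = aff A t :=
  ⟨of fun i j => X ((1 : Fin (n + 2)).succAbove i) ((1 : Fin (n + 2)).succAbove j),
    fun i => X ((1 : Fin (n + 2)).succAbove i) 1,
    ext2 (by simp [h]) (fun j => by simp [h, one_apply]) (fun i => by simp) fun i j => by simp⟩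

end

/-- Let G be a finite group that is the split extension of an elementary abelian normal subgroup U of order 2^(n+1), n ≥ 1, by its full automorphism group: U has a complement M in G whose conjugation action on U is faithful and realizes every automorphism of U. Let Z be a subgroup of U of order 2 and Q the largest normal 2-subgroup of the centralizer C of Z. Then Q is extraspecial of order 2^(2n+1) with an elementary abelian subgroup of order 2^(n+1) (plus type), Q is a large extraspecial 2-subgroup of G, and C is the split extension of Q by the general linear group of degree n over the field with two elements. -/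
theorem result {G : Type*} [Group G] [Finite G] (n : ℕ) (hn : 1 ≤ n) (U M : Subgroup G) [U.Normal] (hU : Cfsg.IsElementaryAbelian 2 U) (hUcard : Nat.card ↥U = 2 ^ (n + 1)) (hUM : U ⊓ M = ⊥) (hUM' : U ⊔ M = ⊤) (hfaith : ∀ m ∈ M, (∀ u ∈ U, m * u * m⁻¹ = u) → m = 1) (hfull : ∀ φ : ↥U ≃* ↥U, ∃ m ∈ M, ∀ u : ↥U, ((φ u : ↥U) : G) = m * u * m⁻¹) (Z : Subgroup G) (hZU : Z ≤ U) (hZ : Nat.card ↥Z = 2) (Q : Subgroup G) (hQ : Q = (Cfsg.pCore 2 ↥(Subgroup.centralizer (Z : Set G))).map (Subgroup.centralizer (Z : Set G)).subtype) : Cfsg.IsExtraspecial 2 ↥Q ∧ Nat.card ↥Q = 2 ^ (2 * n + 1) ∧ (∃ E : Subgroup G, E ≤ Q ∧ Cfsg.IsElementaryAbelian 2 E ∧ Nat.card ↥E = 2 ^ (n + 1)) ∧ Cfsg.IsLargeExtraspecial Q ∧ ∃ K : Subgroup G, K ≤ Subgroup.centralizer (Z : Set G) ∧ Q ⊓ K = ⊥ ∧ Q ⊔ K = Subgroup.centralizer (Z : Set G) ∧ Nonempty (↥K ≃* Matrix.GeneralLinearGroup (Fin n) (ZMod 2)) := by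
  haveI := hU.1
  letI : Module (ZMod 2) (Additive U) := AddCommGroup.zmodModule fun x =>
    Additive.toMul.injective (Subtype.ext (hU.2 _ x.toMul.2))
  haveI : Fact (Nat.Prime 2) := ⟨Nat.prime_two⟩
  obtain ⟨z, hz1, hZz⟩ : ∃ z : G, z ≠ 1 ∧ Z = zpowers z := by
    obtain ⟨z, hz⟩ := (isCyclic_of_prime_card hZ).exists_generator
    refine ⟨z, fun h => ?_, le_antisymm (fun x hx => ?_) ((zpowers_le (G := G)).2 z.2)⟩
    · have : Z = ⊥ := eq_bot_iff.2 fun x hx => by
        obtain ⟨k, hk⟩ := hz ⟨x, hx⟩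
        rw [← show ((z ^ k : Z) : G) = x from congrArg Subtype.val hk, coe_zpow, h, _root_.one_zpow]
        exact one_mem _
      rw [this, card_bot] at hZ
      omega
    · obtain ⟨k, hk⟩ := hz ⟨x, hx⟩
      exact ⟨k, congrArg Subtype.val hk⟩
  have hzU : z ∈ U := hZU (hZz ▸ mem_zpowers z)
  have hCz : centralizer (Z : Set G) = centralizer {z} := by
    rw [hZz, zpowers_eq_closure, centralizer_closure]
  rw [hCz] at hQ ⊢
  have hfr : Module.finrank (ZMod 2) (Additive U) = n + 1 := by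
    have h := Module.natCard_eq_pow_finrank (K := ZMod 2) (V := Additive U)
    rw [Nat.card_zmod, Nat.card_congr Additive.toMul, hUcard] at h
    exact (Nat.pow_right_injective le_rfl h).symm
  obtain ⟨e, he⟩ : ∃ e : Additive U ≃ₗ[ZMod 2] (Fin (n + 1) → ZMod 2),
      e (Additive.ofMul ⟨z, hzU⟩) = Pi.single 0 1 := by
    let e0 := (Module.finBasisOfFinrankEq (ZMod 2) (Additive U) hfr).equivFun
    obtain ⟨T, hT⟩ := ES.Tv.exists_equiv_map (F := ZMod 2) (v := e0 (Additive.ofMul ⟨z, hzU⟩))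
      (w := Pi.single 0 1) (fun h => hz1 (congrArg (fun x : Additive U => (x.toMul : G))
        (e0.map_eq_zero_iff.1 h))) (by simp)
    exact ⟨e0.trans T, hT⟩
  have hτ : ∀ g : G, ∃ u : U, (u : G)⁻¹ * g ∈ M := fun g => by
    obtain ⟨u, hu, m, hm, rfl⟩ : g ∈ (U : Set G) * (M : Set G) := by
      rw [← normal_mul, hUM']; trivial
    exact ⟨⟨u, hu⟩, by simpa using hm⟩
  choose τ hτ using hτ
  have hτ' : ∀ (g : G) (u : U), (u : G)⁻¹ * g ∈ M → τ g = u := fun g u h => by
    have : (u : G)⁻¹ * τ g ∈ U ⊓ M := ⟨U.mul_mem (U.inv_mem u.2) (τ g).2, by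
      simpa [mul_assoc] using M.mul_mem h (M.inv_mem (hτ g))⟩
    rw [hUM, mem_bot, inv_mul_eq_one] at this
    exact Subtype.ext this.symm
  have hcomm : ∀ u v : U, (u : G) * v * (u : G)⁻¹ = v := fun u v => by
    rw [← coe_mul, mul_comm u v, coe_mul, mul_inv_cancel_right]
  let L : G → (Additive U →ₗ[ZMod 2] Additive U) := fun g =>
    (MonoidHom.toAdditive (MulAut.conjNormal g : MulAut U).toMonoidHom).toZModLinearMap 2
  have hL : ∀ g (v : Additive U), ((L g v).toMul : G) = g * v.toMul * g⁻¹ := fun _ _ => rfl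
  let A : G → Matrix (Fin (n + 1)) (Fin (n + 1)) (ZMod 2) := fun g =>
    LinearMap.toMatrix' (e.toLinearMap ∘ₗ L g ∘ₗ e.symm.toLinearMap)
  have hA : ∀ g v, A g *ᵥ e v = e (L g v) := fun g v => by simp [A]
  have hext : ∀ {B B' : Matrix (Fin (n + 1)) (Fin (n + 1)) (ZMod 2)}, (∀ v, B *ᵥ e v = B' *ᵥ e v) → B = B' :=
    fun h => toLin'.injective (LinearMap.ext fun w => by
      obtain ⟨v, rfl⟩ := e.surjective w
      simpa using h v)
  have hU1 : ∀ {v w : Additive U}, (v.toMul : G) = w.toMul → v = w := fun h =>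
    Additive.toMul.injective (Subtype.ext h)
  have hAU : ∀ u : U, A u = 1 := fun u => hext fun v => by
    rw [hA, one_mulVec]; exact congrArg e (hU1 (hcomm _ _))
  let ρ : G →* Matrix (Fin (n + 2)) (Fin (n + 2)) (ZMod 2) :=
    { toFun := fun g => aff (A g) (e (Additive.ofMul (τ g)))
      map_one' := by
        rw [hτ' 1 1 (by simp), show A 1 = 1 from hAU 1, ofMul_one, map_zero, aff_one]
      map_mul' := fun g h => by
        rw [aff_mul, hA, ← map_add]
        congr 2
        · exact hext fun v => by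
            rw [← mulVec_mulVec, hA, hA, hA]
            exact congrArg e (hU1 (by rw [hL, hL, hL]; group))
        · refine congrArg Additive.ofMul (hτ' _ (τ g * (L g (Additive.ofMul (τ h))).toMul) ?_)
          have h1 := hcomm (τ g)⁻¹ (L g (Additive.ofMul (τ h))).toMul
          rw [hL, toMul_ofMul, coe_inv] at h1
          rw [coe_mul, hL, toMul_ofMul, ← h1]
          convert mul_mem (hτ g) (hτ h) using 1
          group }
  have hρU : ∀ u : U, ρ u = aff 1 (e (Additive.ofMul u)) := fun u => by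
    change aff (A u) (e (Additive.ofMul (τ u))) = _
    rw [hAU, hτ' u u (by simp)]
  refine ES.Tv.main hn ρ ((injective_iff_map_eq_one ρ).2 fun g hg => ?_)
    ((hρU ⟨z, hzU⟩).trans (by rw [he, aff_tv])) (fun X Y hXY hX => ?_) hQ
  · rw [← aff_one] at hg
    obtain ⟨h1, h2⟩ := aff_inj hg
    have h3 : τ g = 1 := e.map_eq_zero_iff.1 h2
    refine hfaith g (by simpa [h3] using hτ g) fun u hu => ?_
    have := hA g (Additive.ofMul ⟨u, hu⟩)
    rw [h1, one_mulVec] at this
    exact (congrArg (fun x : Additive U => (x.toMul : G)) (e.injective this)).symm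
  · obtain ⟨B, t, rfl⟩ := eq_aff hX
    obtain ⟨B', t', rfl⟩ := eq_aff (X := Y) fun j => by
      rw [← hXY]
      simp [mul_apply, Fin.sum_univ_succAbove _ (1 : Fin (n + 2))]
    rw [aff_mul, ← aff_one] at hXY
    have h1 := (aff_inj hXY).1
    let φ : Additive U ≃ₗ[ZMod 2] Additive U :=
      e ≪≫ₗ toLin'OfInv (mul_eq_one_comm.1 h1) h1 ≪≫ₗ e.symm
    obtain ⟨m, hm, hφ⟩ := hfull (AddEquiv.toMultiplicative φ.toAddEquiv)
    refine ⟨(e.symm t).toMul * m, ?_⟩
    rw [map_mul, hρU]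
    change _ * aff (A m) (e (Additive.ofMul (τ m))) = _
    rw [hτ' m 1 (by simpa using hm), aff_mul, ofMul_one, map_zero, mulVec_zero, add_zero, one_mul,
      ofMul_toMul, e.apply_symm_apply]
    congr 1
    refine hext fun v => ?_
    rw [hA, show L m v = φ v from hU1 (hφ v.toMul).symm]
    simp only [φ, LinearEquiv.trans_apply, LinearEquiv.apply_symm_apply]
    rfl

end Cfsg.Agent.S5423
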