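import Cfsg.Statements.S5427
import Cfsg.Agent.Lib.Extraspecial.Structure

set_option autoImplicit false
open Cfsg Cfsg.Lib Subgroup
open scoped commutatorElement

namespace Cfsg.Agent.S5427

/-- Let z be an involution of the finite group G whose centralizer C has generalized Fitting subgroup Q, an extraspecial 2-group of width at least 2 (order 2^(2w+1), w ≥ 2). Let K be a subgroup of G such that the subgroup U generated by the K-conjugates of z is abelian and C is generated by the C-conjugates of U. Suppose that either some K-conjugate of z other than z lies in Q, or some element u of U ∩ Q outside the subgroup generated by z has z in the largest normal 2-subgroup of its centralizer. Then G is simple and Q is a large extraspecial 2-subgroup of G. -/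
theorem result {G : Type*} [Group G] [Finite G] (z : G) (hz : orderOf z = 2) (Q : Subgroup G) (hQC : Q ≤ Subgroup.centralizer ({z} : Set G)) (hF : (Cfsg.generalizedFittingSubgroup ↥(Subgroup.centralizer ({z} : Set G))).map (Subgroup.centralizer ({z} : Set G)).subtype = Q) (hQ : Cfsg.IsExtraspecial 2 ↥Q) (w : ℕ) (hw : 2 ≤ w) (hcard : Nat.card ↥Q = 2 ^ (2 * w + 1)) (K U : Subgroup G) (hU : U = Subgroup.closure {x : G | ∃ k ∈ K, x = k * z * k⁻¹}) (hUab : IsMulCommutative ↥U) (hgen : Subgroup.closure {x : G | ∃ c ∈ Subgroup.centralizer ({z} : Set G), ∃ u ∈ U, x = c * u * c⁻¹} = Subgroup.centralizer ({z} : Set G)) (h3 : (∃ k ∈ K, k * z * k⁻¹ ∈ Q ∧ k * z * k⁻¹ ≠ z) ∨ ∃ u ∈ U ⊓ Q, u ∉ Subgroup.zpowers z ∧ (∃ hz' : z ∈ Subgroup.centralizer ({u} : Set G), (⟨z, hz'⟩ : ↥(Subgroup.centralizer ({u} : Set G))) ∈ Cfsg.pCore 2 ↥(Subgroup.centralizer ({u} : Set G)))) : IsSimpleGroup G ∧ Cfsg.IsLargeExtraspecial Q := by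
  have h := ES.lg_of_genFitting hz hF hQ
  have hK : ∀ K : Subgroup G, Odd (Nat.card K) → Q ≤ normalizer (K : Set G) → K = ⊥ := by
    intro K hK hn
    rcases h3 with ⟨k, -, h1, h2⟩ | ⟨u, hu, h1, h2, h4⟩
    · exact h.eq_bot_of_conj_mem h1 h2 hK hn
    · refine h.eq_bot_of_involution hu.2 (orderOf_eq_prime ?_ fun e => h1 (e ▸ one_mem _))
        (fun e => h1 (e ▸ mem_zpowers u)) (Core.pCoreOf_isPGroup 2 _) ⟨_, h4, rfl⟩
        (Core.le_normalizer_pCoreOf 2 _) hK hn
      have h5 : U ≤ omegaOne 2 U := by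
        conv_lhs => rw [hU]
        rw [closure_le]
        rintro _ ⟨k, hk, rfl⟩
        exact PGroup.mem_omegaOne (hU ▸ subset_closure ⟨k, hk, rfl⟩)
          (by rw [conj_pow, sq, h.mul_self]; simp)
      exact ((PGroup.mem_omegaOne_iff_of_isMulCommutative hUab).1 (h5 hu.1)).2
  refine ⟨?_, h.isLarge hQ hK⟩
  have hC : centralizer {z} ≤ normalClosure ({z} : Set G) := by
    rw [← hgen, closure_le]
    rintro _ ⟨c, -, u, hu, rfl⟩
    refine normalClosure_normal.conj_mem u ((?_ : U ≤ _) hu) c
    rw [hU, closure_le]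
    rintro _ ⟨k, -, rfl⟩
    exact normalClosure_normal.conj_mem z (subset_normalClosure (Set.mem_singleton z)) k
  rcases h.structure_cases hK rfl with h1 | h1 | ⟨-, L, u, -, -, -, -, -, -, z₁, -, -, -, h1⟩
  · exact absurd (PGroup.isMulCommutative_of_le (hQC.trans hC) h1.1) (ES.not_isMulCommutative hQ)
  · have h2 := h.sup_centralizer_eq_top _ (hQC.trans hC)
    rw [sup_eq_left.2 hC] at h2
    have := h1.2.1
    exact ((MulEquiv.subgroupCongr h2).trans topEquiv).symm.isSimpleGroup
  · refine absurd ?_ h1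
    rw [← Comp.genFitting_eq_pCore_iff_isPGroup.2, hF]
    exact (Core.isPGroup_map_iff (centralizer ({z} : Set G)).subtype_injective).1
      (hF ▸ h.isPGroup)

end Cfsg.Agent.S5427
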