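import Cfsg.Statements.S5428
import Cfsg.Agent.Lib.Extraspecial.Quot
import Cfsg.Agent.Lib.Transfer.Criteria
import Cfsg.Agent.Lib.Inv.SylowTwo

set_option autoImplicit false
open Cfsg Cfsg.Lib Subgroup
open scoped commutatorElement

namespace Cfsg.Agent.S5428

/-- Let z be an involution of the finite group G whose centralizer C has generalized Fitting subgroup Q extraspecial (as a 2-group), let A be a subgroup of C of odd order, and let R be the centralizer of A in Q; suppose R has order at least 32, the largest normal subgroup of odd order of the centralizer of the subgroup generated by A and R lies in A, the order of that centralizer is not divisible by 4, and g is an element of G with g z g⁻¹ in R but outside the centre Z of Q. Let M be the subgroup generated by A and the centralizer of A (A is normal in it). Then: the centralizer in M of the subgroup generated by R and A, joined with A, equals the subgroup generated by A and Z; the image of R in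 M/A is a large extraspecial 2-subgroup of M/A; and g z g⁻¹ is conjugate to z inside the subgroup generated by R and the centralizer of A in g Q g⁻¹. -/
theorem result {G : Type*} [Group G] [Finite G] (z : G) (hz : orderOf z = 2) (Q : Subgroup G) (hQC : Q ≤ Subgroup.centralizer ({z} : Set G)) (hF : (Cfsg.generalizedFittingSubgroup ↥(Subgroup.centralizer ({z} : Set G))).map (Subgroup.centralizer ({z} : Set G)).subtype = Q) (hQ : Cfsg.IsExtraspecial 2 ↥Q) (A : Subgroup G) (hA : A ≤ Subgroup.centralizer ({z} : Set G)) (hAodd : Odd (Nat.card ↥A)) (R : Subgroup G) (hR : R = Q ⊓ Subgroup.centralizer (A : Set G)) (hR32 : 32 ≤ Nat.card ↥R) (hO : (Cfsg.oddCore ↥(Subgroup.centralizer ((A ⊔ R : Subgroup G) : Set G))).map (Subgroup.centralizer ((A ⊔ R : Subgroup G) : Set G)).subtype ≤ A) (h4 : ¬ 4 ∣ Nat.card ↥(Subgroup.centralizer ((A ⊔ R : Subgroup G) : Set G))) (g : G) (hgR : g * z * g⁻¹ ∈ R) (hgZ : g * z * g⁻¹ ∉ ((Subgroup.center ↥Q).map Q.subtype)) (M : Subgroup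 G) (hM : M = Subgroup.centralizer (A : Set G) ⊔ A) [hn : (A.subgroupOf M).Normal] : (M ⊓ Subgroup.centralizer ((R ⊔ A : Subgroup G) : Set G)) ⊔ A = A ⊔ ((Subgroup.center ↥Q).map Q.subtype) ∧ Cfsg.IsLargeExtraspecial ((R.subgroupOf M).map (QuotientGroup.mk' (A.subgroupOf M))) ∧ ∃ x ∈ R ⊔ ((Q).map (MulAut.conj g).toMonoidHom ⊓ Subgroup.centralizer (A : Set G)), x * (g * z * g⁻¹) * x⁻¹ = z := by
  have h := ES.lg_of_genFitting hz hF hQ
  rw [h.center_eq hQ] at hgZ ⊢
  have hne : g * z * g⁻¹ ≠ z := fun e => hgZ (e.symm ▸ mem_zpowers z)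
  have hRQ : R ≤ Q := hR ▸ inf_le_left
  have hRA : R ≤ centralizer (A : Set G) := hR ▸ inf_le_right
  have hzR : z ∈ R := hR ▸ ⟨h.mem, fun a ha => mem_centralizer_singleton_iff.1 (hA ha)⟩
  have h' := h.conj g
  obtain ⟨s, hs, h1⟩ := h.exists_conj_centralizer_odd hQ hA hAodd (hR ▸ hgR) h'.ord hne
  obtain ⟨y, hy, h2⟩ := h'.exists_conj_centralizer_odd (ES.isExtraspecial_conj hQ g)
    (fun a ha => mem_centralizer_singleton_iff.2 (hRA hgR a ha)) hAodd
    ⟨h.mem_conj (hRQ hgR), hRA hzR⟩ hz hne.symm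
  have h3 : y⁻¹ * s * (g * z * g⁻¹) * (y⁻¹ * s)⁻¹ = z := by
    calc _ = y⁻¹ * (s * (g * z * g⁻¹) * s⁻¹) * y := by group
      _ = z := by rw [h1, ← h.comm (hRQ hgR), ← h2]; group
  have hD : centralizer ((A ⊔ R : Subgroup G) : Set G) ≤ A ⊔ zpowers z := by
    have h5 : zpowers z ≤ centralizer ((A ⊔ R : Subgroup G) : Set G) := by
      rw [Core.centralizer_sup, zpowers_le]
      exact ⟨hRA hzR, centralizer_le hRQ h.mem_centralizer⟩
    have h6 : ¬ 2 ∣ (zpowers z).relIndex (centralizer ((A ⊔ R : Subgroup G) : Set G)) := fun h6 =>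
      h4 (by rw [← Core.card_mul_relIndex h5, h.card_zpowers]; exact mul_dvd_mul_left 2 h6)
    have h7 := Transfer.hasNormalPComplement_subgroup_of_normalizer_le (h.isPGroup.to_le h.zpowers_le)
      h6 h5 (inf_le_left.trans (centralizer_le (le_sup_of_le_right (zpowers_le.2 hzR))))
    rw [← Transfer.map_pResidual_sup_eq h5 h6, Transfer.pResidual_eq_pPrimeCore h7]
    exact sup_le_sup_right hO _
  have hAM : A ≤ M := hM ▸ le_sup_right
  have hCM : centralizer (A : Set G) ≤ M := hM ▸ le_sup_left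
  have hMN : M ≤ normalizer (A : Set G) := hM ▸ sup_le (centralizer_le_normalizer _) le_normalizer
  have hk : ∀ {x : M}, x ∈ (QuotientGroup.mk' (A.subgroupOf M)).ker ↔ (x : G) ∈ A := fun {x} => by
    rw [QuotientGroup.ker_mk', mem_subgroupOf]
  have h5 : ∀ a ∈ A, a * a = 1 → a = 1 := fun a ha =>
    Inv.eq_one_of_odd_of_mul_self (Inv.odd_orderOf_of_mem hAodd ha)
  have hN : ∀ c ∈ M, ⁅c, z⁆ ∈ A → c ∈ normalizer (R : Set G) := fun c hc h6 => by
    refine hR ▸ Core.le_normalizer_inf (A := zpowers c) (zpowers_le.2 (h.norm ?_))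
      (zpowers_le.2 (Core.normalizer_le_normalizer_centralizer A (hMN hc))) (mem_zpowers c)
    rw [mem_centralizer_singleton_iff, ← commutatorElement_eq_one_iff_mul_comm]
    refine h5 _ h6 ?_
    have h7 := mem_centralizer_singleton_iff.1 (hA h6)
    calc ⁅c, z⁆ * ⁅c, z⁆ = ⁅c, z⁆ * (⁅c, z⁆ * z) * z := by rw [mul_assoc, mul_assoc, h.mul_self, mul_one]
      _ = c * (z * z) * c⁻¹ := by rw [h7, commutatorElement_def]; group
      _ = 1 := by rw [h.mul_self]; group
  refine ⟨le_antisymm (sup_le (inf_le_right.trans (sup_comm A R ▸ hD)) le_sup_left)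
    (sup_le le_sup_right (le_sup_of_le_left (zpowers_le.2 ⟨hCM (hRA hzR), ?_⟩))), ?_,
    y⁻¹ * s, mul_mem (mem_sup_right (inv_mem hy)) (mem_sup_left (hR ▸ hs)), h3⟩
  · rw [Core.centralizer_sup]
    exact ⟨centralizer_le hRQ h.mem_centralizer, hRA hzR⟩
  refine ES.isLarge_map (QuotientGroup.mk'_surjective _) (z := ⟨z, hCM (hRA hzR)⟩) hzR
    (Subtype.ext h.mul_self) (fun e => h.ne_one (h5 z (hk.1 e) h.mul_self))
    (fun x hx => mem_centralizer_singleton_iff.2 (Subtype.ext (h.comm (hRQ hx))))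
    (fun x hx => ?_) (fun c hc => ?_) (fun c hc => ?_)
    (g := ⟨s⁻¹ * y, hCM (mul_mem (inv_mem hs.2) hy.2)⟩) ?_ fun e => ?_
  · obtain ⟨k, hk⟩ := h.sq_mem x (hRQ hx)
    exact ⟨k, Subtype.ext hk⟩
  · have h6 := hN c c.2 (hk.1 (hc ⟨z, hCM (hRA hzR)⟩ hzR))
    have h7 : (c : G) ∈ centralizer (R : Set G) := fun x hx => by
      rw [eq_comm, ← commutatorElement_eq_one_iff_mul_comm, ← mem_bot,
        ← Core.inf_eq_bot_of_isPGroup_of_coprime (h.isPGroup.to_le hRQ)
          (Nat.coprime_two_right.2 hAodd)]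
      exact ⟨ES.commutator_mem_of_mem_normalizer h6 hx, hk.1 (hc ⟨x, hCM (hRA hx)⟩ hx)⟩
    obtain ⟨d, hd, a, ha, e⟩ := (Core.mem_sup_of_le_normalizer_right
      (centralizer_le_normalizer _)).1 (hM.le c.2)
    have h8 : d ∈ A ⊔ zpowers z := hD (by
      rw [Core.centralizer_sup]
      exact ⟨hd, eq_mul_inv_of_mul_eq e ▸ (centralizer (R : Set G)).mul_mem h7
        (inv_mem (le_centralizer_iff.1 hRA ha))⟩)
    obtain ⟨w, ⟨k, rfl⟩, b, hb, e'⟩ := (Core.mem_sup_of_le_normalizer_right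
      ((zpowers_le.2 (hRA hzR)).trans (centralizer_le_normalizer _))).1
      (sup_comm A _ ▸ mul_mem h8 (mem_sup_left ha))
    refine ⟨k, (map_zpow _ _ _).symm.trans (QuotientGroup.eq.2 ?_)⟩
    change (z ^ k)⁻¹ * c ∈ A
    rwa [← e, ← e', inv_mul_cancel_left]
  · rw [← subgroupOf_normalizer_eq (hRA.trans hCM)]
    exact hN c c.2 (hk.1 hc)
  · change s⁻¹ * y * z * (s⁻¹ * y)⁻¹ ∈ R
    convert hgR using 1
    conv_lhs => rw [← h3]
    group
  · have h6 : (s⁻¹ * y * z * (s⁻¹ * y)⁻¹)⁻¹ * z ∈ A :=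
      QuotientGroup.eq (s := A.subgroupOf M).1 e
    have h7 : s⁻¹ * y * z * (s⁻¹ * y)⁻¹ = g * z * g⁻¹ := by
      conv_lhs => rw [← h3]
      group
    rw [h7, h'.inv_eq] at h6
    refine hne (mul_eq_one_iff_eq_inv.1 (h5 _ h6 ?_) |>.trans h.inv_eq)
    rw [mul_assoc (g * z * g⁻¹), ← mul_assoc z, ← h.comm (hRQ hgR), mul_assoc (g * z * g⁻¹),
      h.mul_self, mul_one, h'.mul_self]

end Cfsg.Agent.S5428
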