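import Cfsg.Statements.S5429
import Cfsg.Agent.Lib.Extraspecial.Quot

set_option autoImplicit false
open Cfsg Cfsg.Lib Subgroup
open scoped commutatorElement

namespace Cfsg.Agent.S5429

/-- Let z be an involution of the finite group G with centralizer C whose generalized Fitting subgroup Q is extraspecial of width at least 3 (order 2^(2w+1), w ≥ 3); let g be an element of G with g z g⁻¹ in Q but outside the centre Z of Q, and t an involution lying in both Q and g Q g⁻¹ that is not conjugate to z; write P for the centralizer of t in Q and suppose that the elements of C acting trivially by conjugation on P modulo the subgroup generated by t and z are exactly the elements of Q. Then the image of P in the centralizer of t modulo the subgroup generated by t is a large extraspecial 2-subgroup there, and g z g⁻¹ is conjugate to z inside the subgroup generated by P and the centralizer of t in g Q g⁻¹. -/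
theorem result {G : Type*} [Group G] [Finite G] (z : G) (hz : orderOf z = 2) (Q : Subgroup G) (hQC : Q ≤ Subgroup.centralizer ({z} : Set G)) (hF : (Cfsg.generalizedFittingSubgroup ↥(Subgroup.centralizer ({z} : Set G))).map (Subgroup.centralizer ({z} : Set G)).subtype = Q) (hQ : Cfsg.IsExtraspecial 2 ↥Q) (w : ℕ) (hw : 3 ≤ w) (hcard : Nat.card ↥Q = 2 ^ (2 * w + 1)) (g : G) (hgQ : g * z * g⁻¹ ∈ Q) (hgZ : g * z * g⁻¹ ∉ ((Subgroup.center ↥Q).map Q.subtype)) (t : G) (ht : orderOf t = 2) (htQ : t ∈ Q ⊓ (Q).map (MulAut.conj g).toMonoidHom) (htz : ¬ IsConj z t) (P : Subgroup G) (hP : P = Q ⊓ Subgroup.centralizer ({t} : Set G)) (hCP : ∀ c ∈ Subgroup.centralizer ({z} : Set G), (∀ x ∈ P, ∃ y ∈ Subgroup.closure ({t, z} : Set G), c * x * c⁻¹ = x * y) ↔ c ∈ Q) [hn : ((Subgroup.zpowers t).subgroupOf (Subgroup.centralizer ({t} : Set G))).Normal] : Cfsg.IsLargeExtraspecial ((P.subgroupOf (Subgroup.centralizer ({t} : Set G))).map (QuotientGroup.mk' ((Subgroup.zpowers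 t).subgroupOf (Subgroup.centralizer ({t} : Set G))))) ∧ ∃ x ∈ P ⊔ ((Q).map (MulAut.conj g).toMonoidHom ⊓ Subgroup.centralizer ({t} : Set G)), x * (g * z * g⁻¹) * x⁻¹ = z := by
  have h := ES.lg_of_genFitting hz hF hQ
  rw [h.center_eq hQ] at hgZ
  have hne : g * z * g⁻¹ ≠ z := fun e => hgZ (e.symm ▸ mem_zpowers z)
  have h' := h.conj g
  have ht2 := ES.mul_self_of_orderOf_two ht
  have key : ∀ {Q : Subgroup G} {z s : G}, ES.Lg Q z → IsExtraspecial 2 Q → t ∈ Q → ¬ IsConj z t →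
      s ∈ Q → IsConj z s → s ≠ z →
      ¬ IsConj z (z * t) ∧ ∃ a ∈ Q ⊓ centralizer {t}, a * s * a⁻¹ = z * s := by
    intro Q z s h hQ htQ htz hs hzs hne
    obtain ⟨b, -, hb⟩ := h.exists_conj htQ (h.not_mem_centralizer htQ ht fun e => htz (e ▸ .refl _))
    have h1 : ¬ IsConj z (z * t) := fun h1 => htz (h1.trans (isConj_iff.2 ⟨b, hb⟩).symm)
    obtain ⟨a, ha, h2⟩ := h.exists_conj_of_not_mem hQ (H := closure {z, t})
      ((closure_le _).2 (Set.insert_subset h.mem (Set.singleton_subset_iff.2 htQ)))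
      (subset_closure (by simp)) hs fun h2 => by
        rcases (ES.mem_closure_pair_iff h.mul_self ht2 (h.comm htQ).symm).1 h2 with rfl | rfl | rfl | rfl
        exacts [h.ne_one (isConj_one_left.1 hzs), hne rfl, htz hzs, h1 hzs]
    exact ⟨h1, a, ⟨ha.1, mem_centralizer_singleton_iff.2
      (ha.2 t (subset_closure (by simp))).symm⟩, h2⟩
  have hc : IsConj z (g * z * g⁻¹) := isConj_iff.2 ⟨g, rfl⟩
  obtain ⟨h0, a, ha, h1⟩ := key h hQ htQ.1 htz hgQ hc hne
  obtain ⟨-, b, hb, h2⟩ := key h' (ES.isExtraspecial_conj hQ g) htQ.2 (fun e => htz (hc.trans e))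
    (h.mem_conj hgQ) hc.symm hne.symm
  have h3 : b⁻¹ * a * (g * z * g⁻¹) * (b⁻¹ * a)⁻¹ = z := by
    calc _ = b⁻¹ * (a * (g * z * g⁻¹) * a⁻¹) * b := by group
      _ = z := by rw [h1, ← h.comm hgQ, ← h2]; group
  have h4 : a⁻¹ * b * z * (a⁻¹ * b)⁻¹ = g * z * g⁻¹ := by
    conv_lhs => rw [← h3]
    group
  refine ⟨?_, b⁻¹ * a, mul_mem (mem_sup_right (inv_mem hb)) (mem_sup_left (hP ▸ ha)), h3⟩
  have hzt : z ∈ centralizer ({t} : Set G) := mem_centralizer_singleton_iff.2 (h.comm htQ.1).symm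
  have hPQ : P ≤ Q := hP ▸ inf_le_left
  have hPt : P ≤ centralizer {t} := hP ▸ inf_le_right
  have hk : ∀ {x : centralizer ({t} : Set G)}, x ∈ (QuotientGroup.mk' ((zpowers t).subgroupOf
      (centralizer ({t} : Set G)))).ker ↔ (x : G) = 1 ∨ (x : G) = t := fun {x} => by
    rw [QuotientGroup.ker_mk', mem_subgroupOf, ES.mem_zpowers_iff_of_orderOf_two ht]
  have hN : ∀ c : G, (⁅c, z⁆ = 1 ∨ ⁅c, z⁆ = t) → c ∈ centralizer ({z} : Set G) := fun c h5 =>
    mem_centralizer_singleton_iff.2 (commutatorElement_eq_one_iff_mul_comm.1 (h5.resolve_right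
      fun e => h0 (isConj_iff.2 ⟨c, by rw [PGroup.conj_eq_commutator_mul, e, h.comm htQ.1]⟩)))
  have hzP : z ∈ P := hP ▸ ⟨h.mem, hzt⟩
  refine ES.isLarge_map (QuotientGroup.mk'_surjective _) (z := ⟨z, hzt⟩) hzP
    (Subtype.ext h.mul_self) (fun e => (hk.1 e).elim h.ne_one fun e => htz (e ▸ .refl _))
    (fun x hx => mem_centralizer_singleton_iff.2 (Subtype.ext (h.comm (hPQ hx))))
    (fun x hx => ?_) (fun c hc => ?_) (fun c hc => ?_)
    (g := ⟨a⁻¹ * b, mul_mem (inv_mem ha.2) hb.2⟩) ?_ fun e => ?_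
  · obtain ⟨k, hk⟩ := h.sq_mem x (hPQ hx)
    exact ⟨k, Subtype.ext hk⟩
  · have h5 : ∀ x ∈ P, ⁅(c : G), x⁆ = 1 ∨ ⁅(c : G), x⁆ = t := fun x hx =>
      hk.1 (hc ⟨x, hPt hx⟩ hx)
    have h6 : (c : G) ∈ Q := (hCP c (hN c (h5 z hzP))).1 fun x hx => by
      rw [PGroup.conj_eq_commutator_mul]
      rcases h5 x hx with e | e <;> rw [e]
      · exact ⟨1, one_mem _, by simp⟩
      · exact ⟨t, subset_closure (by simp), (mem_centralizer_singleton_iff.1 (hPt hx)).symm⟩
    have h7 := ES.inf_centralizer_inf_centralizer hQ (zpowers_le.2 htQ.1)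
    rw [Core.centralizer_zpowers, ← hP, ES.inf_centralizer_eq_zpowers hQ h.mem h.ne_one h.cent,
      sup_comm, ← PGroup.closure_pair_eq_sup] at h7
    have h8 := (ES.mem_closure_pair_iff h.mul_self ht2 (h.comm htQ.1).symm).1 (h7.le ⟨h6,
      fun x hx => (commutatorElement_eq_one_iff_mul_comm.1 ((h5 x hx).resolve_right fun e =>
        (h.mem_iff.1 (e ▸ h.commutator_mem h6 (hPQ hx))).elim (ES.ne_one_of_orderOf_two ht)
          fun e => htz (e ▸ .refl _))).symm⟩)
    have h9 : ∀ x : centralizer ({t} : Set G), (x : G) = 1 ∨ (x : G) = t →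
        QuotientGroup.mk' ((zpowers t).subgroupOf (centralizer ({t} : Set G))) x = 1 :=
      fun x hx => hk.2 hx
    rcases h8 with e | e | e | e
    · exact h9 c (Or.inl e) ▸ one_mem _
    · exact (Subtype.ext e : c = ⟨z, hzt⟩) ▸ mem_zpowers _
    · exact h9 c (Or.inr e) ▸ one_mem _
    · rw [(Subtype.ext e : c = ⟨z, hzt⟩ * ⟨t, mem_centralizer_singleton_iff.2 rfl⟩), map_mul,
        h9 ⟨t, _⟩ (Or.inr rfl), mul_one]
      exact mem_zpowers _
  · rw [← subgroupOf_normalizer_eq hPt]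
    exact hP ▸ Core.le_normalizer_inf (A := zpowers (c : G)) (zpowers_le.2 (h.norm (hN c (hk.1 hc))))
      (zpowers_le.2 (le_normalizer c.2)) (mem_zpowers _)
  · change a⁻¹ * b * z * (a⁻¹ * b)⁻¹ ∈ P
    exact h4 ▸ hP ▸ ⟨hgQ, mem_centralizer_singleton_iff.2 (h'.comm htQ.2).symm⟩
  · have h6 : z⁻¹ * (a⁻¹ * b * z * (a⁻¹ * b)⁻¹) ∈ zpowers t :=
      QuotientGroup.eq (s := (zpowers t).subgroupOf (centralizer ({t} : Set G))).1 e.symm
    rw [h4, ES.mem_zpowers_iff_of_orderOf_two ht, inv_mul_eq_one, inv_mul_eq_iff_eq_mul] at h6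
    exact h6.elim hne.symm fun e => h0 (e ▸ hc)

end Cfsg.Agent.S5429
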