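import Cfsg.Statements.S5430
import Cfsg.Agent.Lib.Extraspecial.Pair

set_option autoImplicit false
open Cfsg Cfsg.Lib Subgroup
open scoped commutatorElement

namespace Cfsg.Agent.S5430

/-- Let Q be a large extraspecial 2-subgroup of the finite group G (extraspecial; centralizer equal to its centre; normal in the centralizer of its centre; normalizing no non-trivial subgroup of odd order) with centre generated by z, an involution, of width w ≥ 2 (order 2^(2w+1)); let g be an element outside the centralizer H of z with g z g⁻¹ in Q; write V for the subgroup generated by z and g z g⁻¹, X for the subgroup generated by Q and g Q g⁻¹, R for the subgroup generated by the centralizer of z in g Q g⁻¹ and the centralizer of g z g⁻¹ in Q, and E for the intersection of Q and g Q g⁻¹. Then R is the centralizer of V in X and is the largest normal 2-subgroup of X, and X/R is isomorphic to the symmetric group of degree 3; moreover the normalizer of V is the product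 of X and the centralizer of V in H, X is normal in it, and modulo R it is the direct product of X/R and of the centralizer of V in H modulo R. -/
theorem result {G : Type*} [Group G] [Finite G] (Q : Subgroup G) (hQ : Cfsg.IsLargeExtraspecial Q) (z : G) (hz : ((Subgroup.center ↥Q).map Q.subtype) = Subgroup.zpowers z) (hz2 : orderOf z = 2) (w : ℕ) (hw : 2 ≤ w) (hcard : Nat.card ↥Q = 2 ^ (2 * w + 1)) (g : G) (hgH : g ∉ Subgroup.centralizer ({z} : Set G)) (hgQ : g * z * g⁻¹ ∈ Q) (V X R E : Subgroup G) (hV : V = Subgroup.closure ({z, g * z * g⁻¹} : Set G)) (hX : X = Q ⊔ (Q).map (MulAut.conj g).toMonoidHom) (hR : R = ((Q).map (MulAut.conj g).toMonoidHom ⊓ Subgroup.centralizer ({z} : Set G)) ⊔ (Q ⊓ Subgroup.centralizer ({g * z * g⁻¹} : Set G))) (hE : E = Q ⊓ (Q).map (MulAut.conj g).toMonoidHom) : R = X ⊓ Subgroup.centralizer (V : Set G) ∧ R = (Cfsg.pCore 2 ↥X).map X.subtype ∧ (∃ h : (R.subgroupOf X).Normal, Nonempty (↥X ⧸ R.subgroupOf X ≃* Equiv.Perm (Fin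 3))) ∧ Subgroup.normalizer (V : Set G) = X ⊔ (Subgroup.centralizer ({z} : Set G) ⊓ Subgroup.centralizer (V : Set G)) ∧ (∀ y ∈ Subgroup.normalizer (V : Set G), ∀ x ∈ X, y * x * y⁻¹ ∈ X) ∧ R ≤ Subgroup.centralizer ({z} : Set G) ⊓ Subgroup.centralizer (V : Set G) ∧ (∀ x ∈ X, ∀ c ∈ Subgroup.centralizer ({z} : Set G) ⊓ Subgroup.centralizer (V : Set G), x * c * x⁻¹ * c⁻¹ ∈ R) ∧ X ⊓ (Subgroup.centralizer ({z} : Set G) ⊓ Subgroup.centralizer (V : Set G)) = R := by
  obtain ⟨y, h, hy⟩ := ES.exists_lg hQ.1 hQ.2.1 hQ.2.2.1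
  obtain rfl : z = y :=
    (h.mem_iff.1 (hy ▸ hz ▸ mem_zpowers z)).resolve_left (ES.ne_one_of_orderOf_two hz2)
  have hne : g * z * g⁻¹ ≠ z :=
    fun e => hgH (mem_centralizer_singleton_iff.2 (mul_inv_eq_iff_eq_mul.1 e))
  have hp := h.pr hgQ hne
  have hC : centralizer (V : Set G) = centralizer {z} ⊓ centralizer {g * z * g⁻¹} :=
    hV ▸ ES.Pr.centralizer_pair
  have hC' : centralizer {z} ⊓ centralizer (V : Set G) = centralizer (V : Set G) :=
    inf_eq_right.2 (hC ▸ inf_le_left)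
  have hRX : R ≤ X := hR ▸ hX ▸ sup_le (inf_le_left.trans le_sup_right)
    (inf_le_left.trans le_sup_left)
  have hXR : X ≤ normalizer (R : Set G) := hX ▸ hR ▸ hp.le_normalizer_rad
  have hXV : X ≤ normalizer (V : Set G) := hX ▸ hV ▸ hp.le_normalizer le_rfl hp.closure_le
  have hRC : R ≤ centralizer (V : Set G) := hC ▸ hR ▸ hp.rad_le
  have hXC : ⁅X, centralizer (V : Set G)⁆ ≤ R := hC ▸ hX ▸ hR ▸ hp.commutator_le_rad
  have hn : (R.subgroupOf X).Normal := (normal_subgroupOf_iff_le_normalizer hRX).2 hXR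
  obtain ⟨e⟩ : Nonempty (↥X ⧸ R.subgroupOf X ≃* Equiv.Perm (Fin 3)) := by
    subst hX
    exact ⟨(h.nonempty_quotient_rad_equiv hgQ hne rfl hR).some.trans
      ES.nonempty_dihedral_three_equiv.some⟩
  have h1 : R = X ⊓ centralizer (V : Set G) := by
    refine le_antisymm (le_inf hRX hRC) fun x hx => ?_
    have h1 : ∀ a : Equiv.Perm (Fin 3), (∀ b : Equiv.Perm (Fin 3), ⁅b, a⁆ = 1) → a = 1 := by decide
    refine (QuotientGroup.eq_one_iff (N := R.subgroupOf X) ⟨x, hx.1⟩).1
      (e.map_eq_one_iff.1 (h1 _ fun b => ?_))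
    obtain ⟨b, rfl⟩ := e.surjective b
    obtain ⟨b, rfl⟩ := QuotientGroup.mk'_surjective _ b
    rw [← map_commutatorElement, ← QuotientGroup.mk'_apply, ← map_commutatorElement,
      e.map_eq_one_iff]
    exact (QuotientGroup.eq_one_iff _).2 (hXC (commutator_mem_commutator b.2 hx.2))
  have hzV : z ∈ V := hV ▸ subset_closure (by simp)
  have htV : g * z * g⁻¹ ∈ V := hV ▸ subset_closure (by simp)
  have h2 : ∀ u ∈ V, ∀ v ∈ V, u ≠ 1 → v ≠ 1 → u ≠ v →
      ∃ x ∈ X, x * z * x⁻¹ = u ∧ x * (g * z * g⁻¹) * x⁻¹ = v := fun u hu v hv =>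
    hX ▸ h.exists_conj_pair hgQ hne (hV ▸ hu) (hV ▸ hv)
  have h3 : normalizer (V : Set G) = X ⊔ centralizer (V : Set G) := by
    refine le_antisymm (fun n hn => ?_) (sup_le hXV (centralizer_le_normalizer _))
    obtain ⟨x, hx, h3, h4⟩ := h2 _ ((mem_normalizer_iff.1 hn _).1 hzV) _
      ((mem_normalizer_iff.1 hn _).1 htV) (by simpa using h.ne_one) (by simpa using h.ne_one)
      (fun e => hne (mul_left_cancel (mul_right_cancel e)).symm)
    have h5 : ∀ a, x * a * x⁻¹ = n * a * n⁻¹ → x⁻¹ * n ∈ centralizer ({a} : Set G) := fun a ha =>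
      mem_centralizer_singleton_iff.2 (by
        calc _ = x⁻¹ * (n * a * n⁻¹) * n := by group
          _ = _ := by rw [← ha]; group)
    simpa using mul_mem (mem_sup_left hx) (mem_sup_right (hC.ge ⟨h5 _ h3, h5 _ h4⟩))
  rw [hC']
  refine ⟨h1, le_antisymm (Core.le_pCoreOf hRX hXR (hR ▸ hp.isPGroup_rad)) ?_, ⟨hn, ⟨e⟩⟩, h3,
    fun y hy x hx => (mem_normalizer_iff.1 ((?_ : _ ≤ normalizer (X : Set G)) hy) x).1 hx, hRC,
    fun x hx c hc => hXC (commutator_mem_commutator hx hc), h1.symm⟩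
  · obtain ⟨u, hu, h4, h5⟩ := PGroup.exists_mem_centralizer_orderOf_eq
      (h.isPGroup.to_le (hV ▸ hp.closure_le.trans inf_le_left)) (Core.pCoreOf_isPGroup 2 X)
      ((Core.pCoreOf_le 2 X).trans hXV) fun e => h.ne_one (mem_bot.1 (e ▸ hzV))
    have h6 := Core.le_normalizer_centralizer (Core.le_normalizer_pCoreOf 2 X)
    have h7 := ES.ne_one_of_orderOf_two h5
    have h8 : ∀ x ∈ X, ∀ a, x * a * x⁻¹ = u →
        (pCore 2 X).map X.subtype ≤ centralizer ({a} : Set G) := fun x hx a e b hb =>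
      mem_centralizer_singleton_iff.2 ((mem_normalizer_iff.1 (h6 hx) a).2 (e ▸ h4) b hb)
    obtain ⟨v, hv, hv1, hvu⟩ : ∃ v ∈ V, v ≠ 1 ∧ u ≠ v := by
      by_cases e : u = z
      exacts [⟨_, htV, hp.r.ne_one, e ▸ hne.symm⟩, ⟨z, hzV, h.ne_one, e⟩]
    obtain ⟨a, ha, h9, -⟩ := h2 u hu v hv h7 hv1 hvu
    obtain ⟨b, hb, -, h10⟩ := h2 v hv u hu hv1 h7 hvu.symm
    rw [h1, hC]
    exact le_inf (Core.pCoreOf_le 2 X) (le_inf (h8 a ha _ h9) (h8 b hb _ h10))
  · rw [h3, hC, hX]
    exact sup_le le_normalizer (Core.le_normalizer_sup (inf_le_left.trans h.norm)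
      (inf_le_right.trans hp.r.norm))

end Cfsg.Agent.S5430
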