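import Cfsg.Statements.S5431
import Cfsg.Agent.Lib.Extraspecial.Pair

set_option autoImplicit false
open Cfsg Cfsg.Lib Subgroup
open scoped commutatorElement

namespace Cfsg.Agent.S5431

/-- Let Q be a large extraspecial 2-subgroup of the finite group G (extraspecial; centralizer equal to its centre; normal in the centralizer of its centre; normalizing no non-trivial subgroup of odd order) with centre generated by z, an involution, of width w ≥ 2 (order 2^(2w+1)); let g be an element outside the centralizer H of z with g z g⁻¹ in Q; write V for the subgroup generated by z and g z g⁻¹, X for the subgroup generated by Q and g Q g⁻¹, R for the subgroup generated by the centralizer of z in g Q g⁻¹ and the centralizer of g z g⁻¹ in Q, and E for the intersection of Q and g Q g⁻¹. Then V is the centre of R, E lies in the second centre of R, R is nilpotent of class at most 3, E and R/E are elementary abelian, R/E is the direct product of the images of the centralizer of g z g⁻¹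 in Q and of the centralizer of z in g Q g⁻¹ (R is their product and they meet in E), and the commutator subgroup of X and E lies in V. -/
theorem result {G : Type*} [Group G] [Finite G] (Q : Subgroup G) (hQ : Cfsg.IsLargeExtraspecial Q) (z : G) (hz : ((Subgroup.center ↥Q).map Q.subtype) = Subgroup.zpowers z) (hz2 : orderOf z = 2) (w : ℕ) (hw : 2 ≤ w) (hcard : Nat.card ↥Q = 2 ^ (2 * w + 1)) (g : G) (hgH : g ∉ Subgroup.centralizer ({z} : Set G)) (hgQ : g * z * g⁻¹ ∈ Q) (V X R E : Subgroup G) (hV : V = Subgroup.closure ({z, g * z * g⁻¹} : Set G)) (hX : X = Q ⊔ (Q).map (MulAut.conj g).toMonoidHom) (hR : R = ((Q).map (MulAut.conj g).toMonoidHom ⊓ Subgroup.centralizer ({z} : Set G)) ⊔ (Q ⊓ Subgroup.centralizer ({g * z * g⁻¹} : Set G))) (hE : E = Q ⊓ (Q).map (MulAut.conj g).toMonoidHom) : (Subgroup.center ↥R).map R.subtype = V ∧ E ≤ (Subgroup.upperCentralSeries ↥R 2).map R.subtype ∧ Subgroup.upperCentralSeries ↥R 3 = ⊤ ∧ Cfsg.IsElementaryAbelian 2 E ∧ (∀ x ∈ R, ∀ y ∈ R, x *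 y * x⁻¹ * y⁻¹ ∈ E ∧ x ^ 2 ∈ E) ∧ ((Q).map (MulAut.conj g).toMonoidHom ⊓ Subgroup.centralizer ({z} : Set G)) ⊓ (Q ⊓ Subgroup.centralizer ({g * z * g⁻¹} : Set G)) = E ∧ ⁅X, E⁆ ≤ V := by
  obtain ⟨y, h, hy⟩ := ES.exists_lg hQ.1 hQ.2.1 hQ.2.2.1
  obtain rfl : z = y :=
    (h.mem_iff.1 (hy ▸ hz ▸ mem_zpowers z)).resolve_left (ES.ne_one_of_orderOf_two hz2)
  have hp := h.pr hgQ fun e => hgH (mem_centralizer_singleton_iff.2 (mul_inv_eq_iff_eq_mul.1 e))
  have hER : E ≤ R := hE ▸ hR ▸ hp.inf_le.trans le_sup_right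
  have hRX : R ≤ X := hR ▸ hX ▸ sup_le (inf_le_left.trans le_sup_right)
    (inf_le_left.trans le_sup_left)
  have h1 : (center R).map R.subtype = V := by
    rw [Core.map_subtype_center]
    refine le_antisymm (inf_le_right.trans ((centralizer_le (hR ▸ le_sup_right)).trans
      (hV ▸ hp.centralizer_inf_le hQ.1))) (le_inf (hV ▸ hp.closure_le.trans (hE ▸ hER)) ?_)
    rw [le_centralizer_iff, hV, ES.Pr.centralizer_pair, hR]
    exact hp.rad_le
  have h2 : ⁅X, E⁆ ≤ V := hX ▸ hE ▸ hV ▸ hp.commutator_inf_le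
  have h3 : ⁅R, R⁆ ≤ E := hR ▸ hE ▸ hp.commutator_rad_le
  have h4 : ∀ x : R, (x : G) ∈ E → x ∈ Subgroup.upperCentralSeries R 2 := fun x hx =>
    Subgroup.mem_upperCentralSeries_succ_iff.2 fun y => by
      rw [Subgroup.upperCentralSeries_one, ← Core.subgroupOf_map_subtype_self (center R), h1]
      exact h2 (commutator_comm E X ▸ commutator_mem_commutator hx (hRX y.2))
  refine ⟨h1, fun x hx => ⟨⟨x, hER hx⟩, h4 _ hx, rfl⟩, eq_top_iff.2 fun x _ =>
    Subgroup.mem_upperCentralSeries_succ_iff.2 fun y => h4 _ (h3 (commutator_mem_commutator x.2 y.2)),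
    PGroup.elemAb_two_iff.2 fun x hx => hp.sq_eq_one (hE ▸ hx), fun x hx y hy =>
    ⟨h3 (commutator_mem_commutator hx hy), hE ▸ hp.sq_mem_of_mem_rad (hR ▸ hx)⟩, ?_, h2⟩
  exact hE ▸ le_antisymm (fun x hx => ⟨hx.2.1, hx.1.1⟩)
    (le_inf (inf_comm Q _ ▸ hp.symm.inf_le) hp.inf_le)

end Cfsg.Agent.S5431
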