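import Cfsg.Statements.S5433
import Cfsg.Agent.Lib.Extraspecial.Structure

set_option autoImplicit false
open Cfsg Cfsg.Lib Subgroup
open scoped commutatorElement

namespace Cfsg.Agent.S5433

/-- Let Q be a large extraspecial 2-subgroup of the finite group G (extraspecial; centralizer equal to its centre; normal in the centralizer of its centre; normalizing no non-trivial subgroup of odd order), and L a normal subgroup of G containing Q. Then G is the product of L and the normalizer of Q. -/
theorem result {G : Type*} [Group G] [Finite G] (Q : Subgroup G) (hQ : Cfsg.IsLargeExtraspecial Q) (L : Subgroup G) [L.Normal] (hQL : Q ≤ L) : L ⊔ Subgroup.normalizer (Q : Set G) = ⊤ := by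
  obtain ⟨z, h, -⟩ := ES.exists_lg hQ.1 hQ.2.1 hQ.2.2.1
  exact eq_top_iff.2 ((h.sup_centralizer_eq_top L hQL).ge.trans (sup_le_sup_left h.norm L))

end Cfsg.Agent.S5433
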