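import Cfsg.Statements.S5434
import Cfsg.Agent.Lib.Extraspecial.Coprime

set_option autoImplicit false
open Cfsg Cfsg.Lib Subgroup
open scoped commutatorElement

namespace Cfsg.Agent.S5434

/-- Let Q be a large extraspecial 2-subgroup of the finite group G (extraspecial; centralizer equal to its centre; normal in the centralizer of its centre; normalizing no non-trivial subgroup of odd order), and A a non-trivial subgroup of odd order of the normalizer of Q. Then Q is the central product of the centralizer of A in Q and the commutator subgroup [Q, A] (they generate Q and commute elementwise), [Q, A] is extraspecial, and the centralizer of A in Q is either the centre of Q or extraspecial. -/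
theorem result {G : Type*} [Group G] [Finite G] (Q : Subgroup G) (hQ : Cfsg.IsLargeExtraspecial Q) (A : Subgroup G) (hA : A ≤ Subgroup.normalizer (Q : Set G)) (hAodd : Odd (Nat.card ↥A)) (hA1 : A ≠ ⊥) : (Q ⊓ Subgroup.centralizer (A : Set G)) ⊔ ⁅Q, A⁆ = Q ∧ (∀ x ∈ Q ⊓ Subgroup.centralizer (A : Set G), ∀ y ∈ ⁅Q, A⁆, x * y = y * x) ∧ Cfsg.IsExtraspecial 2 ↥⁅Q, A⁆ ∧ (Q ⊓ Subgroup.centralizer (A : Set G) = ((Subgroup.center ↥Q).map Q.subtype) ∨ Cfsg.IsExtraspecial 2 ↥(Q ⊓ Subgroup.centralizer (A : Set G))) := by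
  obtain ⟨z, h, hz⟩ := ES.exists_lg hQ.1 hQ.2.1 hQ.2.2.1
  have hc : (Nat.card A).Coprime 2 := Nat.coprime_two_right.2 hAodd
  have hZ : A ≤ centralizer ((Q ⊓ centralizer (Q : Set G) : Subgroup G) : Set G) := by
    rw [← Core.map_subtype_center, hz, Core.centralizer_zpowers]
    exact hA.trans h.normalizer_le
  refine ⟨ES.cop_sup hQ.1 hA hc, fun x hx y hy => (ES.cop_comm hQ.1 hZ hx y hy).symm,
    ES.cop_isExtraspecial_commutator hQ.1 hA hc hZ fun h1 => hA1 ?_, ?_⟩
  · exact hQ.2.2.2 A hAodd ((le_centralizer_iff.1 h1).trans (centralizer_le_normalizer _))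
  · rw [Core.map_subtype_center]
    exact ES.cop_isExtraspecial_centralizer hQ.1 hA hc hZ

end Cfsg.Agent.S5434
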