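import Cfsg.Statements.S5435
import Cfsg.Agent.Lib.Transfer.Extremal
import Cfsg.Agent.Lib.Extraspecial.Hall
import Cfsg.Agent.Lib.Comp.Quasisimple

set_option autoImplicit false
open Cfsg Cfsg.Lib Subgroup
open scoped commutatorElement

namespace Cfsg.Agent.S5435

/-- Let L be a finite non-abelian simple group with an involution z whose centralizer R is a Sylow 2-subgroup of L whose Frattini subgroup is the subgroup generated by z. Then R is dihedral of order 8. -/
theorem result {L : Type*} [Group L] [Finite L] [IsSimpleGroup L] (hL : ¬ IsMulCommutative L) (z : L) (hz : orderOf z = 2) (R : Sylow 2 L) (hR : (R : Subgroup L) = Subgroup.centralizer ({z} : Set L)) (hΦ : (frattini ↥(R : Subgroup L)).map (R : Subgroup L).subtype = Subgroup.zpowers z) : Nonempty (↥(R : Subgroup L) ≃* DihedralGroup 4) := by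
  have hp := R.isPGroup'
  obtain ⟨h1, h2⟩ := (PGroup.map_subtype_frattini_le_iff hp).1 hΦ.le
  have hzR : z ∈ (R : Subgroup L) := hR ▸ mem_centralizer_singleton_iff.2 rfl
  have hN : normalizer (zpowers z : Set L) ≤ R := fun g hg => by
    rw [hR, mem_centralizer_singleton_iff, ← mul_inv_eq_iff_eq_mul]
    exact ((ES.mem_zpowers_iff_of_orderOf_two hz).1 ((mem_normalizer_iff.1 hg z).1
      (mem_zpowers z))).resolve_left (by simpa using ES.ne_one_of_orderOf_two hz)
  have h : ES.Lg (R : Subgroup L) z := ⟨⟨hzR, hz, hR.le, h2, fun a ha hc ha2 => by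
      by_contra h3
      obtain ⟨M, -, h4, h5⟩ := PGroup.exists_index_eq_not_mem (PGroup.commutator_le_frattini hp)
        (PGroup.pow_mem_frattini hp) (x := ⟨a, ha⟩) fun h4 => h3 (hΦ ▸ ⟨_, h4, rfl⟩)
      have h6 := Core.subgroupOf_map_subtype_self M
      have : ((M.map (R : Subgroup L).subtype).subgroupOf R).Normal :=
        h6.symm ▸ normal_of_index_eq_two h5
      obtain ⟨g, h7, -, h8⟩ := Transfer.exists_conj_mem_and_conj_le R
        (T := M.map (R : Subgroup L).subtype) (isCyclic_of_prime_card (p := 2) (by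
          rw [← index_eq_card, h6, h5])) (y := a) (by rw [← sq, ha2])
        (by rw [Transfer.pResidual_eq_top_of_simple hL, top_sup_eq]; trivial) hp
        fun x hx => mem_centralizer_singleton_iff.2 (hc x hx)
      have h9 := hN (hΦ ▸ Core.normalizer_le_normalizer_map_subtype _
        (Transfer.mem_normalizer_of_conj_le h8))
      rw [hc g h9, mul_inv_cancel_right] at h7
      exact h4 (h6 ▸ h7)⟩,
    hR.symm ▸ centralizer_le (Set.singleton_subset_iff.2 (mem_centralizer_singleton_iff.2 rfl)),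
    hR.ge.trans le_normalizer⟩
  obtain ⟨g, h3, h4⟩ : ∃ g : L, g * z * g⁻¹ ∈ (R : Subgroup L) ∧ g * z * g⁻¹ ≠ z := by
    by_contra h3
    push Not at h3
    have h4 := Transfer.gruen_commutator_inf R h.zpowers_le_centralizer ⟨h.zpowers_le, fun g hg => by
      rw [Transfer.conj_zpowers] at hg ⊢
      rw [h3 g (hg (mem_zpowers _))]⟩
    rw [Comp.isQuasisimple_commutator_eq_top (Comp.isQuasisimple_of_isSimpleGroup hL),
      top_inf_eq] at h4
    have h5 : (R : Subgroup L) ≤ zpowers z :=
      h4.le.trans (inf_le_left.trans ((commutator_mono hN hN).trans h1))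
    refine h.ne_one (mem_bot.1 ((PGroup.map_subtype_frattini_le_iff hp).2 ⟨?_, fun x hx => ?_⟩
      (hΦ.ge (mem_zpowers z))))
    · rw [le_bot_iff, commutator_eq_bot_iff_le_centralizer]
      exact h5.trans h.zpowers_le_centralizer
    · rcases h.mem_iff.1 (h5 hx) with rfl | rfl
      · simp
      · rw [sq, h.mul_self]; exact one_mem _
  have h' := h.conj g
  have h5 : ∀ x ∈ (R : Subgroup L) ⊓ centralizer {g * z * g⁻¹}, x ^ 2 = 1 := fun x hx => by
    have h6 : x ∈ (R : Subgroup L).map (MulAut.conj g).toMonoidHom := by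
      rw [hR, ES.map_conj_centralizer_singleton]; exact hx.2
    rcases h.mem_iff.1 (h.sq_mem x hx.1) with h7 | h7
    · exact h7
    · exact (h'.mem_iff.1 (h'.sq_mem x h6)).resolve_right fun h8 => h4 (h8.symm.trans h7)
  have ho := h'.ord
  generalize g * z * g⁻¹ = t at *
  have h6 := h.not_mem_centralizer h3 ho h4
  have hE : IsExtraspecial 2 (R : Subgroup L) := ES.isExtraspecial_of_card hp h.card_zpowers
    (le_antisymm (fun x hx => h.omega x hx.1 hx.2 (h5 x ⟨hx.1, mem_centralizer_singleton_iff.2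
      (hx.2 t h3).symm⟩)) (le_inf h.zpowers_le h.zpowers_le_centralizer)) h1 h2
    fun e => h6 (h.zpowers_le_centralizer (e ▸ h3))
  obtain ⟨n, -, hn⟩ := ES.exists_card_eq_of_isExtraspecial hE
  have h7 := ES.card_le_of_isMulCommutative hE hn (A := (centralizer {t}).subgroupOf R)
    (PGroup.elemAb_two_iff.2 fun x hx => Subtype.ext (h5 x ⟨x.2, hx⟩)).1
  have h8 : Nat.card (R : Subgroup L) ≤ 2 ^ (n + 1) * 2 :=
    (card_mul_index _).ge.trans (Nat.mul_le_mul h7 (h.relIndex_centralizer_le h3))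
  rw [hn, ← pow_succ, Nat.pow_le_pow_iff_right one_lt_two] at h8
  obtain ⟨a, ha, ha2, hat⟩ : ∃ a ∈ (R : Subgroup L), a ^ 2 = z ∧ a * t * a⁻¹ = z * t := by
    obtain ⟨s, hs, hst⟩ := h.exists_conj h3 h6
    rcases h.mem_iff.1 (h2 s hs) with h9 | h9
    · refine ⟨s * t, mul_mem hs h3, ?_, by rw [← hst]; group⟩
      rw [sq] at h9 ⊢
      calc s * t * (s * t) = s * t * s⁻¹ * (s * s) * t := by group
        _ = z := by rw [hst, h9, mul_one, mul_assoc, ES.mul_self_of_orderOf_two ho, mul_one]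
    · exact ⟨s, hs, h9, hst⟩
  have h9 : t ∉ zpowers a := by
    rintro ⟨k, rfl⟩
    exact h.ne_one (mul_eq_right.1 (hat.symm.trans (by group)))
  obtain ⟨e⟩ := PGroup.nonempty_sup_mulEquiv_dihedral (n := 4) (a := a) (b := t)
    (orderOf_eq_prime_pow (p := 2) (n := 1) (by rw [pow_one, ha2]; exact h.ne_one)
      (by rw [show 2 ^ (1 + 1) = 2 * 2 from rfl, pow_mul, ha2, sq, h.mul_self]))
    (ho ▸ pow_orderOf_eq_one t) (by
      calc t * a * t⁻¹ = (a⁻¹ * (a * t * a⁻¹) * t⁻¹)⁻¹ := by group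
        _ = a⁻¹ := by rw [hat, ← ha2]; group) h9
  refine ⟨(MulEquiv.subgroupCongr (eq_of_le_of_card_ge
    (sup_le (zpowers_le.2 ha) (zpowers_le.2 h3)) ?_)).symm.trans e⟩
  rw [Nat.card_congr e.toEquiv, DihedralGroup.nat_card, hn]
  exact Nat.pow_le_pow_right two_pos (show 2 * n + 1 ≤ 3 by omega)

end Cfsg.Agent.S5435
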