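import Cfsg.Statements.S5436
import Cfsg.Agent.Lib.Extraspecial.Structure

set_option autoImplicit false
open Cfsg Cfsg.Lib Subgroup
open scoped commutatorElement

namespace Cfsg.Agent.S5436

/-- Let z be an involution of the finite group G with centralizer H whose generalized Fitting subgroup Q is extraspecial of width at least 2 (order 2^(2w+1), w ≥ 2); suppose some conjugate of z other than z lies in Q, H/Q is a non-abelian simple group, H acts irreducibly by conjugation on Q modulo the subgroup generated by z (the only H-invariant subgroups of Q containing z are that subgroup and Q), and Q is not the subgroup generated by the conjugates of z lying in H. Then G is simple. -/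
theorem result {G : Type*} [Group G] [Finite G] (z : G) (hz : orderOf z = 2) (Q : Subgroup (Subgroup.centralizer ({z} : Set G))) [Q.Normal] (hF : Cfsg.generalizedFittingSubgroup ↥(Subgroup.centralizer ({z} : Set G)) = Q) (hQ : Cfsg.IsExtraspecial 2 ↥Q) (w : ℕ) (hw : 2 ≤ w) (hcard : Nat.card ↥Q = 2 ^ (2 * w + 1)) (hnwc : ∃ g : G, (∃ hq : g * z * g⁻¹ ∈ Subgroup.centralizer ({z} : Set G), (⟨g * z * g⁻¹, hq⟩ : Subgroup.centralizer ({z} : Set G)) ∈ Q) ∧ g * z * g⁻¹ ≠ z) (hsimp : IsSimpleGroup (↥(Subgroup.centralizer ({z} : Set G)) ⧸ Q)) (hna : ¬ IsMulCommutative (↥(Subgroup.centralizer ({z} : Set G)) ⧸ Q)) (hirr : ∀ W : Subgroup (Subgroup.centralizer ({z} : Set G)), W.Normal → W ≤ Q → (W = Q ∨ ∀ x ∈ W, (x : G) ∈ Subgroup.zpowers z)) (hwcl : Subgroup.closure {x : Subgroup.centralizer ({z} : Set G) | IsConj z (x : G)} ≠ Q) : IsSimpleGroup G := by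
  subst hF
  have hQ' := ES.isExtraspecial_map hQ (centralizer ({z} : Set G)).subtype_injective
  have h := ES.lg_of_genFitting hz rfl hQ'
  obtain ⟨g, ⟨h1, h2⟩, h3⟩ := hnwc
  have hK : ∀ K : Subgroup G, Odd (Nat.card K) → _ ≤ normalizer (K : Set G) → K = ⊥ :=
    fun K hK hn => h.eq_bot_of_conj_mem ⟨_, h2, rfl⟩ h3 hK hn
  have hW : (closure {x : centralizer ({z} : Set G) | IsConj z (x : G)}).Normal := by
    refine Core.normal_of_top_le_normalizer fun c _ => Core.mem_normalizer_of_map_conj_le ?_
    rw [MonoidHom.map_closure, closure_le]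
    rintro _ ⟨x, hx, rfl⟩
    exact subset_closure (hx.trans (isConj_iff.2 ⟨c, rfl⟩))
  have hQW : _ ≤ closure {x : centralizer ({z} : Set G) | IsConj z (x : G)} :=
    inf_eq_left.1 ((hirr _ inferInstance inf_le_left).resolve_right fun h4 =>
      (h.mem_iff.1 (h4 _ ⟨h2, subset_closure (isConj_iff.2 ⟨g, rfl⟩)⟩)).elim
        (by simpa using h.ne_one) h3)
  have hWt : closure {x : centralizer ({z} : Set G) | IsConj z (x : G)} = ⊤ := by
    rcases (hW.map _ (QuotientGroup.mk'_surjective (generalizedFittingSubgroup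
      (centralizer ({z} : Set G))))).eq_bot_or_eq_top with h4 | h4
    · exact absurd (le_antisymm ((Core.map_mk'_eq_bot_iff _ _).1 h4) hQW) hwcl
    · rwa [Core.map_mk'_eq_top_iff, sup_eq_left.2 hQW] at h4
  have hC : centralizer {z} ≤ normalClosure ({z} : Set G) := by
    rw [← Core.map_subtype_top (centralizer _), ← hWt, MonoidHom.map_closure, closure_le]
    rintro _ ⟨x, hx, rfl⟩
    obtain ⟨k, hk⟩ := isConj_iff.1 hx
    exact (show _ = (centralizer ({z} : Set G)).subtype x from hk) ▸
      normalClosure_normal.conj_mem z (subset_normalClosure (Set.mem_singleton z)) k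
  rcases h.structure_cases hK rfl with h1 | h1 | ⟨-, L, u, -, -, -, -, -, -, z₁, -, -, -, h1⟩
  · exact absurd (PGroup.isMulCommutative_of_le (h.cent.trans hC) h1.1)
      (ES.not_isMulCommutative hQ')
  · have h2 := h.sup_centralizer_eq_top _ (h.cent.trans hC)
    rw [sup_eq_left.2 hC] at h2
    have := h1.2.1
    exact ((MulEquiv.subgroupCongr h2).trans topEquiv).symm.isSimpleGroup
  · exact absurd (by rw [Comp.genFitting_eq_pCore_iff_isPGroup.2 hQ.1.1]) h1

end Cfsg.Agent.S5436
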