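import Cfsg.Statements.S5437
import Cfsg.Agent.Lib.Core.Basic

set_option autoImplicit false
open Cfsg Cfsg.Lib Subgroup
open scoped commutatorElement

namespace Cfsg.Agent.S5437

/-- Let I be a set of involutions of the finite group G closed under conjugation, and H a subgroup of G. The following are equivalent: (1) for every member x of I lying in H, the conjugates of x lying in H form a single H-class and the centralizer of x lies in H; (2) for every g outside H, no member of I lies in both H and g H g⁻¹; (3) every member of I lying in H fixes exactly one coset in the action of G on the cosets of H. -/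
theorem result {G : Type*} [Group G] [Finite G] (I : Set G) (hI : ∀ x ∈ I, orderOf x = 2) (hIc : ∀ g : G, ∀ x ∈ I, g * x * g⁻¹ ∈ I) (H : Subgroup G) : ((∀ x ∈ I, x ∈ H → (∀ g : G, g * x * g⁻¹ ∈ H → ∃ h ∈ H, h * x * h⁻¹ = g * x * g⁻¹) ∧ Subgroup.centralizer ({x} : Set G) ≤ H) ↔ (∀ g : G, g ∉ H → ∀ x ∈ I, ¬ (x ∈ H ∧ x ∈ (H : Subgroup G).map (MulAut.conj g).toMonoidHom))) ∧ ((∀ g : G, g ∉ H → ∀ x ∈ I, ¬ (x ∈ H ∧ x ∈ (H : Subgroup G).map (MulAut.conj g).toMonoidHom)) ↔ ∀ x ∈ I, x ∈ H → ∃! c : G ⧸ H, x • c = c) := by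
  have hfix : ∀ x g : G, x • (g : G ⧸ H) = g ↔ g⁻¹ * x * g ∈ H := fun x g => by
    rw [MulAction.Quotient.smul_mk, eq_comm, QuotientGroup.eq, smul_eq_mul, mul_assoc]
  simp only [Core.mem_map_conj]
  refine ⟨⟨fun h g hg x hx h1 => hg ?_, fun h x hx hxH => ⟨fun g hg => ⟨g, ?_, rfl⟩, fun c hc => ?_⟩⟩,
    fun h x hx hxH => ⟨(1 : G), (hfix x 1).2 (by simpa using hxH), fun q hq => ?_⟩,
    fun h g hg x hx h1 => hg ?_⟩
  · obtain ⟨k, hk, e⟩ := (h x hx h1.1).1 g⁻¹ (by simpa using h1.2)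
    refine (mul_mem_cancel_right hk).1 ((h x hx h1.1).2 (mem_centralizer_singleton_iff.2 ?_))
    calc g * k * x = g * (k * x * k⁻¹) * k := by group
      _ = _ := by rw [e]; group
  · exact by_contra fun h1 => h g⁻¹ (by simpa using h1) x hx ⟨hxH, by simpa using hg⟩
  · exact by_contra fun h1 => h c h1 x hx ⟨hxH, by
      rwa [mul_assoc, ← mem_centralizer_singleton_iff.1 hc, inv_mul_cancel_left]⟩
  · obtain ⟨g, rfl⟩ := QuotientGroup.mk_surjective q
    exact QuotientGroup.eq.2 (by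
      simpa using by_contra fun h1 => h g h1 x hx ⟨hxH, (hfix x g).1 hq⟩)
  · simpa using QuotientGroup.eq.1 ((h x hx h1.1).unique ((hfix x g).2 h1.2)
      ((hfix x 1).2 (by simpa using h1.1)))

end Cfsg.Agent.S5437
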