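import Cfsg.Statements.S5438
import Cfsg.Agent.Lib.Transfer.SylowIn
import Cfsg.Agent.Lib.PGroup.Basic
import Cfsg.Agent.Lib.Inv.Basic

set_option autoImplicit false
open Cfsg Cfsg.Lib Subgroup
open scoped commutatorElement

namespace Cfsg.Agent.S5438

/-- Let z be a 2-central involution of the finite group G (an involution central in some Sylow 2-subgroup) and H a subgroup containing z such that the coset H is the only coset of H fixed by z (in the action of G on the cosets of H). Then H has odd index in G, and for every 2-element x of H the conjugates of x lying in H form a single H-class. -/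
theorem result {G : Type*} [Group G] [Finite G] (z : G) (hz : Cfsg.IsTwoCentralInvolution z) (H : Subgroup G) (hzH : z ∈ H) (hfix : ∀ g : G, g⁻¹ * z * g ∈ H → g ∈ H) : Odd H.index ∧ ∀ x ∈ H, (∃ k : ℕ, orderOf x = 2 ^ k) → ∀ g : G, g * x * g⁻¹ ∈ H → ∃ h ∈ H, h * x * h⁻¹ = g * x * g⁻¹ := by
  obtain ⟨ho, P, hzP, hP⟩ := hz
  have h1 : (P : Subgroup G) ≤ H := fun g hg => hfix g (by
    rwa [mul_assoc, ← hP g hg, inv_mul_cancel_left])
  refine ⟨Nat.not_even_iff_odd.1 fun h => Transfer.not_dvd_index_of_sylow_le P h1 h.two_dvd, ?_⟩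
  have h2 : ∀ x ∈ H, (∃ k : ℕ, orderOf x = 2 ^ k) →
      ∃ k ∈ H, k⁻¹ * z * k ∈ centralizer ({x} : Set G) := fun x hx ⟨k, hk⟩ => by
    obtain ⟨a, ha, h2⟩ := Transfer.exists_conj_le_of_not_dvd_relIndex'
      (Transfer.sylow_not_dvd_relIndex P h1) (Inv.isPGroup_zpowers (hk ▸ pow_orderOf_eq_one x))
      (zpowers_le.2 hx)
    refine ⟨a, ha, mem_centralizer_singleton_iff.2 ?_⟩
    calc a⁻¹ * z * a * x = a⁻¹ * (z * (a * x * a⁻¹)) * a := by group
      _ = _ := by rw [← hP _ (Transfer.conj_le_iff.1 h2 x (mem_zpowers x))]; group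
  intro x hx hk g hg
  obtain ⟨a, ha, h3⟩ := h2 x hx hk
  obtain ⟨b, hb, h4⟩ := h2 _ hg (by rwa [Inv.orderOf_conj'])
  have h5 : ∀ a : G, IsPGroup 2 (zpowers (a⁻¹ * z * a)) := fun a =>
    Inv.isPGroup_zpowers_of_mul_self (Inv.mul_self_of_orderOf ((Inv.orderOf_conj'' a z).trans ho))
  obtain ⟨T, h6, h7, h8, h9⟩ := Transfer.exists_sylowIn_ge (h5 a) (zpowers_le.2 h3)
  have h10 : T ≤ H := by
    by_contra h10
    obtain ⟨n, hn, h11, -, h12⟩ := PGroup.exists_mem_normalizer_of_lt h8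
      (inf_lt_left.2 h10 : T ⊓ H < T)
    refine h11 ⟨hn, (mul_mem_cancel_left ha).1 (hfix _ ?_)⟩
    simpa [mul_assoc] using ((mem_normalizer_iff''.1 h12 _).1
      ⟨h6 (mem_zpowers _), H.mul_mem (H.mul_mem (H.inv_mem ha) hzH) ha⟩).2
  obtain ⟨c, hc, h11⟩ := Transfer.exists_conj_le_of_not_dvd_relIndex' h9 (h5 (b * g))
    (zpowers_le.2 (mem_centralizer_singleton_iff.2 (by
      calc _ = g⁻¹ * (b⁻¹ * z * b * (g * x * g⁻¹)) * g := by group
        _ = _ := by rw [mem_centralizer_singleton_iff.1 h4]; group)))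
  refine ⟨g * c⁻¹, (mul_mem_cancel_left hb).1 (hfix _ ?_), ?_⟩
  · simpa [mul_assoc] using h10 (Transfer.conj_le_iff.1 h11 _ (mem_zpowers _))
  · rw [mul_assoc g, mem_centralizer_singleton_iff.1 (inv_mem hc)]
    group

end Cfsg.Agent.S5438
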