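import Cfsg.Statements.S5439
import Cfsg.Agent.Lib.Inv.Basic

set_option autoImplicit false
open Cfsg Cfsg.Lib Subgroup
open scoped commutatorElement

namespace Cfsg.Agent.S5439

/-- Let I and J be two different conjugacy classes of involutions of the finite group G and H a subgroup such that every member of I ∪ J fixes exactly one coset in the action on the cosets of H, and such that for every a in I ∩ H and every b in (I ∪ J) ∩ H different from a and commuting with it, the centralizer of a b lies in H. Then H = G. -/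
theorem result {G : Type*} [Group G] [Finite G] (I J : Set G) (a₀ b₀ : G) (ha₀ : orderOf a₀ = 2) (hb₀ : orderOf b₀ = 2) (hI : I = {x | IsConj a₀ x}) (hJ : J = {x | IsConj b₀ x}) (hIJ : I ≠ J) (H : Subgroup G) (hfix : ∀ x ∈ I ∪ J, ∃! c : G ⧸ H, x • c = c) (hcent : ∀ a ∈ I, a ∈ H → ∀ b ∈ I ∪ J, b ∈ H → a ≠ b → a * b = b * a → Subgroup.centralizer ({a * b} : Set G) ≤ H) : H = ⊤ := by
  have hf : ∀ x g : G, x • (g : G ⧸ H) = g ↔ g⁻¹ * x * g ∈ H := fun x g => by
    rw [MulAction.Quotient.smul_mk, eq_comm, QuotientGroup.eq, smul_eq_mul, mul_assoc]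
  have hu : ∀ x ∈ I ∪ J, x ∈ H → ∀ g : G, g⁻¹ * x * g ∈ H → g ∈ H := fun x hx h1 g h2 => by
    simpa using QuotientGroup.eq.1 ((hfix x hx).unique ((hf x g).2 h2)
      ((hf x 1).2 (by simpa using h1)))
  subst hI hJ
  obtain ⟨q, hq, -⟩ := hfix a₀ (Or.inl (IsConj.refl _))
  obtain ⟨g, rfl⟩ := QuotientGroup.mk_surjective q
  have haH := (hf _ _).1 hq
  have ha : IsConj a₀ (g⁻¹ * a₀ * g) := isConj_iff.2 ⟨g⁻¹, by simp⟩
  generalize g⁻¹ * a₀ * g = a at haH ha
  have h1 : ∀ b, IsConj b₀ b → b ∈ H := fun b hb => by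
    have ha2 := Inv.mul_self_of_orderOf ((Inv.orderOf_eq_of_isConj ha).symm.trans ha₀)
    have hb2 := Inv.mul_self_of_orderOf ((Inv.orderOf_eq_of_isConj hb).symm.trans hb₀)
    obtain ⟨i, ⟨k, hk⟩, hi, h1, h2⟩ := Inv.exists_commute_of_not_isConj ha2 hb2 fun h =>
      hIJ (Set.ext fun x => ⟨fun hx => hb.trans (h.symm.trans (ha.symm.trans hx)),
        fun hx => ha.trans (h.trans (hb.symm.trans hx))⟩)
    have hiH : i ∈ H := hu a (Or.inl ha) haH i (by rwa [mul_assoc, ← h1.eq, inv_mul_cancel_left])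
    refine hcent a ha haH (i * a) ?_ (H.mul_mem hiH haH)
      (fun e => Inv.ne_one_of_orderOf hi (mul_eq_right.1 e.symm))
      (by rw [← mul_assoc, h1.eq]) (mem_centralizer_singleton_iff.2 ?_)
    · change (a * b) ^ k = i at hk
      rcases Int.even_or_odd' k with ⟨j, rfl | rfl⟩
      · exact Or.inl (ha.trans (isConj_iff.2 ⟨_, hk ▸ Inv.zpow_conj_left ha2 hb2 j⟩))
      · refine Or.inr (hb.trans (isConj_iff.2 ⟨(a * b) ^ (j + 1), ?_⟩))
        rw [← zpow_neg, mul_assoc, Inv.mul_zpow_of_inv (Inv.pair_right_inv ha2 hb2), ← hk]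
        have : ∀ c : G, c ^ (j + 1) * (c ^ (- -(j + 1)) * b) = c ^ (2 * j + 1) * (c * b) :=
          fun c => by group
        rw [this, mul_assoc a, hb2, mul_one]
    · rw [← mul_assoc a, ← h1.eq, mul_assoc i, ha2, mul_one, h2.eq]
  exact eq_top_iff.2 fun g _ => hu b₀ (Or.inr (IsConj.refl _)) (h1 _ (IsConj.refl _)) g
    (h1 _ (isConj_iff.2 ⟨g⁻¹, by simp⟩))

end Cfsg.Agent.S5439
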