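import Cfsg.Statements.S5440
import Cfsg.Agent.Lib.F24.Loc1
-- import your own Cfsg.Agent.* helpers here

set_option autoImplicit false
open Cfsg

namespace Cfsg.Agent.S5440
open Cfsg.Lib Cfsg.Lib.ThreeTr Subgroup

/-- Let G be a finite group of large Fischer type at the involution z: the generalized Fitting subgroup Q of H = C_G(z) is extraspecial of order 2^13, H has normal subgroups Q ≤ H₁ ≤ H₂ with H₁/Q of order 3, H₂/H₁ the projective special unitary group of dimension 4 over the field with nine elements and H₂ of index 2 in H, and some conjugate of z other than z lies in Q. Then H has exactly two orbits, under conjugation, on the involutions of Q other than z. -/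
theorem result {G : Type*} [Group G] [Finite G] (z : G) (Q : Subgroup (Subgroup.centralizer ({z} : Set G))) [Q.Normal] (hF : Cfsg.IsOfLargeFischerTypeAt z Q) : ∃ s t : Subgroup.centralizer ({z} : Set G), s ∈ Q ∧ t ∈ Q ∧ orderOf s = 2 ∧ orderOf t = 2 ∧ (s : G) ≠ z ∧ (t : G) ≠ z ∧ (¬ ∃ h : Subgroup.centralizer ({z} : Set G), h * s * h⁻¹ = t) ∧ ∀ x : Subgroup.centralizer ({z} : Set G), x ∈ Q → orderOf x = 2 → (x : G) ≠ z → (∃ h : Subgroup.centralizer ({z} : Set G), h * s * h⁻¹ = x) ∨ ∃ h : Subgroup.centralizer ({z} : Set G), h * t * h⁻¹ = x := by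
  obtain ⟨D, h⟩ := F24.exists_lf hF
  obtain ⟨_, ⟨s, hs, rfl⟩, e1⟩ := D.π_surj F24.p0
  obtain ⟨_, ⟨t, ht, rfl⟩, e2⟩ := D.π_surj F24.o1
  have m : ∀ {x}, x ∈ Q → (x : G) ∈ Q.map (Subgroup.centralizer ({z} : Set G)).subtype := fun h => mem_map_of_mem _ h
  have k : ∀ x ∈ Q, F24.hB (D.π x) (D.π x) = 0 → D.π x ≠ 0 → orderOf x = 2 ∧ (x : G) ≠ z := fun x hx h1 h2 =>
    ⟨orderOf_eq_prime (Subtype.ext ((pow_two (x : G)).trans ((D.sq (m hx)).2 h1))) fun k => h2 (by rw [k]; exact D.π_one),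
      fun k => h2 (by rw [k]; exact D.π_z)⟩
  have p1 : F24.P (D.π s) := (congrArg F24.P e1).mpr F24.P_p0
  have p2 : F24.P' (D.π t) := (congrArg F24.P' e2).mpr F24.P'_o1
  refine ⟨s, t, hs, ht, (k s hs p1.hB p1.ne).1, (k t ht p2.hB p2.ne).1, (k s hs p1.hB p1.ne).2, (k t ht p2.hB p2.ne).2,
    fun ⟨a, ha⟩ => h.not_conj_of_P (m hs) p1 ((h.conj_of_P' (m ht) p2).trans
      (isConj_iff.2 ⟨(a : G), congrArg Subtype.val ha⟩).symm), fun x hx h1 h2 => ?_⟩
  refine (D.P_or (m hx) (congrArg Subtype.val (ES.mul_self_of_orderOf_two h1))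
    (fun k => ES.ne_one_of_orderOf_two h1 (Subtype.ext k)) h2).imp (fun k => ?_) fun k => ?_
  · obtain ⟨b, hb, e⟩ := D.conj_of_P (m hs) (m hx) p1 k
    exact ⟨⟨b, F24.commute_iff_mem.1 hb⟩, Subtype.ext e⟩
  · obtain ⟨b, hb, e⟩ := D.conj_of_P' (m ht) (m hx) p2 k
    exact ⟨⟨b, F24.commute_iff_mem.1 hb⟩, Subtype.ext e⟩

end Cfsg.Agent.S5440
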