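import Cfsg.Statements.S5442
import Cfsg.Agent.Lib.F24.Loc1
-- import your own Cfsg.Agent.* helpers here

set_option autoImplicit false
open Cfsg

namespace Cfsg.Agent.S5442
open Cfsg.Lib Cfsg.Lib.ThreeTr Subgroup

/-- Let G be a finite group of large Fischer type at the involution z: the generalized Fitting subgroup Q of H = C_G(z) is extraspecial of order 2^13, H has normal subgroups Q ≤ H₁ ≤ H₂ with H₁/Q of order 3, H₂/H₁ the projective special unitary group of dimension 4 over the field with nine elements and H₂ of index 2 in H, and some conjugate of z other than z lies in Q. Let s = g z g⁻¹ be a conjugate of z lying in Q and different from z. Then the intersection of Q and g Q g⁻¹ (as subgroups of G) is elementary abelian of order 2^7; and in H/Q, writing X for the image of the centralizer of s in H and E for the image of the intersection of g Q g⁻¹ with H, E is a normal subgroup of X, elementary abelian of order 32,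 with X/E isomorphic to the alternating group of degree 6. -/
theorem result {G : Type*} [Group G] [Finite G] (z : G) (Q : Subgroup (Subgroup.centralizer ({z} : Set G))) [Q.Normal] (hF : Cfsg.IsOfLargeFischerTypeAt z Q) (s : G) (hsQ : ∃ hsc : s ∈ Subgroup.centralizer ({z} : Set G), (⟨s, hsc⟩ : Subgroup.centralizer ({z} : Set G)) ∈ Q) (hs : IsConj z s) (hs1 : s ≠ z) (g : G) (hg : g * z * g⁻¹ = s) (X E : Subgroup ((Subgroup.centralizer ({z} : Set G)) ⧸ Q)) (hX : X = ((Subgroup.centralizer ({z} : Set G) ⊓ Subgroup.centralizer ({s} : Set G)).subgroupOf (Subgroup.centralizer ({z} : Set G))).map (QuotientGroup.mk' Q)) (hE : E = ((((Q.map (Subgroup.centralizer ({z} : Set G)).subtype)).map (MulAut.conj g).toMonoidHom ⊓ Subgroup.centralizer ({z} : Set G)).subgroupOf (Subgroup.centralizer ({z} : Set G))).map (QuotientGroup.mk' Q)) : Cfsg.IsElementaryAbelian 2 ((Q.map (Subgroup.centralizer ({z} : Set G)).subtype) ⊓ ((Q.map (Subgroup.centralizer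 ({z} : Set G)).subtype)).map (MulAut.conj g).toMonoidHom) ∧ Nat.card ↥((Q.map (Subgroup.centralizer ({z} : Set G)).subtype) ⊓ ((Q.map (Subgroup.centralizer ({z} : Set G)).subtype)).map (MulAut.conj g).toMonoidHom) = 2 ^ 7 ∧ E ≤ X ∧ (∀ x ∈ X, ∀ y ∈ E, x * y * x⁻¹ ∈ E) ∧ Cfsg.IsElementaryAbelian 2 E ∧ Nat.card E = 32 ∧ ∃ _ : (E.subgroupOf X).Normal, Nonempty (↥X ⧸ E.subgroupOf X ≃* alternatingGroup (Fin 6)) := by
  obtain ⟨D, h⟩ := F24.exists_lf hF
  subst hg
  have h1 := Core.mem_map_subtype_iff.2 hsQ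
  obtain ⟨D, h, e⟩ := h.exists_tw h1 hs hs1
  obtain ⟨hp, hR⟩ := D.pr h1 hs1
  let φ : _ ⧸ Q →* F24.A0 := QuotientGroup.lift Q D.ρh fun a ha => D.ρ_of_mem (mem_map_of_mem _ ha)
  have φi : Function.Injective φ := (injective_iff_map_eq_one φ).2 fun x hx => by
    obtain ⟨a, rfl⟩ := QuotientGroup.mk_surjective x
    exact (QuotientGroup.eq_one_iff _).2 ((mem_map_iff_mem (subtype_injective _)).1
      ((D.ker (F24.commute_iff_mem.2 a.2)).1 hx))
  have mE : ∀ y, y ∈ E ↔ φ y ∈ D.img ((Q.map (centralizer {z}).subtype).map (MulAut.conj g).toMonoidHom) := fun y => by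
    rw [hE, D.mem_img]
    refine ⟨?_, fun ⟨a, k1, k2, k3⟩ => ⟨⟨a, F24.commute_iff_mem.1 k2⟩, ⟨k1, F24.commute_iff_mem.1 k2⟩, φi k3⟩⟩
    rintro ⟨a, k, rfl⟩
    exact ⟨a, k.1, F24.commute_iff_mem.2 a.2, rfl⟩
  have mX : ∀ y, y ∈ X ↔ φ y (D.π (g * z * g⁻¹)) = D.π (g * z * g⁻¹) := fun y => by
    obtain ⟨a, rfl⟩ := QuotientGroup.mk_surjective y
    rw [hX]
    refine ⟨?_, fun k => ?_⟩
    · rintro ⟨b, hb, e⟩
      rw [← show _ = QuotientGroup.mk a from e]
      exact (D.π_conj (F24.commute_iff_mem.2 b.2) h1).symm.trans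
        (congrArg _ (mul_inv_eq_of_eq_mul (mem_centralizer_singleton_iff.1 hb.2)))
    · obtain ⟨b, k1, k2, k3⟩ := D.exists_conj h1 h1 (h.idx.P'_of_pr hp hR).ne (F24.commute_iff_mem.2 a.2) k
      exact ⟨⟨b, F24.commute_iff_mem.1 k1⟩, ⟨F24.commute_iff_mem.1 k1,
        mem_centralizer_singleton_iff.2 (eq_mul_of_mul_inv_eq k3)⟩, φi k2⟩
  obtain ⟨c1, c2⟩ := h.idx.card_eq hp hR e
  have n : ∀ x ∈ X, ∀ y ∈ E, x * y * x⁻¹ ∈ E := fun x hx y hy => by
    rw [mE, map_mul, map_mul, map_inv]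
    obtain ⟨a, rfl⟩ := QuotientGroup.mk_surjective x
    exact D.conj_mem_img' hp (F24.commute_iff_mem.2 a.2) ((mX _).1 hx) ((mE y).1 hy)
  have sE : ∀ y ∈ E, y * y = 1 := fun y hy => φi (by rw [map_mul, map_one, (D.img_fix hp ((mE y).1 hy)).1])
  have ea : ∀ {K : Type _} [Group K] {A : Subgroup K}, (∀ y ∈ A, y * y = 1) → IsElementaryAbelian 2 A := fun k =>
    ⟨⟨⟨Commute.of_orderOf_dvd_two fun y => orderOf_dvd_of_pow_eq_one (Subtype.ext ((pow_two _).trans (k _ y.2)))⟩⟩,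
      fun y hy => (pow_two _).trans (k _ hy)⟩
  have N : (E.subgroupOf X).Normal := ⟨fun y hy x => n x x.2 y hy⟩
  refine ⟨ea fun y hy => (pow_two _).symm.trans (hp.sq_eq_one hy), c2, fun y hy => (mX y).2 (D.img_fix hp ((mE y).1 hy)).2,
    n, ea sE, ?_, N, ?_⟩
  · rw [← c1, ← Nat.card_congr (E.equivMapOfInjective φ φi).toEquiv.symm]
    congr 2
    ext y
    refine ⟨by rintro ⟨y, hy, rfl⟩; exact (mE y).1 hy, fun hy => ?_⟩
    obtain ⟨a, -, k, rfl⟩ := D.mem_img.1 hy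
    exact ⟨QuotientGroup.mk ⟨a, F24.commute_iff_mem.1 k⟩, (mE _).2 hy, rfl⟩
  · have r : ∀ σ : alternatingGroup (Fin 6), ∃ x : X, φ x = F24.pm σ := fun σ => by
      obtain ⟨a, ha, k⟩ := D.surj _ (F24.pm_mem_M0 σ.2)
      exact ⟨⟨QuotientGroup.mk ⟨a, F24.commute_iff_mem.1 ha⟩, (mX _).2 (e ▸ (show D.ρ a _ = _ from k ▸ F24.pm_o1 _))⟩, k⟩
    choose ψ hψ using r
    refine ⟨(MulEquiv.ofBijective ((QuotientGroup.mk' _).comp (MonoidHom.mk' ψ fun σ τ => Subtype.ext (φi (by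
      simp [hψ])))) ⟨(injective_iff_map_eq_one _).2 fun σ k => Subtype.ext (F24.eq_one_of_pm_mem ?_), fun x => ?_⟩).symm⟩
    · rw [← h.idx.img_inf hp hR e]
      exact ⟨hψ σ ▸ (mE _).1 ((QuotientGroup.eq_one_iff (N := E.subgroupOf X) (ψ σ)).1 k), F24.pm_mem_M0 σ.2⟩
    · obtain ⟨x, rfl⟩ := QuotientGroup.mk_surjective x
      obtain ⟨j, j1, j2⟩ : ∃ j ∈ D.img ((Q.map (centralizer {z}).subtype).map (MulAut.conj g).toMonoidHom),
          j * φ x ∈ F24.M0 := by
        by_cases k : φ x ∈ F24.M0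
        · exact ⟨1, one_mem _, by simpa using k⟩
        obtain ⟨_, j1, j2⟩ := h.idx.exists_not_mem hp hR e
        obtain ⟨j, -, j3, rfl⟩ := D.mem_img.1 j1
        obtain ⟨⟨a, ha⟩, k'⟩ := QuotientGroup.mk_surjective x.1
        rw [← k'] at k ⊢
        exact ⟨_, j1, h.idx j3 (F24.commute_iff_mem.2 ha) j2 k⟩
      obtain ⟨r, hr, σ, hσ, e'⟩ := F24.exists_of_mem_SM D.hM (g := j * φ x) ⟨j2, show j (φ x _) = _ by
        rw [← e, (mX _).1 x.2, (D.img_fix hp j1).2]⟩
      refine ⟨⟨σ, hσ⟩, QuotientGroup.eq.2 ?_⟩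
      rw [← N.mem_comm_iff, mem_subgroupOf, mE, coe_mul, coe_inv, map_mul, map_inv, MonoidHom.mk'_apply, hψ,
        eq_inv_mul_of_mul_eq e', ← mul_assoc, mul_inv_cancel_right]
      exact mul_mem (inv_mem j1) ((h.idx.img_inf hp hR e).ge hr).1

end Cfsg.Agent.S5442
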