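import Cfsg.Statements.S5454
import Cfsg.Agent.Lib.Fischer.Tilde
-- import your own Cfsg.Agent.* helpers here

set_option autoImplicit false
open Cfsg

namespace Cfsg.Agent.S5454
open Cfsg.Lib Cfsg.Lib.ThreeTr Subgroup
open Cfsg.Lib.Fischer Cfsg.Lib.Calc Cfsg.Lib.Fi Cfsg.Lib.PLocal

/-- Let G be a finite group with an involution d whose centralizer C is quasisimple with C modulo the subgroup generated by d isomorphic to the projective special unitary group of dimension 6 over the field with four elements, and suppose some conjugate of d other than d commutes with d. Let S be a Sylow 2-subgroup of C and A the Thompson subgroup of S (generated by the elementary abelian subgroups of S of largest order), regarded as a subgroup of G. Then A is elementary abelian of order 2^10, exactly 22 conjugates of d lie in A, and the normalizer of A permutes them transitively. -/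
theorem result {G : Type*} [Group G] [Finite G] (d : G) (hd : orderOf d = 2) (hq : Cfsg.IsQuasisimple ↥(Subgroup.centralizer ({d} : Set G))) [hzn : ((Subgroup.zpowers d).subgroupOf (Subgroup.centralizer ({d} : Set G))).Normal] (K : Type) [Field K] [Fintype K] (hK : Fintype.card K = 4) (e : ↥(Subgroup.centralizer ({d} : Set G)) ⧸ (Subgroup.zpowers d).subgroupOf (Subgroup.centralizer ({d} : Set G)) ≃* Cfsg.PSU 6 K 2) (hnwc : ∃ g : G, g * d * g⁻¹ ∈ Subgroup.centralizer ({d} : Set G) ∧ g * d * g⁻¹ ≠ d) (S : Sylow 2 ↥(Subgroup.centralizer ({d} : Set G))) (A : Subgroup G) (hA : A = (Cfsg.thompsonSubgroupOf 2 (S : Subgroup ↥(Subgroup.centralizer ({d} : Set G)))).map (Subgroup.centralizer ({d} : Set G)).subtype) : Cfsg.IsElementaryAbelian 2 A ∧ Nat.card A = 2 ^ 10 ∧ Set.ncard {x : G | x ∈ A ∧ IsConj d x} = 22 ∧ ∀ x ∈ A, ∀ y ∈ A, IsConj d x → IsConj d y → ∃ n ∈ Subgroup.normalizer (A : Set G), n * x * n⁻¹ = y := by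
  obtain ⟨Y, h, M, T, -⟩ := dbl_u6 (cov_mk hd) hq.1 hK e
  obtain ⟨z, hz⟩ := mem_dx_of_exists hnwc
  obtain ⟨h1, h2, h3⟩ := M.coe.1.t1 hz (M.coe.2.t0 T)
  obtain ⟨τ, H⟩ := M22.has22 (class_group h2) (h1.out h3)
  refine thompson_out h2 h1.cl S rfl ?_ hA
  obtain ⟨T, hT⟩ := (S.2.map (centralizer {d}).subtype).exists_le_sylow
  obtain ⟨j1, j2⟩ := h22_maxIn H h2.1 T
  have c := (maxCl_sylow h2 S).2
  generalize (S : Subgroup _).map (centralizer {d}).subtype = S' at *
  rw [show {x | x ∈ conjugatesOf d ∧ x ∈ (T : Subgroup G)} = {x | x ∈ conjugatesOf d ∧ x ∈ S'} from Set.ext fun x =>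
    ⟨fun k => c.max _ k.1 fun b hb => commute_of_mul_mem_twoGroup h2.1 T.2 k.1 hb.1 (mul_mem k.2 (hT hb.2)),
      fun k => ⟨k.1, hT k.2⟩⟩] at j1 j2
  have le : closure {x | x ∈ conjugatesOf d ∧ x ∈ S'} ≤ S' := (closure_le _).2 fun _ k => k.2
  exact ⟨Set.eq_singleton_iff_unique_mem.2 ⟨mem_maxIn_of_le (j1.ge rfl) le hT,
    fun B hB => j1.le (mem_maxIn_of_exists_le (j1.ge rfl) le hT hB)⟩, j2⟩

end Cfsg.Agent.S5454
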