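import Cfsg.Statements.S5455
import Cfsg.Agent.Lib.Fischer.Tilde
-- import your own Cfsg.Agent.* helpers here

set_option autoImplicit false
open Cfsg

namespace Cfsg.Agent.S5455
open Cfsg.Lib Cfsg.Lib.ThreeTr Subgroup
open Cfsg.Lib.Fischer Cfsg.Lib.Calc Cfsg.Lib.Fi Cfsg.Lib.PLocal

private theorem aux {H U : Type*} [Group H] [Finite H] [Group U] {π : H →* U} {d : H} (C : Cov π d) {X : Set U} {τ : ℕ → U}
    (h : M22.H22 X τ) (hX : IsThreeTranspositionSet X) (S : Sylow 2 H) {A : Subgroup H} (hA : IsElementaryAbelian 2 A)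
    (hS : A ≤ S) (hd : d ∈ A) (k : ∀ x ∈ X, ∃ y, π y = x ∧ (y ∈ (S : Subgroup H) → y ∈ A)) :
    maxIn 2 (S : Subgroup H) = {A} ∧ Nat.card A = 2 ^ 11 := by
  have := h.fin
  obtain ⟨j1, j2⟩ := h22_maxIn h hX (S.mapSurjective C.surj)
  obtain ⟨j3, j4⟩ := C.maxIn j1 hA hS hd ((closure_le _).2 fun x ⟨x1, s, hs, x2⟩ => by
    obtain ⟨y, rfl, hy⟩ := k x x1
    exact ⟨y, hy ((C.eq_or x2.symm).elim (· ▸ hs) (· ▸ mul_mem (hS hd) hs)), rfl⟩)
  exact ⟨j3, by rw [j4, j2]; rfl⟩


/-- Let G be a finite group with an involution d whose centralizer C is quasisimple, such that C modulo the subgroup generated by d is of type M(22) with respect to some conjugacy class of 3-transpositions generating it and also has an involution whose own centralizer is quasisimple with quotient by it isomorphic to the projective special unitary group of dimension 6 over the field with four elements and which is not weakly closed in that centralizer; and suppose some conjugate of d other than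 d commutes with d. Let S be a Sylow 2-subgroup of C and A the Thompson subgroup of S, regarded as a subgroup of G. Then A is elementary abelian of order 2^11, exactly 23 conjugates of d lie in A, and the normalizer of A permutes them transitively. -/
theorem result {G : Type*} [Group G] [Finite G] (d : G) (hd : orderOf d = 2) (hq : Cfsg.IsQuasisimple ↥(Subgroup.centralizer ({d} : Set G))) [hzn : ((Subgroup.zpowers d).subgroupOf (Subgroup.centralizer ({d} : Set G))).Normal] (htype : ∃ E : Set (↥(Subgroup.centralizer ({d} : Set G)) ⧸ (Subgroup.zpowers d).subgroupOf (Subgroup.centralizer ({d} : Set G))), Cfsg.IsThreeTranspositionClass E ∧ Cfsg.IsOfTypeM22 _ E) (hinvol : ∃ d' : ↥(Subgroup.centralizer ({d} : Set G)) ⧸ (Subgroup.zpowers d).subgroupOf (Subgroup.centralizer ({d} : Set G)), orderOf d' = 2 ∧ Cfsg.IsQuasisimple ↥(Subgroup.centralizer ({d'} : Set _)) ∧ (∃ (K : Type) (_ : Field K) (_ : Fintype K), Fintype.card K = 4 ∧ ∃ _ : ((Subgroup.zpowers d').subgroupOf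 (Subgroup.centralizer ({d'} : Set _))).Normal, Nonempty (↥(Subgroup.centralizer ({d'} : Set _)) ⧸ (Subgroup.zpowers d').subgroupOf (Subgroup.centralizer ({d'} : Set _)) ≃* Cfsg.PSU 6 K 2)) ∧ ∃ g, g * d' * g⁻¹ ∈ Subgroup.centralizer ({d'} : Set _) ∧ g * d' * g⁻¹ ≠ d') (hnwc : ∃ g : G, g * d * g⁻¹ ∈ Subgroup.centralizer ({d} : Set G) ∧ g * d * g⁻¹ ≠ d) (S : Sylow 2 ↥(Subgroup.centralizer ({d} : Set G))) (A : Subgroup G) (hA : A = (Cfsg.thompsonSubgroupOf 2 (S : Subgroup ↥(Subgroup.centralizer ({d} : Set G)))).map (Subgroup.centralizer ({d} : Set G)).subtype) : Cfsg.IsElementaryAbelian 2 A ∧ Nat.card A = 2 ^ 11 ∧ Set.ncard {x : G | x ∈ A ∧ IsConj d x} = 23 ∧ ∀ x ∈ A, ∀ y ∈ A, IsConj d x → IsConj d y → ∃ n ∈ Subgroup.normalizer (A : Set G), n * x * n⁻¹ = y := by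
  obtain ⟨E, h1, h2⟩ := htype
  obtain ⟨e, -⟩ := typeM22_iso (class_group h1) h2
  obtain ⟨Y, h, M, T, -, k⟩ := dbl_fi22 (cov_mk hd) hq.1 e
  obtain ⟨z, hz⟩ := mem_dx_of_exists hnwc
  obtain ⟨h1, h2, h3⟩ := M.coe.1.t2 hz (M.coe.2.t1 T)
  refine thompson_out h2 h1.cl S rfl ?_ hA
  obtain ⟨τ, H, -⟩ := fi22_has
  have C := (cov_mk hd).congr e
  obtain ⟨m, c⟩ := maxCl_sylow h2 S
  obtain ⟨_, φ, -, f, hφ⟩ := M.coe.1.dx_eq hz
  have mS : ∀ {x : centralizer {d}}, (x : G) ∈ (S : Subgroup _).map (centralizer {d}).subtype ↔ x ∈ (S : Subgroup _) :=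
    mem_map_iff_mem (subtype_injective _)
  have le : closure {x | x ∈ conjugatesOf d ∧ x ∈ (S : Subgroup _).map (centralizer {d}).subtype} ≤ _ :=
    (closure_le _).2 fun _ k => k.2
  have me := map_subgroupOf_eq_of_le (le.trans (map_subtype_le _))
  have el := elab_closure (fun a ha => TS.sq h2.1 (c.sub ha)) c.comm
  rw [← me] at el
  obtain ⟨j3, j4⟩ := aux C H Fi22.transp.1 S ((PGroup.elemAb_map_iff_of_injective (subtype_injective _)).1 el)
    (fun x hx => mS.1 (le hx)) (subset_closure ⟨IsConj.refl d, m⟩) fun x hx => by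
      obtain ⟨y, hy, rfl⟩ := k x hx
      have y3 := (f.mem ⟨y, hy, rfl⟩).1
      rcases hφ y with e' | e' <;> rw [e'] at y3
      · exact ⟨y, rfl, fun k => subset_closure ⟨y3, mS.2 k⟩⟩
      · exact ⟨_ * y, by rw [map_mul, C.map_d, one_mul]; rfl, fun k => subset_closure ⟨y3, mS.2 k⟩⟩
  exact ⟨by rw [maxIn_map (subtype_injective _), j3, Set.image_singleton, me],
    by rw [← me, card_map_of_injective (subtype_injective _), j4]⟩

end Cfsg.Agent.S5455
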