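import Cfsg.Statements.S5458
import Cfsg.Agent.Lib.Fi.M22J
import Cfsg.Agent.Lib.Fi.T22

set_option autoImplicit false
open Cfsg

namespace Cfsg.Agent.S5458

open Cfsg.Lib Cfsg.Lib.Fi

/-- Let G be a finite group with trivial centre generated by a conjugation-invariant set D of 3-transpositions on which it acts primitively, of type M(22), and suppose G also has an involution whose centralizer is quasisimple with quotient by it the projective special unitary group of dimension 6 over the field with four elements and which is not weakly closed in that centralizer. Let T be a Sylow 2-subgroup of G. Then the subgroup generated by the members of D lying in T is the Thompson subgroup of T (generated by the elementary abelian subgroups of T of largest order). -/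
theorem result {G : Type*} [Group G] [Finite G] {D : Set G} (hD : Cfsg.IsThreeTranspositionGroup D) (hprim : Cfsg.IsPrimitiveUnderConj D) (h22 : Cfsg.IsOfTypeM22 G D) (hM : ∃ d : G, orderOf d = 2 ∧ Cfsg.IsQuasisimple ↥(Subgroup.centralizer ({d} : Set G)) ∧ (∃ (_ : ((Subgroup.zpowers d).subgroupOf (Subgroup.centralizer ({d} : Set G))).Normal) (K : Type) (_ : Field K) (_ : Fintype K), Fintype.card K = 4 ∧ Nonempty (↥(Subgroup.centralizer ({d} : Set G)) ⧸ (Subgroup.zpowers d).subgroupOf (Subgroup.centralizer ({d} : Set G)) ≃* Cfsg.PSU 6 K 2)) ∧ ∃ g : G, g * d * g⁻¹ ∈ Subgroup.centralizer ({d} : Set G) ∧ g * d * g⁻¹ ≠ d) (T : Sylow 2 G) : Subgroup.closure {x : G | x ∈ D ∧ x ∈ (T : Subgroup G)} = Cfsg.thompsonSubgroupOf 2 (T : Subgroup G) := by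
  obtain ⟨τ, h⟩ := M22.has22 hD h22
  obtain ⟨τ, h, e⟩ := h.std_sylow (M22.pcc2 h) (m := 492567075) (by decide) (by decide) T
  have P := M22.pcc2 h
  rw [h.clj hD.1 M22.clj2 T.2 (e ▸ lev_mono _ (by decide)), e, thompson_of_maxIn (maxIn_eq_of (d := 10) (m := 7) h.snd P
    ((pcR_of h.snd M22.q2_rel).elem P (by decide) (by decide +kernel) (by decide +kernel)) M22.j2_ok (by decide)
    (by decide +kernel) M22.off2)]

end Cfsg.Agent.S5458
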