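import Cfsg.Statements.S5459
import Cfsg.Agent.Lib.ThreeTr.Rank3
-- import your own Cfsg.Agent.* helpers here

set_option autoImplicit false
open Cfsg

namespace Cfsg.Agent.S5459
open Cfsg.Lib Cfsg.Lib.ThreeTr Subgroup
open scoped commutatorElement

/-- Let G be a finite group with a quasisimple normal subgroup L and an involution d such that G is generated by L and d, the centre of L has odd order, and d inverts every element of the centre of L. If the commuting graph on the conjugacy class of the image of d in G modulo the centre of L is connected, then the commuting graph on the conjugacy class of d is connected. -/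
theorem result {G : Type*} [Group G] [Finite G] (L : Subgroup G) [L.Normal] (hL : Cfsg.IsQuasisimple ↥L) (d : G) (hd : orderOf d = 2) (hgen : L ⊔ Subgroup.zpowers d = ⊤) (hodd : Odd (Nat.card ↥(Subgroup.center ↥L))) (hinv : ∀ c ∈ (Subgroup.center ↥L).map L.subtype, d * c * d⁻¹ = c⁻¹) [hn : ((Subgroup.center ↥L).map L.subtype).Normal] (hconn : (Cfsg.commutingGraph (conjugatesOf (QuotientGroup.mk d : G ⧸ (Subgroup.center ↥L).map L.subtype))).Connected) : (Cfsg.commutingGraph (conjugatesOf d)).Connected := by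
  classical
  set Z := (Subgroup.center ↥L).map L.subtype with hZ
  set D := conjugatesOf d with hDdef
  have hdd : d * d = 1 := mul_self_of_orderOf_two hd
  have hmem : ∀ {x}, x ∈ D ↔ ∃ g : G, g * d * g⁻¹ = x := fun {x} => isConj_iff
  have hdD : d ∈ D := hmem.2 ⟨1, by simp⟩
  have hcD : ∀ g : G, ∀ x ∈ D, g * x * g⁻¹ ∈ D := fun g x hx => by
    obtain ⟨h, rfl⟩ := hmem.1 hx
    exact hmem.2 ⟨g * h, by group⟩
  have hsq : ∀ x ∈ D, x * x = 1 := fun x hx => by
    obtain ⟨h, rfl⟩ := hmem.1 hx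
    calc h * d * h⁻¹ * (h * d * h⁻¹) = h * (d * d) * h⁻¹ := by group
      _ = 1 := by rw [hdd]; group
  have hinvD : ∀ x ∈ D, ∀ c ∈ Z, x * c * x⁻¹ = c⁻¹ := fun x hx c hc => by
    obtain ⟨h, rfl⟩ := hmem.1 hx
    have := hinv _ (hn.conj_mem c hc h⁻¹)
    calc h * d * h⁻¹ * c * (h * d * h⁻¹)⁻¹ = h * (d * (h⁻¹ * c * h⁻¹⁻¹) * d⁻¹) * h⁻¹ := by group
      _ = c⁻¹ := by rw [this]; group
  have hcard : Odd (Nat.card Z) := by
    rwa [hZ, Subgroup.card_map_of_injective L.subtype_injective]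
  -- odd order: every element of `Z` has an odd power equal to one
  obtain ⟨k, hk⟩ := hcard
  have hpow : ∀ c ∈ Z, c ^ (2 * k + 1) = 1 := fun c hc => by
    have := pow_card_eq_one' (x := (⟨c, hc⟩ : Z))
    rw [hk] at this
    exact congrArg Subtype.val this
  -- conjugation preserves the relation
  have hconj : ∀ (g : G) {x y : G}, CRel D x y → CRel D (g * x * g⁻¹) (g * y * g⁻¹) :=
    fun g x y h => by
      induction h with
      | refl => exact .refl
      | tail _ hab ih =>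
        exact ih.tail ⟨hcD g _ hab.1, hcD g _ hab.2.1, (commute_conj_iff g _ _).2 hab.2.2⟩
  have hsymm : ∀ {x y : G}, CRel D x y → CRel D y x := fun {x y} h => by
    induction h with
    | refl => exact .refl
    | tail _ hab ih => exact .head ⟨hab.2.1, hab.1, hab.2.2.symm⟩ ih
  let M : Subgroup G :=
    { carrier := {g | CRel D d (g * d * g⁻¹)}
      one_mem' := by simp only [Set.mem_ofPred_eq, one_mul, inv_one, mul_one]; exact .refl
      mul_mem' := fun {g h} hg hh => by
        have := hconj g hh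
        have e : g * (h * d * h⁻¹) * g⁻¹ = g * h * d * (g * h)⁻¹ := by group
        rw [e] at this
        exact Relation.ReflTransGen.trans hg this
      inv_mem' := fun {g} hg => by
        have := hconj g⁻¹ hg
        have e : g⁻¹ * (g * d * g⁻¹) * g⁻¹⁻¹ = d := by group
        rw [e] at this
        exact hsymm this }
  -- lifting of commuting pairs
  have hlift : ∀ e ∈ D, ∀ f ∈ D, Commute (e : G ⧸ Z) (f : G ⧸ Z) →
      ∃ f' ∈ D, (f' : G ⧸ Z) = f ∧ Commute e f' := fun e he f hf h => by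
    have hz : (e * f) ^ 2 ∈ Z := by
      rw [← QuotientGroup.eq_one_iff, QuotientGroup.mk_pow, QuotientGroup.mk_mul,
        ← commute_iff_mul_sq]
      · exact h
      · rw [← QuotientGroup.mk_mul, hsq e he, QuotientGroup.mk_one]
      · rw [← QuotientGroup.mk_mul, hsq f hf, QuotientGroup.mk_one]
    have hfi : f * (e * f) * f⁻¹ = (e * f)⁻¹ := by
      rw [mul_inv_rev, inv_eq_of_sq (hsq e he), inv_eq_of_sq (hsq f hf), mul_assoc, mul_assoc,
        hsq f hf, mul_one]
    have hfk : f * (e * f) ^ k * f⁻¹ = ((e * f) ^ k)⁻¹ := by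
      rw [← conj_pow, hfi, inv_pow]
    have hf' : ((e * f) ^ k)⁻¹ * f * ((e * f) ^ k)⁻¹⁻¹ = f * ((e * f) ^ 2) ^ k := by
      rw [inv_inv, ← hfk, ← pow_mul, two_mul, pow_add]; group
    refine ⟨_, hcD ((e * f) ^ k)⁻¹ f hf, ?_, ?_⟩
    · rw [hf', QuotientGroup.mk_mul, (QuotientGroup.eq_one_iff _).2 (Z.pow_mem hz k), mul_one]
    · rw [commute_iff_mul_sq (hsq e he) (hsq _ (hcD _ f hf)), hf', ← mul_assoc, ← pow_mul,
        ← pow_succ', ← pow_mul, mul_comm (2 * k + 1) 2, pow_mul]
      exact hpow _ hz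
  have hne : (conjugatesOf (d : G ⧸ Z)).Nonempty := ⟨_, mem_conjugatesOf_self⟩
  have hbar : ∀ y, CRel (conjugatesOf (d : G ⧸ Z)) d y → ∃ e ∈ D, (e : G ⧸ Z) = y ∧ CRel D d e := by
    intro y hy
    induction hy with
    | refl => exact ⟨d, hdD, rfl, .refl⟩
    | tail _ hbc ih =>
      obtain ⟨e, he, rfl, hde⟩ := ih
      obtain ⟨g, hg⟩ := isConj_iff.1 hbc.2.1
      obtain ⟨g, rfl⟩ := QuotientGroup.mk_surjective g
      have hc := hbc.2.2
      rw [← hg] at hc ⊢
      obtain ⟨f', hf', h1, h2⟩ := hlift e he _ (hcD g d hdD) hc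
      exact ⟨f', hf', h1, hde.tail ⟨he, hf', h2⟩⟩
  have hdec : ∀ g : G, ∃ w ∈ Z, w * g ∈ M := fun g => by
    obtain ⟨e, he, h1, h2⟩ := hbar ((g * d * g⁻¹ : G) : G ⧸ Z)
      ((connected_iff_cRel hne).1 hconn _ mem_conjugatesOf_self _ (isConj_iff.2 ⟨g, rfl⟩))
    have hz : e⁻¹ * (g * d * g⁻¹) ∈ Z := QuotientGroup.eq.1 h1
    set z := e⁻¹ * (g * d * g⁻¹) with hzd
    have h3 : g * d * g⁻¹ = e * z := by rw [hzd]; group
    refine ⟨z ^ (k + 1), Z.pow_mem hz _, ?_⟩
    change CRel D d (z ^ (k + 1) * g * d * (z ^ (k + 1) * g)⁻¹)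
    have h4 := hinvD e he _ (Z.pow_mem hz (k + 1))
    have h5 : z ^ (k + 1) * e = e * (z ^ (k + 1))⁻¹ := by
      rw [← h4, inv_eq_of_sq (hsq e he), ← mul_assoc, ← mul_assoc, hsq e he, one_mul]
    have h6 : z ^ (k + 1) * g * d * (z ^ (k + 1) * g)⁻¹ = e := by
      calc z ^ (k + 1) * g * d * (z ^ (k + 1) * g)⁻¹
          = z ^ (k + 1) * (g * d * g⁻¹) * (z ^ (k + 1))⁻¹ := by group
        _ = e * (z ^ (2 * k + 1))⁻¹ := by rw [h3, ← mul_assoc, h5]; group
        _ = e := by rw [hpow z hz]; group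
    rw [h6]; exact h2
  have hZc : ∀ w ∈ Z, ∀ x ∈ L, x * w = w * x := by
    rintro _ ⟨w, hw, rfl⟩ x hx
    exact congrArg Subtype.val (Subgroup.mem_center_iff.1 hw ⟨x, hx⟩)
  have hZL : Z ≤ L := Subgroup.map_subtype_le _
  have hLM : L ≤ M := by
    have hp : ⁅L, L⁆ = L := Subgroup.isPerfect_iff.1 hL.1
    rw [← hp, Subgroup.commutator_le]
    intro x hx y hy
    obtain ⟨w, hw, hx'⟩ := hdec x
    obtain ⟨u, hu, hy'⟩ := hdec y
    have e : ⁅x, y⁆ = ⁅w * x, u * y⁆ := by
      have a1 : Commute w x := (hZc w hw x hx).symm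
      have a2 : Commute w y := (hZc w hw y hy).symm
      have a3 : Commute u x := (hZc u hu x hx).symm
      have a4 : Commute u y := (hZc u hu y hy).symm
      have a5 : Commute w u := (hZc w hw u (hZL hu)).symm
      have b1 : Commute w (u * y) := a5.mul_right a2
      have b2 : Commute u (x⁻¹) := a3.inv_right
      simp only [commutatorElement_def, mul_inv_rev]
      have c1 : w * x * (u * y) * (x⁻¹ * w⁻¹) = x * (u * y) * x⁻¹ := by
        have : Commute w (x * (u * y) * x⁻¹) := (a1.mul_right b1).mul_right a1.inv_right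
        calc w * x * (u * y) * (x⁻¹ * w⁻¹) = w * (x * (u * y) * x⁻¹) * w⁻¹ := by group
          _ = _ := by rw [this.eq]; group
      have : Commute u (x * y * x⁻¹ * y⁻¹) :=
        ((a3.mul_right a4).mul_right a3.inv_right).mul_right a4.inv_right
      rw [c1]
      calc x * y * x⁻¹ * y⁻¹ = u * (x * y * x⁻¹ * y⁻¹) * u⁻¹ := by rw [this.eq]; group
        _ = (u * x) * y * x⁻¹ * (y⁻¹ * u⁻¹) := by group
        _ = _ := by rw [a3.eq]; group
    rw [e]
    exact M.mul_mem (M.mul_mem (M.mul_mem hx' hy') (M.inv_mem hx')) (M.inv_mem hy')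
  have hM : M = ⊤ := by
    rw [eq_top_iff, ← hgen, sup_le_iff, Subgroup.zpowers_le]
    refine ⟨hLM, ?_⟩
    change CRel D d (d * d * d⁻¹)
    rw [mul_inv_cancel_right]
    exact .refl
  rw [connected_iff_cRel ⟨d, hdD⟩]
  intro a ha b hb
  obtain ⟨g, rfl⟩ := hmem.1 ha
  obtain ⟨h, rfl⟩ := hmem.1 hb
  exact Relation.ReflTransGen.trans (hsymm (show g ∈ M from hM ▸ mem_top g))
    (show h ∈ M from hM ▸ mem_top h)

end Cfsg.Agent.S5459
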