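import Cfsg.Statements.S5466
import Cfsg.Agent.Lib.Fi.M24Two
import Cfsg.Agent.Lib.Fi.M23Pair
import Cfsg.Agent.S0815

set_option autoImplicit false
open Cfsg

namespace Cfsg.Agent.S5466

open Cfsg.Lib Cfsg.Lib.Fi

open Subgroup ThreeTr

/-- Let G be a finite group with trivial centre generated by a conjugation-invariant set D of 3-transpositions on which it acts primitively, such that for some d in D the subgroup generated by the members of D other than d commuting with d has central largest normal 2- and 3-subgroups, and suppose G with D is of type M(24), and let L be the commutator subgroup of G. Let d₁, d₂, d₃ be distinct pairwise commuting members of D, j their product, E the subgroup generated by d₁ d₂ and d₁ d₃ (a four-group lying in L), CL the centralizer of j in L and K its generalized Fitting subgroup. Then K is quasisimple with centre E, K is the centralizer of E in L, K modulo E is isomorphic to the projective special unitary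 group of dimension 6 over the field with four elements, CL/K is isomorphic to the symmetric group of degree 3, and CL modulo E is isomorphic to the full automorphism group of that unitary group. -/
theorem result {G : Type*} [Group G] [Finite G] {D : Set G} (hD : Cfsg.IsThreeTranspositionGroup D) (hprim : Cfsg.IsPrimitiveUnderConj D) (d₀ : G) (hd₀ : d₀ ∈ D) (h3 : Cfsg.pCore 3 ↥(Subgroup.closure {y : G | y ∈ D ∧ y ≠ d₀ ∧ Commute d₀ y}) ≤ Subgroup.center ↥(Subgroup.closure {y : G | y ∈ D ∧ y ≠ d₀ ∧ Commute d₀ y})) (h2 : Cfsg.pCore 2 ↥(Subgroup.closure {y : G | y ∈ D ∧ y ≠ d₀ ∧ Commute d₀ y}) ≤ Subgroup.center ↥(Subgroup.closure {y : G | y ∈ D ∧ y ≠ d₀ ∧ Commute d₀ y})) (h24 : Cfsg.IsOfTypeM24 G D) (L : Subgroup G) (hL : L = commutator G) (d₁ d₂ d₃ : G) (h₁ : d₁ ∈ D) (h₂ : d₂ ∈ D) (h₃ : d₃ ∈ D) (h12 : d₁ ≠ d₂) (h13 : d₁ ≠ d₃) (h23 : d₂ ≠ d₃) (c12 : Commute d₁ d₂) (c13 : Commute d₁ d₃) (c23 : Commute d₂ d₃) (E CL K : Subgroup G) (hE :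 E = Subgroup.closure ({d₁ * d₂, d₁ * d₃} : Set G)) (hCL : CL = L ⊓ Subgroup.centralizer ({d₁ * d₂ * d₃} : Set G)) (hK : K = (Cfsg.generalizedFittingSubgroup ↥CL).map CL.subtype) : Cfsg.IsQuasisimple ↥K ∧ (Subgroup.center ↥K).map K.subtype = E ∧ K = L ⊓ Subgroup.centralizer (E : Set G) ∧ (∃ (_ : (E.subgroupOf K).Normal) (F : Type) (_ : Field F) (_ : Fintype F), Fintype.card F = 4 ∧ Nonempty (↥K ⧸ E.subgroupOf K ≃* Cfsg.PSU 6 F 2)) ∧ ∃ _ : (K.subgroupOf CL).Normal, Nonempty (↥CL ⧸ K.subgroupOf CL ≃* Equiv.Perm (Fin 3)) ∧ E ≤ CL ∧ ∃ (_ : (E.subgroupOf CL).Normal) (F : Type) (_ : Field F) (_ : Fintype F), Fintype.card F = 4 ∧ Nonempty (↥CL ⧸ E.subgroupOf CL ≃* MulAut (Cfsg.PSU 6 F 2)) := by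
  classical
  obtain ⟨⟨τ, h⟩, sg⟩ := M24.has24 hD h24
  obtain ⟨τ, h, rfl, rfl, rfl⟩ := h.std3 M24.std3 h₁ h₂ h₃ h12 h13 h23 c12 c13 c23
  obtain ⟨d, -, hX, hX'⟩ := M24.exists23 hD h24
  obtain ⟨π, C⟩ := M24.cov hD h24 hX hX' h₁
  subst hL hCL
  have p := fp_three h₁ h₂ h₃ h12 h13 h23 c12 c13 c23
  obtain ⟨_, ⟨w⟩⟩ := h.quot_fp M24.std3 (k := 2) rfl (M24.uniq3 h) p
  have le := p.le
  have pm := fun x hx a ha => h.conj_mem_fp (M24.uniq3 h) p (c := x) hx (a := a) ha
  generalize hK₀ : centralizer {a | a ∈ [τ M24.s1.1, τ M24.s2.1, τ M24.s3.1]} = K₀ at *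
  have m : ∀ {x}, x ∈ K₀ ↔ Commute x (τ M24.s1.1) ∧ Commute x (τ M24.s2.1) ∧ Commute x (τ M24.s3.1) := by
    simp [← hK₀, mem_centralizer_iff, commute_iff_eq, eq_comm]
  let b : centralizer {τ M24.s1.1} := ⟨τ M24.s2.1, mem_centralizer_singleton_iff.2 c12.symm⟩
  let c : centralizer {τ M24.s1.1} := ⟨τ M24.s3.1, mem_centralizer_singleton_iff.2 c13.symm⟩
  obtain ⟨hl, φ, s1, s2, s3⟩ := C.cen (S := {b, c}) (K := K₀) (by simpa using ⟨h₂, h₃⟩)
    (fun x => by simpa using m) (Set.image_pair ..)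
  obtain ⟨q2, q1, F, _, _, hF, ⟨f⟩⟩ := M23.two_facts hX hX' (C.mem (y := b) h₂ h12.symm) (C.mem (y := c) h₃ h13.symm)
    (fun e => h23 (congrArg Subtype.val (C.inj b c h₂ h₃ e))) ((C.comm_iff (y := c) h₃).2 c23)
  have n := sg.not_mem _ h₁
  have d1 := m.2 ⟨Commute.refl _, c12, c13⟩
  obtain ⟨e, he⟩ := half_equiv sg.index s1 d1 s2 n
  obtain ⟨_, ⟨u⟩⟩ := half_quot sg.index d1 (le d1) n
  have z : ∀ {y}, y ∈ D → y ∈ K₀ → τ M24.s1.1 * y ∈ _root_.commutator G ⊓ K₀ := fun a a' =>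
    ⟨(mul_mem_iff_of_index_two sg.index).2 (by simp [n, sg.not_mem _ a]), mul_mem d1 a'⟩
  have zb := z h₂ (m.2 ⟨c12.symm, Commute.refl _, c23⟩)
  have zc := z h₃ (m.2 ⟨c13.symm, c23.symm, Commute.refl _⟩)
  have ez : ∀ (y : centralizer {τ M24.s1.1}) t, (e ⟨τ M24.s1.1 * y, t⟩).1 = π y := fun y t => by
    rw [he, s3]
    exact (map_mul π ⟨_, hl d1⟩ y).trans (by rw [(C.ker _).2 (.inr rfl), one_mul])
  have q := Comp.isQuasisimple_of_mulEquiv q1 e.symm
  obtain ⟨v⟩ := center_congr' e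
  have hZ : (center ↥(_root_.commutator G ⊓ K₀)).map (Subgroup.subtype _) = E := by
    have : center ↥(_root_.commutator G ⊓ K₀) = Subgroup.closure {⟨_, zb⟩, ⟨_, zc⟩} := by
      refine map_injective (f := (Subgroup.subtype _).comp e.toMonoidHom) ((subtype_injective _).comp e.injective) ?_
      rw [← map_map, show map e.toMonoidHom _ = _ from Orth.map_center_equiv e, q2, MonoidHom.map_closure, Set.image_pair]
      exact congrArg₂ (fun x y => Subgroup.closure {x, y}) (ez b zb).symm (ez c zc).symm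
    rw [this, MonoidHom.map_closure, Set.image_pair, hE]
    rfl
  have lk : _root_.commutator G ⊓ K₀ ≤ _ := inf_le_inf_left _ le
  have nE := normal_center_map lk
  rw [hZ] at nE
  have r : ∀ {y : G} z, Commute (τ M24.s1.1) y → τ M24.s1.1 * y * (τ M24.s1.1 * z) = y * z := fun z t => by
    rw [t.eq, mul_assoc, ← mul_assoc (τ M24.s1.1), h.sq, one_mul]
  have sq : ∀ {x y : G}, x ∈ D → y ∈ D → Commute x y → x * y * (x * y) = 1 := fun a a' t => by
    rw [← sq, t.mul_pow, ← hD.1.1 _ a, pow_orderOf_eq_one, hD.1.1 _ a, ← hD.1.1 _ a', pow_orderOf_eq_one, one_mul]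
  have key : ∀ x ∈ _root_.commutator G ⊓ centralizer {τ M24.s1.1 * τ M24.s2.1 * τ M24.s3.1},
      (∀ k ∈ _root_.commutator G ⊓ K₀, x * k * x⁻¹ * k⁻¹ ∈ E) → x ∈ _root_.commutator G ⊓ K₀ := by
    refine fun x hx k => ⟨hx.1, ?_⟩
    have t : ∀ l, M24.F.nbOK [M24.s1.1, M24.s2.1, M24.s3.1] l = true → ∀ a ∈ l, Commute (τ a) x := fun l hl a ha => by
      obtain ⟨y1, y2, y3⟩ := h.nb hl (p := M24.s1.1) (by simp) (by decide) ha
      obtain ⟨-, y4, y5⟩ := h.nb hl (p := M24.s2.1) (by simp) (by decide) ha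
      obtain ⟨-, y6, y7⟩ := h.nb hl (p := M24.s3.1) (by simp) (by decide) ha
      have := k _ (z y1 (m.2 ⟨y3.symm, y5.symm, y7.symm⟩))
      have p2 : FP D 2 [x * τ M24.s1.1 * x⁻¹, x * τ a * x⁻¹] (x * (τ M24.s1.1 * τ a) * x⁻¹) := h.fp_conj (fp_two h₁ y1 y2.symm y3) x
      have u2 : ∀ y ∈ [τ M24.s1.1, τ M24.s2.1, τ M24.s3.1], y ≠ τ a → Commute y (τ a) →
          x * (τ M24.s1.1 * τ a) * x⁻¹ = y * τ a → Commute (τ a) x := fun y hy y8 y9 t => by
        rcases List.mem_pair.1 ((M24.uniq2 h _ _ _ p2 (t ▸ fp_two (p.2.2.1 _ hy) y1 y8 y9) _).1 (List.mem_pair.2 (.inr rfl))) with r | r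
        · have := pm x⁻¹ (inv_mem hx.2) y hy
          rw [← r] at this
          simp [mul_assoc, y2, y4, y6] at this
        · exact (mul_inv_eq_iff_eq_mul.1 r).symm
      rw [hE, Fi.mem_closure_pair (sq h₁ h₂ c12) (sq h₁ h₃ c13)
        (((Commute.refl _).mul_right c13).mul_left (c12.symm.mul_right c23))] at this
      simp only [mul_inv_eq_iff_eq_mul (b := τ M24.s1.1 * τ a), one_mul, r _ c12, r _ c13] at this
      rcases this with t | t | t | t
      · exact u2 _ (by simp) y2.symm y3 t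
      · exact u2 _ (by simp) y4.symm y5 t
      · exact u2 _ (by simp) y6.symm y7 t
      · refine absurd (M24.not_dp h ⟨_, p2⟩ (m' := 4) ⟨[τ M24.s2.1, τ M24.s3.1, τ M24.s1.1, τ a], ?_, rfl, ?_, ?_, ?_⟩
          (by omega) (by omega) (by omega) le_rfl) (by omega)
        · simp [h12.symm, h13.symm, h23, y2.symm, y4.symm, y6.symm]
        · simp [h₁, h₂, h₃, y1]
        · simp [c12, c13, c23, c12.symm, c13.symm, c23.symm, y3, y5, y7, y3.symm, y5.symm, y7.symm]
        · simp [t, mul_assoc]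
    have c1 := (M24.comm_of_list h M24.oc0_eq (t _ M24.oc0_nb)).symm
    have c2 := (M24.comm_of_list h M24.oc1_eq (t _ M24.oc1_nb)).symm
    have c3 := (c2.mul_right c1).mul_right (mem_centralizer_singleton_iff.1 hx.2)
    refine m.2 ⟨c1, c2, ?_⟩
    rwa [← mul_assoc, ← mul_assoc, mul_assoc (τ M24.s2.1), h.sq, mul_one, h.sq, one_mul] at c3
  have := q.1
  obtain ⟨a1, a2⟩ := quasi_aut lk q hZ (v.trans f) (by
      rw [← Orth.map_center_equiv (v.trans f), Group.IsPerfect.center_quotient_center_eq_bot, Subgroup.map_bot]) key (by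
      rw [S0815.result 2 1 le_rfl (q := 2) rfl hF 6 (by omega) (by omega), mul_comm]
      exact congrArg _ ((Nat.card_congr (u.trans w).toEquiv).trans (by simp [Fintype.card_perm, Nat.factorial])).symm)
  rw [← a1] at hK
  subst hK
  have k : E.subgroupOf (_root_.commutator G ⊓ K₀) = center _ := by
    rw [← hZ]; exact comap_map_eq_self_of_injective (subtype_injective _) _
  have nK : (E.subgroupOf (_root_.commutator G ⊓ K₀)).Normal := k ▸ inferInstance
  refine ⟨q, hZ, le_antisymm (le_inf inf_le_left fun x hx y hy => ?_) fun x hx => ⟨hx.1, ?_⟩,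
    ⟨nK, F, _, _, hF, ⟨((QuotientGroup.quotientMulEquivOfEq k).trans v).trans f⟩⟩, _, ⟨u.trans w⟩,
    hZ ▸ (map_subtype_le _).trans lk, nE, F, _, _, hF, a2⟩
  · rw [← hZ, Core.map_subtype_center] at hy
    exact (hy.2 x hx).symm
  · have tb : _ = _ := hx.2 _ (hE.ge (Subgroup.subset_closure (Set.mem_insert ..)))
    have tc : _ = _ := hx.2 _ (hE.ge (Subgroup.subset_closure (Set.mem_insert_of_mem _ rfl)))
    have ub := h.conj_mem_fp (M24.uniq2 h) (fp_two h₁ h₂ h12 c12) (mem_centralizer_singleton_iff.2 tb.symm)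
      (List.mem_pair.2 (.inl rfl))
    have uc := h.conj_mem_fp (M24.uniq2 h) (fp_two h₁ h₃ h13 c13) (mem_centralizer_singleton_iff.2 tc.symm)
      (List.mem_pair.2 (.inl rfl))
    have c1 : Commute x (τ M24.s1.1) := mul_inv_eq_iff_eq_mul.1 ((List.mem_pair.1 ub).elim id fun t =>
      (List.mem_pair.1 uc).elim id fun t' => absurd (t.symm.trans t') h23)
    exact m.2 ⟨c1, by simpa [← mul_assoc, h.sq] using c1.mul_right (Commute.symm tb),
      by simpa [← mul_assoc, h.sq] using c1.mul_right (Commute.symm tc)⟩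

end Cfsg.Agent.S5466
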