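import Cfsg.Statements.S5469
import Cfsg.Agent.Lib.Fi.M22E
import Cfsg.Agent.Lib.Fi.T22

set_option autoImplicit false
open Cfsg

namespace Cfsg.Agent.S5469

open Cfsg.Lib Cfsg.Lib.Fi

/-- Let G be a finite group with trivial centre generated by a conjugation-invariant set D of 3-transpositions on which it acts primitively, such that for some d in D the subgroup generated by the members of D other than d commuting with d has central largest normal 2- and 3-subgroups, and suppose G with D is of type M(22). Let d₁, d₂ be distinct commuting members of D, j = d₁ d₂, K the joint centralizer of d₁ and d₂, C the centralizer of j and V the subgroup generated by d₁ and d₂. Then K has index 2 in C, V is the centre of K, and C has a normal subgroup E containing V with E/V elementary abelian of order 2^8 and C/E isomorphic to the full automorphism group of the projective special unitary group of dimension 4 over the field with four elements.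 -/
theorem result {G : Type*} [Group G] [Finite G] {D : Set G} (hD : Cfsg.IsThreeTranspositionGroup D) (hprim : Cfsg.IsPrimitiveUnderConj D) (d₀ : G) (hd₀ : d₀ ∈ D) (h3 : Cfsg.pCore 3 ↥(Subgroup.closure {y : G | y ∈ D ∧ y ≠ d₀ ∧ Commute d₀ y}) ≤ Subgroup.center ↥(Subgroup.closure {y : G | y ∈ D ∧ y ≠ d₀ ∧ Commute d₀ y})) (h2 : Cfsg.pCore 2 ↥(Subgroup.closure {y : G | y ∈ D ∧ y ≠ d₀ ∧ Commute d₀ y}) ≤ Subgroup.center ↥(Subgroup.closure {y : G | y ∈ D ∧ y ≠ d₀ ∧ Commute d₀ y})) (h22 : Cfsg.IsOfTypeM22 G D) (d₁ d₂ : G) (h₁ : d₁ ∈ D) (h₂ : d₂ ∈ D) (hne : d₁ ≠ d₂) (hc : Commute d₁ d₂) (K C V : Subgroup G) (hK : K = Subgroup.centralizer ({d₁, d₂} : Set G)) (hC : C = Subgroup.centralizer ({d₁ * d₂} : Set G)) (hV : V = Subgroup.closure ({d₁, d₂} : Set G)) : K ≤ C ∧ (K.subgroupOf C).index = 2 ∧ (Subgroup.center ↥K).map K.subtype = V ∧ ∃ E : Subgroup G, V ≤ E ∧ E ≤ C ∧ (∀ c ∈ C, ∀ x ∈ E, c * x * c⁻¹ ∈ E) ∧ Nat.card E = 2 ^ 10 ∧ (∀ x ∈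 E, ∀ y ∈ E, x * y * x⁻¹ * y⁻¹ ∈ V ∧ x ^ 2 ∈ V) ∧ ∃ (_ : (E.subgroupOf C).Normal) (F : Type) (_ : Field F) (_ : Fintype F), Fintype.card F = 4 ∧ Nonempty (↥C ⧸ E.subgroupOf C ≃* MulAut (Cfsg.PSU 4 F 2)) := by
  obtain ⟨τ, h⟩ := M22.has22 hD h22
  obtain ⟨τ, h, rfl, rfl⟩ := h.std2 M22.std2 h₁ h₂ hne hc
  obtain ⟨k1, k2⟩ := h.index_two M22.std2 (M22.uniq2 h) h₁ h₂ hne hc
  rw [← hK, ← hC] at k1 k2
  obtain rfl : C = CZ τ [M22.jE] := hC.trans (CZ_one τ M22.jE).symm
  obtain ⟨a, b, n, ⟨e⟩⟩ := M22.locQ h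
  obtain ⟨F, _, _, hF, ⟨e'⟩⟩ := e6_aut
  have c := (M22.cenQ h).trans hV.symm
  have P := M22.pccQ h
  have R := M22.pcRQ h
  have v : V = Calc.lev (env τ M22.YE) 2 := Subgroup.eq_of_le_of_card_ge (hV ▸ M22.V_le τ) (by
    rw [P.card_eq (by decide), hV, card_closure_pair (hD.1.1 _ h₁) (hD.1.1 _ h₂) hne hc]; rfl)
  have q : Calc.lev (env τ M22.YE) 10 ≤ K :=
    (lev_env τ _ 10).trans_le ((h.genW_le M22.YQ_d).trans ((CZ_two τ (.l 0) (.l 6)).trans hK.symm).le)
  have w := v.trans_le (lev_mono _ (by decide : 2 ≤ 10))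
  refine ⟨k1, k2, ?_, _, w, a, fun g hg x hx => conj_mem_of_normalizer (b ▸ Core.le_normalizer_pCoreOf 2 _ hg) hx,
    P.card_eq le_rfl, fun x hx y hy => v ▸ ⟨R.comm P le_rfl le_rfl (by decide +kernel) (Subgroup.commutator_mem_commutator hx hy),
      R.pow P le_rfl (by decide +kernel) (by decide +kernel) x hx⟩, n, F, _, _, hF, ⟨e.trans e'⟩⟩
  rw [PGroup.map_subtype_center]
  refine le_antisymm (inf_le_right.trans ((Subgroup.centralizer_le q).trans c.le)) (le_inf (w.trans q) ?_)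
  rw [hV, hK]
  exact Subgroup.le_centralizer_iff.1 (Subgroup.centralizer_closure _).ge

end Cfsg.Agent.S5469
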