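import Cfsg.Statements.S5473
import Cfsg.Agent.Lib.Fi.M22E
import Cfsg.Agent.Lib.Fi.T22

set_option autoImplicit false
open Cfsg

namespace Cfsg.Agent.S5473

open Cfsg.Lib Cfsg.Lib.Fi

/-- Let G be a finite group with trivial centre generated by a conjugation-invariant set D of 3-transpositions on which it acts primitively, such that for some d in D the subgroup generated by the members of D other than d commuting with d has central largest normal 2- and 3-subgroups, and suppose G with D is of type M(22), and let A be the automorphism group of G. Let d₁, d₂ be distinct commuting members of D and j the inner automorphism of their product. Then the generalized Fitting subgroup Q of the centralizer of j in A is a large extraspecial 2-subgroup of A of order 2^11 (extraspecial; centralizer equal to its centre; normal in the centralizer of its centre; normalizing no non-trivial odd-order subgroup), and the centralizer of j modulo Q is isomorphic to the full automorphism group of the projective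 special unitary group of dimension 4 over the field with four elements. -/
theorem result {G : Type*} [Group G] [Finite G] {D : Set G} (hD : Cfsg.IsThreeTranspositionGroup D) (hprim : Cfsg.IsPrimitiveUnderConj D) (d₀ : G) (hd₀ : d₀ ∈ D) (h3 : Cfsg.pCore 3 ↥(Subgroup.closure {y : G | y ∈ D ∧ y ≠ d₀ ∧ Commute d₀ y}) ≤ Subgroup.center ↥(Subgroup.closure {y : G | y ∈ D ∧ y ≠ d₀ ∧ Commute d₀ y})) (h2 : Cfsg.pCore 2 ↥(Subgroup.closure {y : G | y ∈ D ∧ y ≠ d₀ ∧ Commute d₀ y}) ≤ Subgroup.center ↥(Subgroup.closure {y : G | y ∈ D ∧ y ≠ d₀ ∧ Commute d₀ y})) (h22 : Cfsg.IsOfTypeM22 G D) (d₁ d₂ : G) (h₁ : d₁ ∈ D) (h₂ : d₂ ∈ D) (hne : d₁ ≠ d₂) (hc : Commute d₁ d₂) (j : MulAut G) (hj : j = MulAut.conj (d₁ * d₂)) (Q : Subgroup (MulAut G)) (hQ : Q = (Cfsg.generalizedFittingSubgroup ↥(Subgroup.centralizer ({j} : Set (MulAut G)))).map (Subgroup.centralizer ({j} : Set (MulAut G))).subtype) : Cfsg.IsLargeExtraspecial Q ∧ Nat.card Q = 2 ^ 11 ∧ Q ≤ Subgroup.centralizer ({j} : Set (MulAut G)) ∧ ∃ (_ : (Q.subgroupOf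 (Subgroup.centralizer ({j} : Set (MulAut G)))).Normal) (F : Type) (_ : Field F) (_ : Fintype F), Fintype.card F = 4 ∧ Nonempty (↥(Subgroup.centralizer ({j} : Set (MulAut G))) ⧸ Q.subgroupOf (Subgroup.centralizer ({j} : Set (MulAut G))) ≃* MulAut (Cfsg.PSU 4 F 2)) := by
  obtain ⟨τ, h⟩ := M22.has22 hD h22
  obtain ⟨τ, h, rfl, rfl⟩ := h.std2 M22.std2 h₁ h₂ hne hc
  obtain ⟨Γ, _, D', τ', ι, E⟩ := M22.H22.ext h
  obtain ⟨e, he⟩ := E.exists_aut (M22.aut_mem h hD)
  have H := E.has.map e.symm
  generalize hσ : (fun a => e.symm.symm (τ' a)) = σ at H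
  obtain rfl : j = M22.jE.ev σ := by
    rw [hj, M22.jE_ev, ← hσ, map_mul, ← E.aut_iota he, ← E.aut_iota he, E.tau _ (by decide), E.tau _ (by decide)]; rfl
  rw [← CZ_one] at hQ ⊢
  obtain ⟨a, b, n, ⟨f⟩⟩ := M22.locE H
  obtain ⟨F, _, _, hF, ⟨f'⟩⟩ := e6_aut
  have P := M22.pccE H
  have R := M22.pcRE H
  have c := (centralizer_lev σ M22.YE 10).trans (M22.cenQ_ext H)
  have c' := Subgroup.centralizer_le (s := (Calc.lev (env σ M22.YE) 10 : Set (MulAut G))) (lev_mono _ (by decide : 10 ≤ 11))
  have g := fstar_eq b (c'.trans (c.le.trans ((M22.V_le σ).trans (lev_mono _ (by decide)))))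
  rw [g, Subgroup.subgroupOf_map_subtype, inf_eq_left.2 a] at hQ
  subst hQ
  have y : env σ M22.YE 10 ∈ Calc.lev (env σ M22.YE) 11 := Calc.mem_lev _ (by decide)
  have x := R.extraspecial P (by decide) le_rfl (by decide +kernel) (by decide +kernel) (le_antisymm (fun x hx => by
    rcases (mem_closure_pair (H.sq _) (H.sq _) ((H.comm_iff (.l 6) (by decide)).2 (by decide +kernel))).1 (c ▸ c' hx) with
      rfl | rfl | rfl | rfl
    exacts [one_mem _, absurd ((H.comm_iff _ (by decide)).1 (hx _ y).symm) (by decide +kernel),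
      absurd ((H.comm_iff _ (by decide)).1 (hx _ y).symm) (by decide +kernel), Calc.mem_lev _ (by decide : 0 < 1)])
    (Subgroup.le_centralizer_iff.1 (Subgroup.le_centralizer_iff.1 (P.central (by decide)))))
  have L := ES.lg_of_genFitting (z := M22.jE.ev σ) (H.orderOf_eq (i := 1231) (by decide +kernel) (by decide +kernel))
    (by rw [← CZ_one, g, Subgroup.subgroupOf_map_subtype, inf_eq_left.2 a]) x
  have k : M22.gE.ev σ * M22.jE.ev σ * (M22.gE.ev σ)⁻¹ = env σ M22.YE 2 := (mul_assoc _ _ _).trans (H.eq M22.gE_ok)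
  exact ⟨L.isLarge x fun K hK hn => L.eq_bot_of_conj_mem (k.symm ▸ Calc.mem_lev (env σ M22.YE) (by decide : 2 < 11))
    (k.trans_ne (H.ne (s := M22.yE_2) (t := M22.jE) (i := 1231) (by decide +kernel))) hK hn, P.card_eq le_rfl, a, n, F, _, _, hF, ⟨f.trans f'⟩⟩

end Cfsg.Agent.S5473
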