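import Cfsg.Statements.S5515
import Cfsg.Agent.Lib.Orth.Triality
import Cfsg.Agent.Lib.Comp.GenFitting

set_option autoImplicit false
open Cfsg

namespace Cfsg.Agent.S5515

open Cfsg.Lib Cfsg.Lib.Orth Cfsg.Lib.Orth.Gam

theorem exists_embed {G T : Type*} [Group G] [Finite G] [Group T] (hT : Subgroup.center T = ⊥)
    [(Cfsg.generalizedFittingSubgroup G).Normal] (e : Cfsg.generalizedFittingSubgroup G ≃* T) :
    ∃ K : Subgroup (Cfsg.Out T), Nat.card K = Nat.card (G ⧸ Cfsg.generalizedFittingSubgroup G) ∧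
      Nonempty (G ≃* K.comap (QuotientGroup.mk' _)) := by
  let c : G →* MulAut T := (MulAut.congr e).toMonoidHom.comp MulAut.conjNormal
  have hc : ∀ n : Cfsg.generalizedFittingSubgroup G, c n = MulAut.conj (e n) := fun n => by
    ext t
    obtain ⟨t, rfl⟩ := e.surjective t
    simp only [c, MonoidHom.comp_apply, MulEquiv.coe_toMonoidHom, MulAut.congr_apply, MulEquiv.trans_apply,
      MulEquiv.symm_apply_apply, MulAut.conj_apply, ← map_inv, ← map_mul]
    rfl
  have hi : Function.Injective c := (injective_iff_map_eq_one _).2 fun g hg => by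
    have h1 : g ∈ Subgroup.centralizer (Cfsg.generalizedFittingSubgroup G : Set G) := fun n hn => by
      have := DFunLike.congr_fun hg (e ⟨n, hn⟩)
      simp only [c, MonoidHom.comp_apply, MulEquiv.coe_toMonoidHom, MulAut.congr_apply,
        MulEquiv.trans_apply, MulEquiv.symm_apply_apply, MulAut.one_apply,
        EmbeddingLike.apply_eq_iff_eq] at this
      exact (mul_inv_eq_iff_eq_mul.1 (congrArg Subtype.val this)).symm
    have h2 := Comp.centralizer_genFitting_le h1
    have h3 : e ⟨g, h2⟩ ∈ Subgroup.center T := (mem_center_equiv e).2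
      (Subgroup.mem_center_iff.2 fun n => Subtype.ext (h1 n n.2))
    rw [hT, Subgroup.mem_bot, map_eq_one_iff _ e.injective] at h3
    exact congrArg Subtype.val h3
  have hk : ((QuotientGroup.mk' (Cfsg.Inn T)).comp c).ker = Cfsg.generalizedFittingSubgroup G := by
    ext g
    rw [MonoidHom.mem_ker, MonoidHom.comp_apply, QuotientGroup.mk'_apply, QuotientGroup.eq_one_iff]
    refine ⟨fun ⟨t, ht⟩ => ?_, fun h => ⟨_, (hc ⟨g, h⟩).symm⟩⟩
    obtain ⟨n, rfl⟩ := e.surjective t
    rw [← hi ((hc n).trans ht)]; exact n.2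
  refine ⟨c.range.map (QuotientGroup.mk' _), ?_, ⟨(MonoidHom.ofInjective hi).trans
    (MulEquiv.subgroupCongr (Subgroup.comap_map_eq_self ?_).symm)⟩⟩
  · rw [← MonoidHom.range_comp, ← Subgroup.index_ker, hk, Subgroup.index]
  · rw [QuotientGroup.ker_mk']
    rintro _ ⟨t, rfl⟩
    obtain ⟨n, rfl⟩ := e.surjective t
    exact ⟨n, hc n⟩

theorem eq_stabilizer {H : Subgroup (Equiv.Perm (Fin 4))} (h : Nat.card H = 6) :
    ∃ i : Fin 4, H = MulAction.stabilizer _ i := by
  haveI : Fact (Nat.Prime 3) := ⟨by decide⟩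
  obtain ⟨t, ht⟩ := exists_prime_orderOf_dvd_card' (G := H) 3 (by rw [h]; decide)
  have key : ∀ t : Equiv.Perm (Fin 4), t ^ 3 = 1 → t ≠ 1 → ∃ i, t i = i ∧ ∀ j, t j = j → j = i := by
    decide
  obtain ⟨i, hi, hu⟩ := key t (by rw [← Subgroup.coe_pow, ← ht, pow_orderOf_eq_one]; rfl)
    (fun h1 => by rw [show t = 1 from Subtype.ext h1] at ht; simp at ht)
  have hN : (Subgroup.zpowers t).Normal := Subgroup.normal_of_index_eq_two (by
    have := (Subgroup.zpowers t).card_mul_index
    rw [Nat.card_zpowers, ht, h] at this; omega)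
  have hs : ∀ i : Fin 4, Nat.card (MulAction.stabilizer (Equiv.Perm (Fin 4)) i) = 6 := fun i => by
    have h1 := (MulAction.stabilizer (Equiv.Perm (Fin 4)) i).card_mul_index
    rw [MulAction.index_stabilizer_of_transitive, Nat.card_perm] at h1
    simp only [Nat.card_eq_fintype_card, Fintype.card_fin, Nat.factorial] at h1 ⊢; omega
  refine ⟨i, Subgroup.eq_of_le_of_card_ge (fun g hg => hu _ ?_) (by rw [h, hs])⟩
  obtain ⟨k, hk⟩ := hN.conj_mem _ (Subgroup.mem_zpowers t) ⟨g, hg⟩⁻¹
  have h1 : (t : Equiv.Perm (Fin 4)) ^ k = g⁻¹ * t * g := by simpa using congrArg Subtype.val hk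
  have h2 := Equiv.Perm.zpow_apply_eq_self_of_apply_eq_self hi k
  rw [h1] at h2
  exact Equiv.Perm.inv_eq_iff_eq.1 h2

theorem nonempty_comap_equiv {A : Type*} [Group A] (π : A →* Equiv.Perm (Fin 4))
    (hπ : Function.Surjective π) {H H' : Subgroup (Equiv.Perm (Fin 4))} (h : Nat.card H = 6)
    (h' : Nat.card H' = 6) : Nonempty (H.comap π ≃* H'.comap π) := by
  obtain ⟨i, rfl⟩ := eq_stabilizer h
  obtain ⟨j, rfl⟩ := eq_stabilizer h'
  obtain ⟨a, ha⟩ := hπ (Equiv.swap i j)
  refine ⟨((MulAut.conj a).subgroupMap _).trans (MulEquiv.subgroupCongr ?_)⟩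
  ext b
  refine Subgroup.mem_map_equiv.trans ?_
  simp [ha, Equiv.swap_apply_eq_iff]

/-- Let G and G′ be finite groups whose generalized Fitting subgroups are isomorphic to PΩ⁺(8, 3) (the commutator subgroup of the isometry group of the hyperbolic quadratic form in dimension 8 over the field with three elements, modulo its centre) with quotients isomorphic to the symmetric group of degree 3. Then G and G′ are isomorphic. -/
theorem result {G G' : Type*} [Group G] [Finite G] [Group G'] [Finite G'] (hF : Nonempty (↥(Cfsg.generalizedFittingSubgroup G) ≃* Cfsg.POmega (ZMod 3) (Cfsg.quadFormPlus 4 (ZMod 3)))) (hF' : Nonempty (↥(Cfsg.generalizedFittingSubgroup G') ≃* Cfsg.POmega (ZMod 3) (Cfsg.quadFormPlus 4 (ZMod 3)))) [hn : (Cfsg.generalizedFittingSubgroup G).Normal] [hn' : (Cfsg.generalizedFittingSubgroup G').Normal] (hq : Nonempty (G ⧸ Cfsg.generalizedFittingSubgroup G ≃* Equiv.Perm (Fin 3))) (hq' : Nonempty (G' ⧸ Cfsg.generalizedFittingSubgroup G' ≃* Equiv.Perm (Fin 3)))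 : Nonempty (G ≃* G') := by
  obtain ⟨e⟩ := hF
  obtain ⟨e'⟩ := hF'
  have hT := center_pomega (F := ZMod 3) (nd_qPlus 4) (by simp)
  obtain ⟨K, h1, ⟨f⟩⟩ := exists_embed hT e
  obtain ⟨K', h1', ⟨f'⟩⟩ := exists_embed hT e'
  obtain ⟨ε⟩ := nonempty_out_eight_odd (F := ZMod 3) (by decide)
  rw [Linear.card_ringAut (p := 3) (f := 1) (by simp)] at ε
  haveI : Unique (Multiplicative (ZMod 1)) := inferInstanceAs (Unique (Fin 1))
  let ε' := ε.trans MulEquiv.prodUnique
  have h2 : ∀ K : Subgroup _, (K.map ε'.toMonoidHom).comap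
      (ε'.toMonoidHom.comp (QuotientGroup.mk' _)) = K.comap (QuotientGroup.mk' _) :=
    fun K => by rw [← Subgroup.comap_comap, Subgroup.comap_map_eq_self_of_injective ε'.injective]
  obtain ⟨g⟩ := nonempty_comap_equiv (ε'.toMonoidHom.comp (QuotientGroup.mk' _))
    (ε'.surjective.comp (QuotientGroup.mk'_surjective _)) (H := K.map ε'.toMonoidHom)
    (H' := K'.map ε'.toMonoidHom)
    (by rw [Subgroup.card_map_of_injective ε'.injective, h1, Nat.card_congr hq.some.toEquiv]
        simp [Fintype.card_perm, Nat.factorial])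
    (by rw [Subgroup.card_map_of_injective ε'.injective, h1', Nat.card_congr hq'.some.toEquiv]
        simp [Fintype.card_perm, Nat.factorial])
  rw [h2, h2] at g
  exact ⟨f.trans (g.trans f'.symm)⟩

end Cfsg.Agent.S5515
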