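import Cfsg.Statements.S5516
import Cfsg.Agent.Lib.O8p3.Main

set_option autoImplicit false
open Cfsg

namespace Cfsg.Agent.S5516

/-- PΩ⁺(8, 3) (the commutator subgroup of the isometry group of the hyperbolic quadratic form in dimension 8 over the field with three elements, modulo its centre) has exactly 13 conjugacy classes of subgroups of order 3; and a finite group G whose generalized Fitting subgroup L is isomorphic to PΩ⁺(8, 3) with G/L the symmetric group of degree 3 has exactly 7 orbits, under conjugation, on the subgroups of L of order 3. -/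
theorem result {G : Type*} [Group G] [Finite G] (L : Subgroup G) (hL : L = Cfsg.generalizedFittingSubgroup G) (hF : Nonempty (↥L ≃* Cfsg.POmega (ZMod 3) (Cfsg.quadFormPlus 4 (ZMod 3)))) [hn : L.Normal] (hq : Nonempty (G ⧸ L ≃* Equiv.Perm (Fin 3))) : (∃ Y : Fin 13 → Subgroup (Cfsg.POmega (ZMod 3) (Cfsg.quadFormPlus 4 (ZMod 3))), (∀ i, Nat.card (Y i) = 3) ∧ (∀ i j, (∃ g : Cfsg.POmega (ZMod 3) (Cfsg.quadFormPlus 4 (ZMod 3)), (Y i).map (MulAut.conj g).toMonoidHom = Y j) → i = j) ∧ (∀ X : Subgroup (Cfsg.POmega (ZMod 3) (Cfsg.quadFormPlus 4 (ZMod 3))), Nat.card X = 3 → ∃ i, ∃ g : Cfsg.POmega (ZMod 3) (Cfsg.quadFormPlus 4 (ZMod 3)), X.map (MulAut.conj g).toMonoidHom = Y i)) ∧ ∃ Y : Fin 7 → Subgroup G, (∀ i, Y i ≤ L ∧ Nat.card (Y i) = 3) ∧ (∀ i j, (∃ g : G, (Y i).map (MulAut.conj g).toMonoidHom = Y j) → i = j) ∧ ∀ X : Subgroup G, X ≤ L → Nat.card X = 3 → ∃ i, ∃ g : G, X.map (MulAut.conj g).toMonoidHom =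 Y i := by
  obtain ⟨y, hy⟩ := Cfsg.Lib.O8p3.exists_cls
  obtain ⟨e⟩ := hF
  obtain ⟨eq⟩ := hq
  obtain ⟨eO⟩ := Cfsg.Lib.O8p3.nonempty_out
  refine ⟨?_, (hy.congr e.symm).orbits (hL ▸ Cfsg.Lib.Comp.centralizer_genFitting_le)
    ((Cfsg.Lib.Orth.outCongr e).trans eO) eq⟩
  obtain ⟨Y, h1, h2, h3⟩ := Cfsg.Lib.O8p3.reps ⊤ (fun i => Subgroup.mem_top (y i)) hy.ord
    (fun p _ => hy.cover p) hy.inj hy.inv
  exact ⟨Y, fun i => (h1 i).2, h2, fun X => h3 X le_top⟩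

end Cfsg.Agent.S5516
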