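import Cfsg.Statements.S5517
import Cfsg.Agent.Lib.Fi.T22
import Cfsg.Agent.Lib.Fi.Pc
import Cfsg.Agent.Lib.Calc.O3Fi22

set_option autoImplicit false
open Cfsg

namespace Cfsg.Agent.S5517

open Cfsg.Lib Cfsg.Lib.Fi

/-- Let G be a finite group with trivial centre generated by a conjugation-invariant set D of 3-transpositions on which it acts primitively, such that for some d in D the subgroup generated by the members of D other than d commuting with d has central largest normal 2- and 3-subgroups, and suppose G with D is of type M(22). Then G has a subgroup L generated by the members of D it contains and isomorphic to Ω(7, 3) (the commutator subgroup of the isometry group of a non-degenerate 7-dimensional quadratic form over the field with three elements, modulo its centre), and every Sylow 3-subgroup of L is a Sylow 3-subgroup of G. -/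
theorem result {G : Type*} [Group G] [Finite G] {D : Set G} (hD : Cfsg.IsThreeTranspositionGroup D) (hprim : Cfsg.IsPrimitiveUnderConj D) (d₀ : G) (hd₀ : d₀ ∈ D) (h3 : Cfsg.pCore 3 ↥(Subgroup.closure {y : G | y ∈ D ∧ y ≠ d₀ ∧ Commute d₀ y}) ≤ Subgroup.center ↥(Subgroup.closure {y : G | y ∈ D ∧ y ≠ d₀ ∧ Commute d₀ y})) (h2 : Cfsg.pCore 2 ↥(Subgroup.closure {y : G | y ∈ D ∧ y ≠ d₀ ∧ Commute d₀ y}) ≤ Subgroup.center ↥(Subgroup.closure {y : G | y ∈ D ∧ y ≠ d₀ ∧ Commute d₀ y})) (h22 : Cfsg.IsOfTypeM22 G D) : ∃ L : Subgroup G, Cfsg.IsDSubgroup D L ∧ Nonempty (↥L ≃* Cfsg.POmega (ZMod 3) (Cfsg.quadFormOdd 3 (ZMod 3))) ∧ ∀ P : Sylow 3 ↥L, ∃ P' : Sylow 3 G, (P : Subgroup ↥L).map L.subtype = (P' : Subgroup G) := by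
  obtain ⟨e, he⟩ := Calc.typeM22_iso hD h22
  obtain ⟨f⟩ := Calc.Fi22.iso_bi
  have hc := Calc.Fi22.card_bi
  set K := Calc.genW Calc.Fi22.gam [.l 2, .l 3, .l 4, .l 5, .l 6, .l 7, .l 8, .l 9] with hK
  have i : K.map e.symm.toMonoidHom ≃* K := (K.equivMapOfInjective _ e.symm.injective).symm
  refine ⟨K.map e.symm.toMonoidHom, le_antisymm ((Subgroup.closure_le _).2 fun _ h => h.2) ?_, ⟨i.trans f⟩,
    fun P => ?_⟩
  · rw [Subgroup.map_le_iff_le_comap, hK, Calc.genW_le]
    intro t ht
    have m := Calc.mem_genW Calc.Fi22.gam ht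
    refine Subgroup.subset_closure ⟨?_, _, m, rfl⟩
    have : t.ev Calc.Fi22.gam ∈ e '' D := by
      rw [he]
      simp only [List.mem_cons, List.not_mem_nil, or_false] at ht
      rcases ht with rfl | rfl | rfl | rfl | rfl | rfl | rfl | rfl <;>
        exact Calc.Fi22.gam_mem _ (by norm_num) (by norm_num)
    obtain ⟨d, hd, h⟩ := this
    rw [← h]; simpa using hd
  · have h1 : Nat.card (P : Subgroup (K.map e.symm.toMonoidHom)) = 3 ^ 9 := by
      rw [P.card_eq_multiplicity, Nat.card_congr i.toEquiv, hc, show 4585351680 = 3 ^ 9 * 232960 by norm_num,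
        Nat.factorization_mul (by norm_num) (by norm_num), Nat.Prime.factorization_pow Nat.prime_three]
      simp [Nat.factorization_eq_zero_of_not_dvd (show ¬3 ∣ 232960 by norm_num)]
    obtain ⟨S, hS⟩ := exists_sylow_eq (G := G) (p := 3) (k := 9) (m := 3280076800)
      (P := (P : Subgroup (K.map e.symm.toMonoidHom)).map (Subgroup.subtype _))
      (by rw [Subgroup.card_map_of_injective (Subgroup.subtype_injective _), h1])
      (by rw [Nat.card_congr e.toEquiv, Calc.Fi22.card]; norm_num) (by norm_num)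
    exact ⟨S, hS.symm⟩

end Cfsg.Agent.S5517
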