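import Cfsg.Statements.S5518
import Cfsg.Agent.Lib.Fi.M24G2

set_option autoImplicit false
open Cfsg

namespace Cfsg.Agent.S5518

open Cfsg.Lib Cfsg.Lib.Fi

open Subgroup Calc M24 in
theorem main {G : Type*} [Group G] {D : Set G} {τ : ℕ → G} (h : H24 D τ) {T K B : Subgroup G}
    (hT : T = genW τ (pws [202913, 16, 0, 3])) (hK : K = CZ τ (pws [202913, 16, 0, 3])) (hB : B = zpowers (x13.ev τ)) :
    normalizer (B : Set G) ≤ normalizer (K : Set G) ∧ Nat.card ↥(K ⊓ normalizer (B : Set G)) = 78 ∧
      K ⊓ centralizer (B : Set G) = B ∧ (((K ⊓ normalizer (B : Set G)) ⊔ T).subgroupOf (normalizer (B : Set G))).index = 2 := by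
  have := h.fin
  have : Fact (Nat.Prime 13) := ⟨by norm_num⟩
  have h' := h.cache x13_fix
  have o := h.orderOf_eq x13_ord x13_ne
  have xK : x13.ev τ ∈ K := hK ▸ h.mem_CZ x13_gen _ (List.mem_singleton_self _)
  have c : Nat.card ↥(K ⊓ centralizer {x13.ev τ}) = 13 := by
    rw [← show _ = 13 from (h'.cert c13_ok).card, hK]
    congr 2; ext g
    rw [mem_inf, mem_centralizer_singleton_iff, Fi.mem_CZ, Fi.mem_CZ, List.forall_mem_cons, and_comm, eq_comm]; rfl
  have k := hK ▸ card_k2 h
  have f := hB ▸ card_normalizer_sylow_in xK o c (q := 326592) (m := 326592) k k (by decide)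
  have kt : K = centralizer T := hK ▸ hT ▸ CZ_eq_centralizer_genW _ _
  have nT : normalizer (B : Set G) ≤ normalizer T := by
    have e := h'.span_fix x13_span
    rw [hT, hB, ← show _ = genW τ (pws [202913, 16, 0, 3]) from e]
    exact le_normalizer_closure_iff.2 fun g hg d hd => subset_closure
      ⟨h.conj_mem g hd.1, conj_mem_of_normalizer (Core.normalizer_le_normalizer_centralizer _ hg) hd.2⟩
  have t : Nat.card T = 36 := by
    have e1 := h.symm (k := 0) x13_c1 rfl
    have e2 := h.symm (k := 0) x13_c2 rfl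
    have e3 := (h.genW_le x13_c3).trans_eq (CZ_eq_centralizer_genW _ _)
    rw [hT, show genW τ (pws [202913, 16, 0, 3]) = genW τ (pws [202913, 16]) ⊔ genW τ (pws [0, 3]) by
      rw [genW_pws, genW_pws, genW_pws, ← Subgroup.closure_union, ← Set.image_union]; congr 2; ext; simp [or_assoc]]
    refine (Core.card_sup_of_disjoint (e3.trans (centralizer_le_normalizer _)) (le_bot_iff.1
      ((inf_le_inf_right _ e3).trans_eq ((inf_comm _ _).trans (inf_centralizer_of_perm e1))))).trans ?_
    rw [Nat.card_congr e1.some.toEquiv, Nat.card_congr e2.some.toEquiv, Nat.card_perm, Nat.card_fin]; rfl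
  have tk : T ≤ centralizer K := kt ▸ le_centralizer_iff.1 le_rfl
  have s : Nat.card ↥((K ⊓ normalizer (B : Set G)) ⊔ T) = 2808 := by
    rw [Core.card_sup_of_disjoint (inf_le_left.trans (kt.trans_le (centralizer_le_normalizer _))), f, t]
    refine eq_bot_iff.2 fun g hg => ?_
    obtain ⟨e⟩ := hK ▸ iso_k2 h
    have : e ⟨g, hg.1.1⟩ ∈ center _ := mem_center_iff.2 fun y => by
      obtain ⟨y, rfl⟩ := e.surjective y
      rw [← map_mul, ← map_mul]; exact congrArg e (Subtype.ext (tk hg.2 y y.2))
    exact congrArg Subtype.val (e.map_eq_one_iff.1 (center_G2.le this))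
  have BK : B ≤ K := hB ▸ zpowers_le.2 xK
  refine ⟨kt ▸ nT.trans (Core.normalizer_le_normalizer_centralizer _), f, ?_, ?_⟩
  · rw [hB, Core.centralizer_zpowers]
    exact (eq_of_le_of_card_ge (zpowers_le.2 (mem_inf.2 ⟨xK, mem_centralizer_singleton_iff.2 rfl⟩))
      (by rw [c, Nat.card_zpowers, o])).symm
  have n := ((K ⊓ normalizer (B : Set G) ⊔ T).subgroupOf (normalizer (B : Set G))).card_mul_index
  rw [card_subgroupOf (sup_le inf_le_right ((tk.trans (centralizer_le BK)).trans (centralizer_le_normalizer _))), s] at n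
  have l : ∀ a ∈ x13_fx, a < 306936 := by decide
  have p := hB ▸ h.nrm_fix l x13_fix
  have a1 := h.card_step l p (p := 3) (ps := []) (m := 6) (by decide +kernel)
  have a2 := h.card_step l p (p := 0) (ps := [3]) (m := 2) (by decide +kernel)
  have a3 := h.card_step l p (p := 16) (ps := [0, 3]) (m := 3) (by decide +kernel)
  have a4 := h.card_step l p (p := 202913) (ps := [16, 0, 3]) (m := 2) (by decide +kernel)
  rw [← hK, inf_comm _ K, f] at a4
  rw [show pws [] = [] from rfl, CZ_nil, inf_top_eq] at a1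
  obtain ⟨S, hS⟩ := exists_sylow_eq (p := 13) (P := B) (k := 1) (m := 193108570644717187891200)
    (by rw [hB, Nat.card_zpowers, o, pow_one]) h.card (by decide)
  have h3 : _ % 13 = 1 := card_sylow_modEq_one 13 G
  rw [S.card_eq_index_normalizer, show (S : Set G) = B from congrArg SetLike.coe hS] at h3
  have h4 := (normalizer (B : Set G)).card_mul_index
  have h5 : 0 < Nat.card (normalizer (B : Set G)) := Nat.card_pos
  rw [h.card] at h4
  by_contra e
  rw [show Nat.card (normalizer (B : Set G)) = 2808 by omega] at h4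
  omega

/-- Let G be a finite group with trivial centre generated by a conjugation-invariant set D of 3-transpositions on which it acts primitively, such that for some d in D the subgroup generated by the members of D other than d commuting with d has central largest normal 2- and 3-subgroups, and suppose G with D is of type M(24). Then any two subgroups of order 13 are conjugate; and there are members a, b, c, d of D generating the direct product T of two symmetric groups of degree 3 (a, d non-commuting; b, c non-commuting; b and c commuting with a and d) whose centralizer K is isomorphic to the Chevalley group G₂(3), such that for every subgroup B of K of order 13: the normalizer of B lies in the normalizer of K, the normalizer F of B in K is a Frobenius group of order 78 with kernel B (order 78, centralizer of B in it equal to B), and the subgroup generated by F and T has index 2 in the normalizer of B. -/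
theorem result {G : Type*} [Group G] [Finite G] {D : Set G} (hD : Cfsg.IsThreeTranspositionGroup D) (hprim : Cfsg.IsPrimitiveUnderConj D) (d₀ : G) (hd₀ : d₀ ∈ D) (h3 : Cfsg.pCore 3 ↥(Subgroup.closure {y : G | y ∈ D ∧ y ≠ d₀ ∧ Commute d₀ y}) ≤ Subgroup.center ↥(Subgroup.closure {y : G | y ∈ D ∧ y ≠ d₀ ∧ Commute d₀ y})) (h2 : Cfsg.pCore 2 ↥(Subgroup.closure {y : G | y ∈ D ∧ y ≠ d₀ ∧ Commute d₀ y}) ≤ Subgroup.center ↥(Subgroup.closure {y : G | y ∈ D ∧ y ≠ d₀ ∧ Commute d₀ y})) (h24 : Cfsg.IsOfTypeM24 G D) : (∀ X Y : Subgroup G, Nat.card X = 13 → Nat.card Y = 13 → ∃ g : G, X.map (MulAut.conj g).toMonoidHom = Y) ∧ ∃ (a b c d : G) (T K : Subgroup G), (∀ x ∈ [a, b, c, d], x ∈ D) ∧ ¬ Commute a d ∧ ¬ Commute b c ∧ Commute a b ∧ Commute a c ∧ Commute d b ∧ Commute d c ∧ T = Subgroup.closure ({a, b, c, d} : Set G) ∧ K = Subgroup.centralizer (T : Set G) ∧ Nonempty (↥K ≃* ↥(Cfsg.Lie.chevG2.group (ZMod 3))) ∧ ∀ B : Subgroup G, B ≤ K → Nat.card B = 13 → Subgroup.normalizer ((B : Subgroup G) : Set G) ≤ Subgroup.normalizer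 ((K : Subgroup G) : Set G) ∧ Nat.card ↥(K ⊓ Subgroup.normalizer ((B : Subgroup G) : Set G)) = 78 ∧ K ⊓ Subgroup.centralizer ((B : Subgroup G) : Set G) = B ∧ (((K ⊓ Subgroup.normalizer ((B : Subgroup G) : Set G)) ⊔ T).subgroupOf (Subgroup.normalizer ((B : Subgroup G) : Set G))).index = 2 := by
  obtain ⟨⟨τ, h⟩, -⟩ := M24.has24 hD h24
  have : Fact (Nat.Prime 13) := ⟨by norm_num⟩
  have c : ∀ a b, b < 306936 → (Commute (τ b) (τ a) ↔ Nat.beq (M24.F.pw (.l a) true b) b = true) :=
    fun a b => h.comm_iff (.l a)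
  have o := h.orderOf_eq M24.x13_ord M24.x13_ne
  have t : ∀ τ : ℕ → G, Subgroup.closure {τ 0, τ 16, τ 202913, τ 3} = Calc.genW τ (pws [202913, 16, 0, 3]) := fun τ => by
    rw [genW_pws]; congr 1; ext; simp [eq_comm]; tauto
  have k : Subgroup.centralizer ((Subgroup.closure {τ 0, τ 16, τ 202913, τ 3} : Subgroup G) : Set G) =
      CZ τ (pws [202913, 16, 0, 3]) := by rw [t, CZ_eq_centralizer_genW]
  refine ⟨(cls_sylow o (m := 193108570644717187891200) h.card (by decide)).one, τ 0, τ 16, τ 202913, τ 3, _, _,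
    fun x hx => ?_, (c _ _ (by decide)).not.2 (by decide +kernel), (c _ _ (by decide)).not.2 (by decide +kernel),
    (c _ _ (by decide)).2 (by decide +kernel), (c _ _ (by decide)).2 (by decide +kernel),
    (c _ _ (by decide)).2 (by decide +kernel), (c _ _ (by decide)).2 (by decide +kernel), rfl, rfl,
    k ▸ M24.iso_k2 h, fun B hB hc => ?_⟩
  · simp only [List.mem_cons, List.not_mem_nil, or_false] at hx
    rcases hx with rfl | rfl | rfl | rfl <;> exact h.mem (by decide)
  rw [k] at hB ⊢
  obtain ⟨_, -, g, e⟩ := cls_sylow ((Subgroup.orderOf_mk _ (h.mem_CZ M24.x13_gen _ (List.mem_singleton_self _))).trans o)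
    (m := 326592) (M24.card_k2 h) (by decide) (B.subgroupOf _)
    ((card_subgroupOf hB).trans hc)
  have q : ∀ a ∈ [202913, 16, 0, 3], g * τ a * (g : G)⁻¹ = τ a := fun a ha =>
    mul_inv_eq_iff_eq_mul.2 (Fi.mem_CZ.1 g.2 (.l a) (mem_pws.2 ⟨a, ha, rfl⟩)).symm
  have t' := t fun a => g * τ a * (g : G)⁻¹
  simp only [q 0 (by simp), q 16 (by simp), q 202913 (by simp), q 3 (by simp)] at t'
  refine main (h.conj g) t' (k.symm.trans (by rw [t']; exact (CZ_eq_centralizer_genW _ _).symm)) ?_
  rw [← Subgroup.map_subgroupOf_eq_of_le hB, e, MonoidHom.map_zpowers, ev_conj]; rfl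

end Cfsg.Agent.S5518
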