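import Cfsg.Statements.S5541

set_option autoImplicit false
open Cfsg

namespace Cfsg.Agent.S5541

/-- Let ρ be a representation of a group H on a finite-dimensional real vector space U whose only ρ-invariant subspaces are the zero subspace and U, and suppose U carries a non-zero ρ-invariant symmetric bilinear form. Then the following are equivalent: (1) there is a non-zero ρ-equivariant commutative bilinear product on U of which every ρ-equivariant bilinear product is a scalar multiple; (2) there is a non-zero ρ-invariant trilinear form on U that is symmetric under all permutations of its arguments and of which every ρ-invariant trilinear form is a scalar multiple. -/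
theorem result {H : Type*} [Group H] {U : Type*} [AddCommGroup U] [Module ℝ U] [FiniteDimensional ℝ U] (ρ : Representation ℝ H U) (hirr : ∀ W : Submodule ℝ U, (∀ g : H, W.map (ρ g) ≤ W) → W = ⊥ ∨ W = ⊤) (B : LinearMap.BilinForm ℝ U) (hB0 : B ≠ 0) (hBs : ∀ u v, B u v = B v u) (hBi : ∀ (g : H) (u v : U), B (ρ g u) (ρ g v) = B u v) : (∃ m : U →ₗ[ℝ] U →ₗ[ℝ] U, m ≠ 0 ∧ (∀ u v, m u v = m v u) ∧ (∀ (g : H) (u v : U), m (ρ g u) (ρ g v) = ρ g (m u v)) ∧ ∀ m' : U →ₗ[ℝ] U →ₗ[ℝ] U, (∀ (g : H) (u v : U), m' (ρ g u) (ρ g v) = ρ g (m' u v)) → ∃ c : ℝ, m' = c • m) ↔ (∃ t : U →ₗ[ℝ] U →ₗ[ℝ] U →ₗ[ℝ] ℝ, t ≠ 0 ∧ (∀ u v w, t u v w = t v u w ∧ t u v w = t u w v) ∧ (∀ (g : H) (u v w : U), t (ρ g u) (ρ g v) (ρ g w) = t u v w) ∧ ∀ t' : U →ₗ[ℝ] U →ₗ[ℝ] U →ₗ[ℝ] ℝ, (∀ (g : H) (u v w : U), t' (ρ g u) (ρ g v) (ρ g w) = t' u v w) → ∃ c : ℝ, t' = c • t) := by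
  have hρ : ∀ (g : H) (u : U), ρ g (ρ g⁻¹ u) = u := fun g u => by simp
  have hl : ∀ u, (∀ v, B u v = 0) → u = 0 := by
    rcases hirr (LinearMap.ker B) (by
      rintro g _ ⟨u, hu, rfl⟩
      refine LinearMap.mem_ker.2 (LinearMap.ext fun v => ?_)
      rw [← hρ g v, hBi, LinearMap.mem_ker.1 hu]; rfl) with h | h
    · exact fun u hu => (Submodule.mem_bot ℝ).1 (h ▸ LinearMap.mem_ker.2 (LinearMap.ext hu))
    · exact absurd (LinearMap.ker_eq_top.1 h) hB0
  have hB : B.Nondegenerate := ⟨hl, fun u hu => hl u fun v => (hBs u v).trans (hu v)⟩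
  let e : (U →ₗ[ℝ] U →ₗ[ℝ] U) ≃ₗ[ℝ] (U →ₗ[ℝ] U →ₗ[ℝ] U →ₗ[ℝ] ℝ) :=
    LinearEquiv.congrRight (LinearEquiv.congrRight (B.toDual hB))
  have he : ∀ m u v w, e m u v w = B (m u v) w := fun _ _ _ _ => rfl
  have hinv : ∀ m : U →ₗ[ℝ] U →ₗ[ℝ] U,
      (∀ (g : H) (u v : U), m (ρ g u) (ρ g v) = ρ g (m u v)) ↔
      ∀ (g : H) (u v w : U), e m (ρ g u) (ρ g v) (ρ g w) = e m u v w := by
    intro m
    refine ⟨fun h g u v w => by rw [he, he, h, hBi], fun h g u v => sub_eq_zero.1 (hl _ fun w => ?_)⟩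
    rw [← hρ g w, map_sub, LinearMap.sub_apply, ← he, h, hBi, he, sub_self]
  constructor
  · rintro ⟨m, hm0, hms, hmi, hmu⟩
    have hu : ∀ t' : U →ₗ[ℝ] U →ₗ[ℝ] U →ₗ[ℝ] ℝ,
        (∀ (g : H) (u v w : U), t' (ρ g u) (ρ g v) (ρ g w) = t' u v w) → ∃ c : ℝ, t' = c • e m := by
      intro t' ht'
      obtain ⟨m', rfl⟩ := e.surjective t'
      obtain ⟨c, rfl⟩ := hmu m' ((hinv m').2 ht')
      exact ⟨c, map_smul _ _ _⟩
    have h0 : e m ≠ 0 := by simpa using hm0
    have hs : ∀ u v w, e m u v w = e m v u w := fun u v w => by rw [he, he, hms]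
    refine ⟨e m, h0, fun u v w => ⟨hs u v w, ?_⟩, (hinv m).1 hmi, hu⟩
    obtain ⟨c, hc⟩ := hu (LinearMap.lflip.toLinearMap ∘ₗ e m) fun g u v w => (hinv m).1 hmi g u w v
    have h1 : ∀ u v w, e m u w v = c * e m u v w := fun u v w =>
      LinearMap.congr_fun (LinearMap.congr_fun (LinearMap.congr_fun hc u) v) w
    obtain ⟨a, b, d, habd⟩ : ∃ a b d, e m a b d ≠ 0 := by
      by_contra hcon
      push Not at hcon
      exact h0 (by ext a b d; exact hcon a b d)
    have h2 : c * c = 1 := by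
      have := h1 a d b
      rw [h1 a b d, ← mul_assoc] at this
      exact (mul_right_cancel₀ habd (this.symm.trans (one_mul _).symm))
    have h3 : c * c * c = 1 := by
      have := h1 a d b
      rw [hs a d b, h1 d b a, hs d b a, h1 b a d, hs b a d, ← mul_assoc, ← mul_assoc] at this
      exact (mul_right_cancel₀ habd (this.symm.trans (one_mul _).symm))
    rw [h2, one_mul] at h3
    rw [h1 u v w, h3, one_mul]
  · rintro ⟨t, ht0, hts, hti, htu⟩
    obtain ⟨m, rfl⟩ := e.surjective t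
    refine ⟨m, by simpa using ht0, fun u v => sub_eq_zero.1 (hl _ fun w => ?_), (hinv m).2 hti,
      fun m' hm' => ?_⟩
    · rw [map_sub, LinearMap.sub_apply, ← he, ← he, (hts u v w).1, sub_self]
    · obtain ⟨c, hc⟩ := htu (e m') ((hinv m').1 hm')
      exact ⟨c, e.injective (by rw [hc, map_smul])⟩

end Cfsg.Agent.S5541
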