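import Cfsg.Statements.S5543
import Cfsg.Agent.Lib.CharDeg.Majorana

set_option autoImplicit false
open Cfsg

namespace Cfsg.Agent.S5543

open Cfsg.Lib.CharDeg.Majorana in

/-- Let V be a finite-dimensional real vector space with a commutative bilinear product and a positive-definite symmetric bilinear form that associates with the product and satisfies the Norton inequality (the Majorana setting of the definitions). Let X be a group of linear automorphisms of V in which every element squares to the identity, and suppose every non-identity element x of X is a Majorana involution with an axial vector a(x) of squared length 1, such that for any two distinct non-identity x, y the product a(x) ∘ a(y) equals (1/8)(a(x) + a(y) − a(xy)) (the dihedral subalgebra of type 2A whose third axis belongs to the involution xy). Then X has order at most 4. -/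
theorem result {V : Type*} [AddCommGroup V] [Module ℝ V] [FiniteDimensional ℝ V] (mul : V →ₗ[ℝ] V →ₗ[ℝ] V) (B : LinearMap.BilinForm ℝ V) (hV : Cfsg.Axial.IsMajoranaAmbient mul B) (X : Subgroup (V ≃ₗ[ℝ] V)) (hX : ∀ x ∈ X, x * x = 1) (ax : (V ≃ₗ[ℝ] V) → V) (hax : ∀ x ∈ X, x ≠ 1 → Cfsg.Axial.IsMajoranaPair mul B x (ax x)) (h1 : ∀ x ∈ X, x ≠ 1 → B (ax x) (ax x) = 1) (h2A : ∀ x ∈ X, ∀ y ∈ X, x ≠ 1 → y ≠ 1 → x ≠ y → mul (ax x) (ax y) = (1 / 8 : ℝ) • (ax x + ax y - ax (x * y))) : Nat.card ↥X ≤ 4 := by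
  classical
  by_contra hlt
  push Not at hlt
  have hfin : Finite X := Nat.finite_of_card_ne_zero (by omega)
  have := Fintype.ofFinite X
  have hA : ∀ x ∈ X, x ≠ 1 → Ax mul B x (ax x) := fun x hx h => ax_of_pair (hax x hx h) (h1 x hx h)
  have hinv : ∀ x ∈ X, x⁻¹ = x := fun x hx => inv_eq_of_mul_eq_one_right (hX x hx)
  have hcomm : ∀ x ∈ X, ∀ y ∈ X, x * y = y * x := fun x hx y hy => by
    rw [← hinv _ (X.mul_mem hx hy), mul_inv_rev, hinv x hx, hinv y hy]
  have hex : ∀ S : Finset X, S.card ≤ 4 → ∃ x, x ∉ S := fun S hS => by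
    by_contra h
    push Not at h
    rw [Finset.eq_univ_iff_forall.2 h, Finset.card_univ, ← Nat.card_eq_fintype_card] at hS
    omega
  obtain ⟨⟨x, hx⟩, hx1⟩ := hex {1} (by simp)
  obtain ⟨⟨y, hy⟩, hy1⟩ := hex {1, ⟨x, hx⟩} (Finset.card_le_two.trans (by norm_num))
  obtain ⟨⟨z, hz⟩, hz1⟩ := hex {1, ⟨x, hx⟩, ⟨y, hy⟩, ⟨x * y, X.mul_mem hx hy⟩} Finset.card_le_four
  simp only [Finset.mem_insert, Finset.mem_singleton, Subtype.ext_iff, OneMemClass.coe_one,
    not_or] at hx1 hy1 hz1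
  have hxx : ∀ u, x * (x * u) = u := fun u => by rw [← mul_assoc, hX x hx, one_mul]
  have n1 : ∀ u, u ≠ x → x * u ≠ 1 := fun u hu h => hu (by rw [← hxx u, h, mul_one])
  have n2 : ∀ u, u ≠ 1 → x ≠ x * u := fun u hu h => hu (left_eq_mul.1 h)
  have eig : ∀ u ∈ X, u ≠ 1 → u ≠ x →
      mul (ax x) (ax u - ax (x * u)) = (1 / 4 : ℝ) • (ax u - ax (x * u)) := by
    intro u hu hu1 hux
    rw [map_sub, h2A x hx u hu hx1 hu1 hux.symm,
      h2A x hx _ (X.mul_mem hx hu) hx1 (n1 u hux) (n2 u hu1), hxx]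
    module
  have hyz : y * z ≠ 1 := fun h => hz1.2.2.1 (by
    rw [← hinv y hy, eq_comm, inv_eq_iff_mul_eq_one]; exact h)
  have hyzx : y * z ≠ x := fun h => hz1.2.2.2 (by
    rw [← h, hcomm y hy z hz, mul_assoc, hX y hy, mul_one])
  obtain ⟨κ, hκ⟩ := (hA x hx hx1).f44 _ _ (eig y hy hy1.1 hy1.2) (eig z hz hz1.1 hz1.2.1)
  have e3 := eig (y * z) (X.mul_mem hy hz) hyz hyzx
  have p1 := h2A y hy z hz hy1.1 hz1.1 (Ne.symm hz1.2.2.1)
  have p2 := h2A y hy _ (X.mul_mem hx hz) hy1.1 (n1 z hz1.2.1)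
    (fun h => hz1.2.2.2 (by rw [h, hxx]))
  have p3 := h2A _ (X.mul_mem hx hy) z hz (n1 y hy1.2) hz1.1 (Ne.symm hz1.2.2.2)
  have p4 := h2A _ (X.mul_mem hx hy) _ (X.mul_mem hx hz) (n1 y hy1.2) (n1 z hz1.2.1)
    (fun h => hz1.2.2.1 (mul_left_cancel h).symm)
  have q2 : y * (x * z) = x * (y * z) := by rw [← mul_assoc, hcomm y hy x hx, mul_assoc]
  rw [q2] at p2
  rw [mul_assoc] at p3
  rw [mul_assoc, q2, hxx] at p4
  have prod : mul (ax y - ax (x * y)) (ax z - ax (x * z)) =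
      (-1 / 4 : ℝ) • (ax (y * z) - ax (x * (y * z))) := by
    simp only [map_sub, LinearMap.sub_apply, p1, p2, p3, p4]
    module
  rw [prod, map_smul, e3] at hκ
  have ha : mul (ax x) (ax x) = (1 : ℝ) • ax x := by rw [(hA x hx hx1).idem, one_smul]
  have ho := orth hV e3 ha (by norm_num)
  have h0 := congrArg (B (ax (y * z) - ax (x * (y * z)))) hκ
  rw [map_smul, map_smul, map_smul, ho] at h0
  simp only [smul_eq_mul] at h0
  have h00 := eq_zero hV (u := ax (y * z) - ax (x * (y * z))) (by linarith)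
  have := (hA _ (X.mul_mem hy hz) hyz).unique
    (sub_eq_zero.1 h00 ▸ hA _ (X.mul_mem hx (X.mul_mem hy hz)) (n1 _ hyzx))
  exact hx1 (right_eq_mul.1 this)

end Cfsg.Agent.S5543
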