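import Cfsg.Statements.S5544
import Cfsg.Agent.Lib.CharDeg.Majorana

set_option autoImplicit false
open Cfsg

namespace Cfsg.Agent.S5544

theorem c0 {G : Type*} [Group G] {u v : G} (hu : u * u = 1) (hv : v * v = 1) (i : ℤ) :
    u * ((v * u) ^ i * u) * u⁻¹ = (v * u) ^ (-i) * u := by
  have h1 : u⁻¹ = u := inv_eq_of_mul_eq_one_right hu
  have h2 : v⁻¹ = v := inv_eq_of_mul_eq_one_right hv
  have : u * (v * u) * u⁻¹ = (v * u)⁻¹ := by rw [mul_inv_rev, h2]; nth_rw 2 [h1]; group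
  rw [zpow_neg, ← inv_zpow, ← this, conj_zpow]; group

theorem c1 {G : Type*} [Group G] {u v : G} (hu : u * u = 1) (hv : v * v = 1) (i : ℤ) :
    v * ((v * u) ^ i * u) * v⁻¹ = (v * u) ^ (2 - i) * u := by
  have h1 : u⁻¹ = u := inv_eq_of_mul_eq_one_right hu
  have h2 : v⁻¹ = v := inv_eq_of_mul_eq_one_right hv
  have : v * (v * u) * v⁻¹ = (v * u)⁻¹ := by
    rw [mul_inv_rev, h1, ← mul_assoc, hv, one_mul]
  have h3 : v * (v * u) ^ i * v⁻¹ = (v * u) ^ (-i) := by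
    rw [zpow_neg, ← inv_zpow, ← this, conj_zpow]
  rw [sub_eq_neg_add, zpow_add, ← h3, zpow_two, h2]
  simp only [mul_assoc, hu, mul_one]
  rw [← mul_assoc v v, hv, one_mul]

open Cfsg.Lib.CharDeg.Majorana in

/-- Let V be a finite-dimensional real vector space with a commutative bilinear product and a positive-definite symmetric bilinear form that associates with the product and satisfies the Norton inequality (the Majorana setting of the definitions). Let μ₀ and μ₁ be Majorana involutions with axial vectors a₀ and a₁ of squared length 1, each involution having no other axial vector. Then the product μ₀μ₁ has order at most 6: some power (μ₀μ₁)^n with 1 ≤ n ≤ 6 is the identity (so the two involutions generate a dihedral group of order at most 12). This is the 6-transposition property of Majorana involutions. -/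
theorem result {V : Type*} [AddCommGroup V] [Module ℝ V] [FiniteDimensional ℝ V] (mul : V →ₗ[ℝ] V →ₗ[ℝ] V) (B : LinearMap.BilinForm ℝ V) (hV : Cfsg.Axial.IsMajoranaAmbient mul B) (μ₀ μ₁ : V ≃ₗ[ℝ] V) (a₀ a₁ : V) (h₀ : Cfsg.Axial.IsMajoranaPair mul B μ₀ a₀) (h₁ : Cfsg.Axial.IsMajoranaPair mul B μ₁ a₁) (hu₀ : ∀ a : V, Cfsg.Axial.IsMajoranaPair mul B μ₀ a → a = a₀) (hu₁ : ∀ a : V, Cfsg.Axial.IsMajoranaPair mul B μ₁ a → a = a₁) (hn₀ : B a₀ a₀ = 1) (hn₁ : B a₁ a₁ = 1) : ∃ n : ℕ, 1 ≤ n ∧ n ≤ 6 ∧ (μ₀ * μ₁) ^ n = 1 := by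
  have a0 := ax_of_pair h₀ hn₀
  have a1 := ax_of_pair h₁ hn₁
  have s0 : ∀ (i : ℤ) x, Ax mul B ((μ₁ * μ₀) ^ i * μ₀) x → Ax mul B ((μ₁ * μ₀) ^ (-i) * μ₀) (μ₀ x) :=
    fun i x h => c0 a0.mul_self a1.mul_self i ▸ h.conj μ₀ a0.hom a0.iso
  have s1 : ∀ (i : ℤ) x, Ax mul B ((μ₁ * μ₀) ^ i * μ₀) x →
      Ax mul B ((μ₁ * μ₀) ^ (2 - i) * μ₀) (μ₁ x) :=
    fun i x h => c1 a0.mul_self a1.mul_self i ▸ h.conj μ₁ a1.hom a1.iso
  have b0 : Ax mul B ((μ₁ * μ₀) ^ (0 : ℤ) * μ₀) a₀ := by rwa [zpow_zero, one_mul]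
  have b1 : Ax mul B ((μ₁ * μ₀) ^ (1 : ℤ) * μ₀) a₁ := by
    rwa [zpow_one, mul_assoc, a0.mul_self, mul_one]
  let x : Fin 6 → V := ![μ₀ (μ₁ a₀), μ₁ (μ₀ (μ₁ a₀)), a₀, μ₁ a₀, μ₀ a₁, μ₁ (μ₀ a₁)]
  let k : Fin 6 → ℤ := ![-2, 4, 0, 2, -1, 3]
  have hx : ∀ i, Ax mul B ((μ₁ * μ₀) ^ (k i) * μ₀) (x i) := by
    intro i
    fin_cases i
    · exact s0 _ _ (s1 _ _ b0)
    · exact s1 _ _ (s0 _ _ (s1 _ _ b0))
    · exact b0
    · exact s1 _ _ b0
    · exact s0 _ _ b1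
    · exact s1 _ _ (s0 _ _ b1)
  obtain ⟨p, q, h⟩ := relation hV a0 a1
  by_contra hcon
  refine no_relation hV x (fun i => (hx i).norm) (fun i j => inner_nonneg hV (hx i).idem (hx j).idem)
    (fun i j hij => inner_lt hV (hx i) (hx j).idem (hx j).norm fun e => hcon ?_) p q h
  have h1 := (hx i).unique (e ▸ hx j)
  have h2 : (μ₁ * μ₀) ^ (k i - k j) = 1 := by
    rw [zpow_sub, mul_right_cancel h1, mul_inv_cancel]
  have h3 : ∀ i j, i ≠ j → 1 ≤ (k i - k j).natAbs ∧ (k i - k j).natAbs ≤ 6 := by decide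
  refine ⟨_, (h3 i j hij).1, (h3 i j hij).2, ?_⟩
  have h4 : μ₀ * μ₁ = (μ₁ * μ₀)⁻¹ := by
    rw [mul_inv_rev, inv_eq_of_mul_eq_one_right a0.mul_self, inv_eq_of_mul_eq_one_right a1.mul_self]
  rw [h4, inv_pow, inv_eq_one, pow_natAbs_eq_one, h2]

end Cfsg.Agent.S5544
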