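import Cfsg.Statements.S5545
import Cfsg.Agent.Lib.CharDeg.Majorana

set_option autoImplicit false
open Cfsg

namespace Cfsg.Agent.S5545

open Cfsg.Axial Cfsg.Lib.CharDeg.Majorana

theorem pair_conj {V : Type*} [AddCommGroup V] [Module ℝ V] {mul : V →ₗ[ℝ] V →ₗ[ℝ] V}
    {B : LinearMap.BilinForm ℝ V} {μ : V ≃ₗ[ℝ] V} {a : V} (h : IsMajoranaPair mul B μ a)
    (g : V ≃ₗ[ℝ] V) (hg : ∀ u v, g (mul u v) = mul (g u) (g v)) (hc : ∀ v, μ (g v) = g (μ v)) :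
    IsMajoranaPair mul B μ (g a) := by
  obtain ⟨h1, h2, ⟨⟨h0, h3, h4, h5⟩, h6⟩, h7, h8⟩ := h
  have e1 : ∀ c : ℝ, eigen mul (g a) c = (eigen mul a c).map (g : V →ₗ[ℝ] V) := fun c => by
    ext v
    obtain ⟨v, rfl⟩ := g.surjective v
    rw [mem_eigen, ← hg, ← map_smul, g.injective.eq_iff, ← mem_eigen]
    exact (Submodule.mem_map_equiv _ (e := g)).trans (by rw [g.symm_apply_apply]) |>.symm
  have e2 : ∀ S : Set ℝ, eigenSum mul (g a) S = (eigenSum mul a S).map (g : V →ₗ[ℝ] V) := fun S => by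
    change (⨆ c ∈ S, eigen mul (g a) c) = (⨆ c ∈ S, eigen mul a c).map (g : V →ₗ[ℝ] V)
    simp only [Submodule.map_iSup, e1]
  refine ⟨h1, h2, ⟨⟨fun h => h0 (g.map_eq_zero_iff.1 h), by rw [← hg, h3], ?_, ?_⟩, ?_⟩, ?_, ?_⟩
  · rw [e2, h4, Submodule.map_top, LinearEquiv.range]
  · intro c hc d hd u hu v hv
    rw [e1] at hu hv
    obtain ⟨u, hu, rfl⟩ := hu
    obtain ⟨v, hv, rfl⟩ := hv
    rw [e2]
    exact ⟨_, h5 c hc d hd u hu v hv, hg u v⟩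
  · rw [e1, h6, Submodule.map_span, Set.image_singleton]; rfl
  · intro v hv
    rw [e2] at hv
    obtain ⟨v, hv, rfl⟩ := hv
    exact (hc v).trans (congrArg g (h7 v hv))
  · intro v hv
    rw [e1] at hv
    obtain ⟨v, hv, rfl⟩ := hv
    exact (hc v).trans ((congrArg g (h8 v hv)).trans (map_neg g v))

theorem half {V : Type*} [AddCommGroup V] [Module ℝ V] {mul : V →ₗ[ℝ] V →ₗ[ℝ] V}
    {B : LinearMap.BilinForm ℝ V} (hV : IsMajoranaAmbient mul B) {μ : V ≃ₗ[ℝ] V} {a b : V}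
    (h : Ax mul B μ a) (hb : μ b = b) :
    mul a (b + (3 * B a b) • a - (4 : ℝ) • mul a b) = 0 ∧
    mul a (mul a b - B a b • a) = (1 / 4 : ℝ) • (mul a b - B a b • a) := by
  obtain ⟨-, -, h1, h2⟩ := eigvec hV h b (mul a b - (1 / 32 : ℝ) • (a + b)) (by abel)
  rw [hb] at h1 h2
  simp only [map_add, map_sub, map_smul] at h1 h2 ⊢
  constructor
  · linear_combination (norm := module) h1
  · linear_combination (norm := module) (1 / 4 : ℝ) • h2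

/-- Let V be a finite-dimensional real vector space with a commutative bilinear product and a positive-definite symmetric bilinear form that associates with the product and satisfies the Norton inequality (the Majorana setting of the definitions). Let μ₀, μ₁ be commuting Majorana involutions with distinct axial vectors a₀ ≠ a₁ of squared length 1, each involution having no other axial vector. Then either a₀ and a₁ are orthogonal with a₀ ∘ a₁ = 0 (type 2B), or their inner product is 1/8 and, with a₂ = a₀ + a₁ − 8 a₀ ∘ a₁, the vector a₂ is an idempotent and a₀ ∘ a₂ = (1/8)(a₀ + a₂ − a₁), a₁ ∘ a₂ = (1/8)(a₁ + a₂ − a₀) (type 2A: the three idempotents span a subalgebra with aᵢ ∘ aⱼ = (1/8)(aᵢ + aⱼ − aₖ)). -/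
theorem result {V : Type*} [AddCommGroup V] [Module ℝ V] [FiniteDimensional ℝ V] (mul : V →ₗ[ℝ] V →ₗ[ℝ] V) (B : LinearMap.BilinForm ℝ V) (hV : Cfsg.Axial.IsMajoranaAmbient mul B) (μ₀ μ₁ : V ≃ₗ[ℝ] V) (a₀ a₁ : V) (h₀ : Cfsg.Axial.IsMajoranaPair mul B μ₀ a₀) (h₁ : Cfsg.Axial.IsMajoranaPair mul B μ₁ a₁) (hu₀ : ∀ a : V, Cfsg.Axial.IsMajoranaPair mul B μ₀ a → a = a₀) (hu₁ : ∀ a : V, Cfsg.Axial.IsMajoranaPair mul B μ₁ a → a = a₁) (hn₀ : B a₀ a₀ = 1) (hn₁ : B a₁ a₁ = 1) (hc : μ₀ * μ₁ = μ₁ * μ₀) (hne : a₀ ≠ a₁) : (B a₀ a₁ = 0 ∧ mul a₀ a₁ = 0) ∨ (B a₀ a₁ = 1 / 8 ∧ mul (a₀ + a₁ - (8 : ℝ) • mul a₀ a₁) (a₀ + a₁ - (8 : ℝ) • mul a₀ a₁) = a₀ + a₁ - (8 : ℝ) • mul a₀ a₁ ∧ mul a₀ (a₀ + a₁ - (8 : ℝ) • mul a₀ a₁) = (1 / 8 : ℝ) • (a₀ + (a₀ + a₁ - (8 : ℝ) • mul a₀ a₁) - a₁) ∧ mul a₁ (a₀ + a₁ - (8 : ℝ) • mul a₀ a₁) = (1 / 8 : ℝ) • (a₁ + (a₀ + a₁ - (8 : ℝ) • mul a₀ a₁) - a₀)) := by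
  have a0 := ax_of_pair h₀ hn₀
  have a1 := ax_of_pair h₁ hn₁
  have f0 : μ₀ a₁ = a₁ := hu₁ _ (pair_conj h₁ μ₀ a0.hom fun v => (DFunLike.congr_fun hc v).symm)
  have f1 : μ₁ a₀ = a₀ := hu₀ _ (pair_conj h₀ μ₁ a1.hom fun v => DFunLike.congr_fun hc v)
  have hm := hV.1
  obtain ⟨α0, β0⟩ := half hV a0 f0
  obtain ⟨α1, β1⟩ := half hV a1 f1
  have hl : B a₀ a₁ = B (mul a₀ a₁) a₀ := by
    rw [hm a₀ a₁, ← hV.2.2.2.1, a0.idem, hV.2.1]
  have hlt := inner_lt hV a0 a1.idem hn₁ hne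
  rw [hV.2.1 a₁ a₀, hm a₁ a₀] at α1 β1
  have E1 := a0.f00 _ _ α0 α0
  have E2 := a0.f04 _ _ α0 β0
  obtain ⟨κ, E3⟩ := a0.f44 _ _ β0 β0
  have E1' := a1.f00 _ _ α1 α1
  obtain ⟨κ', E3'⟩ := a1.f44 _ _ β1 β1
  obtain ⟨m, hmm⟩ : ∃ m, mul a₀ a₁ = m := ⟨_, rfl⟩
  have hmm' : mul a₁ a₀ = m := by rw [hm, hmm]
  generalize hlam : B a₀ a₁ = l at *
  rw [hmm] at α0 β0 α1 β1 E1 E2 E3 E1' E3' hl ⊢
  have m0 : mul a₀ m = (1 / 4 : ℝ) • m + (3 / 4 * l) • a₀ := by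
    simp only [map_sub, map_smul, a0.idem] at β0
    linear_combination (norm := module) β0
  have m1 : mul a₁ m = (1 / 4 : ℝ) • m + (3 / 4 * l) • a₁ := by
    simp only [map_sub, map_smul, a1.idem] at β1
    linear_combination (norm := module) β1
  simp only [map_add, map_sub, map_smul, LinearMap.add_apply, LinearMap.sub_apply,
    LinearMap.smul_apply, a0.idem, a1.idem, hmm, hmm', m0, m1, hm m a₀, hm m a₁] at E1 E2 E3 E1' E3'
  by_cases h8 : l = 1 / 8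
  · right
    subst h8
    have mm : mul m m = (3 / 128 : ℝ) • (a₀ + a₁) - (1 / 32 : ℝ) • m := by
      linear_combination (norm := module) (1 / 4 : ℝ) • E1 + E2
    refine ⟨rfl, ?_, ?_, ?_⟩ <;>
    · simp only [map_add, map_sub, map_smul, LinearMap.add_apply, LinearMap.sub_apply,
        LinearMap.smul_apply, a0.idem, a1.idem, hmm, hmm', m0, m1, hm m a₀, hm m a₁, mm]
      module
  · left
    obtain ⟨x, hx⟩ : ∃ x : ℝ, (1 / 2 - 4 * l) • m = x • a₀ :=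
      ⟨-16 * κ - 5 * l ^ 2 + 3 / 2 * l, by
        linear_combination (norm := module) E1 - (16 : ℝ) • E3⟩
    obtain ⟨y, hy⟩ : ∃ y : ℝ, (1 / 2 - 4 * l) • m = y • a₁ :=
      ⟨-16 * κ' - 5 * l ^ 2 + 3 / 2 * l, by
        linear_combination (norm := module) E1' - (16 : ℝ) • E3'⟩
    have h1 := congrArg (B a₀) (hx.symm.trans hy)
    have h2 := congrArg (B a₁) (hx.symm.trans hy)
    simp only [map_smul, smul_eq_mul, hn₀, hn₁, hV.2.1 a₁ a₀, hlam] at h1 h2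
    have h0 : 0 ≤ l := hlam ▸ inner_nonneg hV a0.idem a1.idem
    have hy0 : y = 0 := by
      have : y * (1 - l * l) = 0 := by linear_combination -h2 + l * h1
      exact (mul_eq_zero.1 this).resolve_right (by nlinarith)
    rw [hy0, zero_smul, smul_eq_zero] at hy
    have hm0 := hy.resolve_left fun h => h8 (by linarith)
    exact ⟨by rw [hl, hm0]; simp, hm0⟩

end Cfsg.Agent.S5545
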