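import Cfsg.Statements.S5546
import Cfsg.Agent.Lib.Leech.Orders

set_option autoImplicit false
open Cfsg

namespace Cfsg.Agent.S5546

open Cfsg.Lib.Leech Cfsg.Lib.Calc Cfsg.Lib.F2 Cfsg.Lib.Golay Finset MulAction

theorem coord_smul (g : Cfsg.Co0) (x : Cfsg.leechLattice) {j : ℕ} (hj : j < 24) :
    coord (g • x) j = ∑ i : Fin 24, coord (g • bas i) j * coord x i := by
  conv_lhs => rw [← sum_coord x, smul_sum]
  change coordHom j hj _ = _
  rw [map_sum, Finset.sum_range]
  refine sum_congr rfl fun i _ => ?_
  rw [smul_zsmul', map_zsmul, smul_eq_mul, mul_comm]; rfl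

/-- The matrices on the quotient by the fixed basis vector. -/
noncomputable def rho : stabilizer Cfsg.Co0 (bas 12) →* Matrix (Fin 23) (Fin 23) (ZMod 13) where
  toFun g := Matrix.of fun i j => (coord ((g : Cfsg.Co0) • bas ((12 : Fin 24).succAbove j)) ((12 : Fin 24).succAbove i) : ℤ)
  map_one' := by
    ext i j
    rw [Matrix.of_apply, OneMemClass.coe_one, one_smul, coord_bas (Fin.is_lt _) (Fin.is_lt _), Matrix.one_apply]
    simp only [Fin.val_inj, Fin.succAbove_right_inj]
    split_ifs <;> rfl
  map_mul' g h := by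
    ext i j
    rw [Matrix.of_apply, Subgroup.coe_mul, mul_smul, coord_smul _ _ (Fin.is_lt _), Fin.sum_univ_succAbove _ 12,
      Matrix.mul_apply]
    have : (g : Cfsg.Co0) • bas ((12 : Fin 24) : ℕ) = bas ((12 : Fin 24) : ℕ) := g.2
    rw [this, coord_bas (Fin.is_lt _) (Fin.is_lt _), if_neg (Fin.val_ne_of_ne (Fin.succAbove_ne _ _))]
    push_cast
    rw [zero_mul, zero_add]; rfl

theorem nm12 : nm(bas 12) = 32 := by rw [coe_bas (by norm_num)]; decide +kernel

theorem simple12 : IsSimpleGroup (stabilizer Cfsg.Co0 (bas 12)) := by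
  obtain ⟨g, e⟩ := exists_smul_U nm12
  rw [← e, stabilizer_smul]
  have := simple_co2
  exact (conjEquiv g _).symm.isSimpleGroup

theorem rho_inj : Function.Injective rho := by
  have := simple12
  rw [← MonoidHom.ker_eq_bot_iff]
  refine (this.eq_bot_or_eq_top_of_normal _ inferInstance).resolve_right fun h => ?_
  have hc : G.toF 1302533 ∈ GC := mem_CW_of_isCW (by decide +kernel)
  have h1 : mono 1 (one_mem _) _ hc ∈ stabilizer Cfsg.Co0 (bas 12) := Subtype.ext (by
    rw [mono_smul, coe_bas (by norm_num)]; decide +kernel)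
  have h2 : rho ⟨_, h1⟩ = 1 := (h ▸ Subgroup.mem_top _ : _ ∈ rho.ker)
  have h3 := congrFun (congrFun h2 12) 12
  change ((coord (mono 1 (one_mem _) _ hc • bas 13) 13 : ℤ) : ZMod 13) = _ at h3
  rw [coord, mono_smul, coe_bas (by norm_num)] at h3
  revert h3
  decide +kernel

/-- The second Conway group (the stabilizer in the Leech lattice automorphism group of the short vector fixed in the definitions) is isomorphic to a subgroup of the general linear group of degree 23 over the field with 13 elements: there is an injective homomorphism into it. -/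
theorem result : ∃ f : ↥Cfsg.Spor.Co2 →* GL (Fin 23) (ZMod 13), Function.Injective f := by
  obtain ⟨g, e⟩ := exists_smul_U nm12
  let f : Cfsg.Spor.Co2 ≃* stabilizer Cfsg.Co0 (bas 12) :=
    co2Equiv.symm.trans ((conjEquiv g _).trans (MulEquiv.subgroupCongr (by rw [← e, stabilizer_smul])))
  refine ⟨rho.toHomUnits.comp f.toMonoidHom, fun a b h => f.injective (rho_inj ?_)⟩
  exact congrArg Units.val h

end Cfsg.Agent.S5546
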