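import Cfsg.Statements.S5548
import Cfsg.Agent.S5393

set_option autoImplicit false
open Cfsg

namespace Cfsg.Agent.S5548

open Cfsg.Lib.Golay Cfsg.Lib.Mathieu Finset

/-- For the automorphism group of the length-24 binary Golay code of the definitions (the Mathieu group of degree 24) acting on binary words of length 24 by permuting coordinates, the only invariant subspaces of the space of all words are: zero, the span of the all-ones word, the code itself, the even-weight words, and the whole space. (So the permutation module has a unique composition series.) -/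
theorem result (W : Submodule (ZMod 2) (Cfsg.GolayPt → ZMod 2)) (hW : ∀ σ ∈ Cfsg.M24, ∀ w ∈ W, (fun p => w (σ.symm p)) ∈ W) : W = ⊥ ∨ W = Submodule.span (ZMod 2) {fun _ => (1 : ZMod 2)} ∨ W = Cfsg.golayCode ∨ (W : Set (Cfsg.GolayPt → ZMod 2)) = {w | ∑ p, w p = 0} ∨ W = ⊤ := by
  have ev : ∀ w : GolayPt → ZMod 2, ∑ p, w p = 0 ↔ Even (support₂ w).card := fun w => by
    have := sum_mul_eq_zero_iff w (word univ)
    rw [support₂_word, inter_univ, word_univ] at this
    simpa using this
  by_cases h : W ≤ golayCode
  · rcases S5393.of_le hW h with h | h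
    · by_cases e : (fun _ => (1 : ZMod 2)) ∈ W
      · exact .inr (.inl (h.antisymm ((Submodule.span_singleton_le_iff_mem _ _).2 e)))
      refine .inl (eq_bot_iff.2 fun w hw => ?_)
      obtain ⟨c, rfl⟩ := Submodule.mem_span_singleton.1 (h hw)
      rcases zmod2_cases c with rfl | rfl
      · simp
      · exact (e (by simpa using hw)).elim
    · exact .inr (.inr (.inl h))
  obtain ⟨v, h1, h2⟩ := SetLike.not_le_iff_exists.1 h
  rw [← word_support₂ v] at h1 h2
  have k : ∀ w : GolayPt → ZMod 2, ∑ p, w p = 0 → w ∈ W := fun w hw =>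
    word_support₂ w ▸ (invFam_of_submodule hW).of_not_cw (mt mem_CW.1 h2) h1 _ ((ev w).1 hw)
  refine .inr (.inr (.inr (or_iff_not_imp_left.2 fun n => eq_top_iff.2 fun w _ => ?_)))
  obtain ⟨u, h3, h4⟩ := Set.not_subset.1 fun e => n (Set.Subset.antisymm e k)
  rcases zmod2_cases (∑ p, w p) with e | e
  · exact k w e
  have := W.sub_mem (k (w + u) (by
    simp only [Pi.add_apply, sum_add_distrib, e, (zmod2_cases _).resolve_left h4]; rfl)) h3
  rwa [add_sub_cancel_right] at this

end Cfsg.Agent.S5548
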