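import Cfsg.Statements.S5549
import Cfsg.Agent.Lib.Mathieu.Move

set_option autoImplicit false
open Cfsg

namespace Cfsg.Agent.S5549

open Cfsg.Lib.Golay Cfsg.Lib.Mathieu Finset
open scoped Pointwise

/-- parity of the intersection -/
def ip (c : golayCode) (s : Finset GolayPt) : ZMod 2 := ∑ i, (c : GolayPt → ZMod 2) i * word s i

theorem ip_symmDiff (c : golayCode) (s t : Finset GolayPt) : ip c (symmDiff s t) = ip c s + ip c t := by
  simp only [ip, word_symmDiff, Pi.add_apply, mul_add, sum_add_distrib]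

theorem ip_single (c : golayCode) (a : GolayPt) : ip c {a} = c.1 a := by
  simp [ip, word]

theorem ip_eq_zero (c : golayCode) (s : Finset GolayPt) : ip c s = 0 ↔ Even (support₂ c.1 ∩ s).card := by
  rw [ip, sum_mul_eq_zero_iff, support₂_word]

theorem eq_empty_of_ip {s : Finset GolayPt} (h : ∀ c, ip c s = 0) (h7 : s.card ≤ 7) : s = ∅ := by_contra fun n => by
  have := isGolaySys_CW.min_wt s (isGolaySys_CW.mem_of_even fun o ho _ => by
    simpa only [support₂_word] using (ip_eq_zero ⟨_, mem_CW.1 ho⟩ s).1 (h _)) n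
  omega

/-- number of dodecads meeting `s` in an odd number of points -/
noncomputable def N (s : Finset GolayPt) : ℕ := {c : golayCode | (support₂ c.1).card = 12 ∧ ip c s ≠ 0}.ncard

theorem N_eq (s : Finset GolayPt) : N s = {d | d ∈ dodecads ∧ ¬ Even (d ∩ s).card}.ncard := by
  refine Set.ncard_congr (fun c _ => support₂ c.1) (fun c h => ⟨⟨support₂_mem_supports.2 c.2, h.1⟩, ?_⟩)
    (fun _ _ _ _ e => Subtype.ext (support₂_injective e)) fun d h => ⟨⟨_, mem_CW.1 h.1.1⟩, ?_, support₂_word d⟩
  · exact mt (ip_eq_zero c s).2 h.2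
  · rw [Set.mem_ofPred_eq, Ne, ip_eq_zero, support₂_word]
    exact ⟨h.1.2, h.2⟩

theorem N_iff {s : Finset GolayPt} (h : s.card ≤ 4) : N s = 1344 ↔ s.card = 2 := by
  have k : ∀ k ≤ 4, 2 ^ k - 1 < 2 ^ 24 ∧ pc (2 ^ k - 1) = k ∧ ((cntCW fun m => Nat.beq (pc m) 12 &&
      Nat.beq (pc (Nat.land m (2 ^ k - 1)) % 2) 1) = 1344 ↔ k = 2) := by decide +kernel
  obtain ⟨k1, k2, k3⟩ := k _ h
  rw [← card_toF k1] at k2
  obtain ⟨g, e⟩ := exists_smul_eq_of_card_le_five k2 (by omega)
  rw [N_eq, ← k3, ← ncard_dodecads_filter (fun d => ¬ Even (d ∩ G.toF (2 ^ s.card - 1)).card) _ fun m hm _ => by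
    rw [card_inter_toF hm, Nat.not_even_iff, Nat.beq_eq]]
  rw [ncard_congr_smul (g : P24) (P := fun d => d ∈ dodecads ∧ ¬ Even (d ∩ G.toF (2 ^ s.card - 1)).card) fun y => by
    rw [smul_mem_dodecads g.2, ← card_smul_inter (g : P24) y, e]]

theorem exists_pair {x : golayCode ≃ₗ[ZMod 2] golayCode}
    (h : ∀ c, (support₂ (x c).1).card = 12 ↔ (support₂ c.1).card = 12) {s : Finset GolayPt} (hs : s.card = 2) :
    ∃ v : Finset GolayPt, v.card = 2 ∧ ∀ c, ip (x c) s = ip c v := by
  obtain ⟨f, hf⟩ : ∃ f : (GolayPt → ZMod 2) →ₗ[ZMod 2] ZMod 2, ∀ c : golayCode, f c = ip (x c) s := by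
    obtain ⟨f, hf⟩ := LinearMap.exists_extend (p := golayCode)
      { toFun c := ip (x c) s
        map_add' a b := by simp [ip, add_mul, sum_add_distrib]
        map_smul' a b := by simp [ip, mul_assoc, mul_sum, -Fintype.sum_option] }
    exact ⟨f, LinearMap.congr_fun hf⟩
  obtain ⟨v, h1, h2⟩ := exists_leader (support₂ fun i => f fun j => if i = j then 1 else 0)
  have k : ∀ c, ip (x c) s = ip c v := fun c => by
    have := (ip_eq_zero c _).2 (isGolaySys_CW.even_inter (support₂_mem_supports.2 c.2) h1)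
    rw [ip_symmDiff, CharTwo.add_eq_zero] at this
    rw [this, ← hf, ip, word_support₂]
    exact LinearMap.pi_apply_eq_sum_univ f c
  refine ⟨v, (N_iff h2).1 (Eq.trans ?_ ((N_iff (by omega)).2 hs)), k⟩
  unfold N
  refine Set.ncard_congr (fun c _ => x c) (fun c e => ⟨(h c).2 e.1, (k c).trans_ne e.2⟩) (fun _ _ _ _ e => x.injective e)
    fun c e => ?_
  obtain ⟨c, rfl⟩ := x.surjective c
  exact ⟨c, ⟨(h c).1 e.1, (k c).symm.trans_ne e.2⟩, rfl⟩

theorem ip_pair (c : golayCode) {a b : GolayPt} (h : a ≠ b) : ip c {a, b} = c.1 a + c.1 b := by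
  rw [← ip_single, ← ip_single, ← ip_symmDiff, Finset.symmDiff_eq_union (by simpa using h)]
  rfl

/-- Let X be a group of linear automorphisms of the length-24 binary Golay code of the definitions that fix the all-ones word, containing the coordinate-permutation action of every element of the code's automorphism group (the Mathieu group of degree 24), and such that every element of X sends each codeword into its orbit under that Mathieu group up to adding the all-ones word (X has the same orbits as the Mathieu group on the code modulo the all-ones word). Then every element of X agrees, modulo the all-ones word, with the action of a single element of the Mathieu group: X induces exactly the Mathieu group on the code modulo the all-ones word. -/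
theorem result (X : Subgroup (↥Cfsg.golayCode ≃ₗ[ZMod 2] ↥Cfsg.golayCode)) (h1 : ∀ x ∈ X, ∀ e : ↥Cfsg.golayCode, (e : (Cfsg.GolayPt → ZMod 2)) = (fun _ => (1 : ZMod 2)) → x e = e) (hM : ∀ σ ∈ Cfsg.M24, ∃ x ∈ X, ∀ c : ↥Cfsg.golayCode, ((x c : ↥Cfsg.golayCode) : (Cfsg.GolayPt → ZMod 2)) = fun p => (c : (Cfsg.GolayPt → ZMod 2)) (σ.symm p)) (horb : ∀ x ∈ X, ∀ c : ↥Cfsg.golayCode, ∃ σ ∈ Cfsg.M24, ((x c : ↥Cfsg.golayCode) : (Cfsg.GolayPt → ZMod 2)) = (fun p => (c : (Cfsg.GolayPt → ZMod 2)) (σ.symm p)) ∨ ((x c : ↥Cfsg.golayCode) : (Cfsg.GolayPt → ZMod 2)) = (fun p => (c : (Cfsg.GolayPt → ZMod 2)) (σ.symm p)) + fun _ => (1 : ZMod 2)) (x : ↥Cfsg.golayCode ≃ₗ[ZMod 2] ↥Cfsg.golayCode) (hx : x ∈ X) : ∃ σ ∈ Cfsg.M24, ∀ c : ↥Cfsg.golayCode, ((x c : ↥Cfsg.golayCode) : (Cfsg.GolayPt → ZMod 2)) = (fun p => (c : (Cfsg.GolayPt → ZMod 2)) (σ.symm p)) ∨ ((x c : ↥Cfsg.golayCode) : (Cfsg.GolayPt → ZMod 2)) = (fun p => (c : (Cfsg.GolayPt → ZMod 2)) (σ.symm p)) + fun _ => (1 : ZMod 2) := by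
  have h12 : ∀ c, (support₂ (x c).1).card = 12 ↔ (support₂ c.1).card = 12 := fun c => by
    have := card_le_univ (support₂ c.1)
    obtain ⟨σ, -, e | e⟩ := horb x hx c <;> rw [← word_support₂ c.1, ← word_image] at e
    · rw [e, support₂_word, card_image_of_injective _ σ.injective]
    · rw [e, show (fun _ => 1 : GolayPt → ZMod 2) = word univ from word_univ.symm, ← word_symmDiff, support₂_word,
        show symmDiff _ univ = _ from symmDiff_top _, hnot_eq_compl, card_compl, card_image_of_injective _ σ.injective]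
      rw [card_golayPt] at *
      omega
  have z : ∀ {s : Finset GolayPt}, (∀ c, ip (x c) s = 0) → s.card ≤ 7 → s = ∅ := fun h =>
    eq_empty_of_ip fun c => by simpa using h (x.symm c)
  choose v v2 hv using fun a : ZMod 23 => exists_pair h12 (card_pair (Option.some_ne_none a))
  have pr : ∀ a b, a ≠ b → (v a ∩ v b).card = 1 := fun a b n => by
    obtain ⟨u, u2, hu⟩ := exists_pair h12 (card_pair (Option.some_injective _ |>.ne n))
    have c := card_symmDiff_add (v a) (v b)
    have c' := card_symmDiff_add (symmDiff (v a) (v b)) u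
    have := v2 a
    have := v2 b
    have := symmDiff_eq_bot.1 (eq_empty_of_ip (s := symmDiff (symmDiff (v a) (v b)) u) (fun c => by
      rw [ip_symmDiff, ip_symmDiff, ← hv, ← hv, ← hu, ip_pair _ (Option.some_ne_none a),
        ip_pair _ (Option.some_ne_none b), ip_pair _ (Option.some_injective _ |>.ne n)]
      grind) (by omega))
    rw [this] at c
    omega
  obtain ⟨p, hp⟩ := card_eq_one.1 (pr 0 1 (by decide))
  have hp0 := mem_inter.1 (hp.ge (mem_singleton_self p))
  have all : ∀ a, p ∈ v a := fun a => by_contra fun n => by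
    have a0 : a ≠ 0 := fun e => n (e ▸ hp0.1)
    have a1 : a ≠ 1 := fun e => n (e ▸ hp0.2)
    have e : symmDiff (v 0) (v 1) = v a := by
      have c := card_symmDiff_add (v 0) (v 1)
      rw [v2, v2, hp, card_singleton] at c
      refine eq_of_subset_of_card_le (fun y hy => ?_) (by rw [v2]; omega)
      have k : ∀ b, a ≠ b → p ∈ v b → y ∈ v b → y ≠ p → y ∈ v a := fun b h1 h2 h3 h4 => by
        obtain ⟨q, hq⟩ := card_eq_one.1 (pr a b h1)
        have := mem_inter.1 (hq.ge (mem_singleton_self q))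
        have : q ∈ ({p, y} : Finset GolayPt) := (eq_of_subset_of_card_le (insert_subset h2 (singleton_subset_iff.2 h3))
          (by rw [v2, card_pair h4.symm])).ge this.2
        grind
      rcases mem_symmDiff.1 hy with hy | hy
      exacts [k 0 a0 hp0.1 hy.1 fun e => hy.2 (e ▸ hp0.2), k 1 a1 hp0.2 hy.1 fun e => hy.2 (e ▸ hp0.1)]
    have := z (s := symmDiff {some 0, some 1} {some a, none}) (fun c => by
      rw [ip_symmDiff, hv, ← e, ip_symmDiff, ← hv, ← hv, ip_pair _ (Option.some_ne_none 0),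
        ip_pair _ (Option.some_ne_none 1), ip_pair _ (by decide)]
      grind) (by
      have := card_symmDiff_add ({some 0, some 1} : Finset GolayPt) {some a, none}
      have := card_le_two (a := (some 0 : GolayPt)) (b := some 1)
      have := card_le_two (a := (some a : GolayPt)) (b := none)
      omega)
    simpa using (symmDiff_eq_bot.1 this).ge (show none ∈ _ by simp)
  obtain ⟨τ, hτ⟩ : ∃ τ : GolayPt → GolayPt, ∀ a, ∀ c : golayCode, (x c).1 a + (x c).1 none = c.1 (τ a) + c.1 p := by
    have : ∀ a : GolayPt, ∃ b, ∀ c : golayCode, (x c).1 a + (x c).1 none = c.1 b + c.1 p := by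
      rintro (_ | a)
      · exact ⟨p, fun c => by grind⟩
      obtain ⟨b, b1, b2⟩ := exists_notMem_of_card_lt (s := {p}) (t := v a) (by rw [v2]; simp)
      rw [mem_singleton] at b2
      refine ⟨b, fun c => ?_⟩
      rw [← ip_pair _ (Option.some_ne_none a), hv, ← ip_pair _ b2,
        eq_of_subset_of_card_le (insert_subset b1 (singleton_subset_iff.2 (all a))) (by rw [v2, card_pair b2])]
    exact ⟨_, fun a => (this a).choose_spec⟩
  have inj : Function.Injective τ := fun a b e => by_contra fun n => insert_ne_empty _ _ (z (s := {a, b}) (fun c => by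
    have := hτ a c
    have := hτ b c
    rw [ip_pair _ n]
    grind) (card_le_two.trans (by decide)))
  let σ := (Equiv.ofBijective τ inj.bijective_of_finite).symm
  have key : ∀ c : golayCode, (x c).1 = (fun p => c.1 (σ.symm p)) ∨
      (x c).1 = (fun p => c.1 (σ.symm p)) + fun _ => (1 : ZMod 2) := fun c =>
    (zmod2_cases ((x c).1 none + c.1 p)).imp (fun e => funext fun a => by
      have := hτ a c
      change _ = c.1 (τ a)
      grind) fun e => funext fun a => by
      have := hτ a c
      change _ = c.1 (τ a) + 1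
      grind
  refine ⟨σ, mem_setSystemAut_of_mapsTo fun s hs => mem_CW.2 ?_, key⟩
  rw [word_image]
  rcases key ⟨_, mem_CW.1 hs⟩ with e | e
  · exact e ▸ (x _).2
  · exact eq_sub_of_add_eq e.symm ▸ sub_mem (x _).2 (Submodule.subset_span (.inr rfl))

end Cfsg.Agent.S5549
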