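import Cfsg.Statements.S5550
import Cfsg.Agent.Lib.Mathieu.Move

set_option autoImplicit false
open Cfsg

namespace Cfsg.Agent.S5550

open Cfsg.Lib.Golay Cfsg.Lib.Mathieu Finset
open scoped Pointwise

/-- `v` is moved off its coset by the stabiliser of `d` -/
def Mv (d v : Finset GolayPt) : Prop := ∃ g : M24, (g : P24) • d = d ∧ symmDiff ((g : P24) • v) v ∉ CW

theorem mv_of {d v : Finset GolayPt} (h4 : v.card ≤ 4) {g : M24} (h : (g : P24) • d = d) {a : GolayPt} (ha : a ∈ v)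
    (ha' : (g : P24) a ∉ v) (k : v.card ≤ 3 ∨ ∃ x ∈ v, (g : P24) x = x) : Mv d v := ⟨g, h, fun e => by
  obtain ⟨-, h1, h2⟩ := isGolaySys_CW.light_pair e (by rwa [card_smul_finset]) h4
    fun e => ha' (e ▸ (apply_mem_smul_iff _).2 ha)
  rcases k with k | ⟨x, k, k'⟩
  · omega
  · exact disjoint_left.1 h2 ((mem_smul_of_fix k').2 k) k⟩

theorem mv_tr5 {d v : Finset GolayPt} (h : Tr5 d) (h8 : 8 ≤ d.card) (h4 : v.card ≤ 4) {a : GolayPt} (ha : a ∈ v ∩ d)
    (k : v.card ≤ 3 ∨ 2 ≤ (v ∩ d).card) : Mv d v := by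
  obtain ⟨b, b1, b2⟩ := exists_notMem_of_card_lt (s := v) (t := d) (by omega)
  have c := card_erase_add_one ha
  have := card_le_card (inter_subset_left (s₁ := v) (s₂ := d))
  obtain ⟨g, g1, g2, g3⟩ := h.move (v := (v ∩ d).erase a) ((erase_subset _ _).trans inter_subset_right) (by omega)
    (mem_inter.1 ha).2 b1 (notMem_erase _ _) fun e => b2 (mem_inter.1 (mem_of_mem_erase e)).1
  refine mv_of h4 g1 (mem_inter.1 ha).1 (g3 ▸ b2) (k.imp_right fun k => ?_)
  obtain ⟨x, hx⟩ := card_pos.1 (show 0 < ((v ∩ d).erase a).card by omega)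
  exact ⟨x, (mem_inter.1 (mem_of_mem_erase hx)).1, g2 x hx⟩

theorem Mv.compl {d v : Finset GolayPt} (h : Mv dᶜ v) : Mv d v :=
  h.imp fun g k => ⟨compl_injective (by rw [← smul_compl, k.1]), k.2⟩

theorem Mv.congr {d v w : Finset GolayPt} (h : Mv d v) (e : symmDiff v w ∈ CW) : Mv d w :=
  h.imp fun g k => ⟨k.1, fun n => k.2 (by
    have := symmDiff_mem_CW (symmDiff_mem_CW ((smul_mem_CW g.2).2 e) e) n
    rwa [smul_symmDiff, symmDiff_symmDiff_symmDiff_comm, symmDiff_symmDiff_cancel_right,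
      symmDiff_symmDiff_cancel_right] at this)⟩

theorem mv_octad {d v : Finset GolayPt} (hd : d ∈ octads) (h0 : v ≠ ∅) (h4 : v.card ≤ 4) : Mv d v := by
  wlog k : v.card ≤ 3 ∨ (v ∩ d).Nonempty generalizing v
  · obtain ⟨x, hx⟩ := card_pos.1 (show 0 < d.card by rw [hd.2]; decide)
    obtain ⟨u, h1, h2, h3⟩ := isGolaySys_CW.exists_tetrad (T := v) (by omega) x
    exact (this (ne_empty_of_mem h3) h2.le (.inr ⟨x, mem_inter.2 ⟨h3, hx⟩⟩)).congr h1
  by_cases e : v ⊆ d
  · obtain ⟨a, ha⟩ := nonempty_iff_ne_empty.2 h0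
    exact mv_tr5 (tr5_octad hd) hd.2.ge h4 (mem_inter.2 ⟨ha, e ha⟩) (by rw [inter_eq_left.2 e]; omega)
  obtain ⟨a, a1, a2⟩ := not_subset.1 e
  obtain ⟨b, b1, b2⟩ := exists_notMem_of_card_lt (s := v) (t := dᶜ) (by rw [card_compl, card_golayPt, hd.2]; omega)
  obtain ⟨g, g1, g2⟩ := exists_fix_octad hd a2 (mem_compl.1 b1)
  exact mv_of h4 (smul_eq_of_fix (mem_fixS.1 g1)) a1 (g2 ▸ b2)
    (k.imp_right fun ⟨x, hx⟩ => ⟨x, (mem_inter.1 hx).1, mem_fixS.1 g1 x (mem_inter.1 hx).2⟩)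

theorem mv_cw {d v : Finset GolayPt} (hd : d ∈ CW) (h0 : v ≠ ∅) (h4 : v.card ≤ 4) : Mv d v := by
  obtain ⟨a, ha⟩ := nonempty_iff_ne_empty.2 h0
  have u : Mv univ v := mv_tr5 tr5_univ (by rw [card_univ, card_golayPt]; omega) h4 (mem_inter.2 ⟨ha, mem_univ a⟩)
    (by rw [inter_univ]; omega)
  rcases isGolaySys_CW.weights hd with e | e | e | e | e
  · exact Mv.compl (by rwa [card_eq_zero.1 e, compl_empty])
  · exact mv_octad ⟨hd, e⟩ h0 h4
  · have c := card_sdiff_add_card_inter v d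
    have := card_pos.2 ⟨a, ha⟩
    by_cases k : (v \ d).card ≤ (v ∩ d).card
    · obtain ⟨x, hx⟩ := card_pos.1 (show 0 < (v ∩ d).card by omega)
      exact mv_tr5 (tr5_dodecad ⟨hd, e⟩) (by omega) h4 hx (by omega)
    rw [sdiff_eq_inter_compl] at c k
    obtain ⟨x, hx⟩ := card_pos.1 (show 0 < (v ∩ dᶜ).card by omega)
    have := compl_mem_dodecads ⟨hd, e⟩
    exact (mv_tr5 (tr5_dodecad this) (by rw [this.2]; omega) h4 hx (by omega)).compl
  · exact (mv_octad ⟨isGolaySys_CW.compl_mem hd, by rw [card_compl, card_golayPt, e]⟩ h0 h4).compl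
  · rwa [(card_eq_iff_eq_univ _).1 (e.trans card_golayPt.symm)]

/-- Let u be a word of the length-24 binary Golay code of the definitions (possibly zero or all-ones) and w any binary word of length 24 outside the code. Then some automorphism of the code (a coordinate permutation preserving it) fixes u but moves w to a word not congruent to w modulo the code: the stabilizer of a codeword fixes no non-zero element of the quotient of the space of all words by the code. -/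
theorem result (u : (Cfsg.GolayPt → ZMod 2)) (hu : u ∈ Cfsg.golayCode) (w : (Cfsg.GolayPt → ZMod 2)) (hw : w ∉ Cfsg.golayCode) : ∃ σ ∈ Cfsg.M24, (fun p => u (σ.symm p)) = u ∧ (fun p => w (σ.symm p)) - w ∉ Cfsg.golayCode := by
  rw [← word_support₂ u] at hu ⊢
  rw [← word_support₂ w] at hw ⊢
  obtain ⟨v, h1, h2⟩ := exists_leader (support₂ w)
  obtain ⟨g, g1, g2⟩ := (mv_cw (mem_CW.2 hu) (fun e => hw (mem_CW.1 (bot_symmDiff (support₂ w) ▸
    (e ▸ h1 : symmDiff ∅ _ ∈ CW)))) h2).congr h1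
  refine ⟨g, g.2, by rw [← word_image, ← perm_smul_finset, g1], fun e => g2 ?_⟩
  rwa [← word_image, ← perm_smul_finset, CharTwo.sub_eq_add, ← word_symmDiff, ← mem_CW] at e

end Cfsg.Agent.S5550
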