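import Cfsg.Statements.S5552
import Cfsg.Agent.Lib.Leech.Co1
import Cfsg.Agent.S5593

set_option autoImplicit false
open Cfsg

namespace Cfsg.Agent.S5552

open Cfsg.Lib.Leech Cfsg.Spor

theorem nm_sum2 {a b : ℕ} (ha : isL a = true) (hb : isL b = true) :
    nm(lv a + lv b) = Cfsg.sqNorm (vN a + vN b) := by
  rw [AddSubgroup.coe_add, coe_lv ha, coe_lv hb]

theorem nm_sum3 {a b c : ℕ} (ha : isL a = true) (hb : isL b = true) (hc : isL c = true) :
    nm(lv a + lv b + lv c) = Cfsg.sqNorm (vN a + vN b + vN c) := by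
  rw [AddSubgroup.coe_add, AddSubgroup.coe_add, coe_lv ha, coe_lv hb, coe_lv hc]

theorem nm_sum1 {a : ℕ} (ha : isL a = true) : nm(lv a) = Cfsg.sqNorm (vN a) := by rw [coe_lv ha]

/-- On the Leech lattice of the definitions, let Q be a function to the field with two elements that is constant on cosets of twice the lattice, is a quadratic form there (Q(u+v+w) + Q(u) + Q(v) + Q(w) = Q(u+v) + Q(u+w) + Q(v+w) for all u, v, w), is invariant under every lattice automorphism, and is not identically zero. Then Q(v) is the squared length of v divided by 16, reduced modulo 2, for every lattice vector v (squared lengths of lattice vectors are multiples of 16). -/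
theorem result (Q : ↥Cfsg.leechLattice → ZMod 2) (hcoset : ∀ v w : ↥Cfsg.leechLattice, Q (v + (w + w)) = Q v) (hquad : ∀ u v w : ↥Cfsg.leechLattice, Q (u + v + w) + Q u + Q v + Q w = Q (u + v) + Q (u + w) + Q (v + w)) (hinv : ∀ (g : ↥Cfsg.Co0) (v : ↥Cfsg.leechLattice), Q (g • v) = Q v) (hne : ∃ v : ↥Cfsg.leechLattice, Q v ≠ 0) (v : ↥Cfsg.leechLattice) : Q v = ((Cfsg.sqNorm (v : Cfsg.GolayPt → ℤ) / 16 : ℤ) : ZMod 2) := by
  have hc : ∀ x y : Cfsg.leechLattice, code x = code y → Q x = Q y := fun x y h => by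
    obtain ⟨z, hz⟩ := code_eq_iff'.1 h
    rw [sub_eq_iff_eq_add'.1 hz, hcoset]
  have h0 : Q 0 = 0 := by
    have := hquad 0 0 0
    simp only [add_zero] at this
    generalize Q 0 = a at this
    revert a; decide
  have h2 : ∀ x : Cfsg.leechLattice, nm(x) = 32 → Q x = Q leechU := fun x hx => by
    obtain ⟨g, rfl⟩ := exists_smul_U hx; exact hinv _ _
  have h3 : ∀ x : Cfsg.leechLattice, nm(x) = 48 → Q x = Q leechV := fun x hx => by
    obtain ⟨g, rfl⟩ := exists_smul_V hx; exact hinv _ _
  have h4 : ∀ x : Cfsg.leechLattice, nm(x) = 64 → Q x = Q (e8 none) := fun x hx => by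
    obtain ⟨g, hg⟩ := Cfsg.Agent.S5593.result x (e8 none) hx (sqNorm_e8 _)
    rw [← hinv g x]; exact hc _ _ (code_eq_iff.2 hg)
  have lu : isL 0x444040404040404040404040404040404040404040404044 = true := by decide +kernel
  have q4 : Q (e8 none) = 0 := by
    have lv1 : isL 0x3f3f413f413f3f413f3f413f413f413f413f3f414141413d = true := by decide +kernel
    have lw1 : isL 0x3f413f413f3f3f3f3f3f3f3f41413f41413d4141413f4141 = true := by decide +kernel
    have := hquad (lv 0x444040404040404040404040404040404040404040404044)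
      (lv 0x3f3f413f413f3f413f3f413f413f413f413f3f414141413d) (lv 0x3f413f413f3f3f3f3f3f3f3f41413f41413d4141413f4141)
    rw [h4 _ (by rw [nm_sum3 lu lv1 lw1]; decide +kernel), h2 (lv 0x444040404040404040404040404040404040404040404044) (by rw [nm_sum1 lu]; decide +kernel),
      h2 (lv 0x3f3f413f413f3f413f3f413f413f413f413f3f414141413d) (by rw [nm_sum1 lv1]; decide +kernel),
      h2 (lv 0x3f413f413f3f3f3f3f3f3f3f41413f41413d4141413f4141) (by rw [nm_sum1 lw1]; decide +kernel),
      h2 (_ + _) (by rw [nm_sum2 lu lv1]; decide +kernel), h4 (_ + _) (by rw [nm_sum2 lu lw1]; decide +kernel),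
      h4 (_ + _) (by rw [nm_sum2 lv1 lw1]; decide +kernel)] at this
    generalize Q leechU = a, Q (e8 none) = b at this
    revert a b; decide
  have q2 : Q leechU = 0 := by
    have lv1 : isL 0x3e40404040403e4040404040404242404242404042424040 = true := by decide +kernel
    have lw1 : isL 0x3f41413f3f43413f3f41413f3f3f3f3f3f413f3f3f3f4141 = true := by decide +kernel
    have := hquad (lv 0x444040404040404040404040404040404040404040404044)
      (lv 0x3e40404040403e4040404040404242404242404042424040) (lv 0x3f41413f3f43413f3f41413f3f3f3f3f3f413f3f3f3f4141)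
    rw [h4 _ (by rw [nm_sum3 lu lv1 lw1]; decide +kernel), h2 (lv 0x444040404040404040404040404040404040404040404044) (by rw [nm_sum1 lu]; decide +kernel),
      h2 (lv 0x3e40404040403e4040404040404242404242404042424040) (by rw [nm_sum1 lv1]; decide +kernel),
      h2 (lv 0x3f41413f3f43413f3f41413f3f3f3f3f3f413f3f3f3f4141) (by rw [nm_sum1 lw1]; decide +kernel),
      h3 (_ + _) (by rw [nm_sum2 lu lv1]; decide +kernel), h4 (_ + _) (by rw [nm_sum2 lu lw1]; decide +kernel),
      h3 (_ + _) (by rw [nm_sum2 lv1 lw1]; decide +kernel)] at this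
    generalize Q leechU = a, Q (e8 none) = b, Q leechV = c at this
    revert a b c; decide
  have key : ∀ x : Cfsg.leechLattice, Q x = ((nm(x) / 16 : ℤ) : ZMod 2) * Q leechV := fun x => by
    obtain ⟨y, hy, e⟩ := exists_short x
    have e1 : ((nm(x) / 16 : ℤ) : ZMod 2) = ((nm(y) / 16 : ℤ) : ZMod 2) := by
      obtain ⟨z, hz, e'⟩ := code_eq_iff.1 e.symm
      rw [sub_eq_iff_eq_add] at e'
      have a1 := sixteen_dvd_sqNorm y.2
      have a2 := sixteen_dvd_sqNorm hz
      have a3 := eight_dvd_dot hz y.2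
      rw [ZMod.intCast_eq_intCast_iff', e', sqNorm_add, sqNorm_two_nsmul, two_nsmul, dot_add_left]
      push_cast
      omega
    rw [← hc _ _ e, e1]
    by_cases hy0 : y = 0
    · rw [hy0, h0]; simp [Cfsg.sqNorm]
    have a1 := sixteen_dvd_sqNorm y.2
    have a2 := min_sqNorm y.2 fun h => hy0 (Subtype.ext h)
    obtain a | a | a : nm(y) = 32 ∨ nm(y) = 48 ∨ nm(y) = 64 := by omega
    · rw [h2 y a, q2, a]; exact (zero_mul _).symm
    · rw [h3 y a, a]; exact (one_mul _).symm
    · rw [h4 y a, q4, a]; exact (zero_mul _).symm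
  obtain ⟨x, hx⟩ := hne
  have q3 : Q leechV = 1 := zmod2_ne_zero.1 fun h => hx (by rw [key, h, mul_zero])
  rw [key, q3, mul_one]

end Cfsg.Agent.S5552
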