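import Cfsg.Statements.S5553
import Cfsg.Agent.Lib.Leech.Code

set_option autoImplicit false
open Cfsg

namespace Cfsg.Agent.S5553

open Cfsg.Lib.Leech Cfsg.Lib.Calc Finset

/-- The sublattice `2Λ + 4 D₂₄`. -/
def A : AddSubgroup (Cfsg.GolayPt → ℤ) where
  carrier := {x | ∃ y ∈ Cfsg.leechLattice, ∃ t : Cfsg.GolayPt → ℤ, (∑ i, t i) % 2 = 0 ∧ x = (2 : ℤ) • y + (4 : ℤ) • t}
  zero_mem' := ⟨0, zero_mem _, 0, by simp, by simp⟩
  add_mem' := by
    rintro _ _ ⟨y, hy, t, ht, rfl⟩ ⟨y', hy', t', ht', rfl⟩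
    refine ⟨y + y', add_mem hy hy', t + t', ?_, by rw [smul_add, smul_add]; abel⟩
    simp only [Pi.add_apply, sum_add_distrib]; omega
  neg_mem' := by
    rintro _ ⟨y, hy, t, ht, rfl⟩
    refine ⟨-y, neg_mem hy, -t, ?_, by rw [smul_neg, smul_neg]; abel⟩
    simp only [Pi.neg_apply, sum_neg_distrib]; omega

theorem four_mem {t : Cfsg.GolayPt → ℤ} (ht : (∑ i, t i) % 2 = 0) : (4 : ℤ) • t ∈ Cfsg.leechLattice :=
  four_mul_mem ht

theorem A_le : A ≤ Cfsg.leechLattice := by
  rintro _ ⟨y, hy, t, ht, rfl⟩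
  exact add_mem (zsmul_mem hy _) (four_mem ht)

/-- The first twelve coordinates modulo 2. -/
def phi : Cfsg.leechLattice →+ (Fin 12 → ZMod 2) :=
  AddMonoidHom.mk' (fun x i => (coord x i : ZMod 2)) fun x y => funext fun i => by
    rw [coord_add _ _ (by omega), Int.cast_add]; rfl

theorem phi_surj : Function.Surjective phi := fun c =>
  ⟨∑ i ∈ range 24, (if h : i < 12 then ((c ⟨i, h⟩).val : ℤ) else 0) • bas i, funext fun i => by
    change ((coord _ i : ℤ) : ZMod 2) = _
    rw [coord_sum _ (by omega), dif_pos i.2]; simp⟩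

theorem ker_phi : A.addSubgroupOf Cfsg.leechLattice = phi.ker := by
  ext x
  rw [AddSubgroup.mem_addSubgroupOf, AddMonoidHom.mem_ker, funext_iff]
  constructor
  · rintro ⟨y, hy, t, ht, e⟩ i
    change ((coord _ i : ℤ) : ZMod 2) = 0
    rw [ZMod.intCast_zmod_eq_zero_iff_dvd]
    have h1 := eight_coord x (i := i) (by omega)
    have h2 := eight_dvd_dot (mem_of_isL (isL_dualP i (by omega))) hy
    have h3 : (4 : ℤ) ∣ Cfsg.dotInt (vN (get 192 dualP i)) t := by
      have : ∀ i : Fin 12, ∀ p, (4 : ℤ) ∣ vN (get 192 dualP i) p := by decide +kernel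
      exact dvd_sum fun p _ => (this i p).mul_right _
    rw [e, dot_add_right, dot_zsmul_right, dot_zsmul_right] at h1
    push_cast
    omega
  · intro h
    have := congrArg Subtype.val (sum_coord x)
    rw [AddSubmonoidClass.coe_finsetSum] at this
    rw [← this]
    refine sum_mem fun i hi => ?_
    have hi := mem_range.1 hi
    by_cases h12 : i < 12
    · obtain ⟨k, hk⟩ := (ZMod.intCast_zmod_eq_zero_iff_dvd _ 2).1 (h ⟨i, h12⟩)
      exact ⟨_, (k • bas i).2, 0, by simp, by
        rw [show coord x i = 2 * k from hk, mul_smul, smul_zero, add_zero]; rfl⟩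
    · refine zsmul_mem (x := (bas i : Cfsg.GolayPt → ℤ)) ?_ _
      have : ∀ i < 24, 12 ≤ i → (∑ p, vN (get 192 basP i) p / 4) % 2 = 0 ∧
        vN (get 192 basP i) = (4 : ℤ) • fun p => vN (get 192 basP i) p / 4 := by decide +kernel
      exact ⟨0, zero_mem _, _, (this i hi (by omega)).1, by
        rw [smul_zero, zero_add, coe_bas hi]; exact (this i hi (by omega)).2⟩

/-- The Leech lattice of the definitions has an additive subgroup A containing twice the lattice, of index 2^12 in the lattice, all of whose vectors have squared length divisible by 32: the invariant quadratic form 'squared length over 16 modulo 2' on the lattice modulo twice the lattice (a 24-dimensional space over the field with two elements) vanishes on a 12-dimensional subspace, so it is of plus type. -/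
theorem result : ∃ A : AddSubgroup (Cfsg.GolayPt → ℤ), A ≤ Cfsg.leechLattice ∧ (∀ v ∈ Cfsg.leechLattice, (2 : ℤ) • v ∈ A) ∧ (A.addSubgroupOf Cfsg.leechLattice).index = 2 ^ 12 ∧ ∀ v ∈ A, (32 : ℤ) ∣ Cfsg.sqNorm v := by
  refine ⟨A, A_le, fun v hv => ⟨v, hv, 0, by simp, by simp⟩, ?_, ?_⟩
  · rw [ker_phi, AddSubgroup.index_ker, AddMonoidHom.range_eq_top.2 phi_surj, AddSubgroup.card_top]
    simp
  · rintro _ ⟨y, hy, t, ht, rfl⟩
    have h1 := sixteen_dvd_sqNorm hy
    have h2 := eight_dvd_dot hy (four_mem ht)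
    have h3 : Cfsg.sqNorm t % 2 = (∑ i, t i) % 2 := by
      rw [Cfsg.sqNorm, Finset.sum_int_mod, Finset.sum_int_mod _ _ t]
      congr 1
      refine sum_congr rfl fun i _ => ?_
      rcases Int.emod_two_eq_zero_or_one (t i) with h | h <;> simp [sq, Int.mul_emod, h]
    rw [sqNorm_add, sqNorm_zsmul, dot_zsmul_left, sqNorm_zsmul]
    omega

end Cfsg.Agent.S5553
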