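import Cfsg.Statements.S5588
import Cfsg.Agent.Lib.M3.Small

set_option autoImplicit false
open Cfsg

namespace Cfsg.Agent.S5588

/-- In the group presented by the sixteen involutions of the Y₅₅₅ Coxeter diagram subject only to the Coxeter relations and the single spider relation (a b₁ c₁ a b₂ c₂ a b₃ c₃)^10 = 1, each of the further relators used in the definitions' presentation of the Bimonster (each end node equals the ninth power of the Coxeter element of a sub-diagram of type E₇) already holds. Equivalently, the Y₅₅₅ diagram with the spider relation alone presents the Bimonster. -/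
theorem result :
    ∀ r ∈ Cfsg.Spor.Bimonster.extra,
      (PresentedGroup.mk (Cfsg.Spor.coxRelators Cfsg.Spor.Bimonster.edges ∪ {r' | r' ∈ [(Cfsg.Spor.Bimonster.a * Cfsg.Spor.Bimonster.b1 * Cfsg.Spor.Bimonster.c1 * Cfsg.Spor.Bimonster.a * Cfsg.Spor.Bimonster.b2 * Cfsg.Spor.Bimonster.c2 * Cfsg.Spor.Bimonster.a * Cfsg.Spor.Bimonster.b3 * Cfsg.Spor.Bimonster.c3) ^ 10]}) r) = 1 := by
  let R : Set (FreeGroup Spor.Bimonster.Gen) := Cfsg.Spor.coxRelators Cfsg.Spor.Bimonster.edges ∪ {r' | r' ∈ [(Cfsg.Spor.Bimonster.a * Cfsg.Spor.Bimonster.b1 * Cfsg.Spor.Bimonster.c1 * Cfsg.Spor.Bimonster.a * Cfsg.Spor.Bimonster.b2 * Cfsg.Spor.Bimonster.c2 * Cfsg.Spor.Bimonster.a * Cfsg.Spor.Bimonster.b3 * Cfsg.Spor.Bimonster.c3) ^ 10]}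
  let y : Spor.Bimonster.Gen → PresentedGroup R := PresentedGroup.of
  have h : ∀ S, Lib.M3.Cox S y := fun S m _ n _ => PresentedGroup.one_of_mem (rels := R)
    (x := (FreeGroup.of m * FreeGroup.of n) ^ _)
    (Or.inl ⟨m, by cases m <;> decide, n, by cases n <;> decide, rfl⟩)
  have h2 : ∀ S, Lib.M3.Cox S fun n => y (Lib.M3.s12 n) := fun S =>
    (h Lib.M3.nodes).comp (fun n _ => by cases n <;> decide) fun m _ n _ => Lib.M3.label_s12 m n
  have h3 : ∀ S, Lib.M3.Cox S fun n => y (Lib.M3.s13 n) := fun S =>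
    (h Lib.M3.nodes).comp (fun n _ => by cases n <;> decide) fun m _ n _ => Lib.M3.label_s13 m n
  have s : Lib.M3.spi y = 1 := PresentedGroup.one_of_mem (rels := R) (Or.inr (List.mem_singleton_self _))
  have s2 := Lib.M3.spi_s12 (h _) s
  have s3 := Lib.M3.spi_s13 (h _) s
  simp only [Spor.Bimonster.extra, List.forall_mem_cons]
  exact ⟨s, mul_inv_eq_one.2 (Lib.M3.f1_eq (h _) s),
    mul_inv_eq_one.2 ((Lib.M3.f1_eq (h _) s).trans (Lib.M3.o7 (h _) s)),
    mul_inv_eq_one.2 (Lib.M3.f1_eq (h2 _) s2),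
    mul_inv_eq_one.2 ((Lib.M3.f1_eq (h2 _) s2).trans (Lib.M3.o7 (h2 _) s2)),
    mul_inv_eq_one.2 ((Lib.M3.f1_eq (h3 _) s3).trans (Lib.M3.o7 (h3 _) s3)),
    mul_inv_eq_one.2 (Lib.M3.f1_eq (h3 _) s3), by simp⟩

end Cfsg.Agent.S5588
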