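import Cfsg.Statements.S5594
import Cfsg.Agent.Lib.Leech.Co1
import Cfsg.Agent.Lib.Golay.Img

set_option autoImplicit false
open Cfsg

namespace Cfsg.Agent.S5594

open Cfsg.Lib.Leech Cfsg.Spor Cfsg.Lib.Golay
open scoped Pointwise

theorem exists_sq : ∃ g : Cfsg.Co0, g * g = negOne := by
  have hc : G.toF 340831 ∈ GC := mem_CW_of_isCW (by decide +kernel)
  refine ⟨mono Cfsg.projInv projInv_mem _ hc, co0_ext_e8 fun i => ?_⟩
  rw [mul_smul, negOne_smul, mono_smul_e8]
  have h1 : ∀ i, Cfsg.projInv (Cfsg.projInv i) = i := by decide +kernel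
  have h2 : ∀ i, Cfsg.projInv i ∈ G.toF 340831 ↔ i ∉ G.toF 340831 := by decide +kernel
  split_ifs with h
  · rw [smul_neg, mono_smul_e8, h1, if_neg ((h2 i).1 h)]
  · rw [mono_smul_e8, h1, if_pos (by simpa [h2] using h)]

/-- The automorphism group of the Leech lattice contains the negation map, and the subgroup of order 2 it generates has no complement: the automorphism group is a non-split extension of its quotient by that subgroup (it is not the direct product of a group of order 2 with the first Conway group). -/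
theorem result :
    ∃ n : ↥Cfsg.Co0, (∀ v : ↥Cfsg.leechLattice, ((n • v : ↥Cfsg.leechLattice) : Cfsg.GolayPt → ℤ) = -(v : Cfsg.GolayPt → ℤ)) ∧
    ∀ K : Subgroup ↥Cfsg.Co0, ¬ (Subgroup.zpowers n).IsComplement' K := by
  refine ⟨negOne, fun v => rfl, fun K hK => ?_⟩
  obtain ⟨g, hg⟩ := exists_sq
  have h2 : K.index = 2 := by
    rw [hK.index_eq_card, Nat.card_zpowers]
    exact orderOf_eq_prime (by rw [sq, negOne_mul_self]) negOne_ne_one
  have h3 := Subgroup.mul_self_mem_of_index_two h2 g
  rw [hg] at h3
  exact negOne_ne_one (Subgroup.disjoint_def.1 hK.disjoint (Subgroup.mem_zpowers _) h3)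

end Cfsg.Agent.S5594
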