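import Cfsg.Statements.S5599
import Cfsg.Agent.Lib.Mathieu.Move
import Cfsg.Agent.Lib.Mathieu.Classes
import Cfsg.Agent.Lib.Mathieu.Aut2

set_option autoImplicit false
open scoped Pointwise
open Cfsg

namespace Cfsg.Agent.S5599

open Cfsg.Lib.Golay Cfsg.Lib.Mathieu Finset MulAction

theorem mem22 {x : P24} : x ∈ Spor.M22 ↔ x ∈ M24 ∧ x none = none ∧ x (some 0) = some 0 := and_assoc

/-- In the automorphism group of the length-24 code, the two-point Mathieu group (permutations of the code's group fixing the extra point and the residue 0) has index 2 in the setwise stabiliser of that pair of points, and an element of the code's group interchanging the two points normalises the two-point group and induces on it, by conjugation, an automorphism that is not inner. -/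
theorem result (g : Equiv.Perm Cfsg.GolayPt) (hg : g ∈ Cfsg.M24) (h₁ : g none = some 0) (h₂ : g (some 0) = none) : Cfsg.Spor.M22.relIndex (Cfsg.M24 ⊓ MulAction.stabilizer (Equiv.Perm Cfsg.GolayPt) ({none, some 0} : Finset Cfsg.GolayPt)) = 2 ∧ (∀ x ∈ Cfsg.Spor.M22, g * x * g⁻¹ ∈ Cfsg.Spor.M22) ∧ ¬ ∃ h ∈ Cfsg.Spor.M22, ∀ x ∈ Cfsg.Spor.M22, g * x * g⁻¹ = h * x * h⁻¹ := by
  refine ⟨?_, fun x hx => ?_, fun ⟨h, h1, h2⟩ => ?_⟩
  · have e : Spor.M22 ≤ M24 ⊓ stabilizer P24 ({none, some 0} : Finset GolayPt) := fun x hx =>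
      ⟨(mem22.1 hx).1, smul_eq_of_fix (by simpa using (mem22.1 hx).2)⟩
    have := Subgroup.card_mul_index (Spor.M22.subgroupOf (M24 ⊓ stabilizer P24 ({none, some 0} : Finset GolayPt)))
    rw [Nat.card_congr (Subgroup.subgroupOfEquivOfLe e).toEquiv, card_M22, ← Nat.card_congr (subEquiv (M := M24)
      (K := stabilizer M24 ({none, some 0} : Finset GolayPt)) inf_le_left fun x => (and_iff_right x.2).symm).toEquiv,
      card_stabilizer_duad (by decide)] at this
    exact Nat.eq_of_mul_eq_mul_left (by decide) (this.trans (by decide : _ = 443520 * 2))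
  · rw [mem22] at hx ⊢
    refine ⟨mul_mem (mul_mem hg hx.1) (inv_mem hg), ?_, ?_⟩
    · simp [(Equiv.symm_apply_eq g).2 h₂.symm, hx.2.2, h₂]
    · simp [(Equiv.symm_apply_eq g).2 h₁.symm, hx.2.1, h₁]
  obtain ⟨a, b, c⟩ := mem22.1 (inv_mem h1)
  have c1 : (h⁻¹ * g) none = some 0 := by rw [Equiv.Perm.mul_apply, h₁, c]
  have c2 : (h⁻¹ * g) (some 0) = none := by rw [Equiv.Perm.mul_apply, h₂, b]
  have := eq_one_of_closeOK (mul_mem a hg) (L := [(13062145, 13938692), (13062145, 13062145)]) (F := 8388606)
    (by decide +kernel) fun p hp => by_contra fun n => by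
      have p1 : p ≠ none := by rintro rfl; revert hp; decide +kernel
      have p2 : p ≠ some 0 := by rintro rfl; revert hp; decide +kernel
      obtain ⟨r, -, hr⟩ := exists_notMem_of_card_lt (s := {(h⁻¹ * g) p, none, some 0, p}) (t := univ)
        (card_le_four.trans_lt (by decide))
      obtain ⟨x, -, x1, x2⟩ := tr5_univ.move (v := {none, some 0, p}) (subset_univ _) (card_le_three.trans (by decide))
        (mem_univ ((h⁻¹ * g) p)) (mem_univ r) (by
          simp only [mem_insert, mem_singleton, not_or]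
          exact ⟨fun e => p2 ((h⁻¹ * g).injective (e.trans c2.symm)), fun e => p1 ((h⁻¹ * g).injective (e.trans c1.symm)), n⟩)
        (notMem_mono (subset_insert _ _) hr)
      have e : h⁻¹ * g * x = x * (h⁻¹ * g) := by
        rw [mul_assoc, mul_inv_eq_iff_eq_mul.1 (h2 x (mem22.2 ⟨x.2, x1 _ (by simp), x1 _ (by simp)⟩))]
        group
      have := DFunLike.congr_fun e p
      rw [Equiv.Perm.mul_apply, x1 p (by simp), Equiv.Perm.mul_apply (x : P24), x2] at this
      exact hr (this ▸ mem_insert_self _ _)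
  rw [this] at c1
  exact absurd c1 (by decide)

end Cfsg.Agent.S5599
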