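import Cfsg.Statements.S5601
import Cfsg.Agent.Lib.Mathieu.Classes

set_option autoImplicit false
open scoped Pointwise
open Cfsg

namespace Cfsg.Agent.S5601

open Cfsg.Lib.Golay Cfsg.Lib.Mathieu Finset Subgroup

theorem fix_zpowers (g : M24) : {p : GolayPt | ∀ x ∈ zpowers g, (x : P24) p = p}.ncard = (fixP g).card := by
  rw [← Set.ncard_coe_finset]
  congr 1
  ext p
  simp only [Set.mem_ofPred_eq, coe_filter, mem_univ, true_and]
  exact ⟨fun h => h g (mem_zpowers g), fun h x hx => (zpowers_le (H := MulAction.stabilizer M24 p)).2 h hx⟩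

theorem gen {X : Subgroup M24} (h : Nat.card X = 3) : ∃ g : M24, orderOf (g : P24) = 3 ∧ zpowers g = X := by
  have : Fact (Nat.Prime 3) := ⟨by norm_num⟩
  obtain ⟨g, hg⟩ := exists_prime_orderOf_dvd_card' 3 h.symm.dvd
  exact ⟨g, by rw [orderOf_coe, orderOf_coe, hg],
    eq_of_le_of_card_ge (zpowers_le.2 g.2) (by rw [Nat.card_zpowers, orderOf_coe, hg, h])⟩

theorem ex {c k : ℕ} (h : okM c = true) (h1 : ordT c = 3) (h2 : pc (fixM c) = k) :
    ∃ X : Subgroup M24, Nat.card X = 3 ∧ {p : GolayPt | ∀ x ∈ X, (x : P24) p = p}.ncard = k :=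
  ⟨zpowers (mk c), by rw [Nat.card_zpowers, (mk_rep h).orderOf_eq (by omega), h1],
    by rw [fix_zpowers, Rp.card_fixP (mk_rep h), h2]⟩

theorem cj {x g h : M24} (a : ∃ k : M24, (k : P24) * x * (k : P24)⁻¹ = g) (b : ∃ k : M24, (k : P24) * x * (k : P24)⁻¹ = h) :
    ∃ k : M24, MulAut.conj k • zpowers g = zpowers h := by
  obtain ⟨a, ha⟩ := a
  obtain ⟨b, hb⟩ := b
  refine ⟨b * a⁻¹, (MonoidHom.map_zpowers _ g).trans (congrArg zpowers (Subtype.ext ?_))⟩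
  simp [← ha, ← hb, mul_assoc]

/-- The group of the length-24 code has exactly two conjugacy classes of subgroups of order 3: a subgroup of order 3 fixes either exactly 6 of the 24 points or none of them, both cases occur, and two subgroups of order 3 with the same number of fixed points are conjugate. -/
theorem result : (∀ X : Subgroup ↥Cfsg.M24, Nat.card X = 3 → {p : Cfsg.GolayPt | ∀ x ∈ X, ((x : ↥Cfsg.M24) : Equiv.Perm Cfsg.GolayPt) p = p}.ncard = 6 ∨ {p : Cfsg.GolayPt | ∀ x ∈ X, ((x : ↥Cfsg.M24) : Equiv.Perm Cfsg.GolayPt) p = p}.ncard = 0) ∧ (∃ X : Subgroup ↥Cfsg.M24, Nat.card X = 3 ∧ {p : Cfsg.GolayPt | ∀ x ∈ X, ((x : ↥Cfsg.M24) : Equiv.Perm Cfsg.GolayPt) p = p}.ncard = 6) ∧ (∃ X : Subgroup ↥Cfsg.M24, Nat.card X = 3 ∧ {p : Cfsg.GolayPt | ∀ x ∈ X, ((x : ↥Cfsg.M24) : Equiv.Perm Cfsg.GolayPt) p = p}.ncard = 0) ∧ ∀ X Y : Subgroup ↥Cfsg.M24, Nat.card X = 3 → Nat.card Y = 3 → {p : Cfsg.GolayPt | ∀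 x ∈ X, ((x : ↥Cfsg.M24) : Equiv.Perm Cfsg.GolayPt) p = p}.ncard = {p : Cfsg.GolayPt | ∀ x ∈ Y, ((x : ↥Cfsg.M24) : Equiv.Perm Cfsg.GolayPt) p = p}.ncard → ∃ k : ↥Cfsg.M24, MulAut.conj k • X = Y := by
  have key : ∀ g : M24, orderOf (g : P24) = 3 → (fixP g).card = 6 ∨ (fixP g).card = 0 := fun g hg => by
    simpa using card_fixP_mem (l := [6, 0]) (by decide +kernel) g.2 hg
  refine ⟨fun X hX => ?_, ex (c := r3A) (by decide +kernel) (by decide +kernel) (by decide +kernel),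
    ex (c := r3B) (by decide +kernel) (by decide +kernel) (by decide +kernel), fun X Y hX hY e => ?_⟩
  · obtain ⟨g, hg, rfl⟩ := gen hX
    exact fix_zpowers g ▸ key g hg
  obtain ⟨g, hg, rfl⟩ := gen hX
  obtain ⟨h, hh, rfl⟩ := gen hY
  rw [fix_zpowers, fix_zpowers] at e
  rcases key g hg with k | k
  exacts [cj (conj_3A g.2 hg k).2 (conj_3A h.2 hh (e ▸ k)).2, cj (conj_3B g.2 hg k).2 (conj_3B h.2 hh (e ▸ k)).2]

end Cfsg.Agent.S5601
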