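import Cfsg.Statements.S5602
import Cfsg.Agent.Lib.Mathieu.Classes

set_option autoImplicit false
open scoped Pointwise
open Cfsg

namespace Cfsg.Agent.S5602

open Cfsg.Lib Cfsg.Lib.Golay Cfsg.Lib.Calc Cfsg.Lib.Grp Cfsg.Lib.Mathieu MulAction
open scoped Pointwise
set_option maxHeartbeats 400000
set_option maxRecDepth 100000

theorem hs : fixSextOK r3A [11498826146067704484292576981823969743083780, 16736533171388158473689088820845944881840770, 11934553731814602365301426696501652629749820, 12555101077691489581514611405453349066118720, 11151738059280987043206462431804322679365960, 16725909993006156569567801626316817278502945, 12547572335666668243897485167154446158791105, 11847962583910105868459163207140912960385030, 11324601491373363651057979708668735517626960, 11150398192745892532567903276847130220724640, 11172155032338471176867591441396167285508160, 13937970071993932454086625567824634819127840, 11156030125963344651800692073489411424127050, 11237575625949382653630598981548091866350370, 11199713876246333050970136601364616846509100, 11196656691926619839078968102063576035893385] = true := by decide +kernel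

theorem ht : fixTrioOK r3A [3302040175516743389820, 2630967842240550949500, 3302040161911026004560, 2402701769227371328080, 2399397253000788238380, 2402701729228343284560, 2399397213001760194860, 3579569982411756294780, 2402701715425661395200, 2399397199396042809600, 3579569968806038909520, 3302040161714061500460, 2630967788635805520720, 2630967788438841016620, 3579569968609074405420] = true := by decide +kernel

/-- An element of order 3 of the group of the length-24 code having exactly 6 fixed points maps to themselves exactly 21 octads, exactly 15 trios, exactly 16 sextets and exactly 20 dodecads. -/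
theorem result (g : Equiv.Perm Cfsg.GolayPt) (hg : g ∈ Cfsg.M24) (h₃ : orderOf g = 3) (h₆ : (Finset.univ.filter fun p => g p = p).card = 6) : {o : Finset Cfsg.GolayPt | o ∈ Cfsg.octads ∧ g • o = o}.ncard = 21 ∧ {T : Finset (Finset Cfsg.GolayPt) | T ∈ Cfsg.trios ∧ g • T = T}.ncard = 15 ∧ {S : Finset (Finset Cfsg.GolayPt) | S ∈ Cfsg.sextets ∧ g • S = S}.ncard = 16 ∧ {d : Finset Cfsg.GolayPt | d ∈ Cfsg.dodecads ∧ g • d = d}.ncard = 20 := by
  obtain ⟨h, k, e⟩ := conj_3A hg h₃ h₆
  exact ⟨by rw [← e, ncard_fix_conj fun _ => image_mem_octads k.2, Rp.ncard_fix_oct h]; decide +kernel,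
    by rw [← e, ncard_fix_conj fun _ => smul_mem_trios k.2, Rp.ncard_fix_trio h ht]; rfl,
    by rw [← e, ncard_fix_conj fun _ => smul_mem_sextets k.2, Rp.ncard_fix_sext h hs]; rfl,
    by rw [← e, ncard_fix_conj fun _ => image_mem_dodecads k.2, Rp.ncard_fix_dod h]; decide +kernel⟩

end Cfsg.Agent.S5602
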