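import Cfsg.Statements.S5603
import Cfsg.Agent.Lib.Mathieu.Classes

set_option autoImplicit false
open scoped Pointwise
open Cfsg

namespace Cfsg.Agent.S5603

open Cfsg.Lib Cfsg.Lib.Golay Cfsg.Lib.Calc Cfsg.Lib.Grp Cfsg.Lib.Mathieu MulAction
open scoped Pointwise
set_option maxHeartbeats 400000
set_option maxRecDepth 100000

theorem hs : fixSextOK r3B [12548252897485389106856703288899568503111970, 13241237942906551403888414879580504067152900, 11153270674569687052525628357734957030851090, 12549619365277575492901874227077846742925385, 11855437996486692551044546771715104947831600, 11157348725936167453806601512827049933422640, 11848637686175969854749933583492492799615040] = true := by decide +kernel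

theorem ht : fixTrioOK r3B [3923393050111998378825, 3564006943332745265265, 3284533826235910664325, 2611945991007592662150, 2404179213880450123845, 3104107261529375875410, 2805959943088563700530, 3634640250444094920210, 3847031139722487943590, 2510716347981261946890, 3398925257710024139370, 2699206651605846396105, 2880054320985087811110, 2539040634054164748690, 2989067296334616769545] = true := by decide +kernel

/-- A fixed-point-free element of order 3 of the group of the length-24 code maps to themselves exactly 7 sextets and exactly 15 trios. -/
theorem result (g : Equiv.Perm Cfsg.GolayPt) (hg : g ∈ Cfsg.M24) (h₃ : orderOf g = 3) (h₀ : ∀ p, g p ≠ p) : {S : Finset (Finset Cfsg.GolayPt) | S ∈ Cfsg.sextets ∧ g • S = S}.ncard = 7 ∧ {T : Finset (Finset Cfsg.GolayPt) | T ∈ Cfsg.trios ∧ g • T = T}.ncard = 15 := by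
  obtain ⟨h, k, e⟩ := conj_3B hg h₃ (fixP_card_eq_zero.2 h₀)
  exact ⟨by rw [← e, ncard_fix_conj fun _ => smul_mem_sextets k.2, Rp.ncard_fix_sext h hs]; rfl,
    by rw [← e, ncard_fix_conj fun _ => smul_mem_trios k.2, Rp.ncard_fix_trio h ht]; rfl⟩

end Cfsg.Agent.S5603
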