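import Cfsg.Statements.S5604
import Cfsg.Agent.Lib.Mathieu.Classes
import Cfsg.Agent.Lib.Grp.FusSimple
import Cfsg.Agent.Lib.Grp.Loc2

set_option autoImplicit false
open scoped Pointwise
open Cfsg

namespace Cfsg.Agent.S5604

open Cfsg.Lib.Golay Cfsg.Lib.Calc Cfsg.Lib.Grp Cfsg.Lib.Mathieu MulAction Subgroup

set_option maxRecDepth 100000

/-- the properties of an element of order 7 -/
def P (x : M24) : Prop := orderOf x = 7 ∧ Nat.card (centralizer {x}) = 42 ∧
  (∃ a ∈ centralizer {x}, ∃ b ∈ centralizer {x}, a * b ≠ b * a) ∧ {T | T ∈ trios ∧ (x : P24) • T = T}.ncard = 1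

theorem P.cj {x : M24} (h : P x) (k : M24) : P (k * x * k⁻¹) := by
  obtain ⟨h1, h2, ⟨a, ha, b, hb, e⟩, h4⟩ := h
  refine ⟨(orderOf_conj' k x).trans h1, cj_cen.card.trans h2, ⟨_, cj_cen.mem ha, _, cj_cen.mem hb, by simpa using e⟩,
    (ncard_fix_conj (fun _ => smul_mem_trios k.2) x).trans h4⟩

theorem ex : ∃ x, P x := by
  have h := mk_rep (c := 9759154893309751776970966210612289) (by decide +kernel)
  have m : Mem _ _ := Tst.cen inj_pt faithful_M24 h
  obtain ⟨a1, a2⟩ := m.mk_mem (c := 983548720921252936276249910206105632) (by decide +kernel)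
  obtain ⟨b1, b2⟩ := m.mk_mem (c := 926973997776264677992410669062265095) (by decide +kernel)
  exact ⟨_, (h.orderOf_eq (by decide +kernel)).trans (by decide +kernel),
    top_inf_eq (centralizer {mk _}) ▸ cls24.cent (_, 42) (by decide +kernel),
    ⟨_, a1, _, b1, ((a2.mulT b2).eq_iff (b2.mulT a2)).not.2 (by decide +kernel)⟩,
    Rp.ncard_fix_trio h (l := [2402701737841094376960]) (by decide +kernel)⟩

/-- For a subgroup S of order 7 of the group of the length-24 code (a Sylow 7-subgroup): the normaliser of S has order 126, the centraliser of S has order 42 and is non-abelian, and the whole normaliser leaves some trio invariant. (These are the orders of a Frobenius group of order 21 times a symmetric group of degree 3; the isomorphism type itself is not asserted here.) -/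
theorem result (S : Subgroup ↥Cfsg.M24) (hS : Nat.card S = 7) : Nat.card ↥(Subgroup.normalizer (S : Set ↥Cfsg.M24)) = 126 ∧ Nat.card ↥(Subgroup.centralizer (S : Set ↥Cfsg.M24)) = 42 ∧ (∃ x ∈ Subgroup.centralizer (S : Set ↥Cfsg.M24), ∃ y ∈ Subgroup.centralizer (S : Set ↥Cfsg.M24), x * y ≠ y * x) ∧ ∃ T ∈ Cfsg.trios, ∀ n ∈ Subgroup.normalizer (S : Set ↥Cfsg.M24), ((n : ↥Cfsg.M24) : Equiv.Perm Cfsg.GolayPt) • T = T := by
  have : Fact (Nat.Prime 7) := ⟨by norm_num⟩
  have f : ∀ S : Subgroup M24, Nat.card S = 7 → ∃ Q : Sylow 7 M24, Q = S := fun S h =>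
    ⟨(IsPGroup.of_card (n := 1) h).toSylow fun e => by
      have := mul_dvd_mul_left 7 e
      rw [← h, card_mul_index, h, card_M24] at this
      omega, rfl⟩
  obtain ⟨x, hx, rfl⟩ : ∃ x, P x ∧ zpowers x = S := by
    obtain ⟨x, hx⟩ := ex
    obtain ⟨Q, e⟩ := f _ ((Nat.card_zpowers x).trans hx.1)
    obtain ⟨Q', rfl⟩ := f S hS
    obtain ⟨k, hk⟩ := exists_cj_sylow Q Q'
    exact ⟨_, hx.cj k, by rw [hk.eq_map, e, MonoidHom.map_zpowers]; rfl⟩
  have c : centralizer (zpowers x : Set M24) = centralizer {x} := by rw [zpowers_eq_closure, centralizer_closure]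
  obtain ⟨T, hT⟩ := Set.ncard_eq_one.1 hx.2.2.2
  have t := hT.ge rfl
  refine ⟨?_, c ▸ hx.2.1, c ▸ hx.2.2.1, T, t.1, fun n hn => hT.le ⟨(smul_mem_trios n.2).2 t.1, ?_⟩⟩
  · obtain ⟨Q, e⟩ := f _ hS
    have h1 := index_normalizer_mod Q
    have h2 := card_dvd_of_injective _ (QuotientGroup.kerLift_injective (zpowers x).normalizerMonoidHom)
    have h3 := card_mul_index ((centralizer (zpowers x : Set M24)).subgroupOf (normalizer (zpowers x)))
    rw [normalizerMonoidHom_ker, ← index, IsCyclic.card_mulAut, hS, Nat.totient_prime this.out] at h2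
    rw [Nat.card_congr (subgroupOfEquivOfLe (centralizer_le_normalizer _)).toEquiv, c, hx.2.1, ← c] at h3
    rw [e, ← h3, card_M24] at h1
    rw [← h3]
    generalize index (G := normalizer (zpowers x : Set M24)) _ = i at h1 h2
    have := Nat.le_of_dvd (by decide) h2
    interval_cases i <;> omega
  · have := zpowers_le (H := stabilizer M24 T).2 t.2 ((mem_normalizer_iff''.1 hn x).1 (mem_zpowers x))
    rwa [mem_stabilizer_iff, mul_smul, mul_smul, inv_smul_eq_iff] at this

end Cfsg.Agent.S5604
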