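import Cfsg.Statements.S5607
import Cfsg.Agent.Lib.Mathieu.Classes
import Cfsg.Agent.Lib.Grp.Tst

set_option autoImplicit false
open scoped Pointwise
open Cfsg

namespace Cfsg.Agent.S5607

open Cfsg.Lib.Golay Cfsg.Lib.Calc Cfsg.Lib.Grp Cfsg.Lib.Mathieu MulAction Subgroup

set_option maxRecDepth 100000

theorem mem {c : ℕ} (h : R (mk c) c) : Mem (centralizer {mk c}) (trP 24 5 c c) := Tst.cen inj_pt faithful_M24 h

theorem le (h : R (mk r2B) r2B) : centralizer {mk r2B} ≤ stabilizer M24 (decS 6 11504267939273064427731210850735011963865350) :=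
  ((mem h).gen (cs := [972308751021267134492447262339901664, 267419226131936165386863849045938799]) (by decide +kernel) card_cen_2B.le (by decide +kernel : surOK _ _ _ 7680 [894798059845317076594748119981230121, 597504119582381285148740428994152502, 982808773341904765705022018148436000, 981563544338578773660441081710577696]
    [0, 0, 430347, 279048, 17163008525, 22531]
    [(1, [0, 1], 24), (0, [2, 3], 20), (3, [4, 5], 16)] = true)).le_of_tst
    ((mem h).list (by decide +kernel)) (Mem.fam _ _) (by decide +kernel)

theorem tr (h : R (mk r2B) r2B) (p q : GolayPt) : ∃ c ∈ centralizer {mk r2B}, c • p = q := by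
  obtain ⟨c, a, b⟩ := exists_map_mask_list ((mem h).wChain (L := [(0, [984818244535754528103549039458486304, 267419226131936165386863849045938799, 917754414612583402676696906242564462, 486097500171878969200658184442851912, 565976288216551856520397482415733955, 599029974934873302485589087376463158, 392345530486204938669618235806489941, 799629652257719554860881509842369236, 140809762143982683736597389619011949, 87592412288759357263113965478200833, 775568077351775108049157153365547468, 846934490465361229783273933790854355, 441934104544289081156040051374003335, 348012083193206213630183032321555147, 508461656890128763864743761707409778, 675125582015754599211565950018213169, 58028660961163245053695042051675266, 639490799580909113179456105005714854, 881926256442338760084911111465392585, 293954871612540420157206308397143338, 186448166203991364811431721382380613, 2724354774658887936614461993499351, 719261333896967263243548945532978256, 229299352010866541799898541600415044])]) (by decide +kernel))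
    (m := 16777215) (fun g _ => smul_toF_full g) (l := [p]) (l' := [q]) (by decide +kernel : covOK 5 _ 1 _ = true)
    (by simp) (by simp) rfl (by simp [toF_full]) (by simp [toF_full])
  exact ⟨c, a, (List.cons.inj b).1⟩

/-- For a fixed-point-free involution t of the group of the length-24 code: its centraliser in that group has order 7680, is transitive on the 24 points, and is contained, together with t, in the stabiliser of some sextet. -/
theorem result (t : Equiv.Perm Cfsg.GolayPt) (ht : t ∈ Cfsg.M24) (h₂ : orderOf t = 2) (h₀ : ∀ p, t p ≠ p) : Nat.card {c : Equiv.Perm Cfsg.GolayPt // c ∈ Cfsg.M24 ∧ c * t = t * c} = 7680 ∧ (∀ p q : Cfsg.GolayPt, ∃ c ∈ Cfsg.M24, c * t = t * c ∧ c p = q) ∧ ∃ S ∈ Cfsg.sextets, t • S = S ∧ ∀ c ∈ Cfsg.M24, c * t = t * c → c • S = S := by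
  obtain ⟨h, k, e⟩ := conj_2B ht h₂ (fixP_card_eq_zero.2 h₀)
  have h1 := le h
  have h2 := tr h
  have h3 := card_cen_2B
  have h4 : decS 6 11504267939273064427731210850735011963865350 ∈ sextets := mem_sextets_of_isSext (by decide +kernel)
  generalize mk r2B = z at e h1 h2 h3
  generalize decS 6 _ = S at h1 h4
  subst e
  have c := cj_cen (k := k) (x := z)
  have m : ∀ x : M24, x ∈ centralizer {k * z * k⁻¹} ↔
      (x : P24) * (k * z * (k : P24)⁻¹) = k * z * (k : P24)⁻¹ * x := fun x => mem_cen.trans Subtype.ext_iff
  have s : ∀ x : M24, x ∈ centralizer {k * z * k⁻¹} → (x : P24) • (k : P24) • S = (k : P24) • S :=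
    fun x hx => (by simpa [mul_assoc] using (cjSt (g := k) rfl).mem (h1 (c.mem' hx)) : x • (k : P24) • S = _)
  refine ⟨(Nat.card_congr ⟨fun x => ⟨⟨x, x.2.1⟩, (m _).2 x.2.2⟩, fun x => ⟨x.1, x.1.2, (m _).1 x.2⟩, fun _ => rfl,
    fun _ => rfl⟩).trans (c.card.trans h3), fun p q => ?_, _, (smul_mem_sextets k.2).2 h4, s ⟨_, ht⟩ ((m _).2 rfl),
    fun x a b => s ⟨x, a⟩ ((m _).2 b)⟩
  obtain ⟨x, a, b⟩ := c.exists_smul (h2 (k⁻¹ • p) (k⁻¹ • q))
  rw [smul_inv_smul, smul_inv_smul] at b
  exact ⟨x, x.2, (m x).1 a, b⟩

end Cfsg.Agent.S5607
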