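import Cfsg.Statements.S5608
import Cfsg.Agent.Lib.Mathieu.Classes

set_option autoImplicit false
open scoped Pointwise
open Cfsg

namespace Cfsg.Agent.S5608

open Cfsg.Lib Cfsg.Lib.Golay Cfsg.Lib.Calc Cfsg.Lib.Grp Cfsg.Lib.Mathieu MulAction
open scoped Pointwise
set_option maxHeartbeats 400000
set_option maxRecDepth 100000

theorem key (g : M24) (h : orderOf g = 6) :
    ((fixP ((g : P24) ^ 4)).card = 6 ∧ (fixP ((g : P24) ^ 3)).card = 8) ∨
      ((fixP ((g : P24) ^ 4)).card = 0 ∧ (fixP ((g : P24) ^ 3)).card = 0) := by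
  refine cls24.forall_of (P := fun g => orderOf g = 6 →
    ((fixP ((g : P24) ^ 4)).card = 6 ∧ (fixP ((g : P24) ^ 3)).card = 8) ∨
      ((fixP ((g : P24) ^ 4)).card = 0 ∧ (fixP ((g : P24) ^ 3)).card = 0)) (fun x _ k _ a b => ?_)
    (t := fun p => bor (band (!Nat.beq (ordT p.1) 0) (!Nat.beq (ordT p.1) 6))
      (bor (band (Nat.beq (pc (fixM (powT p.1 4))) 6) (Nat.beq (pc (fixM (powT p.1 3))) 8))
        (band (Nat.beq (pc (fixM (powT p.1 4))) 0) (Nat.beq (pc (fixM (powT p.1 3))) 0))))
    (fun x _ p a _ e b => ?_) (by decide +kernel) g trivial h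
  · rw [orderOf_conj'] at b
    simpa only [Subgroup.coe_mul, Subgroup.coe_inv, conj_pow, card_fixP_conj] using a b
  · rw [bor_eq_true, bor_eq_true, band_eq_true, band_eq_true, band_eq_true] at e
    rcases e with e | e
    · exact absurd ((R.orderOf_eq a (ne_of_not_beq e.1)).symm.trans b) (ne_of_not_beq e.2)
    · rw [← Subgroup.coe_pow, ← Subgroup.coe_pow, Rp.card_fixP (R.powT a 4), Rp.card_fixP (R.powT a 3)]
      simpa only [beq_iff] using e

/-- If an element of order 3 and an involution of the group of the length-24 code commute, then either the element of order 3 has exactly 6 fixed points and the involution exactly 8, or both are fixed-point-free. -/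
theorem result (x s : Equiv.Perm Cfsg.GolayPt) (hx : x ∈ Cfsg.M24) (hs : s ∈ Cfsg.M24) (h₃ : orderOf x = 3) (h₂ : orderOf s = 2) (hc : Commute x s) : ((Finset.univ.filter fun p => x p = p).card = 6 ∧ (Finset.univ.filter fun p => s p = p).card = 8) ∨ ((Finset.univ.filter fun p => x p = p).card = 0 ∧ (Finset.univ.filter fun p => s p = p).card = 0) := by
  have h6 : orderOf (x * s) = 6 := by
    rw [hc.orderOf_mul_eq_mul_orderOf_of_coprime (by rw [h₃, h₂]; norm_num), h₃, h₂]
  have a : x ^ 3 = 1 := h₃ ▸ pow_orderOf_eq_one x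
  have b : s ^ 2 = 1 := h₂ ▸ pow_orderOf_eq_one s
  have := key ⟨x * s, M24.mul_mem hx hs⟩ (by rw [← Subgroup.orderOf_coe]; exact h6)
  rwa [Subgroup.coe_mk, hc.mul_pow, hc.mul_pow, show x ^ 4 = x ^ 3 * x from pow_succ x 3, a,
    show s ^ 4 = (s ^ 2) ^ 2 from pow_mul s 2 2, show s ^ 3 = s ^ 2 * s from pow_succ s 2, b, one_pow, one_mul,
    one_mul, one_mul, mul_one] at this

end Cfsg.Agent.S5608
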