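import Cfsg.Statements.S5609
import Cfsg.Agent.Lib.Mathieu.Orb2

set_option autoImplicit false
open scoped Pointwise
open Cfsg

namespace Cfsg.Agent.S5609

open Cfsg.Lib.Golay Cfsg.Lib.Mathieu Finset

theorem pair {a b o o' : Finset GolayPt} (ha : a ∈ octads) (hb : b ∈ octads) (ho : o ∈ octads) (ho' : o' ∈ octads)
    (h : (a ∩ b).card = (o ∩ o').card) : ∃ g ∈ M24, g • a = o ∧ g • b = o' := by
  obtain ⟨g, rfl⟩ := exists_smul_octad ha ho
  obtain ⟨k, h1, h2⟩ := (cls_oct_oct ho).exists_smul ((smul_mem_octads g.2).2 hb) ho'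
    ((card_smul_inter _ _ _).trans h)
  exact ⟨k * g, M24.mul_mem k.2 g.2, by rw [mul_smul]; exact h1, by rw [mul_smul]; exact h2⟩

theorem dj {g : P24} {a b : ℕ} (h : Nat.beq (pc (Nat.land a b)) 0 = true) (ha : a < 2 ^ 24) :
    Disjoint (g • G.toF a) (g • G.toF b) := by
  rw [disjoint_iff_inter_eq_empty, ← card_eq_zero, card_smul_inter, card_inter_toF ha, Nat.eq_of_beq_eq_true h]

theorem adj_iff {o o' : octads} : (blockGraph octads).Adj o o' ↔ (o.1 ∩ o'.1).card = 0 := by
  rw [blockGraph, SimpleGraph.fromRel_adj, card_eq_zero, ← disjoint_iff_inter_eq_empty, disjoint_comm (a := o'.1),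
    or_self]
  refine ⟨fun h => h.2, fun h => ⟨?_, h⟩⟩
  rintro rfl
  have := o.2.2
  rw [disjoint_self.1 h] at this
  simp at this

theorem adj_of {o o' : Finset GolayPt} {ho : o ∈ octads} {ho' : o' ∈ octads} (h : Disjoint o o') :
    (blockGraph octads).Adj ⟨o, ho⟩ ⟨o', ho'⟩ := by
  rw [adj_iff, card_eq_zero]; exact disjoint_iff_inter_eq_empty.1 h

theorem w4 {o o' : octads} (h : (o.1 ∩ o'.1).card = 4) : ∃ p : (blockGraph octads).Walk o o', p.length = 2 := by
  obtain ⟨o, ho⟩ := o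
  obtain ⟨o', ho'⟩ := o'
  obtain ⟨g, hg, rfl, rfl⟩ := pair oct0_mem (mem_octads_of_isOct (m := 13062145) (by decide +kernel)) ho ho'
    (by rw [h, card_inter_toF (by norm_num)]; decide +kernel)
  have := (smul_mem_octads hg).2 (mem_octads_of_isOct (m := 3704512) (by decide +kernel))
  exact ⟨.cons (adj_of (ho' := this) (dj (by decide +kernel) (by norm_num)))
    (.cons (adj_of (dj (by decide +kernel) (by norm_num))) .nil), rfl⟩

theorem w2 {o o' : octads} (h : (o.1 ∩ o'.1).card = 2) : ∃ p : (blockGraph octads).Walk o o', p.length = 3 := by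
  obtain ⟨o, ho⟩ := o
  obtain ⟨o', ho'⟩ := o'
  obtain ⟨g, hg, rfl, rfl⟩ := pair oct0_mem (mem_octads_of_isOct (m := 4845570) (by decide +kernel)) ho ho'
    (by rw [h, card_inter_toF (by norm_num)]; decide +kernel)
  have h1 := (smul_mem_octads hg).2 (mem_octads_of_isOct (m := 6889680) (by decide +kernel))
  have h2 := (smul_mem_octads hg).2 (mem_octads_of_isOct (m := 8783649) (by decide +kernel))
  exact ⟨.cons (adj_of (ho' := h1) (dj (by decide +kernel) (by norm_num)))
    (.cons (adj_of (ho' := h2) (dj (by decide +kernel) (by norm_num)))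
    (.cons (adj_of (dj (by decide +kernel) (by norm_num))) .nil)), rfl⟩

theorem n2 {o o' x : octads} (h : (o.1 ∩ o'.1).card = 2) (h1 : (o.1 ∩ x.1).card = 0) (h2 : (x.1 ∩ o'.1).card = 0) :
    False := by
  obtain ⟨o, ho⟩ := o
  obtain ⟨o', ho'⟩ := o'
  obtain ⟨g, hg, rfl, rfl⟩ := pair oct0_mem (mem_octads_of_isOct (m := 4845570) (by decide +kernel)) ho ho'
    (by rw [h, card_inter_toF (by norm_num)]; decide +kernel)
  obtain ⟨m, hm, e, h3⟩ := forall_octads (p := fun m => !(Nat.beq (pc (Nat.land 8536111 m)) 0 &&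
    Nat.beq (pc (Nat.land m 4845570)) 0)) (by decide +kernel) ((smul_mem_octads (M24.inv_mem hg)).2 x.2)
  rw [eq_inv_smul_iff] at e
  simp only [← e, card_smul_inter] at h1 h2
  rw [card_inter_toF (by norm_num)] at h1
  rw [card_inter_toF hm] at h2
  rw [h1, h2] at h3
  exact absurd h3 (by decide)

theorem cases' {o o' : octads} (h : o ≠ o') :
    (o.1 ∩ o'.1).card = 0 ∨ (o.1 ∩ o'.1).card = 4 ∨ (o.1 ∩ o'.1).card = 2 := by
  have := (cls_oct_oct o.2).cover _ o'.2
  simp only [List.mem_cons, List.not_mem_nil, or_false, exists_eq_or_imp, exists_eq_left] at this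
  refine this.resolve_left fun e => h (Subtype.ext ?_)
  have h1 : o.1 ∩ o'.1 = o.1 := eq_of_subset_of_card_le inter_subset_left (by rw [e, o.2.2])
  exact eq_of_subset_of_card_le (inter_eq_left.1 h1) (by rw [o.2.2, o'.2.2])

theorem conn : (blockGraph octads).Connected := by
  haveI : Nonempty octads := ⟨⟨_, oct0_mem⟩⟩
  refine ⟨fun o o' => ?_⟩
  by_cases h : o = o'
  · rw [h]
  rcases cases' h with h | h | h
  exacts [(adj_iff.2 h).reachable, ⟨(w4 h).choose⟩, ⟨(w2 h).choose⟩]

theorem main {o o' : octads} (h : o ≠ o') :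
    ((o.1 ∩ o'.1).card = 4 → (blockGraph octads).dist o o' = 2) ∧
    ((o.1 ∩ o'.1).card = 2 → (blockGraph octads).dist o o' = 3) := by
  have h0 : (blockGraph octads).dist o o' ≠ 0 := fun e => h (conn.dist_eq_zero_iff.1 e)
  have h1 := (SimpleGraph.dist_eq_one_iff_adj (G := blockGraph octads) (u := o) (v := o')).trans adj_iff
  refine ⟨fun e => ?_, fun e => ?_⟩
  · obtain ⟨p, hp⟩ := w4 e
    have := SimpleGraph.dist_le p
    omega
  · obtain ⟨p, hp⟩ := w2 e
    have := SimpleGraph.dist_le p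
    have : (blockGraph octads).dist o o' ≠ 2 := fun e2 => by
      obtain ⟨q, hq⟩ := (conn o o').exists_walk_length_eq_dist
      rw [e2] at hq
      match q, hq with
      | .cons a (.cons b .nil), _ => exact n2 e (adj_iff.1 a) (adj_iff.1 b)
    omega

/-- In the graph on the 759 octads of the length-24 code in which two octads are adjacent when they are disjoint, the graph is connected (of diameter 3) and two distinct octads are at distance 1, 2 or 3 exactly when they meet in 0, 4 or 2 points respectively. -/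
theorem result (o o' : Finset Cfsg.GolayPt) (ho : o ∈ Cfsg.octads) (ho' : o' ∈ Cfsg.octads) (hne : o ≠ o') : (Cfsg.blockGraph Cfsg.octads).Connected ∧ ((Cfsg.blockGraph Cfsg.octads).dist ⟨o, ho⟩ ⟨o', ho'⟩ = 1 ↔ (o ∩ o').card = 0) ∧ ((Cfsg.blockGraph Cfsg.octads).dist ⟨o, ho⟩ ⟨o', ho'⟩ = 2 ↔ (o ∩ o').card = 4) ∧ ((Cfsg.blockGraph Cfsg.octads).dist ⟨o, ho⟩ ⟨o', ho'⟩ = 3 ↔ (o ∩ o').card = 2) := by
  have hne' : (⟨o, ho⟩ : octads) ≠ ⟨o', ho'⟩ := fun e => hne (congrArg Subtype.val e)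
  have h1 := (SimpleGraph.dist_eq_one_iff_adj (G := blockGraph octads) (u := ⟨o, ho⟩) (v := ⟨o', ho'⟩)).trans adj_iff
  have h2 := main hne'
  have h3 := cases' hne'
  dsimp only at h1 h2 h3
  exact ⟨conn, h1, by omega, by omega⟩

end Cfsg.Agent.S5609
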