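import Cfsg.Statements.S5615
import Cfsg.Agent.Lib.Mathieu.Struct

set_option autoImplicit false
open scoped Pointwise
open Cfsg

namespace Cfsg.Agent.S5615

open Cfsg.Lib Cfsg.Lib.Golay Cfsg.Lib.Calc Cfsg.Lib.Grp Cfsg.Lib.Mathieu MulAction

set_option maxRecDepth 100000
set_option maxHeartbeats 400000

/-- the trios through the standard octad -/
def l : List ℕ := [2402701741902791019600, 2402701756604463197520, 2402701734698252245440, 2402701737841094376960, 2402701769227371328080, 2402701729228343284560, 2402701777519073634240, 2402701715425661395200, 2402701760514225381120, 2402701763702164666560, 2402701747266131110800, 2402701772649386317200, 2402701725787000943760, 2402701721035962091200, 2402701751256155490960]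

theorem inj : Inj 15 fun i => decS 3 (Mathieu.nth l i) := fun i hi j hj e => by
  have : ∀ i < 15, ∀ j < 15, eqS 3 (Mathieu.nth l i) (Mathieu.nth l j) = true → i = j := by decide +kernel
  exact this i hi j hj (eqS_iff.2 e)

open Classical in
/-- the trios through `o` -/
noncomputable def tr (o : Finset GolayPt) : Finset (Finset (Finset GolayPt)) :=
  Finset.univ.filter fun T => T ∈ trios ∧ o ∈ T

theorem mem_tr {o : Finset GolayPt} {T : Finset (Finset GolayPt)} : T ∈ tr o ↔ T ∈ trios ∧ o ∈ T := by simp [tr]

theorem mem_iff (g : M24) (T : Finset (Finset GolayPt)) :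
    T ∈ tr ((g : P24) • G.toF 8536111) ↔ ∃ i < 15, g • decS 3 (Mathieu.nth l i) = T := by
  have h1 : (fun i => g • decS 3 (Mathieu.nth l i)) '' Set.Iio 15 ⊆
      {T | T ∈ trios ∧ (g : P24) • G.toF 8536111 ∈ T} := by
    rintro _ ⟨i, hi, rfl⟩
    have : ∀ i < 15, band (isTrio (Mathieu.nth l i)) (anyLt 3 fun j => Nat.beq (g24 (Mathieu.nth l i) j) 8536111) =
      true := allLt_iff.1 (by decide +kernel)
    have := this i hi
    simp only [band_eq_true, anyLt_iff, beq_iff] at this
    obtain ⟨a, j, b, c⟩ := this
    exact ⟨(smul_mem_trios g.2).2 (mem_trios_of_isTrio a), (smul_mem_smul_iff _).2 (mem_decS.2 ⟨j, b, by rw [c]⟩)⟩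
  have h2 := Set.eq_of_subset_of_ncard_le h1 (by
    rw [ncard_trios_through ((smul_mem_octads g.2).2 oct0_mem), Set.ncard_image_of_injOn (s := Set.Iio 15) (inj.smul g)]
    simp) (Set.toFinite _)
  rw [mem_tr]
  exact (Set.ext_iff.1 h2 T).symm

/-- An octad of the length-24 code lies in exactly 15 trios; the stabiliser of the octad in the code's group acts doubly transitively on these 15 trios, and the kernel of this action is the pointwise stabiliser of the octad. -/
theorem result (o : Finset Cfsg.GolayPt) (ho : o ∈ Cfsg.octads) : {T : Finset (Finset Cfsg.GolayPt) | T ∈ Cfsg.trios ∧ o ∈ T}.ncard = 15 ∧ (∀ T₁ T₂ T₁' T₂' : Finset (Finset Cfsg.GolayPt), T₁ ∈ Cfsg.trios → T₂ ∈ Cfsg.trios → T₁' ∈ Cfsg.trios → T₂' ∈ Cfsg.trios → o ∈ T₁ → o ∈ T₂ → o ∈ T₁' → o ∈ T₂' → T₁ ≠ T₂ → T₁' ≠ T₂' → ∃ g ∈ Cfsg.M24, g • o = o ∧ g • T₁ = T₁' ∧ g • T₂ = T₂') ∧ ∀ g ∈ Cfsg.M24, g • o = o → ((∀ T ∈ Cfsg.trios, o ∈ T → g • T = T) ↔ ∀ p ∈ o, g p = p) := by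
  refine ⟨ncard_trios_through ho, ?_⟩
  obtain ⟨g, rfl⟩ := exists_smul_octad oct0_mem ho
  have h0 : ∀ k ∈ stabilizer M24 ((g : P24) • G.toF 8536111), ∀ T ∈ tr ((g : P24) • G.toF 8536111),
      k • T ∈ tr ((g : P24) • G.toF 8536111) := fun k hk T hT => mem_tr.2
    ⟨(smul_mem_trios k.2).2 (mem_tr.1 hT).1, by
      have := (smul_mem_smul_iff (k : P24)).2 (mem_tr.1 hT).2
      rwa [show (k : P24) • (g : P24) • G.toF 8536111 = _ from hk] at this⟩
  have h1 := (cjSt (g := g) rfl).repList (memO.famList (j := 3) (k := 15) (v := 4) (l := l) (cs := gO)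
    (ds := [597755664821316945, 6142210074707655]) (by decide +kernel))
  refine ⟨fun a b a' b' _ _ _ _ _ _ _ _ _ _ => ?_, fun k hk hk' => ?_⟩
  · obtain ⟨k, h2, h3⟩ := exists_map_ind h0 (by norm_num) (mem_iff g) h1
      (by decide +kernel : trOK _ _ _ 2 [479494930227451200, 748975464988224960, 601551390567459600, 705625212828802320, 399893055276737040, 1003377570118582800, 480967705692230160, 1070935975390360080, 894654589332128805, 1026023867734884780, 95223654043795635, 561285502534740315, 794672692635748050, 401585957844280170, 373064348877762990, 911470529879234520, 815936064491226285, 971511169514494230, 733446563078608500, 125510583792805065, 802649268639149280, 601650302479393200, 197715087568951920, 602669693554861920, 1067970746901877920, 702907326849528960, 398207571831931440, 1002759426768573840, 479022614675312160, 751306072906996560, 908463970088744400]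
    [0, 0, 59658, 24069, 15837409037, 350998281, 59332359, 2362246976268, 2522572040, 0, 2, 258, 3074, 3586, 35842, 38658, 49154, 52482, 60162, 68354, 92162, 102402, 11778, 12546, 18946, 141314, 147202, 159490, 172546, 178946, 200194, 207106, 229890]
    [(0, [1070935975390360080, 597755664821316945, 6142210074707655, 894654589332128805, 1026023867734884780, 95223654043795635, 561285502534740315, 794672692635748050, 401585957844280170, 373064348877762990, 911470529879234520, 815936064491226285, 971511169514494230, 733446563078608500, 125510583792805065]),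
   (1, [1070935975390360080, 479494930227451200, 748975464988224960, 802649268639149280, 601650302479393200, 197715087568951920, 602669693554861920, 1067970746901877920, 702907326849528960, 398207571831931440, 1002759426768573840, 479022614675312160, 751306072906996560, 908463970088744400])] = true) ![a, b] ![a', b']
      (by simp [Fin.forall_fin_two, mem_tr, *]) (by simp [Fin.forall_fin_two, mem_tr, *])
      (by simp [Function.Injective, Fin.forall_fin_two, *, Ne.symm]) (by simp [Function.Injective, Fin.forall_fin_two, *, Ne.symm])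
    exact ⟨k, k.2, h2, h3 0, h3 1⟩
  · let E := (indPerm _ _ h0).ker.map (Subgroup.subtype _)
    have h2 := le_card_range h0 (by norm_num) (inj.smul g) (mem_iff g) h1
      (by decide +kernel : surOK _ _ _ 20160 [479494930227451200, 748975464988224960, 601551390567459600, 705625212828802320, 399893055276737040, 1003377570118582800, 480967705692230160]
    [0, 0, 59658, 24069, 15837409037, 350998281, 59332359, 2362246976268, 2522572040]
    [(0, [0, 1], 15), (1, [2, 3], 14), (2, [4, 5], 12), (3, [6, 7, 8], 8)] = true)
    have h3 := card_ker_mul (indPerm _ _ h0)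
    have h4 : Nat.card E = _ := Subgroup.card_map_of_injective (Subgroup.subtype_injective _)
    have h5 : fixS ((g : P24) • G.toF 8536111) ≤ E := fun x hx => by
      refine ⟨⟨x, smul_eq_of_fix (mem_fixS.1 hx)⟩, mem_ker_indPerm.2 fun T hT => ?_, rfl⟩
      obtain ⟨i, hi, rfl⟩ := (mem_iff g T).1 hT
      have := chE.le (Mem.fam 3 (Mathieu.nth l i)) (of_allLt (f := fun i =>
        allCh (tFam 3 (Mathieu.nth l i)) (LO.drop 6) id24) (by decide +kernel) hi) ((cjFix g _).mem' hx)
      exact ((cjSt (g := g) rfl).symm _).2 (by simpa using this)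
    rw [card_stabilizer_octad ho, ← h4] at h3
    have h6 := Subgroup.eq_of_le_of_card_ge h5 (by
      rw [card_fix_octad ho]
      exact Nat.le_of_mul_le_mul_right ((Nat.mul_le_mul_left _ h2).trans h3.le) (by norm_num))
    rw [← mem_fixS (g := ⟨k, hk⟩), h6]
    exact ⟨fun h => ⟨⟨⟨k, hk⟩, hk'⟩, mem_ker_indPerm.2 fun T hT => h T (mem_tr.1 hT).1 (mem_tr.1 hT).2, rfl⟩,
      by
        rintro ⟨x, h, e⟩ T a b
        obtain rfl : ((x : M24) : P24) = k := congrArg Subtype.val e
        exact mem_ker_indPerm.1 h T (mem_tr.2 ⟨a, b⟩)⟩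

end Cfsg.Agent.S5615
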