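import Cfsg.Statements.S5618
import Cfsg.Agent.Lib.Mathieu.Struct

set_option autoImplicit false
open scoped Pointwise
open Cfsg

namespace Cfsg.Agent.S5618

open Cfsg.Lib Cfsg.Lib.Golay Cfsg.Lib.Calc Cfsg.Lib.Grp Cfsg.Lib.Mathieu MulAction

set_option maxRecDepth 100000
set_option maxHeartbeats 400000

theorem five {d s : Finset GolayPt} (hd : d ∈ dodecads) (h1 : s ⊆ d) (h2 : s.card = 6) {g : M24}
    (hg : (g : P24) • d = d) (h : ∀ p ∈ s, (g : P24) p = p) : g = 1 := by
  obtain ⟨t, a, b⟩ := Finset.exists_subset_card_eq (s := s) (n := 5) (by omega)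
  exact eq_one_of_fix_five hd hg t.nodup_toList (by simpa using b) (fun x hx => h1 (a (by simpa using hx)))
    fun x hx => h x (a (by simpa using hx))

theorem ncard_hex {d : Finset GolayPt} (hd : d ∈ dodecads) : (hexOn d).ncard ≤ 132 := by
  rw [← (cls_dod_oct hd).ncard (v := 6) (n := 132) (by simp)]
  refine le_trans (Set.ncard_le_ncard (t := (fun o => o ∩ d) '' _) ?_ (Set.toFinite _))
    (Set.ncard_image_le (Set.toFinite _))
  rintro _ ⟨h, o, ho, rfl⟩
  exact ⟨o, ⟨ho, by rw [Finset.inter_comm]; exact h⟩, rfl⟩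

/-- For a dodecad d of the length-24 code and a hexad C on it (a 6-point intersection of d with an octad): the joint stabiliser of d and C in the code's group is isomorphic to the symmetric group of degree 6, and it acts faithfully both on the six points of C and on the six points of d outside C. -/
theorem result (d : Finset Cfsg.GolayPt) (hd : d ∈ Cfsg.dodecads) (C : Finset Cfsg.GolayPt) (hC : C ∈ Cfsg.hexadsOn d) : Nonempty (↥(MulAction.stabilizer Cfsg.M24 d ⊓ MulAction.stabilizer Cfsg.M24 C) ≃* Equiv.Perm (Fin 6)) ∧ (∀ g ∈ MulAction.stabilizer Cfsg.M24 d ⊓ MulAction.stabilizer Cfsg.M24 C, (∀ p ∈ C, ((g : ↥Cfsg.M24) : Equiv.Perm Cfsg.GolayPt) p = p) → g = 1) ∧ ∀ g ∈ MulAction.stabilizer Cfsg.M24 d ⊓ MulAction.stabilizer Cfsg.M24 C, (∀ p ∈ d \ C, ((g : ↥Cfsg.M24) : Equiv.Perm Cfsg.GolayPt) p = p) → g = 1 := by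
  have h1 := (steinerOn_hexads hd).1 C hC
  have h2 : ∀ g ∈ stabilizer M24 d ⊓ stabilizer M24 C, (∀ p ∈ C, (g : P24) p = p) → g = 1 :=
    fun g hg => five hd h1.1 h1.2 hg.1
  refine ⟨?_, h2, fun g hg => five hd Finset.sdiff_subset (by rw [Finset.card_sdiff_of_subset h1.1, hd.2, h1.2]) hg.1⟩
  let f := indPerm (stabilizer M24 d ⊓ stabilizer M24 C) C fun g hg => smul_mem_of_stab C g hg.2
  have h3 : Function.Injective f := (injective_iff_map_eq_one f).2 fun g hg =>
    Subtype.ext (h2 g g.2 (mem_ker_indPerm.1 hg))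
  have h4 := Lib.Mathieu.card_eq_ncard_orbit_mul (stabilizer M24 d) C
  have h5 : (orbit (stabilizer M24 d) C).ncard ≤ 132 := le_trans (Set.ncard_le_ncard (by
    rintro _ ⟨g, rfl⟩
    have := smul_mem_hexOn (g : M24).2 hC
    rwa [show ((g : M24) : P24) • d = d from g.2] at this) (Set.toFinite _)) (ncard_hex hd)
  rw [card_stabilizer_dodecad hd] at h4
  refine ⟨(MulEquiv.ofBijective f (h3.bijective_of_nat_card_le ?_)).trans
    (Finset.equivFinOfCardEq h1.2).permCongrHom⟩
  rw [Nat.card_perm, Nat.card_eq_fintype_card (α := C), Fintype.card_coe, h1.2]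
  by_contra h
  have := Nat.mul_le_mul h5 (Nat.le_of_lt_succ (not_le.1 h : _ < 719 + 1))
  omega

end Cfsg.Agent.S5618
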