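import Cfsg.Statements.S5620
import Cfsg.Agent.Lib.Mathieu.Classes

set_option autoImplicit false
open scoped Pointwise
open Cfsg

namespace Cfsg.Agent.S5620

open Cfsg.Lib.Golay Cfsg.Lib.Mathieu Finset MulAction

theorem cj {g : P24} (hg : g ∈ M24) : Cj g Spor.M11 (M24 ⊓ stabilizer P24 (g • Spor.squareDodecad) ⊓
    stabilizer P24 (g (some 0))) := ((Cj.self hg).inf (Cj.stab rfl)).inf (Cj.stab rfl)

/-- Inside the stabiliser of the dodecad of squares (a Mathieu group of degree 12), the stabiliser of the residue 0 (a point of the dodecad) and the stabiliser of the extra point (a point outside the dodecad) are isomorphic but not conjugate; conjugation by a suitable element of the code's group that maps the dodecad of squares onto its complement carries the first onto the second. -/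
theorem result : Nonempty (↥(Cfsg.Spor.M12 ⊓ MulAction.stabilizer (Equiv.Perm Cfsg.GolayPt) (none : Cfsg.GolayPt)) ≃* ↥Cfsg.Spor.M11) ∧ (¬ ∃ k ∈ Cfsg.Spor.M12, MulAut.conj k • Cfsg.Spor.M11 = Cfsg.Spor.M12 ⊓ MulAction.stabilizer (Equiv.Perm Cfsg.GolayPt) (none : Cfsg.GolayPt)) ∧ ∃ g ∈ Cfsg.M24, g • Cfsg.Spor.squareDodecad = Finset.univ \ Cfsg.Spor.squareDodecad ∧ MulAut.conj g • Cfsg.Spor.M11 = Cfsg.Spor.M12 ⊓ MulAction.stabilizer (Equiv.Perm Cfsg.GolayPt) (none : Cfsg.GolayPt) := by
  have h := mk_rep (c := 379788658655319285383317394787904183) (by decide +kernel)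
  have h1 : ((mk 379788658655319285383317394787904183 : M24) : P24) • Spor.squareDodecad = Spor.squareDodecadᶜ := by
    rw [squareDodecad_eq, Rp.smul_toF h, ← G.toF_compl]
    exact congrArg G.toF (by decide +kernel)
  have h2 : ((mk 379788658655319285383317394787904183 : M24) : P24) (some 0) = none :=
    (Rp.apply h (i := 0) (by decide)).trans (congrArg G.pt (by decide +kernel : _ = 23))
  have c := cj (mk 379788658655319285383317394787904183).2
  rw [h1, h2, show stabilizer P24 Spor.squareDodecadᶜ = stabilizer P24 Spor.squareDodecad from Subgroup.ext fun g => by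
    rw [mem_stabilizer_iff, smul_compl, compl_inj_iff, mem_stabilizer_iff]] at c
  refine ⟨⟨c.equiv.symm⟩, fun ⟨k, a, b⟩ => ?_, _, (Lib.Mathieu.mk _).2, h1.trans (compl_eq_univ_sdiff _), c.eq_smul.symm⟩
  have hk : k⁻¹ none ∈ G.toF 16436384 := by
    rw [← sdiff_toF (a := 16777215) (b := 340831) (by decide +kernel), toF_full, mem_sdiff, ← squareDodecad_eq,
      apply_mem_iff (inv_mem a).2]
    exact ⟨mem_univ _, squareDodecad_eq ▸ pt_notMem (i := 23) (by decide)⟩
  obtain ⟨p, p1, p2⟩ := exists_mem_ne (s := G.toF 16436384) (by rw [card_toF (by decide)]; decide +kernel) (k⁻¹ none)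
  obtain ⟨g, g1, g2⟩ := exists_map_mask_list ch11c.w (m := 16436384) (fun _ h => smul_toF_compl h.1 (by decide +kernel))
    (l := [k⁻¹ none]) (l' := [p]) (by decide +kernel : covOK 5 _ 1 _ = true) (by simp) (by simp) rfl
    (List.forall_mem_singleton.2 hk) (List.forall_mem_singleton.2 p1)
  have := ((Cj.of_eq_smul b).mem ((mem_M11 g).1 g1)).2
  exact p2 ((List.cons.inj g2).1.symm.trans (Equiv.Perm.eq_inv_iff_eq.2 this))

end Cfsg.Agent.S5620
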