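import Cfsg.Statements.S5624
import Cfsg.Agent.Lib.Golay.Abstract

set_option autoImplicit false
open Cfsg

namespace Cfsg.Agent.S5624

/-- Let C be a self-dual binary code of length 24 with minimum weight at least 8 (a 12-dimensional subspace of the 24-dimensional space over the field with two elements, any two of whose words have dot product zero, with no non-zero word of weight below 8 — an abstract extended binary Golay code). Then C is spanned, as a vector space over the field with two elements, by its words of weight 8. -/
theorem result (C : Submodule (ZMod 2) (Fin 24 → ZMod 2)) (hdim : Module.finrank (ZMod 2) C = 12) (horth : ∀ v ∈ C, ∀ w ∈ C, ∑ i, v i * w i = 0) (hmin : ∀ w ∈ C, w ≠ 0 → 8 ≤ hammingNorm w) : Submodule.span (ZMod 2) {w : Fin 24 → ZMod 2 | w ∈ C ∧ hammingNorm w = 8} = C := by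
  have hC := Lib.Golay.isGolaySys_supports (by simp) C hdim hmin
  apply le_antisymm (Submodule.span_le.2 fun w hw => hw.1)
  intro w hw
  rw [← Lib.Golay.word_support₂ w]
  refine hC.induction (P := fun s => Lib.Golay.word s ∈ Submodule.span (ZMod 2)
    {w : Fin 24 → ZMod 2 | w ∈ C ∧ hammingNorm w = 8}) ?_ ?_ _
    (Lib.Golay.support₂_mem_supports.2 hw)
  · rw [Lib.Golay.word_empty]; exact Submodule.zero_mem _
  · intro s _ o ho h8 h
    rw [Lib.Golay.word_symmDiff]
    refine Submodule.add_mem _ (Submodule.subset_span ⟨Lib.Golay.mem_supports.1 ho, ?_⟩) h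
    rw [Lib.Golay.hammingNorm_word, h8]

end Cfsg.Agent.S5624
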