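import Cfsg.Statements.S5627
import Cfsg.Agent.Lib.Mathieu.Quartet
import Cfsg.Agent.Lib.Golay.Unique21

set_option autoImplicit false
open Cfsg

namespace Cfsg.Agent.S5627

open Cfsg.Lib.Golay Cfsg.Lib.Mathieu Finset

/-- `k` points, no three on a line -/
def Arc {α : Type*} [DecidableEq α] (L : Set (Finset α)) (k : ℕ) (S : Finset α) : Prop :=
  S.card = k ∧ ∀ l ∈ L, (l ∩ S).card ≤ 2

theorem arc_image {α β : Type*} [DecidableEq α] [DecidableEq β] (e : α ≃ β) {L : Set (Finset α)} {k : ℕ}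
    {S : Finset α} : Arc (imageSys e L) k (S.image e) ↔ Arc L k S := by
  unfold Arc
  rw [card_image_of_injective _ e.injective]
  refine and_congr_right fun _ => ⟨fun h l hl => ?_, fun h l hl => ?_⟩
  · have := h _ (image_mem_imageSys.2 hl)
    rwa [← image_inter _ _ e.injective, card_image_of_injective _ e.injective] at this
  · have := h _ (mem_imageSys.1 hl)
    rwa [← image_image_symm e l, ← image_inter _ _ e.injective, card_image_of_injective _ e.injective]

/-- the hyperovals of the standard plane -/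
def hyp : List ℕ := [1319, 1594, 4536, 4773, 6018, 10787, 11289, 12036, 14470, 16601, 17348, 20833, 21574, 27840, 35041, 39492, 41666, 46400, 51256, 52738, 55680, 57606, 58401, 67881, 68148, 68622, 71825, 73751, 74506, 75056, 78984, 88136, 98760, 102512, 114961, 115212, 133540, 134275, 137244, 137985, 139418, 140960, 143650, 144389, 150112, 155715, 164165, 164440, 164962, 180865, 184356, 196749, 197520, 201256, 201746, 213076, 262896, 263370, 266325, 267080, 278836, 279081, 279571, 282764, 288778, 297228, 297489, 303154, 304648, 329924, 340034, 346880, 353284, 360485, 361730, 365184, 395337, 402512, 411792, 426152, 430352, 459104, 479233, 524487, 525792, 528994, 529496, 538689, 540702, 541443, 542244, 545921, 551200, 559142, 560385, 565528, 565765, 569504, 598224, 609296, 614409, 623122, 623656, 658500, 664384, 677890, 680068, 688514, 693760, 720970, 786730, 787469, 788240, 790674, 796692, 854019, 860704, 929800, 984192, 1048974, 1049235, 1049769, 1052726,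 1053969, 1054220, 1058992, 1063176, 1065546, 1066096, 1084488, 1089617, 1106056, 1117568, 1120770, 1122948, 1126433, 1139008, 1146950, 1168384, 1181738, 1183248, 1188116, 1188361, 1228818, 1245443, 1246244, 1310819, 1312068, 1321536, 1328768, 1331458, 1345666, 1355780, 1466400, 1475585, 1573193, 1573460, 1589648, 1593384, 1611792, 1640544, 1671297, 1736716, 1786368, 1835172, 1839617, 1968384]

/-- the lines of the standard plane -/
def lines : List ℕ := 2386 :: sysL21

/-- no line meets the mask in three points -/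
noncomputable def arcB (m : ℕ) : Bool := allL lines fun l => Nat.ble (pc (Nat.land l m)) 2

theorem lines_lt : ∀ l ∈ lines, l < 2 ^ 21 := by decide +kernel

theorem arcB_iff (m : ℕ) : arcB m = true ↔ ∀ l ∈ sysOf (ixFin 20) lines, (l ∩ (ixFin 20).toF m).card ≤ 2 := by
  unfold arcB
  rw [allL_iff]
  constructor
  · rintro h _ ⟨l, hl, rfl⟩
    rw [(ixFin 20).card_inter_pc (by decide) (lines_lt l hl)]
    exact Nat.le_of_ble_eq_true (h l hl)
  · intro h l hl
    have := h _ ⟨l, hl, rfl⟩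
    rw [(ixFin 20).card_inter_pc (by decide) (lines_lt l hl)] at this
    exact Nat.ble_eq_true_of_le this

theorem hyp_inc : incL (2 ^ (ixFin 20).n) hyp 797 = true := by decide +kernel

theorem hyp_arc : allL (797 :: hyp) (fun h => Nat.beq (pc h) 6 && arcB h) = true := by decide +kernel

theorem chk4 : allSubs 2097151 (fun m => !arcB m || anyL (797 :: hyp) fun h => Nat.beq (Nat.land m h) m &&
    allB 21 fun i => bit h i || anyL lines fun l => bit l i && Nat.beq (pc (Nat.land l m)) 2) (ixFin 20).n 4 0 = true := by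
  decide +kernel

theorem arc_of_mem {h : ℕ} (hh : h ∈ 797 :: hyp) : Arc (sysOf (ixFin 20) lines) 6 ((ixFin 20).toF h) := by
  have := allL_iff.1 hyp_arc h hh
  rw [Bool.and_eq_true] at this
  exact ⟨((ixFin 20).card_toF_pc (by decide) ((incL_spec hyp_inc).2 h hh)).trans (Nat.eq_of_beq_eq_true this.1),
    (arcB_iff h).1 this.2⟩

theorem key0 {S : Finset (Fin 21)} (hS : Arc (sysOf (ixFin 20) lines) 4 S) :
    ∃ H ∈ sysOf (ixFin 20) (797 :: hyp), S ⊆ H ∧
      ∀ p ∉ H, ∃ l ∈ sysOf (ixFin 20) lines, p ∈ l ∧ (l ∩ S).card = 2 := by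
  obtain ⟨m, -, rfl, h⟩ := forall_subs (ixFin 20) chk4 (s := S)
    (by rw [show 2097151 = 2 ^ (ixFin 20).n - 1 from rfl, Ix.toF_full]; exact subset_univ _) hS.1
  rw [(arcB_iff m).2 hS.2, Bool.not_true, Bool.false_or, anyL_iff] at h
  obtain ⟨h, hh, e⟩ := h
  rw [Bool.and_eq_true, allB_iff] at e
  refine ⟨_, ⟨h, hh, rfl⟩, (ixFin 20).subset_of_land (Nat.eq_of_beq_eq_true e.1), fun p hp => ?_⟩
  have := e.2 _ ((ixFin 20).idx_lt p)
  rw [Ix.mem_toF] at hp
  rw [Bool.or_eq_true, bit_eq, anyL_iff] at this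
  obtain ⟨l, hl, e'⟩ := this.resolve_left hp
  rw [Bool.and_eq_true, bit_eq] at e'
  exact ⟨_, ⟨l, hl, rfl⟩, (ixFin 20).mem_toF.2 e'.1,
    ((ixFin 20).card_inter_pc (by decide) (lines_lt l hl) m).trans (Nat.eq_of_beq_eq_true e'.2)⟩

theorem eq_of_secant {α : Type*} [DecidableEq α] {L : Set (Finset α)} {S H K : Finset α} (hH : H.card = 6)
    (h1 : S ⊆ H) (h2 : ∀ p ∉ H, ∃ l ∈ L, p ∈ l ∧ (l ∩ S).card = 2) (hK : Arc L 6 K) (h3 : S ⊆ K) : K = H := by
  refine eq_of_subset_of_card_le (fun p hp => ?_) (by rw [hH, hK.1])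
  by_contra hn
  obtain ⟨l, hl, hpl, h4⟩ := h2 p hn
  have h5 : insert p (l ∩ S) ⊆ l ∩ K := insert_subset (mem_inter.2 ⟨hpl, hp⟩) (inter_subset_inter_left h3)
  have h6 := (card_le_card h5).trans (hK.2 l hl)
  rw [card_insert_of_notMem (fun h => hn (h1 (mem_inter.1 h).2)), h4] at h6
  omega

theorem Arc.sub {α : Type*} [DecidableEq α] {L : Set (Finset α)} {S H : Finset α} {k j : ℕ} (h : Arc L k H)
    (h1 : S ⊆ H) (h2 : S.card = j) : Arc L j S :=
  ⟨h2, fun l hl => (card_le_card (inter_subset_inter_left h1)).trans (h.2 l hl)⟩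

theorem hyp_eq : {H | Arc (sysOf (ixFin 20) lines) 6 H} = sysOf (ixFin 20) (797 :: hyp) := by
  refine Set.ext fun K => ⟨fun hK => ?_, fun ⟨h, hh, e⟩ => e ▸ arc_of_mem hh⟩
  obtain ⟨S, h1, h2⟩ := exists_subset_card_eq (s := K) (n := 4) (by rw [hK.1]; decide)
  obtain ⟨H, hH, h3, h4⟩ := key0 (Arc.sub hK h1 h2)
  obtain ⟨h, hh, rfl⟩ := hH
  rw [eq_of_secant (arc_of_mem hh).1 h3 h4 hK h1]
  exact ⟨h, hh, rfl⟩

variable {α : Type*} [Fintype α] [DecidableEq α] {L : Set (Finset α)}

theorem key (hα : Fintype.card α = 21) (hL : Cfsg.IsSteinerSystem 2 5 L) {S : Finset α} (hS : Arc L 4 S) :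
    ∃ H, Arc L 6 H ∧ S ⊆ H ∧ ∀ p ∉ H, ∃ l ∈ L, p ∈ l ∧ (l ∩ S).card = 2 := by
  obtain ⟨e, he⟩ := setSystemIso_iff.1 (iso21 hα hL)
  have he' : imageSys e L = sysOf (ixFin 20) lines := he
  obtain ⟨H, hH, h1, h2⟩ := key0 (he' ▸ (arc_image e).2 hS)
  rw [← hyp_eq, ← he', Set.mem_setOf_eq, ← image_image_symm e H, arc_image] at hH
  refine ⟨_, hH, fun p hp => mem_image.2 ⟨e p, h1 (mem_image_of_mem _ hp), e.symm_apply_apply p⟩, fun p hp => ?_⟩
  obtain ⟨l, hl, h3, h4⟩ := h2 (e p) fun h => hp (mem_image.2 ⟨e p, h, e.symm_apply_apply p⟩)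
  rw [← he', mem_imageSys] at hl
  refine ⟨_, hl, mem_image.2 ⟨e p, h3, e.symm_apply_apply p⟩, ?_⟩
  rwa [← image_image_symm e l, ← image_inter _ _ e.injective, card_image_of_injective _ e.injective] at h4

theorem ncard6 (hα : Fintype.card α = 21) (hL : Cfsg.IsSteinerSystem 2 5 L) : {H | Arc L 6 H}.ncard = 168 := by
  obtain ⟨e, he⟩ := setSystemIso_iff.1 (iso21 hα hL)
  have he' : imageSys e L = sysOf (ixFin 20) lines := he
  have h : {H | Arc (sysOf (ixFin 20) lines) 6 H}.ncard = 168 := by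
    rw [hyp_eq, ncard_sysOf hyp_inc]
    rfl
  rw [← h, ← he']
  refine Set.ncard_congr (fun H _ => H.image e) (fun H hH => (arc_image e).2 hH)
    (fun H K _ _ h => image_injective e.injective h) fun H hH => ⟨H.image e.symm, ?_, image_image_symm e H⟩
  rwa [Set.mem_setOf_eq, ← arc_image e, image_image_symm]

theorem uniq (hα : Fintype.card α = 21) (hL : Cfsg.IsSteinerSystem 2 5 L) {S : Finset α} (hS : Arc L 4 S) :
    ∃! H, Arc L 6 H ∧ S ⊆ H := by
  obtain ⟨H, h1, h2, h3⟩ := key hα hL hS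
  exact ⟨H, ⟨h1, h2⟩, fun K hK => eq_of_secant h1.1 h2 h3 hK.1 hK.2⟩

/-- In a projective plane of order 4 (a Steiner system S(2, 5, 21)), call a set of points independent when no line meets it in more than two points. There are exactly 2520 independent 4-sets and exactly 168 independent 6-sets (hyperovals), and every independent 4-set lies in exactly one hyperoval. -/
theorem result {α : Type*} [Fintype α] [DecidableEq α] (hα : Fintype.card α = 21) (L : Set (Finset α)) (hL : Cfsg.IsSteinerSystem 2 5 L) : {S : Finset α | (S.card = 4 ∧ ∀ l ∈ L, (l ∩ S).card ≤ 2)}.ncard = 2520 ∧ {H : Finset α | (H.card = 6 ∧ ∀ l ∈ L, (l ∩ H).card ≤ 2)}.ncard = 168 ∧ ∀ S : Finset α, (S.card = 4 ∧ ∀ l ∈ L, (l ∩ S).card ≤ 2) → ∃! H : Finset α, (H.card = 6 ∧ ∀ l ∈ L, (l ∩ H).card ≤ 2) ∧ S ⊆ H := by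
  refine ⟨?_, ncard6 hα hL, fun S hS => uniq hα hL hS⟩
  have := ncard_mul_eq {S | Arc L 4 S} {H | Arc L 6 H} (fun S H => S ⊆ H) (m := 1) (n := 15)
    (fun S hS => by
      obtain ⟨H, h1, h2⟩ := uniq hα hL hS
      exact Set.ncard_eq_one.2 ⟨H, Set.ext fun K => ⟨h2 K, fun e => e ▸ h1⟩⟩)
    (fun H hH => by
      have : {S | S ∈ {S | Arc L 4 S} ∧ S ⊆ H} = (powersetCard 4 H : Set (Finset α)) :=
        Set.ext fun S => ⟨fun h => mem_powersetCard.2 ⟨h.2, h.1.1⟩, fun h =>
          ⟨Arc.sub hH (mem_powersetCard.1 h).1 (mem_powersetCard.1 h).2, (mem_powersetCard.1 h).1⟩⟩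
      rw [this, Set.ncard_coe_finset, card_powersetCard, hH.1]
      rfl)
  rw [ncard6 hα hL, mul_one] at this
  exact this

end Cfsg.Agent.S5627
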