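import Cfsg.Statements.S5628
import Cfsg.Agent.Lib.Mathieu.Aut2
import Cfsg.Agent.S5627

set_option autoImplicit false
open Cfsg

namespace Cfsg.Agent.S5628

open Cfsg.Lib.Golay Cfsg.Lib.Mathieu Cfsg.Agent.S5627 Finset MulAction
open scoped Pointwise

variable {α : Type*} [Fintype α] [DecidableEq α] {L : Set (Finset α)}

theorem line_eq (hL : Cfsg.IsSteinerSystem 2 5 L) {l m s : Finset α} (hl : l ∈ L) (hm : m ∈ L) (hs : s.card = 2)
    (h1 : s ⊆ l) (h2 : s ⊆ m) : l = m :=
  (hL.2 s hs).unique ⟨hl, h1⟩ ⟨hm, h2⟩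

theorem secant (hα : Fintype.card α = 21) (hL : Cfsg.IsSteinerSystem 2 5 L) {H S : Finset α} (hH : Arc L 6 H)
    (h1 : S ⊆ H) (h2 : S.card = 4) {p : α} (hp : p ∉ H) : ∃ l ∈ L, p ∈ l ∧ (l ∩ S).card = 2 := by
  obtain ⟨K, k1, k2, k3⟩ := key hα hL (hH.sub h1 h2)
  exact k3 p (eq_of_secant k1.1 k2 k3 hH h1 ▸ hp)

theorem fix (hα : Fintype.card α = 21) (hL : Cfsg.IsSteinerSystem 2 5 L) {H : Finset α} (hH : Arc L 6 H)
    {g : Equiv.Perm α} (hg : g ∈ Cfsg.setSystemAut L) (h : ∀ p ∈ H, g p = p) : g = 1 := by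
  have hl : ∀ l ∈ L, ∀ S ⊆ H, (l ∩ S).card = 2 → l.image g = l := fun l hl S hS h2 =>
    line_eq hL (image_mem_of_mem_aut hg hl) hl h2
      (fun x hx => mem_image.2 ⟨x, (mem_inter.1 hx).1, h x (hS (mem_inter.1 hx).2)⟩) inter_subset_left
  refine Equiv.ext fun p => ?_
  by_cases hp : p ∈ H
  · exact h p hp
  obtain ⟨S, s1, s2⟩ := exists_subset_card_eq (s := H) (n := 4) (by rw [hH.1]; decide)
  obtain ⟨l, l1, l2, l3⟩ := secant hα hL hH s1 s2 hp
  have s3 : l ∩ S ⊆ H := inter_subset_right.trans s1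
  obtain ⟨m, m1, m2, m3⟩ := secant hα hL hH (sdiff_subset (t := l ∩ S)) (by rw [card_sdiff_of_subset s3, hH.1, l3]) hp
  have hne : l ≠ m := by
    rintro rfl
    have h4 : (l ∩ S) ∪ (l ∩ (H \ (l ∩ S))) ⊆ l ∩ H :=
      union_subset (inter_subset_inter_left s1) (inter_subset_inter_left sdiff_subset)
    have h5 := (card_le_card h4).trans (hH.2 l l1)
    rw [card_union_of_disjoint (disjoint_sdiff.mono_right inter_subset_right), l3, m3] at h5
    omega
  have h6 : g p ∈ l ∩ m := mem_inter.2 ⟨hl l l1 S s1 l3 ▸ mem_image_of_mem _ l2,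
    hl m m1 _ sdiff_subset m3 ▸ mem_image_of_mem _ m2⟩
  exact card_le_one.1 (inter21 hα hL l1 m1 hne).le _ h6 _ (mem_inter.2 ⟨l2, m2⟩)

theorem card_aut (hα : Fintype.card α = 21) (hL : Cfsg.IsSteinerSystem 2 5 L) :
    Nat.card (Cfsg.setSystemAut L) = 120960 :=
  (autEq21 hα hL).card.trans (card_stabilizer_triad (card_toF_eq (by decide +kernel)))

theorem le_card_stab (hα : Fintype.card α = 21) (hL : Cfsg.IsSteinerSystem 2 5 L) {H : Finset α} (hH : Arc L 6 H) :
    720 ≤ Nat.card ↥(Cfsg.setSystemAut L ⊓ stabilizer (Equiv.Perm α) H) := by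
  have h1 := card_eq_ncard_orbit_mul (Cfsg.setSystemAut L) H
  have h2 : (orbit (Cfsg.setSystemAut L) H).ncard ≤ 168 := by
    rw [← ncard6 hα hL]
    refine Set.ncard_le_ncard ?_
    rintro _ ⟨g, rfl⟩
    have := (arc_image (g : Equiv.Perm α)).2 hH
    rwa [mem_setSystemAut.1 g.2] at this
  rw [card_aut hα hL] at h1
  have := Nat.mul_le_mul_right (Nat.card ↥(Cfsg.setSystemAut L ⊓ stabilizer (Equiv.Perm α) H)) h2
  omega

/-- In a projective plane of order 4 (a Steiner system S(2, 5, 21)), every permutation of the six points of a hyperoval (a 6-set met by no line in more than two points) is the restriction of exactly one automorphism of the plane. In particular the stabiliser of a hyperoval in the automorphism group is isomorphic to the symmetric group of degree 6 acting faithfully on the hyperoval. -/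
theorem result {α : Type*} [Fintype α] [DecidableEq α] (hα : Fintype.card α = 21) (L : Set (Finset α)) (hL : Cfsg.IsSteinerSystem 2 5 L) (H : Finset α) (hH : (H.card = 6 ∧ ∀ l ∈ L, (l ∩ H).card ≤ 2)) (σ : Equiv.Perm ↥H) : ∃! g : Equiv.Perm α, g ∈ Cfsg.setSystemAut L ∧ ∀ p : ↥H, g p = σ p := by
  have hH' : Arc L 6 H := hH
  have u : ∀ g k : Equiv.Perm α, g ∈ Cfsg.setSystemAut L → k ∈ Cfsg.setSystemAut L → (∀ p ∈ H, g p = k p) → g = k :=
    fun g k hg hk h => by
      have := fix hα hL hH' ((Cfsg.setSystemAut L).mul_mem ((Cfsg.setSystemAut L).inv_mem hk) hg) fun p hp => by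
        rw [Equiv.Perm.mul_apply, h p hp]
        exact k.symm_apply_apply p
      exact (inv_mul_eq_one.1 this).symm
  have m : ∀ g : ↥(Cfsg.setSystemAut L ⊓ stabilizer (Equiv.Perm α) H), ∀ x, (g : Equiv.Perm α) x ∈ H ↔ x ∈ H :=
    fun g x => by
      have e : (g : Equiv.Perm α) • H = H := g.2.2
      have k := smul_mem_smul_finset_iff (s := H) (b := x) (g : Equiv.Perm α)
      rwa [e] at k
  let r : ↥(Cfsg.setSystemAut L ⊓ stabilizer (Equiv.Perm α) H) → Equiv.Perm H :=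
    fun g => (g : Equiv.Perm α).subtypePerm (m g)
  have ri : Function.Injective r := fun g k e => Subtype.ext (u _ _ g.2.1 k.2.1 fun p hp =>
    congrArg Subtype.val (Equiv.congr_fun e ⟨p, hp⟩))
  have rb : Function.Bijective r := ri.bijective_of_nat_card_le (by
    rw [Nat.card_perm, Nat.card_eq_fintype_card, Fintype.card_coe, hH.1]
    exact le_card_stab hα hL hH')
  obtain ⟨g, hg⟩ := rb.2 σ
  refine ⟨g, ⟨g.2.1, fun p => congrArg Subtype.val (Equiv.congr_fun hg p)⟩, fun k hk => u _ _ hk.1 g.2.1 fun p hp => ?_⟩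
  exact (hk.2 ⟨p, hp⟩).trans (congrArg Subtype.val (Equiv.congr_fun hg ⟨p, hp⟩)).symm

end Cfsg.Agent.S5628
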