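import Cfsg.Statements.S5632
import Cfsg.Agent.Lib.Asch.NotMax2

set_option autoImplicit false
open Cfsg

namespace Cfsg.Agent.S5632



/-- For a finite field F and subspaces 0 < W < U of F^n with dim W + dim U = n, the elements of SL_n(F) stabilising both W and U form a subgroup that is not maximal in SL_n(F): some subgroup lies strictly between it and SL_n(F). -/
theorem result {F : Type*} [Field F] [Fintype F] (n : ℕ) (W U : Submodule F (Fin n → F)) (hW0 : W ≠ ⊥) (hWU : W < U) (hdim : Module.finrank F W + Module.finrank F U = n) : ∃ K : Subgroup (Matrix.GeneralLinearGroup (Fin n) F), Cfsg.Geo.subspaceStabilizer W ⊓ Cfsg.Geo.subspaceStabilizer U ⊓ Cfsg.Geo.specialLinear (Fin n) F < K ∧ K < Cfsg.Geo.specialLinear (Fin n) F := by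
  have h1 := Submodule.one_le_finrank_iff.2 hW0
  have h2 : U ≠ ⊤ := fun h => by rw [h, finrank_top, Module.finrank_fin_fun] at hdim; omega
  obtain ⟨u, hu, h3⟩ := SetLike.exists_of_lt hWU
  obtain ⟨v, -, hv⟩ := SetLike.exists_of_lt (lt_top_iff_ne_top.2 h2)
  refine Cfsg.Lib.Asch.between_sub hW0 (hWU.trans_le le_top).ne hu hv fun h => ?_
  obtain ⟨w, hw, z, hz, rfl⟩ := Submodule.mem_sup.1 h
  obtain ⟨c, rfl⟩ := Submodule.mem_span_singleton.1 hz
  by_cases hc : c = 0
  · exact h3 (by simpa [hc])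
  · exact hv ((U.smul_mem_iff hc).1 ((U.add_mem_iff_right (hWU.le hw)).1 hu))

end Cfsg.Agent.S5632
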