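import Cfsg.Statements.S5633
import Cfsg.Agent.Lib.Asch.NotMax2

set_option autoImplicit false
open Cfsg

namespace Cfsg.Agent.S5633



/-- For a finite field F and complementary non-zero subspaces W ⊕ U = F^n with dim W < dim U, the elements of SL_n(F) stabilising both W and U form a subgroup that is not maximal in SL_n(F): some subgroup lies strictly between it and SL_n(F). -/
theorem result {F : Type*} [Field F] [Fintype F] (n : ℕ) (W U : Submodule F (Fin n → F)) (hW0 : W ≠ ⊥) (hWU : W ⊓ U = ⊥) (hWU' : W ⊔ U = ⊤) (hdim : Module.finrank F W < Module.finrank F U) : ∃ K : Subgroup (Matrix.GeneralLinearGroup (Fin n) F), Cfsg.Geo.subspaceStabilizer W ⊓ Cfsg.Geo.subspaceStabilizer U ⊓ Cfsg.Geo.specialLinear (Fin n) F < K ∧ K < Cfsg.Geo.specialLinear (Fin n) F := by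
  obtain ⟨v, hv, h1⟩ := (Submodule.ne_bot_iff W).1 hW0
  obtain ⟨u, hu, h2⟩ := Cfsg.Lib.Asch.exists_ne_zero_of_pos (W := U) (by omega)
  have h3 : u ∉ W := fun h => h2 (hWU.le ⟨h, hu⟩)
  exact Cfsg.Lib.Asch.between_sub hW0 (fun h => h3 (h.ge trivial)) hu (fun h => h1 (hWU.le ⟨hv, h⟩))
    (by rwa [sup_eq_left.2 ((Submodule.span_singleton_le_iff_mem v W).2 hv)])

end Cfsg.Agent.S5633
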