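import Cfsg.Statements.S5636
import Cfsg.Agent.Lib.CK.SL

set_option autoImplicit false
open Cfsg

namespace Cfsg.Agent.S5636

/-- For a finite field F and n ≥ 13, let K be a subfield of the algebra of n × n matrices over F containing the scalars, of prime degree r over F (a commutative subalgebra of dimension r in which every non-zero element is invertible). Then the elements of SL_n(F) normalising K form a maximal subgroup of SL_n(F). -/
theorem result {F : Type*} [Field F] [Fintype F] (n : ℕ) (hn : 13 ≤ n) (r : ℕ) (hr : r.Prime) (K : Subalgebra F (Matrix (Fin n) (Fin n) F)) (hK : Cfsg.Geo.IsFieldSubalgebra r K) : Cfsg.Geo.IsMaximalIn (Cfsg.Geo.specialLinear (Fin n) F) (Cfsg.Geo.subalgebraNormalizer K ⊓ Cfsg.Geo.specialLinear (Fin n) F) := by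
  exact Cfsg.Lib.CKS.maximal_field hr (by simp; omega) hK

end Cfsg.Agent.S5636
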