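import Cfsg.Statements.S5675
import Cfsg.Agent.Lib.OMax.SubStd

set_option autoImplicit false
open Cfsg

namespace Cfsg.Agent.S5675

/-- Let F be a finite field of odd order q, m ≥ 6, Q the standard quadratic form on F^(2m+1) and Ω the commutator subgroup of its isometry group. Let W be a non-zero subspace of even dimension on which the polar form of Q is non-degenerate; exclude the case q = 3, dim W = 2 with Q vanishing on some line of W (a plus-type plane). Then the elements of Ω stabilising W (equivalently, stabilising its orthogonal complement, of odd dimension) form a maximal subgroup of Ω. -/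
theorem result {F : Type*} [Field F] [Fintype F] (hodd : Odd (Fintype.card F)) (m : ℕ) (hm : 6 ≤ m) (W : Submodule F (Unit ⊕ (Fin m ⊕ Fin m) → F)) (hW0 : W ≠ ⊥) (hev : Even (Module.finrank F W)) (hW : Cfsg.Geo.IsNondegenerateOn (QuadraticMap.polar (Cfsg.quadFormOdd m F)) W) (hex : ¬ (Fintype.card F = 3 ∧ Module.finrank F W = 2 ∧ Cfsg.Geo.IsPlusTypeOn (Cfsg.quadFormOdd m F) W)) : Cfsg.Geo.IsMaximalIn (Cfsg.Geo.omegaGL (Cfsg.quadFormOdd m F)) (Cfsg.Geo.subspaceStabilizer W ⊓ Cfsg.Geo.omegaGL (Cfsg.quadFormOdd m F)) := by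
  have h2 := Lib.Orth.two_ne_zero_of_odd_card hodd
  have h := Lib.Orth.nd_qOdd (F := F) h2 m
  have h3 := Lib.Orth.finrank_add_finrank_perp h W
  obtain ⟨k, hk⟩ := hev
  simp only [Module.finrank_fintype_fun_eq_card, Fintype.card_sum, Fintype.card_fin,
    Fintype.card_unique] at h3
  refine Lib.OMax.isMaximalIn_nd h (by simp; omega) hW0 ?_ hW (fun h4 => hex ⟨?_, h4.2⟩)
    (fun h4 => by omega) (fun h4 => by simp at h4; omega)
  · rintro rfl
    simp at hk; omega
  · have := Fintype.one_lt_card (α := F)
    have h5 := h4.1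
    rw [Nat.card_eq_fintype_card] at h5
    obtain ⟨j, hj⟩ := hodd
    omega

end Cfsg.Agent.S5675
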