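import Cfsg.Statements.S5682
import Cfsg.Agent.Lib.Asch.NotMax2

set_option autoImplicit false
open Cfsg

namespace Cfsg.Agent.S5682



/-- Let F be the field with 3 elements, m ≥ 6, Q the standard quadratic form on F^(2m+1) and Ω the commutator subgroup of its isometry group. Suppose the polar form of Q is similar, through P and e, to the tensor product of non-degenerate symmetric bilinear forms f₁ on F^3 and f₂ on F^(n₂) with 3 < n₂. Then the elements of Ω in the stabiliser of this tensor decomposition form a subgroup that is not maximal: some subgroup lies strictly between it and Ω. -/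
theorem result {F : Type*} [Field F] [Fintype F] (hq : Fintype.card F = 3) (m : ℕ) (hm : 6 ≤ m) (n₂ : ℕ) (h2 : 3 < n₂) (e : (Unit ⊕ (Fin m ⊕ Fin m)) ≃ Fin 3 × Fin n₂) (P : Matrix.GeneralLinearGroup (Unit ⊕ (Fin m ⊕ Fin m)) F) (f₁ : (Fin 3 → F) → (Fin 3 → F) → F) (f₂ : (Fin n₂ → F) → (Fin n₂ → F) → F) (hf₁ : Cfsg.Geo.IsSymmetricForm f₁) (hf₂ : Cfsg.Geo.IsSymmetricForm f₂) (hT : Cfsg.Geo.IsTensorFormStructure id (QuadraticMap.polar (Cfsg.quadFormOdd m F)) f₁ f₂ e P) : ∃ K : Subgroup (Matrix.GeneralLinearGroup (Unit ⊕ (Fin m ⊕ Fin m)) F), Cfsg.Geo.tensorProductSubgroup 3 n₂ e P ⊓ Cfsg.Geo.omegaGL (Cfsg.quadFormOdd m F) < K ∧ K < Cfsg.Geo.omegaGL (Cfsg.quadFormOdd m F) := by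
  open Cfsg.Lib.Asch in
  have h3 : (2 : F) ≠ 0 := Cfsg.Lib.Orth.odd_card_iff.1 (hq ▸ by decide)
  have hN := Cfsg.Lib.Orth.nd_qOdd h3 m
  have hc := Tens.card e
  simp only [Fintype.card_sum, Fintype.card_fin, Fintype.card_unique] at hc
  exact between_tens_three hq (sform_of_nd hN) ((omegaGL_le _).trans (qFor_polar (Cfsg.Lib.Orth.qOdd m F)).iso_le)
    (sieg_omega hN (by simp; omega) h3) ⟨by omega, by omega, sform_of_symmetric hf₁, sform_of_symmetric hf₂, hT,
      (nrm_tensorProductSubgroup e P).mono inf_le_left⟩ (by omega) ((sform_of_symmetric hf₂).exists_iso_symm h3)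

end Cfsg.Agent.S5682
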