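import Cfsg.Statements.S5704
import Cfsg.Agent.Lib.TMax.StdO

set_option autoImplicit false
open Cfsg

namespace Cfsg.Agent.S5704

/-- Let F be a finite field with q elements, n ≥ 13 even, Q a non-degenerate quadratic form on F^n of plus type (some subspace of dimension n/2 is totally singular), and Ω the commutator subgroup of the isometry group of Q, viewed inside GL_n(F). Suppose that, through a change of basis P and a bijection of index sets e, the polar form of Q is similar to the tensor product of non-degenerate symplectic forms f₁ on F^(n₁) and f₂ on F^(n₂) with n₁ < n₂, and Q vanishes on the images of all pure tensors. Unless q = 2 and n₁ = 2, the elements of Ω in the stabiliser of this tensor decomposition form a maximal subgroup of Ω. -/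
theorem result {F : Type*} [Field F] [Fintype F] {n : ℕ} (hn : 13 ≤ n) (heven : Even n) (Q : (Fin n → F) → F) (hQ : Cfsg.Geo.IsNondegenerateQuadraticForm Q) (hplus : Cfsg.Geo.IsPlusTypeOn Q ⊤) (n₁ n₂ : ℕ) (h12 : n₁ < n₂) (hex : ¬ (Fintype.card F = 2 ∧ n₁ = 2)) (e : (Fin n) ≃ Fin n₁ × Fin n₂) (P : Matrix.GeneralLinearGroup (Fin n) F) (f₁ : (Fin n₁ → F) → (Fin n₁ → F) → F) (f₂ : (Fin n₂ → F) → (Fin n₂ → F) → F) (hf₁ : Cfsg.Geo.IsSymplecticForm f₁) (hf₂ : Cfsg.Geo.IsSymplecticForm f₂) (hT : Cfsg.Geo.IsTensorFormStructure id (QuadraticMap.polar Q) f₁ f₂ e P) (hpure : (∀ (x₁ : Fin n₁ → F) (x₂ : Fin n₂ → F), Q (Matrix.mulVec (P : Matrix (Fin n) (Fin n) F) ((fun a : Fin n₁ × Fin n₂ => x₁ a.1 * x₂ a.2) ∘ e)) = 0)) : Cfsg.Geo.IsMaximalIn (Cfsg.Geo.omegaGL Q) (Cfsg.Geo.tensorProductSubgroup n₁ n₂ e P ⊓ Cfsg.Geo.omegaGL Q) := by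
  obtain ⟨Q, rfl, hQ'⟩ := Lib.OMax.exists_form hQ
  have h1 := Fintype.card_congr e
  simp only [Fintype.card_prod, Fintype.card_fin] at h1
  have h2 := (Lib.Asch.sform_of_symplectic hf₁).even_card hf₁.alternating
  have h3 := (Lib.Asch.sform_of_symplectic hf₂).even_card hf₂.alternating
  rw [Fintype.card_fin] at h2 h3
  obtain ⟨a, rfl⟩ := h2
  obtain ⟨b, rfl⟩ := h3
  have h4 : a ≠ 0 := by rintro rfl; omega
  have h5 : 3 ≤ b := by
    by_contra h5
    have : a = 1 ∧ b = 2 := by omega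
    obtain ⟨rfl, rfl⟩ := this
    omega
  exact Lib.TMax.isMaximalIn_sp hQ' (by omega) (by omega) h12 (by omega) hf₁ hf₂ hT hpure

end Cfsg.Agent.S5704
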