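import Cfsg.Statements.S5781
import Cfsg.Agent.Lib.Asch.Small

set_option autoImplicit false
open Cfsg

namespace Cfsg.Agent.S5781



/-- Every maximal subgroup of SL_4(q) is of one of the listed geometric types or lies in the residual class. Let F be a finite field with q elements and H a maximal subgroup of SL_4(F) (inside GL_4(F)). Then H is the intersection with SL_4(F) of one of: the stabiliser of a proper non-zero subspace; for q ≥ 7, the stabiliser of a decomposition into four independent lines; for q ≥ 4, the stabiliser of a decomposition into two independent planes; the normaliser of a degree-2 subfield of the matrix algebra; a subfield group for a subfield F₀ with |F| = |F₀|^r, r prime; for q = p ≡ 1 mod 4 prime, the normaliser of an absolutely irreducible 2-subgroup R of exponent 4 with centre of order 4, all of whose characteristic abelian subgroups are cyclic, of order 2^(2+2m) for some m (here |R| = 64), with 4 dividing p − 1; for q odd, the similarity group of a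 non-degenerate quadratic form; the similarity group of a non-degenerate symplectic form; the similarity group of a non-degenerate unitary form — or else H lies in the residual class of the linear case. -/
theorem result {F : Type*} [Field F] [Fintype F] (H : Subgroup (Matrix.GeneralLinearGroup (Fin 4) F)) (hH : Cfsg.Geo.IsMaximalIn (Cfsg.Geo.specialLinear (Fin 4) F) H) :
    (∃ W : Submodule F (Fin 4 → F), W ≠ ⊥ ∧ W ≠ ⊤ ∧ H = Cfsg.Geo.subspaceStabilizer W ⊓ Cfsg.Geo.specialLinear (Fin 4) F) ∨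
    (7 ≤ Fintype.card F ∧ ∃ D : Fin 4 → Submodule F (Fin 4 → F), Cfsg.Geo.IsMDecomposition 1 D ∧ H = Cfsg.Geo.decompositionStabilizer D ⊓ Cfsg.Geo.specialLinear (Fin 4) F) ∨
    (4 ≤ Fintype.card F ∧ ∃ D : Fin 2 → Submodule F (Fin 4 → F), Cfsg.Geo.IsMDecomposition 2 D ∧ H = Cfsg.Geo.decompositionStabilizer D ⊓ Cfsg.Geo.specialLinear (Fin 4) F) ∨
    (∃ K : Subalgebra F (Matrix (Fin 4) (Fin 4) F), Cfsg.Geo.IsFieldSubalgebra 2 K ∧ H = Cfsg.Geo.subalgebraNormalizer K ⊓ Cfsg.Geo.specialLinear (Fin 4) F) ∨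
    (∃ (F₀ : Subfield F) (r : ℕ) (P : Matrix.GeneralLinearGroup (Fin 4) F), r.Prime ∧ Fintype.card F = Nat.card F₀ ^ r ∧ H = Cfsg.Geo.subfieldSubgroup F₀ P ⊓ Cfsg.Geo.specialLinear (Fin 4) F) ∨
    (∃ (p : ℕ) (R : Subgroup (Matrix.GeneralLinearGroup (Fin 4) F)), p.Prime ∧ Fintype.card F = p ∧ p % 4 = 1 ∧ Cfsg.Geo.IsLinearSymplecticTypeData 2 R ∧ H = Cfsg.Geo.subgroupNormalizer R ⊓ Cfsg.Geo.specialLinear (Fin 4) F) ∨
    (Odd (Fintype.card F) ∧ ∃ Q : (Fin 4 → F) → F, Cfsg.Geo.IsNondegenerateQuadraticForm Q ∧ H = Cfsg.Geo.quadSimilarityGroup Q ⊓ Cfsg.Geo.specialLinear (Fin 4) F) ∨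
    (∃ f : (Fin 4 → F) → (Fin 4 → F) → F, Cfsg.Geo.IsSymplecticForm f ∧ H = Cfsg.Geo.similarityGroup f ⊓ Cfsg.Geo.specialLinear (Fin 4) F) ∨
    (∃ (σ : F ≃+* F) (f : (Fin 4 → F) → (Fin 4 → F) → F), Cfsg.Geo.IsUnitaryForm σ f ∧ H = Cfsg.Geo.similarityGroup f ⊓ Cfsg.Geo.specialLinear (Fin 4) F) ∨
    Cfsg.Geo.InLinearResidualClass H := by
  open Cfsg.Lib.Asch in
  cases lMax (by simp) hH with
  | red W h1 h2 h3 => exact .inl ⟨W, h1, h2, h3⟩
  | dec t m D _ h1 h2 h3 h4 h5 h6 hD h =>
    rw [Fintype.card_fin] at h2 h3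
    obtain ⟨rfl, rfl⟩ | ⟨rfl, rfl⟩ : t = 2 ∧ m = 2 ∨ t = 4 ∧ m = 1 := by interval_cases t <;> omega
    · repeat (first | exact .inl ⟨by omega, D, hD, h⟩ | right)
    refine .inr (.inl ⟨?_, D, hD, h⟩)
    have h7 : Fintype.card F ≠ 5 := fun h7 => not_max_sl_dec h7 hH hD (h.le.trans inf_le_left)
    have h8 : Fintype.card F ≠ 6 := fun h8 => absurd (h8 ▸ FiniteField.isPrimePow_card F) (by decide +kernel)
    omega
  | fld r K _ h1 h2 hK h =>
    rw [Fintype.card_fin] at h2
    obtain rfl : r = 2 := by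
      have := Nat.le_of_dvd (by decide) h2
      interval_cases r <;> simp_all (config := {decide := true})
    all_goals repeat (first | exact .inl ⟨K, hK, h⟩ | right)
  | tens k l e P h1 h2 h3 h4 h =>
    rw [Fintype.card_fin] at h3
    have : k < 4 := by nlinarith
    interval_cases k <;> omega
  | pow k t e P h1 h2 h3 h =>
    simpa using (pow_cases h1 h2 h3 (by simp)).2.2
  | res h => repeat (first | exact h | right)
  | base h =>
    cases h with
    | sub F₀ r P h1 h2 h => repeat (first | exact .inl ⟨F₀, r, P, h1, h2, h⟩ | right)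
    | quad Q h1 h2 h => repeat (first | exact .inl ⟨h1, Q, h2, h⟩ | right)
    | sp f h1 h2 h => repeat (first | exact .inl ⟨f, h2, h⟩ | right)
    | uni σ f h1 h => repeat (first | exact .inl ⟨σ, f, h1, h⟩ | right)
    | extra r R p e k h1 _ h2 hp hc h3 h4 h5 h =>
      obtain rfl := eq_of_prime_pow h1 h2 2 (by decide) (by simp)
      obtain ⟨-, rfl, h6⟩ := h4.resolve_right fun h => absurd h.1 (by decide)
      repeat (first | exact .inl ⟨p, R, hp, h3.trans (pow_one p), h6, h5, h⟩ | right)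

end Cfsg.Agent.S5781
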