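import Cfsg.Statements.S5783
import Cfsg.Agent.Lib.Unitary.Four2
import Cfsg.Agent.Lib.Unitary.LowD

set_option autoImplicit false
open Cfsg

namespace Cfsg.Agent.S5783

open Cfsg.Lib.Unitary

/-- Maximal subgroups of SU_4(q) of geometric type (any prime power q). Let F be the field with q² elements, f the standard unitary form Σ u_i v_i^q on F^4 and SU_4(q) its determinant-one isometry group inside GL_4(F). Each of the following, intersected with SU_4(q), is a maximal subgroup of SU_4(q): (1) the stabiliser of any non-zero subspace on which f vanishes identically (totally isotropic 1-spaces and 2-spaces); (2) the stabiliser of any non-degenerate 1-space; (3) for q ≠ 3, the stabiliser of any decomposition of F^4 into four mutually orthogonal non-degenerate 1-spaces; (4) for q ≥ 3, the stabiliser of any decomposition into two mutually orthogonal non-degenerate 2-spaces; (5) for q ≥ 4, the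 stabiliser of any decomposition into two totally isotropic 2-spaces; (6) every subfield group for a subfield F₀ of odd prime index in F whose F₀-structure carries f; (7) every subfield group for the subfield F₀ of index 2 whose F₀-structure carries ζ f for a non-zero ζ with ζ + ζ^q = 0, vanishing on pairs (u, u) (the symplectic type); (8) for q odd with q ≥ 5, every subfield group for the subfield F₀ of index 2 whose F₀-structure carries f (the orthogonal types, either sign); (9) for q = p prime with p ≡ 3 mod 4, the normaliser of any absolutely irreducible 2-group R of symplectic type and exponent 4 with |R| = 64 and centre of order 4, consisting of isometries of f. -/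
theorem result {F : Type*} [Field F] [Fintype F] (q : ℕ) (hF : Fintype.card F = q ^ 2) :
    (∀ W : Submodule F (Fin 4 → F), W ≠ ⊥ → Cfsg.Geo.IsTotallySingularFor (Cfsg.hermForm 4 F q) W → Cfsg.Geo.IsMaximalIn (Cfsg.GU 4 F q ⊓ Cfsg.Geo.specialLinear (Fin 4) F) (Cfsg.Geo.subspaceStabilizer W ⊓ (Cfsg.GU 4 F q ⊓ Cfsg.Geo.specialLinear (Fin 4) F))) ∧
    (∀ W : Submodule F (Fin 4 → F), W ≠ ⊥ → Cfsg.Geo.IsNondegenerateOn (Cfsg.hermForm 4 F q) W → 2 * Module.finrank F W < 4 → Cfsg.Geo.IsMaximalIn (Cfsg.GU 4 F q ⊓ Cfsg.Geo.specialLinear (Fin 4) F) (Cfsg.Geo.subspaceStabilizer W ⊓ (Cfsg.GU 4 F q ⊓ Cfsg.Geo.specialLinear (Fin 4) F))) ∧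
    (q ≠ 3 → ∀ D : Fin 4 → Submodule F (Fin 4 → F), Cfsg.Geo.IsNondegenerateMDecomposition (Cfsg.hermForm 4 F q) 1 D → Cfsg.Geo.IsMaximalIn (Cfsg.GU 4 F q ⊓ Cfsg.Geo.specialLinear (Fin 4) F) (Cfsg.Geo.decompositionStabilizer D ⊓ (Cfsg.GU 4 F q ⊓ Cfsg.Geo.specialLinear (Fin 4) F))) ∧
    (3 ≤ q → ∀ D : Fin 2 → Submodule F (Fin 4 → F), Cfsg.Geo.IsNondegenerateMDecomposition (Cfsg.hermForm 4 F q) 2 D → Cfsg.Geo.IsMaximalIn (Cfsg.GU 4 F q ⊓ Cfsg.Geo.specialLinear (Fin 4) F) (Cfsg.Geo.decompositionStabilizer D ⊓ (Cfsg.GU 4 F q ⊓ Cfsg.Geo.specialLinear (Fin 4) F))) ∧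
    (4 ≤ q → ∀ D : Fin 2 → Submodule F (Fin 4 → F), Cfsg.Geo.IsMDecomposition 2 D → (∀ i, Cfsg.Geo.IsTotallySingularFor (Cfsg.hermForm 4 F q) (D i)) → Cfsg.Geo.IsMaximalIn (Cfsg.GU 4 F q ⊓ Cfsg.Geo.specialLinear (Fin 4) F) (Cfsg.Geo.decompositionStabilizer D ⊓ (Cfsg.GU 4 F q ⊓ Cfsg.Geo.specialLinear (Fin 4) F))) ∧
    (∀ (F₀ : Subfield F) (r : ℕ) (P : Matrix.GeneralLinearGroup (Fin 4) F), r.Prime → Odd r → Fintype.card F = Nat.card F₀ ^ r → Cfsg.Geo.IsFormRationalStructure (Cfsg.hermForm 4 F q) F₀ 1 P → Cfsg.Geo.IsMaximalIn (Cfsg.GU 4 F q ⊓ Cfsg.Geo.specialLinear (Fin 4) F) (Cfsg.Geo.subfieldSubgroup F₀ P ⊓ (Cfsg.GU 4 F q ⊓ Cfsg.Geo.specialLinear (Fin 4) F))) ∧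
    (∀ (F₀ : Subfield F) (P : Matrix.GeneralLinearGroup (Fin 4) F) (ζ : F), Fintype.card F = Nat.card F₀ ^ 2 → ζ ≠ 0 → ζ + ζ ^ q = 0 → Cfsg.Geo.IsFormRationalStructure (Cfsg.hermForm 4 F q) F₀ ζ P → (∀ u : Fin 4 → F, (∀ i, u i ∈ F₀) → (Cfsg.hermForm 4 F q) (Matrix.mulVec (P : Matrix (Fin 4) (Fin 4) F) u) (Matrix.mulVec (P : Matrix (Fin 4) (Fin 4) F) u) = 0) → Cfsg.Geo.IsMaximalIn (Cfsg.GU 4 F q ⊓ Cfsg.Geo.specialLinear (Fin 4) F) (Cfsg.Geo.subfieldSubgroup F₀ P ⊓ (Cfsg.GU 4 F q ⊓ Cfsg.Geo.specialLinear (Fin 4) F))) ∧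
    (Odd q → 5 ≤ q → ∀ (F₀ : Subfield F) (P : Matrix.GeneralLinearGroup (Fin 4) F), Fintype.card F = Nat.card F₀ ^ 2 → Cfsg.Geo.IsFormRationalStructure (Cfsg.hermForm 4 F q) F₀ 1 P → Cfsg.Geo.IsMaximalIn (Cfsg.GU 4 F q ⊓ Cfsg.Geo.specialLinear (Fin 4) F) (Cfsg.Geo.subfieldSubgroup F₀ P ⊓ (Cfsg.GU 4 F q ⊓ Cfsg.Geo.specialLinear (Fin 4) F))) ∧
    (∀ (p : ℕ) (R : Subgroup (Matrix.GeneralLinearGroup (Fin 4) F)), p.Prime → q = p → p % 4 = 3 → Cfsg.Geo.IsSymplecticTypeGroup 2 R → Cfsg.Geo.ActsAbsolutelyIrreducibly (Cfsg.Geo.matrixSet R) → R ≤ Cfsg.GU 4 F q → Nat.card R = 64 → Nat.card (Subgroup.center R) = 4 → Cfsg.Geo.IsMaximalIn (Cfsg.GU 4 F q ⊓ Cfsg.Geo.specialLinear (Fin 4) F) (Cfsg.Geo.subgroupNormalizer R ⊓ (Cfsg.GU 4 F q ⊓ Cfsg.Geo.specialLinear (Fin 4) F))) := by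
  obtain ⟨σ, hσ⟩ := exists_isBar hF
  have key : ∀ F₀ : Subfield F, Fintype.card F = Nat.card F₀ ^ 2 → ∃ τ : F ≃+* F, orderOf τ = 2 ∧
      (∀ a, τ a = a ↔ a ∈ F₀) ∧ ∀ a, τ a = σ a := fun F₀ hcard => by
    obtain ⟨τ, h1, h2, h3⟩ := exists_aut_fixing F₀ (r := 2) (by rwa [Nat.card_eq_fintype_card])
    have h4 : Nat.card F₀ = q := Nat.pow_left_injective two_ne_zero (hcard.symm.trans hF)
    exact ⟨τ, h1, h2, fun a => by rw [h3, h4, hσ.eq]⟩
  refine ⟨fun W h0 hW => hσ.isMaximalIn_singular le_rfl h0 hW,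
    fun W h0 hW hd => hσ.isMaximalIn_nondeg le_rfl h0 hW hd,
    fun hq D hD => hσ.isMaximalIn_frame_four hq hD,
    fun hq D hD => hσ.isMaximalIn_planes_four hq hD,
    fun hq D hD hts => hσ.isMaximalIn_pair_four hq hD hts,
    fun F₀ r P hr hodd hcard hP => ?_, fun F₀ P ζ hcard hζ0 hζ hP halt => ?_,
    fun hodd hq F₀ P hcard hP => ?_, fun p R hp hq h4 hs hi hR hc hZ => ?_⟩
  · obtain ⟨τ, h1, h2, -⟩ := exists_aut_fixing F₀ (r := r) (by rwa [Nat.card_eq_fintype_card])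
    exact hσ.isMaximalIn_subfield_odd' le_rfl h2 (h1 ▸ hr) (h1 ▸ hodd) hP
  · obtain ⟨τ, h1, h2, h3⟩ := key F₀ hcard
    exact hσ.isMaximalIn_subfield_symp' le_rfl h2 h1 h3 hζ0 (by rwa [hσ.eq]) hP halt
  · obtain ⟨τ, h1, h2, h3⟩ := key F₀ hcard
    exact hσ.isMaximalIn_subfield_orth' le_rfl h2 h1 h3 hodd (.inl ⟨rfl, by omega⟩) hP
  · subst hq
    exact hσ.isMaximalIn_c6_four hp (Nat.odd_iff.2 (by omega)) hs hi hR hc hZ

end Cfsg.Agent.S5783
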