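import Cfsg.Statements.S5784
import Cfsg.Agent.Lib.Asch.Tau
import Cfsg.Agent.Lib.Asch.SpFour

set_option autoImplicit false
open Cfsg

namespace Cfsg.Agent.S5784



/-- Every maximal subgroup of SU_4(q) is of one of the listed geometric types or lies in the residual class. Let F be the field with q² elements, f the standard unitary form Σ u_i v_i^q on F^4, and H a maximal subgroup of SU_4(q) (inside GL_4(F)). Then H is the intersection with SU_4(q) of one of: the stabiliser of a non-zero subspace on which f vanishes; the stabiliser of a non-degenerate 1-space; for q ≠ 3, the stabiliser of a decomposition into four mutually orthogonal non-degenerate 1-spaces; for q ≥ 3, of a decomposition into two orthogonal non-degenerate 2-spaces; for q ≥ 4, of a decomposition into two totally isotropic 2-spaces; a subfield group of odd prime index whose F₀-structure carries f; a subfield group of index 2 whose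 F₀-structure carries ζ f, vanishing on pairs (u, u), for some non-zero ζ with ζ + ζ^q = 0; for q odd, a subfield group of index 2 whose F₀-structure carries f; for q = p ≡ 3 mod 4 prime, the normaliser of an absolutely irreducible symplectic-type 2-group of exponent 4, order 64 and centre of order 4 inside the similarity group of f — or else H lies in the residual class of the unitary case. -/
theorem result {F : Type*} [Field F] [Fintype F] (q : ℕ) (hF : Fintype.card F = q ^ 2) (H : Subgroup (Matrix.GeneralLinearGroup (Fin 4) F)) (hH : Cfsg.Geo.IsMaximalIn (Cfsg.GU 4 F q ⊓ Cfsg.Geo.specialLinear (Fin 4) F) H) :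
    (∃ W : Submodule F (Fin 4 → F), W ≠ ⊥ ∧ Cfsg.Geo.IsTotallySingularFor (Cfsg.hermForm 4 F q) W ∧ H = Cfsg.Geo.subspaceStabilizer W ⊓ (Cfsg.GU 4 F q ⊓ Cfsg.Geo.specialLinear (Fin 4) F)) ∨
    (∃ W : Submodule F (Fin 4 → F), W ≠ ⊥ ∧ Cfsg.Geo.IsNondegenerateOn (Cfsg.hermForm 4 F q) W ∧ 2 * Module.finrank F W < 4 ∧ H = Cfsg.Geo.subspaceStabilizer W ⊓ (Cfsg.GU 4 F q ⊓ Cfsg.Geo.specialLinear (Fin 4) F)) ∨
    (q ≠ 3 ∧ ∃ D : Fin 4 → Submodule F (Fin 4 → F), Cfsg.Geo.IsNondegenerateMDecomposition (Cfsg.hermForm 4 F q) 1 D ∧ H = Cfsg.Geo.decompositionStabilizer D ⊓ (Cfsg.GU 4 F q ⊓ Cfsg.Geo.specialLinear (Fin 4) F)) ∨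
    (3 ≤ q ∧ ∃ D : Fin 2 → Submodule F (Fin 4 → F), Cfsg.Geo.IsNondegenerateMDecomposition (Cfsg.hermForm 4 F q) 2 D ∧ H = Cfsg.Geo.decompositionStabilizer D ⊓ (Cfsg.GU 4 F q ⊓ Cfsg.Geo.specialLinear (Fin 4) F)) ∨
    (4 ≤ q ∧ ∃ D : Fin 2 → Submodule F (Fin 4 → F), Cfsg.Geo.IsMDecomposition 2 D ∧ (∀ i, Cfsg.Geo.IsTotallySingularFor (Cfsg.hermForm 4 F q) (D i)) ∧ H = Cfsg.Geo.decompositionStabilizer D ⊓ (Cfsg.GU 4 F q ⊓ Cfsg.Geo.specialLinear (Fin 4) F)) ∨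
    (∃ (F₀ : Subfield F) (r : ℕ) (P : Matrix.GeneralLinearGroup (Fin 4) F), r.Prime ∧ Odd r ∧ Fintype.card F = Nat.card F₀ ^ r ∧ Cfsg.Geo.IsFormRationalStructure (Cfsg.hermForm 4 F q) F₀ 1 P ∧ H = Cfsg.Geo.subfieldSubgroup F₀ P ⊓ (Cfsg.GU 4 F q ⊓ Cfsg.Geo.specialLinear (Fin 4) F)) ∨
    (∃ (F₀ : Subfield F) (P : Matrix.GeneralLinearGroup (Fin 4) F) (ζ : F), Fintype.card F = Nat.card F₀ ^ 2 ∧ ζ ≠ 0 ∧ ζ + ζ ^ q = 0 ∧ Cfsg.Geo.IsFormRationalStructure (Cfsg.hermForm 4 F q) F₀ ζ P ∧ (∀ u : Fin 4 → F, (∀ i, u i ∈ F₀) → (Cfsg.hermForm 4 F q) (Matrix.mulVec (P : Matrix (Fin 4) (Fin 4) F) u) (Matrix.mulVec (P : Matrix (Fin 4) (Fin 4) F) u) = 0) ∧ H = Cfsg.Geo.subfieldSubgroup F₀ P ⊓ (Cfsg.GU 4 F q ⊓ Cfsg.Geo.specialLinear (Fin 4) F)) ∨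
    (Odd q ∧ ∃ (F₀ : Subfield F) (P : Matrix.GeneralLinearGroup (Fin 4) F), Fintype.card F = Nat.card F₀ ^ 2 ∧ Cfsg.Geo.IsFormRationalStructure (Cfsg.hermForm 4 F q) F₀ 1 P ∧ H = Cfsg.Geo.subfieldSubgroup F₀ P ⊓ (Cfsg.GU 4 F q ⊓ Cfsg.Geo.specialLinear (Fin 4) F)) ∨
    (∃ (p : ℕ) (R : Subgroup (Matrix.GeneralLinearGroup (Fin 4) F)), p.Prime ∧ q = p ∧ p % 4 = 3 ∧ Cfsg.Geo.IsSymplecticTypeGroup 2 R ∧ Cfsg.Geo.ActsAbsolutelyIrreducibly (Cfsg.Geo.matrixSet R) ∧ R ≤ Cfsg.Geo.similarityGroup (Cfsg.hermForm 4 F q) ∧ Nat.card R = 64 ∧ Nat.card (Subgroup.center R) = 4 ∧ H = Cfsg.Geo.subgroupNormalizer R ⊓ (Cfsg.GU 4 F q ⊓ Cfsg.Geo.specialLinear (Fin 4) F)) ∨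
    Cfsg.Geo.InUnitaryResidualClass H := by
  open Cfsg.Lib.Asch in
  obtain ⟨σ, hσ, h⟩ := suMax hF (by decide) (by omega) hH
  refine with_base (A := UBase q (Cfsg.hermForm 4 F q) (Cfsg.GU 4 F q ⊓ Cfsg.Geo.specialLinear (Fin 4) F) H)
    (fun h => ?_) fun hb => ?_
  · cases h with
    | sub F₀ r P h1 h2 h3 h4 h => repeat (first | exact .inl ⟨F₀, r, P, h1, h2, h3, h4, h⟩ | right)
    | subo F₀ P h1 h2 h3 h => repeat (first | exact .inl ⟨h1, F₀, P, h2, h3, h⟩ | right)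
    | subs F₀ P ζ h1 h2 h3 h4 h5 h6 h => repeat (first | exact .inl ⟨F₀, P, ζ, h2, h3, h4, h5, h6, h⟩ | right)
    | extra r R p d k h1 h2 hp hc h3 h4 h5 h6 h7 _ h8 h =>
      obtain rfl := eq_of_prime_pow h1 h2 2 (by decide) (by simp)
      obtain ⟨-, rfl, h9, hz⟩ := h4.resolve_right fun h => absurd h.1 (by decide)
      repeat (first | exact .inl ⟨p, R, hp, h3.trans (pow_one p), h9, h5, h6, h7.trans iso_le_sim, by simp [h8, hz], hz, h⟩ | right)
  cases h with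
  | ts W h1 h2 h3 => exact .inl ⟨W, h1, h2, h3⟩
  | nd W h1 h2 h3 h4 => exact .inr (.inl ⟨W, h1, h2, by simpa using h3, h4⟩)
  | dec t m D h1 h2 h3 h4 hD h =>
    rw [Fintype.card_fin] at h2 h3
    obtain ⟨rfl, rfl⟩ | ⟨rfl, rfl⟩ : t = 2 ∧ m = 2 ∨ t = 4 ∧ m = 1 := by interval_cases t <;> omega
    · exact .inr (.inr (.inr (.inl ⟨h4 rfl, D, hD, h⟩)))
    · exact .inr (.inr (.inl ⟨fun h5 => not_max_su_four_dec (h5 ▸ hF) (h5 ▸ hH) (h5 ▸ hD) (h.le.trans inf_le_left),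
        D, hD, h⟩))
  | pair m D hI h1 h2 h3 h =>
    rw [Fintype.card_fin] at h1
    obtain rfl : m = 2 := by omega
    by_cases hq : q ≤ 3
    · exact hb (uBase_of_pair hσ hq (amb_su hF (by decide) (by omega)) hH (sform_hermForm hσ 4) le_rfl hI h2 h3
        (h.le.trans inf_le_left))
    · exact .inr (.inr (.inr (.inr (.inl ⟨by omega, D, h2, h3, h⟩))))
  | fld r K _ h1 h0 h2 hK h3 h =>
    rw [Fintype.card_fin] at h2
    have := Nat.le_of_dvd (by decide) h2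
    interval_cases r <;> simp (config := {decide := true}) at h0 h1 h2
  | tens k l e P f₁ f₂ h1 h2 h3 h4 h5 h6 h7 h =>
    rw [Fintype.card_fin] at h3
    have : k < 4 := by nlinarith
    interval_cases k <;> omega
  | pow k t e P f₁ h1 h2 h3 h4 h5 h6 h =>
    simpa using (pow_cases h1 h2 h3 (by simp)).2.2
  | res h => repeat (first | exact h | right)
  | base h => exact hb h

end Cfsg.Agent.S5784
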