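import Cfsg.Statements.S5790
import Cfsg.Agent.Lib.Asch.SpMax

set_option autoImplicit false
open Cfsg

namespace Cfsg.Agent.S5790



/-- Every maximal subgroup of Sp_4(q), q ≥ 4 even, is of one of the listed geometric types or lies in the residual class. Let F be a finite field of even order q ≥ 4, f the standard alternating form on F^4 (coordinates Fin 2 ⊕ Fin 2), and H a maximal subgroup of Sp_4(F) (inside GL_4(F)). Then H is the intersection with Sp_4(F) of one of: the stabiliser of a non-zero totally isotropic subspace; the stabiliser of a decomposition into two orthogonal non-degenerate 2-spaces; the normaliser of a degree-2 subfield K of the matrix algebra, self-adjoint with f(k v, v) = 0; a subfield group whose F₀-structure carries a non-zero multiple of f, |F| = |F₀|^r with r prime; the similarity group of a non-degenerate quadratic form whose polar form is f — or else H lies in the residual class of the symplectic case. -/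
theorem result {F : Type*} [Field F] [Fintype F] (heven : ¬ Odd (Fintype.card F)) (h4 : 4 ≤ Fintype.card F) (H : Subgroup (Matrix.GeneralLinearGroup (Fin 2 ⊕ Fin 2) F)) (hH : Cfsg.Geo.IsMaximalIn (Cfsg.spGL 2 F) H) :
    (∃ W : Submodule F (Fin 2 ⊕ Fin 2 → F), W ≠ ⊥ ∧ Cfsg.Geo.IsTotallySingularFor (Cfsg.sympForm 2 F) W ∧ H = Cfsg.Geo.subspaceStabilizer W ⊓ Cfsg.spGL 2 F) ∨
    (∃ D : Fin 2 → Submodule F (Fin 2 ⊕ Fin 2 → F), Cfsg.Geo.IsNondegenerateMDecomposition (Cfsg.sympForm 2 F) 2 D ∧ H = Cfsg.Geo.decompositionStabilizer D ⊓ Cfsg.spGL 2 F) ∨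
    (∃ K : Subalgebra F (Matrix (Fin 2 ⊕ Fin 2) (Fin 2 ⊕ Fin 2) F), Cfsg.Geo.IsFieldSubalgebra 2 K ∧ Cfsg.Geo.IsSelfAdjointFor (Cfsg.sympForm 2 F) K ∧ (∀ k ∈ K, ∀ v : (Fin 2 ⊕ Fin 2 → F), (Cfsg.sympForm 2 F) (Matrix.mulVec k v) v = 0) ∧ H = Cfsg.Geo.subalgebraNormalizer K ⊓ Cfsg.spGL 2 F) ∨
    (∃ (F₀ : Subfield F) (r : ℕ) (P : Matrix.GeneralLinearGroup (Fin 2 ⊕ Fin 2) F) (ζ : F), r.Prime ∧ Fintype.card F = Nat.card F₀ ^ r ∧ ζ ≠ 0 ∧ Cfsg.Geo.IsFormRationalStructure (Cfsg.sympForm 2 F) F₀ ζ P ∧ H = Cfsg.Geo.subfieldSubgroup F₀ P ⊓ Cfsg.spGL 2 F) ∨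
    (∃ Q : (Fin 2 ⊕ Fin 2 → F) → F, Cfsg.Geo.IsNondegenerateQuadraticForm Q ∧ (∀ u v : (Fin 2 ⊕ Fin 2 → F), QuadraticMap.polar Q u v = (Cfsg.sympForm 2 F) u v) ∧ H = Cfsg.Geo.quadSimilarityGroup Q ⊓ Cfsg.spGL 2 F) ∨
    Cfsg.Geo.InSymplecticResidualClass H := by
  open Cfsg.Lib.Asch in
  have hc : Fintype.card (Fin 2 ⊕ Fin 2) = 4 := by simp
  cases spGLMax (by decide) (by omega) hH with
  | ts W h1 h2 h3 => exact .inl ⟨W, h1, h2, h3⟩
  | nd W k h1 h2 h3 h4 h => have := Submodule.one_le_finrank_iff.2 h1; omega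
  | dec t k D h1 h2 h3 h4 hD h =>
    rw [hc] at h2 h3
    obtain ⟨rfl, rfl⟩ : t = 2 ∧ k = 1 := by interval_cases t <;> omega
    all_goals repeat (first | exact .inl ⟨D, hD, h⟩ | exact .inl ⟨by omega, D, hD, h⟩ | right)
  | pair e m D h0 => exact absurd h0 heven
  | fld r K h1 h2 hK h3 h4 h =>
    rw [hc] at h2
    obtain rfl : r = 2 := by
      have : r ≤ 2 := by have := Nat.le_of_dvd (by decide) h2; omega
      interval_cases r <;> simp_all (config := {decide := true})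
    all_goals repeat (first | exact .inl ⟨K, hK, h3, h4, h⟩ | right)
  | ufld K h0 => exact absurd h0 heven
  | tens k l e P f₁ f₂ h0 => exact absurd h0 heven
  | pow k t e P f₁ h0 => exact absurd h0 heven
  | res h => repeat (first | exact h | right)
  | base h =>
    cases h with
    | sub F₀ r P ζ h1 h2 h3 h4 h => repeat (first | exact .inl ⟨F₀, r, P, ζ, h1, h2, h3, h4, h⟩ | right)
    | extra R k _ _ h0 => exact absurd h0 heven
    | quad Q h0 h1 h2 h => repeat (first | exact .inl ⟨Q, h1, h2, h⟩ | right)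

end Cfsg.Agent.S5790
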