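import Cfsg.Statements.S5799
import Cfsg.Agent.Lib.Asch.LinMax

set_option autoImplicit false
open Cfsg

namespace Cfsg.Agent.S5799



/-- Every maximal subgroup of SL_6(q) is of one of the listed geometric types or lies in the residual class. Let F be a finite field with q elements (p its characteristic) and H a maximal subgroup of SL_6(F) (inside GL_6(F)). Then H is the intersection with SL_6(F) of one of: the stabiliser of a proper non-zero subspace; for q ≥ 5, the stabiliser of a decomposition into 6 independent 1-spaces; for q ≥ 3, the stabiliser of a decomposition into 3 independent 2-spaces; the stabiliser of a decomposition into 2 independent 3-spaces; the normaliser of a degree-2 subfield of the matrix algebra; the normaliser of a degree-3 subfield of the matrix algebra; for q ≥ 3, the stabiliser of a tensor decomposition F^2 ⊗ F^3; a subfield group for a subfield F₀ with |F| = |F₀|^r, r prime; for q odd, the similarity group of a non-degenerate quadratic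 form; the similarity group of a non-degenerate symplectic form; the similarity group of a non-degenerate unitary form — or else H lies in the residual class of the linear case (modulo scalars H is almost simple, with absolutely irreducible perfect socle preimage realisable over no proper subfield and fixing no non-degenerate quadratic, symplectic or unitary form). -/
theorem result {F : Type*} [Field F] [Fintype F] (H : Subgroup (Matrix.GeneralLinearGroup (Fin 6) F)) (hH : Cfsg.Geo.IsMaximalIn (Cfsg.Geo.specialLinear (Fin 6) F) H) :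
    (∃ W : Submodule F (Fin 6 → F), W ≠ ⊥ ∧ W ≠ ⊤ ∧ H = Cfsg.Geo.subspaceStabilizer W ⊓ Cfsg.Geo.specialLinear (Fin 6) F) ∨
    (5 ≤ Fintype.card F ∧ ∃ D : Fin 6 → Submodule F (Fin 6 → F), Cfsg.Geo.IsMDecomposition 1 D ∧ H = Cfsg.Geo.decompositionStabilizer D ⊓ Cfsg.Geo.specialLinear (Fin 6) F) ∨
    (3 ≤ Fintype.card F ∧ ∃ D : Fin 3 → Submodule F (Fin 6 → F), Cfsg.Geo.IsMDecomposition 2 D ∧ H = Cfsg.Geo.decompositionStabilizer D ⊓ Cfsg.Geo.specialLinear (Fin 6) F) ∨
    (∃ D : Fin 2 → Submodule F (Fin 6 → F), Cfsg.Geo.IsMDecomposition 3 D ∧ H = Cfsg.Geo.decompositionStabilizer D ⊓ Cfsg.Geo.specialLinear (Fin 6) F) ∨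
    (∃ K : Subalgebra F (Matrix (Fin 6) (Fin 6) F), Cfsg.Geo.IsFieldSubalgebra 2 K ∧ H = Cfsg.Geo.subalgebraNormalizer K ⊓ Cfsg.Geo.specialLinear (Fin 6) F) ∨
    (∃ K : Subalgebra F (Matrix (Fin 6) (Fin 6) F), Cfsg.Geo.IsFieldSubalgebra 3 K ∧ H = Cfsg.Geo.subalgebraNormalizer K ⊓ Cfsg.Geo.specialLinear (Fin 6) F) ∨
    (3 ≤ Fintype.card F ∧ ∃ (e : Fin 6 ≃ Fin 2 × Fin 3) (P : Matrix.GeneralLinearGroup (Fin 6) F), H = Cfsg.Geo.tensorProductSubgroup 2 3 e P ⊓ Cfsg.Geo.specialLinear (Fin 6) F) ∨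
    (∃ (F₀ : Subfield F) (r : ℕ) (P : Matrix.GeneralLinearGroup (Fin 6) F), r.Prime ∧ Fintype.card F = Nat.card F₀ ^ r ∧ H = Cfsg.Geo.subfieldSubgroup F₀ P ⊓ Cfsg.Geo.specialLinear (Fin 6) F) ∨
    (Odd (Fintype.card F) ∧ ∃ Q : (Fin 6 → F) → F, Cfsg.Geo.IsNondegenerateQuadraticForm Q ∧ H = Cfsg.Geo.quadSimilarityGroup Q ⊓ Cfsg.Geo.specialLinear (Fin 6) F) ∨
    (∃ f : (Fin 6 → F) → (Fin 6 → F) → F, Cfsg.Geo.IsSymplecticForm f ∧ H = Cfsg.Geo.similarityGroup f ⊓ Cfsg.Geo.specialLinear (Fin 6) F) ∨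
    (∃ (σ : F ≃+* F) (f : (Fin 6 → F) → (Fin 6 → F) → F), Cfsg.Geo.IsUnitaryForm σ f ∧ H = Cfsg.Geo.similarityGroup f ⊓ Cfsg.Geo.specialLinear (Fin 6) F) ∨
    Cfsg.Geo.InLinearResidualClass H := by
  open Cfsg.Lib.Asch in
  cases lMax (by simp) hH with
  | red W h1 h2 h3 => exact .inl ⟨W, h1, h2, h3⟩
  | dec t m D _ h1 h2 h3 h4 h5 h6 hD h =>
    rw [Fintype.card_fin] at h2 h3
    obtain ⟨rfl, rfl⟩ | ⟨rfl, rfl⟩ | ⟨rfl, rfl⟩ : t = 2 ∧ m = 3 ∨ t = 3 ∧ m = 2 ∨ t = 6 ∧ m = 1 := by interval_cases t <;> omega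
    all_goals repeat (first | exact .inl ⟨D, hD, h⟩ | exact .inl ⟨by omega, D, hD, h⟩ | right)
  | fld r K _ h1 h2 hK h =>
    rw [Fintype.card_fin] at h2
    obtain rfl | rfl : r = 2 ∨ r = 3 := by
      have := Nat.le_of_dvd (by decide) h2
      interval_cases r <;> simp_all (config := {decide := true})
    all_goals repeat (first | exact .inl ⟨K, hK, h⟩ | right)
  | tens k l e P h1 h2 h3 h4 h =>
    rw [Fintype.card_fin] at h3
    have : k < 4 := by nlinarith
    obtain ⟨rfl, rfl⟩ : k = 2 ∧ l = 3 := by interval_cases k <;> omega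
    all_goals repeat (first | exact .inl ⟨e, P, h⟩ | exact .inl ⟨by omega, e, P, h⟩ | right)
  | pow k t e P h1 h2 h3 h =>
    simpa using (pow_cases h1 h2 h3 (by simp)).2.2
  | res h => repeat (first | exact h | right)
  | base h =>
    cases h with
    | sub F₀ r P h1 h2 h => repeat (first | exact .inl ⟨F₀, r, P, h1, h2, h⟩ | right)
    | quad Q h1 h2 h => repeat (first | exact .inl ⟨h1, Q, h2, h⟩ | right)
    | sp f h1 h2 h => repeat (first | exact .inl ⟨f, h2, h⟩ | right)
    | uni σ f h1 h => repeat (first | exact .inl ⟨σ, f, h1, h⟩ | right)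
    | extra r R p e k h1 _ h2 hp hc h3 h4 h5 h =>
      exact absurd ((eq_of_prime_pow h1 h2 2 (by decide) (by simp)).symm.trans (eq_of_prime_pow h1 h2 3 (by decide) (by simp))) (by decide)

end Cfsg.Agent.S5799
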