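import Cfsg.Statements.S5802
import Cfsg.Agent.Lib.Asch.TauSix
import Cfsg.Agent.Lib.Asch.SpFour

set_option autoImplicit false
open Cfsg

namespace Cfsg.Agent.S5802



/-- Every maximal subgroup of SU_6(q) is of one of the listed geometric types or lies in the residual class. Let F be the field with q² elements, f the standard unitary form Σ u_i v_i^q on F^6, and H a maximal subgroup of SU_6(q) (inside GL_6(F)). Then H is the intersection with SU_6(q) of one of: the stabiliser of a non-zero totally isotropic subspace; the stabiliser of a non-degenerate 1- or 2-space; for q ≥ 3, the stabiliser of a decomposition into six mutually orthogonal non-degenerate 1-spaces; for q ≥ 3, of a decomposition into three mutually orthogonal non-degenerate 2-spaces; of a decomposition into two orthogonal non-degenerate 3-spaces; of a decomposition into two totally isotropic 3-spaces; for q ≥ 3, the normaliser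 of an adjoint-closed degree-3 subfield of the matrix algebra; for q ≥ 3, the stabiliser of a tensor decomposition of f into unitary forms on F^2 and F^3; a subfield group of odd prime index whose F₀-structure carries f; a subfield group of index 2 and symplectic type; for q odd, a subfield group of index 2 and orthogonal type — or else H lies in the residual class of the unitary case. -/
theorem result {F : Type*} [Field F] [Fintype F] (q : ℕ) (hF : Fintype.card F = q ^ 2) (H : Subgroup (Matrix.GeneralLinearGroup (Fin 6) F)) (hH : Cfsg.Geo.IsMaximalIn (Cfsg.GU 6 F q ⊓ Cfsg.Geo.specialLinear (Fin 6) F) H) :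
    (∃ W : Submodule F (Fin 6 → F), W ≠ ⊥ ∧ Cfsg.Geo.IsTotallySingularFor (Cfsg.hermForm 6 F q) W ∧ H = Cfsg.Geo.subspaceStabilizer W ⊓ (Cfsg.GU 6 F q ⊓ Cfsg.Geo.specialLinear (Fin 6) F)) ∨
    (∃ W : Submodule F (Fin 6 → F), W ≠ ⊥ ∧ Cfsg.Geo.IsNondegenerateOn (Cfsg.hermForm 6 F q) W ∧ 2 * Module.finrank F W < 6 ∧ H = Cfsg.Geo.subspaceStabilizer W ⊓ (Cfsg.GU 6 F q ⊓ Cfsg.Geo.specialLinear (Fin 6) F)) ∨
    (3 ≤ q ∧ ∃ D : Fin 6 → Submodule F (Fin 6 → F), Cfsg.Geo.IsNondegenerateMDecomposition (Cfsg.hermForm 6 F q) 1 D ∧ H = Cfsg.Geo.decompositionStabilizer D ⊓ (Cfsg.GU 6 F q ⊓ Cfsg.Geo.specialLinear (Fin 6) F)) ∨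
    (3 ≤ q ∧ ∃ D : Fin 3 → Submodule F (Fin 6 → F), Cfsg.Geo.IsNondegenerateMDecomposition (Cfsg.hermForm 6 F q) 2 D ∧ H = Cfsg.Geo.decompositionStabilizer D ⊓ (Cfsg.GU 6 F q ⊓ Cfsg.Geo.specialLinear (Fin 6) F)) ∨
    (∃ D : Fin 2 → Submodule F (Fin 6 → F), Cfsg.Geo.IsNondegenerateMDecomposition (Cfsg.hermForm 6 F q) 3 D ∧ H = Cfsg.Geo.decompositionStabilizer D ⊓ (Cfsg.GU 6 F q ⊓ Cfsg.Geo.specialLinear (Fin 6) F)) ∨
    (∃ D : Fin 2 → Submodule F (Fin 6 → F), Cfsg.Geo.IsMDecomposition 3 D ∧ (∀ i, Cfsg.Geo.IsTotallySingularFor (Cfsg.hermForm 6 F q) (D i)) ∧ H = Cfsg.Geo.decompositionStabilizer D ⊓ (Cfsg.GU 6 F q ⊓ Cfsg.Geo.specialLinear (Fin 6) F)) ∨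
    (3 ≤ q ∧ ∃ K : Subalgebra F (Matrix (Fin 6) (Fin 6) F), Cfsg.Geo.IsFieldSubalgebra 3 K ∧ Cfsg.Geo.IsAdjointClosedFor (Cfsg.hermForm 6 F q) K ∧ H = Cfsg.Geo.subalgebraNormalizer K ⊓ (Cfsg.GU 6 F q ⊓ Cfsg.Geo.specialLinear (Fin 6) F)) ∨
    (3 ≤ q ∧ ∃ (e : Fin 6 ≃ Fin 2 × Fin 3) (P : Matrix.GeneralLinearGroup (Fin 6) F) (f₁ : (Fin 2 → F) → (Fin 2 → F) → F) (f₂ : (Fin 3 → F) → (Fin 3 → F) → F), Cfsg.Geo.IsUnitaryFormPow q f₁ ∧ Cfsg.Geo.IsUnitaryFormPow q f₂ ∧ Cfsg.Geo.IsTensorFormStructure (fun x : F => x ^ q) (Cfsg.hermForm 6 F q) f₁ f₂ e P ∧ H = Cfsg.Geo.tensorProductSubgroup 2 3 e P ⊓ (Cfsg.GU 6 F q ⊓ Cfsg.Geo.specialLinear (Fin 6) F)) ∨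
    (∃ (F₀ : Subfield F) (r : ℕ) (P : Matrix.GeneralLinearGroup (Fin 6) F), r.Prime ∧ Odd r ∧ Fintype.card F = Nat.card F₀ ^ r ∧ Cfsg.Geo.IsFormRationalStructure (Cfsg.hermForm 6 F q) F₀ 1 P ∧ H = Cfsg.Geo.subfieldSubgroup F₀ P ⊓ (Cfsg.GU 6 F q ⊓ Cfsg.Geo.specialLinear (Fin 6) F)) ∨
    (∃ (F₀ : Subfield F) (P : Matrix.GeneralLinearGroup (Fin 6) F) (ζ : F), Fintype.card F = Nat.card F₀ ^ 2 ∧ ζ ≠ 0 ∧ ζ + ζ ^ q = 0 ∧ Cfsg.Geo.IsFormRationalStructure (Cfsg.hermForm 6 F q) F₀ ζ P ∧ (∀ u : Fin 6 → F, (∀ i, u i ∈ F₀) → (Cfsg.hermForm 6 F q) (Matrix.mulVec (P : Matrix (Fin 6) (Fin 6) F) u) (Matrix.mulVec (P : Matrix (Fin 6) (Fin 6) F) u) = 0) ∧ H = Cfsg.Geo.subfieldSubgroup F₀ P ⊓ (Cfsg.GU 6 F q ⊓ Cfsg.Geo.specialLinear (Fin 6) F)) ∨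
    (Odd q ∧ ∃ (F₀ : Subfield F) (P : Matrix.GeneralLinearGroup (Fin 6) F), Fintype.card F = Nat.card F₀ ^ 2 ∧ Cfsg.Geo.IsFormRationalStructure (Cfsg.hermForm 6 F q) F₀ 1 P ∧ H = Cfsg.Geo.subfieldSubgroup F₀ P ⊓ (Cfsg.GU 6 F q ⊓ Cfsg.Geo.specialLinear (Fin 6) F)) ∨
    Cfsg.Geo.InUnitaryResidualClass H := by
  open Cfsg.Lib.Asch in
  obtain ⟨σ, hσ, h⟩ := suMax hF (by decide) (by omega) hH
  refine with_base (A := UBase q (Cfsg.hermForm 6 F q) (Cfsg.GU 6 F q ⊓ Cfsg.Geo.specialLinear (Fin 6) F) H)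
    (fun h => ?_) fun hb => ?_
  · cases h with
    | sub F₀ r P h1 h2 h3 h4 h => repeat (first | exact .inl ⟨F₀, r, P, h1, h2, h3, h4, h⟩ | right)
    | subo F₀ P h1 h2 h3 h => repeat (first | exact .inl ⟨h1, F₀, P, h2, h3, h⟩ | right)
    | subs F₀ P ζ h1 h2 h3 h4 h5 h6 h => repeat (first | exact .inl ⟨F₀, P, ζ, h2, h3, h4, h5, h6, h⟩ | right)
    | extra r R p d k h1 h2 hp hc h3 h4 h5 h6 h7 _ h8 h =>
      exact absurd ((eq_of_prime_pow h1 h2 2 (by decide) (by simp)).symm.trans (eq_of_prime_pow h1 h2 3 (by decide) (by simp))) (by decide)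
  cases h with
  | ts W h1 h2 h3 => exact .inl ⟨W, h1, h2, h3⟩
  | nd W h1 h2 h3 h4 => exact .inr (.inl ⟨W, h1, h2, by simpa using h3, h4⟩)
  | dec t m D h1 h2 h3 h4 hD h =>
    rw [Fintype.card_fin] at h2 h3
    obtain ⟨rfl, rfl⟩ | ⟨rfl, rfl⟩ | ⟨rfl, rfl⟩ : t = 2 ∧ m = 3 ∨ t = 3 ∧ m = 2 ∨ t = 6 ∧ m = 1 := by interval_cases t <;> omega
    rotate_right
    · obtain rfl | hq := (two_le_of_isBar hσ).eq_or_lt
      · exact (not_max_su_six_dec hF hH hD (h.le.trans inf_le_left)).elim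
      exact .inr (.inr (.inl ⟨hq, D, hD, h⟩))
    all_goals repeat (first | exact .inl ⟨D, hD, h⟩ | exact .inl ⟨by omega, D, hD, h⟩ | right)
  | pair m D _ h1 h2 h3 h =>
    rw [Fintype.card_fin] at h1
    obtain rfl : m = 3 := by omega
    repeat (first | exact .inl ⟨D, h2, h3, h⟩ | right)
  | fld r K hI h1 h0 h2 hK h3 h =>
    rw [Fintype.card_fin] at h2
    obtain rfl : r = 3 := by
      have := Nat.le_of_dvd (by decide) h2
      interval_cases r <;> first | rfl | simp (config := {decide := true}) at h0 h1 h2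
    obtain rfl | hq := (two_le_of_isBar hσ).eq_or_lt
    · exact hb (uBase_of_fld hσ (amb_su hF (by decide) (by omega)) hH (sform_hermForm hσ 6) le_rfl hI (by simp) hK h3
        (h.le.trans inf_le_left))
    repeat (first | exact .inl ⟨hq, K, hK, h3, h⟩ | right)
  | tens k l e P f₁ f₂ h1 h2 h3 h4 h5 h6 h7 h =>
    rw [Fintype.card_fin] at h3
    have : k < 4 := by nlinarith
    obtain ⟨rfl, rfl⟩ : k = 2 ∧ l = 3 := by interval_cases k <;> omega
    all_goals repeat (first | exact .inl ⟨e, P, f₁, f₂, h5, h6, h7, h⟩ | exact .inl ⟨by omega, e, P, f₁, f₂, h5, h6, h7, h⟩ | right)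
  | pow k t e P f₁ h1 h2 h3 h4 h5 h6 h =>
    simpa using (pow_cases h1 h2 h3 (by simp)).2.2
  | res h => repeat (first | exact h | right)
  | base h => exact hb h

end Cfsg.Agent.S5802
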