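import Cfsg.Statements.S5805
import Cfsg.Agent.Lib.Asch.SpMax

set_option autoImplicit false
open Cfsg

namespace Cfsg.Agent.S5805



/-- Every maximal subgroup of Sp_6(q) is of one of the listed geometric types or lies in the residual class. Let F be a finite field with q elements, f the standard alternating form on F^6 (coordinates Fin 3 ⊕ Fin 3), and H a maximal subgroup of Sp_6(F) (inside GL_6(F)). Then H is the intersection with Sp_6(F) of one of: the stabiliser of a non-zero totally isotropic subspace; the stabiliser of a non-degenerate 2-space; for q ≥ 3, the stabiliser of a decomposition into three mutually orthogonal non-degenerate 2-spaces; for q odd, of a decomposition into two totally isotropic 3-spaces; the normaliser of a degree-3 subfield K of the matrix algebra, self-adjoint with f(k v, v) = 0; for q odd, the normaliser of a degree-2 subfield closed under adjoints but not self-adjoint;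 for q odd, q ≥ 5, the stabiliser of a tensor decomposition of f into an alternating form on F^2 and a symmetric form on F^3; a subfield group (|F| = |F₀|^r, r prime) whose F₀-structure carries a non-zero multiple of f; for q even, the similarity group of a non-degenerate quadratic form polarising to f — or else H lies in the residual class of the symplectic case. -/
theorem result {F : Type*} [Field F] [Fintype F] (H : Subgroup (Matrix.GeneralLinearGroup (Fin 3 ⊕ Fin 3) F)) (hH : Cfsg.Geo.IsMaximalIn (Cfsg.spGL 3 F) H) :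
    (∃ W : Submodule F (Fin 3 ⊕ Fin 3 → F), W ≠ ⊥ ∧ Cfsg.Geo.IsTotallySingularFor (Cfsg.sympForm 3 F) W ∧ H = Cfsg.Geo.subspaceStabilizer W ⊓ Cfsg.spGL 3 F) ∨
    (∃ W : Submodule F (Fin 3 ⊕ Fin 3 → F), W ≠ ⊥ ∧ Cfsg.Geo.IsNondegenerateOn (Cfsg.sympForm 3 F) W ∧ Module.finrank F W < 3 ∧ H = Cfsg.Geo.subspaceStabilizer W ⊓ Cfsg.spGL 3 F) ∨
    (3 ≤ Fintype.card F ∧ ∃ D : Fin 3 → Submodule F (Fin 3 ⊕ Fin 3 → F), Cfsg.Geo.IsNondegenerateMDecomposition (Cfsg.sympForm 3 F) 2 D ∧ H = Cfsg.Geo.decompositionStabilizer D ⊓ Cfsg.spGL 3 F) ∨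
    (Odd (Fintype.card F) ∧ ∃ D : Fin 2 → Submodule F (Fin 3 ⊕ Fin 3 → F), Cfsg.Geo.IsMDecomposition 3 D ∧ (∀ i, Cfsg.Geo.IsTotallySingularFor (Cfsg.sympForm 3 F) (D i)) ∧ H = Cfsg.Geo.decompositionStabilizer D ⊓ Cfsg.spGL 3 F) ∨
    (∃ K : Subalgebra F (Matrix (Fin 3 ⊕ Fin 3) (Fin 3 ⊕ Fin 3) F), Cfsg.Geo.IsFieldSubalgebra 3 K ∧ Cfsg.Geo.IsSelfAdjointFor (Cfsg.sympForm 3 F) K ∧ (∀ k ∈ K, ∀ v : (Fin 3 ⊕ Fin 3 → F), (Cfsg.sympForm 3 F) (Matrix.mulVec k v) v = 0) ∧ H = Cfsg.Geo.subalgebraNormalizer K ⊓ Cfsg.spGL 3 F) ∨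
    (Odd (Fintype.card F) ∧ ∃ K : Subalgebra F (Matrix (Fin 3 ⊕ Fin 3) (Fin 3 ⊕ Fin 3) F), Cfsg.Geo.IsFieldSubalgebra 2 K ∧ Cfsg.Geo.IsAdjointClosedFor (Cfsg.sympForm 3 F) K ∧ ¬ Cfsg.Geo.IsSelfAdjointFor (Cfsg.sympForm 3 F) K ∧ H = Cfsg.Geo.subalgebraNormalizer K ⊓ Cfsg.spGL 3 F) ∨
    (Odd (Fintype.card F) ∧ 5 ≤ Fintype.card F ∧ ∃ (e : (Fin 3 ⊕ Fin 3) ≃ Fin 2 × Fin 3) (P : Matrix.GeneralLinearGroup (Fin 3 ⊕ Fin 3) F) (f₁ : (Fin 2 → F) → (Fin 2 → F) → F) (f₂ : (Fin 3 → F) → (Fin 3 → F) → F), Cfsg.Geo.IsSymplecticForm f₁ ∧ Cfsg.Geo.IsSymmetricForm f₂ ∧ Cfsg.Geo.IsTensorFormStructure id (Cfsg.sympForm 3 F) f₁ f₂ e P ∧ H = Cfsg.Geo.tensorProductSubgroup 2 3 e P ⊓ Cfsg.spGL 3 F) ∨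
    (∃ (F₀ : Subfield F) (r : ℕ) (P : Matrix.GeneralLinearGroup (Fin 3 ⊕ Fin 3) F) (ζ : F), r.Prime ∧ Fintype.card F = Nat.card F₀ ^ r ∧ ζ ≠ 0 ∧ Cfsg.Geo.IsFormRationalStructure (Cfsg.sympForm 3 F) F₀ ζ P ∧ H = Cfsg.Geo.subfieldSubgroup F₀ P ⊓ Cfsg.spGL 3 F) ∨
    (¬ Odd (Fintype.card F) ∧ ∃ Q : (Fin 3 ⊕ Fin 3 → F) → F, Cfsg.Geo.IsNondegenerateQuadraticForm Q ∧ (∀ u v : (Fin 3 ⊕ Fin 3 → F), QuadraticMap.polar Q u v = (Cfsg.sympForm 3 F) u v) ∧ H = Cfsg.Geo.quadSimilarityGroup Q ⊓ Cfsg.spGL 3 F) ∨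
    Cfsg.Geo.InSymplecticResidualClass H := by
  open Cfsg.Lib.Asch in
  have hc : Fintype.card (Fin 3 ⊕ Fin 3) = 6 := by simp
  cases spGLMax (by decide) (by omega) hH with
  | ts W h1 h2 h3 => exact .inl ⟨W, h1, h2, h3⟩
  | nd W k h1 h2 h3 h4 h => exact .inr (.inl ⟨W, h1, h2, by omega, h⟩)
  | dec t k D h1 h2 h3 h4 hD h =>
    rw [hc] at h2 h3
    obtain ⟨rfl, rfl⟩ : t = 3 ∧ k = 1 := by interval_cases t <;> omega
    all_goals repeat (first | exact .inl ⟨D, hD, h⟩ | exact .inl ⟨by omega, D, hD, h⟩ | right)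
  | pair e m D h0 _ _ h1 h2 h3 h =>
    obtain rfl : m = 3 := by omega
    repeat (first | exact .inl ⟨h0, D, h2, h3, h⟩ | right)
  | fld r K h1 h2 hK h3 h4 h =>
    rw [hc] at h2
    obtain rfl : r = 3 := by
      have : r ≤ 3 := by have := Nat.le_of_dvd (by decide) h2; omega
      interval_cases r <;> simp_all (config := {decide := true})
    all_goals repeat (first | exact .inl ⟨K, hK, h3, h4, h⟩ | right)
  | ufld K h0 _ h1 h2 h3 h => repeat (first | exact .inl ⟨h0, K, h1.fld, h2, h3, h⟩ | right)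
  | tens k l e P f₁ f₂ h0 hI hP h1 h2 h3 h4 hT h5 h6 h =>
    rw [hc] at h3
    have : k < 3 := by nlinarith
    obtain ⟨rfl, rfl⟩ : k = 1 ∧ l = 3 := by interval_cases k <;> omega
    all_goals repeat (first | exact .inl ⟨h0, e, P, f₁, f₂, h5, h6, hT.str, h⟩ | exact .inl ⟨h0, h4 rfl, e, P, f₁, f₂, h5, h6, hT.str, h⟩ | right)
  | pow k t e P f₁ h0 h1 h2 h3 h4 h5 h6 h =>
    simpa using (pow_cases' h1 h2 h3 (by simp)).2.2
  | res h => repeat (first | exact h | right)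
  | base h =>
    cases h with
    | sub F₀ r P ζ h1 h2 h3 h4 h => repeat (first | exact .inl ⟨F₀, r, P, ζ, h1, h2, h3, h4, h⟩ | right)
    | quad Q h0 h1 h2 h => repeat (first | exact .inl ⟨h0, Q, h1, h2, h⟩ | right)
    | extra R k h1 h2 h3 h4 h5 h6 h7 h8 h9 h =>
      have := two_pow_cases h1 (by simp); omega

end Cfsg.Agent.S5805
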