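import Cfsg.Statements.S5808
import Cfsg.Agent.Lib.Asch.LinMax

set_option autoImplicit false
open Cfsg

namespace Cfsg.Agent.S5808



/-- Every maximal subgroup of SL_7(q) is of one of the listed geometric types or lies in the residual class. Let F be a finite field with q elements (p its characteristic) and H a maximal subgroup of SL_7(F) (inside GL_7(F)). Then H is the intersection with SL_7(F) of one of: the stabiliser of a proper non-zero subspace; for q ≥ 5, the stabiliser of a decomposition into 7 independent 1-spaces; the normaliser of a degree-7 subfield of the matrix algebra; a subfield group for a subfield F₀ with |F| = |F₀|^r, r prime; for q = p prime with p ≡ 1 mod 7, or q = p³ with p ≡ 2 or 4 mod 7, the normaliser of an absolutely irreducible 7-subgroup R of exponent 7 and order 7^(1+2m) with centre of order 7, all of whose characteristic abelian subgroups are cyclic, F being the smallest field of characteristic p containing the seventh roots of unity (here R is extraspecial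 of order 343); for q odd, the similarity group of a non-degenerate quadratic form; the similarity group of a non-degenerate unitary form — or else H lies in the residual class of the linear case (modulo scalars H is almost simple, with absolutely irreducible perfect socle preimage realisable over no proper subfield and fixing no non-degenerate quadratic, symplectic or unitary form). -/
theorem result {F : Type*} [Field F] [Fintype F] (H : Subgroup (Matrix.GeneralLinearGroup (Fin 7) F)) (hH : Cfsg.Geo.IsMaximalIn (Cfsg.Geo.specialLinear (Fin 7) F) H) :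
    (∃ W : Submodule F (Fin 7 → F), W ≠ ⊥ ∧ W ≠ ⊤ ∧ H = Cfsg.Geo.subspaceStabilizer W ⊓ Cfsg.Geo.specialLinear (Fin 7) F) ∨
    (5 ≤ Fintype.card F ∧ ∃ D : Fin 7 → Submodule F (Fin 7 → F), Cfsg.Geo.IsMDecomposition 1 D ∧ H = Cfsg.Geo.decompositionStabilizer D ⊓ Cfsg.Geo.specialLinear (Fin 7) F) ∨
    (∃ K : Subalgebra F (Matrix (Fin 7) (Fin 7) F), Cfsg.Geo.IsFieldSubalgebra 7 K ∧ H = Cfsg.Geo.subalgebraNormalizer K ⊓ Cfsg.Geo.specialLinear (Fin 7) F) ∨
    (∃ (F₀ : Subfield F) (r : ℕ) (P : Matrix.GeneralLinearGroup (Fin 7) F), r.Prime ∧ Fintype.card F = Nat.card F₀ ^ r ∧ H = Cfsg.Geo.subfieldSubgroup F₀ P ⊓ Cfsg.Geo.specialLinear (Fin 7) F) ∨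
    ((∃ p : ℕ, p.Prime ∧ CharP F p ∧ ((Fintype.card F = p ∧ p % 7 = 1) ∨ (Fintype.card F = p ^ 3 ∧ (p % 7 = 2 ∨ p % 7 = 4)))) ∧ ∃ R : Subgroup (Matrix.GeneralLinearGroup (Fin 7) F), Cfsg.Geo.IsLinearSymplecticTypeData 7 R ∧ H = Cfsg.Geo.subgroupNormalizer R ⊓ Cfsg.Geo.specialLinear (Fin 7) F) ∨
    (Odd (Fintype.card F) ∧ ∃ Q : (Fin 7 → F) → F, Cfsg.Geo.IsNondegenerateQuadraticForm Q ∧ H = Cfsg.Geo.quadSimilarityGroup Q ⊓ Cfsg.Geo.specialLinear (Fin 7) F) ∨
    (∃ (σ : F ≃+* F) (f : (Fin 7 → F) → (Fin 7 → F) → F), Cfsg.Geo.IsUnitaryForm σ f ∧ H = Cfsg.Geo.similarityGroup f ⊓ Cfsg.Geo.specialLinear (Fin 7) F) ∨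
    Cfsg.Geo.InLinearResidualClass H := by
  open Cfsg.Lib.Asch in
  cases lMax (by simp) hH with
  | red W h1 h2 h3 => exact .inl ⟨W, h1, h2, h3⟩
  | dec t m D _ h1 h2 h3 h4 h5 h6 hD h =>
    rw [Fintype.card_fin] at h2 h3
    obtain ⟨rfl, rfl⟩ : t = 7 ∧ m = 1 := by interval_cases t <;> omega
    all_goals repeat (first | exact .inl ⟨D, hD, h⟩ | exact .inl ⟨by omega, D, hD, h⟩ | right)
  | fld r K _ h1 h2 hK h =>
    rw [Fintype.card_fin] at h2
    obtain rfl : r = 7 := by
      have := Nat.le_of_dvd (by decide) h2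
      interval_cases r <;> simp_all (config := {decide := true})
    all_goals repeat (first | exact .inl ⟨K, hK, h⟩ | right)
  | tens k l e P h1 h2 h3 h4 h =>
    rw [Fintype.card_fin] at h3
    have : k < 4 := by nlinarith
    interval_cases k <;> omega
  | pow k t e P h1 h2 h3 h =>
    simpa using (pow_cases h1 h2 h3 (by simp)).2.2
  | res h => repeat (first | exact h | right)
  | base h =>
    cases h with
    | sub F₀ r P h1 h2 h => repeat (first | exact .inl ⟨F₀, r, P, h1, h2, h⟩ | right)
    | quad Q h1 h2 h => repeat (first | exact .inl ⟨h1, Q, h2, h⟩ | right)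
    | sp f h1 h2 h => exact absurd h1 (by simp; decide)
    | uni σ f h1 h => repeat (first | exact .inl ⟨σ, f, h1, h⟩ | right)
    | extra r R p e k h1 _ h2 hp hc h3 h4 h5 h =>
      obtain rfl := eq_of_prime_pow h1 h2 7 (by decide) (by simp)
      obtain ⟨-, h0, h6, h7, h8, h9⟩ := h4.resolve_left fun h => absurd h.1 (by decide)
      rcases min_seven _ h6 _ h7 h0.pos h8 h9 with ⟨rfl, h10⟩ | ⟨rfl, h10⟩ | ⟨rfl, h10⟩ | ⟨rfl, h10⟩ <;> try exact absurd h0 (by decide)
      all_goals repeat (first | exact .inl ⟨⟨p, hp, hc, .inl ⟨h3.trans (pow_one p), h10⟩⟩, R, h5, h⟩ | exact .inl ⟨⟨p, hp, hc, .inr ⟨h3, h10⟩⟩, R, h5, h⟩ | right)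

end Cfsg.Agent.S5808
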