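import Cfsg.Statements.S5811
import Cfsg.Agent.Lib.Asch.UniMax

set_option autoImplicit false
open Cfsg

namespace Cfsg.Agent.S5811



/-- Every maximal subgroup of SU_7(q) is of one of the listed geometric types or lies in the residual class. Let F be the field with q² elements (characteristic p), f the standard unitary form Σ u_i v_i^q on F^7, and H a maximal subgroup of SU_7(q) (inside GL_7(F)). Then H is the intersection with SU_7(q) of one of: the stabiliser of a non-zero totally isotropic subspace; the stabiliser of a non-degenerate 1-, 2- or 3-space; the stabiliser of a decomposition into seven mutually orthogonal non-degenerate 1-spaces; the normaliser of an adjoint-closed degree-7 subfield of the matrix algebra; a subfield group of odd prime index whose F₀-structure carries f; for q odd, a subfield group of index 2 whose F₀-structure carries f; for q = p prime with p ≡ 6 mod 7, or q = p³ with p ≡ 3 or 5 mod 7, the normaliser of an absolutely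 irreducible 7-group R of exponent 7, order 343 and centre of order 7, all of whose characteristic abelian subgroups are cyclic, contained in the similarity group of f — or else H lies in the residual class of the unitary case (modulo scalars H is almost simple, with absolutely irreducible perfect socle preimage realisable over no proper subfield and fixing no non-degenerate quadratic or symplectic form). -/
theorem result {F : Type*} [Field F] [Fintype F] (q : ℕ) (hF : Fintype.card F = q ^ 2) (H : Subgroup (Matrix.GeneralLinearGroup (Fin 7) F)) (hH : Cfsg.Geo.IsMaximalIn (Cfsg.GU 7 F q ⊓ Cfsg.Geo.specialLinear (Fin 7) F) H) :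
    (∃ W : Submodule F (Fin 7 → F), W ≠ ⊥ ∧ Cfsg.Geo.IsTotallySingularFor (Cfsg.hermForm 7 F q) W ∧ H = Cfsg.Geo.subspaceStabilizer W ⊓ (Cfsg.GU 7 F q ⊓ Cfsg.Geo.specialLinear (Fin 7) F)) ∨
    (∃ W : Submodule F (Fin 7 → F), W ≠ ⊥ ∧ Cfsg.Geo.IsNondegenerateOn (Cfsg.hermForm 7 F q) W ∧ 2 * Module.finrank F W < 7 ∧ H = Cfsg.Geo.subspaceStabilizer W ⊓ (Cfsg.GU 7 F q ⊓ Cfsg.Geo.specialLinear (Fin 7) F)) ∨
    (∃ D : Fin 7 → Submodule F (Fin 7 → F), Cfsg.Geo.IsNondegenerateMDecomposition (Cfsg.hermForm 7 F q) 1 D ∧ H = Cfsg.Geo.decompositionStabilizer D ⊓ (Cfsg.GU 7 F q ⊓ Cfsg.Geo.specialLinear (Fin 7) F)) ∨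
    (∃ K : Subalgebra F (Matrix (Fin 7) (Fin 7) F), Cfsg.Geo.IsFieldSubalgebra 7 K ∧ Cfsg.Geo.IsAdjointClosedFor (Cfsg.hermForm 7 F q) K ∧ H = Cfsg.Geo.subalgebraNormalizer K ⊓ (Cfsg.GU 7 F q ⊓ Cfsg.Geo.specialLinear (Fin 7) F)) ∨
    (∃ (F₀ : Subfield F) (r : ℕ) (P : Matrix.GeneralLinearGroup (Fin 7) F), r.Prime ∧ Odd r ∧ Fintype.card F = Nat.card F₀ ^ r ∧ Cfsg.Geo.IsFormRationalStructure (Cfsg.hermForm 7 F q) F₀ 1 P ∧ H = Cfsg.Geo.subfieldSubgroup F₀ P ⊓ (Cfsg.GU 7 F q ⊓ Cfsg.Geo.specialLinear (Fin 7) F)) ∨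
    (Odd q ∧ ∃ (F₀ : Subfield F) (P : Matrix.GeneralLinearGroup (Fin 7) F), Fintype.card F = Nat.card F₀ ^ 2 ∧ Cfsg.Geo.IsFormRationalStructure (Cfsg.hermForm 7 F q) F₀ 1 P ∧ H = Cfsg.Geo.subfieldSubgroup F₀ P ⊓ (Cfsg.GU 7 F q ⊓ Cfsg.Geo.specialLinear (Fin 7) F)) ∨
    (∃ (p : ℕ) (R : Subgroup (Matrix.GeneralLinearGroup (Fin 7) F)), p.Prime ∧ CharP F p ∧ ((q = p ∧ p % 7 = 6) ∨ (q = p ^ 3 ∧ (p % 7 = 3 ∨ p % 7 = 5))) ∧ Cfsg.Geo.IsSymplecticTypeGroup 7 R ∧ Cfsg.Geo.ActsAbsolutelyIrreducibly (Cfsg.Geo.matrixSet R) ∧ R ≤ Cfsg.Geo.similarityGroup (Cfsg.hermForm 7 F q) ∧ Nat.card R = 343 ∧ Nat.card (Subgroup.center R) = 7 ∧ H = Cfsg.Geo.subgroupNormalizer R ⊓ (Cfsg.GU 7 F q ⊓ Cfsg.Geo.specialLinear (Fin 7) F)) ∨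
    Cfsg.Geo.InUnitaryResidualClass H := by
  open Cfsg.Lib.Asch in
  obtain ⟨σ, hσ, h⟩ := suMax hF (by decide) (by omega) hH
  cases h with
  | ts W h1 h2 h3 => exact .inl ⟨W, h1, h2, h3⟩
  | nd W h1 h2 h3 h4 => exact .inr (.inl ⟨W, h1, h2, by simpa using h3, h4⟩)
  | dec t m D h1 h2 h3 h4 hD h =>
    rw [Fintype.card_fin] at h2 h3
    obtain ⟨rfl, rfl⟩ : t = 7 ∧ m = 1 := by interval_cases t <;> omega
    all_goals repeat (first | exact .inl ⟨D, hD, h⟩ | exact .inl ⟨by omega, D, hD, h⟩ | right)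
  | pair m D _ h1 h2 h3 h =>
    rw [Fintype.card_fin] at h1
    omega
  | fld r K _ h1 h0 h2 hK h3 h =>
    rw [Fintype.card_fin] at h2
    obtain rfl : r = 7 := by
      have := Nat.le_of_dvd (by decide) h2
      interval_cases r <;> simp_all (config := {decide := true})
    repeat (first | exact .inl ⟨K, hK, h3, h⟩ | right)
  | tens k l e P f₁ f₂ h1 h2 h3 h4 h5 h6 h7 h =>
    rw [Fintype.card_fin] at h3
    have : k < 4 := by nlinarith
    interval_cases k <;> omega
  | pow k t e P f₁ h1 h2 h3 h4 h5 h6 h =>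
    simpa using (pow_cases h1 h2 h3 (by simp)).2.2
  | res h => repeat (first | exact h | right)
  | base h =>
    cases h with
    | sub F₀ r P h1 h2 h3 h4 h => repeat (first | exact .inl ⟨F₀, r, P, h1, h2, h3, h4, h⟩ | right)
    | subo F₀ P h1 h2 h3 h => repeat (first | exact .inl ⟨h1, F₀, P, h2, h3, h⟩ | right)
    | subs F₀ P ζ h1 h2 h3 h4 h5 h6 h => exact absurd h1 (by simp; decide)
    | extra r R p d k h1 h2 hp hc h3 h4 h5 h6 h7 _ h8 h =>
      obtain rfl := eq_of_prime_pow h1 h2 7 (by decide) (by simp)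
      obtain ⟨-, hz, h9, h10, h11, h12, h13⟩ := h4.resolve_left fun h => absurd h.1 (by decide)
      have h14 := min_seven _ h9 _ h10 h11 h12 h13
      obtain rfl | rfl : d = 1 ∨ d = 3 := by omega
      · repeat (first | exact .inl ⟨p, R, hp, hc, .inl ⟨h3.trans (pow_one p), by omega⟩, h5, h6, h7.trans iso_le_sim, by simp [h8, hz], hz, h⟩ | right)
      · repeat (first | exact .inl ⟨p, R, hp, hc, .inr ⟨h3, by omega⟩, h5, h6, h7.trans iso_le_sim, by simp [h8, hz], hz, h⟩ | right)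

end Cfsg.Agent.S5811
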