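import Cfsg.Statements.S5813
import Cfsg.Agent.Lib.OMax.Four
import Cfsg.Agent.Lib.OMax.Rat7
import Cfsg.Agent.Lib.OMax.FrameE

set_option autoImplicit false
open Cfsg

namespace Cfsg.Agent.S5813

/-- Maximal subgroups of Ω_7(q) of geometric type, q odd. Let F be a finite field of odd order q, Q the standard quadratic form x₀² + Σ x_i y_i on F^7 (coordinates Unit ⊕ (Fin 3 ⊕ Fin 3)), and Ω = Ω_7(q) the commutator subgroup of its isometry group, inside GL_7(F). Each of the following, intersected with Ω, is a maximal subgroup of Ω: (1) the stabiliser of any non-zero subspace on which Q vanishes identically (totally singular 1-, 2- and 3-spaces); (2) the stabiliser of any non-zero even-dimensional subspace W on which the polar form of Q is non-degenerate (equivalently of its odd-dimensional orthogonal complement), except when q = 3 and W is a 2-space containing a non-zero singular vector (a plus-type plane); (3) for q = p prime, the stabiliser of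 any decomposition of F^7 into seven pairwise orthogonal, pairwise Q-isometric non-degenerate 1-spaces; (4) every subfield group for a subfield F₀ with |F| = |F₀|^r, r prime, whose F₀-structure carries Q. -/
theorem result {F : Type*} [Field F] [Fintype F] (hodd : Odd (Fintype.card F)) :
    (∀ W : Submodule F (Unit ⊕ (Fin 3 ⊕ Fin 3) → F), W ≠ ⊥ → Cfsg.Geo.IsTotallySingularQuad (Cfsg.quadFormOdd 3 F) W → Cfsg.Geo.IsMaximalIn (Cfsg.Geo.omegaGL (Cfsg.quadFormOdd 3 F)) (Cfsg.Geo.subspaceStabilizer W ⊓ Cfsg.Geo.omegaGL (Cfsg.quadFormOdd 3 F))) ∧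
    (∀ W : Submodule F (Unit ⊕ (Fin 3 ⊕ Fin 3) → F), W ≠ ⊥ → Even (Module.finrank F W) → Cfsg.Geo.IsNondegenerateOn (QuadraticMap.polar (Cfsg.quadFormOdd 3 F)) W → ¬ (Fintype.card F = 3 ∧ Module.finrank F W = 2 ∧ Cfsg.Geo.IsPlusTypeOn (Cfsg.quadFormOdd 3 F) W) → Cfsg.Geo.IsMaximalIn (Cfsg.Geo.omegaGL (Cfsg.quadFormOdd 3 F)) (Cfsg.Geo.subspaceStabilizer W ⊓ Cfsg.Geo.omegaGL (Cfsg.quadFormOdd 3 F))) ∧
    ((Fintype.card F).Prime → ∀ D : Fin 7 → Submodule F (Unit ⊕ (Fin 3 ⊕ Fin 3) → F), Cfsg.Geo.IsOrthogonalMDecomposition (Cfsg.quadFormOdd 3 F) 1 D → Cfsg.Geo.IsMaximalIn (Cfsg.Geo.omegaGL (Cfsg.quadFormOdd 3 F)) (Cfsg.Geo.decompositionStabilizer D ⊓ Cfsg.Geo.omegaGL (Cfsg.quadFormOdd 3 F))) ∧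
    (∀ (F₀ : Subfield F) (r : ℕ) (P : Matrix.GeneralLinearGroup (Unit ⊕ (Fin 3 ⊕ Fin 3)) F), r.Prime → Fintype.card F = Nat.card F₀ ^ r → Cfsg.Geo.IsQuadFormRationalStructure (Cfsg.quadFormOdd 3 F) F₀ P → Cfsg.Geo.IsMaximalIn (Cfsg.Geo.omegaGL (Cfsg.quadFormOdd 3 F)) (Cfsg.Geo.subfieldSubgroup F₀ P ⊓ Cfsg.Geo.omegaGL (Cfsg.quadFormOdd 3 F))) := by
  have h2 := Lib.Orth.two_ne_zero_of_odd_card hodd
  have h := Lib.Orth.nd_qOdd (F := F) h2 3
  refine ⟨fun W h0 hW => Lib.OMax.isMaximalIn_singular h (by simp) h0 hW (Or.inl (by simp; omega)),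
    fun W hW0 ⟨k, hk⟩ hW hex => ?_, fun hp D hD => Lib.OMax.isMaximalIn_frame (Q := Lib.Orth.qOdd 3 F)
      h hp hodd (Or.inr (by simp; decide)) hD, fun F₀ r P hr hcard hP =>
    Lib.OMax.isMaximalIn_subfield' (Q := Lib.Orth.qOdd 3 F) h (by simp) hr
      (by rwa [Nat.card_eq_fintype_card]) one_ne_zero fun u hu =>
      (one_mul _).symm.subst (motive := (· ∈ F₀)) (hP u hu)⟩
  have h3 := Lib.Orth.finrank_add_finrank_perp h W
  simp only [Module.finrank_fintype_fun_eq_card, Fintype.card_sum, Fintype.card_fin,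
    Fintype.card_unique] at h3
  have h4 : Module.finrank F W ≠ 0 := by simpa
  obtain h5 | h5 | h5 : Module.finrank F W = 2 ∨ Module.finrank F W = 4 ∨
    Module.finrank F W = 6 := by omega
  · refine Lib.OMax.isMaximalIn_nd_lt h hW hW0 (by simp [h5]) (by simp [h5])
      fun h4 => hex ⟨?_, h4.2⟩
    have := Fintype.one_lt_card (α := F)
    have h5 := h4.1
    rw [Nat.card_eq_fintype_card] at h5
    obtain ⟨j, hj⟩ := hodd
    omega
  · exact Lib.OMax.isMaximalIn_four_seven h (by simp) h2 hW h5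
  · exact Lib.OMax.isMaximalIn_nd_gt h hW (Lib.OMax.ne_top_of_finrank (by simp [h5])) (by omega)
      (by simp [h5]) (by simp [h5])

end Cfsg.Agent.S5813
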