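import Cfsg.Statements.S5826
import Cfsg.Agent.Lib.Asch.EvenMax

set_option autoImplicit false
open Cfsg

namespace Cfsg.Agent.S5826



/-- Every maximal subgroup of Ω_8^-(q) is of one of the listed geometric types or lies in the residual class. Let F be a finite field with q elements, Q a non-degenerate quadratic form on F^8 of minus type (no totally singular 4-space), Ω the commutator subgroup of its isometry group, and H a maximal subgroup of Ω (inside GL_8(F)). Then H is the intersection with Ω of one of: the stabiliser of a non-zero totally singular subspace; for q odd, the stabiliser of a non-degenerate subspace of odd dimension; the stabiliser of a non-degenerate 2-space of minus type; for q ≥ 4, the stabiliser of a non-degenerate 2-space of plus type; the stabiliser of a non-degenerate 4-space; for q even, the stabiliser of the span of a non-singular vector; the normaliser of a degree-2 subfield of the matrix algebra; a subfield group of odd prime index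 whose F₀-structure carries a non-zero multiple of Q — or else H lies in the residual class of the orthogonal case (modulo scalars H is almost simple, with absolutely irreducible perfect socle preimage realisable over no proper subfield and fixing no non-degenerate unitary form). -/
theorem result {F : Type*} [Field F] [Fintype F] (Q : (Fin 8 → F) → F) (hQ : Cfsg.Geo.IsNondegenerateQuadraticForm Q) (hminus : ¬ Cfsg.Geo.IsPlusTypeOn Q ⊤) (H : Subgroup (Matrix.GeneralLinearGroup (Fin 8) F)) (hH : Cfsg.Geo.IsMaximalIn (Cfsg.Geo.omegaGL Q) H) :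
    (∃ W : Submodule F (Fin 8 → F), W ≠ ⊥ ∧ Cfsg.Geo.IsTotallySingularQuad Q W ∧ H = Cfsg.Geo.subspaceStabilizer W ⊓ Cfsg.Geo.omegaGL Q) ∨
    (Odd (Fintype.card F) ∧ ∃ W : Submodule F (Fin 8 → F), W ≠ ⊥ ∧ W ≠ ⊤ ∧ Odd (Module.finrank F W) ∧ Cfsg.Geo.IsNondegenerateOn (QuadraticMap.polar Q) W ∧ H = Cfsg.Geo.subspaceStabilizer W ⊓ Cfsg.Geo.omegaGL Q) ∨
    (∃ W : Submodule F (Fin 8 → F), Module.finrank F W = 2 ∧ Cfsg.Geo.IsNondegenerateOn (QuadraticMap.polar Q) W ∧ ¬ Cfsg.Geo.IsPlusTypeOn Q W ∧ H = Cfsg.Geo.subspaceStabilizer W ⊓ Cfsg.Geo.omegaGL Q) ∨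
    (4 ≤ Fintype.card F ∧ ∃ W : Submodule F (Fin 8 → F), Module.finrank F W = 2 ∧ Cfsg.Geo.IsNondegenerateOn (QuadraticMap.polar Q) W ∧ Cfsg.Geo.IsPlusTypeOn Q W ∧ H = Cfsg.Geo.subspaceStabilizer W ⊓ Cfsg.Geo.omegaGL Q) ∨
    (∃ W : Submodule F (Fin 8 → F), Module.finrank F W = 4 ∧ Cfsg.Geo.IsNondegenerateOn (QuadraticMap.polar Q) W ∧ H = Cfsg.Geo.subspaceStabilizer W ⊓ Cfsg.Geo.omegaGL Q) ∨
    (¬ Odd (Fintype.card F) ∧ ∃ v : (Fin 8 → F), Q v ≠ 0 ∧ H = Cfsg.Geo.subspaceStabilizer (Submodule.span F {v}) ⊓ Cfsg.Geo.omegaGL Q) ∨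
    (∃ K : Subalgebra F (Matrix (Fin 8) (Fin 8) F), Cfsg.Geo.IsFieldSubalgebra 2 K ∧ H = Cfsg.Geo.subalgebraNormalizer K ⊓ Cfsg.Geo.omegaGL Q) ∨
    (∃ (F₀ : Subfield F) (r : ℕ) (P : Matrix.GeneralLinearGroup (Fin 8) F) (ζ : F), r.Prime ∧ Odd r ∧ Fintype.card F = Nat.card F₀ ^ r ∧ ζ ≠ 0 ∧ Cfsg.Geo.IsQuadFormRationalStructure (fun v : Fin 8 → F => ζ * Q v) F₀ P ∧ H = Cfsg.Geo.subfieldSubgroup F₀ P ⊓ Cfsg.Geo.omegaGL Q) ∨
    Cfsg.Geo.InOrthogonalResidualClass H := by
  open Cfsg.Lib.Asch in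
  cases evenMax hQ (m := 4) (by simp) (by decide) (by decide) hH with
  | ts W h1 h2 h3 h => exact .inl ⟨W, h1, h2, h⟩
  | pt v h1 h2 h => repeat (first | exact .inl ⟨h1, v, h2, h⟩ | right)
  | ndo W h1 h2 h3 h4 h5 h6 h => exact .inr (.inl ⟨h1, W, h2, h3, h4, h6, h⟩)
  | nde W k h1 h2 h3 h4 h5 h6 h =>
    obtain rfl | rfl : k = 1 ∨ k = 2 := by omega
    · by_cases hp : Cfsg.Geo.IsPlusTypeOn Q W
      · repeat (first | exact .inl ⟨h6 rfl hp, W, h1, h5, hp, h⟩ | right)
      · repeat (first | exact .inl ⟨W, h1, h5, hp, h⟩ | right)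
    · repeat (first | exact .inl ⟨W, h1, h5, h⟩ | right)
  | half D h1 => exact absurd h1 (by decide)
  | deco t k D _ _ _ _ _ h1 => exact absurd (h1.2 (.inl (by decide))) hminus
  | decp t k D _ _ _ h1 => exact absurd h1 hminus
  | decm t k D h1 h2 h3 h4 h5 h6 hD h =>
    simp only [hminus, true_iff, false_iff, Nat.even_iff] at h4
    interval_cases t <;> omega
  | pair D h1 => exact absurd h1 hminus
  | sub F₀ r P ζ h1 h2 h3 h4 h5 h => repeat (first | exact .inl ⟨F₀, r, P, ζ, h1, h2 hminus, h3, h4, h5, h⟩ | right)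
  | fld r K h1 h2 h3 h4 hK h5 h =>
    obtain rfl : r = 2 := by
      have := Nat.le_of_dvd (by decide) h2
      interval_cases r <;> first | omega | exact absurd h1 (by decide) | exact absurd rfl (h3 (by decide))
    all_goals repeat (first | exact .inl ⟨K, hK, h⟩ | right)
  | ufld K _ h1 h2 h3 h4 h => repeat (first | exact .inl ⟨K, h1, h⟩ | right)
  | tens k l e P f₁ f₂ h1 h2 h3 h4 h5 h6 h7 h8 h9 h =>
    obtain rfl : k = 3 := by nlinarith
    omega
  | atens l e P f₁ f₂ h1 => exact absurd h1 hminus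
  | eight h1 h2 => exact absurd h2 hminus
  | res h => repeat (first | exact h | right)

end Cfsg.Agent.S5826
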