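import Cfsg.Statements.S5876
import Cfsg.Agent.Lib.CharDeg.PrimFix

set_option autoImplicit false
open Cfsg

namespace Cfsg.Agent.S5876

open Cfsg.Lib.CharDeg.PrimFix Module

/-- Fixed-point spaces in primitive soluble linear groups. Let F be a finite field and G a soluble subgroup of GL_n(F) that acts irreducibly on F^n and primitively (G preserves no decomposition of F^n into two or more independent subspaces of equal dimension). Then every non-identity element g of G has fixed-point space {v : g v = v} of dimension at most 3n/4. -/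
theorem result {F : Type*} [Field F] [Fintype F] {n : ℕ} (G : Subgroup (Matrix.GeneralLinearGroup (Fin n) F)) (hsol : IsSolvable G) (hirr : Cfsg.Geo.ActsIrreducibly (Cfsg.Geo.matrixSet G)) (hprim : ∀ (m t : ℕ) (D : Fin t → Submodule F (Fin n → F)), 2 ≤ t → Cfsg.Geo.IsMDecomposition m D → ¬ G ≤ Cfsg.Geo.decompositionStabilizer D) (g : Matrix.GeneralLinearGroup (Fin n) F) (hg : g ∈ G) (hg1 : g ≠ 1) :
    4 * Module.finrank F (Module.End.eigenspace (Matrix.toLin' (g : Matrix (Fin n) (Fin n) F)) 1) ≤ 3 * n := by
  classical
  haveI : Finite G := inferInstance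
  haveI : Group.IsSolvable G := hsol
  let ρ : G →* Module.End F (Fin n → F) :=
    ((Matrix.toLinAlgEquiv' (R := F) (n := Fin n)).toMulEquiv.toMonoidHom.comp
      (Units.coeHom _)).comp G.subtype
  have hρ : ∀ x : G, ρ x = Matrix.toLin' ((x : Matrix.GeneralLinearGroup (Fin n) F) : Matrix (Fin n) (Fin n) F) :=
    fun x => rfl
  have hinj : ∀ x : G, (∀ w, ρ x w = w) → x = 1 := by
    intro x hx
    have : ρ x = LinearMap.id := LinearMap.ext hx
    rw [hρ, ← Matrix.toLin'_one] at this
    exact Subtype.ext (Units.ext (Matrix.toLin'.injective this))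
  have hab : AbFree ρ := by
    intro A hAn hA a ha h1
    by_contra hf
    obtain ⟨W, hW, ⟨b, hb1, hb⟩, hind⟩ := exists_indep ρ A hA ha h1 hf
    set O := Set.range (fun x : G => W.map (ρ x)) with hO
    haveI : Finite O := Set.finite_range _
    have hWO : W ∈ O := ⟨1, by simp [Module.End.one_eq_id]⟩
    have hact : ∀ x : G, ∀ U ∈ O, U.map (ρ x) ∈ O := by
      rintro x _ ⟨y, rfl⟩
      exact ⟨x * y, by simp only [map_mul, Module.End.mul_eq_comp, Submodule.map_comp]⟩
    have htop : (⨆ U : O, (U : Submodule F (Fin n → F))) = ⊤ := by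
      rcases hirr (⨆ U : O, (U : Submodule F (Fin n → F))) (by
        rintro _ ⟨x, hx, rfl⟩
        rw [Submodule.map_iSup]
        exact iSup_le fun U => le_iSup_of_le (⟨_, hact ⟨x, hx⟩ U U.2⟩ : O) le_rfl) with h | h
      · exact absurd (le_bot_iff.1 (h ▸ le_iSup (fun U : O => (U : Submodule F (Fin n → F))) ⟨W, hWO⟩)) hW
      · exact h
    by_cases ht : Nat.card O ≤ 1
    · haveI : Subsingleton O := Finite.card_le_one_iff_subsingleton.1 ht
      have : W = ⊤ := by
        rw [eq_top_iff, ← htop]
        exact iSup_le fun U => (congrArg Subtype.val (Subsingleton.elim U ⟨W, hWO⟩)).le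
      exact hb1 (hinj b fun w => hb w (this ▸ Submodule.mem_top))
    · let e : Fin (Nat.card O) ≃ O := (Finite.equivFin O).symm
      refine hprim (finrank F W) (Nat.card O) (fun i => (e i : Submodule F (Fin n → F))) (by omega)
        ⟨by omega, ?_, ?_, hind.comp e.injective, ?_⟩ ?_
      · exact Nat.pos_of_ne_zero fun h => hW (Submodule.finrank_eq_zero.1 h)
      · intro i
        obtain ⟨x, hx⟩ := (e i).2
        rw [← hx]; exact finrank_map ρ x W
      · rw [← htop]; exact e.iSup_comp (g := fun U : O => (U : Submodule F (Fin n → F)))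
      · intro x hx
        let f : O → O := fun U => ⟨_, hact ⟨x, hx⟩ U U.2⟩
        have hf : Function.Injective f := fun U U' h => Subtype.ext
          (Submodule.map_injective_of_injective (injective_apply ρ ⟨x, hx⟩) (congrArg Subtype.val h))
        refine ⟨(e.trans (Equiv.ofBijective f (Finite.injective_iff_bijective.1 hf))).trans e.symm,
          fun i => ?_⟩
        simp only [Equiv.trans_apply, Equiv.apply_symm_apply, Equiv.ofBijective_apply]
        rfl
  have := hab.solvable (g := ⟨g, hg⟩) (fun h => hg1 (congrArg Subtype.val h))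
  rw [Module.finrank_fin_fun] at this
  exact this

end Cfsg.Agent.S5876
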