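import Cfsg.Statements.S5877
import Cfsg.Agent.Lib.C6.Eig2

set_option autoImplicit false
open Cfsg

namespace Cfsg.Agent.S5877

open Cfsg.Lib.C6 Cfsg.Geo commutatorElement in

/-- Eigenspaces of elements normalising an absolutely irreducible extraspecial group. Let F be a finite field, r a prime, and R ≤ GL_n(F) an absolutely irreducible extraspecial r-group (an r-group whose centre equals its derived subgroup and has order r) of exponent r or 4. Let g ∈ GL_n(F) normalise the product of R with the scalar matrices, have prime order ϖ and not be scalar, and let W be the eigenspace of g for any c ∈ F (W may be the zero subspace). Then dim W ≤ 3n/4 if ϖ = 2, dim W ≤ 2n/3 if ϖ = 3, and dim W ≤ n/2 if ϖ > 3; moreover if ϖ = 3 and 3 does not divide n then dim W ≤ n/2. -/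
theorem result {F : Type*} [Field F] [Fintype F] {n r ϖ : ℕ} (R : Subgroup (Matrix.GeneralLinearGroup (Fin n) F)) (hr : r.Prime) (hR : IsPGroup r R) (hZ : Nat.card (Subgroup.center R) = r) (hext : commutator R = Subgroup.center R) (hexp : Monoid.exponent R = r ∨ Monoid.exponent R = 4) (hirr : Cfsg.Geo.ActsAbsolutelyIrreducibly (Cfsg.Geo.matrixSet R)) (g : Matrix.GeneralLinearGroup (Fin n) F) (hg : g ∈ Cfsg.Geo.subgroupNormalizer (R ⊔ Cfsg.Geo.scalars (Fin n) F)) (hϖ : ϖ.Prime) (hord : orderOf g = ϖ) (hns : g ∉ Cfsg.Geo.scalars (Fin n) F) (c : F) :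
    (ϖ = 2 → 4 * Module.finrank F (Module.End.eigenspace (Matrix.toLin' (g : Matrix (Fin n) (Fin n) F)) c) ≤ 3 * n) ∧
    (ϖ = 3 → 3 * Module.finrank F (Module.End.eigenspace (Matrix.toLin' (g : Matrix (Fin n) (Fin n) F)) c) ≤ 2 * n) ∧
    (3 < ϖ → 2 * Module.finrank F (Module.End.eigenspace (Matrix.toLin' (g : Matrix (Fin n) (Fin n) F)) c) ≤ n) ∧
    (ϖ = 3 → ¬ 3 ∣ n → 2 * Module.finrank F (Module.End.eigenspace (Matrix.toLin' (g : Matrix (Fin n) (Fin n) F)) c) ≤ n) := by
  have hn : ¬ Sc g := fun ⟨a, ha⟩ => hns ((mem_scalars_iff g).2 (by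
    by_cases h0 : a = 0
    · refine ⟨1, ?_⟩
      have := g.mul_inv
      rw [ha, h0] at this ⊢
      simpa using this
    · exact ⟨Units.mk0 a h0, ha⟩))
  have : Nonempty (Fin n) := by
    by_contra h
    rw [not_nonempty_iff] at h
    exact hn ⟨1, Subsingleton.elim _ _⟩
  have hS := schur_of_absIrr hirr
  have hN := scalars_normal (ι := Fin n) (F := F)
  have hP : ∀ x ∈ R ⊔ scalars (Fin n) F, ∃ s ∈ R, ∃ a : F, x.1 = a • s.1 := fun x hx => by
    rw [← SetLike.mem_coe, Subgroup.mul_normal] at hx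
    obtain ⟨s, hs, z, hz, rfl⟩ := hx
    obtain ⟨a, ha⟩ := (mem_scalars_iff z).1 hz
    exact ⟨s, hs, a, by simp [ha]⟩
  have hE : Ex (R ⊔ scalars (Fin n) F) r := by
    refine ⟨hr, fun x hx y hy => ?_, fun M hM => hS M fun s hs => hM s (Subgroup.mem_sup_left hs)⟩
    obtain ⟨s, hs, a, ha⟩ := hP x hx
    obtain ⟨t, ht, b, hb⟩ := hP y hy
    have h1 : ⁅(⟨s, hs⟩ : R), ⟨t, ht⟩⁆ ∈ Subgroup.center R :=
      hext ▸ Subgroup.commutator_mem_commutator (Subgroup.mem_top _) (Subgroup.mem_top _)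
    have h2 := congrArg (fun z : Subgroup.center R => z.1.1.1) (pow_card_eq_one' (x := (⟨_, h1⟩ : Subgroup.center R)))
    obtain ⟨ζ, h3⟩ := (mem_center_iff hS).1 h1
    simp only [hZ, SubmonoidClass.coe_pow, Units.val_pow_eq_pow_val, h3, smul_pow, one_pow, OneMemClass.coe_one,
      Units.val_one] at h2
    refine ⟨ζ, smul_one_inj (h2.trans (one_smul _ _).symm), ?_⟩
    have h4 : s * t = (⁅(⟨s, hs⟩ : R), ⟨t, ht⟩⁆ : R).1 * (t * s) := by simp [commutatorElement_def, mul_assoc]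
    have h5 := congrArg Units.val h4
    rw [Units.val_mul, Units.val_mul, h3, smul_mul_assoc, one_mul, Units.val_mul] at h5
    rw [ha, hb, smul_mul_smul_comm, smul_mul_smul_comm, h5, smul_comm, mul_comm]
  have hg' : ∀ x ∈ R ⊔ scalars (Fin n) F, g⁻¹ * x * g ∈ R ⊔ scalars (Fin n) F := fun x hx => by
    simpa using conj_mem (Subgroup.inv_mem _ hg) hx
  have hp : g ^ ϖ = 1 := hord ▸ pow_orderOf_eq_one g
  have hco : ϖ ≠ 2 → ϖ ≠ r → 2 * dm g c ≤ n := fun h2 h => by
    simpa using hE.half_of_coprime (c := c) hg' hn hp (hϖ.odd_of_ne_two h2) ((Nat.coprime_primes hϖ hr).2 h)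
  change (_ → 4 * dm g c ≤ _) ∧ (_ → 3 * dm g c ≤ _) ∧ (_ → 2 * dm g c ≤ _) ∧ (_ → _ → 2 * dm g c ≤ _)
  refine ⟨fun _ => by simpa using hE.four_dm (c := c) hg' hn, fun h => ?_, fun h => ?_, fun h h3 => ?_⟩
  · by_cases h2 : r = 2
    · have := hco (by omega) (by omega); omega
    · simpa using hE.three_dm' (c := c) h2 hg' hn
  · by_cases h2 : ϖ = r
    · subst h2
      simpa using hE.half_of_five (c := c) (hϖ.five_le_of_ne_two_of_ne_three (by omega) (by omega)) hg' hn hp
    · exact hco (by omega) h2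
  · by_cases h2 : ϖ = r
    · simpa using hE.half_of_not_dvd (c := c) (by simpa [← h2, h] using h3) hg' hn
    · exact hco (by omega) h2

end Cfsg.Agent.S5877
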