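import Cfsg.Statements.S5942
import Cfsg.Agent.Lib.PSL2.Maximal

set_option autoImplicit false
open Cfsg

namespace Cfsg.Agent.S5942

/-- Let K and F be finite fields of odd characteristic with #F = (#K)^r for an odd prime r. Then PSL_2(F) has a maximal subgroup isomorphic to PSL_2(K). -/
theorem result {F K : Type*} [Field F] [Fintype F] [Field K] [Fintype K] (q r : ℕ) (hK : Fintype.card K = q) (hF : Fintype.card F = q ^ r) (hq : Odd q) (hr : r.Prime) (hr2 : r ≠ 2) : ∃ H : Subgroup (Matrix.ProjectiveSpecialLinearGroup (Fin 2) F), IsCoatom H ∧ Nonempty (H ≃* Matrix.ProjectiveSpecialLinearGroup (Fin 2) K) := by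
  open Cfsg.Lib.PSL2 in
  subst hK
  rw [← Nat.card_eq_fintype_card] at hF hq
  rw [← Nat.card_eq_fintype_card] at hF
  obtain ⟨f⟩ := nonempty_ringHom_of_card_pow hF.symm
  exact ⟨_, isCoatom_comap_range_subHom f hF hr (by rintro h; rw [h] at hq; revert hq; decide) 1,
    equiv_comap_range_subHom_psl f hF (Or.inl (hr.odd_of_ne_two hr2)) 1⟩

end Cfsg.Agent.S5942
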