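import Cfsg.Statements.S5944
import Cfsg.Agent.Lib.Perm.Sym

set_option autoImplicit false
open Cfsg

namespace Cfsg.Agent.S5944

/-- For n ≠ 4, every proper subgroup of the symmetric group S_n other than the alternating group A_n has index at least n. -/
theorem result (n : ℕ) (hn : n ≠ 4) (H : Subgroup (Equiv.Perm (Fin n))) (hH : H ≠ ⊤) (hA : H ≠ alternatingGroup (Fin n)) : n ≤ H.index := by
  have h1 : H.index ≠ 1 := mt Subgroup.index_eq_one.1 hH
  have h2 : H.index ≠ 2 := mt Equiv.Perm.eq_alternatingGroup_of_index_eq_two hA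
  have h0 : H.index ≠ 0 := Subgroup.index_ne_zero_of_finite
  by_cases h5 : 5 ≤ n
  · simpa using Lib.Perm.card_le_index (H := H) (by simpa using h5) (by omega)
  · omega

end Cfsg.Agent.S5944
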