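import Cfsg.Statements.S5949
import Cfsg.Agent.Lib.GLC.Elus

set_option autoImplicit false
open scoped MatrixGroups
open Cfsg

namespace Cfsg.Agent.S5949

/-- Elements of prime order of PSL_n(q) with no fixed `m`-space. Here `T = PSL_n(F)` for a field `F` with `q = p^f` elements (`n ≥ 2`, `(n, q) ≠ (2, 2), (2, 3)`); an element of `T` of prime order `r` is represented by a matrix `x` of determinant 1 with `x^r` scalar and `x` not scalar; `i` denotes the multiplicative order of `q` modulo `r` (when `r ≠ p`), and `(a)_r` the `r`-part of `a`. Let `1 ≤ m ≤ n/2` and let `r` be a prime dividing the number of `m`-dimensional subspaces of `F^n`. Then every element of `T` of order `r` fixes some `m`-dimensional subspace (the action on `m`-spaces is `r`-elusive) if and only if `r ≠ p` and either (i) `i = 1` and (`r ∣ m`, or `(q−1)_r ≥ (n)_r` where in addition `q ≡ 1 (mod 4)` is required when `r = 2` and `n` is even), or (ii) `2 ≤ i ≤ m` and `n mod i ≥ m mod i`. -/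
theorem result {F : Type*} [Field F] [Fintype F] {p : ℕ} [Fact p.Prime] [CharP F p] {q : ℕ} (hq : Fintype.card F = q)
    (n m : ℕ) (hn : 2 ≤ n) (hT : (n, q) ≠ (2, 2) ∧ (n, q) ≠ (2, 3)) (hm : 1 ≤ m) (hmn : 2 * m ≤ n)
    (r : ℕ) [Fact r.Prime] (hrΩ : r ∣ Nat.card {W : Submodule F (Fin n → F) // Module.finrank F ↥W = m}) :
    (∀ x : Matrix.SpecialLinearGroup (Fin n) F,
      (∃ c : F, ((x ^ r : Matrix.SpecialLinearGroup (Fin n) F) : Matrix (Fin n) (Fin n) F) = c • (1 : Matrix (Fin n) (Fin n) F)) →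
      (∀ c : F, (x : Matrix (Fin n) (Fin n) F) ≠ c • (1 : Matrix (Fin n) (Fin n) F)) →
      ∃ W : Submodule F (Fin n → F), Module.finrank F ↥W = m ∧ W.map (Matrix.toLin' (x : Matrix (Fin n) (Fin n) F)) ≤ W) ↔
    (r ≠ p ∧
      ((orderOf (q : ZMod r) = 1 ∧ (r ∣ m ∨ (padicValNat r n ≤ padicValNat r (q - 1) ∧ (r = 2 → Even n → q % 4 = 1)))) ∨
       (2 ≤ orderOf (q : ZMod r) ∧ orderOf (q : ZMod r) ≤ m ∧ m % orderOf (q : ZMod r) ≤ n % orderOf (q : ZMod r)))) := by
  open Cfsg.Lib.Symp Cfsg.Lib.GLC Polynomial Module in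
  have hr : r.Prime := Fact.out
  rw [← Nat.card_eq_fintype_card] at hq
  subst hq
  obtain ⟨j, hj, h1⟩ := exists_dvd_of_dvd_nSub hr (by simp; omega) hrΩ
  rw [finrank_fin_fun] at h1
  have hp : r ≠ p := by
    rintro rfl
    exact hr.not_dvd_one ((Nat.dvd_sub_iff_right (Nat.one_le_pow _ _ Nat.card_pos)
      (dvd_pow (char_dvd_card r) (by omega))).1 h1)
  have h0 : (r : F) ≠ 0 := mt (CharP.cast_eq_zero_iff F p r).1 fun h => hp ((Nat.prime_dvd_prime_iff_eq Fact.out hr).1 h).symm
  haveI : Nonempty (Fin n) := ⟨⟨0, by omega⟩⟩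
  rw [forall_sl_iff (P := fun f => ∃ W : Submodule F (Fin n → F), finrank F W = m ∧ W.map f ≤ W),
    elSL_iff h0 (Q := fun D => ∃ ν ≤ D, ν.sum = m) ?_ ?_ (finrank_fin_fun F) rfl
      ⟨.replicate m 1, (Multiset.replicate_le_replicate _).2 (by omega), by simp⟩, and_iff_right hp]
  · rw [dvd_pow_sub_one_iff Nat.card_pos] at h1
    refine or_congr (and_congr_right fun h => ?_) (and_congr_right fun h => ?_)
    · refine or_congr_left ⟨fun ⟨ν, h2, h3⟩ => ?_, fun ⟨a, h2⟩ => ⟨.replicate a r,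
        (Multiset.replicate_le_replicate _).2 ((Nat.le_div_iff_mul_le hr.pos).2 (by nlinarith)), by simp [h2, mul_comm]⟩⟩
      obtain ⟨a, -, rfl⟩ := Multiset.le_replicate_iff.1 h2
      simp [← h3]
    generalize orderOf (Nat.card F : ZMod r) = i at h h1
    have h2 := Nat.le_of_dvd (by omega) h1
    refine ⟨fun h3 => ?_, fun h3 k b _ h4 => (exists_le_sum_iff (by omega)).2 (.inr ⟨h3.1, h3.2.trans ?_⟩)⟩
    · refine ((exists_le_sum_iff (by have := Nat.mod_add_div' n i; omega)).1 (h3 _ _ (Nat.div_pos (by omega)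
        (by omega)).ne' (Nat.mod_add_div' n i))).resolve_left fun h4 => ?_
      have h5 := Nat.mod_lt n (show 0 < i by omega)
      have h6 := Nat.mod_add_div n i
      rw [show n - j = n % i - j + i * (n / i) by omega, Nat.dvd_add_left (dvd_mul_right _ _)] at h1
      have := Nat.le_of_dvd (by omega) h1
      omega
    · rw [← h4, Nat.add_mul_mod_self_right]
      exact Nat.mod_le _ _
  · rintro f c - ⟨W, h2, h3⟩
    exact ⟨W, h2, by rintro _ ⟨v, hv, rfl⟩; exact W.smul_mem c (h3 ⟨v, hv, rfl⟩)⟩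
  · intro f hf
    simp only [Submodule.map_le_iff_le_comap]
    exact (exists_invariant_iff hf).trans (exists_le_map_iff (Q := (·.sum = m))).symm

end Cfsg.Agent.S5949
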