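import Cfsg.Statements.S5950
import Cfsg.Agent.Lib.GLC.Elus

set_option autoImplicit false
open scoped MatrixGroups
open Cfsg

namespace Cfsg.Agent.S5950

/-- Elements of prime order of PSL_n(q) fixing no decomposition `F^n = U ⊕ W` with `dim U = m`. Here `T = PSL_n(F)` for a field `F` with `q = p^f` elements (`n ≥ 2`, `(n, q) ≠ (2, 2), (2, 3)`); an element of `T` of prime order `r` is represented by a matrix `x` of determinant 1 with `x^r` scalar and `x` not scalar; `i` denotes the multiplicative order of `q` modulo `r` (when `r ≠ p`), and `(a)_r` the `r`-part of `a`. Let `n ≥ 3`, `1 ≤ m < n/2`, and let `r` be a prime dividing the number of such decompositions (unordered pairs `{U, W}` of complementary subspaces with `dim U = m`; since `m ≠ n − m` these are the ordered pairs with `dim U = m`). Then every element of `T` of order `r` fixes such a pair (fixes both `U` and `W` for some complementary `U, W` with `dim U = m`) if and only if one of: (i) `r = p > 2` and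 every partition of `n` into parts of size at most `p` contains, as a sub-multiset, a partition of `m`; (ii) `r = p = 2` and `n` is odd or `m` is even; (iii) `r ≠ p`, `i = 1`, and `r ∣ m` or `(q−1)_r ≥ (n)_r` (with `q ≡ 1 (mod 4)` required when `r = 2` and `n` is even); (iv) `r ≠ p`, `2 ≤ i ≤ m` and `n mod i ≥ m mod i`. -/
theorem result {F : Type*} [Field F] [Fintype F] {p : ℕ} [Fact p.Prime] [CharP F p] {q : ℕ} (hq : Fintype.card F = q)
    (n m : ℕ) (hn : 3 ≤ n) (hm : 1 ≤ m) (hmn : 2 * m < n)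
    (r : ℕ) [Fact r.Prime]
    (hrΩ : r ∣ Nat.card {P : Submodule F (Fin n → F) × Submodule F (Fin n → F) // IsCompl P.1 P.2 ∧ Module.finrank F ↥P.1 = m}) :
    (∀ x : Matrix.SpecialLinearGroup (Fin n) F,
      (∃ c : F, ((x ^ r : Matrix.SpecialLinearGroup (Fin n) F) : Matrix (Fin n) (Fin n) F) = c • (1 : Matrix (Fin n) (Fin n) F)) →
      (∀ c : F, (x : Matrix (Fin n) (Fin n) F) ≠ c • (1 : Matrix (Fin n) (Fin n) F)) →
      ∃ U W : Submodule F (Fin n → F), IsCompl U W ∧ Module.finrank F ↥U = m ∧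
        U.map (Matrix.toLin' (x : Matrix (Fin n) (Fin n) F)) ≤ U ∧ W.map (Matrix.toLin' (x : Matrix (Fin n) (Fin n) F)) ≤ W) ↔
    ((r = p ∧ 2 < p ∧ (∀ μ : Multiset ℕ, (∀ a ∈ μ, 0 < a ∧ a ≤ p) → μ.sum = n → ∃ ν : Multiset ℕ, ν ≤ μ ∧ ν.sum = m)) ∨
     (r = p ∧ p = 2 ∧ (Odd n ∨ Even m)) ∨
     (r ≠ p ∧
      ((orderOf (q : ZMod r) = 1 ∧ (r ∣ m ∨ (padicValNat r n ≤ padicValNat r (q - 1) ∧ (r = 2 → Even n → q % 4 = 1)))) ∨
       (2 ≤ orderOf (q : ZMod r) ∧ orderOf (q : ZMod r) ≤ m ∧ m % orderOf (q : ZMod r) ≤ n % orderOf (q : ZMod r))))) := by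
  open Cfsg.Lib.Symp Cfsg.Lib.GLC Polynomial Module in
  have hr : r.Prime := Fact.out
  rw [← Nat.card_eq_fintype_card] at hq
  subst hq
  haveI : Nonempty (Fin n) := ⟨⟨0, by omega⟩⟩
  have hP : ∀ (f : End F (Fin n → F)) (c : F), (∃ U W : Submodule F (Fin n → F), IsCompl U W ∧ finrank F U = m ∧
      U.map f ≤ U ∧ W.map f ≤ W) → ∃ U W : Submodule F (Fin n → F), IsCompl U W ∧ finrank F U = m ∧
      U.map (c • f) ≤ U ∧ W.map (c • f) ≤ W := by
    rintro f c ⟨U, W, h2, h3, h5, h6⟩
    exact ⟨U, W, h2, h3, by rintro _ ⟨v, hv, rfl⟩; exact U.smul_mem c (h5 ⟨v, hv, rfl⟩),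
      by rintro _ ⟨v, hv, rfl⟩; exact W.smul_mem c (h6 ⟨v, hv, rfl⟩)⟩
  have hQ : ∀ f : End F (Fin n → F), (∃ U W : Submodule F (Fin n → F), IsCompl U W ∧ finrank F U = m ∧
      U.map f ≤ U ∧ W.map f ≤ W) ↔ ∃ ν ≤ (typ f).map natDegree, ν.sum = m := fun f => by
    simp only [Submodule.map_le_iff_le_comap]
    exact exists_isCompl_iff.trans (exists_le_map_iff (Q := (·.sum = m))).symm
  have h1 : ∃ ν ≤ Multiset.replicate n 1, ν.sum = m :=
    ⟨.replicate m 1, (Multiset.replicate_le_replicate _).2 (by omega), by simp⟩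
  rw [forall_sl_iff (P := fun f => ∃ U W : Submodule F (Fin n → F), IsCompl U W ∧ finrank F U = m ∧
      U.map f ≤ U ∧ W.map f ≤ W)]
  rcases eq_or_ne r p with rfl | hp
  · have h2 : (ElSL r fun f => ∃ U W : Submodule F (Fin n → F), IsCompl U W ∧ finrank F U = m ∧
        U.map f ≤ U ∧ W.map f ≤ W) ↔ ∀ μ : Multiset ℕ, (∀ a ∈ μ, 0 < a ∧ a ≤ r) → μ.sum = n → ∃ ν ≤ μ, ν.sum = m := by
      refine ⟨fun h μ h2 h3 => ?_, fun h f _ ⟨c, h2⟩ _ => ?_⟩
      · obtain ⟨f, hf⟩ := exists_blocks_of_finrank (V := Fin n → F) (jt_monic (1 : F) μ) (by simpa [jt_map_natDegree])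
        have h4 := hf.typ_eq (jt_pp 1 fun a ha => (h2 a ha).1)
        by_cases h5 : ∃ c : F, f = c • 1
        · obtain ⟨c, hc⟩ := h5
          have h6 : μ = .replicate _ 1 := Multiset.eq_replicate_card.2 fun a ha => le_antisymm (by
            simpa [-map_one] using hf.natDegree_eq_one hc (Multiset.mem_map_of_mem _ ha)) (h2 a ha).1
          rw [h6, Multiset.sum_replicate, smul_eq_mul, mul_one] at h3
          rwa [h6, h3]
        have := (hQ f).1 (h f (by simp [hf.jt_det]) ⟨1, by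
          rw [one_smul, ← pow_one r, pow_char_pow_eq_one_iff, pow_one, ← one_smul F (1 : End F _)]
          exact hf.jt_pow_eq_zero_iff.2 fun a ha => (h2 a ha).2⟩ h5)
        rwa [h4, jt_map_natDegree] at this
      · obtain ⟨d, rfl⟩ := (bijective_frobenius F r).2 c
        have h3 : (f - d • 1) ^ r = 0 := by
          rw [← pow_one (f - d • 1), ← aeval_X_sub_C_pow, ← map_pow, pow_one, sub_pow_char, map_sub, aeval_X_pow, h2,
            ← C_pow, aeval_C, Algebra.algebraMap_eq_smul_one, frobenius_def, sub_self]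
        obtain ⟨μ, h4, h5⟩ := exists_jt h3
        have h6 := h5 ▸ blocks_typ f
        rw [hQ, h5, jt_map_natDegree]
        exact h μ (fun a ha => ⟨h4 a ha, h6.jt_pow_eq_zero_iff.1 h3 a ha⟩) (h6.jt_sum.trans (finrank_fin_fun F))
    rw [h2]
    rcases hr.two_le.eq_or_lt with rfl | h3
    · simp only [lt_irrefl, false_and, true_and, false_or, ne_eq, not_true, or_false]
      refine ⟨fun h => or_iff_not_imp_left.2 fun h3 => ?_, fun h μ h3 h4 => ?_⟩
      · obtain ⟨k, rfl⟩ := Nat.not_odd_iff_even.1 h3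
        obtain ⟨ν, h4, h5⟩ := h (.replicate k 2) (by simp [Multiset.mem_replicate]) (by simp [mul_two])
        obtain ⟨a, -, rfl⟩ := Multiset.le_replicate_iff.1 h4
        simp [← h5]
      · obtain ⟨a, b, rfl⟩ : ∃ a b, μ = .replicate a 1 + .replicate b 2 :=
          ⟨_, _, (Multiset.filter_add_not (· = 1) μ).symm.trans (congrArg₂ _ (Multiset.filter_eq' _ _)
            (Multiset.eq_replicate_card.2 fun a ha => by
              have := Multiset.mem_filter.1 ha
              have := h3 a this.1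
              omega))⟩
        simp only [Multiset.sum_add, Multiset.sum_replicate, smul_eq_mul, mul_one] at h4
        rw [exists_le_sum_iff (by omega)]
        rw [Nat.odd_iff, Nat.even_iff] at h
        omega
    · simp [h3, h3.ne']
  have h0 : (r : F) ≠ 0 := mt (CharP.cast_eq_zero_iff F p r).1 fun h => hp ((Nat.prime_dvd_prime_iff_eq Fact.out hr).1 h).symm
  obtain ⟨j, hj, h1'⟩ := exists_dvd_of_dvd_nSub hr (by simp; omega) (dvd_nSub_of_isCompl hr (not_dvd_card p hr hp) hrΩ)
  rw [elSL_iff h0 (Q := fun D => ∃ ν ≤ D, ν.sum = m) (fun f c _ => hP f c) (fun f _ => hQ f) (finrank_fin_fun F) rfl h1]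
  simp only [hp, false_and, false_or, ne_eq, not_false_iff, true_and]
  clear h1
  rename' h1' => h1
  rw [finrank_fin_fun, dvd_pow_sub_one_iff Nat.card_pos] at h1
  refine or_congr (and_congr_right fun h => ?_) (and_congr_right fun h => ?_)
  · refine or_congr_left ⟨fun ⟨ν, h2, h3⟩ => ?_, fun ⟨a, h2⟩ => ⟨.replicate a r,
      (Multiset.replicate_le_replicate _).2 ((Nat.le_div_iff_mul_le hr.pos).2 (by nlinarith)), by simp [h2, mul_comm]⟩⟩
    obtain ⟨a, -, rfl⟩ := Multiset.le_replicate_iff.1 h2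
    simp [← h3]
  generalize orderOf (Nat.card F : ZMod r) = i at h h1
  have h2 := Nat.le_of_dvd (by omega) h1
  refine ⟨fun h3 => ?_, fun h3 k b _ h4 => (exists_le_sum_iff (by omega)).2 (.inr ⟨h3.1, h3.2.trans ?_⟩)⟩
  · refine ((exists_le_sum_iff (by have := Nat.mod_add_div' n i; omega)).1 (h3 _ _ (Nat.div_pos (by omega)
      (by omega)).ne' (Nat.mod_add_div' n i))).resolve_left fun h4 => ?_
    have h5 := Nat.mod_lt n (show 0 < i by omega)
    have h6 := Nat.mod_add_div n i
    rw [show n - j = n % i - j + i * (n / i) by omega, Nat.dvd_add_left (dvd_mul_right _ _)] at h1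
    have := Nat.le_of_dvd (by omega) h1
    omega
  · rw [← h4, Nat.add_mul_mod_self_right]
    exact Nat.mod_le _ _

end Cfsg.Agent.S5950
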