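import Cfsg.Statements.S5951
import Cfsg.Agent.Lib.GLC.Elus

set_option autoImplicit false
open scoped MatrixGroups
open Cfsg

namespace Cfsg.Agent.S5951

/-- Elements of prime order of PSL_n(q) fixing no pair of subspaces `U < W` with `dim U = m`, `dim W = n − m`. Here `T = PSL_n(F)` for a field `F` with `q = p^f` elements (`n ≥ 2`, `(n, q) ≠ (2, 2), (2, 3)`); an element of `T` of prime order `r` is represented by a matrix `x` of determinant 1 with `x^r` scalar and `x` not scalar; `i` denotes the multiplicative order of `q` modulo `r` (when `r ≠ p`), and `(a)_r` the `r`-part of `a`. Let `1 ≤ m < n/2` and let `r` be a prime dividing the number of such pairs. Then every element of `T` of order `r` fixes such a pair (both `U` and `W`) if and only if `r ≠ p` and either (i) `i = 1` and (`r ∣ m`, or `(q−1)_r ≥ (n)_r` with `q ≡ 1 (mod 4)` required when `r = 2` and `n` is even), or (ii) `2 ≤ i ≤ m` and `n mod i ≥ 2 (m mod i)`. -/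
theorem result {F : Type*} [Field F] [Fintype F] {p : ℕ} [Fact p.Prime] [CharP F p] {q : ℕ} (hq : Fintype.card F = q)
    (n m : ℕ) (hn : 2 ≤ n) (hT : (n, q) ≠ (2, 2) ∧ (n, q) ≠ (2, 3)) (hm : 1 ≤ m) (hmn : 2 * m < n)
    (r : ℕ) [Fact r.Prime]
    (hrΩ : r ∣ Nat.card {P : Submodule F (Fin n → F) × Submodule F (Fin n → F) //
        P.1 ≤ P.2 ∧ Module.finrank F ↥P.1 = m ∧ Module.finrank F ↥P.2 = n - m}) :
    (∀ x : Matrix.SpecialLinearGroup (Fin n) F,
      (∃ c : F, ((x ^ r : Matrix.SpecialLinearGroup (Fin n) F) : Matrix (Fin n) (Fin n) F) = c • (1 : Matrix (Fin n) (Fin n) F)) →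
      (∀ c : F, (x : Matrix (Fin n) (Fin n) F) ≠ c • (1 : Matrix (Fin n) (Fin n) F)) →
      ∃ U W : Submodule F (Fin n → F), U ≤ W ∧ Module.finrank F ↥U = m ∧ Module.finrank F ↥W = n - m ∧
        U.map (Matrix.toLin' (x : Matrix (Fin n) (Fin n) F)) ≤ U ∧ W.map (Matrix.toLin' (x : Matrix (Fin n) (Fin n) F)) ≤ W) ↔
    (r ≠ p ∧
      ((orderOf (q : ZMod r) = 1 ∧ (r ∣ m ∨ (padicValNat r n ≤ padicValNat r (q - 1) ∧ (r = 2 → Even n → q % 4 = 1)))) ∨
       (2 ≤ orderOf (q : ZMod r) ∧ orderOf (q : ZMod r) ≤ m ∧ 2 * (m % orderOf (q : ZMod r)) ≤ n % orderOf (q : ZMod r)))) := by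
  open Cfsg.Lib.Symp Cfsg.Lib.GLC Polynomial Module in
  have hr : r.Prime := Fact.out
  rw [← Nat.card_eq_fintype_card] at hq
  subst hq
  obtain ⟨j, hj, h1⟩ : ∃ j < 2 * m, r ∣ Nat.card F ^ (n - j) - 1 := by
    rw [card_flags, hr.dvd_mul] at hrΩ
    rcases hrΩ with h | h
    · have := nSub_sub (F := F) (V := Fin n → F) (m := m) (by simp; omega)
      rw [finrank_fin_fun] at this
      obtain ⟨j, h1, h2⟩ := exists_dvd_of_dvd_nSub hr (by simp; omega) (this ▸ h)
      exact ⟨j, by omega, by simpa using h2⟩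
    · obtain ⟨j, h1, h2⟩ := exists_dvd_of_dvd_nSub hr (by simp; omega) h
      exact ⟨m + j, by omega, by simpa [Nat.sub_sub] using h2⟩
  have hp : r ≠ p := by
    rintro rfl
    exact hr.not_dvd_one ((Nat.dvd_sub_iff_right (Nat.one_le_pow _ _ Nat.card_pos)
      (dvd_pow (char_dvd_card r) (by omega))).1 h1)
  have h0 : (r : F) ≠ 0 := mt (CharP.cast_eq_zero_iff F p r).1 fun h => hp ((Nat.prime_dvd_prime_iff_eq Fact.out hr).1 h).symm
  haveI : Nonempty (Fin n) := ⟨⟨0, by omega⟩⟩
  rw [forall_sl_iff (P := fun f => ∃ U W : Submodule F (Fin n → F), U ≤ W ∧ finrank F U = m ∧ finrank F W = n - m ∧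
      U.map f ≤ U ∧ W.map f ≤ W),
    elSL_iff h0 (Q := fun D => ∃ ν ≤ D, ν.sum = n - m ∧ ∃ ρ ≤ ν, ρ.sum = m) ?_ (fun f hf => exists_flag_iff hf)
      (finrank_fin_fun F) rfl ⟨.replicate (n - m) 1, (Multiset.replicate_le_replicate _).2 (by omega), by simp,
        .replicate m 1, (Multiset.replicate_le_replicate _).2 (by omega), by simp⟩, and_iff_right hp]
  · rw [dvd_pow_sub_one_iff Nat.card_pos] at h1
    refine or_congr (and_congr_right fun h => ?_) (and_congr_right fun h => ?_)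
    · refine ⟨.imp_left fun ⟨ν, h2, _, ρ, h3, h4⟩ => ?_, fun h2 => or_iff_not_imp_right.2 fun h3 => ?_⟩
      · obtain ⟨a, -, rfl⟩ := Multiset.le_replicate_iff.1 (h3.trans h2)
        simp [← h4]
      obtain ⟨a, rfl⟩ := h2.resolve_right h3
      obtain ⟨c, k, rfl, -⟩ := (exists_kummer_iff (orderOf_card_eq_one_iff.1 h) (by omega)).2 h3
      rw [Nat.mul_div_cancel _ hr.pos]
      have : 2 * a < k := by nlinarith
      exact ⟨.replicate (k - a) r, (Multiset.replicate_le_replicate _).2 (by omega), by simp [Nat.mul_sub, mul_comm],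
        .replicate a r, (Multiset.replicate_le_replicate _).2 (by omega), by simp [mul_comm]⟩
    generalize orderOf (Nat.card F : ZMod r) = i at h h1
    have h2 := Nat.le_of_dvd (by omega) h1
    have h5 := Nat.mod_lt n (show 0 < i by omega)
    have h6 := Nat.mod_add_div' n i
    have h7 := Nat.mod_add_div' m i
    simp only [exists_le_replicate_iff, Multiset.sum_add, Multiset.sum_replicate, smul_eq_mul, mul_one]
    refine ⟨fun h3 => ?_, fun h3 k b _ h4 => ?_⟩
    · obtain ⟨k, h8, a, h9, h10, l, h11, b, h12, h13⟩ := h3 _ _ (Nat.div_pos (by omega) (by omega)).ne' h6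
      obtain ⟨c, hc⟩ := Nat.exists_eq_add_of_le h9
      rw [hc, add_mul] at h6
      have h14 : m % i = l := by rw [← h13, Nat.add_mul_mod_self_right, Nat.mod_eq_of_lt (by omega)]
      have h15 : m % i = n % i - k := by
        rw [show m = n % i - k + c * i by omega, Nat.add_mul_mod_self_right, Nat.mod_eq_of_lt (by omega)]
      refine ⟨not_lt.1 fun h4 => ?_, by omega⟩
      rw [Nat.mod_eq_of_lt h4] at h14 h15
      rw [show n - j = n % i - j + (a + c) * i by rw [add_mul]; omega, Nat.dvd_add_left (dvd_mul_left _ _)] at h1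
      have := Nat.le_of_dvd (by omega) h1
      omega
    · have h8 : n % i ≤ k := by rw [← h4, Nat.add_mul_mod_self_right]; exact Nat.mod_le _ _
      obtain ⟨a, c, h9, h10, h11, h12⟩ : ∃ a c, a ≤ m / i ∧ c ≤ m / i ∧ a + c ≤ b ∧ 2 * m ≤ k + a * i + c * i := by
        rcases le_total (2 * (m / i)) b with h9 | h9
        · exact ⟨_, _, le_rfl, le_rfl, by omega, by omega⟩
        · exact ⟨b / 2, b - b / 2, by omega, by omega, by omega, by
            rw [add_assoc, ← add_mul, Nat.add_sub_cancel' (Nat.div_le_self _ _)]; omega⟩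
      have h13 := Nat.mul_le_mul_right i h9
      have h14 := Nat.mul_le_mul_right i h10
      obtain ⟨d, rfl⟩ := Nat.exists_eq_add_of_le h11
      rw [add_mul, add_mul] at h4
      exact ⟨k - (m - c * i), by omega, a + d, by omega, by rw [add_mul]; omega, m - a * i, by omega, a, by omega, by omega⟩
  · rintro f c - ⟨U, W, h2, h3, h4, h5, h6⟩
    exact ⟨U, W, h2, h3, h4, by rintro _ ⟨v, hv, rfl⟩; exact U.smul_mem c (h5 ⟨v, hv, rfl⟩),
      by rintro _ ⟨v, hv, rfl⟩; exact W.smul_mem c (h6 ⟨v, hv, rfl⟩)⟩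

end Cfsg.Agent.S5951
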