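import Cfsg.Statements.S5952
import Cfsg.Agent.Lib.GLC.Elus

set_option autoImplicit false
open Cfsg

namespace Cfsg.Agent.S5952

/-- Which dimensions of invariant subspaces a semisimple linear map has. Let `V` be a finite-dimensional vector space over a field `F` and `f` an invertible semisimple linear map of `V`. Suppose `V` is the internal direct sum of the fixed space `C_V(f)` (the eigenspace for 1) and subspaces `U_1, …, U_s`, each `f`-invariant of dimension `a ≥ 1` on which `f` acts irreducibly (no `f`-invariant subspaces other than 0 and `U_j`). Let `0 < m < dim V` and `ℓ = m mod a`. Then `f` leaves some `m`-dimensional subspace invariant if and only if `dim C_V(f) ≥ m`, or `a ≤ m` and `dim C_V(f) ≥ ℓ`. -/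
theorem result {F V : Type*} [Field F] [AddCommGroup V] [Module F V]
    [FiniteDimensional F V] (f : V →ₗ[F] V) (hf : Function.Bijective f) (hss : Module.End.IsSemisimple f)
    {s a : ℕ} (ha : 1 ≤ a) (U : Fin s → Submodule F V)
    (hUinv : ∀ j, (U j).map f ≤ U j) (hUdim : ∀ j, Module.finrank F ↥(U j) = a)
    (hUirr : ∀ j, ∀ W : Submodule F V, W ≤ U j → W.map f ≤ W → W = ⊥ ∨ W = U j)
    (hdec : DirectSum.IsInternal (fun o : Option (Fin s) => o.elim (Module.End.eigenspace f 1) U))
    (m : ℕ) (hm : 0 < m) (hmV : m < Module.finrank F V) :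
    (∃ W : Submodule F V, Module.finrank F ↥W = m ∧ W.map f ≤ W) ↔
    (m ≤ Module.finrank F ↥(Module.End.eigenspace f 1) ∨
      (a ≤ m ∧ m % a ≤ Module.finrank F ↥(Module.End.eigenspace f 1))) := by
  open Cfsg.Lib.Symp Cfsg.Lib.GLC Polynomial Module in
  classical
  have hA0 : ∀ v ∈ End.eigenspace f 1, f v ∈ End.eigenspace f 1 := fun v hv => by
    have := End.mem_eigenspace_iff.1 hv
    rw [one_smul] at this
    rwa [this]
  have hA : ∀ j, ∀ v ∈ U j, f v ∈ U j := fun j v hv => hUinv j ⟨v, hv, rfl⟩
  have h1 : typ f = typ (f.restrict hA0) + ∑ j, typ (f.restrict (hA j)) :=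
    (typ_of_isInternal f hdec (by rintro (_ | j); exacts [hA0, hA j])).trans (Fintype.sum_option _)
  have h0 : ∀ {W : Submodule F V} (hW : ∀ v ∈ W, f v ∈ W) {d : ℕ}, (∀ P ∈ typ (f.restrict hW), P.natDegree = d) →
      ∃ b, (typ (f.restrict hW)).map natDegree = .replicate b d ∧ finrank F W = b * d := fun hW d h =>
    ⟨(typ (f.restrict hW)).card, by rw [Multiset.map_congr rfl h]; simp, by
      rw [(blocks_typ (f.restrict hW)).finrank_eq, Multiset.map_congr rfl h]; simp⟩
  obtain ⟨k, h2, hk⟩ := h0 hA0 (d := 1) fun P hP => le_antisymm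
    ((blocks_typ _).natDegree_eq_one (c := 1) (LinearMap.ext fun v => Subtype.ext (End.mem_eigenspace_iff.1 v.2)) hP)
    (typ_pp _ P hP).natDegree_pos
  choose b h3 _ using fun j => h0 (hA j) (d := a) fun P hP => by
    obtain ⟨W, h4, h5⟩ := (exists_invariant_iff (End.IsSemisimple.restrict (hA j) hss)).2
      ⟨{P}, Multiset.singleton_le.2 hP, rfl⟩
    rw [← (U j).finrank_map_subtype_eq, Multiset.map_singleton, Multiset.sum_singleton] at h4
    rcases hUirr j _ ((U j).map_subtype_le W) (by
      rintro _ ⟨_, ⟨u, hu, rfl⟩, rfl⟩; exact ⟨_, h5 u hu, rfl⟩) with h | h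
    · have := (typ_pp _ P hP).natDegree_pos
      rw [h, finrank_bot] at h4
      omega
    · rw [← h4, h, hUdim]
  have h4 : (typ f).map natDegree = .replicate k 1 + .replicate (∑ j, b j) a := by
    rw [h1, Multiset.map_add, h2, ← Multiset.coe_mapAddMonoidHom, map_sum, Multiset.coe_mapAddMonoidHom, Finset.sum_congr rfl fun j _ => h3 j]
    simp only [← Multiset.nsmul_singleton, Finset.sum_nsmul_assoc]
  have h5 := (blocks_typ f).finrank_eq
  rw [h4] at h5
  simp only [Submodule.map_le_iff_le_comap]
  refine (exists_invariant_iff hss).trans ((exists_le_map_iff (Q := (·.sum = m))).symm.trans ?_)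
  rw [h4, exists_le_sum_iff (by simpa [h5] using hmV.le), show finrank F (End.eigenspace f 1) = k from hk.trans (mul_one k)]

end Cfsg.Agent.S5952
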