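import Cfsg.Statements.S5953
import Cfsg.Agent.Lib.Unitary.ElusC

set_option autoImplicit false
open scoped MatrixGroups
open Cfsg

namespace Cfsg.Agent.S5953

open Cfsg.Lib.Unitary Cfsg.Lib.GLC Cfsg.Lib.Symp Polynomial Module

theorem le_replicate_of_add_self {α : Type*} {ρ T : Multiset α} (hT : T.Nodup) {a : α} {n : ℕ}
    (h : ρ + ρ ≤ T + .replicate (2 * n) a) : ρ.card ≤ n := by
  classical
  simpa using Multiset.card_le_card (show ρ ≤ .replicate n a from Multiset.le_iff_count.2 fun ψ => by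
    have := Multiset.count_le_of_le ψ h
    have := Multiset.nodup_iff_count_le_one.1 hT ψ
    simp only [Multiset.count_add, Multiset.count_replicate] at *
    split_ifs at * <;> omega)

theorem aux {F : Type*} [Field F] {σ : F →+* F} {q r i b c : ℕ} (u : UP σ q r i b c) {k m : ℕ}
    {ν : Multiset F[X]} (h1 : ∀ φ ∈ ν, RF r φ) :
    (∃ μ, μ + μ.map (dual σ) ≤ .replicate k (X - C 1) + ν ∧ (μ.map natDegree).sum = m) ↔
      ∃ j ρ, 2 * j ≤ k ∧ ρ + ρ.map (dual σ) ≤ ν ∧ j + ρ.card * b = m := by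
  have h0 : ∀ j (ρ : Multiset F[X]), .replicate j (X - C 1) + ρ + (Multiset.replicate j (X - C 1) + ρ).map
      (dual σ) = .replicate (2 * j) (X - C 1) + (ρ + ρ.map (dual σ)) := fun j ρ => by
    rw [Multiset.map_add, Multiset.map_replicate, dual_X_sub_one, two_mul, Multiset.replicate_add]; abel
  refine ⟨fun ⟨μ, h2, h3⟩ => ?_, fun ⟨j, ρ, h2, h3, h4⟩ => ⟨.replicate j (X - C 1) + ρ, ?_, ?_⟩⟩
  · obtain ⟨j, -, ρ, h4, rfl⟩ := exists_of_le_replicate_add (le_self_add.trans h2)
    have h5 := fun φ hφ => h1 φ (Multiset.mem_of_le h4 hφ)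
    have := eq_of_replicate_add (u.map_add_map h5).1 h1 (h0 j ρ ▸ h2)
    exact ⟨j, ρ, this.1, this.2, by simpa [u.sum_eq h5, -map_one] using h3⟩
  · rw [h0]
    exact add_le_add ((Multiset.replicate_le_replicate _).2 h2) h3
  · simpa [-map_one, u.sum_eq fun φ hφ => h1 φ (Multiset.mem_of_le (le_self_add.trans h3) hφ)] using h4

/-- Elements of prime order of PSU_n(q) with no fixed totally isotropic `m`-space. Here `T = PSU_n(q)` (`n ≥ 3`, `(n, q) ≠ (3, 2)`), realised through the matrices of determinant 1 over the field `F` with `q²` elements preserving the Hermitian form `h(u, v) = Σ u_i v_i^q`; an element of `T` of prime order `r` is such a matrix `x` with `x^r` scalar and `x` not scalar. For `r ≠ p` let `i` be the multiplicative order of `q` modulo `r`, `b = i/2` for `i` even and `b = i` for `i` odd, `c = i, i/2, 2i` according as `i ≡ 0, 2 (mod 4)` or `i` odd, and write `k = n mod c`, `ℓ = m mod b`, `ℓ' = m mod c`, `n' = ⌊n/b⌋`, `m' = ⌊m/b⌋`, `s =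 (r−1)/b`; `(a)_r` is the `r`-part of `a`. Let `1 ≤ m ≤ n/2` and let `r` be a prime dividing the number of totally isotropic `m`-spaces. Then every element of `T` of order `r` fixes a totally isotropic `m`-space if and only if either (i) `r = 2`, `p ≠ 2`, and (`m < n/2` or `(q+1)_2 ≤ (n)_2`); or (ii) `r ≠ p`, `r > 2`, `b ≤ m`, `k ≥ 2ℓ`, and either `i ≢ 2 (mod 4)`, or `i ≡ 2 (mod 4)`, `n' − 2m' ≥ s` and (`i > 2`, or `i = 2` and (`r ∣ m` or `(q+1)_r ≥ (n)_r`)). -/
theorem result {F : Type*} [Field F] [Fintype F] {p : ℕ} [Fact p.Prime] [CharP F p] {q : ℕ} (hq : Fintype.card F = q ^ 2)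
    (n m : ℕ) (hn : 3 ≤ n) (hT : (n, q) ≠ (3, 2)) (hm : 1 ≤ m) (hmn : 2 * m ≤ n)
    (r : ℕ) [Fact r.Prime]
    (hrΩ : r ∣ Nat.card {W : Submodule F (Fin n → F) // Module.finrank F ↥W = m ∧ (∀ u ∈ W, ∀ v ∈ W, Cfsg.hermForm n F q u v = 0)})
    (i b c : ℕ) (hi : i = orderOf (q : ZMod r)) (hb : b = if Even i then i / 2 else i)
    (hc : c = if i % 4 = 0 then i else if i % 4 = 2 then i / 2 else 2 * i) :
    (∀ x : Matrix.SpecialLinearGroup (Fin n) F, x ∈ Cfsg.SU n F q →
      (∃ z : F, ((x ^ r : Matrix.SpecialLinearGroup (Fin n) F) : Matrix (Fin n) (Fin n) F) = z • (1 : Matrix (Fin n) (Fin n) F)) →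
      (∀ z : F, (x : Matrix (Fin n) (Fin n) F) ≠ z • (1 : Matrix (Fin n) (Fin n) F)) →
      ∃ W : Submodule F (Fin n → F), Module.finrank F ↥W = m ∧ (∀ u ∈ W, ∀ v ∈ W, Cfsg.hermForm n F q u v = 0) ∧
        W.map (Matrix.toLin' (x : Matrix (Fin n) (Fin n) F)) ≤ W) ↔
    ((r = 2 ∧ p ≠ 2 ∧ (2 * m < n ∨ padicValNat 2 (q + 1) ≤ padicValNat 2 n)) ∨
     (r ≠ p ∧ 2 < r ∧ b ≤ m ∧ 2 * (m % b) ≤ n % c ∧
       (i % 4 ≠ 2 ∨ (i % 4 = 2 ∧ (r - 1) / b + 2 * (m / b) ≤ n / b ∧
         (2 < i ∨ (i = 2 ∧ (r ∣ m ∨ padicValNat r n ≤ padicValNat r (q + 1)))))))) := by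
  obtain ⟨σ, hσ⟩ := exists_isBar hq
  have h := hσ.isHerm (ι := Fin n)
  have hV : finrank F (Fin n → F) = n := by simp
  have hr : r.Prime := Fact.out
  haveI : Nonempty (Fin n) := ⟨⟨0, by omega⟩⟩
  have h0 : ∀ W : Submodule F (Fin n → F), (∀ u ∈ W, ∀ v ∈ W, hermForm n F q u v = 0) ↔
      W ≤ perp (stdForm σ (Fin n)) W := fun W => by
    simp only [SetLike.le_def, mem_perp, hσ.hermForm_eq]
  simp only [h0, Submodule.map_le_iff_le_comap] at hrΩ ⊢
  refine (hσ.forall_su_iff (P := fun f => ∃ W : Submodule F _, finrank F W = m ∧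
    W ≤ perp (stdForm σ (Fin n)) W ∧ ∀ x ∈ W, f x ∈ W)).trans ?_
  have hP : ∀ (g : (Fin n → F) ≃ₗ[F] (Fin n → F)) (c : Fˣ), (∃ W : Submodule F _, finrank F W = m ∧
      W ≤ perp (stdForm σ (Fin n)) W ∧ ∀ x ∈ W, g x ∈ W) → ∃ W : Submodule F _,
      finrank F W = m ∧ W ≤ perp (stdForm σ (Fin n)) W ∧ ∀ x ∈ W, (scal (Fin n → F) c * g :) x ∈ W :=
    fun g c => .imp fun W h => ⟨h.1, h.2.1, fun x hx => W.smul_mem c.1 (h.2.2 x hx)⟩
  replace hrΩ := hrΩ.trans (h.card_totIso_dvd hσ (m := n - 2 * m) (by omega))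
  have hrp : r ≠ p := by
    rintro rfl
    obtain ⟨j, -, h1⟩ := (hr.prime.dvd_finsetProd_iff _).1 hrΩ
    have h2 : r ∣ q ^ (n - 2 * m + j + 1) := dvd_pow (hσ.char_dvd r) (by omega)
    unfold uf at h1
    split_ifs at h1
    exacts [hr.not_dvd_one ((Nat.dvd_add_right h2).1 h1), hr.not_dvd_one
      ((Nat.dvd_sub_iff_right (pow_pos (zero_lt_two.trans_le hσ.two_le) _) h2).1 h1)]
  have hr0 := natCast_ne_zero_of_ne (F := F) hr hrp
  have hlt : ∀ {g : (Fin n → F) ≃ₗ[F] (Fin n → F)} {M : Multiset F}, g ∈ UG (stdForm σ (Fin n)) →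
      typ (g : End F (Fin n → F)) = lt M → (∀ a ∈ M, a * σ a = 1) → ((∃ W : Submodule F _,
        finrank F W = m ∧ W ≤ perp (stdForm σ (Fin n)) W ∧ ∀ x ∈ W, g x ∈ W) ↔
      ∃ N, N + N ≤ M ∧ N.card = m) := fun {g M} hg h1 h2 => by
    rw [h.exists_isotropic_iff hσ hg (h1 ▸ blocks_typ (g : End F (Fin n → F))).lt_isSemisimple, h1]
    refine ⟨fun ⟨ν, h3, h4⟩ => ?_, fun ⟨N, h3, h4⟩ => ⟨lt N, ?_, (lt_sum N).trans h4⟩⟩
    · obtain ⟨N, h5, rfl⟩ := exists_map_eq_of_le (le_self_add.trans h3)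
      change lt N + (lt N).map _ ≤ _ at h3
      rw [map_dual_lt fun a ha => h2 a (Multiset.mem_of_le h5 ha), ← lt_add] at h3
      exact ⟨N, (Multiset.map_le_map_iff fun _ _ e => C_injective (sub_right_injective e)).1 h3,
        (lt_sum N).symm.trans h4⟩
    · rw [map_dual_lt fun a ha => h2 a (Multiset.mem_of_le (le_self_add.trans h3) ha), ← lt_add]
      exact Multiset.map_le_map h3
  rcases eq_or_ne r 2 with rfl | hr2
  · have h2 : (2 : F) ≠ 0 := by exact_mod_cast hr0
    have h3 := hσ.exists_pow_eq_neg_one h2 (show n ≠ 0 by omega)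
    simp only [hrp.symm, lt_irrefl, ne_eq, not_false_eq_true, true_and, false_and, and_false, or_false]
    refine ⟨fun H => by_contra fun h4 => ?_, fun H => h.elSU_of hσ hP (fun g hg h4 _ ⟨s, hs, h5⟩ => ?_)
      fun g hg z hz h4 h5 => ?_⟩
    · obtain ⟨s, hs, h5⟩ := h3.2 (by omega)
      obtain ⟨k, rfl⟩ : ∃ k, m = k + 1 := ⟨m - 1, by omega⟩
      obtain rfl : n = 2 * (k + 1) := by omega
      have h6 : s ≠ -s := fun h => left_ne_zero_of_mul_eq_one hs
        ((mul_eq_zero.1 (show 2 * s = 0 by linear_combination h)).resolve_left h2)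
      have h7 : ∀ a ∈ ({s, -s} : Multiset F) + .replicate (2 * k) s, a * σ a = 1 := by
        simp +contextual [Multiset.mem_replicate, or_imp, hs]
      obtain ⟨g, hg, -, h8, h9⟩ := h.of_lt hσ H (fun a ha => left_ne_zero_of_mul_eq_one (h7 a ha))
        (map_dual_lt h7) (by simp; omega) (by simp; linear_combination -h5) (z := s ^ 2)
        (by simp +contextual [Multiset.mem_replicate, or_imp]) (a := s) (b := -s) (by simp) (by simp) h6
      obtain ⟨N, h10, h11⟩ := (hlt hg h8 h7).1 h9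
      have := le_replicate_of_add_self (by simpa using h6) h10
      omega
    · obtain ⟨k, l, h6, h7⟩ := typ_of_sq h2 one_ne_zero (f := (g : End F (Fin n → F)))
        (by rwa [one_pow, one_smul])
      have h8 : m ≤ k / 2 + l / 2 := by
        rcases l.even_or_odd with ⟨l, rfl⟩ | h8
        · omega
        have h9 := h3.1 ⟨s, hs, by
          simp only [h7.lt_det, hV, Multiset.prod_add, Multiset.prod_replicate, h8.neg_one_pow] at h5
          linear_combination -h5⟩
        have := Nat.odd_iff.1 h8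
        omega
      refine (hlt hg h7.lt_typ (by simp +contextual [Multiset.mem_replicate, or_imp])).2
        ⟨.replicate (min m (k / 2)) 1 + .replicate (m - min m (k / 2)) (-1), ?_, by simp⟩
      rw [add_add_add_comm, ← Multiset.replicate_add, ← Multiset.replicate_add]
      exact add_le_add ((Multiset.replicate_le_replicate _).2 (by omega))
        ((Multiset.replicate_le_replicate _).2 (by omega))
    · obtain ⟨s, k, h6, h7, -, h8⟩ := h.typ_of_nonsq hσ h2 hg.1 hz h4 h5
      refine (h.exists_isotropic_iff hσ hg.1 (isSemisimple_of_pow_eq hr0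
        (left_ne_zero_of_mul_eq_one hz) h5)).2 ⟨.replicate m (X - C s), ?_, by simp⟩
      rw [Multiset.map_replicate, (hσ.dual_of_norm_neg h2 h6).1, h8]
      exact add_le_add ((Multiset.replicate_le_replicate _).2 (by omega))
        ((Multiset.replicate_le_replicate _).2 (by omega))
  have u : UP σ q r i b c := ⟨hσ, hr, hr2, hr0, hi, hb, hc⟩
  simp only [hr2, hrp, lt_of_le_of_ne hr.two_le hr2.symm, ne_eq, not_false_eq_true, true_and,
    false_and, false_or]
  clear hi hb hc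
  obtain ⟨j₀, h1, h2⟩ := u.exists_dvd (e := 0) (by rwa [pow_zero, one_mul])
  have hb0 := u.b_pos
  have hc0 := u.c_pos
  have hcs := u.cases
  have h3 : n % c < 2 * m := by
    rw [show n = (n - 2 * m + j₀ + 1) + (2 * m - j₀ - 1) by omega, Nat.add_mod,
      Nat.mod_eq_zero_of_dvd h2, zero_add, Nat.mod_mod]
    exact (Nat.mod_le _ _).trans_lt (by omega)
  have h4 := Nat.le_of_dvd (by omega) h2
  have h5 := Nat.mod_lt n hc0
  have h6 := Nat.div_add_mod n c
  have h7 := Nat.div_add_mod m b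
  have hmod : ∀ j a, j < b → j + a * b = m → m % b = j ∧ m / b = a := fun j a h1 h2 => by
    rw [← h2, Nat.add_mul_mod_self_right, Nat.add_mul_div_right _ _ hb0, Nat.mod_eq_of_lt h1,
      Nat.div_eq_of_lt h1, zero_add]; exact ⟨rfl, rfl⟩
  obtain ⟨S, hS, h8⟩ := u.exists_finset
  have h9 : (r - 1) / b = S.card := by rw [← h8, Nat.mul_div_cancel _ hb0]
  rw [h9]
  refine ⟨fun H => ?_, fun ⟨h10, h11, H⟩ => u.elSU h hP (fun g hg hs k ν h12 h13 h14 => ?_)
    fun h12 h13 g hg hs k Q h14 h15 h16 => ?_⟩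
  · rcases eq_or_ne i 2 with h10 | h10
    · obtain rfl : b = 1 := by omega
      refine ⟨hm, by omega, .inr ⟨by omega, by_contra fun h11 => ?_, .inr ⟨h10,
        or_iff_not_imp_right.2 fun h11 => ?_⟩⟩⟩
      · obtain ⟨T, h12, h13, h14, g, hg, -, -, h15, h16⟩ := u.of_two h H h10 (t := n - 2 * (m - 1))
          (k := 2 * (m - 1)) (by omega) (by omega) (by omega)
        obtain ⟨N, h17, h18⟩ := (hlt hg h15 fun a ha => (Multiset.mem_add.1 ha).elim (h14 a)
          fun h => by simp [Multiset.eq_of_mem_replicate h]).1 h16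
        have := le_replicate_of_add_self h12 h17
        omega
      · obtain ⟨g, hg, hs, h12, h13⟩ := u.of_kummer h H h10 (by rw [hV]; omega)
        obtain ⟨μ, h14, rfl⟩ := (h.exists_isotropic_iff hσ hg hs).1 h13
        refine Multiset.dvd_sum fun a ha => ?_
        obtain ⟨Q, hQ, rfl⟩ := Multiset.mem_map.1 ha
        exact (h12 Q (Multiset.mem_of_le (le_self_add.trans h14) hQ)).symm.dvd
    replace H : ∀ k (ν : Multiset F[X]), (∀ φ ∈ ν, RF r φ) → ν.map (dual σ) = ν → ν ≠ 0 →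
        k + ν.card * b = n → ∃ j ρ, 2 * j ≤ k ∧ ρ + ρ.map (dual σ) ≤ ν ∧ j + ρ.card * b = m :=
      fun k ν h1 h2 h3 h4 => by
        obtain ⟨g, hg, hs, -, h5, h6⟩ := u.of_rf h H h10 h1 h2 h3 (h4.trans hV.symm)
        exact (aux u h1).1 (h5 ▸ (h.exists_isotropic_iff hσ hg hs).1 h6)
    obtain ⟨ν, h11, h12, h13⟩ := u.exists_blocks (n / c)
    have h14 := Nat.mul_pos hc0 (Nat.div_pos (show c ≤ n by omega) hc0)
    obtain ⟨j, ρ, h15, -, h16⟩ := H (n % c) ν h11 h12 (by rintro rfl; simp at h13; omega)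
      (by rw [← u.sum_eq h11]; omega)
    have h17 := hmod j _ (by omega) h16
    have h18 : b ≤ m := by by_contra h; rw [Nat.mod_eq_of_lt (by omega)] at h17; omega
    refine ⟨h18, by omega, or_iff_not_imp_left.2 fun hi => ⟨by omega, by_contra fun h19 => ?_,
      .inl (by omega)⟩⟩
    obtain rfl : c = b := by omega
    obtain ⟨φ, hφ⟩ := Finset.card_pos.1 (show 0 < S.card by have := hr.two_le; grind)
    have := Nat.div_pos h18 hb0
    have := Nat.div_pos (show c ≤ n by omega) hb0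
    obtain ⟨s, l, a, h20, h21, h22, h23⟩ : ∃ s l a, s ≤ S.card ∧ 0 < s ∧ s + 2 * l + a = n / c ∧
      l < m / c ∧ a ≤ 1 := ⟨min S.card (n / c), (n / c - S.card) / 2,
        (n / c - S.card) % 2, by have := Finset.card_pos.2 ⟨φ, hφ⟩; omega⟩
    obtain ⟨T, hT, rfl⟩ := S.exists_subset_card_eq h20
    have h24 : ∀ ψ ∈ T.val + .replicate (2 * l) φ, RF r ψ := fun ψ hψ => (Multiset.mem_add.1 hψ).elim
      (fun h => (hS _).1 (hT h)) fun h => Multiset.eq_of_mem_replicate h ▸ (hS _).1 hφ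
    obtain ⟨j, ρ, h25, h26, h27⟩ := H (n % c + a * c) _ h24 (u.map_dual (by omega) h24)
      (by rw [Ne, ← Multiset.card_eq_zero]; simp [-Finset.card_eq_zero]; omega) (by
        rw [← h6, ← h22]; simp; ring)
    rw [u.map_dual (by omega) fun ψ hψ => h24 ψ (Multiset.mem_of_le (le_self_add.trans h26) hψ)] at h26
    have := le_replicate_of_add_self T.nodup h26
    have := hmod j _ (by have := Nat.mul_le_mul_right c h23.2; omega) h27
    omega
  · refine (h.exists_isotropic_iff hσ hg hs).2 (h14 ▸ (aux u h12).2 ?_)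
    have h15 := finrank_of_typ h14
    have h16 : n % c ≤ k := by
      obtain ⟨a, h16, -⟩ := u.blocks h12 h13
      rw [← hV, h15, h16, Nat.add_mul_mod_self_left]; exact Nat.mod_le _ _
    rw [u.sum_eq h12, hV] at h15
    have key : ∀ τ : Multiset F[X], τ + τ.map (dual σ) ≤ ν → 2 * m ≤ k + 2 * (τ.card * b) →
        ∃ j ρ, 2 * j ≤ k ∧ ρ + ρ.map (dual σ) ≤ ν ∧ j + ρ.card * b = m := fun τ h1 h2 => by
      obtain ⟨ρ, h3, h4⟩ := exists_le_card (min_le_right (m / b) τ.card)
      refine ⟨m - ρ.card * b, ρ, ?_, (add_le_add h3 (Multiset.map_le_map h3)).trans h1,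
        Nat.sub_add_cancel ((Nat.le_div_iff_mul_le hb0).1 (h4 ▸ min_le_left _ _))⟩
      rcases min_choice (m / b) τ.card with h | h <;> rw [h4, h]
      · rw [mul_comm (m / b)]; omega
      · omega
    by_cases hi : i % 4 = 2
    · obtain rfl : c = b := by omega
      obtain ⟨τ, κ, rfl, h17⟩ := exists_add_self_add_nodup ν
      have h18 := Multiset.card_le_card ((Multiset.le_iff_subset (t := S.val) h17).2
        fun φ hφ => (hS _).2 (h12 φ (by simp [hφ])))
      refine key τ (by rw [u.map_dual hi fun φ hφ => h12 φ (by simp [hφ])]; exact le_self_add) ?_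
      simp only [Multiset.card_add, add_mul] at h15
      have h19 := Nat.mul_le_mul_right c (h18.trans_eq (S.card_val))
      have h20 := Nat.mul_le_mul_left c (H.resolve_left (not_not.2 hi)).2.1
      rw [mul_add, mul_left_comm, mul_comm c S.card] at h20
      omega
    · obtain ⟨τ, rfl⟩ := u.exists_eq_add_map hi h12 h13
      refine key τ le_rfl ?_
      simp only [Multiset.card_add, Multiset.card_map, add_mul] at h15
      omega
  · obtain ⟨a, rfl⟩ := (((H.resolve_left (by omega)).2.2.resolve_left (by omega)).2).resolve_right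
      (by rw [hV] at h13; omega)
    have h17 := (blocks_typ (g : End F (Fin n → F))).finrank_eq
    simp only [hV, h16, Multiset.map_replicate, h14, Multiset.sum_replicate, smul_eq_mul] at h17
    refine (h.exists_isotropic_iff hσ hg hs).2 ⟨.replicate a Q, ?_, by simp [h14, mul_comm]⟩
    rw [Multiset.map_replicate, h15, h16, ← Multiset.replicate_add, Multiset.replicate_le_replicate]
    nlinarith [hr.pos]

end Cfsg.Agent.S5953
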