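import Cfsg.Statements.S5954
import Cfsg.Agent.Lib.Unitary.ElusC

set_option autoImplicit false
open scoped MatrixGroups
open Cfsg

namespace Cfsg.Agent.S5954

/-- Elements of prime order of PSU_n(q) with no fixed nondegenerate `m`-space. Here `T = PSU_n(q)` (`n ≥ 3`, `(n, q) ≠ (3, 2)`), realised through the matrices of determinant 1 over the field `F` with `q²` elements preserving the Hermitian form `h(u, v) = Σ u_i v_i^q`; an element of `T` of prime order `r` is such a matrix `x` with `x^r` scalar and `x` not scalar. For `r ≠ p` let `i` be the multiplicative order of `q` modulo `r`, `b = i/2` for `i` even and `b = i` for `i` odd, `c = i, i/2, 2i` according as `i ≡ 0, 2 (mod 4)` or `i` odd, and write `k = n mod c`, `ℓ = m mod b`, `ℓ' = m mod c`, `n' = ⌊n/b⌋`, `m' = ⌊m/b⌋`, `s = (r−1)/b`; `(a)_r` is the `r`-part of `a`. Let `1 ≤ m < n/2` and let `r` be a prime dividing the number of nondegenerate `m`-spaces. Then every element of `T` of order `r` fixes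 a nondegenerate `m`-space if and only if one of: (i) `r = p > 2` and every partition of `n` into parts of size at most `p` contains (as a sub-multiset) a partition of `m`; (ii) `r = p = 2` and (`n` is odd or `m` is even); (iii) `r = 2 ≠ p` and (`n` is odd, or `m` is even, or `(q+1)_2 ≥ (n)_2` and `q ≡ 3 (mod 4)`); (iv) `r ≠ p`, `r > 2`, and either `i ≠ 2`, `c ≤ m` and `k ≥ ℓ'`, or `i = 2` and (`r ∣ m` or `(q+1)_r ≥ (n)_r`). -/
theorem result {F : Type*} [Field F] [Fintype F] {p : ℕ} [Fact p.Prime] [CharP F p] {q : ℕ} (hq : Fintype.card F = q ^ 2)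
    (n m : ℕ) (hn : 3 ≤ n) (hT : (n, q) ≠ (3, 2)) (hm : 1 ≤ m) (hmn : 2 * m < n)
    (r : ℕ) [Fact r.Prime]
    (hrΩ : r ∣ Nat.card {W : Submodule F (Fin n → F) // Module.finrank F ↥W = m ∧ (∀ u ∈ W, u ≠ 0 → ∃ v ∈ W, Cfsg.hermForm n F q u v ≠ 0)})
    (i b c : ℕ) (hi : i = orderOf (q : ZMod r)) (hb : b = if Even i then i / 2 else i)
    (hc : c = if i % 4 = 0 then i else if i % 4 = 2 then i / 2 else 2 * i) :
    (∀ x : Matrix.SpecialLinearGroup (Fin n) F, x ∈ Cfsg.SU n F q →
      (∃ z : F, ((x ^ r : Matrix.SpecialLinearGroup (Fin n) F) : Matrix (Fin n) (Fin n) F) = z • (1 : Matrix (Fin n) (Fin n) F)) →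
      (∀ z : F, (x : Matrix (Fin n) (Fin n) F) ≠ z • (1 : Matrix (Fin n) (Fin n) F)) →
      ∃ W : Submodule F (Fin n → F), Module.finrank F ↥W = m ∧ (∀ u ∈ W, u ≠ 0 → ∃ v ∈ W, Cfsg.hermForm n F q u v ≠ 0) ∧
        W.map (Matrix.toLin' (x : Matrix (Fin n) (Fin n) F)) ≤ W) ↔
    ((r = p ∧ 2 < p ∧ (∀ μ : Multiset ℕ, (∀ a ∈ μ, 0 < a ∧ a ≤ p) → μ.sum = n → ∃ ν : Multiset ℕ, ν ≤ μ ∧ ν.sum = m)) ∨
     (r = p ∧ p = 2 ∧ (Odd n ∨ Even m)) ∨
     (r = 2 ∧ p ≠ 2 ∧ (Odd n ∨ Even m ∨ (padicValNat 2 n ≤ padicValNat 2 (q + 1) ∧ q % 4 = 3))) ∨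
     (r ≠ p ∧ 2 < r ∧ ((i ≠ 2 ∧ c ≤ m ∧ m % c ≤ n % c) ∨ (i = 2 ∧ (r ∣ m ∨ padicValNat r n ≤ padicValNat r (q + 1)))))) := by
  open Cfsg.Lib.Unitary Cfsg.Lib.GLC Polynomial Matrix Module in
  obtain ⟨σ, hσ⟩ := exists_isBar hq
  have h := hσ.isHerm (ι := Fin n)
  have hV : finrank F (Fin n → F) = n := by simp
  have hr : r.Prime := Fact.out
  haveI : Nonempty (Fin n) := ⟨⟨0, by omega⟩⟩
  have h0 : ∀ W : Submodule F (Fin n → F), (∀ u ∈ W, u ≠ 0 → ∃ v ∈ W, hermForm n F q u v ≠ 0) ↔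
      Disjoint W (perp (stdForm σ (Fin n)) W) := fun W => by
    simp only [Submodule.disjoint_def, mem_perp, hσ.hermForm_eq]
    exact forall₂_congr fun u _ => by rw [← not_imp_not]; simp
  simp only [h0, Submodule.map_le_iff_le_comap] at hrΩ ⊢
  refine (hσ.forall_su_iff (P := fun f => ∃ W : Submodule F _, finrank F W = m ∧
    Disjoint W (perp (stdForm σ (Fin n)) W) ∧ ∀ x ∈ W, f x ∈ W)).trans ?_
  have hP : ∀ (g : (Fin n → F) ≃ₗ[F] (Fin n → F)) (c : Fˣ), (∃ W : Submodule F _, finrank F W = m ∧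
      Disjoint W (perp (stdForm σ (Fin n)) W) ∧ ∀ x ∈ W, g x ∈ W) → ∃ W : Submodule F _,
      finrank F W = m ∧ Disjoint W (perp (stdForm σ (Fin n)) W) ∧ ∀ x ∈ W, (scal (Fin n → F) c * g :) x ∈ W :=
    fun g c => .imp fun W h => ⟨h.1, h.2.1, fun x hx => W.smul_mem c.1 (h.2.2 x hx)⟩
  rcases eq_or_ne r p with rfl | hrp
  · have h1 : ¬ r ∣ q + 1 := fun h => hr.not_dvd_one ((Nat.dvd_add_right (hσ.char_dvd r)).1 h)
    have key : ElSU (stdForm σ (Fin n)) r (fun g => ∃ W : Submodule F _, finrank F W = m ∧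
        Disjoint W (perp (stdForm σ (Fin n)) W) ∧ ∀ x ∈ W, g x ∈ W) ↔ ∀ μ : Multiset ℕ,
        (∀ a ∈ μ, 0 < a ∧ a ≤ r) → μ.sum = n → ∃ ν ≤ μ, ν.sum = m := by
      refine ⟨fun H μ h2 h3 => ?_, fun H => h.elSU_of hσ hP (fun g hg h2 _ _ => ?_) fun g _ z hz h2 =>
        let ⟨a, ha, e⟩ := hσ.exists_normOne_pow hr h1 hz; absurd e (h2 a ha)⟩
      · by_cases h4 : ∀ a ∈ μ, a ≤ 1
        · rw [Multiset.eq_replicate_of_mem fun a ha => (h4 a ha).antisymm (h2 a ha).1] at h3 ⊢
          exact ⟨.replicate m 1, (Multiset.replicate_le_replicate _).2 (by simp at h3; omega), by simp⟩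
        obtain ⟨g, hg, -, h5, h6⟩ := h.of_jt hσ r H h2 (h3.trans hV.symm) h4
        obtain ⟨ν, h7, -, h8⟩ := (h.exists_nondeg_iff hσ hg).1 h6
        obtain ⟨ν, h9, rfl⟩ := le_jt_iff.1 (h5 ▸ h7)
        exact ⟨ν, h9, jt_map_natDegree (1 : F) ν ▸ h8⟩
      · have h3 := (pow_char_pow_eq_one_iff r 1).1 (by rwa [pow_one])
        obtain ⟨μ, h4, h5⟩ := exists_jt_one ⟨_, h3⟩
        have h6 := h5 ▸ blocks_typ (g : End F (Fin n → F))
        obtain ⟨ν, h7, h8⟩ := H μ (fun a ha => ⟨h4 a ha, pow_one r ▸ h6.jt_pow_eq_zero_iff.1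
          (by rwa [one_smul]) a ha⟩) (h6.jt_sum.trans hV)
        exact (h.exists_nondeg_iff hσ hg).2 ⟨jt 1 ν, h5 ▸ le_jt_iff.2 ⟨ν, h7, rfl⟩,
          map_dual_jt (by simp) ν, by rwa [jt_map_natDegree]⟩
    refine key.trans ?_
    rcases eq_or_ne r 2 with rfl | h2
    · simp only [lt_irrefl, ne_eq, not_true, true_and, false_and, false_or, or_false]
      refine ⟨fun H => by_contra fun h2 => ?_, fun H μ h2 h3 => ?_⟩
      · obtain ⟨k, rfl⟩ := Nat.not_odd_iff_even.1 (mt .inl h2)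
        obtain ⟨ν, h3, rfl⟩ := H (.replicate k 2) (by simp +contextual [Multiset.mem_replicate])
          (by simp [mul_two])
        obtain ⟨j, -, rfl⟩ := Multiset.le_replicate_iff.1 h3
        exact h2 (.inr (by simp))
      · classical
        have h4 : μ = .replicate _ 1 + .replicate _ 2 := (μ.filter_add_not (· = 1)).symm.trans
          (congrArg₂ (· + ·) (Multiset.eq_replicate_card.2 fun a ha => (Multiset.mem_filter.1 ha).2)
            (Multiset.eq_replicate_card.2 fun a ha => by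
              have := Multiset.mem_filter.1 ha
              have := h2 a this.1
              omega))
        rw [h4] at h3 ⊢
        simp only [Multiset.sum_add, Multiset.sum_replicate, smul_eq_mul, mul_one] at h3
        rw [exists_le_sum_iff (by omega)]
        simp only [Nat.odd_iff, Nat.even_iff] at H
        omega
    · simp [h2, lt_of_le_of_ne hr.two_le h2.symm]
  have hr0 := natCast_ne_zero_of_ne (F := F) hr hrp
  rcases eq_or_ne r 2 with rfl | hr2
  · have h2 : (2 : F) ≠ 0 := by exact_mod_cast hr0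
    have h3 := Nat.odd_iff.1 (hσ.odd_iff.2 h2)
    have h4 : ∀ a : F, a * σ a = 1 → -a * σ (-a) = 1 := fun a ha => by simpa
    have h5 : (∃ s : F, s * σ s = 1 ∧ s ^ 2 = -1) ↔ q % 4 = 3 := by
      rw [hσ.exists_pow_eq_neg_one h2 two_ne_zero, padicValNat_self, ← Nat.succ_le_iff,
        ← padicValNat_dvd_iff_le q.succ_ne_zero]
      change 4 ∣ q + 1 ↔ _
      omega
    have h6 := hσ.exists_kummer_iff (r := 2) (by omega) (show n ≠ 0 by omega)
    have h7 : (∃ c : F, c * σ c = 1 ∧ ∃ k, k * 2 = n ∧ (∀ b, b * σ b = 1 → b ^ 2 ≠ c) ∧ (-c) ^ k = 1) ↔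
        Even n ∧ ¬ (padicValNat 2 n ≤ padicValNat 2 (q + 1) ∧ q % 4 = 3) := by
      by_cases h7 : q % 4 = 3
      · obtain ⟨s, hs, h8⟩ := h5.2 h7
        have h9 : ∀ c : F, (∀ b, b * σ b = 1 → b ^ 2 ≠ c) → ∀ b, b * σ b = 1 → b ^ 2 ≠ -c :=
          fun c hc b hb e => hc (s * b) (by rw [map_mul]; linear_combination b * σ b * hs + hb)
            (by rw [mul_pow, h8, e]; ring)
        rw [and_iff_left h7, not_le, and_iff_right_of_imp fun h => even_iff_two_dvd.2
          (dvd_of_one_le_padicValNat (by omega)), ← h6]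
        exact ⟨fun ⟨c, hc, k, h10, h11, h12⟩ => ⟨-c, h4 c hc, k, h10, h9 c h11, h12⟩,
          fun ⟨c, hc, k, h10, h11, h12⟩ => ⟨-c, h4 c hc, k, h10, h9 c h11, by rwa [neg_neg]⟩⟩
      · simp only [h7, and_false, not_false_eq_true, and_true]
        exact ⟨fun ⟨_, _, k, h8, _⟩ => ⟨k, by omega⟩, fun ⟨k, h8⟩ => ⟨-1, by simp, k, by omega,
          fun b hb e => h7 (h5.1 ⟨b, hb, e⟩), by simp⟩⟩
    simp only [hrp, hrp.symm, lt_irrefl, ne_eq, not_false_eq_true, true_and, false_and, false_or,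
      or_false]
    refine ⟨fun H => by_contra fun h8 => ?_, fun H => h.elSU_of hσ hP (fun g hg h8 _ _ => ?_)
      fun g hg z hz h8 h9 => ?_⟩
    · obtain ⟨z, hz, k, h9, h10, h11⟩ := h7.2 ⟨Nat.not_odd_iff_even.1 (mt .inl h8),
        fun h => h8 (.inr (.inr h))⟩
      obtain ⟨e, he⟩ := hσ.odd_iff.2 h2
      obtain ⟨s, hs, rfl⟩ := exists_pow_eq_of_pow_eq_one (a := (q + 1) * e) (b := 2) (x := z) (by
        rw [hσ.card_sub_one, he]; simp; ring) (by rw [pow_mul, ← hσ.norm_eq, hz, one_pow])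
      have h12 : s * σ s = -1 := (sq_eq_one_iff.1 (by rw [mul_pow, ← map_pow, hz])).resolve_left
        fun h => h10 s h rfl
      obtain ⟨h13, h14, h15⟩ := hσ.dual_of_norm_neg h2 h12
      obtain ⟨g, hg, -, h16, h17⟩ := h.of_lt hσ H (M := .replicate k s + .replicate k (-s))
        (by simp +contextual [Multiset.mem_replicate, hs, or_imp])
        (by simp only [lt_add, lt_replicate, Multiset.map_add, Multiset.map_replicate, h13, h14, add_comm])
        (by simp; omega) (by simpa [← mul_pow, sq] using h11) (z := s ^ 2)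
        (by simp +contextual [Multiset.mem_replicate, or_imp]) (a := s) (b := -s)
        (by simp [Multiset.mem_replicate]; omega) (by simp [Multiset.mem_replicate]; omega) h15
      obtain ⟨μ, h18, h19, h20⟩ := (h.exists_nondeg_iff hσ hg).1 h17
      rw [h16, lt_add, lt_replicate, lt_replicate] at h18
      obtain ⟨j, -, ρ, h21, rfl⟩ := Lib.Symp.exists_of_le_replicate_add h18
      obtain ⟨l, -, rfl⟩ := Multiset.le_replicate_iff.1 h21
      classical
      have h22 := congrArg (Multiset.count (X - C s)) h19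
      have h23 : (X - C (-s) : F[X]) ≠ X - C s := fun e => h15 (C_injective (sub_right_injective e)).symm
      simp only [Multiset.map_add, Multiset.map_replicate, h13, h14, Multiset.count_add,
        Multiset.count_replicate, h23, if_true, if_false] at h22
      simp only [Multiset.map_add, Multiset.map_replicate, natDegree_X_sub_C, Multiset.sum_add,
        Multiset.sum_replicate, smul_eq_mul] at h20
      exact h8 (.inr (.inl ⟨j, by omega⟩))
    · obtain ⟨k, l, h9, h10⟩ := typ_of_sq h2 one_ne_zero (f := (g : End F (Fin n → F)))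
        (by rwa [one_pow, one_smul])
      obtain ⟨M, h11, rfl⟩ := Lib.Symp.exists_le_card (s := .replicate k (1 : F) + .replicate l (-1))
        (b := m) (by simp; omega)
      refine (h.exists_nondeg_iff hσ hg).2 ⟨lt M, h10.lt_typ ▸ Multiset.map_le_map h11,
        map_dual_lt fun a ha => ?_, lt_sum M⟩
      rcases Multiset.mem_add.1 (Multiset.mem_of_le h11 ha) with h | h <;>
        simp [Multiset.eq_of_mem_replicate h]
    · obtain ⟨s, k, h10, h11, h12, h13⟩ := h.typ_of_nonsq hσ h2 hg.1 hz h8 h9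
      obtain ⟨h14, h15, -⟩ := hσ.dual_of_norm_neg h2 h10
      have h16 := h7.1 ⟨z, hz, k, by omega, h8, h12 ▸ (mem_SUG'.1 hg).2⟩
      obtain ⟨j, rfl⟩ := (H.resolve_left (Nat.not_odd_iff_even.2 h16.1)).resolve_right h16.2
      refine (h.exists_nondeg_iff hσ hg.1).2 ⟨.replicate j (X - C s) + .replicate j (X - C (-s)),
        (add_le_add ((Multiset.replicate_le_replicate _).2 (by omega))
          ((Multiset.replicate_le_replicate _).2 (by omega))).trans h13.ge, ?_, by simp [-map_neg]⟩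
      rw [Multiset.map_add, Multiset.map_replicate, Multiset.map_replicate, h14, h15, add_comm]
  have u : UP σ q r i b c := ⟨hσ, hr, hr2, hr0, hi, hb, hc⟩
  simp only [hr2, hrp, lt_of_le_of_ne hr.two_le hr2.symm, ne_eq, not_false_eq_true, true_and,
    false_and, false_or]
  obtain ⟨j, h3, h4⟩ := u.exists_dvd (hrΩ.trans (h.card_nondeg_dvd hσ (m := n - m) (by omega)))
  have h5 := Nat.le_of_dvd (by omega) h4
  have h6 := u.c_pos
  have h7 := u.cases
  refine ⟨fun H => ?_, fun H => u.elSU h hP (fun g hg _ k ν h8 h9 h10 => ?_)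
    fun h8 h9 g hg _ k Q h10 h11 h12 => ?_⟩
  · refine (eq_or_ne i 2).symm.imp (fun h8 => ⟨h8, ?_⟩) fun h8 => ⟨h8, or_iff_not_imp_right.2 fun h9 => ?_⟩
    · obtain ⟨ν, h9, h10, h11⟩ := u.exists_blocks (n / c)
      have h12 := Nat.div_add_mod n c
      have h13 := Nat.mul_pos h6 (Nat.div_pos (show c ≤ n by omega) h6)
      obtain ⟨g, hg, -, -, h14, h15⟩ := u.of_rf h H h8 h9 h10 (by rintro rfl; simp at h11; omega)
        (k := n % c) (by rw [← u.sum_eq h9]; omega)
      obtain ⟨μ, h16, h17, h18⟩ := (h.exists_nondeg_iff hσ hg).1 h15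
      obtain ⟨j', h19, ρ, h20, rfl⟩ := Lib.Symp.exists_of_le_replicate_add (h14 ▸ h16)
      obtain ⟨a, h21, -⟩ := u.blocks (fun φ hφ => h9 φ (Multiset.mem_of_le h20 hφ))
        (map_dual_right h17 (by rw [Multiset.map_replicate, dual_X_sub_one]))
      have h22 : m % c ≤ n % c := by
        rw [← h18]
        simp only [Multiset.map_add, Multiset.map_replicate, natDegree_X_sub_C, Multiset.sum_add,
          Multiset.sum_replicate, smul_eq_mul, mul_one, h21, Nat.add_mul_mod_self_left]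
        exact (Nat.mod_le _ _).trans h19
      refine ⟨by_contra fun h23 => ?_, h22⟩
      rw [Nat.mod_eq_of_lt (by omega), show n = (n - m + j + 1) + (m - j - 1) by omega,
        Nat.add_mod, Nat.mod_eq_zero_of_dvd h4, zero_add, Nat.mod_mod] at h22
      have := Nat.mod_le (m - j - 1) c
      omega
    · obtain ⟨g, hg, -, h10, h11⟩ := u.of_kummer h H h8 (by rw [hV]; omega)
      obtain ⟨μ, h12, -, rfl⟩ := (h.exists_nondeg_iff hσ hg).1 h11
      refine Multiset.dvd_sum fun a ha => ?_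
      obtain ⟨Q, hQ, rfl⟩ := Multiset.mem_map.1 ha
      exact (h10 Q (Multiset.mem_of_le h12 hQ)).symm.dvd
  · have h11 : m % c ≤ n % c := H.elim (·.2.2) fun h => by rw [show c = 1 by omega, Nat.mod_one]; omega
    obtain ⟨a, h12, h13⟩ := u.blocks h8 h9
    obtain ⟨ρ, h14, h15, h16⟩ := h13 _ (min_le_left a (m / c))
    have h17 := Nat.div_add_mod m c
    have h18 : c * min a (m / c) ≤ c * (m / c) := Nat.mul_le_mul_left _ (min_le_right _ _)
    have h19 := Lib.Symp.finrank_of_typ h10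
    have h20 : n % c ≤ k := by
      rw [← hV, h19, h12, Nat.add_mul_mod_self_left]; exact Nat.mod_le _ _
    refine (h.exists_nondeg_iff hσ hg).2 ⟨.replicate (m - c * min a (m / c)) (X - C 1) + ρ,
      h10 ▸ add_le_add ((Multiset.replicate_le_replicate _).2 ?_) h14, by
        rw [Multiset.map_add, Multiset.map_replicate, dual_X_sub_one, h15], by
        simp [h16, -map_one]; omega⟩
    rcases min_choice a (m / c) with h | h <;> rw [h] at h18 ⊢ <;> omega
  · obtain ⟨a, rfl⟩ := ((H.resolve_left fun h => h.1 h8).2).resolve_right (by rw [hV] at h9; omega)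
    have h13 := (blocks_typ (g : End F (Fin n → F))).finrank_eq
    simp only [hV, h12, Multiset.map_replicate, h10, Multiset.sum_replicate, smul_eq_mul] at h13
    refine (h.exists_nondeg_iff hσ hg).2 ⟨.replicate a Q, h12 ▸ (Multiset.replicate_le_replicate _).2
      (by nlinarith [hr.pos]), by rw [Multiset.map_replicate, h11], by simp [h10, mul_comm]⟩

end Cfsg.Agent.S5954
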