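import Cfsg.Statements.S5955
import Cfsg.Agent.Lib.Symp.Elus

set_option autoImplicit false
open scoped MatrixGroups
open Cfsg

namespace Cfsg.Agent.S5955

open Cfsg.Lib.Symp Cfsg.Lib.GLC Polynomial Module in
theorem aux {F V : Type*} [Field F] [Finite F] [AddCommGroup V] [Module F V] [Module.Finite F V]
    {B : LinearMap.BilinForm F V} (hA : B.IsAlt) (hB : B.Nondegenerate) {r i c m : ℕ} (h : OP F r i c) :
    (∀ f k ν, SpE B f → f.IsSemisimple → (∀ φ ∈ ν, RF r φ) → ν.map rdual = ν → ν ≠ 0 →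
      typ f = .replicate (2 * k) (X - C 1) + ν → ∃ W : Submodule F V, finrank F W = m ∧
        (∀ u ∈ W, ∀ v ∈ W, B u v = 0) ∧ ∀ x ∈ W, f x ∈ W) ↔
    ∀ k (ν : Multiset F[X]), (∀ φ ∈ ν, RF r φ) → ν.map rdual = ν → ν ≠ 0 →
      finrank F V = 2 * k + ν.card * i → ∃ j ≤ k, ∃ ρ, ρ + ρ.map rdual ≤ ν ∧ j + ρ.card * i = m := by
  have h0 : ∀ j (ρ : Multiset F[X]), .replicate j (X - C 1) + ρ + (Multiset.replicate j (X - C 1) + ρ).map
      rdual = .replicate (2 * j) (X - C 1) + (ρ + ρ.map rdual) := fun j ρ => by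
    rw [Multiset.map_add, Multiset.map_replicate, rdual_X_sub_C (one_mul 1), two_mul,
      Multiset.replicate_add]; abel
  refine ⟨fun H k ν h1 h2 h3 h4 => ?_, fun H f k ν h1 h2 h3 h4 h5 h6 => ?_⟩
  · obtain ⟨f, h5, h6, h7⟩ := exists_spE_RF hA hB h.odd h1 h2 (h.sum_eq h1 ▸ h4)
    obtain ⟨ρ, h8, h9⟩ := (h5.exists_isotropic_iff h6).1 (H f k ν h5 h6 h1 h2 h3 h7)
    obtain ⟨j, -, ρ, h10, rfl⟩ := exists_of_le_replicate_add (le_self_add.trans (h7 ▸ h8))
    have h11 := fun φ hφ => h1 φ (Multiset.mem_of_le h10 hφ)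
    have := eq_of_replicate_add (h.map_add_map h11).1 h1 (h0 j ρ ▸ h7 ▸ h8)
    exact ⟨j, by omega, ρ, this.2, by simpa [h.sum_eq h11, -map_one] using h9⟩
  · obtain ⟨j, h7, ρ, h8, h9⟩ := H k ν h3 h4 h5 (h.sum_eq h3 ▸ finrank_of_typ h6)
    have h10 := h.sum_eq fun φ hφ => h3 φ (Multiset.mem_of_le (le_self_add.trans h8) hφ)
    refine (h1.exists_isotropic_iff h2).2 ⟨.replicate j (X - C 1) + ρ, ?_,
      by simpa [-map_one, h10] using h9⟩
    rw [h0, h6]
    exact add_le_add ((Multiset.replicate_le_replicate _).2 (by omega)) h8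


open Cfsg.Lib.Symp Cfsg.Lib.GLC Polynomial Module in
theorem aux2 {F : Type*} [Field F] [Finite F] {r i c d m j₀ : ℕ} (h : OP F r i c) (hmd : m ≤ d)
    (hj₀ : j₀ < m) (h0 : c ∣ 2 * (d - j₀)) :
    (∀ k (ν : Multiset F[X]), (∀ φ ∈ ν, RF r φ) → ν.map rdual = ν → ν ≠ 0 →
      2 * d = 2 * k + ν.card * i → ∃ j ≤ k, ∃ ρ, ρ + ρ.map rdual ≤ ν ∧ j + ρ.card * i = m) ↔
    i ≤ m ∧ 2 * (m % i) ≤ 2 * d % c ∧ (Odd i ∨ (r - 1) / i + 2 * (m / i) ≤ 2 * d / i) := by
  have hi0 := h.i_pos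
  have hc0 := h.pos
  have h1 : 2 * d % c < 2 * m := by
    rw [show 2 * d = 2 * (d - j₀) + 2 * j₀ by omega, Nat.add_mod, Nat.mod_eq_zero_of_dvd
      h0, zero_add, Nat.mod_mod]
    exact (Nat.mod_le _ _).trans_lt (by omega)
  have h2 := Nat.le_of_dvd (by omega) h0
  have hci : i ≤ c ∧ c ≤ 2 * i := by rw [h.hc]; split_ifs <;> omega
  have h3 := Nat.mod_lt (2 * d) hc0
  have h4 := Nat.div_add_mod (2 * d) c
  have h5 := Nat.div_add_mod m i
  have hmod : ∀ j b, j < i → j + b * i = m → m % i = j ∧ m / i = b := fun j b h1 h2 => by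
    rw [← h2, Nat.add_mul_mod_self_right, Nat.add_mul_div_right _ _ hi0, Nat.mod_eq_of_lt h1,
      Nat.div_eq_of_lt h1, zero_add]; exact ⟨rfl, rfl⟩
  obtain ⟨S, hS, h6⟩ := h.exists_finset
  rw [← h6, Nat.mul_div_cancel _ hi0]
  obtain ⟨e, he⟩ : Even (2 * d % c) := (Nat.even_add.1 (h4 ▸ even_two_mul d)).1 (h.even.mul_right _)
  refine ⟨fun H => ?_, fun ⟨h7, h8, h9⟩ k ν h10 h11 _ h12 => ?_⟩
  · obtain ⟨ν, h7, h8, h9⟩ := h.exists_blocks (2 * d / c)
    obtain ⟨j, h10, ρ, -, h11⟩ := H e ν h7 h8 (by rintro rfl; simp at h9; omega)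
      (by rw [← h.sum_eq h7]; omega)
    have h12 := hmod j _ (by omega) h11
    have h13 : i ≤ m := by by_contra h; rw [Nat.mod_eq_of_lt (by omega)] at h12; omega
    refine ⟨h13, by omega, (i.even_or_odd.symm.imp_right fun hi => by_contra fun h14 => ?_)⟩
    obtain rfl : c = i := by rw [h.hc, if_pos hi]
    obtain ⟨φ, hφ⟩ := Finset.card_pos.1 (show 0 < S.card by have := h.prime.two_le; grind)
    have := Nat.div_pos h13 hi0
    have := Nat.div_pos (show c ≤ 2 * d by omega) hi0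
    obtain ⟨s, n, a, h15, h16, h17, h18⟩ : ∃ s n a, s ≤ S.card ∧ 0 < s ∧ s + 2 * n + a = 2 * d / c ∧
      n < m / c ∧ a ≤ 1 := ⟨min S.card (2 * d / c), (2 * d / c - S.card) / 2,
        (2 * d / c - S.card) % 2, by have := Finset.card_pos.2 ⟨φ, hφ⟩; omega⟩
    obtain ⟨T, hT, rfl⟩ := S.exists_subset_card_eq h15
    have h19 : ∀ ψ ∈ T.val + .replicate (2 * n) φ, RF r ψ := fun ψ hψ => (Multiset.mem_add.1 hψ).elim
      (fun h => (hS _).1 (hT h)) fun h => Multiset.eq_of_mem_replicate h ▸ (hS _).1 hφ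
    obtain ⟨i', hi'⟩ := hi
    obtain ⟨j, h20, ρ, h21, h22⟩ := H (e + a * i') _ h19 (h.map_rdual ⟨_, hi'⟩ h19)
      (by rw [Ne, ← Multiset.card_eq_zero]; simp [-Finset.card_eq_zero]; omega) (by
        rw [← h4, ← h17, he, hi']; simp; ring)
    rw [h.map_rdual ⟨_, hi'⟩ fun ψ hψ => h19 ψ (Multiset.mem_of_le (le_self_add.trans h21) hψ)] at h21
    classical
    have h23 := Multiset.card_le_card (show ρ ≤ .replicate n φ from Multiset.le_iff_count.2 fun ψ => by
      have := Multiset.count_le_of_le ψ h21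
      have := Multiset.nodup_iff_count_le_one.1 T.nodup ψ
      simp only [Multiset.count_add, Multiset.count_replicate] at *
      split_ifs at * <;> omega)
    have := hmod j _ (by have := Nat.mul_le_mul_right i' h18.2; omega) h22
    simp at h23; omega
  · have h13 : 2 * d % c ≤ 2 * k := by
      obtain ⟨n, h13, -⟩ := h.blocks h10 h11
      rw [h12, ← h.sum_eq h10, h13, Nat.add_mul_mod_self_left]; exact Nat.mod_le _ _
    have key : ∀ τ : Multiset F[X], τ + τ.map rdual ≤ ν → m ≤ k + τ.card * i →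
        ∃ j ≤ k, ∃ ρ, ρ + ρ.map rdual ≤ ν ∧ j + ρ.card * i = m := fun τ h1 h2 => by
      obtain ⟨ρ, h3, h4⟩ := exists_le_card (min_le_right (m / i) τ.card)
      refine ⟨m - ρ.card * i, ?_, ρ, (add_le_add h3 (Multiset.map_le_map h3)).trans h1,
        Nat.sub_add_cancel ((Nat.le_div_iff_mul_le hi0).1 (h4 ▸ min_le_left _ _))⟩
      rcases min_choice (m / i) τ.card with h | h <;> rw [h4, h]
      · rw [mul_comm]; omega
      · omega
    rcases i.even_or_odd with hi | hi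
    · obtain rfl : c = i := by rw [h.hc, if_pos hi]
      obtain ⟨τ, κ, rfl, h14⟩ := exists_add_self_add_nodup ν
      have h15 := Multiset.card_le_card ((Multiset.le_iff_subset (t := S.val) h14).2
        fun φ hφ => (hS _).2 (h10 φ (by simp [hφ])))
      have h16 := h9.resolve_left (Nat.not_odd_iff_even.2 hi)
      refine key τ (by rw [h.map_rdual hi fun φ hφ => h10 φ (by simp [hφ])]; exact le_self_add) ?_
      simp only [Multiset.card_add, add_mul] at h12
      have h17 := Nat.mul_le_mul_right c (h15.trans_eq (S.card_val))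
      have h18 := Nat.mul_le_mul_left c h16
      rw [mul_add, mul_left_comm, mul_comm c S.card] at h18
      omega
    · obtain ⟨τ, rfl⟩ := h.exists_eq_add_map hi h10 h11
      refine key τ le_rfl ?_
      simp only [Multiset.card_add, Multiset.card_map, add_mul] at h12
      omega

/-- Elements of prime order of PSp_n(q) with no fixed totally isotropic `m`-space. Here `T = PSp_n(q)` with `n = 2d ≥ 4`, `(n, q) ≠ (4, 2)`, realised through the symplectic matrices over the field `F` with `q` elements (preserving the standard alternating form); an element of `T` of prime order `r` is such a matrix `x` with `x^r` scalar and `x` not scalar. For `r ≠ p` let `i` be the multiplicative order of `q` modulo `r`, `c = i` for `i` even and `c = 2i` for `i` odd, and write `k = n mod c`, `ℓ = m mod i`, `ℓ' = m mod c`, `n' = ⌊n/i⌋`, `m' = ⌊m/i⌋`, `t = (r−1)/i`. Let `1 ≤ m ≤ n/2` and let `r` be a prime dividing the number of totally isotropic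 `m`-spaces. Then every element of `T` of order `r` fixes a totally isotropic `m`-space if and only if either (i) `r = 2 ≠ p` and (`m` is even or `q ≡ 1 (mod 4)`); or (ii) `r ≠ p`, `r > 2`, `i ≤ m`, `k ≥ 2ℓ`, and (`i` is odd or `n' − 2m' ≥ t`). -/
theorem result {F : Type*} [Field F] [Fintype F] {p : ℕ} [Fact p.Prime] [CharP F p] {q : ℕ} (hq : Fintype.card F = q)
    (d m : ℕ) (hd : 2 ≤ d) (hT : (d, q) ≠ (2, 2)) (hm : 1 ≤ m) (hmd : m ≤ d)
    (r : ℕ) [Fact r.Prime]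
    (hrΩ : r ∣ Nat.card {W : Submodule F (Fin d ⊕ Fin d → F) // Module.finrank F ↥W = m ∧ (∀ u ∈ W, ∀ v ∈ W, Cfsg.sympForm d F u v = 0)})
    (i c : ℕ) (hi : i = orderOf (q : ZMod r)) (hc : c = if Even i then i else 2 * i) :
    (∀ x : ↥(Matrix.symplecticGroup (Fin d) F),
      (∃ z : F, ((x ^ r : ↥(Matrix.symplecticGroup (Fin d) F)) : Matrix (Fin d ⊕ Fin d) (Fin d ⊕ Fin d) F) = z • (1 : Matrix (Fin d ⊕ Fin d) (Fin d ⊕ Fin d) F)) →
      (∀ z : F, (x : Matrix (Fin d ⊕ Fin d) (Fin d ⊕ Fin d) F) ≠ z • (1 : Matrix (Fin d ⊕ Fin d) (Fin d ⊕ Fin d) F)) →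
      ∃ W : Submodule F (Fin d ⊕ Fin d → F), Module.finrank F ↥W = m ∧ (∀ u ∈ W, ∀ v ∈ W, Cfsg.sympForm d F u v = 0) ∧
        W.map (Matrix.toLin' (x : Matrix (Fin d ⊕ Fin d) (Fin d ⊕ Fin d) F)) ≤ W) ↔
    ((r = 2 ∧ p ≠ 2 ∧ (Even m ∨ q % 4 = 1)) ∨
     (r ≠ p ∧ 2 < r ∧ i ≤ m ∧ 2 * (m % i) ≤ (2 * d) % c ∧ (Odd i ∨ (r - 1) / i + 2 * (m / i) ≤ (2 * d) / i))) := by
  open Cfsg.Lib.Symp Cfsg.Lib.GLC Polynomial Matrix Module in
  have hA := bil_isAlt (Fin d) F
  have hB := bil_nondegenerate (Fin d) F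
  have hV := Lib.Orth.finrank_bil (F := F) d
  have hr : r.Prime := Fact.out
  haveI : Nonempty (Fin d) := ⟨⟨0, by omega⟩⟩
  simp only [sympForm_eq_bil, Submodule.map_le_iff_le_comap] at hrΩ ⊢
  refine (forall_sp_iff (P := fun f => ∃ W : Submodule F _, finrank F W = m ∧
    (∀ u ∈ W, ∀ v ∈ W, bil _ F u v = 0) ∧ ∀ x ∈ W, f x ∈ W)).trans ?_
  obtain ⟨j₀, hj₀, h0⟩ := exists_dvd_of_dvd_card_isotropic hA hB hV hmd hr hrΩ
  have hrp : r ≠ p := by
    rintro rfl
    exact hr.not_dvd_one ((Nat.dvd_sub_iff_right (pow_pos Nat.card_pos _)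
      (dvd_pow (char_dvd_card r) (by omega))).1 h0)
  rcases eq_or_ne r 2 with rfl | hr2
  · have h2 : (2 : F) ≠ 0 := mt (CharP.cast_eq_zero_iff F p 2).1
      (mt (Nat.prime_dvd_prime_iff_eq Fact.out hr).1 hrp.symm)
    have h3 := Nat.odd_iff.1 (hq ▸ two_ne_zero_iff_odd_card.1 h2)
    have h4 := hq ▸ FiniteField.isSquare_neg_one_iff (F := F)
    simp only [hrp.symm, lt_irrefl, ne_eq, not_false_eq_true, true_and, false_and, and_false, or_false]
    refine ⟨fun H => by_contra fun h5 => ?_, fun H f hf ⟨z, hz⟩ _ => ?_⟩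
    · have h6 : ¬ IsSquare (-1 : F) := fun h => h5 (.inr (by have := h4.1 h; omega))
      obtain ⟨f, hf, h7⟩ := exists_spE_sq hA hB
      obtain ⟨ρ, h8, rfl⟩ := (hf.exists_isotropic_iff (hf.typ_of_sq h2 h7).1).1 (H f hf ⟨_, h7⟩
        fun ⟨z, hz⟩ => h6 ⟨z, by rw [hz, smul_one_pow_eq_iff, sq] at h7; exact h7.symm⟩)
      refine h5 (.inl (even_iff_two_dvd.2 (Multiset.dvd_sum fun n hn => ?_)))
      obtain ⟨P, hP, rfl⟩ := Multiset.mem_map.1 hn
      have hP := Multiset.mem_of_le (le_self_add.trans h8) hP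
      rw [natDegree_eq_of_degree_eq (degree_eq_degree_of_associated (((irreducible_X_sq_add_one
        h6).dvd_iff.1 ((blocks_typ f).pow_eq_smul_one_iff.1 h7 P hP)).resolve_left
        (not_isUnit_of_natDegree_pos _ (typ_pp f P hP).natDegree_pos)).symm), natDegree_X_pow_sub_C]
    · have h5 := (blocks_typ f).finrank_eq
      obtain ⟨hs, ⟨ν, h6, h7⟩ | ⟨-, h6, n, h7⟩⟩ := hf.typ_of_sq h2 hz <;>
        refine (hf.exists_isotropic_iff hs).2 ?_
      · have h8 : ∀ ρ ≤ ν, (ρ.map natDegree).sum = ρ.card := fun ρ hρ => by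
          simp [Multiset.map_congr rfl fun P hP => h7 P (Multiset.mem_of_le hρ hP)]
        rw [hV, h6, Multiset.map_add, Multiset.map_map, Multiset.map_congr (f := natDegree ∘ _) rfl
          fun P hP => Lib.Unitary.natDegree_dual (hf.coeff_ne P (h6 ▸ Multiset.mem_add.2 (.inl hP))),
          Multiset.sum_add, h8 ν le_rfl] at h5
        obtain ⟨ρ, h9, rfl⟩ := exists_le_card (s := ν) (b := m) (by omega)
        exact ⟨ρ, h6 ▸ add_le_add h9 (Multiset.map_le_map h9), h8 ρ h9⟩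
      · obtain ⟨k, rfl⟩ := H.resolve_right fun h => h6 (h4.2 (by omega))
        refine ⟨.replicate k (X ^ 2 - C (-1)), ?_, by simp [← two_mul, mul_comm, -map_neg]⟩
        rw [(spT_X_sq_add_one h6 k).1, h7, ← Multiset.replicate_add, Multiset.replicate_le_replicate]
        simp [hV, h7, -map_neg] at h5; omega
  have h := OP.of hq hr hr2 hrp hi hc
  rw [forall_spE_odd h.odd fun f c _ => .imp fun W h => ⟨h.1, h.2.1, fun x hx =>
    W.smul_mem c (h.2.2 x hx)⟩, forall_spE_RF h.odd h.ne, aux hA hB h, hV, aux2 h hmd hj₀ (h.dvd_pow_iff.1 h0)]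
  simp only [hr2, hrp, lt_of_le_of_ne hr.two_le hr2.symm, ne_eq, not_false_eq_true, true_and,
    false_and, false_or]

end Cfsg.Agent.S5955
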