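import Cfsg.Statements.S5956
import Cfsg.Agent.Lib.Symp.Unip2

set_option autoImplicit false
open scoped MatrixGroups
open Cfsg

namespace Cfsg.Agent.S5956

/-- Elements of prime order of PSp_n(q) with no fixed nondegenerate `m`-space. Here `T = PSp_n(q)` with `n = 2d ≥ 4`, `(n, q) ≠ (4, 2)`, realised through the symplectic matrices over the field `F` with `q` elements (preserving the standard alternating form); an element of `T` of prime order `r` is such a matrix `x` with `x^r` scalar and `x` not scalar. For `r ≠ p` let `i` be the multiplicative order of `q` modulo `r`, `c = i` for `i` even and `c = 2i` for `i` odd, and write `k = n mod c`, `ℓ = m mod i`, `ℓ' = m mod c`, `n' = ⌊n/i⌋`, `m' = ⌊m/i⌋`, `t = (r−1)/i`. Let `m` be even with `2 ≤ m < n/2` and let `r` be a prime dividing the number of nondegenerate `m`-spaces. Then every element of `T` of order `r` fixes a nondegenerate `m`-space if and only if one of: (i) `r = p >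 2` and every partition of `n` into parts of size at most `p` in which every odd part has even multiplicity contains (as a sub-multiset) a partition of `m` in which every odd part has even multiplicity; (ii) `r = p = 2` and (`n ≡ 2 (mod 4)` or `m ≡ 0 (mod 4)`); (iii) `r = 2 ≠ p`; (iv) `r ≠ p`, `r > 2`, `c ≤ m` and `k ≥ ℓ'`. -/
theorem result {F : Type*} [Field F] [Fintype F] {p : ℕ} [Fact p.Prime] [CharP F p] {q : ℕ} (hq : Fintype.card F = q)
    (d m : ℕ) (hd : 2 ≤ d) (hT : (d, q) ≠ (2, 2)) (hm : 2 ≤ m) (hme : Even m) (hmd : m < d)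
    (r : ℕ) [Fact r.Prime]
    (hrΩ : r ∣ Nat.card {W : Submodule F (Fin d ⊕ Fin d → F) // Module.finrank F ↥W = m ∧ (∀ u ∈ W, u ≠ 0 → ∃ v ∈ W, Cfsg.sympForm d F u v ≠ 0)})
    (i c : ℕ) (hi : i = orderOf (q : ZMod r)) (hc : c = if Even i then i else 2 * i) :
    (∀ x : ↥(Matrix.symplecticGroup (Fin d) F),
      (∃ z : F, ((x ^ r : ↥(Matrix.symplecticGroup (Fin d) F)) : Matrix (Fin d ⊕ Fin d) (Fin d ⊕ Fin d) F) = z • (1 : Matrix (Fin d ⊕ Fin d) (Fin d ⊕ Fin d) F)) →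
      (∀ z : F, (x : Matrix (Fin d ⊕ Fin d) (Fin d ⊕ Fin d) F) ≠ z • (1 : Matrix (Fin d ⊕ Fin d) (Fin d ⊕ Fin d) F)) →
      ∃ W : Submodule F (Fin d ⊕ Fin d → F), Module.finrank F ↥W = m ∧ (∀ u ∈ W, u ≠ 0 → ∃ v ∈ W, Cfsg.sympForm d F u v ≠ 0) ∧
        W.map (Matrix.toLin' (x : Matrix (Fin d ⊕ Fin d) (Fin d ⊕ Fin d) F)) ≤ W) ↔
    ((r = p ∧ 2 < p ∧ (∀ μ : Multiset ℕ, (∀ a ∈ μ, 0 < a ∧ a ≤ p) → (∀ a : ℕ, Odd a → Even (μ.count a)) → μ.sum = 2 * d →
        ∃ ν : Multiset ℕ, ν ≤ μ ∧ ν.sum = m ∧ ∀ a : ℕ, Odd a → Even (ν.count a))) ∨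
     (r = p ∧ p = 2 ∧ ((2 * d) % 4 = 2 ∨ m % 4 = 0)) ∨
     (r = 2 ∧ p ≠ 2) ∨
     (r ≠ p ∧ 2 < r ∧ c ≤ m ∧ m % c ≤ (2 * d) % c)) := by
  open Cfsg.Lib.Symp Cfsg.Lib.GLC Polynomial Matrix Module in
  have hA := bil_isAlt (Fin d) F
  have hB := bil_nondegenerate (Fin d) F
  have hV := Lib.Orth.finrank_bil (F := F) d
  have hr : r.Prime := Fact.out
  haveI : Nonempty (Fin d) := ⟨⟨0, by omega⟩⟩
  obtain ⟨k, rfl⟩ := even_iff_two_dvd.1 hme
  simp only [sympForm_eq_bil, Submodule.map_le_iff_le_comap] at hrΩ ⊢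
  refine (forall_sp_iff (P := fun f => ∃ W : Submodule F _, finrank F W = 2 * k ∧
    (∀ u ∈ W, u ≠ 0 → ∃ v ∈ W, bil _ F u v ≠ 0) ∧ ∀ x ∈ W, f x ∈ W)).trans ?_
  have hP : ∀ (f : End F (Fin d ⊕ Fin d → F)) (c : F), c ≠ 0 → (∃ W : Submodule F _, finrank F W = 2 * k ∧
      (∀ u ∈ W, u ≠ 0 → ∃ v ∈ W, bil _ F u v ≠ 0) ∧ ∀ x ∈ W, f x ∈ W) → ∃ W : Submodule F _,
      finrank F W = 2 * k ∧ (∀ u ∈ W, u ≠ 0 → ∃ v ∈ W, bil _ F u v ≠ 0) ∧ ∀ x ∈ W, (c • f) x ∈ W :=
    fun f c _ => .imp fun W h => ⟨h.1, h.2.1, fun x hx => W.smul_mem c (h.2.2 x hx)⟩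
  have h2 : (2 : F) = 0 ↔ p = 2 := (CharP.cast_eq_zero_iff F p 2).trans
    (Nat.prime_dvd_prime_iff_eq Fact.out Nat.prime_two)
  rcases eq_or_ne r 2 with rfl | hr2 <;> rcases eq_or_ne p 2 with hp | hp
  · replace h2 := h2.2 hp
    simp only [hp, lt_irrefl, ne_eq, not_true, true_and, false_and, false_or, or_false]
    refine ⟨fun H => by_contra fun h => ?_, fun H f hf ⟨z, hz⟩ _ => ?_⟩
    · obtain ⟨f, h3, h4, h5⟩ := exists_inv2_rank h2 hA hB (s := d) hV.ge (A := True)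
        (fun _ => by grind) (absurd trivial)
      obtain ⟨W, h6, h7, h8⟩ := H f h3.toSpE ⟨1, by ext; simp [sq, h3.sq]⟩ fun ⟨z, hz⟩ => by
        have := (mul_self_eq_one_iff.1 (hz ▸ h3.toSpE).mul_self).elim id
          fun h => h.trans (Lib.Orth.neg_eq_of_two h2 1)
        rw [hz, this, one_smul, sub_self, LinearMap.range_zero, finrank_bot] at h4; omega
      have S := h3.toSpE.osplit_of_nondeg h8 h7
      have h9 : Inv2 _ _ := ⟨S.spE_left h3.toSpE, h2, fun v => Subtype.ext (h3.sq v)⟩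
      have h10 : Inv2 _ _ := ⟨S.spE_right h3.toSpE, h2, fun v => Subtype.ext (h3.sq v)⟩
      have h11 := two_mul_finrank_le h9.nd h9.isotropic
      have h12 := two_mul_finrank_le h10.nd h10.isotropic
      have h13 := h9.even_of_alt fun v => h5.2 trivial v
      have h14 := (S.isim hA).sim.sub_one.finrank_range
      have h15 := Submodule.finrank_add_eq_of_isCompl S.compl
      rw [finrank_range_prodMap] at h14
      grind
    · have h3 := (mul_self_eq_one_iff.1 (hz ▸ hf.pow 2).mul_self).elim id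
        fun h => h.trans (Lib.Orth.neg_eq_of_two h2 1)
      have h4 : Inv2 _ f := ⟨hf, h2, fun v => by simpa [h3, sq] using LinearMap.congr_fun hz v⟩
      have h5 := two_mul_finrank_le hB h4.isotropic
      obtain ⟨s, h6, h7, h8, h9, h10⟩ : ∃ s, s ≤ finrank F (LinearMap.range (f - 1)) ∧ s ≤ k ∧
          finrank F (LinearMap.range (f - 1)) - s ≤ d - k ∧ ((∀ v, bil _ F v (f v) = 0) → Even s) ∧
          ((¬ ∀ v, bil _ F v (f v) = 0) → 0 < s) := by
        by_cases h : ∀ v, bil _ F v (f v) = 0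
        · have := h4.even_of_alt h
          exact ⟨min (finrank F (LinearMap.range (f - 1))) (2 * (k / 2)), by grind, by grind, by grind,
            fun _ => by grind, absurd h⟩
        · have : finrank F (LinearMap.range (f - 1)) ≠ 0 := fun h0 => h fun v => by
            rw [sub_eq_zero.1 (LinearMap.range_eq_bot.1 (Submodule.finrank_eq_zero.1 h0))]; exact hA v
          exact ⟨min (finrank F (LinearMap.range (f - 1))) k, by omega, by omega, by omega,
            (absurd · h), fun _ => by omega⟩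
      obtain ⟨f₁, f₂, -, -, h11⟩ := h4.exists_isim (by omega) (by omega) h7 h8 h9 h10
      obtain ⟨X, Y, S, h12, -⟩ := h11.symm.exists_osplit_prod
      exact ⟨X, h12.sim.finrank_eq.trans (Lib.Orth.finrank_bil k), S.nondeg hf, S.invL⟩
  · refine iff_of_true (fun f hf ⟨z, hz⟩ _ => ?_) (by simp [hp])
    exact (hf.exists_nondeg_iff (hf.typ_of_sq (mt h2.1 hp) hz).1).2
      (hf.exists_spT_of_sq (mt h2.1 hp) hz (by omega))
  all_goals rw [forall_spE_odd (hr.odd_of_ne_two hr2) hP]; rcases eq_or_ne r p with rfl | hrp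
  · exact absurd hp hr2
  rotate_left
  · simp only [hr2, lt_of_le_of_ne hr.two_le hr2.symm, ne_eq, not_true, true_and, false_and, or_false]
    have h3 : ∀ (f : End F (Fin d ⊕ Fin d → F)) μ, typ f = jt 1 μ → (f ^ r = 1 ↔ ∀ a ∈ μ, a ≤ r) :=
      fun f μ h => by rw [← (h ▸ blocks_typ f :).jt_pow_eq_zero_iff, one_smul, ← pow_one r,
        pow_char_pow_eq_one_iff]
    refine ⟨fun H μ h4 h5 h6 => ?_, fun H f hf h4 _ => ?_⟩
    · by_cases h7 : ∀ a ∈ μ, a ≤ 1
      · rw [Multiset.eq_replicate_of_mem fun a ha => (h7 a ha).antisymm (h4 a ha).1] at h6 ⊢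
        exact ⟨.replicate (2 * k) 1, (Multiset.replicate_le_replicate _).2 (by simp at h6; omega), by simp,
          fun a _ => by rw [Multiset.count_replicate]; split_ifs <;> simp⟩
      obtain ⟨x, hx⟩ := ((spT_jt_one.2 h5).occ fun P hP => ⟨jt_pp (1 : F) (fun a ha => (h4 a ha).1) P hP, by
        obtain ⟨a, -, rfl⟩ := Multiset.mem_map.1 hP
        simp [coeff_zero_eq_eval_zero]⟩).exists_sp (l := Fin d) (by simpa [jt_map_natDegree] using h6)
      have h8 := hx.typ_eq (jt_pp 1 fun a ha => (h4 a ha).1)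
      obtain ⟨W, h9, h10, h11⟩ := H _ (spE_sp x) ((h3 _ _ h8).2 fun a ha => (h4 a ha).2) fun ⟨z, hz⟩ => by
        obtain ⟨n, hn⟩ := FE.isNilpotent_of_typ h8
        rw [hz, ← one_smul F 1, smul_smul, ← sub_smul, ← zero_smul F 1, smul_one_pow_eq_iff] at hn
        exact h7 (hx.jt_pow_eq_zero_iff.1 (by simp [hz, show z = 1 by
          simpa using sub_eq_zero.1 (pow_eq_zero_iff'.1 hn).1]))
      have S := (spE_sp x).osplit_of_nondeg h11 h10
      obtain ⟨ν, h12, h13⟩ := le_jt_iff.1 (h8 ▸ S.typ_eq ▸ le_self_add)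
      exact ⟨ν, h12, (h13 ▸ blocks_typ _).jt_sum.trans h9, spT_jt_one.1 (h13 ▸ (S.spE_left (spE_sp x)).spT)⟩
    · obtain ⟨μ, h5, h6⟩ := exists_jt_one ⟨_, (pow_char_pow_eq_one_iff r 1).1 (by rwa [pow_one])⟩
      obtain ⟨ν, h7, h8, h9⟩ := H μ (fun a ha => ⟨h5 a ha, (h3 f μ h6).1 h4 a ha⟩)
        (spT_jt_one.1 (h6 ▸ hf.spT)) ((h6 ▸ blocks_typ f).jt_sum.trans hV)
      obtain ⟨ν', rfl⟩ := Multiset.le_iff_exists_add.1 h7
      obtain ⟨X, Y, S, h10⟩ := (hf.fE (mt h2.1 hp)).exists_osplit_jt h6 fun a ha => h9 a (by grind)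
      exact ⟨X, (h10 ▸ blocks_typ _).jt_sum.symm.trans h8, S.nondeg hf, S.invL⟩
  all_goals
    have h := OP.of hq hr hr2 hrp hi hc
    simp only [hr2, hrp, lt_of_le_of_ne hr.two_le hr2.symm, ne_eq, not_false_eq_true, true_and,
      false_and, false_or]
    obtain ⟨j, h3, h4⟩ := h.exists_dvd_of_dvd_card_nondeg hA hB (l := d - k) (by omega) hrΩ
    have h5 := Nat.le_of_dvd (by omega) h4
    have h0 := h.pos
    have key : ∀ j (ν : Multiset F[X]), (∀ φ ∈ ν, RF r φ) → ∀ μ ≤ .replicate j (X - C 1) + ν, SpT μ →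
        ∃ j' ≤ j, ∃ n, (μ.map natDegree).sum = j' + c * n := fun j ν h6 μ h7 h8 => by
      obtain ⟨j', h9, ρ, h10, rfl⟩ := exists_of_le_replicate_add h7
      obtain ⟨n, h11, -⟩ := h.blocks (fun φ hφ => h6 φ (Multiset.mem_of_le h10 hφ)) (by
        simpa [rdual_X_sub_C, -map_one] using h8.1)
      exact ⟨j', h9, n, by simp [h11, -map_one]⟩
    rw [forall_spE_RF h.odd h.ne]
    refine ⟨fun H => ?_, fun ⟨_, h6⟩ f j ν hf h7 h8 h9 _ h10 => (hf.exists_nondeg_iff h7).2 ?_⟩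
    · obtain ⟨f, j', ν, h6, h7, h8, h9, h10, h11, h12, -⟩ := h.exists_spE hA hB
        (Nat.div_pos (show c ≤ 2 * d by omega) h0).ne' (hV ▸ Nat.mul_div_le _ _)
      obtain ⟨μ, h13, h14, h15⟩ := (h6.exists_nondeg_iff h7).1 (H f j' ν h6 h7 h8 h9 h10 h11)
      obtain ⟨j'', h16, n, h17⟩ := key _ ν h8 μ (h11 ▸ h13) h14
      have h18 := Nat.div_add_mod (2 * d) c
      have h19 : 2 * k % c ≤ 2 * d % c := by
        rw [← h15, h17, Nat.add_mul_mod_self_left]; exact (Nat.mod_le _ _).trans (by omega)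
      refine ⟨by_contra fun h20 => ?_, h19⟩
      rw [Nat.mod_eq_of_lt (by omega), show 2 * d = 2 * (d - k + j + 1) + 2 * (k - j - 1) by omega,
        Nat.add_mod, Nat.mod_eq_zero_of_dvd h4, zero_add, Nat.mod_mod] at h19
      have := Nat.mod_le (2 * (k - j - 1)) c
      omega
    · obtain ⟨n, h11, h12⟩ := h.blocks h8 h9
      obtain ⟨ρ, h13, h14, h15⟩ := h12 _ (min_le_left n (2 * k / c))
      have h16 := Nat.div_add_mod (2 * k) c
      have h17 : c * min n (2 * k / c) ≤ c * (2 * k / c) := Nat.mul_le_mul_left _ (min_le_right _ _)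
      obtain ⟨j', h18⟩ : Even (2 * k - c * min n (2 * k / c)) :=
        (Nat.even_sub (by omega)).2 (iff_of_true (even_two_mul k) (h.even.mul_right _))
      have h19 := finrank_of_typ h10
      have h21 := fun φ hφ => h8 φ (Multiset.mem_of_le h13 hφ)
      have h20 : 2 * d % c ≤ 2 * j := by
        rw [← hV, h19, h11, Nat.add_mul_mod_self_left]; exact Nat.mod_le _ _
      refine ⟨.replicate (2 * j') (X - C 1) + ρ, h10 ▸ add_le_add ((Multiset.replicate_le_replicate _).2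
        ?_) h13, ((occ_iff (pp_RF h21 _)).1 (occ_RF h.odd h21 h14 j')).1, by
          simp [h15, -map_one]; omega⟩
      rcases min_choice n (2 * k / c) with h | h <;> rw [h] at h18 h17 <;> omega

end Cfsg.Agent.S5956
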