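import Cfsg.Statements.S5957
import Cfsg.Agent.Lib.GLC.Dec

set_option autoImplicit false
open scoped MatrixGroups
open Cfsg

namespace Cfsg.Agent.S5957

open Lib.GLC Polynomial Matrix Module


/-- Involutions of PSL_n(q) and imprimitive subgroups. Here `T = PSL_n(F)` for a field `F` with `q = p^f` elements (`n ≥ 2`, `(n, q) ≠ (2, 2), (2, 3)`), `n = a·t` with `t ≥ 2`, and Ω is the set of direct-sum decompositions of `F^n` into `t` subspaces of dimension `a` (unordered; their number is the number of ordered ones divided by `t!`), whose stabilizers are the imprimitive subgroups of type GL_a(q) ≀ S_t (maximal except in some small cases; maximality is not assumed); an element of `T` of prime order `r` (a matrix `x` of determinant 1 with `x^r` scalar, `x` not scalar) fixes a point of Ω when it permutes the summands of some such decomposition. If the number of such decompositions is even, then every involution of `T` stabilizes one of them (the action is 2-elusive). -/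
theorem result {F : Type*} [Field F] [Fintype F] {p : ℕ} [Fact p.Prime] [CharP F p] {q : ℕ} (hq : Fintype.card F = q)
    (n a t : ℕ) (hn : 2 ≤ n) (hT : (n, q) ≠ (2, 2) ∧ (n, q) ≠ (2, 3)) (hat : n = a * t) (ha : 1 ≤ a) (ht : 2 ≤ t)
    (hΩ : 2 ∣ Nat.card {D : Fin t → Submodule F (Fin n → F) // Cfsg.Geo.IsMDecomposition a D} / Nat.factorial t)
    (x : Matrix.SpecialLinearGroup (Fin n) F)
    (hx1 : ∃ z : F, ((x ^ 2 : Matrix.SpecialLinearGroup (Fin n) F) : Matrix (Fin n) (Fin n) F) = z • (1 : Matrix (Fin n) (Fin n) F))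
    (hx2 : ∀ z : F, (x : Matrix (Fin n) (Fin n) F) ≠ z • (1 : Matrix (Fin n) (Fin n) F)) :
    ∃ D : Fin t → Submodule F (Fin n → F), Cfsg.Geo.IsMDecomposition a D ∧
        ∃ σ : Equiv.Perm (Fin t), ∀ j, (D j).map (Matrix.toLin' (x : Matrix (Fin n) (Fin n) F)) = D (σ j) := by
  rw [dec_iff ha ht (by simpa)]
  obtain ⟨z, hz⟩ := hx1
  have h1 : toLin' x.1 ^ 2 = z • 1 := by rw [← toLin'_pow', toLin'_eq_smul_one_iff]; exact hz
  haveI : Nonempty (Fin n) := ⟨⟨0, by omega⟩⟩
  have hc := ne_zero_of_pow_eq (isUnit_toLin'_gl (SpecialLinearGroup.toGL x)) h1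
  by_cases h5 : ∃ b, b ^ 2 = z
  · obtain ⟨b, rfl⟩ := h5
    have hb : b ≠ 0 := by rintro rfl; exact hc (zero_pow two_ne_zero)
    have h6 : (b⁻¹ • toLin' x.1) ^ 2 = 1 := by rw [_root_.smul_pow, h1, smul_smul, inv_pow, inv_mul_cancel₀ hc, one_smul]
    rw [← smul_inv_smul₀ hb (toLin' x.1)]
    refine .smul ?_ hb
    generalize b⁻¹ • toLin' x.1 = f at h6
    have h7 := (blocks_typ f).finrank_eq
    replace h7 := (hat.symm.trans (finrank_fin_fun F).symm).trans h7
    by_cases h2 : (2 : F) = 0
    · have h8 : (f - (1 : F) • 1) ^ 2 = 0 := by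
        have : (2 : End F (Fin n → F)) = 0 := by rw [← map_ofNat (algebraMap F _) 2, h2, map_zero]
        rw [one_smul, (Commute.one_right f).sub_sq, h6, this]
        simpa [one_add_one_eq_two] using this
      obtain ⟨d, h9, h10⟩ := exists_jt h8
      have h11 := (h10 ▸ blocks_typ f).jt_pow_eq_zero_iff.1 h8
      have h12 : d = .replicate (d.count 1) 1 + .replicate (d.count 2) 2 := Multiset.ext.2 fun i => by
        simp only [Multiset.count_add, Multiset.count_replicate]
        split_ifs <;> try omega
        · subst_vars; rfl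
        · subst_vars; simp
        · exact Multiset.count_eq_zero.2 fun hi => by have := h9 i hi; have := h11 i hi; omega
      rw [h10, jt_map_natDegree, h12] at h7
      exact DT.two h2 ha (by simpa using h7.symm) _ f (h12 ▸ h10 ▸ blocks_typ f)
    · obtain ⟨k, ν, h8, h9⟩ := Lib.Symp.exists_typ_RF (r := 2) h2 h6
      have h10 := map_natDegree_RF Nat.prime_two h8 k
      have h11 : orderOf (Nat.card F : ZMod 2) = 1 := by
        obtain ⟨S, -, h⟩ := Lib.Symp.exists_finset_RF (F := F) Nat.prime_two h2
        exact Nat.eq_one_of_mul_eq_one_left h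
      rw [← h9, h11] at h10
      rw [h10] at h7
      exact DT.of_le ((blocks_typ f).isUnit_iff.1 (.of_pow_eq_one h6 two_ne_zero)) h10 (by simpa using h7.symm)
        (by simp [Nat.mod_one]) _ f (blocks_typ f)
  · obtain ⟨k, h6, h7, -⟩ := typ_of_kummer Nat.prime_two (not_exists.1 h5) h1
    exact DT.kummer hc Nat.prime_two (by simpa [hat] using h6) _ _ (h7 ▸ blocks_typ _)

end Cfsg.Agent.S5957
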