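import Cfsg.Statements.S5958
import Cfsg.Agent.Lib.GLC.Dec

set_option autoImplicit false
open scoped MatrixGroups
open Cfsg

namespace Cfsg.Agent.S5958

open Lib.GLC Lib.Symp Polynomial Matrix Module


/-- Elements of odd prime order of PSL_n(q) and imprimitive subgroups. Here `T = PSL_n(F)` for a field `F` with `q = p^f` elements (`n ≥ 2`, `(n, q) ≠ (2, 2), (2, 3)`), `n = a·t` with `t ≥ 2`, and Ω is the set of direct-sum decompositions of `F^n` into `t` subspaces of dimension `a` (unordered; their number is the number of ordered ones divided by `t!`), whose stabilizers are the imprimitive subgroups of type GL_a(q) ≀ S_t (maximal except in some small cases; maximality is not assumed); an element of `T` of prime order `r` (a matrix `x` of determinant 1 with `x^r` scalar, `x` not scalar) fixes a point of Ω when it permutes the summands of some such decomposition. Let `r ≠ p` be an odd prime dividing the number of such decompositions, let `c` be the multiplicative order of `q` modulo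 `r`, and write `k = n mod c`, `ℓ = a mod c`. Then every element of `T` of order `r` stabilizes such a decomposition if and only if either `a = 1`, `c = r − 1 > 1` and `n ≤ k·r`, or `c ≤ a` and `k = t·ℓ`. -/
theorem result {F : Type*} [Field F] [Fintype F] {p : ℕ} [Fact p.Prime] [CharP F p] {q : ℕ} (hq : Fintype.card F = q)
    (n a t : ℕ) (hn : 2 ≤ n) (hT : (n, q) ≠ (2, 2) ∧ (n, q) ≠ (2, 3)) (hat : n = a * t) (ha : 1 ≤ a) (ht : 2 ≤ t)
    (r : ℕ) [Fact r.Prime] (hr2 : r ≠ 2) (hrp : r ≠ p) (hΩ : r ∣ Nat.card {D : Fin t → Submodule F (Fin n → F) // Cfsg.Geo.IsMDecomposition a D} / Nat.factorial t)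
    (c : ℕ) (hc : c = orderOf (q : ZMod r)) :
    (∀ x : Matrix.SpecialLinearGroup (Fin n) F,
      (∃ z : F, ((x ^ r : Matrix.SpecialLinearGroup (Fin n) F) : Matrix (Fin n) (Fin n) F) = z • (1 : Matrix (Fin n) (Fin n) F)) →
      (∀ z : F, (x : Matrix (Fin n) (Fin n) F) ≠ z • (1 : Matrix (Fin n) (Fin n) F)) →
      ∃ D : Fin t → Submodule F (Fin n → F), Cfsg.Geo.IsMDecomposition a D ∧
        ∃ σ : Equiv.Perm (Fin t), ∀ j, (D j).map (Matrix.toLin' (x : Matrix (Fin n) (Fin n) F)) = D (σ j)) ↔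
    ((a = 1 ∧ 1 < c ∧ c = r - 1 ∧ n ≤ (n % c) * r) ∨ (c ≤ a ∧ n % c = t * (a % c))) := by
  classical
  have hr : r.Prime := Fact.out
  simp only [dec_iff ha ht (show Fintype.card (Fin n) = a * t by simpa)]
  refine (forall_sl_iff (F := F) (n := Fin n) (P := fun f => Dec f a t)).trans ?_
  rw [← hq, ← Nat.card_eq_fintype_card] at hc
  have h0 : (r : F) ≠ 0 := by
    rwa [Ne, CharP.cast_eq_zero_iff F p, Nat.prime_dvd_prime_iff_eq Fact.out hr, eq_comm]
  have hc0 : 0 < c := hc ▸ orderOf_card_pos hr h0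
  obtain ⟨S, hS, hS'⟩ := exists_finset_RF hr h0
  rw [← hc] at hS'
  have hr3 := hr.two_le
  haveI : Nonempty (Fin n) := ⟨⟨0, by omega⟩⟩
  have hm := Nat.div_add_mod n c
  have hm' := Nat.mod_lt n hc0
  refine ⟨fun H => ?_, fun H f h2 ⟨z, h3⟩ h4 => ?_⟩
  · rcases (Nat.succ_le_of_lt hc0).eq_or_lt with h1 | h1
    · exact .inr (by simp [← h1, ha, Nat.mod_one])
    have h2 : c ≤ n := by
      simpa [hc] using orderOf_le_of_dvd_card_GL hr (not_dvd_card p hr hrp)
        (hΩ.trans (div_dvd_card_GL (by simpa) ha ht))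
    have h3 : ¬ r ∣ Nat.card F - 1 := fun e => by have := orderOf_card_eq_one_iff.2 e; omega
    obtain ⟨φ, hφ⟩ := exists_RF hr h0
    have key : ∀ b ≠ 0, b * c ≤ n → (a = 1 → t ≤ r * (n - b * c)) ∧
        ((n - b * c < a ∨ b * c < (r - 1) * a) → t * (a % c) ≤ n - b * c) := fun b hb h4 => by
      have h5 : ∀ ψ ∈ Multiset.replicate b φ, RF r ψ := fun ψ hψ => Multiset.eq_of_mem_replicate hψ ▸ hφ
      obtain ⟨f, hf⟩ := exists_blocks_of_finrank (V := Fin n → F) (fun P hP => (pp_RF h5 (n - b * c) P hP).monic)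
        (by rw [map_natDegree_RF hr h5, ← hc]; simp [h4])
      have h6 := pow_eq_one_RF h5 hf
      have h7 := H f (det_eq_one_of_pow hr h3 h6) ⟨1, by rwa [one_smul]⟩ fun ⟨d, hd⟩ => by
        have := hf.natDegree_eq_one hd (Multiset.mem_add.2 (.inr (Multiset.mem_replicate.2 ⟨hb, rfl⟩)))
        rw [hφ.natDegree_eq hr] at this
        omega
      have h8 := hf.typ_eq (pp_RF h5 _)
      have h9 := finrank_ker_of_typ h5 h8
      refine ⟨?_, fun h10 => ?_⟩
      · rintro rfl
        refine h9 ▸ h7.le_mul_finrank_ker hr h0 h6 fun d hd => ?_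
        simpa using det_eq_one_of_pow (V := F) (f := d • 1) hr h3 (by rw [_root_.smul_pow, hd]; simp)
      have h11 := (f - 1).finrank_range_add_finrank_ker
      have h12 : finrank F (LinearMap.range (∑ k ∈ .range r, f ^ k)) ≤ finrank F (LinearMap.ker (f - 1)) :=
        Submodule.finrank_mono (LinearMap.range_le_ker_iff.2 (by rw [← End.mul_eq_comp, mul_geom_sum, h6, sub_self]))
      rw [finrank_fin_fun] at h11
      obtain ⟨μ, h13, h14⟩ := h7.exists_typ ha hr h6 (by omega)
      have h15 := congrArg (Multiset.count (X - C 1)) (h8.symm.trans h13)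
      rw [Multiset.count_add, Multiset.count_replicate_self, Multiset.count_replicate, if_neg hφ.2.2.2, add_zero,
        Multiset.count_sum'] at h15
      refine h15 ▸ .trans (by simp) (Finset.sum_le_sum (f := fun _ => a % c) fun j _ => ?_)
      obtain ⟨i, -, s, h16, h17⟩ := exists_of_le_replicate_add (h8 ▸ h13 ▸
        Finset.single_le_sum (f := μ) (fun _ _ => zero_le) (Finset.mem_univ j))
      obtain ⟨l, -, rfl⟩ := Multiset.le_replicate_iff.1 h16
      rw [← h14 j, h17, Multiset.count_add, Multiset.count_replicate_self]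
      simp only [Multiset.map_add, Multiset.map_replicate, Multiset.sum_add, Multiset.sum_replicate, natDegree_X_sub_C,
        hφ.natDegree_eq hr, ← hc, smul_eq_mul, mul_one, Nat.add_mul_mod_self_right]
      exact (Nat.mod_le _ _).trans (Nat.le_add_right _ _)
    have h5 := key (n / c) (Nat.div_pos h2 hc0).ne' (Nat.div_mul_le_self _ _)
    rw [mul_comm] at hm
    rw [show n - n / c * c = n % c by omega] at h5
    rcases le_or_gt c a with h4 | h4
    · refine .inr ⟨h4, le_antisymm ?_ (h5.2 (.inl (by omega)))⟩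
      rw [hat, mul_comm, ← Nat.mul_mod_mod]
      exact Nat.mod_le _ _
    have h6 : c ≤ r - 1 := Nat.le_of_dvd (by omega) (Dvd.intro_left _ hS')
    have h7 : (r - 1) * a ≤ c := by
      by_contra h7
      have := (key 1 one_ne_zero (by omega)).2 (.inr (by omega))
      rw [Nat.mod_eq_of_lt h4, mul_comm] at this
      omega
    obtain rfl : a = 1 := by nlinarith
    exact .inl ⟨rfl, h1, by omega, by have := h5.1 rfl; rw [mul_comm]; omega⟩
  have hz := ne_zero_of_pow_eq ((LinearMap.isUnit_iff_isUnit_det f).2 (h2 ▸ isUnit_one)) h3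
  by_cases h5 : ∃ b, b ^ r = z
  swap
  · obtain ⟨k, h6, h7, -⟩ := typ_of_kummer hr (not_exists.1 h5) h3
    exact DT.kummer hz hr (by simpa [hat] using h6) _ _ (h7 ▸ blocks_typ _)
  obtain ⟨b, rfl⟩ := h5
  have hb : b ≠ 0 := by rintro rfl; exact hz (zero_pow hr.ne_zero)
  have h6 : (b⁻¹ • f) ^ r = 1 := by rw [_root_.smul_pow, h3, smul_smul, inv_pow, inv_mul_cancel₀ hz, one_smul]
  rw [← smul_inv_smul₀ hb f]
  refine .smul ?_ hb
  generalize b⁻¹ • f = g at h6
  obtain ⟨k, ν, h7, h8⟩ := exists_typ_RF h0 h6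
  have h9 := map_natDegree_RF hr h7 k
  have h10 := (blocks_typ g).finrank_eq
  rw [← h8, ← hc] at h9
  rw [h9] at h10
  simp only [finrank_fin_fun, Multiset.sum_add, Multiset.sum_replicate, smul_eq_mul, mul_one] at h10
  have h11 : n % c ≤ k := by rw [h10, Nat.add_mul_mod_self_right]; exact Nat.mod_le _ _
  rcases H with ⟨rfl, h12, h13, h14⟩ | ⟨-, h12⟩
  swap
  · exact DT.of_le ((blocks_typ g).isUnit_iff.1 (.of_pow_eq_one h6 hr.ne_zero)) h9 (by omega) (by omega) _ g
      (blocks_typ g)
  obtain ⟨φ, rfl⟩ := Finset.card_eq_one.1 (Nat.eq_of_mul_eq_mul_right hc0 (by omega : S.card * c = 1 * c))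
  have hφ := (hS φ).1 (by simp)
  have h15 : ν = .replicate ν.card φ := Multiset.eq_replicate_card.2 fun ψ hψ => by simpa using (hS ψ).2 (h7 ψ hψ)
  have h16 := isCoprime_of_ne (monic_X_sub_C (1 : F)) (irreducible_X_sub_C 1) hφ.1 hφ.2.1 hφ.2.2.2.symm
  have h17 : X ^ r - C 1 = (X - C 1) * φ := eq_of_monic_of_dvd_of_natDegree_le ((monic_X_sub_C 1).mul hφ.1)
    (monic_X_pow_sub_C _ hr.ne_zero) (h16.mul_dvd (X_sub_C_dvd_iff.2 (one_pow _)) hφ.2.2.1) (by
      rw [natDegree_X_pow_sub_C, (monic_X_sub_C 1).natDegree_mul hφ.1, natDegree_X_sub_C, hφ.natDegree_eq hr]; omega)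
  have h18 : DT 1 r {X - C 1, φ} := fun V _ _ f hf => DT.cycle one_ne_zero hr.pos 1 V f (h17 ▸ hf.merge h16)
  have h19 : ν.card ≤ k := by
    refine Nat.le_of_mul_le_mul_right ?_ hc0
    obtain rfl : r = c + 1 := by omega
    nlinarith
  obtain ⟨k, rfl⟩ := Nat.exists_eq_add_of_le h19
  have h20 := (h18.nsmul ν.card).add (DT.of_le (μ := .replicate k (X - C 1)) (a := 1) (t := k) (k := k) (b := 0) (c := 1)
    (fun P hP => by simp [Multiset.eq_of_mem_replicate hP]) (by simp [-map_one]) (by simp) (by simp))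
  rw [show t = ν.card * r + k by obtain rfl : r = c + 1 := by omega
                                 rw [mul_add]; omega]
  refine h20 _ g ?_
  convert blocks_typ g using 1
  rw [h8, Multiset.insert_eq_cons, ← Multiset.singleton_add, nsmul_add, Multiset.nsmul_singleton,
    Multiset.nsmul_singleton, ← h15, Multiset.replicate_add]
  abel

end Cfsg.Agent.S5958
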