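import Cfsg.Statements.S5959
import Cfsg.Agent.Lib.GLC.Dec

set_option autoImplicit false
open scoped MatrixGroups
open Cfsg

namespace Cfsg.Agent.S5959

open Lib.GLC Polynomial Matrix Module


/-- Elements of order `p` of PSL_n(q) and imprimitive subgroups: a necessary condition. Here `T = PSL_n(F)` for a field `F` with `q = p^f` elements (`n ≥ 2`, `(n, q) ≠ (2, 2), (2, 3)`), `n = a·t` with `t ≥ 2`, and Ω is the set of direct-sum decompositions of `F^n` into `t` subspaces of dimension `a` (unordered; their number is the number of ordered ones divided by `t!`), whose stabilizers are the imprimitive subgroups of type GL_a(q) ≀ S_t (maximal except in some small cases; maximality is not assumed); an element of `T` of prime order `r` (a matrix `x` of determinant 1 with `x^r` scalar, `x` not scalar) fixes a point of Ω when it permutes the summands of some such decomposition. Suppose `p > 2` divides the number of such decompositions. If every element of `T` of order `p` stabilizes such a decomposition, then every partition of `n` into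 parts of size at most `p` in which the part `p` occurs fewer than `a` times contains (as a sub-multiset) a partition of `a`. -/
theorem result {F : Type*} [Field F] [Fintype F] {p : ℕ} [Fact p.Prime] [CharP F p] {q : ℕ} (hq : Fintype.card F = q)
    (n a t : ℕ) (hn : 2 ≤ n) (hT : (n, q) ≠ (2, 2) ∧ (n, q) ≠ (2, 3)) (hat : n = a * t) (ha : 1 ≤ a) (ht : 2 ≤ t)
    (hp : 2 < p) (hΩ : p ∣ Nat.card {D : Fin t → Submodule F (Fin n → F) // Cfsg.Geo.IsMDecomposition a D} / Nat.factorial t)
    (h : ∀ x : Matrix.SpecialLinearGroup (Fin n) F,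
      (∃ z : F, ((x ^ p : Matrix.SpecialLinearGroup (Fin n) F) : Matrix (Fin n) (Fin n) F) = z • (1 : Matrix (Fin n) (Fin n) F)) →
      (∀ z : F, (x : Matrix (Fin n) (Fin n) F) ≠ z • (1 : Matrix (Fin n) (Fin n) F)) →
      ∃ D : Fin t → Submodule F (Fin n → F), Cfsg.Geo.IsMDecomposition a D ∧
        ∃ σ : Equiv.Perm (Fin t), ∀ j, (D j).map (Matrix.toLin' (x : Matrix (Fin n) (Fin n) F)) = D (σ j)) :
    (∀ μ : Multiset ℕ, (∀ b ∈ μ, 0 < b ∧ b ≤ p) → μ.sum = n → μ.count p < a → ∃ ν : Multiset ℕ, ν ≤ μ ∧ ν.sum = a) := by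
  intro μ h1 h2 h3
  simp only [dec_iff ha ht (show Fintype.card (Fin n) = a * t by simpa)] at h
  replace h := (forall_sl_iff (F := F) (n := Fin n) (P := fun f => Dec f a t)).1 h
  obtain ⟨x, hx⟩ := exists_sl_jt (F := F) (n := Fin n) (d := μ) (by simpa)
  have h4 := hx.typ_eq (jt_pp _ fun k hk => (h1 k hk).1)
  have h5 : LinearMap.det (toLin' x.1) = 1 := by rw [LinearMap.det_toLin', x.2]
  generalize toLin' x.1 = f at hx h4 h5
  by_cases h6 : ∃ c : F, f = c • 1
  · obtain ⟨c, h6⟩ := h6
    have h7 : μ = .replicate μ.card 1 := Multiset.eq_replicate_card.2 fun b hb => by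
      have := hx.natDegree_eq_one h6 (Multiset.mem_map_of_mem _ hb)
      have := h1 b hb
      simp [-map_one] at *
      omega
    refine ⟨.replicate a 1, ?_, by simp⟩
    rw [h7] at h2 ⊢
    refine (Multiset.replicate_le_replicate _).2 ?_
    simp at h2
    nlinarith
  have hpp : p.Prime := Fact.out
  haveI : Nonempty (Fin n) := ⟨⟨0, by omega⟩⟩
  haveI : CharP (End F (Fin n → F)) p := charP_of_injective_algebraMap (algebraMap F _).injective p
  have h7 : (f - 1) ^ p = f ^ p - 1 := by rw [sub_pow_char_of_commute _ (Commute.one_right f), one_pow]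
  have h8 : f ^ p = 1 := by
    rw [← sub_eq_zero, ← h7, ← one_smul F (1 : End F _), hx.jt_pow_eq_zero_iff]
    exact fun b hb => (h1 b hb).2
  have h9 : ∑ k ∈ .range p, f ^ k = (f - 1) ^ (p - 1) := by
    have : (∑ k ∈ .range p, X ^ k : F[X]) = (X - 1) ^ (p - 1) := mul_left_cancel₀ (X_sub_C_ne_zero 1) (by
      rw [C_1, mul_geom_sum, ← pow_succ', Nat.sub_add_cancel hpp.pos, sub_pow_char, one_pow])
    simpa using congrArg (aeval f) this
  obtain ⟨ν, h10, h11⟩ := (h f h5 ⟨1, by rwa [one_smul]⟩ h6).exists_typ ha hpp h8 (.inl (by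
    have h10 := hx.jt_finrank_ker (p - 1)
    have h11 := ((f - 1) ^ (p - 1)).finrank_range_add_finrank_ker
    have h12 : ∀ μ : Multiset ℕ, (∀ b ∈ μ, b ≤ p) → μ.sum = (μ.map (min · (p - 1))).sum + μ.count p := fun μ => by
      induction μ using Multiset.induction_on with
      | empty => simp
      | cons b μ ih =>
        intro h
        have := h b (by simp)
        simp only [Multiset.sum_cons, Multiset.map_cons, Multiset.count_cons, ih fun c hc => h c (by simp [hc])]
        split_ifs <;> omega
    have := h12 μ fun b hb => (h1 b hb).2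
    rw [one_smul] at h10
    rw [finrank_fin_fun] at h11
    rw [h9]; omega))
  refine ⟨_, ?_, h11 ⟨0, by omega⟩⟩
  rw [← jt_map_natDegree (1 : F) μ, ← h4, h10]
  exact Multiset.map_le_map (Finset.single_le_sum (fun _ _ => zero_le) (Finset.mem_univ _))

end Cfsg.Agent.S5959
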