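import Cfsg.Statements.S5961
import Cfsg.Agent.Lib.Symp.ODec

set_option autoImplicit false
open scoped MatrixGroups
open Cfsg

namespace Cfsg.Agent.S5961

/-- Elements of odd prime order of PSp_n(q) and imprimitive subgroups. Here `T = PSp_n(q)`, `n = 2d ≥ 4`, `(n, q) ≠ (4, 2)`, realised through the symplectic matrices over the field `F` with `q` elements and the standard alternating form; `n = a·t` with `a` even and `t ≥ 2`, and Ω is the (nonempty) set of orthogonal decompositions of `F^n` into `t` nondegenerate subspaces of dimension `a` (unordered; counted as ordered ones divided by `t!`), whose stabilizers are the imprimitive subgroups of type Sp_a(q) ≀ S_t (maximality is not assumed); an element of `T` of prime order `r` (a symplectic matrix `x` with `x^r` scalar, `x` not scalar) fixes a point of Ω when it permutes the summands of some such decomposition. Let `r ≠ p` be an odd prime dividing the number of such decompositions, let `i` be the multiplicative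 order of `q` modulo `r`, `c = i` if `i` is even and `c = 2i` if `i` is odd, and write `k = n mod c`, `ℓ = a mod c`. Then every element of `T` of order `r` stabilizes such a decomposition if and only if `c ≤ a` and `k = t·ℓ`. -/
theorem result {F : Type*} [Field F] [Fintype F] {p : ℕ} [Fact p.Prime] [CharP F p] {q : ℕ} (hq : Fintype.card F = q)
    (d : ℕ) (hd : 2 ≤ d) (hT : (d, q) ≠ (2, 2))
    (a t : ℕ) (hat : 2 * d = a * t) (ha : 2 ≤ a) (hae : Even a) (ht : 2 ≤ t)
    (r : ℕ) [Fact r.Prime] (hr2 : r ≠ 2) (hrp : r ≠ p) (hΩ : r ∣ Nat.card {D : Fin t → Submodule F (Fin d ⊕ Fin d → F) // (Cfsg.Geo.IsMDecomposition a D ∧ (∀ j, ∀ u ∈ D j, u ≠ 0 → ∃ v ∈ D j, Cfsg.sympForm d F u v ≠ 0) ∧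
          (∀ j j', j ≠ j' → ∀ u ∈ D j, ∀ v ∈ D j', Cfsg.sympForm d F u v = 0))} / Nat.factorial t)
    (i c : ℕ) (hi : i = orderOf (q : ZMod r)) (hc : c = if Even i then i else 2 * i) :
    (∀ x : ↥(Matrix.symplecticGroup (Fin d) F),
      (∃ z : F, ((x ^ r : ↥(Matrix.symplecticGroup (Fin d) F)) : Matrix (Fin d ⊕ Fin d) (Fin d ⊕ Fin d) F) = z • (1 : Matrix (Fin d ⊕ Fin d) (Fin d ⊕ Fin d) F)) →
      (∀ z : F, (x : Matrix (Fin d ⊕ Fin d) (Fin d ⊕ Fin d) F) ≠ z • (1 : Matrix (Fin d ⊕ Fin d) (Fin d ⊕ Fin d) F)) →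
      ∃ D : Fin t → Submodule F (Fin d ⊕ Fin d → F), (Cfsg.Geo.IsMDecomposition a D ∧ (∀ j, ∀ u ∈ D j, u ≠ 0 → ∃ v ∈ D j, Cfsg.sympForm d F u v ≠ 0) ∧
          (∀ j j', j ≠ j' → ∀ u ∈ D j, ∀ v ∈ D j', Cfsg.sympForm d F u v = 0)) ∧
        ∃ σ : Equiv.Perm (Fin t), ∀ j, (D j).map (Matrix.toLin' (x : Matrix (Fin d ⊕ Fin d) (Fin d ⊕ Fin d) F)) = D (σ j)) ↔
    (c ≤ a ∧ (2 * d) % c = t * (a % c)) := by
  open Cfsg.Lib.Symp Cfsg.Lib.GLC Polynomial Matrix Module in
  have hA := bil_isAlt (Fin d) F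
  have hB := bil_nondegenerate (Fin d) F
  have hV := Lib.Orth.finrank_bil (F := F) d
  have h := OP.of hq Fact.out hr2 hrp hi hc
  haveI : Nonempty (Fin d) := ⟨⟨0, by omega⟩⟩
  simp only [isOD_iff (by omega : 0 < a) ht] at hΩ ⊢
  simp only [odec_iff]
  rw [forall_sp_iff (P := fun f => ODec (bil _ F) f a t), forall_spE_odd h.odd fun f c hc H => H.smul hc]
  have h0 := h.pos
  refine ⟨fun H => ?_, fun ⟨_, h1⟩ f hf h2 _ => ?_⟩
  · obtain ⟨D, -, hD, -⟩ := h.odec hae t _ _ 1 (.one hA hB) (one_pow _) (hV.trans hat) (by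
      rw [sub_self, LinearMap.ker_zero, finrank_top, hV, hat, mul_comm]
      exact Nat.mul_le_mul_right _ (Nat.mod_le _ _))
    have h1 : c ≤ 2 * d := h.le_of_dvd_cS ((hΩ.trans (Nat.div_dvd_of_dvd
      (factorial_dvd_card_isOD (by omega) t))).trans ((hD.card_dvd hA).trans (card_isom hA hB hV).dvd))
    have key : ∀ n ≠ 0, c * n ≤ 2 * d → (2 * d - c * n < a ∨ c * n < (r - 1) * a) →
        t * (a % c) ≤ 2 * d - c * n := fun n hn h2 h3 => by
      obtain ⟨f, k, ν, h4, -, h5, h6, h7, h8, h9, -⟩ := h.exists_spE hA hB hn (hV ▸ h2)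
      have h10 := pow_eq_one_RF h5 (h8 ▸ blocks_typ f)
      have h11 := finrank_ker_of_typ h5 h8
      have h12 := (f - 1).finrank_range_add_finrank_ker
      have := h.mul_mod_le h4 h10 (by omega) (H f h4 h10
        (mt (eq_smul_iff_RF h.odd h5 h6 (h8 ▸ blocks_typ _)).1 h7)) (by omega)
      omega
    have h2 : c ≤ a := by
      by_contra h2
      have h3 := h.le_sub_one
      have := key 1 one_ne_zero (by omega) (.inr (by nlinarith))
      rw [Nat.mod_eq_of_lt (by omega), mul_comm] at this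
      omega
    have h3 := Nat.div_add_mod (2 * d) c
    have h4 := Nat.mod_lt (2 * d) h0
    have h5 := key (2 * d / c) (Nat.div_pos h1 h0).ne' (by omega) (.inl (by omega))
    refine ⟨h2, le_antisymm ?_ (by omega)⟩
    rw [hat, mul_comm, ← Nat.mul_mod_mod]
    exact Nat.mod_le _ _
  · obtain ⟨n, h3⟩ := h.exists_finrank_eq hf h2
    refine h.odec hae t _ _ f hf h2 (hV.trans hat) ?_
    rw [← h1, ← hV, h3, Nat.add_mul_mod_self_left]
    exact Nat.mod_le _ _

end Cfsg.Agent.S5961
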