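import Cfsg.Statements.S5962
import Cfsg.Agent.Lib.Symp.Elus

set_option autoImplicit false
open scoped MatrixGroups
open Cfsg

namespace Cfsg.Agent.S5962

/-- Involutions of PSp_n(q), q odd, and the subgroups GL_{n/2}(q).2. Here `T = PSp_n(q)`, `n = 2d ≥ 4`, `q` odd, realised through the symplectic matrices over the field `F` with `q` elements; Ω is the set of unordered pairs `{U, W}` of complementary totally isotropic `d`-spaces (`F^n = U ⊕ W`), whose stabilizers are the subgroups of type GL_d(q).2 (maximal except in some small cases; maximality is not assumed); an element of `T` of prime order `r` (a symplectic matrix `x` with `x^r` scalar, `x` not scalar) fixes such a pair when it fixes or interchanges `U` and `W`. If the number of such pairs is even, every involution of `T` fixes one of them (the action is 2-elusive). -/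
theorem result {F : Type*} [Field F] [Fintype F] {p : ℕ} [Fact p.Prime] [CharP F p] {q : ℕ} (hq : Fintype.card F = q)
    (d : ℕ) (hd : 2 ≤ d) (hT : (d, q) ≠ (2, 2)) (hodd : Odd q)
    (hΩ : 2 ∣ Nat.card {P : Submodule F (Fin d ⊕ Fin d → F) × Submodule F (Fin d ⊕ Fin d → F) // IsCompl P.1 P.2 ∧ (∀ u ∈ P.1, ∀ v ∈ P.1, Cfsg.sympForm d F u v = 0) ∧ (∀ u ∈ P.2, ∀ v ∈ P.2, Cfsg.sympForm d F u v = 0)} / 2)
    (x : ↥(Matrix.symplecticGroup (Fin d) F))
    (hx1 : ∃ z : F, ((x ^ 2 : ↥(Matrix.symplecticGroup (Fin d) F)) : Matrix (Fin d ⊕ Fin d) (Fin d ⊕ Fin d) F) = z • (1 : Matrix (Fin d ⊕ Fin d) (Fin d ⊕ Fin d) F))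
    (hx2 : ∀ z : F, (x : Matrix (Fin d ⊕ Fin d) (Fin d ⊕ Fin d) F) ≠ z • (1 : Matrix (Fin d ⊕ Fin d) (Fin d ⊕ Fin d) F)) :
    ∃ U W : Submodule F (Fin d ⊕ Fin d → F), IsCompl U W ∧ (∀ u ∈ U, ∀ v ∈ U, Cfsg.sympForm d F u v = 0) ∧ (∀ u ∈ W, ∀ v ∈ W, Cfsg.sympForm d F u v = 0) ∧
        ((U.map (Matrix.toLin' (x : Matrix (Fin d ⊕ Fin d) (Fin d ⊕ Fin d) F)) = U ∧ W.map (Matrix.toLin' (x : Matrix (Fin d ⊕ Fin d) (Fin d ⊕ Fin d) F)) = W) ∨
         (U.map (Matrix.toLin' (x : Matrix (Fin d ⊕ Fin d) (Fin d ⊕ Fin d) F)) = W ∧ W.map (Matrix.toLin' (x : Matrix (Fin d ⊕ Fin d) (Fin d ⊕ Fin d) F)) = U)) := by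
  open Cfsg.Lib.Symp Cfsg.Lib.GLC Polynomial Matrix Module LinearMap in
  simp only [sympForm_eq_bil]
  obtain ⟨z, hz⟩ := hx1
  have h2 := two_ne_zero_iff_odd_card.2 (hq ▸ hodd)
  have hf := spE_sp x
  have h1 : toLin' x.1 ^ 2 = z • 1 := by rw [← toLin'_pow', toLin'_eq_smul_one_iff]; exact hz
  have key : ∀ U : Submodule F (Fin d ⊕ Fin d → F), (∀ v ∈ U, toLin' x.1 v ∈ U) →
      U.map (toLin' x.1) = U := fun U hU => Submodule.eq_of_le_of_finrank_eq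
    (Submodule.map_le_iff_le_comap.2 hU) (U.equivMapOfInjective _ hf.injective).finrank_eq.symm
  obtain ⟨hs, ⟨ν, h3, -⟩ | ⟨rfl, h3, -⟩⟩ := hf.typ_of_sq h2 h1
  · obtain ⟨X, Y, hX, hY, -, h4, h5, h6⟩ := hf.exists_polar hs h3
    exact ⟨X, Y, h6, h4, h5, .inl ⟨key X hX, key Y hY⟩⟩
  have h4 : ∀ f : End F (Fin d ⊕ Fin d → F), f ^ 2 = (-1 : F) • 1 → aeval f (X ^ 2 - C (-1 : F)) = 0 :=
    fun f h => by simp [h, neg_one_smul F (1 : End F (Fin d ⊕ Fin d → F))]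
  obtain ⟨e, h5, h6⟩ := (isim_of_sim hf (spE_sp ⟨_, SymplecticGroup.J_mem _ _⟩) (sim_of_irreducible
    (monic_X_pow_sub_C _ two_ne_zero) (irreducible_X_sq_add_one h3) (h4 _ h1) (h4 _ (by
      rw [← toLin'_pow', toLin'_eq_smul_one_iff, sq, J_squared, neg_one_smul])) rfl) hs).symm
  have h7 := (e.finrank_map_eq (lagInl (Fin d) F)).trans finrank_lagInl
  refine ⟨(lagInl _ F).map e.toLinearMap, _, (Submodule.isCompl_iff_disjoint _ _ ?_).2
    (Submodule.disjoint_def.2 ?_), ?_, ?_, .inr ⟨rfl, ?_⟩⟩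
  · rw [← (Submodule.equivMapOfInjective _ hf.injective _).finrank_eq, h7]; simp
  · rintro _ ⟨u, hu, rfl⟩ ⟨_, ⟨v, hv, rfl⟩, h⟩
    obtain rfl := e.injective ((h6 v).trans h)
    refine e.map_eq_zero_iff.2 (funext ?_)
    rintro (i | i)
    exacts [(J_mulVec_inl v i).trans (by simp [mem_lagInl.1 hv]), mem_lagInl.1 hu i]
  · rintro _ ⟨u, hu, rfl⟩ _ ⟨v, hv, rfl⟩
    exact (h5 u v).trans (lagInl_isotropic u hu v hv)
  · rintro _ ⟨_, ⟨u, hu, rfl⟩, rfl⟩ _ ⟨_, ⟨v, hv, rfl⟩, rfl⟩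
    exact (hf.inv _ _).trans ((h5 u v).trans (lagInl_isotropic u hu v hv))
  · rw [← Submodule.map_comp, ← End.mul_eq_comp, ← sq, h1, Submodule.map_smul _ _ _ (by simp)]
    simp [End.one_eq_id]

end Cfsg.Agent.S5962
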