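import Cfsg.Statements.S5963
import Cfsg.Agent.Lib.Symp.Elus

set_option autoImplicit false
open scoped MatrixGroups
open Cfsg

namespace Cfsg.Agent.S5963

/-- Derangements of odd prime order of PSp_n(q), q odd, on pairs of complementary totally isotropic subspaces. Here `T = PSp_n(q)`, `n = 2d ≥ 4`, `q` odd, realised through the symplectic matrices over the field `F` with `q` elements; Ω is the set of unordered pairs `{U, W}` of complementary totally isotropic `d`-spaces (`F^n = U ⊕ W`), whose stabilizers are the subgroups of type GL_d(q).2 (maximal except in some small cases; maximality is not assumed); an element of `T` of prime order `r` (a symplectic matrix `x` with `x^r` scalar, `x` not scalar) fixes such a pair when it fixes or interchanges `U` and `W`. For every odd prime `r ≠ p` dividing the number of such pairs, some element of `T` of order `r` fixes no such pair (the action is never `r`-elusive for odd `r ≠ p`). -/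
theorem result {F : Type*} [Field F] [Fintype F] {p : ℕ} [Fact p.Prime] [CharP F p] {q : ℕ} (hq : Fintype.card F = q)
    (d : ℕ) (hd : 2 ≤ d) (hT : (d, q) ≠ (2, 2)) (hodd : Odd q)
    (r : ℕ) [Fact r.Prime] (hr2 : r ≠ 2) (hrp : r ≠ p) (hΩ : r ∣ Nat.card {P : Submodule F (Fin d ⊕ Fin d → F) × Submodule F (Fin d ⊕ Fin d → F) // IsCompl P.1 P.2 ∧ (∀ u ∈ P.1, ∀ v ∈ P.1, Cfsg.sympForm d F u v = 0) ∧ (∀ u ∈ P.2, ∀ v ∈ P.2, Cfsg.sympForm d F u v = 0)} / 2) :
    ∃ x : ↥(Matrix.symplecticGroup (Fin d) F),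
      (∃ z : F, ((x ^ r : ↥(Matrix.symplecticGroup (Fin d) F)) : Matrix (Fin d ⊕ Fin d) (Fin d ⊕ Fin d) F) = z • (1 : Matrix (Fin d ⊕ Fin d) (Fin d ⊕ Fin d) F)) ∧
      (∀ z : F, (x : Matrix (Fin d ⊕ Fin d) (Fin d ⊕ Fin d) F) ≠ z • (1 : Matrix (Fin d ⊕ Fin d) (Fin d ⊕ Fin d) F)) ∧
      ¬ (∃ U W : Submodule F (Fin d ⊕ Fin d → F), IsCompl U W ∧ (∀ u ∈ U, ∀ v ∈ U, Cfsg.sympForm d F u v = 0) ∧ (∀ u ∈ W, ∀ v ∈ W, Cfsg.sympForm d F u v = 0) ∧
        ((U.map (Matrix.toLin' (x : Matrix (Fin d ⊕ Fin d) (Fin d ⊕ Fin d) F)) = U ∧ W.map (Matrix.toLin' (x : Matrix (Fin d ⊕ Fin d) (Fin d ⊕ Fin d) F)) = W) ∨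
         (U.map (Matrix.toLin' (x : Matrix (Fin d ⊕ Fin d) (Fin d ⊕ Fin d) F)) = W ∧ W.map (Matrix.toLin' (x : Matrix (Fin d ⊕ Fin d) (Fin d ⊕ Fin d) F)) = U))) := by
  open Cfsg.Lib.Symp Cfsg.Lib.GLC Polynomial Matrix Module in
  have h := OP.of hq Fact.out hr2 hrp rfl rfl
  haveI : Nonempty (Fin d) := ⟨⟨0, by omega⟩⟩
  simp only [sympForm_eq_bil] at hΩ ⊢
  have hA := bil_isAlt (Fin d) F
  have hB := bil_nondegenerate (Fin d) F
  obtain ⟨f₀, h1, h2, h3⟩ := exists_spE_RF (r := r) (ν := 0) (k := d) hA hB h.odd (by simp) rfl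
    (by simp [two_mul])
  obtain ⟨X, Y, -, -, -, h4⟩ := h1.exists_polar h2 (ν := .replicate d (X - C 1)) (by
    simp [h3, rdual_X_sub_C, two_mul, Multiset.replicate_add, -map_one])
  obtain ⟨he, hc⟩ := h.even_of_dvd_card_polar hA hB (Lib.Orth.finrank_bil d) (P := (X, Y))
    ⟨h4.2.2, h4.1, h4.2.1⟩ (hΩ.trans (Nat.div_dvd_of_dvd two_dvd_card_polar))
  obtain ⟨f, k, ν, h5, h6, h7, h8, h9, h10, -, h11⟩ := h.exists_spE hA hB one_ne_zero
    (by simpa [two_mul] using hc)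
  have h12 := pow_eq_one_RF h7 (h10 ▸ blocks_typ f)
  obtain ⟨x, rfl⟩ := h5.exists_eq
  refine ⟨x, ⟨1, toLin'_eq_smul_one_iff.1 (by rw [one_smul, ← h12, ← toLin'_pow']; rfl)⟩, fun z hz =>
    h9 ((eq_smul_iff_RF h.odd h7 h8 (h10 ▸ blocks_typ _)).1 ⟨z, toLin'_eq_smul_one_iff.2 hz⟩), ?_⟩
  rintro ⟨U, W, h13, h14, h15, h16⟩
  have key : ∀ U W : Submodule F (Fin d ⊕ Fin d → F), U.map (toLin' x.1) = W → W.map (toLin' x.1) = U →
      U.map (toLin' x.1) = U := fun U W h1 h2 => by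
    obtain ⟨k, rfl⟩ := h.odd
    have : ∀ j, U.map (toLin' x.1 ^ (2 * j)) = U := fun j => by
      induction j with
      | zero => simp [End.one_eq_id]
      | succ j ih => rw [mul_add, pow_add, mul_one, sq, End.mul_eq_comp, End.mul_eq_comp,
          Submodule.map_comp, Submodule.map_comp, h1, h2, ih]
    conv_lhs => rw [← this k, ← Submodule.map_comp, ← End.mul_eq_comp, ← pow_succ', h12]
    simp [End.one_eq_id]
  obtain ⟨hU, hW⟩ := h16.elim id fun h => ⟨key _ _ h.1 h.2, key _ _ h.2 h.1⟩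
  have hU := fun v hv => hU.le (Submodule.mem_map_of_mem (r := v) hv)
  have hW := fun v hv => hW.le (Submodule.mem_map_of_mem (r := v) hv)
  obtain ⟨φ, rfl⟩ := Multiset.card_eq_one.1 (Nat.eq_of_mul_eq_mul_right h.i_pos
    (by rw [← h.sum_eq h7, h11, if_pos he, mul_comm]))
  have h17 := h7 φ (by simp)
  classical
  have key2 : ∀ U (hU : ∀ v ∈ U, toLin' x.1 v ∈ U), (∀ u ∈ U, ∀ v ∈ U, bil _ F u v = 0) →
      φ ∉ typ ((toLin' x.1).restrict hU) := fun U hU h0 h1 => by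
    have := Multiset.count_le_of_le φ (h5.add_map_le h6 hU h0)
    have h2 := Multiset.count_pos.2 h1
    have h3 := Multiset.count_pos.2 ((h.rdual_eq_iff h17).2 he ▸ Multiset.mem_map_of_mem rdual h1)
    simp only [h10, Multiset.count_add, Multiset.count_replicate, if_neg h17.2.2.2.symm,
      Multiset.count_singleton_self] at this
    omega
  exact (Multiset.mem_add.1 (typ_eq_add h13 hU hW ▸ h10 ▸ by simp)).elim (key2 U hU h14) (key2 W hW h15)

end Cfsg.Agent.S5963
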