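import Cfsg.Statements.S5964
import Cfsg.Agent.Lib.GLC.IntoS

set_option autoImplicit false
open scoped MatrixGroups
open Cfsg

namespace Cfsg.Agent.S5964

open Lib.GLC Lib.Symp Lib.Asch Polynomial Matrix Module LinearMap

/-- Involutions of PSL_n(q) and subfield subgroups. Here `T = PSL_n(F)` for a field `F` with `q = p^f` elements (`n ≥ 2`, `(n, q) ≠ (2, 2), (2, 3)`), `F₀` is the subfield with `q₀` elements where `q = q₀^k` for a prime `k`, and `H` is the subgroup of matrices of determinant 1 lying in the subfield group of `F₀` (invertible matrices over `F₀` times scalars) — a maximal subgroup of type GL_n(q₀) (the case `n = 2`, `q₀ = 2` is excluded); Ω is the set of `T`-conjugates of `H` (cosets of `H`), so an element of `T` of prime order `r` (a matrix `x` of determinant 1 with `x^r` scalar, `x` not scalar) fixes a point of Ω when some conjugate of `x` by a matrix of determinant 1 lies in `H`. Suppose the index of `H` is even. Then every involution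 of `T` is conjugate in `T` into `H` if and only if either `q` is even, or `k = 2` and `(n)_2 ≤ (q − 1)_2`. (For `q` odd and `k` odd the index of `H` is odd, so that case does not arise.) -/
theorem result {F : Type*} [Field F] [Fintype F] {p : ℕ} [Fact p.Prime] [CharP F p] {q : ℕ} (hq : Fintype.card F = q)
    (n : ℕ) (hn : 2 ≤ n) (hT : (n, q) ≠ (2, 2) ∧ (n, q) ≠ (2, 3))
    (F₀ : Subfield F) (k q₀ : ℕ) (hk : k.Prime) (hF₀ : Nat.card ↥F₀ = q₀) (hqk : q = q₀ ^ k) (hC5 : ¬ (n = 2 ∧ q₀ = 2)) (hΩ : 2 ∣ ((Cfsg.Geo.subfieldSubgroup F₀ 1).comap (Matrix.SpecialLinearGroup.toGL : Matrix.SpecialLinearGroup (Fin n) F →* GL (Fin n) F)).index) :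
    (∀ x : Matrix.SpecialLinearGroup (Fin n) F,
      (∃ z : F, ((x ^ 2 : Matrix.SpecialLinearGroup (Fin n) F) : Matrix (Fin n) (Fin n) F) = z • (1 : Matrix (Fin n) (Fin n) F)) →
      (∀ z : F, (x : Matrix (Fin n) (Fin n) F) ≠ z • (1 : Matrix (Fin n) (Fin n) F)) →
      ∃ P : Matrix.SpecialLinearGroup (Fin n) F, P⁻¹ * x * P ∈ ((Cfsg.Geo.subfieldSubgroup F₀ 1).comap (Matrix.SpecialLinearGroup.toGL : Matrix.SpecialLinearGroup (Fin n) F →* GL (Fin n) F))) ↔
    (Odd q → (k = 2 ∧ padicValNat 2 n ≤ padicValNat 2 (q - 1))) := by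
  classical
  haveI : Nonempty (Fin n) := ⟨⟨0, by omega⟩⟩
  rw [← Nat.card_eq_fintype_card] at hq
  subst hq hF₀
  rw [fmt_one, elSL_intoS (.inr rfl)]
  have hP := fun (g : End F (Fin n → F)) (c : F) (hc : c ≠ 0) (h : Into _ g) => h.smul (scalars_le_sub (ι := Fin n) (F₀ := F₀)) hc
  have h0 : 0 < Nat.card F := Nat.card_pos
  by_cases h2 : (2 : F) = 0
  · have h1 := not_dvd_of_cast_eq_zero (r := 2) h2
    refine iff_of_true (elSL_of two_ne_zero hP (not_kummer fun h => absurd h h1) fun g _ h3 _ _ => ?_) fun h => by grind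
    obtain ⟨d, -, h4⟩ := exists_jt_of_char (r := 2) h2 h3
    obtain ⟨A, -, h5⟩ := exists_jt_map (ι := Fin n) F₀.subtype (d := d) (by simpa using h4.jt_sum)
    exact into_sub (.of_pow_eq_one h3 two_ne_zero) (h5.sim h4)
  have h1 : ¬ 2 ∣ Nat.card F := mt dvd_card_iff.1 h2
  obtain rfl : k = 2 := by_contra fun h => by
    rw [index_comap_toGL] at hΩ
    obtain ⟨i, -, -, -, h3⟩ := exists_dvd_of_dvd_index (by omega) hqk
      (mt (Nat.prime_dvd_prime_iff_eq Nat.prime_two hk).1 (Ne.symm h)) h1 hΩ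
    have : Odd (Nat.card F₀ ^ i) := Odd.pow (by_contra fun e => h1 (hqk ▸ Dvd.dvd.pow (by grind) hk.ne_zero))
    grind
  obtain ⟨σ, h3, -⟩ := exists_fx F₀
  refine ⟨fun h _ => ⟨rfl, by_contra fun h4 => ?_⟩, fun h => elSL_of two_ne_zero hP (not_kummer fun _ =>
    ⟨by simpa using (h (by grind)).2, fun _ _ => ?_⟩) fun g _ h4 _ _ => ?_⟩
  · obtain ⟨g, z, h5, h6, h7⟩ := h.exists_kummer (by omega) (by simpa using h4)
    obtain ⟨c, h8, -, -, h9⟩ := h3.of_into h5
    obtain ⟨b, hb⟩ := Fx.exists_sq hqk ⟨_, (h3 _).1 (h9 2 z ‹_› h7)⟩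
    exact h6 (b / c) (by rw [div_pow, hb]; simp [h8])
  · obtain ⟨m, hm⟩ : Odd (Nat.card F₀) := by_contra fun e => h1 (hqk ▸ Dvd.dvd.pow (by grind) two_ne_zero)
    rw [hqk, hm, show (2 * m + 1) ^ 2 = 4 * (m * m + m) + 1 by ring]
    omega
  · obtain ⟨a, b, -, h5⟩ := exists_lt_two h2 h4
    exact h3.into (r := 2) h2 (by simp) h4 ((charpoly_map_eq_iff h5).2 (by simp))

end Cfsg.Agent.S5964
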