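import Cfsg.Statements.S5965
import Cfsg.Agent.Lib.GLC.IntoS

set_option autoImplicit false
open scoped MatrixGroups
open Cfsg

namespace Cfsg.Agent.S5965

open Lib.GLC Lib.Symp Lib.Asch Polynomial Matrix Module LinearMap

/-- Elements of odd prime order r ≠ p of PSL_n(q) and subfield subgroups. Here `T = PSL_n(F)` for a field `F` with `q = p^f` elements (`n ≥ 2`, `(n, q) ≠ (2, 2), (2, 3)`), `F₀` is the subfield with `q₀` elements where `q = q₀^k` for a prime `k`, and `H` is the subgroup of matrices of determinant 1 lying in the subfield group of `F₀` (invertible matrices over `F₀` times scalars) — a maximal subgroup of type GL_n(q₀) (the case `n = 2`, `q₀ = 2` is excluded); Ω is the set of `T`-conjugates of `H` (cosets of `H`), so an element of `T` of prime order `r` (a matrix `x` of determinant 1 with `x^r` scalar, `x` not scalar) fixes a point of Ω when some conjugate of `x` by a matrix of determinant 1 lies in `H`. Let `r ≠ p` be an odd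 prime dividing the index of `H`, with `(n, r) ≠ (6, 3)` and, when `r = k` divides `q₀ − 1`, with `(n)_r ≤ (q − 1)_r`. Then every element of `T` of order `r` is conjugate in `T` into `H` if and only if `r = k`, or `k = 2`, `r = n ∈ {3, 5}` and `(q₀ + 1)_r = r`. The two excluded cases, `(n, r) = (6, 3)` and `r = k ∣ q₀ − 1` with `(n)_r > (q − 1)_r`, are ones where this criterion can fail, so they are left out. -/
theorem result {F : Type*} [Field F] [Fintype F] {p : ℕ} [Fact p.Prime] [CharP F p] {q : ℕ} (hq : Fintype.card F = q)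
    (n : ℕ) (hn : 2 ≤ n) (hT : (n, q) ≠ (2, 2) ∧ (n, q) ≠ (2, 3))
    (F₀ : Subfield F) (k q₀ : ℕ) (hk : k.Prime) (hF₀ : Nat.card ↥F₀ = q₀) (hqk : q = q₀ ^ k) (hC5 : ¬ (n = 2 ∧ q₀ = 2)) (r : ℕ) [Fact r.Prime] (hr2 : r ≠ 2) (hrp : r ≠ p) (hgap : ¬ (n = 6 ∧ r = 3)) (hgapk : r = k → r ∣ q₀ - 1 → padicValNat r n ≤ padicValNat r (q - 1)) (hΩ : r ∣ ((Cfsg.Geo.subfieldSubgroup F₀ 1).comap (Matrix.SpecialLinearGroup.toGL : Matrix.SpecialLinearGroup (Fin n) F →* GL (Fin n) F)).index) :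
    (∀ x : Matrix.SpecialLinearGroup (Fin n) F,
      (∃ z : F, ((x ^ r : Matrix.SpecialLinearGroup (Fin n) F) : Matrix (Fin n) (Fin n) F) = z • (1 : Matrix (Fin n) (Fin n) F)) →
      (∀ z : F, (x : Matrix (Fin n) (Fin n) F) ≠ z • (1 : Matrix (Fin n) (Fin n) F)) →
      ∃ P : Matrix.SpecialLinearGroup (Fin n) F, P⁻¹ * x * P ∈ ((Cfsg.Geo.subfieldSubgroup F₀ 1).comap (Matrix.SpecialLinearGroup.toGL : Matrix.SpecialLinearGroup (Fin n) F →* GL (Fin n) F))) ↔
    (r = k ∨ (k = 2 ∧ r = n ∧ (n = 3 ∨ n = 5) ∧ padicValNat r (q₀ + 1) = 1)) := by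
  classical
  have hr : r.Prime := Fact.out
  haveI : Nonempty (Fin n) := ⟨⟨0, by omega⟩⟩
  rw [← Nat.card_eq_fintype_card] at hq
  subst hq hF₀
  have h1 := not_dvd_card (F := F) p hr hrp
  have h0 := mt dvd_card_iff.2 h1
  rw [fmt_one, elSL_intoS (.inl h0)]
  have hP := fun (g : End F (Fin n → F)) (c : F) (hc : c ≠ 0) (h : Into _ g) =>
    h.smul (scalars_le_sub (ι := Fin n) (F₀ := F₀)) hc
  obtain ⟨σ, h3, h4⟩ := exists_fx F₀
  have hq₀ : 1 < Nat.card F₀ := Finite.one_lt_card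
  have h2 : (1 : ZMod r) ≠ -1 := fun e => zmod_ne 2 (mt (Nat.prime_dvd_prime_iff_eq hr Nat.prime_two).1 hr2)
    (by linear_combination e)
  have h5 : ∀ {a}, 0 < a → (r ∣ a - 1 ↔ (a : ZMod r) = 1) := fun h => by
    rw [← ZMod.natCast_eq_zero_iff, Nat.cast_pred h, sub_eq_zero]
  have h6 : k = 2 → (Nat.card F₀ : ZMod r) = -1 → padicValNat r (Nat.card F - 1) = padicValNat r (Nat.card F₀ + 1) := by
    rintro rfl h
    rw [hqk, show Nat.card F₀ ^ 2 - 1 = _ from Nat.sq_sub_sq _ 1, padicValNat.mul (by omega) (by omega), padicValNat.eq_zero_of_not_dvd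
      (n := _ - 1) (by rw [h5 (by omega), h]; exact h2.symm), add_zero]
  refine ⟨fun h => by_contra fun h7 => ?_, ?_⟩
  · rw [index_comap_toGL] at hΩ
    obtain ⟨i, h8, h9, h10, h11⟩ := exists_dvd_of_dvd_index (by omega) hqk
      (fun e => h7 (.inl ((Nat.prime_dvd_prime_iff_eq hr hk).1 e))) h1 hΩ
    rw [h5 (pow_pos Nat.card_pos _), Nat.cast_pow] at h10 h11
    by_cases h12 : r ∣ Nat.card F - 1
    · obtain ⟨f, M, h13, h14, h15, h16⟩ := h.exists_bad hP hr2 h12 (s := Nat.card F₀) (finrank_fin_fun F) hn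
        (fun e => h1 (hqk ▸ ((ZMod.natCast_eq_zero_iff _ _).1 e).pow hk.ne_zero)) (fun e => h11 (by rw [e, one_pow])) fun e => by
          rw [h5 Nat.card_pos, hqk, Nat.cast_pow, e] at h12
          obtain rfl : k = 2 := (hk.eq_two_or_odd'.resolve_right fun o => h2 (h12.symm.trans o.neg_one_pow))
          have : i ≠ 2 := by rintro rfl; exact h11 (by rw [e, neg_one_sq])
          have := h6 rfl e
          exact ⟨by omega, hgap, fun ⟨a, b, c⟩ => h7 (.inr ⟨rfl, b.symm, b ▸ a, this ▸ c⟩)⟩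
      obtain ⟨c, h17, h18, -⟩ := h3.of_into h13
      refine h16 (c⁻¹ * σ c) ?_
      simpa [h4, mul_pow, ← mul_assoc, h17] using congrArg (Multiset.map (c⁻¹ * ·))
        ((charpoly_map_eq_iff (h14.smul_lt c)).1 h18)
    obtain ⟨φ, hφ⟩ := exists_RF hr h0
    have h13 := orderOf_dvd_of_pow_eq_one h10
    obtain ⟨f, h14, h15, h16⟩ := h.exists_RF h12 (ν := {φ}) (by simpa) (by simp) (k := n - orderOf (Nat.card F : ZMod r))
      (by simpa using Nat.sub_add_cancel ((Nat.le_of_dvd (by omega) h13).trans h9))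
    obtain ⟨c, h17, -, h18, h19⟩ := h3.of_into h14
    replace h18 := h18 (div_eq_one_iff_eq h17 |>.1 (eq_one_of_pow_eq_one h12 (by
      rw [div_pow, ← map_pow, div_eq_one_iff_eq (pow_ne_zero _ h17)]
      simpa using h19 r 1 ‹_› (by simpa))))
    rw [(blocks_typ f).charpoly_eq, h16] at h18
    have h20 : φ.map σ = φ := by simpa [X_sub_C_ne_zero, -map_one, σ.map_one] using h18
    exact h11 (orderOf_dvd_iff_pow_eq_one.1 ((h3.rf_map_eq_iff hr hφ).1 h20 ▸ h13))
  rintro (rfl | ⟨rfl, rfl, h7, h8⟩)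
  · have h7 : (Nat.card F : ZMod r) = Nat.card F₀ := by rw [hqk, Nat.cast_pow, ZMod.pow_card]
    refine elSL_of hr.ne_zero hP (not_kummer fun h => ⟨by
      simpa using hgapk rfl (by rwa [h5 (by omega), ← h7, ← h5 Nat.card_pos]), by omega⟩) fun g _ h8 _ _ => ?_
    obtain ⟨k, ν, h9, h10⟩ := exists_typ_RF h0 h8
    refine h3.into h0 (by simp) h8 ?_
    rw [(blocks_typ g).charpoly_eq, h10, Polynomial.map_multiset_prod, Multiset.map_add,
      Multiset.map_congr rfl fun φ hφ => (h3.rf_map_eq_iff hr (h9 φ hφ)).2 (by rw [h7])]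
    simp
  have h9 : (Nat.card F₀ : ZMod r) = -1 := by
    simpa [add_eq_zero_iff_eq_neg] using (ZMod.natCast_eq_zero_iff _ _).2 (dvd_of_one_le_padicValNat h8.ge)
  refine elSL_symm hP h7 (by simp) ((h6 rfl h9).trans h8) fun f M h10 h11 h12 _ => h3.into h0 (by simp)
    (by rw [← one_smul F 1]; exact h10.lt_pow_eq_iff.2 h11) ((charpoly_map_eq_iff h10).2 (.trans (Multiset.map_congr rfl
      fun a ha => eq_inv_of_mul_eq_one_left ?_) h12))
  obtain ⟨m, hm⟩ := dvd_of_one_le_padicValNat h8.ge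
  rw [h4, ← pow_succ, hm, pow_mul, h11 a ha, one_pow]

end Cfsg.Agent.S5965
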