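import Cfsg.Statements.S5966
import Cfsg.Agent.Lib.GLC.IntoS

set_option autoImplicit false
open scoped MatrixGroups
open Cfsg

namespace Cfsg.Agent.S5966

open Lib.GLC Lib.Symp Lib.Asch Polynomial Matrix Module LinearMap

/-- Elements of order 3 of PSL_n(q) in characteristic 3 and subfield subgroups. Here `T = PSL_n(F)` for a field `F` with `q` elements, `q` a power of 3 (`n ≥ 2`, `(n, q) ≠ (2, 2), (2, 3)`), `F₀` is the subfield with `q₀` elements where `q = q₀^k` for a prime `k`, and `H` is the subgroup of matrices of determinant 1 lying in the subfield group of `F₀` (invertible matrices over `F₀` times scalars) — a maximal subgroup of type GL_n(q₀) (the case `n = 2`, `q₀ = 2` is excluded); Ω is the set of `T`-conjugates of `H` (cosets of `H`), so an element of `T` of prime order `r` (a matrix `x` of determinant 1 with `x^r` scalar, `x` not scalar) fixes a point of Ω when some conjugate of `x` by a matrix of determinant 1 lies in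 `H`. Suppose 3 divides the index of `H`. Then every element of `T` of order 3 is conjugate in `T` into `H` if and only if `n` is odd, or `n` is even and `k > 2`. -/
theorem result {F : Type*} [Field F] [Fintype F] [CharP F 3] {q : ℕ} (hq : Fintype.card F = q)
    (n : ℕ) (hn : 2 ≤ n) (hT : (n, q) ≠ (2, 3))
    (F₀ : Subfield F) (k q₀ : ℕ) (hk : k.Prime) (hF₀ : Nat.card ↥F₀ = q₀) (hqk : q = q₀ ^ k) (hC5 : ¬ (n = 2 ∧ q₀ = 2)) (hΩ : 3 ∣ ((Cfsg.Geo.subfieldSubgroup F₀ 1).comap (Matrix.SpecialLinearGroup.toGL : Matrix.SpecialLinearGroup (Fin n) F →* GL (Fin n) F)).index) :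
    (∀ x : Matrix.SpecialLinearGroup (Fin n) F,
      (∃ z : F, ((x ^ 3 : Matrix.SpecialLinearGroup (Fin n) F) : Matrix (Fin n) (Fin n) F) = z • (1 : Matrix (Fin n) (Fin n) F)) →
      (∀ z : F, (x : Matrix (Fin n) (Fin n) F) ≠ z • (1 : Matrix (Fin n) (Fin n) F)) →
      ∃ P : Matrix.SpecialLinearGroup (Fin n) F, P⁻¹ * x * P ∈ ((Cfsg.Geo.subfieldSubgroup F₀ 1).comap (Matrix.SpecialLinearGroup.toGL : Matrix.SpecialLinearGroup (Fin n) F →* GL (Fin n) F))) ↔
    (Odd n ∨ (Even n ∧ 2 < k)) := by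
  classical
  haveI : Fact (Nat.Prime 3) := ⟨Nat.prime_three⟩
  haveI : Nonempty (Fin n) := ⟨⟨0, by omega⟩⟩
  rw [← Nat.card_eq_fintype_card] at hq
  subst hq hF₀
  have h0 : ((3 : ℕ) : F) = 0 := CharP.cast_eq_zero F 3
  have h1 := not_dvd_of_cast_eq_zero h0
  obtain ⟨σ, h3, h4⟩ := exists_fx F₀
  rw [fmt_one]
  refine ⟨fun h => by_contra fun h2 => ?_, fun h => (elSL_of (P := fun f => Into (Geo.subfieldSubgroup F₀ 1) f ∧
    ∀ d, ∃ y ∈ Geo.subfieldSubgroup F₀ (1 : GL (Fin n) F), d * GeneralLinearGroup.det y ∈ detC f) three_ne_zero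
    (fun f c hc h => ⟨h.1.smul scalars_le_sub hc, fun d => (h.2 d).imp fun y h => ⟨h.1, h.2.imp fun a ha =>
      ⟨ha.1.smul_right c, ha.2⟩⟩⟩) (not_kummer fun h => absurd h h1) fun g _ h5 _ _ => ?_).mono fun f h => h.1.intoS h.2⟩
  · obtain ⟨m, rfl⟩ : Even n := by grind
    obtain rfl : k = 2 := by have := hk.two_le; grind
    obtain ⟨A, h5, h6⟩ := exists_jt_map (ι := Fin (m + m)) F₀.subtype (d := .replicate m 2) (by simp [mul_two])
    have h7 : ∀ a ∈ Multiset.replicate m 2, 0 < a := by simp [Multiset.mem_replicate]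
    obtain ⟨J, hJ⟩ : IsUnit (A.map F₀.subtype) := by
      rw [Matrix.isUnit_iff_isUnit_det, ← det_toLin', h6.jt_det]; simp
    have := Fintype.ofFinite F
    obtain ⟨z, hz⟩ := FiniteField.exists_nonsquare (F := F) (by rw [ringChar.eq F 3]; decide)
    obtain ⟨g, hg⟩ := GeneralLinearGroup.det_surjective (n := Fin (m + m)) (.mk0 z (by rintro rfl; simp at hz))
    have h8 := (gl_isConj_iff_sim.1 (isConj_iff.2 ⟨g, rfl⟩ : IsConj J _)).symm.blocks (hJ ▸ h6)
    have h9 := (pow_eq_one_iff_of_char h0).2 (h8.jt_pow_eq_zero_iff.2 (by simp [Multiset.mem_replicate]))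
    obtain ⟨u, h10, h11⟩ := (intoS_iff (x := g * J * g⁻¹)).1 (h _ (by rw [h8.jt_det, one_pow]) ⟨1, by rw [h9, one_smul]⟩ fun ⟨c, hc⟩ => by
      simpa [-map_one] using h8.natDegree_eq_one hc (Multiset.mem_map_of_mem _ (Multiset.mem_replicate.2 ⟨by omega, rfl⟩)))
    obtain ⟨c, hc, B, hB⟩ := mem_sub_iff.1 h11
    have h12 := (gl_isConj_iff_sim.1 (isConj_iff.2 ⟨u⁻¹, by simp⟩ : IsConj (g * J * g⁻¹) (u⁻¹ * (g * J * g⁻¹) * u))).symm
    have h13 := h12.pow_eq_smul_one_iff.2 (h9.trans (one_smul F _).symm)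
    rw [← toLin'_pow', toLin'_eq_smul_one_iff, one_smul] at h13
    have h14 : ∀ B : Matrix (Fin (m + m)) (Fin (m + m)) F₀, (B ^ 3).map F₀.subtype = B.map F₀.subtype ^ 3 :=
      fun B => F₀.subtype.mapMatrix.map_pow B 3
    have h15 : (((B ^ 3) ⟨0, by omega⟩ ⟨0, by omega⟩ : F₀) : F) = c ^ 3 := by
      have := h14 B
      rw [hB, _root_.smul_pow, h13] at this
      simpa using congrFun₂ this ⟨0, by omega⟩ ⟨0, by omega⟩
    have h16 : σ c = c := frobenius_inj F 3 ((map_pow σ c 3).symm.trans ((h3 _).2 (h15 ▸ Subtype.prop _)))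
    obtain ⟨B, hB⟩ : ∃ B : Matrix _ _ F₀, B.map F₀.subtype = (u⁻¹ * (g * J * g⁻¹) * u).1 :=
      ⟨(⟨c, (h3 c).1 h16⟩ : F₀)⁻¹ • B, by rw [← inv_smul_smul₀ hc (Units.val _), ← hB]; rfl⟩
    obtain ⟨d, h17, h18⟩ := exists_jt_of_char (r := 3) (f := toLin' B) (Subtype.ext h0) (by
      rw [← toLin'_pow', map_injective F₀.subtype.injective (a₁ := B ^ 3) (a₂ := 1) (by simp only [h14, hB, h13]; simp), toLin'_one]; rfl)
    obtain ⟨C, h19, h20⟩ := exists_jt_map (ι := Fin (m + m)) F₀.subtype (d := d) (by simpa using h18.jt_sum)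
    obtain rfl := jt_injective _ ((((h18.sim h19).map F₀.subtype).blocks h20).typ_eq (jt_pp _ fun a ha =>
      (h17 a ha).1) |>.symm.trans ((hB ▸ h12.blocks h8).typ_eq (jt_pp _ h7)))
    obtain ⟨y, hy⟩ := isConj_iff_sim.2 (h5.sim h18)
    have h21 : GeneralLinearGroup.map F₀.subtype y * J = u⁻¹ * (g * J * g⁻¹) * u * GeneralLinearGroup.map F₀.subtype y :=
      Units.ext (by rw [Units.val_mul, Units.val_mul _ (GeneralLinearGroup.map _ _), hJ, ← hB]; exact hy.map F₀.subtype.mapMatrix)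
    have h22 : Commute ((GeneralLinearGroup.map F₀.subtype y)⁻¹ * u⁻¹ * g) J := by
      rw [commute_iff_eq]; conv_rhs => rw [eq_inv_mul_iff_mul_eq.2 h21]
      group
    have h23 := h6.jt_finrank_ker_one h7
    have h24 := (toLin' (A.map F₀.subtype) - (1 : F) • 1).finrank_range_add_finrank_ker
    obtain ⟨b, hb⟩ := isSquare_det_of_commute (N := toLin' (A.map F₀.subtype) - (1 : F) • 1) (a := toLin'
      ((GeneralLinearGroup.map F₀.subtype y)⁻¹ * u⁻¹ * g).1) (Submodule.eq_of_le_of_finrank_eq (range_le_ker_iff.2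
        ((pow_two _).symm.trans (h6.jt_pow_eq_zero_iff.2 (by simp [Multiset.mem_replicate])))) (by simp at h23 h24 ⊢; omega))
      (.sub_right (hJ ▸ (h22.map (Units.coeHom _)).map toLinAlgEquiv') (by simp))
    obtain ⟨a, ha⟩ := Fx.exists_sq hqk y.1.det
    refine hz ⟨a * b, ?_⟩
    have h25 : (GeneralLinearGroup.map F₀.subtype y).1.det = a ^ 2 := (F₀.subtype.map_det y.1).symm.trans ha.symm
    have h26 := congrArg (·.1.det) (mul_inv_cancel_left (GeneralLinearGroup.map F₀.subtype y) (u⁻¹ * g))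
    rw [det_toLin', mul_assoc] at hb
    simp only [Units.val_mul (GeneralLinearGroup.map _ _), det_mul, hb, h25] at h26
    rw [Units.val_mul, det_mul, mem_sl_iff.1 (inv_mem h10), one_mul, show g.1.det = z from congrArg Units.val hg] at h26
    linear_combination -h26
  obtain ⟨d, h6, h7⟩ := exists_jt_of_char h0 h5
  obtain ⟨A, -, h8⟩ := exists_jt_map (ι := Fin n) F₀.subtype (d := d) (by simpa using h7.jt_sum)
  refine ⟨into_sub (.of_pow_eq_one h5 three_ne_zero) (h8.sim h7), fun u => ?_⟩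
  have h9 : ∀ a ∈ d, ∀ w : Fˣ, w ^ a ∈ detC g := fun a ha => pow_mem_detC_of_X_sub_C h7 (Multiset.mem_map_of_mem _ ha)
  have h10 : ∀ a ∈ d, a ≠ 2 → ∀ w, w ∈ detC g := fun a ha e w => by
    obtain rfl | rfl : a = 1 ∨ a = 3 := by have := h6 a ha; omega
    · simpa using h9 1 ha w
    obtain ⟨b, hb⟩ := exists_pow_eq_of_not_dvd Nat.prime_three h1 w.1
    convert h9 3 ha (.mk0 b (by rintro rfl; simp [eq_comm] at hb))
    exact Units.ext hb.symm
  by_cases h11 : ∀ a ∈ d, a = 2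
  swap
  · push Not at h11
    obtain ⟨a, h11, h12⟩ := h11
    exact ⟨1, one_mem _, h10 a h11 h12 _⟩
  have h12 : d.card * 2 = n := by
    have := h7.jt_sum
    rw [Multiset.eq_replicate_card.2 h11] at this
    simpa using this
  have h13 := hk.eq_two_or_odd'.resolve_left (by grind)
  have h14 : Odd (Nat.card F₀) := by_contra fun e => (by decide : ¬ 3 ∣ 2) ((CharP.cast_eq_zero_iff F 3 2).1
    (dvd_card_iff.1 (hqk ▸ Dvd.dvd.pow (by grind) hk.ne_zero)))
  obtain ⟨s, hs⟩ : Odd (∑ i ∈ .range k, Nat.card F₀ ^ i) := by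
    rw [Finset.odd_sum_iff_odd_card_odd, Finset.filter_true_of_mem fun _ _ => h14.pow]; simpa
  have h15 : σ (u ^ (2 * s + 1)) = u ^ (2 * s + 1) := by
    obtain ⟨y, hy⟩ : ∃ y, Nat.card F₀ = y + 1 := ⟨_, (Nat.succ_pred_eq_of_pos Nat.card_pos).symm⟩
    rw [h4, ← hs, hy, pow_succ, ← pow_mul, show (∑ i ∈ .range k, (y + 1) ^ i) * y = Nat.card Fˣ by
      rw [Nat.card_units, hqk, hy, ← geom_sum_mul_add, Nat.add_sub_cancel], ← Units.val_pow_eq_pow_val, pow_card_eq_one']
    simp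
  obtain ⟨y, hy⟩ := GeneralLinearGroup.det_surjective (n := Fin n) (.mk0 (⟨_, (h3 _).1 h15⟩ : F₀) (by simp [Subtype.ext_iff]))
  obtain ⟨a, ha⟩ := Multiset.card_pos_iff_exists_mem.1 (by omega : 0 < d.card)
  refine ⟨_, map_mem_sub y, ?_⟩
  convert h9 a ha (u ^ (s + 1))
  refine Units.ext ?_
  rw [h11 a ha, Units.val_mul, show (GeneralLinearGroup.det (GeneralLinearGroup.map F₀.subtype y)).1 = u.1 ^ (2 * s + 1) from
    (F₀.subtype.map_det y.1).symm.trans (congrArg (F₀.subtype ·.1) hy)]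
  push_cast; ring

end Cfsg.Agent.S5966
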