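import Cfsg.Statements.S5967
import Cfsg.Agent.Lib.GLC.IntoF

set_option autoImplicit false
open scoped MatrixGroups
open Cfsg

namespace Cfsg.Agent.S5967

open Lib.GLC Lib.Symp Lib.Asch Polynomial Matrix Module LinearMap

/-- Involutions of PSL_n(q) and the symplectic-type subgroups. Here `T = PSL_n(F)` for a field `F` with `q` elements, `n ≥ 4` even, `f` is a nondegenerate alternating form on `F^n`, and `H` is the subgroup of matrices of determinant 1 preserving `f` up to a scalar — a maximal subgroup of type Sp_n(q); Ω is the set of `T`-conjugates of `H` (cosets of `H`), so an element of `T` of prime order `r` (a matrix `x` of determinant 1 with `x^r` scalar, `x` not scalar) fixes a point of Ω when some conjugate of `x` by a matrix of determinant 1 preserves `f` up to a scalar. Suppose the index of `H` is even. Then every involution of `T` is conjugate in `T` into `H` if and only if `(q − 1)_2 ≤ (n)_2`. -/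
theorem result {F : Type*} [Field F] [Fintype F] {p : ℕ} [Fact p.Prime] [CharP F p] {q : ℕ} (hq : Fintype.card F = q)
    (n : ℕ) (hn : 4 ≤ n) (he : Even n) (f : (Fin n → F) → (Fin n → F) → F) (hf : Cfsg.Geo.IsSymplecticForm f)
    (hΩ : 2 ∣ ((Cfsg.Geo.similarityGroup f).comap (Matrix.SpecialLinearGroup.toGL : Matrix.SpecialLinearGroup (Fin n) F →* GL (Fin n) F)).index) :
    (∀ x : Matrix.SpecialLinearGroup (Fin n) F,
      (∃ z : F, ((x ^ 2 : Matrix.SpecialLinearGroup (Fin n) F) : Matrix (Fin n) (Fin n) F) = z • (1 : Matrix (Fin n) (Fin n) F)) →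
      (∀ z : F, (x : Matrix (Fin n) (Fin n) F) ≠ z • (1 : Matrix (Fin n) (Fin n) F)) →
      ∃ P : Matrix.SpecialLinearGroup (Fin n) F, P⁻¹ * x * P ∈ ((Cfsg.Geo.similarityGroup f).comap (Matrix.SpecialLinearGroup.toGL : Matrix.SpecialLinearGroup (Fin n) F →* GL (Fin n) F))) ↔
    padicValNat 2 (q - 1) ≤ padicValNat 2 n := by
  have hs := sform_of_symplectic hf
  obtain ⟨B, hA, hB, rfl⟩ := exists_bilin hf
  haveI : Nonempty (Fin n) := ⟨⟨0, by omega⟩⟩
  classical
  rw [fmt_one, elSL_intoS (.inr rfl), ← hq, ← Nat.card_eq_fintype_card]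
  have hP := fun (g : End F (Fin n → F)) (c : F) (hc : c ≠ 0) (h : Into _ g) => h.smul hs.scalars_le hc
  by_cases h2 : (2 : F) = 0
  · have h1 := not_dvd_of_cast_eq_zero (r := 2) h2
    refine iff_of_true (elSL_of two_ne_zero hP (not_kummer fun h => absurd h h1) fun g _ h3 _ h4 => ?_)
      (by rw [padicValNat.eq_zero_of_not_dvd h1]; omega)
    have h5 := (pow_eq_one_iff_of_char (r := 2) h2).1 h3
    rw [one_smul] at h5
    have h6 := (g - 1).finrank_range_add_finrank_ker
    have h7 := Submodule.finrank_mono (range_le_ker_iff.2 (show (g - 1) ∘ₗ (g - 1) = 0 from (pow_two _).symm.trans h5))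
    obtain ⟨f, h8, h9, -⟩ := exists_inv2_rank h2 hA hB (s := finrank F (range (g - 1))) (A := False) (by omega) (by simp)
      fun _ => Nat.pos_of_ne_zero fun e => h4 ⟨1, by simpa [sub_eq_zero, range_eq_bot] using e⟩
    have h10 := (f - 1).finrank_range_add_finrank_ker
    exact into_sim h8.isUnit (sim_of_sq_eq_zero (by
      simpa using (pow_eq_one_iff_of_char (r := 2) h2).1 (LinearMap.ext h8.sq)) h5 rfl (by omega)) one_ne_zero (by simpa using h8.inv)
  refine ⟨fun h => by_contra fun h1 => ?_, fun h => elSL_two hP h2 (by simpa) (by rwa [finrank_fin_fun]) (fun g z h3 h4 => ?_)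
    fun g a b _ h4 => into_sp_of_occ hA hB ?_ h4⟩
  · obtain ⟨n, rfl⟩ : ∃ m, n = m + 1 := ⟨n - 1, by omega⟩
    obtain ⟨g, ⟨x, ⟨c, hc⟩, h3⟩, h4, h5⟩ := h.exists_refl hP h2 (finrank_fin_fun F) (by omega) (by omega)
    have h6 := hs.pow_eq (g := toLin' x.1) hc (h3.pow_eq_smul_one_iff.2 (h4.trans (one_smul F _).symm))
    have h7 := h3.blocks h5
    rcases sq_eq_one_iff.1 (h6.trans (mul_one _)) with h | h
    · have := (h7.lt_det.symm.trans (SpE.det_eq_one ⟨hA, hB, by simpa [h] using hc⟩))
      exact h2 (by simp at this; linear_combination -this)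
    · have := congrArg (Multiset.count 1) (hs.map_div (g := toLin' x.1) c.ne_zero hc h7)
      have h8 : (1 : F) ≠ -1 := fun e => h2 (by linear_combination e)
      simp [h, h8, h8.symm, Multiset.count_replicate] at this
      omega
  · obtain ⟨m, rfl⟩ := he
    have h0 : z ≠ 0 := by rintro rfl; exact h3 0 (by simp)
    let A : Matrix (Fin m ⊕ Fin m) (Fin m ⊕ Fin m) F := fromBlocks 0 (z • 1) 1 0
    have h5 : toLin' A ^ 2 = z • 1 := by
      rw [← toLin'_pow', toLin'_eq_smul_one_iff, ← fromBlocks_one, fromBlocks_smul]; simp [A, pow_two, fromBlocks_multiply]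
    obtain ⟨k, h6, h7, -⟩ := typ_of_kummer Nat.prime_two h3 h4
    obtain ⟨l, h8, h9, -⟩ := typ_of_kummer Nat.prime_two h3 h5
    refine (into_sp hA hB (g := toLin' A) (by simp [two_mul]) ((isUnit_pow_iff two_ne_zero).1
      (h5 ▸ isUnit_one.smul (Units.mk0 z h0))) (neg_ne_zero.2 h0) fun u v => ?_).sim (sim_iff_typ_eq.2 ?_)
    · simp [A, bil_apply_sum, fromBlocks_mulVec, Finset.mul_sum, smul_mulVec, mul_sub, mul_assoc, mul_left_comm,
        neg_add_eq_sub]
    · simp at h6 h8
      rw [h7, h9, show k = l by omega]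
  · have := occ_add_map (μ := lt (.replicate a 1 + .replicate b (-1 : F))) (forall_lt.2 fun a ha => ⟨monic_X_sub_C _, by
      simp [Multiset.mem_replicate] at ha; rcases ha with ⟨-, rfl⟩ | ⟨-, rfl⟩ <;> simp⟩)
    rw [lt_map_dual (by simp [Multiset.mem_replicate]; grind)] at this
    simpa [two_nsmul] using this

end Cfsg.Agent.S5967
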