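import Cfsg.Statements.S5968
import Cfsg.Agent.Lib.GLC.IntoF

set_option autoImplicit false
open scoped MatrixGroups
open Cfsg

namespace Cfsg.Agent.S5968

open Lib.GLC Lib.Symp Lib.Asch Polynomial Matrix Module LinearMap

/-- Derangements of odd prime order of PSL_n(q) on the cosets of a symplectic-type subgroup. Here `T = PSL_n(F)` for a field `F` with `q` elements, `n ≥ 4` even, `f` is a nondegenerate alternating form on `F^n`, and `H` is the subgroup of matrices of determinant 1 preserving `f` up to a scalar — a maximal subgroup of type Sp_n(q); Ω is the set of `T`-conjugates of `H` (cosets of `H`), so an element of `T` of prime order `r` (a matrix `x` of determinant 1 with `x^r` scalar, `x` not scalar) fixes a point of Ω when some conjugate of `x` by a matrix of determinant 1 preserves `f` up to a scalar. For every odd prime `r` dividing the index of `H`, with `(n, r) ≠ (6, 3)`, there is an element of `T` of order `r` with no conjugate in `H`. (For `n = 6`, `r = 3` this can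 fail: when `(q − 1)_3 = 3` every element of order 3 is conjugate into `H`.) -/
theorem result {F : Type*} [Field F] [Fintype F] {p : ℕ} [Fact p.Prime] [CharP F p] {q : ℕ} (hq : Fintype.card F = q)
    (n : ℕ) (hn : 4 ≤ n) (he : Even n) (f : (Fin n → F) → (Fin n → F) → F) (hf : Cfsg.Geo.IsSymplecticForm f)
    (r : ℕ) [Fact r.Prime] (hr2 : r ≠ 2) (hgap : ¬ (n = 6 ∧ r = 3)) (hΩ : r ∣ ((Cfsg.Geo.similarityGroup f).comap (Matrix.SpecialLinearGroup.toGL : Matrix.SpecialLinearGroup (Fin n) F →* GL (Fin n) F)).index) :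
    ∃ x : Matrix.SpecialLinearGroup (Fin n) F,
      (∃ z : F, ((x ^ r : Matrix.SpecialLinearGroup (Fin n) F) : Matrix (Fin n) (Fin n) F) = z • (1 : Matrix (Fin n) (Fin n) F)) ∧
      (∀ z : F, (x : Matrix (Fin n) (Fin n) F) ≠ z • (1 : Matrix (Fin n) (Fin n) F)) ∧
      ∀ P : Matrix.SpecialLinearGroup (Fin n) F, P⁻¹ * x * P ∉ ((Cfsg.Geo.similarityGroup f).comap (Matrix.SpecialLinearGroup.toGL : Matrix.SpecialLinearGroup (Fin n) F →* GL (Fin n) F)) := by
  classical
  have hr : r.Prime := Fact.out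
  have hs := sform_of_symplectic hf
  obtain ⟨B, hA, hB, rfl⟩ := exists_bilin hf
  haveI : Nonempty (Fin n) := ⟨⟨0, by omega⟩⟩
  by_contra h
  replace h := (fmt_one.1 fun x h1 h2 => by_contra fun h3 => h ⟨x, h1, h2, not_exists.1 h3⟩).mono fun _ => IntoS.into
  by_cases h1 : r ∣ Nat.card F - 1
  · exact not_elSL_of_dvd hs le_rfl hs.scalars_le hr2 h1 (fun _ _ => rfl) (Fintype.card_fin n) (by omega) hgap (by grind) h
  have h2 : ∀ g, Into _ g → g ^ r = 1 → SpT (typ g) := fun (g : End F (Fin n → F)) h2 h3 =>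
    let ⟨x, _, h4, h5⟩ := h2.exists_iso hs le_rfl h1 h3; h4.typ_eq ▸ SpE.spT ⟨hA, hB, h5⟩
  by_cases h3 : (r : F) = 0
  · obtain ⟨g, h4, h5, h6⟩ := h.exists_jt h3 (a := 3) (k := n - 3) (by omega) (hr.two_le.lt_of_ne' hr2) (by simp; omega)
    have := h2 g h4 h5
    rw [h6.typ_eq (jt_pp _ (by simp [Multiset.mem_replicate])), spT_jt_one] at this
    simpa [Multiset.count_replicate] using this 3 (by decide)
  have h4 : OP F r _ _ := ⟨hr, hr.odd_of_ne_two hr2, h3, rfl, rfl⟩
  rw [index_comap_toGL] at hΩ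
  have h5 := mul_card_dvd_gq hΩ (K := isom B) fun x hx => iso_le_sim (f := fun u v => B u v) hx
  obtain ⟨φ, hφ⟩ := exists_RF hr h3
  have h6 := orderOf_le_of_dvd_card_GL hr h4.not_dvd_card (card_GL_eq_gq (ι := Fin n) (F := F) ▸ (dvd_mul_right _ _).trans h5)
  obtain ⟨g, h7, h8, h9⟩ := h.exists_RF h1 (ν := {φ}) (by simpa) (by simp) (k := n - orderOf (Nat.card F : ZMod r))
    (by simp at h6 ⊢; omega)
  have h10 := map_dual_eq (h9 ▸ (h2 g h7 h8).1)
  have h11 := val_lt_of_dvd h5 (Nilp.gq_pos Finite.one_lt_card _).ne'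
  rw [h4.val_gq ((h4.rdual_eq_iff hφ).1 (by simpa using h10)), card_isom hA hB (m := Fintype.card (Fin n) / 2)
    (by simp [Nat.mul_div_cancel' he.two_dvd])] at h11
  exact h11.false

end Cfsg.Agent.S5968
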