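import Cfsg.Statements.S5969
import Cfsg.Agent.Lib.GLC.IntoK

set_option autoImplicit false
open scoped MatrixGroups
open Cfsg

namespace Cfsg.Agent.S5969

open Lib.GLC Lib.Symp Lib.Linear Polynomial Matrix Module LinearMap

/-- Involutions of PSL_n(q) and extension-field subgroups of degree 2. Here `T = PSL_n(F)` for a field `F` with `q = p^f` elements (`n ≥ 2`, `(n, q) ≠ (2, 2), (2, 3)`), `k` is a prime dividing `n`, `K` is a subalgebra of the `n × n` matrices that is a field of degree `k` over `F` (an extension-field structure F_{q^k} on `F^n`), and `H` is the subgroup of matrices of determinant 1 normalizing `K` — a subgroup of type GL_{n/k}(q^k) (maximal except in some small cases; maximality is not assumed); Ω is the set of cosets of `H` in `T`, so an element of `T` of prime order `r` (a matrix `x` of determinant 1 with `x^r` scalar, `x` not scalar) fixes a point of Ω when some conjugate of `x` by a matrix of determinant 1 normalizes `K`. Take `k = 2` and suppose the index of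 `H` is even. Then every involution of `T` is conjugate in `T` into `H` if and only if `n = 2`, or `q` is odd and `(q − 1)_2 ≤ (n)_2`. -/
theorem result {F : Type*} [Field F] [Fintype F] {p : ℕ} [Fact p.Prime] [CharP F p] {q : ℕ} (hq : Fintype.card F = q)
    (n : ℕ) (hn : 2 ≤ n) (hT : (n, q) ≠ (2, 2) ∧ (n, q) ≠ (2, 3))
    (k : ℕ) (hk : k.Prime) (hkn : k ∣ n) (K : Subalgebra F (Matrix (Fin n) (Fin n) F)) (hK : Cfsg.Geo.IsFieldSubalgebra k K) (hk2 : k = 2) (hΩ : 2 ∣ ((Cfsg.Geo.subalgebraNormalizer K).comap (Matrix.SpecialLinearGroup.toGL : Matrix.SpecialLinearGroup (Fin n) F →* GL (Fin n) F)).index) :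
    (∀ x : Matrix.SpecialLinearGroup (Fin n) F,
      (∃ z : F, ((x ^ 2 : Matrix.SpecialLinearGroup (Fin n) F) : Matrix (Fin n) (Fin n) F) = z • (1 : Matrix (Fin n) (Fin n) F)) →
      (∀ z : F, (x : Matrix (Fin n) (Fin n) F) ≠ z • (1 : Matrix (Fin n) (Fin n) F)) →
      ∃ P : Matrix.SpecialLinearGroup (Fin n) F, P⁻¹ * x * P ∈ ((Cfsg.Geo.subalgebraNormalizer K).comap (Matrix.SpecialLinearGroup.toGL : Matrix.SpecialLinearGroup (Fin n) F →* GL (Fin n) F))) ↔
    (n = 2 ∨ (Odd q ∧ padicValNat 2 (q - 1) ≤ padicValNat 2 n)) := by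
  classical
  haveI : Nonempty (Fin n) := ⟨⟨0, by omega⟩⟩
  rw [← Nat.card_eq_fintype_card] at hq
  subst hq hk2
  let _ := (Lib.Asch.isField_of_isFieldSubalgebra hK).toField
  have h1 := hK.finrank_eq
  rw [fmt_one, elSL_intoS (.inr rfl), subalgebraNormalizer_eq hK]
  have hP := fun (g : End F (Fin n → F)) (c : F) (hc : c ≠ 0) (h : Into _ g) =>
    h.smul (scalars_le_semiGL (ι := Fin n) (K := K)) hc
  have h0 : 0 < Nat.card F := Nat.card_pos
  have hK := fun (g : End F (Fin n → F)) z => into_semi_of_kummer (ι := Fin n) (f := g) (z := z) h1 (by simp)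
  refine ⟨fun h => by_contra fun h2 => ?_, ?_⟩
  · obtain ⟨m, rfl⟩ : ∃ m, n = m + 2 := ⟨n - 2, by omega⟩
    obtain ⟨g, h3, h4⟩ : ∃ g : End F (Fin (m + 2) → F), Into (semiGL K) g ∧ finrank F (ker (g - 1)) = m + 1 := by
      by_cases h3 : ((2 : ℕ) : F) = 0
      · exact (h.exists_tv h3 (by simp)).imp fun _ h => ⟨h.1, h.2.2⟩
      have := mt dvd_card_iff.1 h3
      exact h.exists_one hP (by omega) (by simp) (by grind)
    have := h3.dvd_or_le (by rwa [h1])
    simp [h1, h4] at this
    omega
  rintro (rfl | ⟨h2, h3⟩)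
  · refine elSL_of two_ne_zero hP (fun g z h2 h3 _ => hK g z h2 h3) fun g _ h2 _ h3 => ?_
    obtain ⟨τ, h4, -, h5⟩ := exists_frob (ι := Fin 2) (K := K) (by simpa)
    have h6 : minpoly F g = X ^ 2 - C 1 := eq_of_monic_of_dvd_of_natDegree_le (minpoly.monic (.of_finite _ _))
      (monic_X_pow_sub_C 1 two_ne_zero) (minpoly.dvd _ _ (by simp [h2])) (by
        rw [natDegree_X_pow_sub_C]
        exact (minpoly.two_le_natDegree_iff (.of_finite _ _)).2 fun ⟨c, hc⟩ => h3 ⟨c, hc.symm⟩) |>.symm
    exact h4.sim (h5.sim (by simpa [h1, h6] using blocks_of_minpoly (f := g) (by simp [h6, -map_one])))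
  have h4 : (2 : F) ≠ 0 := mt (dvd_card_iff (r := 2)).2 (by grind)
  refine elSL_two hP h4 (by simpa using even_iff_two_dvd.2 hkn) (by simpa using h3) hK fun g a b h5 h6 => ?_
  have h7 := (blocks_smul_one' (V := Fin a → K) (1 : F)).prodMap (blocks_smul_one' (V := Fin b → K) (-1 : F))
  refine (into_semi (by simp [finrank_pi_fintype, h1] at h5 ⊢; omega) (.of_pow_eq_one (n := 2) (by
    simp [prodMap_pow, _root_.smul_pow]) two_ne_zero) fun κ => ⟨κ, by simp⟩).sim (h7.sim ?_)
  convert h6 using 1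
  simp [finrank_pi_fintype, h1, lt_add, lt_replicate, Multiset.nsmul_replicate, mul_comm]

end Cfsg.Agent.S5969
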