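import Cfsg.Statements.S5970
import Cfsg.Agent.Lib.GLC.IntoK

set_option autoImplicit false
open scoped MatrixGroups
open Cfsg

namespace Cfsg.Agent.S5970

open Lib.GLC Lib.Symp Lib.Linear Polynomial Matrix Module LinearMap

/-- Elements of order `n` of PSL_n(q), `n` prime, and the normalizer of a Singer cycle. Here `T = PSL_n(F)` for a field `F` with `q = p^f` elements (`n ≥ 2`, `(n, q) ≠ (2, 2), (2, 3)`), `k` is a prime dividing `n`, `K` is a subalgebra of the `n × n` matrices that is a field of degree `k` over `F` (an extension-field structure F_{q^k} on `F^n`), and `H` is the subgroup of matrices of determinant 1 normalizing `K` — a subgroup of type GL_{n/k}(q^k) (maximal except in some small cases; maximality is not assumed); Ω is the set of cosets of `H` in `T`, so an element of `T` of prime order `r` (a matrix `x` of determinant 1 with `x^r` scalar, `x` not scalar) fixes a point of Ω when some conjugate of `x` by a matrix of determinant 1 normalizes `K`. Take `k = n > 3` prime with `n ≠ p` (so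 `H` is the normalizer of a Singer cycle), and suppose `n` divides the index of `H`. Then every element of `T` of order `n` is conjugate in `T` into `H` if and only if the multiplicative order of `q` modulo `n` is `n − 1`. -/
theorem result {F : Type*} [Field F] [Fintype F] {p : ℕ} [Fact p.Prime] [CharP F p] {q : ℕ} (hq : Fintype.card F = q)
    (n : ℕ) (hn : 2 ≤ n) (hT : (n, q) ≠ (2, 2) ∧ (n, q) ≠ (2, 3))
    (k : ℕ) (hk : k.Prime) (hkn : k ∣ n) (K : Subalgebra F (Matrix (Fin n) (Fin n) F)) (hK : Cfsg.Geo.IsFieldSubalgebra k K) (hkn' : k = n) (hn3 : 3 < n) (hnp : n ≠ p) (hΩ : n ∣ ((Cfsg.Geo.subalgebraNormalizer K).comap (Matrix.SpecialLinearGroup.toGL : Matrix.SpecialLinearGroup (Fin n) F →* GL (Fin n) F)).index) :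
    (∀ x : Matrix.SpecialLinearGroup (Fin n) F,
      (∃ z : F, ((x ^ n : Matrix.SpecialLinearGroup (Fin n) F) : Matrix (Fin n) (Fin n) F) = z • (1 : Matrix (Fin n) (Fin n) F)) →
      (∀ z : F, (x : Matrix (Fin n) (Fin n) F) ≠ z • (1 : Matrix (Fin n) (Fin n) F)) →
      ∃ P : Matrix.SpecialLinearGroup (Fin n) F, P⁻¹ * x * P ∈ ((Cfsg.Geo.subalgebraNormalizer K).comap (Matrix.SpecialLinearGroup.toGL : Matrix.SpecialLinearGroup (Fin n) F →* GL (Fin n) F))) ↔
    orderOf (q : ZMod n) = n - 1 := by
  classical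
  subst hkn'
  haveI : Nonempty (Fin k) := ⟨⟨0, by omega⟩⟩
  haveI := Fact.mk hk
  rw [← Nat.card_eq_fintype_card] at hq
  subst hq
  let _ := (Lib.Asch.isField_of_isFieldSubalgebra hK).toField
  have h1 := hK.finrank_eq
  have h0 := mt dvd_card_iff.2 (not_dvd_card (F := F) p hk hnp)
  rw [fmt_one, elSL_intoS (.inl h0), subalgebraNormalizer_eq hK]
  have hP := fun (g : End F (Fin k → F)) (c : F) (hc : c ≠ 0) (h : Into _ g) =>
    h.smul (scalars_le_semiGL (ι := Fin k) (K := K)) hc
  refine ⟨fun h => by_contra fun h2 => ?_, fun h => elSL_of hk.ne_zero hP (not_kummer fun e => by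
    have := orderOf_card_eq_one_iff.2 e; omega) fun g _ h2 _ h3 => into_semi_of_charpoly (by simpa) h1 h0 h2
      (charpoly_eq_of_orderOf h0 (by omega) h (by simp) h2 h3)⟩
  obtain ⟨g, m, h3, h4, h5, h6⟩ : ∃ (g : End F (Fin k → F)) (m : ℕ), Into (semiGL (ι := Fin k) (F := F) K) g ∧ finrank F (ker (g - 1)) = m ∧
      m < k ∧ k < 2 * m := by
    by_cases h3 : k ∣ Nat.card F - 1
    · obtain ⟨g, -, -, h4, -, -, h5⟩ := h.exists_two hP h3 (k := k - 2) (by omega) (by simp; omega)
      have : k ≠ 4 := by rintro rfl; exact absurd hk (by decide)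
      exact ⟨g, _, h4, h5, by omega, by omega⟩
    obtain ⟨φ, hφ⟩ := exists_RF (F := F) hk h0
    obtain ⟨S, -, h4⟩ := exists_finset_RF (F := F) hk h0
    have h5 := orderOf_card_pos (F := F) hk h0
    generalize hc : orderOf (Nat.card F : ZMod k) = c at h2 h4 h5
    have h6 : 2 * c ≤ k - 1 := h4 ▸ Nat.mul_le_mul_right c (by
      rcases e : S.card with _ | _ | _ <;> simp [e] at h4 ⊢ <;> omega)
    obtain ⟨g, h7, -, h8⟩ := h.exists_RF h3 (ν := {φ}) (by simpa) (by simp) (k := k - c) (by rw [hc]; simp; omega)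
    exact ⟨g, _, h7, finrank_ker_of_typ (by simpa) h8, by omega, by omega⟩
  have := h3.dvd_or_le (by rwa [h1])
  rw [h1, h4, finrank_fin_fun] at this
  exact this.elim (fun e => absurd (Nat.le_of_dvd (by omega) e) (by omega)) (by omega)

end Cfsg.Agent.S5970
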