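import Cfsg.Statements.S5971
import Cfsg.Agent.Lib.GLC.IntoK

set_option autoImplicit false
open scoped MatrixGroups
open Cfsg

namespace Cfsg.Agent.S5971

open Lib.GLC Lib.Symp Lib.Linear Polynomial Matrix Module LinearMap

/-- Elements of order 3 of PSL_3(q) and the normalizer of a Singer cycle. Here `T = PSL_n(F)` for a field `F` with `q = p^f` elements (`n ≥ 2`, `(n, q) ≠ (2, 2), (2, 3)`), `k` is a prime dividing `n`, `K` is a subalgebra of the `n × n` matrices that is a field of degree `k` over `F` (an extension-field structure F_{q^k} on `F^n`), and `H` is the subgroup of matrices of determinant 1 normalizing `K` — a subgroup of type GL_{n/k}(q^k) (maximal except in some small cases; maximality is not assumed); Ω is the set of cosets of `H` in `T`, so an element of `T` of prime order `r` (a matrix `x` of determinant 1 with `x^r` scalar, `x` not scalar) fixes a point of Ω when some conjugate of `x` by a matrix of determinant 1 normalizes `K`. Take `n = k = 3` and suppose 3 divides the index of `H`.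 Then every element of `T` of order 3 is conjugate in `T` into `H` if and only if `q ≡ 4, 7` or `8 (mod 9)`. -/
theorem result {F : Type*} [Field F] [Fintype F] {p : ℕ} [Fact p.Prime] [CharP F p] {q : ℕ} (hq : Fintype.card F = q)
    (n : ℕ) (hn : n = 3) (k : ℕ) (hk : k.Prime) (hkn : k ∣ n) (K : Subalgebra F (Matrix (Fin n) (Fin n) F)) (hK : Cfsg.Geo.IsFieldSubalgebra k K) (hk3 : k = 3) (hΩ : 3 ∣ ((Cfsg.Geo.subalgebraNormalizer K).comap (Matrix.SpecialLinearGroup.toGL : Matrix.SpecialLinearGroup (Fin n) F →* GL (Fin n) F)).index) :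
    (∀ x : Matrix.SpecialLinearGroup (Fin n) F,
      (∃ z : F, ((x ^ 3 : Matrix.SpecialLinearGroup (Fin n) F) : Matrix (Fin n) (Fin n) F) = z • (1 : Matrix (Fin n) (Fin n) F)) →
      (∀ z : F, (x : Matrix (Fin n) (Fin n) F) ≠ z • (1 : Matrix (Fin n) (Fin n) F)) →
      ∃ P : Matrix.SpecialLinearGroup (Fin n) F, P⁻¹ * x * P ∈ ((Cfsg.Geo.subalgebraNormalizer K).comap (Matrix.SpecialLinearGroup.toGL : Matrix.SpecialLinearGroup (Fin n) F →* GL (Fin n) F))) ↔
    (q % 9 = 4 ∨ q % 9 = 7 ∨ q % 9 = 8) := by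
  classical
  subst hn hk3
  haveI := Fact.mk hk
  rw [← Nat.card_eq_fintype_card] at hq
  subst hq
  let _ := (Lib.Asch.isField_of_isFieldSubalgebra hK).toField
  have h1 := hK.finrank_eq
  rw [subalgebraNormalizer_eq hK] at hΩ ⊢
  rw [fmt_one]
  have hP := fun (g : End F (Fin 3 → F)) (c : F) (hc : c ≠ 0) (h : Into _ g) =>
    h.smul (scalars_le_semiGL (ι := Fin 3) (K := K)) hc
  have h2 : ∀ g : End F (Fin 3 → F), Into (semiGL (ι := Fin 3) (F := F) K) g → finrank F (ker (g - 1)) ≠ 2 := fun g h e => by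
    simpa [h1, e] using h.dvd_or_le (by rwa [h1])
  have hq : 1 < Nat.card F := Finite.one_lt_card
  by_cases h0 : ((3 : ℕ) : F) = 0
  · have := dvd_card_iff.2 h0
    refine iff_of_false (fun h => ?_) (by omega)
    obtain ⟨g, h3, -, h4⟩ := h.exists_tv h0 (k := 1) (by simp)
    exact h2 g h3.into h4
  have h3 := mt dvd_card_iff.1 h0
  rw [elSL_intoS (.inl h0)]
  have h4 := fun (g : End F (Fin 3 → F)) => into_semi_of_charpoly (ι := Fin 3) (f := g) (by simpa) h1 h0
  by_cases h5 : 3 ∣ Nat.card F - 1
  · have h6 := one_le_padicValNat_of_dvd (by omega) h5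
    have h7 := padicValNat_dvd_iff_le (p := 3) (a := Nat.card F - 1) (n := 2) (by omega)
    by_cases h8 : padicValNat 3 (Nat.card F - 1) = 1
    · refine iff_of_true (elSL_symm hP (.inl rfl) (by simp) h8 fun g M h9 h10 h11 h12 => h4 g
        (by rw [← one_smul F 1]; exact h9.lt_pow_eq_iff.2 h10) ?_) (by omega)
      obtain ⟨x, y, z, rfl⟩ := Multiset.card_eq_three.1 (h9.lt_card.trans (by simp) : M.card = 3)
      have h13 := congrArg Multiset.prod h11
      simp [h9.lt_eq_smul_iff] at h10 h12 h13
      obtain ⟨h14, h15, h16⟩ : x + y + z = 0 ∧ x * y + y * z + z * x = 0 ∧ x * y * z = 1 := by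
        have : x * y * z = 1 := by grind
        grind
      simp only [h9.charpoly_eq, lt, Multiset.insert_eq_cons, Multiset.map_cons, Multiset.prod_cons, Multiset.map_singleton,
        Multiset.prod_singleton]
      have h17 := congrArg C h14
      have h18 := congrArg C h15
      have h19 := congrArg C h16
      simp only [map_add, map_mul, map_zero, map_one] at h17 h18 h19
      linear_combination -X ^ 2 * h17 + X * h18 - h19
    refine iff_of_false (fun h => ?_) (by omega)
    obtain ⟨g, h9, h10⟩ := h.exists_one hP (k := 2) two_ne_zero (by simp) (by rw [padicValNat_self]; omega)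
    exact h2 g h9 h10
  have h6 : (Nat.card F : ZMod 3) = 2 := (ZMod.natCast_eq_natCast_iff' _ 2 3).2 (by omega)
  refine iff_of_true (elSL_of three_ne_zero hP (not_kummer fun e => absurd e h5) fun g _ h7 _ h8 => h4 g h7
    (charpoly_eq_of_orderOf h0 (by decide) (by rw [h6]; exact orderOf_eq_prime (p := 2) (x := (2 : ZMod 3)) rfl (by clear * -; decide +revert)) (by simp) h7 h8)) ?_
  obtain ⟨τ, ⟨x, h7, h8⟩, h9, h10⟩ := exists_frob (ι := Fin 3) (K := K) (by simpa)
  rw [h1] at h9 h10
  have h11 : x ^ 3 = 1 := Units.ext (toLin'.injective ((toLin'_pow' _ _).trans (((h8.pow 3).eq_one_iff.2 h9).trans toLin'_one.symm)))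
  rw [index_comap_toGL] at hΩ
  have h12 := mul_card_dvd hΩ (Subgroup.zpowers_le.2 h7) (Subgroup.zpowers_le.2 (mem_sl_iff.2
    ((det_toLin' _).symm.trans (h8.det_eq.trans (det_eq_one_of_pow hk h5 h9)))))
  rw [Nat.card_zpowers, orderOf_eq_prime h11 (by
    rintro rfl
    simpa [← C_1, -map_one] using h10.natDegree_eq_one (c := 1) (by simpa using h8.eq_one_iff.1 (by simp; rfl))
      (Multiset.mem_singleton_self _)), card_specialLinear, card_SL_eq] at h12
  obtain ⟨m, hm⟩ : ∃ m, Nat.card F = 9 * m + Nat.card F % 9 := ⟨_, (Nat.div_add_mod _ 9).symm⟩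
  rw [← ZMod.natCast_eq_zero_iff] at h12
  simp only [Finset.prod_range_succ, Finset.prod_range_zero, Nat.cast_mul, Nat.cast_pow,
    Nat.cast_pred (pow_pos (zero_lt_one.trans hq) _), ← ZMod.natCast_mod (Nat.card F)] at h12
  by_contra h13
  obtain h14 | h14 : Nat.card F % 9 = 2 ∨ Nat.card F % 9 = 5 := by omega
  all_goals rw [h14] at h12; revert h12; decide

end Cfsg.Agent.S5971
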