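import Cfsg.Statements.S5972
import Cfsg.Agent.Lib.Orth.Elus4

set_option autoImplicit false
open scoped MatrixGroups
open Cfsg

namespace Cfsg.Agent.S5972

/-- Elements of prime order of Ω_n(q), n = 2d+1 ≥ 7, q odd, with no fixed totally singular `m`-space. Here `T = Ω_n(q)` is realised as the commutator subgroup of the isometry group of the quadratic form `x₀² + Σ xᵢyᵢ` over the field `F` with `q` elements (it has trivial centre, so its elements of prime order `r` are used directly); let `1 ≤ m ≤ d` and let `r` be a prime dividing the number of totally singular `m`-spaces. For `r ≠ p` let `i` be the multiplicative order of `q` modulo `r`, `c = i` for `i` even and `c = 2i` for `i` odd, and write `k = n mod c`, `ℓ = m mod i`, `n' = ⌊n/i⌋`, `m' = ⌊m/i⌋`, `t = (r−1)/i`. Then every element of `T` of order `r` fixes some totally singular `m`-space if and only if either (i) `r = 2` and (`m < (n−1)/2` or `q ≡ 1 (mod 4)`); or (ii) `r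 ≠ p` is odd, `i ≤ m`, `k > 2ℓ`, and (`i` is odd or `n' − 2m' ≥ t`). -/
theorem result {F : Type*} [Field F] [Fintype F] {p : ℕ} [Fact p.Prime] [CharP F p] {q : ℕ} (hq : Fintype.card F = q) (hqodd : Odd q)
    (d m : ℕ) (hd : 3 ≤ d) (hm : 1 ≤ m) (hmd : m ≤ d)
    (r : ℕ) [Fact r.Prime]
    (hrΩ : r ∣ Nat.card {W : Submodule F (Unit ⊕ (Fin d ⊕ Fin d) → F) // Module.finrank F ↥W = m ∧ (∀ w ∈ W, Cfsg.quadFormOdd d F w = 0)})
    (i c : ℕ) (hi : i = orderOf (q : ZMod r)) (hc : c = if Even i then i else 2 * i) :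
    (∀ x : GL (Unit ⊕ (Fin d ⊕ Fin d)) F, x ∈ Cfsg.Geo.omegaGL (Cfsg.quadFormOdd d F) → orderOf x = r →
      ∃ W : Submodule F (Unit ⊕ (Fin d ⊕ Fin d) → F), Module.finrank F ↥W = m ∧ (∀ w ∈ W, Cfsg.quadFormOdd d F w = 0) ∧
        W.map (Matrix.toLin' (x : Matrix (Unit ⊕ (Fin d ⊕ Fin d)) (Unit ⊕ (Fin d ⊕ Fin d)) F)) ≤ W) ↔
    ((r = 2 ∧ (m < d ∨ q % 4 = 1)) ∨
     (r ≠ p ∧ 2 < r ∧ i ≤ m ∧ 2 * (m % i) < (2 * d + 1) % c ∧ (Odd i ∨ (r - 1) / i + 2 * (m / i) ≤ (2 * d + 1) / i))) := by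
  open Cfsg.Lib.Orth Cfsg.Lib.Symp Cfsg.Lib.GLC Polynomial Matrix Module in
  have hQ := nd_qOdd (two_ne_zero_of_odd_card (hq ▸ hqodd)) d
  have h0 : 2 ∣ c := by rw [hc]; split_ifs with h; exacts [h.two_dvd, ⟨i, rfl⟩]
  have h4 := Nat.mod_mod_of_dvd (2 * d + 1) h0
  have h5 : ∀ e, 2 * d + 1 ≠ 2 * e := by omega
  simp only [Submodule.map_le_iff_le_comap]
  refine (forall_omega_order_iff hQ (by simp; omega) (by simp [← two_mul, add_comm])
    (P := (InvTS (qOdd d F) · m))).trans (el_ts_iff hq hQ (finrank_qOdd d) (by omega) (by omega) Fact.out hrΩ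
    hi hc rfl (fun h1 h2 h3 => ?_) fun h1 h2 h3 => ?_) <;>
    rcases Int.units_eq_one_or (qsg (qOdd d F)) with e | e <;>
    simp [e, h1, h2, h5, Nat.even_iff, Nat.odd_iff] <;> omega

end Cfsg.Agent.S5972
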