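import Cfsg.Statements.S5979
import Cfsg.Agent.Lib.GLC.IntoK

set_option autoImplicit false
open scoped MatrixGroups
open Cfsg

namespace Cfsg.Agent.S5979

open Lib.GLC Lib.Symp Lib.Linear Polynomial Matrix Module LinearMap
open scoped Kronecker

/-- Elements of prime order of PSL_n(q) and the stabilizers of tensor decompositions with factors of different dimensions. Here `T = PSL_n(F)` for a field `F` with `q` elements and `n = a·b` with `2 ≤ a < b`; a tensor decomposition `F^n ≅ F^a ⊗ F^b` is given by a bijection `e` of index sets and a change of basis `P`, and `H` is the subgroup of matrices of determinant 1 in its stabilizer (the conjugate by `P` of the group of Kronecker products `g₁ ⊗ g₂`) — a subgroup of type GL_a(q) ⊗ GL_b(q) (maximality is not assumed); Ω is the set of cosets of `H` in `T`, so an element of `T` of prime order `r` (a matrix `x` of determinant 1 with `x^r` scalar, `x` not scalar) fixes a point of Ω exactly when some conjugate of `x` by a matrix of determinant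 1 lies in `H`. Let `r` be a prime dividing the index of `H`. Then every element of `T` of order `r` fixes a point of Ω if and only if `r = 2`, `a = 2`, `q` is odd and `(q − 1)_2 ≤ (n)_2` (2-parts). -/
theorem result {F : Type*} [Field F] [Fintype F] {p : ℕ} [Fact p.Prime] [CharP F p] {q : ℕ} (hq : Fintype.card F = q)
    (n a b : ℕ) (hab : n = a * b) (ha : 2 ≤ a) (hlt : a < b) (e : Fin n ≃ Fin a × Fin b) (P : GL (Fin n) F)
    (r : ℕ) [Fact r.Prime]
    (hΩ : r ∣ (Cfsg.Geo.tensorProductSubgroup a b e P).relIndex (Cfsg.Geo.specialLinear (Fin n) F)) :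
    (∀ x ∈ Cfsg.Geo.specialLinear (Fin n) F, (∃ z : F, ((x ^ r : GL (Fin n) F) : Matrix (Fin n) (Fin n) F) = z • (1 : Matrix (Fin n) (Fin n) F)) →
      (∀ z : F, (x : Matrix (Fin n) (Fin n) F) ≠ z • (1 : Matrix (Fin n) (Fin n) F)) →
      ∃ g ∈ Cfsg.Geo.specialLinear (Fin n) F, g⁻¹ * x * g ∈ Cfsg.Geo.tensorProductSubgroup a b e P) ↔
    (r = 2 ∧ a = 2 ∧ Odd q ∧ padicValNat 2 (q - 1) ≤ padicValNat 2 n) := by
  classical
  have hr : r.Prime := Fact.out
  have hn : a + b + 1 ≤ n := by nlinarith
  haveI : Nonempty (Fin n) := ⟨⟨0, by omega⟩⟩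
  rw [← Nat.card_eq_fintype_card] at hq
  subst hq
  rw [fmt_two]
  have hP := fun (g : End F (Fin n → F)) (c : F) (hc : c ≠ 0) (h : Into (Geo.tensorProductSubgroup a b e P) g) =>
    h.tens_smul hc
  refine ⟨fun h => by_contra fun h1 => ?_, fun ⟨h1, h2, h3, h4⟩ => ?_⟩
  · replace h := h.mono fun _ => IntoS.into
    have h2 : ∀ {g : End F (Fin n → F)} {μ} (φ), typ g = a • μ → (typ g).count φ = 1 → False := fun φ e1 e2 => by
      rw [e1, Multiset.count_nsmul] at e2
      exact absurd (Nat.eq_one_of_mul_eq_one_right e2) (by omega)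
    by_cases h3 : (r : F) = 0
    · obtain ⟨g, h4, h5, h6⟩ := h.exists_tv h3 (k := n - 2) (by simp; omega)
      refine (h4.tens_cases (r := r) (by omega)).elim (fun ⟨μ, e⟩ => h2 ((X - C 1) ^ 2) e ?_) fun e => by simp [h6] at e; omega
      rw [h5, jt, Multiset.count_map_eq_count' _ _ fun k l h => by simpa [-map_one] using congrArg natDegree h]
      simp [Multiset.count_replicate]
    by_cases h4 : r ∣ Nat.card F - 1
    · obtain ⟨g, ω, h5, h6, -, h7, h8⟩ := h.exists_two hP h4 (k := n - 2) (by omega) (by simp; omega)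
      obtain ⟨μ, h9⟩ := (h6.tens_cases (r := r) (by omega)).resolve_right fun e => by simp [h8] at e; omega
      have h10 : ω ≠ 1 := by rintro rfl; exact hr.ne_one (by simp [← h5])
      by_cases h11 : r = 2
      · subst h11
        have h11 : a ∣ n - 2 := ⟨μ.count (X - C 1), by
          rw [← Multiset.count_nsmul, ← h9, h7]; simp [lt, -map_one, h10, eq_comm (a := (1 : F))]⟩
        obtain rfl : a = 2 := le_antisymm (Nat.le_of_dvd two_pos (by
          convert Nat.dvd_sub (hab ▸ dvd_mul_right a b : a ∣ n) h11; omega)) ha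
        obtain ⟨g, h12, h13⟩ := h.exists_one hP (k := n - 1) (by omega) (by simp; omega) (by
          have := mt (dvd_card_iff (r := 2)).1 h3
          rw [Nat.sub_add_cancel (by omega)]; grind)
        refine (h12.tens_cases (r := 2) (by omega)).elim (fun ⟨ν, e⟩ => ?_) fun e => by simp [h13] at e; omega
        have := (blocks_typ g).kd_eq (X - C 1)
        rw [e, Multiset.map_nsmul, Multiset.sum_nsmul, kd, ← pow_one (X - C 1), aeval_X_sub_C_pow, pow_one, one_smul, h13,
          smul_eq_mul] at this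
        omega
      refine h2 (X - C ω) h9 ?_
      have : ω ≠ ω⁻¹ := fun e => h11 ((Nat.prime_dvd_prime_iff_eq hr Nat.prime_two).1 (h5 ▸ orderOf_dvd_of_pow_eq_one
        (by rw [pow_two]; exact (mul_eq_one_iff_eq_inv₀ (by rintro rfl; exact hr.ne_zero (by simp [← h5]))).2 e)))
      simp [h7, lt, -map_one, Multiset.count_replicate, h10.symm, this]
    obtain ⟨φ, hφ⟩ := exists_RF hr h3
    have h5 := orderOf_le_of_dvd_card_GL hr (mt dvd_card_iff.1 h3) (n := Fin n) (F := F)
      (by simpa using mul_card_dvd_of_normal hΩ bot_le)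
    obtain ⟨g, h6, h7, h8⟩ := h.exists_RF h4 (ν := {φ}) (by simpa) (by simp) (k := n - orderOf (Nat.card F : ZMod r))
      (by simp at h5 ⊢; omega)
    refine (h6.tens_cases (r := r) (by omega)).elim (fun ⟨μ, e⟩ => h2 φ e ?_) fun ⟨h9, A, h10, h11⟩ => ?_
    · simp [h8, Multiset.count_replicate, hφ.2.2.2.symm, -map_one]
    obtain ⟨z, h12, h13⟩ := h11 h7
    obtain ⟨c, rfl⟩ := exists_pow_eq_of_not_dvd hr h4 z
    have h14 : (c⁻¹ • A) ^ r = 1 := by rw [_root_.smul_pow, h13, smul_smul, inv_pow, inv_mul_cancel₀ h12, one_smul]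
    obtain ⟨k, ν, h15, h16⟩ := exists_typ_RF h3 h14
    have h17 := (blocks_typ (c⁻¹ • A)).finrank_eq
    rw [h16, map_natDegree_RF hr h15] at h17
    rw [finrank_ker_of_typ (by simpa) h8] at h9
    rcases h18 : ν.card with _ | m
    · rw [Multiset.card_eq_zero.1 h18, add_zero, ← lt_replicate] at h16
      have := (h16 ▸ blocks_typ (c⁻¹ • A)).lt_eq_smul_iff.2 fun _ => Multiset.eq_of_mem_replicate
      exact h10 ⟨c, by rw [← one_smul F 1, ← this, smul_inv_smul₀ (by rintro rfl; simp [hr.ne_zero] at h12)]⟩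
    simp [h18, add_mul] at h5 h9 h17
    omega
  subst h1 h2
  have h5 : (2 : F) ≠ 0 := mt (dvd_card_iff (r := 2)).2 (by grind)
  rw [elSL_intoS (.inr rfl)]
  refine elSL_two hP h5 (by simp [hab]) (by simpa using h4) (fun g z h6 h7 => ?_) fun g c d h6 h7 => ?_
  · have h0 : z ≠ 0 := by rintro rfl; exact h6 0 (by simp)
    let A : GL (Fin 2) F := .mkOfDetNeZero !![0, z; 1, 0] (by simpa)
    have h8 : toLin' (A.1 ⊗ₖ (1 : GL (Fin b) F).1) ^ 2 = z • 1 := by
      rw [← toLin'_pow', toLin'_eq_smul_one_iff, pow_two, ← mul_kronecker_mul, ← one_kronecker_one, ← smul_kronecker]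
      congr 1
      · ext i j; fin_cases i <;> fin_cases j <;> simp [A]
      · simp
    obtain ⟨k, h9, h10, -⟩ := typ_of_kummer Nat.prime_two h6 h7
    obtain ⟨l, h11, h12, -⟩ := typ_of_kummer Nat.prime_two h6 h8
    refine into_tens_iff.2 ⟨A, 1, sim_iff_typ_eq.2 ?_⟩
    rw [h10, h12, show k = l by simp at h9 h11; omega]
  obtain ⟨B, hB⟩ := exists_blocks_lt (V := Fin b → F) (M := .replicate c 1 + .replicate d (-1 : F)) (by simp at h6 ⊢; omega)
  obtain ⟨B, rfl⟩ := toLin'.surjective B
  refine into_tens_iff.2 ⟨1, .mkOfDetNeZero B (by simp [← det_toLin', hB.lt_det]), sim_iff_typ_eq.2 ?_⟩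
  rw [h7.typ_eq fun P hP => lt_pp _ P (Multiset.mem_of_mem_nsmul hP), ← hB.lt_typ]
  exact typ_one_kronecker B

end Cfsg.Agent.S5979
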