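import Cfsg.Statements.S5981
import Cfsg.Agent.Lib.GLC.IntoF

set_option autoImplicit false
open scoped MatrixGroups
open Cfsg

namespace Cfsg.Agent.S5981

open Lib.GLC Lib.Symp Lib.Asch Lib.Orth Polynomial Matrix Module LinearMap

/-- Elements of prime order of PSL_n(q), q odd, and the subgroups of orthogonal type. Here `T = PSL_n(F)` for a field `F` with `q` elements, `q` odd, `n ≥ 3`; `Q` is a non-degenerate quadratic form on `F^n` (of either type when `n` is even) and `H` is the subgroup of matrices of determinant 1 that preserve `Q` up to a scalar — a subgroup of type O^ε_n(q) (maximality is not assumed); Ω is the set of cosets of `H` in `T`, so an element of `T` of prime order `r` (a matrix `x` of determinant 1 with `x^r` scalar, `x` not scalar) fixes a point of Ω exactly when some conjugate of `x` by a matrix of determinant 1 preserves `Q` up to a scalar. Let `r` be a prime dividing the index of `H`, with `(n, r) ≠ (6, 3)`. Then every element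 of `T` of order `r` fixes a point of Ω if and only if `r = 2`, or `r ∈ {3, 5}`, `n = r` and `(q − 1)_r = r` (the `r`-part of `q − 1` is exactly `r`). The case `(n, r) = (6, 3)` is not covered by this statement. -/
theorem result {F : Type*} [Field F] [Fintype F] {p : ℕ} [Fact p.Prime] [CharP F p] {q : ℕ} (hq : Fintype.card F = q)
    (hodd : Odd q) (n : ℕ) (hn : 3 ≤ n) (Q : (Fin n → F) → F) (hQ : Cfsg.Geo.IsNondegenerateQuadraticForm Q)
    (r : ℕ) [Fact r.Prime] (hgap : ¬ (n = 6 ∧ r = 3))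
    (hΩ : r ∣ (Cfsg.Geo.quadSimilarityGroup Q).relIndex (Cfsg.Geo.specialLinear (Fin n) F)) :
    (∀ x ∈ Cfsg.Geo.specialLinear (Fin n) F, (∃ z : F, ((x ^ r : GL (Fin n) F) : Matrix (Fin n) (Fin n) F) = z • (1 : Matrix (Fin n) (Fin n) F)) →
      (∀ z : F, (x : Matrix (Fin n) (Fin n) F) ≠ z • (1 : Matrix (Fin n) (Fin n) F)) →
      ∃ g ∈ Cfsg.Geo.specialLinear (Fin n) F, g⁻¹ * x * g ∈ Cfsg.Geo.quadSimilarityGroup Q) ↔
    (r = 2 ∨ ((r = 3 ∨ r = 5) ∧ n = r ∧ padicValNat r (q - 1) = 1)) := by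
  classical
  have hr : r.Prime := Fact.out
  have hs := sform_of_quad hQ
  obtain ⟨Q, rfl, hN⟩ := exists_qf hQ
  haveI : Nonempty (Fin n) := ⟨⟨0, by omega⟩⟩
  have h2 : (2 : F) ≠ 0 := two_ne_zero_of_odd_card (hq ▸ hodd)
  have hP := fun (g : End F (Fin n → F)) (c : F) (hc : c ≠ 0) (h : Into _ g) => h.smul (scalars_le_quadSim Q) hc
  have hI : ∀ g f : End F (Fin n → F), OE Q g → Sim g f → Into (Geo.quadSimilarityGroup Q) f := fun g f h1 h3 =>
    quadSim_eq Q ▸ into_sim h1.isUnit h3 one_ne_zero fun u _ => by rw [h1.inv, one_mul]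
  rw [fmt_two, ← hq, ← Nat.card_eq_fintype_card]
  refine ⟨fun h => by_contra fun h0 => ?_, ?_⟩
  · replace h := h.mono fun _ => IntoS.into
    rw [not_or] at h0
    by_cases h1 : r ∣ Nat.card F - 1
    · exact not_elSL_of_dvd hs (quadSim_le Q) (scalars_le_quadSim Q) h0.1 h1 (fun _ _ => rfl) (Fintype.card_fin n) hn hgap
        h0.2 h
    have h3 : ∀ g, Into _ g → g ^ r = 1 → ∃ f, OE Q f ∧ Sim f g := fun (g : End F (Fin n → F)) h3 h4 =>
      let ⟨x, _, h5, h6⟩ := h3.exists_iso hs (quadSim_le Q) h1 h4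
      ⟨_, ⟨hN, fun v => mul_left_cancel₀ h2 (by simpa only [polar_self', toLin'_apply] using h6 v v)⟩, h5⟩
    by_cases h4 : (r : F) = 0
    · obtain ⟨g, h5, h6, h7⟩ := h.exists_jt h4 (a := 2) (k := n - 2) le_rfl hr.two_le (by simp; omega)
      obtain ⟨f, h8, h9⟩ := h3 g h5 h6
      have := (h8.fE h2).even_count_typ (a := 2) (by decide)
      rw [h9.typ_eq, h7.typ_eq (jt_pp _ (by simp [Multiset.mem_replicate])), jt,
        Multiset.count_map_eq_count' _ _ fun a b e => by simpa [-map_one] using congrArg natDegree e] at this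
      simp [Multiset.count_replicate] at this
    have h5 : OP F r _ _ := ⟨hr, hr.odd_of_ne_two h0.1, h4, rfl, rfl⟩
    have h6 := mul_card_dvd_gq hΩ (K := O Q) fun x hx => ⟨1, fun v => (hx v).trans (one_mul _).symm⟩
    by_cases h7 : Even (orderOf (Nat.card F : ZMod r))
    · obtain ⟨ν, h8, -, h9, h10⟩ := h5.exists_of_lt hN (by
        simpa only [h5.val_gq h7, Fintype.card_fin, finrank_fin_fun] using val_lt_of_dvd h6 (Nilp.gq_pos Finite.one_lt_card _).ne')
      obtain ⟨g, h11, h12, h13⟩ := h.exists_RF h1 h8 (by rintro rfl; simp at h9; omega) (k := 0) (by simpa using h9)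
      obtain ⟨f, h14, h15⟩ := h3 g h11 h12
      exact h10 (h5.qsg_eq h14 ((h15.pow r).eq_one_iff.2 h12) (fpf_of_typ_RF h8 (by simpa [h15.typ_eq] using h13)) h9.symm)
    obtain ⟨φ, hφ⟩ := exists_RF hr h4
    have h8 := orderOf_le_of_dvd_card_GL hr h5.not_dvd_card
      (card_GL_eq_gq (ι := Fin n) (F := F) ▸ (dvd_mul_right _ _).trans h6)
    obtain ⟨g, h9, h10, h11⟩ := h.exists_RF h1 (ν := {φ}) (by simpa) (by simp) (k := n - orderOf (Nat.card F : ZMod r))
      (by simp at h8 ⊢; omega)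
    obtain ⟨f, h12, h13⟩ := h3 g h9 h10
    exact h7 ((h5.rdual_eq_iff hφ).1 (Multiset.singleton_inj.1 (map_dual_eq (ν := {φ}) (h11 ▸ h13.typ_eq ▸ (h12.fE h2).map_rdual_typ))))
  rintro (rfl | ⟨h3, h4, h5⟩)
  · refine (elSL_intoS (.inr rfl)).2 (elSL_of two_ne_zero hP (fun f z h3 h4 _ => ?_) fun f _ h3 _ h4 => ?_)
    · obtain ⟨k, h5, h6, -⟩ := typ_of_kummer hr h3 h4
      obtain ⟨g, h7, h8⟩ := exists_sq_sim h3 (k - 1) _ Q hN (by simp at h5 ⊢; omega)
      obtain ⟨l, h9, h10, -⟩ := typ_of_kummer hr h3 h7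
      have h0 : z ≠ 0 := by rintro rfl; exact h3 0 (by simp)
      exact quadSim_eq Q ▸ into_sim ((isUnit_pow_iff two_ne_zero).1 (h7 ▸ isUnit_one.smul (Units.mk0 z h0)))
        (sim_iff_typ_eq.2 (by rw [h6, h10, show k = l by omega])) h0 fun u _ => h8 u
    obtain ⟨a, b, h5, h6⟩ := exists_lt_two h2 h3
    obtain ⟨Q', h7, -⟩ := exists_qsg (F := F) (n := b) (by
      rintro rfl; exact h4 ⟨1, h6.lt_eq_smul_iff.2 (by simp [Multiset.mem_replicate])⟩) (fun _ => h2) 1
    obtain ⟨R, g, -, h8, h9⟩ := ((OE.one h7).smul (c := -1) (by simp)).exists_ext hN (k := a) (by simp at h5 ⊢; omega) (by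
      rintro rfl; exact absurd ⟨-1, h6.lt_eq_smul_iff.2 (by simp [Multiset.mem_replicate])⟩ h4)
    refine hI g f h8 (h9.sim.symm.trans (Blocks.sim ?_ h6))
    simpa [lt_add, add_comm] using (blocks_smul_one' (V := Fin b → F) (-1 : F)).prodMap (blocks_smul_one' (V := Fin a → F) 1)
  have h6 := dvd_of_one_le_padicValNat h5.ge
  have h7 : (r : F) ≠ 0 := fun e => not_dvd_of_cast_eq_zero e h6
  refine (elSL_intoS (.inl h7)).2 (elSL_symm hP h3 (by simpa) h5 fun f M h8 h9 h10 _ => ?_)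
  have h11 : OP F r _ _ := ⟨hr, by rcases h3 with rfl | rfl <;> decide, h7, rfl, rfl⟩
  obtain ⟨k, ν, h12, h13⟩ := exists_typ_RF h7 ((h8.lt_pow_eq_iff.2 h9).trans (one_smul F _))
  have h14 : ν.map rdual = ν := map_dual_eq (by
    rw [← h13, h8.lt_typ, lt_map_dual fun a ha e => by simpa [e, hr.ne_zero] using h9 a ha]; exact congrArg lt h10)
  have h15 := finrank_of_typ h13
  obtain ⟨g, h16, -, h17⟩ := exists_oE_RF hN h11 h12 h14 (h11.sum_eq h12 ▸ h15) (by
    rintro rfl
    have := even_sum_RF h11.odd h12 h14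
    have := h11.odd
    rw [finrank_fin_fun] at h15
    grind)
  exact hI g f h16 (sim_iff_typ_eq.2 (h17.trans h13.symm))

end Cfsg.Agent.S5981
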