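import Cfsg.Statements.S5982
import Cfsg.Agent.Lib.GLC.IntoF

set_option autoImplicit false
open scoped MatrixGroups
open Cfsg

namespace Cfsg.Agent.S5982

open Lib.GLC Lib.Symp Lib.Asch Lib.Unitary Polynomial Matrix Module LinearMap

theorem val_gu {r q : ℕ} [hr : Fact r.Prime] (hq : 2 ≤ q) (h2 : r ≠ 2) (h : ¬ r ∣ q) (hd : orderOf (q : ZMod r) % 4 = 2) (n : ℕ) :
    padicValNat r (guOrder q n) = padicValNat r (Nilp.gq (q ^ 2) n) := by
  induction n with
  | zero => simp [guOrder_zero, Nilp.gq]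
  | succ n ih =>
    have h1 := Nat.one_lt_pow n.succ_ne_zero hq
    obtain ⟨w, h3, h4⟩ : ∃ w, (q ^ 2) ^ (n + 1) - 1 = uf q n * w ∧ ¬ r ∣ w := by
      have h3 : (q ^ 2) ^ (n + 1) - 1 = (q ^ (n + 1) + 1) * (q ^ (n + 1) - 1) := by
        rw [← pow_mul, mul_comm, pow_mul, ← Nat.sq_sub_sq, one_pow]
      rw [uf]
      split_ifs with e
      · refine ⟨_, h3, fun h4 => ?_⟩
        obtain ⟨k, hk⟩ := (dvd_pow_sub_one_iff (by omega)).1 h4
        have : Even (n + 1) := hk ▸ (Nat.even_iff.2 (by omega)).mul_right k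
        grind
      refine ⟨_, h3.trans (mul_comm _ _), fun h4 => h2 ((Nat.prime_dvd_prime_iff_eq hr.out Nat.prime_two).1 ?_)⟩
      have h5 := h4.mul_right (q ^ (n + 1) - 1)
      obtain ⟨a, ha⟩ : ∃ a, orderOf (q : ZMod r) = 2 * (2 * a + 1) := ⟨orderOf (q : ZMod r) / 4, by omega⟩
      rw [← h3, ← pow_mul, dvd_pow_sub_one_iff (by omega), ha, Nat.mul_dvd_mul_iff_left two_pos] at h5
      have := Nat.dvd_sub h4 ((dvd_pow_sub_one_iff (zero_lt_two.trans_le hq)).2 (ha ▸ Nat.Coprime.mul_dvd_of_dvd_of_dvd (by simp)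
        (by grind : Even (n + 1)).two_dvd h5))
      rwa [show q ^ (n + 1) + 1 - (q ^ (n + 1) - 1) = 2 by rw [Nat.succ_eq_add_one] at h1; omega] at this
    have h5 : w ≠ 0 := by rintro rfl; simp at h4
    have h6 := (uf_pos hq n).ne'
    have h7 := (guOrder_pos hq n).ne'
    have h8 := (Nilp.gq_pos (Nat.one_lt_pow two_ne_zero hq) n).ne'
    have h9 : q ≠ 0 := by omega
    rw [guOrder_succ, Nilp.gq_succ, h3]
    simp [padicValNat.mul, padicValNat.pow, padicValNat.eq_zero_of_not_dvd, add_comm, *]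

/-- Elements of prime order of PSL_n(q), q = q₀², and the subgroups of unitary type. Here `T = PSL_n(F)` for a field `F` with `q = q₀²` elements (`n ≥ 3`), `f` is a non-degenerate unitary form on `F^n` for the involutory automorphism `x ↦ x^{q₀}`, and `H` is the subgroup of matrices of determinant 1 that preserve `f` up to a scalar — a subgroup of type GU_n(q₀) (maximality is not assumed); Ω is the set of cosets of `H` in `T`, so an element of `T` of prime order `r` (a matrix `x` of determinant 1 with `x^r` scalar, `x` not scalar) fixes a point of Ω exactly when some conjugate of `x` by a matrix of determinant 1 preserves `f` up to a scalar. Let `r` be a prime dividing the index of `H`, with `r = 2` or `r` different from the characteristic `p`, and with `(n, r) ≠ (6, 3)`. Then every element of `T` of order `r` fixes a point of Ω if and only if either `r = 2` and (`p = 2` or `(n)_2 ≤ (q − 1)_2`), or `r ∈ {3, 5}`, `n = r` and `(q₀ − 1)_r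 = r`. (Odd `r = p` and the case `(n, r) = (6, 3)` are not covered by this statement.) -/
theorem result {F : Type*} [Field F] [Fintype F] {p : ℕ} [Fact p.Prime] [CharP F p] {q : ℕ} (hq : Fintype.card F = q)
    (q₀ : ℕ) (hq₀ : q = q₀ ^ 2) (n : ℕ) (hn : 3 ≤ n) (f : (Fin n → F) → (Fin n → F) → F) (hf : Cfsg.Geo.IsUnitaryFormPow q₀ f)
    (r : ℕ) [Fact r.Prime] (hr : r = 2 ∨ r ≠ p) (hgap : ¬ (n = 6 ∧ r = 3))
    (hΩ : r ∣ (Cfsg.Geo.similarityGroup f).relIndex (Cfsg.Geo.specialLinear (Fin n) F)) :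
    (∀ x ∈ Cfsg.Geo.specialLinear (Fin n) F, (∃ z : F, ((x ^ r : GL (Fin n) F) : Matrix (Fin n) (Fin n) F) = z • (1 : Matrix (Fin n) (Fin n) F)) →
      (∀ z : F, (x : Matrix (Fin n) (Fin n) F) ≠ z • (1 : Matrix (Fin n) (Fin n) F)) →
      ∃ g ∈ Cfsg.Geo.specialLinear (Fin n) F, g⁻¹ * x * g ∈ Cfsg.Geo.similarityGroup f) ↔
    ((r = 2 ∧ (p = 2 ∨ padicValNat 2 n ≤ padicValNat 2 (q - 1))) ∨ ((r = 3 ∨ r = 5) ∧ n = r ∧ padicValNat r (q₀ - 1) = 1)) := by
  classical
  have hrp : r.Prime := Fact.out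
  obtain ⟨σ, hσ⟩ := exists_isBar (hq.trans hq₀)
  have hs := sform_of_unitaryPow hσ hf
  have hH := hs.isHerm hσ
  haveI : Nonempty (Fin n) := ⟨⟨0, by omega⟩⟩
  have hP := fun (g : End F (Fin n → F)) (c : F) (hc : c ≠ 0) (h : Into _ g) => h.smul hs.scalars_le hc
  have hI : ∀ g : End F (Fin n → F), SD σ g → Into (Geo.similarityGroup f) g := fun g h =>
    let ⟨x, h1, h2⟩ := hH.exists_UG_sim hσ h rfl
    into_sim (h2.isUnit_iff.2 h.1) h2 one_ne_zero fun u v => (h1 v u).trans (one_mul _).symm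
  have h0 : (r : F) ≠ 0 ∨ r = 2 := hr.symm.imp_left fun h e =>
    h ((Nat.prime_dvd_prime_iff_eq Fact.out hrp).1 ((CharP.cast_eq_zero_iff F p r).1 e)).symm
  have hq2 := hσ.two_le
  rw [fmt_two, elSL_intoS h0, ← hq, ← Nat.card_eq_fintype_card]
  by_cases h2 : r = 2
  · subst h2
    simp only [true_and, Nat.reduceEqDiff, or_self, false_and, or_false]
    by_cases hp : p = 2
    · have h2 : (2 : F) = 0 := by subst hp; exact CharP.cast_eq_zero F 2
      refine iff_of_true (elSL_of two_ne_zero hP (not_kummer fun h => absurd h (not_dvd_of_cast_eq_zero h2))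
        fun g _ h3 _ _ => ?_) (.inl hp)
      obtain ⟨d, -, h4⟩ := exists_jt_of_char (r := 2) h2 h3
      exact hI g (hσ.sd_jt h4 (by simp))
    have h2 : (2 : F) ≠ 0 := fun e =>
      hp ((Nat.prime_dvd_prime_iff_eq Fact.out hrp).1 ((CharP.cast_eq_zero_iff F p 2).1 e))
    obtain ⟨m, rfl⟩ : Odd q₀ := by
      have := Lib.Orth.odd_card_iff.2 h2
      rw [hq, hq₀] at this
      exact (Nat.odd_pow_iff two_ne_zero).1 this
    have h3 : Nat.card F = 4 * (m * (m + 1)) + 1 := by rw [hσ.card]; ring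
    rw [or_iff_right hp]
    refine ⟨fun h => by_contra fun h4 => ?_, fun h => elSL_of two_ne_zero hP
      (not_kummer fun _ => ⟨by rwa [finrank_fin_fun], by omega⟩) fun g _ h4 _ _ => ?_⟩
    · obtain ⟨g, z, ⟨x, ⟨c, hc⟩, h5⟩, h6, h7⟩ := h.exists_kummer (by omega) (by rw [finrank_fin_fun]; omega)
      have h8 := hs.pow_eq (g := toLin' x.1) hc (h5.pow_eq_smul_one_iff.2 h7)
      have h9 : σ c = c := by
        obtain ⟨v, hv⟩ := exists_ne (0 : Fin n → F)
        obtain ⟨u, hu⟩ := not_forall.1 (mt (hs.nondeg v) hv)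
        have := hs.herm (x.1 *ᵥ u) (x.1 *ᵥ v)
        rw [hc, hc, map_mul, mul_left_comm, ← hs.herm] at this
        exact (mul_right_cancel₀ hu this).symm
      rw [hσ.fixed_iff c.ne_zero] at h9
      obtain ⟨y, -, hy⟩ := exists_pow_eq_of_pow_eq_one (a := 2 * (m * (m + 1))) (b := 2) (x := z) (by omega) (by
        rw [hσ.norm_eq] at h8
        rw [show 2 * (m * (m + 1)) = (2 * m + 1 + 1) * m by ring, pow_mul, ← h8, ← pow_mul]; exact h9)
      exact h6 y hy
    obtain ⟨a, b, -, h5⟩ := exists_lt_two h2 h4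
    exact hI g ⟨.of_pow_eq_one h4 two_ne_zero, by
      rw [h5.lt_typ, lt_map_dual (by simp [Multiset.mem_replicate]; grind)]; simp⟩
  simp only [h2, false_and, false_or]
  replace h0 := h0.resolve_right h2
  have h3' : ¬ r ∣ Nat.card F := OP.not_dvd_card ⟨hrp, hrp.odd_of_ne_two h2, h0, rfl, rfl⟩
  have h3 : ¬ r ∣ q₀ := fun e => h3' (hσ.card ▸ e.trans (dvd_pow_self _ two_ne_zero))
  have h4 : r ∣ q₀ - 1 → padicValNat r (Nat.card F - 1) = padicValNat r (q₀ - 1) ∧ ∀ a : F, a ^ r = 1 → σ a = a :=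
    fun ⟨k, e⟩ => ⟨by
      rw [hσ.card_sub_one, padicValNat.mul (by omega) (by omega), add_eq_left, padicValNat.eq_zero_of_not_dvd]
      refine fun h => h2 ((Nat.prime_dvd_prime_iff_eq hrp Nat.prime_two).1 ?_)
      convert Nat.dvd_sub h ⟨k, e⟩
      omega, fun a ha => by rw [hσ.eq, show q₀ = r * k + 1 by omega, pow_succ, pow_mul, ha, one_pow, one_mul]⟩
  refine ⟨fun h => by_contra fun h5 => ?_, fun ⟨h5, h6, h7⟩ => ?_⟩
  swap
  · obtain ⟨h8, h9⟩ := h4 (dvd_of_one_le_padicValNat h7.ge)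
    refine elSL_symm hP h5 (by simpa) (h8.trans h7) fun g M h10 h11 h12 _ => hI g
      ⟨.of_pow_eq_one ((h10.lt_pow_eq_iff.2 h11).trans (one_smul F _)) hrp.ne_zero, ?_⟩
    rw [h10.lt_typ, lt_map_dual fun a ha e => by simpa [e, hrp.ne_zero] using h11 a ha]
    exact congrArg lt (.trans (Multiset.map_congr rfl fun a ha => congrArg Inv.inv (h9 a (h11 a ha))) h12)
  have h6 := mul_card_dvd_gq hΩ (K := UG hs.toSesq) fun x hx => iso_le_sim fun u v => hx v u
  have h7 := orderOf_le_of_dvd_card_GL hrp h3'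
    (card_GL_eq_gq (ι := Fin n) (F := F) ▸ (dvd_mul_right _ _).trans h6)
  have h8 : orderOf (q₀ : ZMod r) % 4 ≠ 2 := fun e => by
    refine (val_lt_of_dvd h6 (Nilp.gq_pos Finite.one_lt_card _).ne').ne ?_
    rw [hH.card_UG hσ, hσ.card, finrank_fintype_fun_eq_card, val_gu hq2 h2 h3 e]
  by_cases h1 : r ∣ Nat.card F - 1
  · have h9 : r ∣ q₀ - 1 := by
      rw [hσ.card, dvd_pow_sub_one_iff (by omega), Nat.dvd_prime Nat.prime_two] at h1
      rw [← pow_one q₀, dvd_pow_sub_one_iff (by omega), h1.resolve_right (by omega)]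
    exact not_elSL_of_dvd hs le_rfl hs.scalars_le h2 h1 (h4 h9).2 (Fintype.card_fin n) hn hgap ((h4 h9).1 ▸ h5) h
  obtain ⟨φ, hφ⟩ := exists_RF hrp h0
  obtain ⟨g, h9, h10, h11⟩ := h.exists_RF h1 (ν := {φ}) (by simpa) (by simp) (k := n - orderOf (Nat.card F : ZMod r))
    (by simp at h7 ⊢; omega)
  obtain ⟨x, -, h12, h13⟩ := h9.exists_iso hs le_rfl h1 h10
  have h14 := (hH.sd hσ (g := Lib.Orth.glEquiv _ F x) fun u v => h13 v u).2
  rw [Lib.Orth.coe_glEquiv, h12.typ_eq, h11] at h14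
  exact h8 ((hσ.rf_dual_eq_iff hφ hrp h2).1 (Multiset.singleton_inj.1 (map_dual_eq h14)))

end Cfsg.Agent.S5982
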