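import Cfsg.Statements.S5983
import Cfsg.Agent.Lib.GLC.IntoF

set_option autoImplicit false
open scoped MatrixGroups
open Cfsg

namespace Cfsg.Agent.S5983

open Lib.GLC Lib.Symp Lib.Asch Lib.Orth Polynomial Matrix Module LinearMap QuadraticMap

/-- Elements of prime order of PSp_n(q), q even, and the subgroups of orthogonal type. Here `T = Sp_{2d}(F)` for a field `F` of characteristic 2 with `q` elements (`d ≥ 2`, `(d, q) ≠ (2, 2)`), realised as the invertible matrices preserving the standard alternating form; `Q` is a non-degenerate quadratic form on `F^{2d}` whose polar form is that alternating form, and `H` is the subgroup of `T` preserving `Q` up to a scalar (equivalently preserving `Q`) — a subgroup of type O^±_{2d}(q) (maximality is not assumed); `Q` is of plus type when `F^{2d}` contains a `d`-dimensional subspace on which `Q` vanishes, of minus type otherwise. Ω is the set of cosets of `H` in `T`, so an element of `T` of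 prime order `r` (`x ∈ T` with `x^r` scalar, `x` not scalar) fixes a point of Ω exactly when some `T`-conjugate of `x` preserves `Q`. Let `r` be a prime dividing the index of `H`. Then every element of `T` of order `r` fixes a point of Ω if and only if `r = 2` and either `Q` is of plus type or `d` is odd. -/
theorem result {F : Type*} [Field F] [Fintype F] {p : ℕ} [Fact p.Prime] [CharP F p] {q : ℕ} (hq : Fintype.card F = q)
    (hp : p = 2) (d : ℕ) (hd : 2 ≤ d) (hT : (d, q) ≠ (2, 2)) (Q : (Fin d ⊕ Fin d → F) → F) (hQ : Cfsg.Geo.IsNondegenerateQuadraticForm Q)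
    (hQf : ∀ u v, QuadraticMap.polar Q u v = Cfsg.sympForm d F u v)
    (r : ℕ) [Fact r.Prime]
    (hΩ : r ∣ (Cfsg.Geo.quadSimilarityGroup Q).relIndex (Cfsg.spGL d F)) :
    (∀ x ∈ Cfsg.spGL d F, (∃ z : F, ((x ^ r : GL (Fin d ⊕ Fin d) F) : Matrix (Fin d ⊕ Fin d) (Fin d ⊕ Fin d) F) = z • (1 : Matrix (Fin d ⊕ Fin d) (Fin d ⊕ Fin d) F)) →
      (∀ z : F, (x : Matrix (Fin d ⊕ Fin d) (Fin d ⊕ Fin d) F) ≠ z • (1 : Matrix (Fin d ⊕ Fin d) (Fin d ⊕ Fin d) F)) →
      ∃ g ∈ Cfsg.spGL d F, g⁻¹ * x * g ∈ Cfsg.Geo.quadSimilarityGroup Q) ↔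
    (r = 2 ∧ (Cfsg.Geo.IsPlusTypeOn Q ⊤ ∨ Odd d)) := by
  classical
  have hr : r.Prime := Fact.out
  obtain ⟨Q, rfl, hN⟩ := exists_qf hQ
  have h2 : (2 : F) = 0 := by subst hp; exact CharP.cast_eq_zero F 2
  have hB : polarBilin Q = bil (Fin d) F := LinearMap.ext₂ fun u v => (hQf u v).trans (sympForm_eq_bil d u v)
  have hV : finrank F (Fin d ⊕ Fin d → F) = 2 * d := by simp [two_mul]
  haveI : Nonempty (Fin d) := ⟨⟨0, by omega⟩⟩
  have h0 : ∀ z : F, z * z = 1 → z = 1 := fun z hz => (mul_self_eq_one_iff.1 hz).elim id fun h => by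
    linear_combination h - h2
  have h1 : ∀ f, (∃ h ∈ Geo.quadSimilarityGroup Q, ISim (bil (Fin d) F) (toLin' h.1) (bil (Fin d) F) f) →
      SpE (bil (Fin d) F) f → ∃ g, OE Q g ∧ ISim (bil (Fin d) F) g (bil (Fin d) F) f := fun f ⟨x, ⟨c, hc⟩, h3⟩ hf => by
    obtain ⟨v, hv⟩ := exists_ne (0 : Fin d ⊕ Fin d → F)
    obtain ⟨u, hu⟩ := hN.exists_polar_ne hv
    have h4 := (polar_of_sim (toLin' x.1) hc v u).symm.trans ((hB ▸ h3.spE hf).inv v u)
    exact ⟨_, ⟨hN, fun v => (hc v).trans (by rw [(mul_eq_right₀ hu).1 h4, one_mul])⟩, h3⟩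
  have h3 : Geo.IsPlusTypeOn Q ⊤ ↔ qsg Q = 1 := by
    have e : (Q.restrict ⊤).Equivalent Q := ⟨⟨Submodule.topEquiv, fun _ => rfl⟩⟩
    rw [isPlusTypeOn_iff (Q := Q) (nd_restrict_iff_disjoint.2 (by rw [perp_top hN]; exact disjoint_bot_right))
      (by simp [two_mul]), qsg_congr e]
  rw [fmt_sp, h3]
  refine ⟨fun h => ?_, ?_⟩
  · by_cases h4 : r = 2
    · refine ⟨h4, or_iff_not_imp_right.2 fun h5 => ?_⟩
      obtain ⟨f, h6, h7, h8⟩ := exists_inv2_rank h2 (bil_isAlt (Fin d) F) (bil_nondegenerate _ F) (s := d) (A := True)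
        hV.ge (fun _ => Nat.not_odd_iff_even.1 h5) fun h => absurd trivial h
      obtain ⟨g, h9, h10⟩ := h1 f (h f h6.toSpE ⟨1, by rw [h4, one_smul]; exact LinearMap.ext h6.sq⟩ fun ⟨z, hz⟩ => by
        rw [hz, h0 z (hz ▸ h6.toSpE).mul_self, one_smul, sub_self, range_zero, finrank_bot] at h7
        omega) h6.toSpE
      refine Lag.qsg_eq hN (U := range (g - 1)) ⟨(h9.ts_range_iff h2).2 fun v => ?_, ?_⟩
      · obtain ⟨e, h11, h12⟩ := h10
        rw [hB, ← h11, h12, h8.2 trivial]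
      · rw [h10.sim.sub_one.finrank_range, h7, hV]
    have h5 : OP F r _ _ := ⟨hr, hr.odd_of_ne_two h4, fun e => h4 (by
      subst hp; exact ((Nat.prime_dvd_prime_iff_eq Fact.out hr).1 ((CharP.cast_eq_zero_iff F 2 r).1 e)).symm), rfl, rfl⟩
    have h6 := mul_card_dvd (K := (O Q).comap (glEquiv _ F).toMonoidHom) hΩ
      (fun x hx => ⟨1, fun v => (hx v).trans (one_mul _).symm⟩) fun x hx =>
        mem_spGL.2 (hB ▸ OE.spE ⟨hN, hx⟩ h2)
    rw [card_comap_glEquiv, card_spGL] at h6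
    obtain ⟨ν, h7, h8, h9, h10⟩ := h5.exists_of_lt hN (by simpa [two_mul, ← two_mul] using val_lt_of_dvd h6 (cS_pos d).ne')
    obtain ⟨f, h11, -, h12⟩ := exists_spE_RF (bil_isAlt (Fin d) F) (bil_nondegenerate _ F) h5.odd h7 h8 (k := 0)
      (by rw [h5.sum_eq h7, h9]; simp)
    have h13 := h12 ▸ blocks_typ f
    have h14 := pow_eq_one_RF h7 h13
    obtain ⟨g, h15, h16⟩ := h1 f (h f h11 ⟨1, by rwa [one_smul]⟩ (mt (eq_smul_iff_RF h5.odd h7 h8 h13).1 (by
      rintro rfl; simp at h9; omega))) h11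
    exact absurd (h5.qsg_eq h15 ((h16.sim.pow r).eq_one_iff.2 h14)
      (fpf_of_typ_RF h7 (by simpa [h16.sim.typ_eq] using h12)) h9.symm) h10
  rintro ⟨rfl, h4⟩ f hf ⟨z, hz⟩ -
  have h5 : Inv2 (bil (Fin d) F) f := ⟨hf, h2, fun v => by
    simpa [h0 z (hz ▸ hf.pow 2).mul_self, pow_two] using LinearMap.congr_fun hz v⟩
  obtain ⟨R, h6, h7, h8⟩ := h5.exists_oE (ε := qsg Q) fun h6 h7 => h4.resolve_right fun h8 => by
    have := h5.even_of_alt h6
    grind
  obtain ⟨g, h9⟩ := exists_qsim (equivalent_of_qsg h6.nd hN rfl h8) f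
  obtain ⟨x, rfl⟩ := (h9.oE h6).exists_iso
  exact ⟨x.1, ⟨1, fun v => (mem_isometryGroup.1 x.2 v).trans (one_mul _).symm⟩, by simpa only [hB, h7] using h9.symm.isim⟩

end Cfsg.Agent.S5983
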