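import Cfsg.Statements.S5984
import Cfsg.Agent.Lib.Unitary.ElusC
import Cfsg.Agent.Lib.Unitary.MaxPair

set_option autoImplicit false
open scoped MatrixGroups
open Cfsg

namespace Cfsg.Agent.S5984

open Cfsg.Lib.Unitary Cfsg.Lib.GLC Cfsg.Lib.Symp Polynomial Module

theorem relIndex_dvd {G : Type*} [Group G] [Finite G] (K N : Subgroup G) [N.Normal] :
    K.relIndex N ∣ K.index := by
  obtain ⟨w, hw⟩ := N.relIndex_dvd_index_of_normal K
  have h1 := Subgroup.relIndex_mul_index (inf_le_left : N ⊓ K ≤ N)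
  have h2 := Subgroup.relIndex_mul_index (inf_le_right : N ⊓ K ≤ K)
  rw [Subgroup.inf_relIndex_left, hw] at h1
  rw [Subgroup.inf_relIndex_right] at h2
  have h3 : N.relIndex K ≠ 0 := Subgroup.index_ne_zero_of_finite
  exact ⟨w, Nat.eq_of_mul_eq_mul_left (Nat.pos_of_ne_zero h3) (by rw [h2, ← h1]; ring)⟩

variable {F V : Type*} [Field F] [AddCommGroup V] [Module F V] {σ : F →+* F}
  {B : V →ₛₗ[σ] V →ₗ[F] F} {q : ℕ} [FiniteDimensional F V] (h : IsHerm σ B) (hσ : IsBar q σ)
  {D : Fin 2 → Submodule F V} (hc : IsCompl (D 0) (D 1)) (hD : ∀ i, D i ≤ perp B (D i))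
  {g : V ≃ₗ[F] V} (hg : g ∈ UG B)
include h hσ hc hD hg

theorem of_typ [Nontrivial V] {ν : Multiset F[X]} (hν : typ (g : End F V) = ν + ν.map (dual σ)) :
    ∃ a ∈ SUG B, a⁻¹ * g * a ∈ decStab D := by
  obtain ⟨X, Y, h1, h2, -, h3, h4, h5⟩ := h.exists_polar hσ hg hν
  obtain ⟨a, ha, h6, h7⟩ := h.exists_SUG_polar hσ finrank_pos hc (hD 0) (hD 1) h5 h3 h4
  have h8 := h.finrank_polar hc (hD 0) (hD 1)
  have h9 := h.finrank_polar h5 h3 h4
  have key : ∀ {W Z : Submodule F V}, W.map (a : V →ₗ[F] V) = Z → (∀ v ∈ Z, g v ∈ Z) →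
      ∀ v ∈ W, (a⁻¹ * g * a) v ∈ W := fun {W Z} e hZ v hv => by
    obtain ⟨w, hw, e⟩ := e.ge (hZ _ (e.le (Submodule.mem_map_of_mem hv)))
    simp only [LinearEquiv.coe_coe] at e
    simpa [← e] using hw
  exact ⟨a, ha, mem_decStab_of_forall (Fin.forall_fin_two.2
    ⟨key (map_eq_of_le h6 (by omega)) h1, key (map_eq_of_le h7 (by omega)) h2⟩)⟩

theorem not_conj [DecidableEq F[X]] {Q : F[X]} (h1 : dual σ Q = Q)
    (h2 : (typ (g : End F V)).count Q = 1) (h3 : (∃ r, Odd r ∧ ∃ z : F, (g : End F V) ^ r = z • 1) ∨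
      ∃ c : F, finrank F V < 2 * finrank F (LinearMap.ker ((g : End F V) - c • 1))) :
    ¬ ∃ a ∈ SUG B, a⁻¹ * g * a ∈ decStab D := by
  rintro ⟨a, ha, π, hπ⟩
  let E : Fin 2 → Submodule F V := fun i => (D i).map (a : V →ₗ[F] V)
  have h4 : ∀ i, ∀ v ∈ E i, g v ∈ E (π i) := by
    rintro i _ ⟨v, hv, rfl⟩
    exact ⟨_, hπ i ▸ Submodule.mem_map_of_mem hv, by simp⟩
  have h5 : IsCompl (E 0) (E 1) := (Submodule.orderIsoMapComap a).isCompl hc
  have h6 : ∀ i, E i ≤ perp B (E i) := fun i => (perp_map ha.1 _).symm ▸ Submodule.map_mono (hD i)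
  have h7 := h.finrank_polar h5 (h6 0) (h6 1)
  have hQ : Q ∈ typ (g : End F V) := Multiset.count_pos.1 (by omega)
  rcases (show π 0 = 0 ∧ π 1 = 1 ∨ π 0 = 1 ∧ π 1 = 0 by
    have := π.injective.ne (show (0 : Fin 2) ≠ 1 by decide); omega) with ⟨e0, e1⟩ | ⟨e0, e1⟩
  · obtain ⟨ν, h8⟩ := h.typ_of_polar hσ hg h5 (h6 0) (h6 1) (e0 ▸ h4 0 :) (e1 ▸ h4 1 :)
    rw [h8, Multiset.count_add, Multiset.count_map, Multiset.filter_congr (q := (Q = ·)) fun P hP => by
      have h9 : P ∈ typ (g : End F V) := h8 ▸ Multiset.mem_add.2 (.inl hP)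
      refine ⟨fun e => ?_, fun e => e ▸ h1.symm⟩
      rw [← h1, e, hσ.dual_dual (typ_pp _ P h9).monic ((h.sd hσ hg).coeff_ne h9)],
      ← Multiset.count_eq_card_filter_eq] at h2
    omega
  have h8 : ∀ v ∈ E 0, g v ∈ E 0 → v = 0 := fun v hv h8 => g.map_eq_zero_iff.1
    (Submodule.disjoint_def.1 h5.disjoint _ h8 (e0 ▸ h4 0 v hv))
  rcases h3 with ⟨_, ⟨k, rfl⟩, z, hz⟩ | ⟨c, h3⟩
  · have h9 : ∀ k : ℕ, ∀ v ∈ E 0, ((g : End F V) ^ (2 * k)) v ∈ E 0 := fun k => by
      induction k with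
      | zero => simp
      | succ k ih =>
        intro v hv
        rw [mul_add, pow_add]
        exact ih _ (e1 ▸ h4 1 _ (e0 ▸ h4 0 v hv))
    have h10 : E 0 = ⊥ := (Submodule.eq_bot_iff _).2 fun v hv => by
      have h10 := h8 _ (h9 k v hv) (by
        have := LinearMap.congr_fun hz v
        rw [pow_succ'] at this
        exact this.symm ▸ (E 0).smul_mem z hv)
      exact (map_eq_zero_iff _ (g.injective.iterate _ |>.comp (f := id) Function.injective_id |>
        fun H => by simpa [Module.End.coe_pow] using H)).1 h10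
    have := natDegree_le_of_mem (blocks_typ _) hQ
    have := (typ_pp _ Q hQ).natDegree_pos
    rw [h10, finrank_bot] at h7
    omega
  · have := Submodule.finrank_add_finrank_le_of_disjoint (s := E 0)
      (t := LinearMap.ker ((g : End F V) - c • (1 : End F V))) (Submodule.disjoint_def.2 fun v hv h9 =>
        h8 v hv ((sub_eq_zero.1 h9 : g v = c • v) ▸ (E 0).smul_mem c hv))
    omega

omit h hσ hc hD hg

/-- Elements of prime order of PSU_n(q) and the stabilizers of pairs of complementary totally singular subspaces. Here `T = PSU_n(q)` is realised through `SU_n(q)`, the matrices of determinant 1 over the field `F` with `q²` elements preserving the hermitian form `Σ uᵢ vᵢ^q`, with `n ≥ 4` even; `D` is a pair of complementary subspaces of dimension `n/2` on each of which the form vanishes identically, and `H` is the subgroup of `SU_n(q)` fixing or interchanging the two members — a subgroup of type GL_{n/2}(q²).2 (maximality is not assumed). Ω is the set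 of cosets of `H`, so an element of `T` of prime order `r` (`x ∈ SU_n(q)` with `x^r` scalar, `x` not scalar) fixes a point of Ω exactly when some `SU_n(q)`-conjugate of `x` lies in `H`. Let `r` be a prime dividing the index of `H`. Then every element of `T` of order `r` fixes a point of Ω if and only if `r = 2`, `q` is odd and `(q + 1)_2 ≤ (n)_2` (2-parts). -/
theorem result {F : Type*} [Field F] [Fintype F] {p : ℕ} [Fact p.Prime] [CharP F p] {q : ℕ} (hq : Fintype.card F = q ^ 2)
    (n : ℕ) (hn : 4 ≤ n) (he : Even n) (D : Fin 2 → Submodule F (Fin n → F)) (hD : Cfsg.Geo.IsMDecomposition (n / 2) D)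
    (hDs : ∀ i, Cfsg.Geo.IsTotallySingularFor (Cfsg.hermForm n F q) (D i))
    (r : ℕ) [Fact r.Prime]
    (hΩ : r ∣ (Cfsg.Geo.decompositionStabilizer D).relIndex (Cfsg.GU n F q ⊓ Cfsg.Geo.specialLinear (Fin n) F)) :
    (∀ x ∈ Cfsg.GU n F q ⊓ Cfsg.Geo.specialLinear (Fin n) F, (∃ z : F, ((x ^ r : GL (Fin n) F) : Matrix (Fin n) (Fin n) F) = z • (1 : Matrix (Fin n) (Fin n) F)) →
      (∀ z : F, (x : Matrix (Fin n) (Fin n) F) ≠ z • (1 : Matrix (Fin n) (Fin n) F)) →
      ∃ g ∈ Cfsg.GU n F q ⊓ Cfsg.Geo.specialLinear (Fin n) F, g⁻¹ * x * g ∈ Cfsg.Geo.decompositionStabilizer D) ↔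
    (r = 2 ∧ Odd q ∧ padicValNat 2 (q + 1) ≤ padicValNat 2 n) := by
  classical
  obtain ⟨σ, hσ⟩ := exists_isBar hq
  have h := hσ.isHerm (ι := Fin n)
  have hV : finrank F (Fin n → F) = n := by simp
  have hr : r.Prime := Fact.out
  haveI : Nonempty (Fin n) := ⟨⟨0, by omega⟩⟩
  have h1 := fun i => hσ.le_perp_of_singular (hDs i)
  have hc : IsCompl (D 0) (D 1) := ⟨hD.indep.pairwiseDisjoint (by decide), codisjoint_iff_le_sup.mpr (by
    rw [← hD.iSup_eq_top]
    exact iSup_le (Fin.forall_fin_two.mpr ⟨le_sup_left, le_sup_right⟩))⟩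
  have h2 : ∀ x : GL (Fin n) F, (∃ g ∈ GU n F q ⊓ Geo.specialLinear (Fin n) F,
      g⁻¹ * x * g ∈ Geo.decompositionStabilizer D) ↔
      ∃ a ∈ SUG (stdForm σ (Fin n)), a⁻¹ * glEquiv _ F x * a ∈ decStab D := fun x => by
    rw [(glEquiv (Fin n) F).surjective.exists]
    simp only [mem_decompositionStabilizer_iff, hσ.glEquiv_mem_SUG, map_mul, map_inv]
    rfl
  simp only [h2]
  clear h2
  refine (hσ.forall_gu_iff (P := fun g => ∃ a ∈ SUG (stdForm σ (Fin n)),
    a⁻¹ * g * a ∈ decStab D)).trans ⟨fun H => ?_, fun ⟨hr2, h3, h4⟩ => ?_⟩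
  · have hrp : r ≠ p := by
      rintro rfl
      have := hr.two_le
      obtain ⟨g, hg, -, h3, h4⟩ := h.of_jt hσ r H (d := 2 ::ₘ .replicate (n - 2) 1)
        (by simp +contextual [Multiset.mem_replicate]; omega) (by simp; omega) (by simp)
      have h5 : ((X - C 1) ^ 2 : F[X]) ≠ (X - C 1) ^ 1 := fun e => by
        simpa [-map_one] using congrArg natDegree e
      refine not_conj h hσ hc h1 hg (Q := (X - C 1) ^ 2) (by rw [map_pow, dual_X_sub_one]) ?_
        (.inr ⟨1, ?_⟩) h4
      · rw [h3, jt, Multiset.map_cons, Multiset.map_replicate, Multiset.count_cons_self,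
          Multiset.count_replicate, if_neg h5.symm]
      · rw [(h3 ▸ blocks_typ (g : End F (Fin n → F)) :).jt_finrank_ker_one
          (by simp +contextual [Multiset.mem_replicate])]
        simp; omega
    have hr0 := natCast_ne_zero_of_ne (F := F) hr hrp
    rcases eq_or_ne r 2 with rfl | hr2
    · have h2 : (2 : F) ≠ 0 := by exact_mod_cast hr0
      refine ⟨rfl, hσ.odd_iff.2 h2, by_contra fun h3 => ?_⟩
      obtain ⟨s, hs, h4⟩ := (hσ.exists_pow_eq_neg_one h2 (show n ≠ 0 by omega)).2 (by omega)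
      obtain ⟨k, rfl⟩ : ∃ k, n = 2 * k + 1 + 1 := ⟨n / 2 - 1, by have := Nat.even_iff.1 he; omega⟩
      have h6 : s ≠ -s := fun h => left_ne_zero_of_mul_eq_one hs
        ((mul_eq_zero.1 (show 2 * s = 0 by linear_combination h)).resolve_left h2)
      have h7 : ∀ a ∈ -s ::ₘ .replicate (2 * k + 1) s, a * σ a = 1 := by
        simp +contextual [Multiset.mem_replicate, hs]
      obtain ⟨g, hg, -, h8, h9⟩ := h.of_lt hσ H (fun a ha => left_ne_zero_of_mul_eq_one (h7 a ha))
        (map_dual_lt h7) (by simp) (by simp; linear_combination -h4) (z := s ^ 2)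
        (by simp +contextual [Multiset.mem_replicate]) (a := s) (b := -s) (by simp) (by simp) h6
      have h10 : (X - C s : F[X]) ≠ X - C (-s) := fun e => h6 (C_injective (sub_right_injective e))
      refine not_conj h hσ hc h1 hg (Q := X - C (-s)) (dual_X_sub_C_of_norm (h7 _ (by simp))) ?_
        (.inr ⟨s, ?_⟩) h9
      · rw [h8, lt, Multiset.map_cons, Multiset.map_replicate, Multiset.count_cons_self,
          Multiset.count_replicate, if_neg h10]
      · have := (h8 ▸ blocks_typ (g : End F (Fin (2 * k + 1 + 1) → F)) :).kd_eq (X - C s)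
        rw [lt, Multiset.map_cons, Multiset.map_cons, Multiset.map_replicate, Multiset.map_replicate,
          kd_cyc_of_dvd (monic_X_sub_C s).ne_zero dvd_rfl, kd, ← pow_one (X - C s), aeval_X_sub_C_pow,
          pow_one] at this
        simp at this ⊢
        omega
    obtain ⟨i, b, c, u⟩ : ∃ i b c, UP σ q r i b c := ⟨_, _, _, hσ, hr, hr2, hr0, rfl, rfl, rfl⟩
    obtain ⟨e, h3⟩ := h.relIndex_polar_dvd hσ hc (h1 0) (h1 1) (hD.finrank_eq 0)
    have h4 : r ∣ (subStab (D 0) ⊓ subStab (D 1)).relIndex (UG (stdForm σ (Fin n))) := by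
      have := finite_linearEquiv (F := F) (V := Fin n → F)
      have h4 : Geo.decompositionStabilizer D = (decStab D).comap (glEquiv (Fin n) F).toMonoidHom :=
        Subgroup.ext mem_decompositionStabilizer_iff
      have h5 : GU n F q ⊓ Geo.specialLinear (Fin n) F =
          (SUG (stdForm σ (Fin n))).comap (glEquiv (Fin n) F).toMonoidHom :=
        Subgroup.ext fun _ => hσ.glEquiv_mem_SUG.symm
      rw [h4, h5, Subgroup.relIndex_comap, Subgroup.map_comap_eq_self_of_surjective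
        (glEquiv (Fin n) F).surjective] at hΩ
      refine hΩ.trans ((Subgroup.relIndex_dvd_of_le_left (H := subStab (D 0) ⊓ subStab (D 1)) _
        fun a ha => mem_decStab_of_forall (Fin.forall_fin_two.2 ⟨fun v => (ha.1 v).1,
          fun v => (ha.2 v).1⟩)).trans ?_)
      haveI : ((SUG (stdForm σ (Fin n))).subgroupOf (UG (stdForm σ (Fin n)))).Normal :=
        ⟨fun a ha g => conj_mem_SUG g.2 ha⟩
      rw [← Subgroup.relIndex_subgroupOf SUG_le_UG]
      exact relIndex_dvd _ _
    obtain ⟨j, h5, h6⟩ := (hr.prime.dvd_finsetProd_iff _).1 ((hr.dvd_mul.1 (h4.trans h3)).resolve_left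
      fun h1 => u.not_dvd (hr.dvd_of_dvd_pow h1))
    obtain ⟨h7, h8⟩ := u.of_dvd_add (odd_two_mul_add_one j) h6
    have h9 := Nat.le_of_dvd (by omega) h8
    have h10 := Finset.mem_range.1 h5
    exfalso
    rcases eq_or_ne i 2 with h11 | h11
    · obtain ⟨T, h12, h13, h14, g, hg, -, h15, h16, h17⟩ := u.of_two h H h11 (t := 2) (k := n - 2)
        le_rfl hr.two_le (by omega)
      obtain ⟨a, ha, h18⟩ : ∃ a ∈ T, a ≠ 1 := by
        by_contra! h18
        have := Multiset.nodup_iff_count_le_one.1 h12 1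
        rw [Multiset.eq_replicate_of_mem h18, h13] at this
        simp at this
      refine not_conj h hσ hc h1 hg (Q := X - C a) (dual_X_sub_C_of_norm (h14 a ha)) ?_
        (.inl ⟨r, hr.odd_of_ne_two hr2, h15⟩) h17
      rw [h16, lt, Multiset.count_map_eq_count' _ _ fun _ _ e => C_injective (sub_right_injective e),
        Multiset.count_add, Multiset.count_replicate, if_neg h18.symm,
        Multiset.count_eq_one_of_mem h12 ha]
    · obtain ⟨φ, hφ⟩ := u.exists_rf
      obtain ⟨g, hg, -, h12, h13, h14⟩ := u.of_rf h H h11 (ν := {φ}) (by simpa)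
        (u.map_dual h7 (by simpa)) (by simp) (k := n - b) (by rw [hV]; simp; omega)
      refine not_conj h hσ hc h1 hg ((u.dual_eq_iff hφ).2 h7) ?_
        (.inl ⟨r, hr.odd_of_ne_two hr2, h12⟩) h14
      rw [h13, Multiset.count_add, Multiset.count_replicate, if_neg hφ.2.2.2.symm]
      simp
  subst hr2
  have h5 := hσ.odd_iff.1 h3
  refine h.elSU_of hσ (fun g c ⟨a, ha, π, hπ⟩ => ⟨a, ha, π, fun i => (hπ i).symm ▸ ?_⟩)
    (fun g hg h6 _ ⟨s, hs, h7⟩ => ?_) fun g hg z hz h6 h7 => ?_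
  · rw [← mul_assoc, scal_commute, mul_assoc, mul_assoc, ← mul_assoc a⁻¹]
    exact Submodule.map_smul _ _ (c : F) c.ne_zero
  · obtain ⟨k, l, h8, h9⟩ := typ_of_sq h5 one_ne_zero (f := (g : End F (Fin n → F)))
      (by rwa [one_pow, one_smul])
    obtain ⟨l, rfl⟩ : Even l := by
      by_contra h10
      refine h4.not_gt ((hσ.exists_pow_eq_neg_one h5 (show n ≠ 0 by omega)).1 ⟨s, hs, ?_⟩)
      simp only [h9.lt_det, hV, Multiset.prod_add, Multiset.prod_replicate,
        (Nat.not_even_iff_odd.1 h10).neg_one_pow] at h7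
      linear_combination -h7
    obtain ⟨k, rfl⟩ : Even k := by rw [Nat.even_iff] at *; omega
    refine of_typ h hσ hc h1 hg (ν := lt (.replicate k 1 + .replicate l (-1))) ?_
    rw [map_dual_lt (by simp +contextual [Multiset.mem_replicate, or_imp]), ← lt_add, h9.lt_typ,
      add_add_add_comm, ← Multiset.replicate_add, ← Multiset.replicate_add]
  · obtain ⟨s, k, h8, -, -, h9⟩ := h.typ_of_nonsq hσ h5 hg.1 hz h6 h7
    refine of_typ h hσ hc h1 hg.1 (ν := .replicate k (X - C s)) ?_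
    rw [Multiset.map_replicate, (hσ.dual_of_norm_neg h5 h8).1, h9]

end Cfsg.Agent.S5984
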