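import Cfsg.Statements.S5993
import Cfsg.Agent.Lib.Orth.Elus4

set_option autoImplicit false
open scoped MatrixGroups
open Cfsg

namespace Cfsg.Agent.S5993

/-- Elements of prime order of Ω_n(q), nq odd, with no fixed elliptic `m`-space. Here `T = Ω_n(F)`, `n = 2d+1 ≥ 7`, `q` odd, realised as the commutator subgroup of the isometry group of `Q = x₀² + Σ xᵢyᵢ` over the field `F` with `q` elements (trivial centre, so its elements of prime order `r` are used directly); a nondegenerate `m`-space (even `m`) is a subspace on which the polar form of `Q` is nondegenerate; it is hyperbolic if it contains an `m/2`-dimensional subspace on which `Q` vanishes, elliptic otherwise. Let `m` be even with `2 ≤ m ≤ n − 1` (no restriction `m < n/2`) and let `r` be a prime dividing the number of elliptic `m`-spaces; for `r ≠ p` let `i` be the multiplicative order of `q` modulo `r`, `c = i` for `i` even and `c = 2i` for `i` odd, and write `k = n mod c`, `ℓ'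 = m mod c`. Then every element of `T` of order `r` fixes some elliptic `m`-space if and only if `r = 2`, or `r ≠ p` is odd and one of: (i) `i` odd, `c ≤ m` and `k > ℓ' > 0`; (ii) `i` even, `i ≤ m`, `k > ℓ'`, and `m/i` odd whenever `ℓ' = 0`. (For `r = p` there is always an element of order `p` fixing no elliptic `m`-space.) -/
theorem result {F : Type*} [Field F] [Fintype F] {p : ℕ} [Fact p.Prime] [CharP F p] {q : ℕ} (hq : Fintype.card F = q) (hqodd : Odd q)
    (d m : ℕ) (hd : 3 ≤ d) (hm : 2 ≤ m) (hme : Even m) (hmn : m ≤ 2 * d)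
    (r : ℕ) [Fact r.Prime]
    (hrΩ : r ∣ Nat.card {W : Submodule F (Unit ⊕ (Fin d ⊕ Fin d) → F) // Module.finrank F ↥W = m ∧ Cfsg.Geo.IsNondegenerateOn (QuadraticMap.polar (Cfsg.quadFormOdd d F)) W ∧ ¬ Cfsg.Geo.IsPlusTypeOn (Cfsg.quadFormOdd d F) W})
    (i c : ℕ) (hi : i = orderOf (q : ZMod r)) (hc : c = if Even i then i else 2 * i) :
    (∀ x : GL (Unit ⊕ (Fin d ⊕ Fin d)) F, x ∈ Cfsg.Geo.omegaGL (Cfsg.quadFormOdd d F) → orderOf x = r →
      ∃ W : Submodule F (Unit ⊕ (Fin d ⊕ Fin d) → F), (Module.finrank F ↥W = m ∧ Cfsg.Geo.IsNondegenerateOn (QuadraticMap.polar (Cfsg.quadFormOdd d F)) W ∧ ¬ Cfsg.Geo.IsPlusTypeOn (Cfsg.quadFormOdd d F) W) ∧ W.map (Matrix.toLin' (x : Matrix (Unit ⊕ (Fin d ⊕ Fin d)) (Unit ⊕ (Fin d ⊕ Fin d)) F)) ≤ W) ↔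
    (r = 2 ∨
     (r ≠ p ∧ 2 < r ∧ Odd i ∧ c ≤ m ∧ 0 < m % c ∧ m % c < (2 * d + 1) % c) ∨
     (r ≠ p ∧ 2 < r ∧ Even i ∧ i ≤ m ∧ m % c < (2 * d + 1) % c ∧ (0 < m % c ∨ Odd (m / i)))) := by
  open Cfsg.Lib.Orth Cfsg.Lib.Symp Cfsg.Lib.GLC Polynomial Matrix Module in
  simp only [← coe_qOdd, minus_iff hme, invND_iff] at hrΩ ⊢
  have hQ := nd_qOdd (two_ne_zero_of_odd_card (hq ▸ hqodd)) d
  have h4 := Nat.even_iff.1 hme
  have h7 := Nat.odd_iff.1 hqodd
  have h9 : ∀ e, 2 * d + 1 ≠ 2 * e := by omega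
  have hV := finrank_qOdd (F := F) d
  refine (forall_omega_order_iff hQ (by simp; omega) (by simp [← two_mul, add_comm])
    (P := (InvND (qOdd d F) · m (-1)))).trans (el_nd_iff hq hQ hV (by omega) (by omega) (by omega)
    (by grind) Fact.out hrΩ hi hc rfl (by omega) (fun h1 h2 h3 => by simp [h1, h9]) (fun h1 h2 h3 => ?_)
    fun h1 h2 h3 h5 δ _ => ?_)
  · refine iff_of_false (fun H => ?_) (by simp [h2, (h2 ▸ h1).ne'])
    obtain ⟨k, rfl | rfl⟩ := d.even_or_odd'
    · obtain ⟨_, _, _, _, _, _, h5, -⟩ := H.three hQ h3 1 0 k (by omega) (by omega) (by omega)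
      simp at h5; omega
    · obtain ⟨_, _, _, _, _, _, h5, -⟩ := H.three hQ h3 0 1 k (by omega) (by omega) (by omega)
      simp at h5; omega
  have h8 : (2 * d + 1) % c ≠ 0 ∧ m % c ≠ (2 * d + 1) % c := by omega
  rcases h3 with ⟨e, rfl⟩ | ⟨e, -⟩ <;> simp [e, h8, h1, h2, h1.ne', Nat.even_iff, Nat.odd_iff] <;> omega

end Cfsg.Agent.S5993
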