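import Cfsg.Statements.S5997
import Cfsg.Agent.Lib.PSL2.Trace
import Cfsg.Agent.Lib.CharDeg.PSL2Prod
import Cfsg.Agent.S3742

set_option autoImplicit false
open scoped MatrixGroups
open Cfsg

namespace Cfsg.Agent.S5997

open Cfsg.Lib.GLTwo hiding sl_mul_apply
open Cfsg.Lib.PSL2 Matrix
open scoped MatrixGroups

variable {F : Type*} [Field F]

theorem tg_inj : Function.Injective (tg : SL(2, F) →* GL (Fin 2) F) := SpecialLinearGroup.toGL_injective

theorem mem_sl {x : GL (Fin 2) F} : x ∈ Cfsg.Geo.specialLinear (Fin 2) F ↔ ∃ s : SL(2, F), tg s = x := by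
  constructor
  · intro h
    have h1 : (x : Matrix (Fin 2) (Fin 2) F).det = 1 := by
      have := congrArg Units.val (MonoidHom.mem_ker.1 h)
      simpa using this
    exact ⟨⟨x, h1⟩, Units.ext rfl⟩
  · rintro ⟨s, rfl⟩
    exact MonoidHom.mem_ker.2 (Units.ext (by simp))

theorem exists_gens (h2 : (2 : F) ≠ 0) {R : Subgroup (GL (Fin 2) F)} (e : R ≃* QuaternionGroup 2) :
    ∃ i j : SL(2, F), trS i = 0 ∧ trS j = 0 ∧ i * j = -(j * i) ∧
      R = (Subgroup.zpowers i ⊔ Subgroup.zpowers j).map tg := by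
  obtain ⟨a, b, h1, h3, h4, h5, h6⟩ := Cfsg.Lib.PGroup.exists_generators_of_mulEquiv_quaternion e
  have a4 : a ^ 4 = 1 := by have := pow_orderOf_eq_one a; rwa [h1] at this
  have a2 : a ^ 2 ≠ 1 := pow_ne_one_of_lt_orderOf (by norm_num) (by rw [h1]; norm_num)
  let d : R →* Fˣ := GeneralLinearGroup.det.comp R.subtype
  have d2 : d (a ^ 2) = 1 := by
    have := congrArg d h4
    rw [map_mul, map_mul, map_inv, map_inv, mul_comm (d b), mul_inv_cancel_right, eq_inv_iff_mul_eq_one] at this
    rw [map_pow, sq, this]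
  obtain ⟨z, hz⟩ := mem_sl.1 (show ((a ^ 2 : R) : GL (Fin 2) F) ∈ _ from MonoidHom.mem_ker.2 d2)
  have z1 : z = -1 := by
    refine (eq_one_or_neg_one_of_mul_self h2 (tg_inj ?_)).resolve_left fun h => a2 (Subtype.ext ?_)
    · rw [map_mul, hz, map_one, ← Subgroup.coe_mul, ← pow_add, a4]; rfl
    · rw [← hz, h, map_one]; rfl
  have ab : a * b ≠ b * a := fun h => a2 (by
    rw [← h, mul_inv_cancel_right, eq_inv_iff_mul_eq_one] at h4
    rw [sq, h4])
  have key : ∀ c c' : R, c ^ 2 = a ^ 2 → c * c' ≠ c' * c →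
      ∃ s : SL(2, F), tg s = c ∧ trS s = 0 := by
    intro c c' hc hcc
    have m1 : ((c : GL (Fin 2) F) : Matrix (Fin 2) (Fin 2) F) * (c : GL (Fin 2) F) = -1 := by
      have := congrArg (fun x : GL (Fin 2) F => (x : Matrix (Fin 2) (Fin 2) F)) hz
      rw [← hc, z1, sq] at this
      simpa using this.symm
    have hd : ((c : GL (Fin 2) F) : Matrix (Fin 2) (Fin 2) F).det = 1 := by
      by_contra hd
      refine hcc (Subtype.ext (Units.ext ?_))
      simp only [Subgroup.coe_mul, Units.val_mul]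
      set A := ((c : GL (Fin 2) F) : Matrix (Fin 2) (Fin 2) F)
      have b1 := congrFun (congrFun m1 0) 0
      have b2 := congrFun (congrFun m1 0) 1
      have b3 := congrFun (congrFun m1 1) 0
      have b4 := congrFun (congrFun m1 1) 1
      simp [Matrix.mul_apply, Fin.sum_univ_two] at b1 b2 b3 b4
      rw [det_fin_two] at hd
      have t : A 0 0 + A 1 1 ≠ 0 := fun t => hd (by linear_combination A 0 0 * t - b1)
      have c1 : A 0 1 = 0 := mul_right_cancel₀ t (by linear_combination b2)
      have c2 : A 1 0 = 0 := mul_right_cancel₀ t (by linear_combination b3)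
      have c3 : A 0 0 = A 1 1 := mul_right_cancel₀ t (by linear_combination b1 - b4)
      ext u v
      fin_cases u <;> fin_cases v <;> simp [Matrix.mul_apply, Fin.sum_univ_two, c1, c2, c3, mul_comm]
    exact ⟨⟨_, hd⟩, Units.ext rfl, trS_of_mul_self (Subtype.ext m1)⟩
  obtain ⟨i, hi, ti⟩ := key a b rfl ab
  obtain ⟨j, hj, tj⟩ := key b a h3 ab.symm
  refine ⟨i, j, ti, tj, ?_, ?_⟩
  · have : j * i * j⁻¹ = i⁻¹ := tg_inj (by
      rw [map_mul, map_mul, map_inv, map_inv, hi, hj]; exact congrArg Subtype.val h4)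
    rw [inv_of_trS ti, mul_inv_eq_iff_eq_mul] at this
    rw [this, neg_mul, neg_neg]
  · rw [Subgroup.map_sup, MonoidHom.map_zpowers, MonoidHom.map_zpowers, hi, hj]
    have := congrArg (Subgroup.map R.subtype) h6
    rw [Subgroup.map_sup, MonoidHom.map_zpowers, MonoidHom.map_zpowers, ← MonoidHom.range_eq_map,
      Subgroup.range_subtype] at this
    exact this.symm

theorem exists_omega (h2 : (2 : F) ≠ 0) {i j : SL(2, F)} (ti : trS i = 0) (tj : trS j = 0)
    (hij : i * j = -(j * i)) : ∃ w : SL(2, F), trS w = -1 ∧ w * i = i * j * w ∧ w * j = i * w := by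
  have d1 := sl_det i
  have d2 := sl_det j
  have a1 := congrArg (fun x : SL(2, F) => x 0 0) hij
  simp only [sl_mul_apply, sl_neg_apply] at a1
  unfold trS at ti tj
  have e1 : i 1 1 = -i 0 0 := by linear_combination ti
  have e2 : j 1 1 = -j 0 0 := by linear_combination tj
  refine ⟨sl2 (2⁻¹ * (-1 + i 0 0 + j 0 0 + (i * j) 0 0)) (2⁻¹ * (i 0 1 + j 0 1 + (i * j) 0 1))
    (2⁻¹ * (i 1 0 + j 1 0 + (i * j) 1 0)) (2⁻¹ * (-1 + i 1 1 + j 1 1 + (i * j) 1 1)) ?_, ?_, ?_, ?_⟩
  · simp only [sl_mul_apply]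
    field_simp
    grind
  · simp only [trS, sl2, sl_mul_apply]
    simp
    field_simp
    grind
  · refine sl_ext ?_ ?_ ?_ ?_ <;> simp only [sl_mul_apply, sl2_coe] <;> simp <;> field_simp <;> grind
  · refine sl_ext ?_ ?_ ?_ ?_ <;> simp only [sl_mul_apply, sl2_coe] <;> simp <;> field_simp <;> grind

/-- Elements of prime order of PSL_2(p) and the normalizer of a quaternion subgroup. Here `T = PSL_2(F)` for the field `F` with `p` elements, `p ≥ 5` prime; `R` is a subgroup of GL_2(F) isomorphic to the quaternion group of order 8 (an absolutely irreducible 2-group of symplectic type), and `H` is the subgroup of matrices of determinant 1 normalizing `R` — a subgroup of type 2^{1+2}.O₂⁻(2), isomorphic modulo scalars to A₄ or S₄ (maximality is not assumed). Ω is the set of cosets of `H` in `T`, so an element of `T` of prime order `r` (a matrix `x` of determinant 1 with `x^r` scalar, `x` not scalar) fixes a point of Ω exactly when some conjugate of `x` by a matrix of determinant 1 normalizes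 `R`. Let `r` be a prime dividing the index of `H`. Then every element of `T` of order `r` fixes a point of Ω if and only if `r = 2` or `r = 3`. -/
theorem result {F : Type*} [Field F] [Fintype F] {p : ℕ} [Fact p.Prime] [CharP F p] (hF : Fintype.card F = p) (hp : 5 ≤ p)
    (R : Subgroup (GL (Fin 2) F)) (hR : Nonempty (↥R ≃* QuaternionGroup 2))
    (r : ℕ) [Fact r.Prime]
    (hΩ : r ∣ (Cfsg.Geo.subgroupNormalizer R).relIndex (Cfsg.Geo.specialLinear (Fin 2) F)) :
    (∀ x ∈ Cfsg.Geo.specialLinear (Fin 2) F, (∃ z : F, ((x ^ r : GL (Fin 2) F) : Matrix (Fin 2) (Fin 2) F) = z • (1 : Matrix (Fin 2) (Fin 2) F)) →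
      (∀ z : F, (x : Matrix (Fin 2) (Fin 2) F) ≠ z • (1 : Matrix (Fin 2) (Fin 2) F)) →
      ∃ g ∈ Cfsg.Geo.specialLinear (Fin 2) F, g⁻¹ * x * g ∈ Cfsg.Geo.subgroupNormalizer R) ↔ (r = 2 ∨ r = 3) := by
  classical
  have pp : p.Prime := Fact.out
  have pr : r.Prime := Fact.out
  have nz : ∀ n : ℕ, 0 < n → n < 5 → (n : F) ≠ 0 := fun n h0 h5 h =>
    absurd (Nat.le_of_dvd h0 ((CharP.cast_eq_zero_iff F p n).1 h)) (by omega)
  have h2 : (2 : F) ≠ 0 := by exact_mod_cast nz 2 (by norm_num) (by norm_num)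
  have h3 : (3 : F) ≠ 0 := by exact_mod_cast nz 3 (by norm_num) (by norm_num)
  obtain ⟨e⟩ := hR
  obtain ⟨i, j, ti, tj, hij, hQ⟩ := exists_gens h2 e
  have mi : tg i ∈ R := hQ ▸ Subgroup.mem_map_of_mem _ (Subgroup.mem_sup_left (Subgroup.mem_zpowers i))
  have mj : tg j ∈ R := hQ ▸ Subgroup.mem_map_of_mem _ (Subgroup.mem_sup_right (Subgroup.mem_zpowers j))
  haveI : Finite R := Finite.of_equiv _ e.symm.toEquiv
  constructor
  · intro h
    by_contra hr
    push Not at hr
    have h1 : r ∣ Nat.card (Cfsg.Geo.specialLinear (Fin 2) F) :=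
      hΩ.trans (Subgroup.relIndex_dvd_card _ _)
    obtain ⟨x, hx, ox⟩ := Cfsg.Lib.Small.exists_mem_orderOf_eq_prime pr h1
    obtain ⟨s, rfl⟩ := mem_sl.1 hx
    have os : orderOf s = r := by rw [← ox, orderOf_injective tg tg_inj]
    have nc : ∀ t : SL(2, F), orderOf t = r → t ≠ 1 ∧ t ≠ -1 := fun t ht => by
      constructor
      · rintro rfl; rw [orderOf_one] at ht; exact pr.one_lt.ne ht
      · rintro rfl; rw [orderOf_neg_one_sl h2] at ht; exact hr.1 ht.symm
    obtain ⟨g, hg, hn⟩ := h _ hx ⟨1, by rw [← ox, pow_orderOf_eq_one]; simp⟩ (fun z hz => by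
      have hc : s ∈ Subgroup.center SL(2, F) := by
        rw [Subgroup.mem_center_iff]
        intro u
        refine Subtype.ext ?_
        rw [tg_coe] at hz
        simp [hz]
      exact (mem_center_SL2_iff.1 hc).elim (nc s os).1 (nc s os).2)
    obtain ⟨g, rfl⟩ := mem_sl.1 hg
    rw [← map_inv, ← map_mul, ← map_mul] at hn
    set y := g⁻¹ * s * g with hy
    have oy : orderOf y = r := by
      rw [← os]; exact (Cfsg.Lib.Small.orderOf_eq_of_isConj (isConj_iff.2 ⟨g⁻¹, by simp [hy]⟩)).symm
    let φ := Subgroup.normalizerMonoidHom R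
    have c24 : Nat.card (MulAut R) = 24 := by
      obtain ⟨e'⟩ := S3742.result
      rw [Nat.card_congr ((MulAut.congr e).trans e').toEquiv, Nat.card_perm]; simp [Nat.factorial]
    have k1 : φ ⟨tg y, hn⟩ = 1 := by
      rw [← orderOf_eq_one_iff]
      have a1 : orderOf (φ ⟨tg y, hn⟩) ∣ r := by
        refine (orderOf_map_dvd φ _).trans ?_
        rw [← Subgroup.orderOf_coe, orderOf_injective tg tg_inj, oy]
      have a2 : orderOf (φ ⟨tg y, hn⟩) ∣ 24 := c24 ▸ orderOf_dvd_natCard _
      rcases (Nat.dvd_prime pr).1 a1 with a | a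
      · exact a
      · rw [a, show 24 = 2 ^ 3 * 3 by norm_num] at a2
        rcases pr.dvd_mul.1 a2 with a2 | a2
        · exact absurd ((Nat.prime_dvd_prime_iff_eq pr Nat.prime_two).1 (pr.dvd_of_dvd_pow a2)) hr.1
        · exact absurd ((Nat.prime_dvd_prime_iff_eq pr Nat.prime_three).1 a2) hr.2
    have k2 : tg y ∈ Subgroup.centralizer (R : Set (GL (Fin 2) F)) := by
      have := MonoidHom.mem_ker.2 k1
      rw [Subgroup.normalizerMonoidHom_ker] at this
      exact this
    have c1 : i * y = y * i := tg_inj (by simpa using k2 _ mi)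
    have c2 : j * y = y * j := tg_inj (by simpa using k2 _ mj)
    have hc : y = 1 ∨ y = -1 := by
      have d1 := sl_det i
      have d2 := sl_det j
      have d3 := sl_det y
      have a1 := congrArg (fun x : SL(2, F) => x 0 0) hij
      have b1 := congrArg (fun x : SL(2, F) => x 0 0) c1
      have b2 := congrArg (fun x : SL(2, F) => x 0 1) c1
      have b3 := congrArg (fun x : SL(2, F) => x 1 0) c1
      have b4 := congrArg (fun x : SL(2, F) => x 0 0) c2
      have b5 := congrArg (fun x : SL(2, F) => x 0 1) c2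
      have b6 := congrArg (fun x : SL(2, F) => x 1 0) c2
      simp only [sl_mul_apply, sl_neg_apply] at a1 b1 b2 b3 b4 b5 b6
      unfold trS at ti tj
      have f1 : y 0 1 = 0 := by grind
      have f2 : y 1 0 = 0 := by grind
      have f3 : y 0 0 = y 1 1 := by grind
      refine eq_one_or_neg_one_of_mul_self h2 (sl_ext ?_ ?_ ?_ ?_) <;>
        simp only [sl_mul_apply, sl_one_apply] <;> grind
    exact hc.elim (nc y oy).1 (nc y oy).2
  · intro hr x hx ⟨z, hz⟩ hns
    obtain ⟨s, rfl⟩ := mem_sl.1 hx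
    rw [← map_pow, tg_coe] at hz
    have hc : s ^ r = 1 ∨ s ^ r = -1 := by
      refine mem_center_SL2_iff.1 (Subgroup.mem_center_iff.2 fun u => Subtype.ext ?_)
      change (u : Matrix (Fin 2) (Fin 2) F) * (s ^ r : SL(2, F)) = (s ^ r : SL(2, F)) * (u : Matrix (Fin 2) (Fin 2) F)
      rw [hz]; simp
    have n1 : s ≠ 1 := fun h => hns 1 (by rw [h]; simp)
    have n2 : s ≠ -1 := fun h => hns (-1) (by rw [h, tg_coe]; simp)
    have fin : ∀ t : SL(2, F), tg t ∈ Cfsg.Geo.subgroupNormalizer R → trS s ^ 2 ≠ 4 → trS s = trS t →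
        ∃ g ∈ Cfsg.Geo.specialLinear (Fin 2) F, g⁻¹ * tg s * g ∈ Cfsg.Geo.subgroupNormalizer R := by
      intro t ht h4 h5
      obtain ⟨g, hg⟩ := isConj_iff.1 (Reg.isConj_of_trs (s := s) (t := t) h4 h5)
      exact ⟨tg g⁻¹, mem_sl.2 ⟨_, rfl⟩, by rwa [← map_inv, inv_inv, ← map_mul, ← map_mul, hg]⟩
    rcases hr with rfl | rfl
    · rw [sq] at hc
      have t0 := trS_of_mul_self (hc.resolve_left fun h => (eq_one_or_neg_one_of_mul_self h2 h).elim n1 n2)
      refine fin i (Subgroup.le_normalizer mi) ?_ (t0.trans ti.symm)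
      rw [t0]
      intro h
      exact mul_ne_zero h2 h2 (by linear_combination -h)
    · obtain ⟨w, tw, w1, w2⟩ := exists_omega h2 ti tj hij
      have nw : tg w ∈ Cfsg.Geo.subgroupNormalizer R := by
        refine Subgroup.mem_normalizer_fintype fun n hn => ?_
        have : R ≤ R.comap (MulAut.conj (tg w)).toMonoidHom := by
          conv_lhs => rw [hQ]
          rw [Subgroup.map_le_iff_le_comap]
          refine sup_le (Subgroup.zpowers_le_of_mem ?_) (Subgroup.zpowers_le_of_mem ?_)
          · change tg w * tg i * (tg w)⁻¹ ∈ R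
            rw [← map_mul, w1, map_mul, mul_inv_cancel_right, map_mul]; exact R.mul_mem mi mj
          · change tg w * tg j * (tg w)⁻¹ ∈ R
            rw [← map_mul, w2, map_mul, mul_inv_cancel_right]; exact mi
        exact this hn
      have nw' : tg (-w) ∈ Cfsg.Geo.subgroupNormalizer R := by
        rw [← neg_one_mul, map_mul, ← mul_self_of_trS ti, map_mul]
        exact mul_mem (Subgroup.le_normalizer (R.mul_mem mi mi)) nw
      have key : ∀ t : SL(2, F), t ^ 3 = 1 → t ≠ 1 → trS t = -1 := by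
        intro t h1 h4
        have g1 := trS_mul_add t t
        have : t * t = t⁻¹ := by rw [eq_inv_iff_mul_eq_one, ← h1]; simp [pow_succ]
        rw [this, trS_inv, mul_inv_cancel, trS_one] at g1
        have g2 : (trS t + 1) * (trS t - 2) = 0 := by linear_combination -g1
        rcases mul_eq_zero.1 g2 with g | g
        · linear_combination g
        · have g3 := pow_char_of_trS p (s := t) (by linear_combination g)
          exact absurd (orderOf_eq_one_iff.1 (Nat.eq_one_of_dvd_coprimes
            ((Nat.coprime_primes Nat.prime_three pp).2 (by omega)) (orderOf_dvd_of_pow_eq_one h1)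
            (orderOf_dvd_of_pow_eq_one g3))) h4
      rcases hc with hc | hc
      · have := key s hc n1
        exact fin w nw (by rw [this]; intro h; exact h3 (by linear_combination -h)) (this.trans tw.symm)
      · have := key (-s) (by rw [Odd.neg_pow (by decide), hc, neg_neg]) (fun h => n2 (neg_eq_iff_eq_neg.1 h))
        rw [trS_neg, neg_inj] at this
        exact fin (-w) nw' (by rw [this]; intro h; exact h3 (by linear_combination -h))
          (by rw [this, trS_neg, tw, neg_neg])

end Cfsg.Agent.S5997
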