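import Cfsg.Statements.S5998
import Cfsg.Agent.Lib.C6.Three2

set_option autoImplicit false
open scoped MatrixGroups
open Cfsg

namespace Cfsg.Agent.S5998

open Matrix Cfsg.Lib.C6 Cfsg.Lib.GLC

/-- Elements of prime order of PSL_3(p), p ≡ 1 (mod 3), and the normalizer of an extraspecial subgroup of order 27. Here `T = PSL_3(F)` for the field `F` with `p` elements, `p` a prime with `p ≡ 1 (mod 3)`; `R` is a non-abelian subgroup of GL_3(F) of order 27 and exponent 3 (an extraspecial group 3^{1+2}, acting absolutely irreducibly), and `H` is the subgroup of matrices of determinant 1 normalizing `R` — a subgroup of type 3^{1+2}.Sp₂(3) (maximality is not assumed). Ω is the set of cosets of `H` in `T`, so an element of `T` of prime order `r` (a matrix `x` of determinant 1 with `x^r` scalar, `x` not scalar) fixes a point of Ω exactly when some conjugate of `x` by a matrix of determinant 1 normalizes `R`. Let `r` be a prime dividing the index of `H`. Then every element of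 `T` of order `r` fixes a point of Ω if and only if `r = 2`, or `r = 3` and `p ≡ 1 (mod 9)`. -/
theorem result {F : Type*} [Field F] [Fintype F] {p : ℕ} [Fact p.Prime] [CharP F p] (hF : Fintype.card F = p) (hp3 : p % 3 = 1)
    (R : Subgroup (GL (Fin 3) F)) (hR : Nat.card R = 27) (hRe : Monoid.exponent R = 3) (hRna : ¬ IsMulCommutative R)
    (r : ℕ) [Fact r.Prime]
    (hΩ : r ∣ (Cfsg.Geo.subgroupNormalizer R).relIndex (Cfsg.Geo.specialLinear (Fin 3) F)) :
    (∀ x ∈ Cfsg.Geo.specialLinear (Fin 3) F, (∃ z : F, ((x ^ r : GL (Fin 3) F) : Matrix (Fin 3) (Fin 3) F) = z • (1 : Matrix (Fin 3) (Fin 3) F)) →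
      (∀ z : F, (x : Matrix (Fin 3) (Fin 3) F) ≠ z • (1 : Matrix (Fin 3) (Fin 3) F)) →
      ∃ g ∈ Cfsg.Geo.specialLinear (Fin 3) F, g⁻¹ * x * g ∈ Cfsg.Geo.subgroupNormalizer R) ↔ (r = 2 ∨ (r = 3 ∧ p % 9 = 1)) := by
  have hp : p.Prime := Fact.out
  have hcard : Nat.card F = p := by rw [Nat.card_eq_fintype_card, hF]
  have h3 : 3 ∣ Nat.card F - 1 := by rw [hcard]; omega
  have h := n27 h3 hR hRe hRna
  have hne : ∀ k : ℕ, k.Prime → k ≠ p → (k : F) ≠ 0 := fun k hk hkp e =>
    hkp ((Nat.prime_dvd_prime_iff_eq hp hk).1 ((CharP.cast_eq_zero_iff F p k).1 e)).symm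
  constructor
  · intro H
    have hd := mul_card_dvd hΩ Subgroup.le_normalizer
      (fun s hs => mem_sl_iff.2 (h.det_eq s hs) : R ≤ Geo.specialLinear (Fin 3) F)
    by_cases hr3 : r = 3
    · refine .inr ⟨hr3, ?_⟩
      subst hr3
      rw [hR, card_specialLinear, card_SL_eq 2, hcard] at hd
      simp only [Finset.prod_range_succ, Finset.prod_range_zero, one_mul] at hd
      by_contra h9
      have h0 := (ZMod.natCast_eq_zero_iff _ 81).2 hd
      have e1 : 1 ≤ p ^ (0 + 2) := Nat.one_le_pow _ _ hp.pos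
      have e2 : 1 ≤ p ^ (1 + 2) := Nat.one_le_pow _ _ hp.pos
      push_cast [Nat.cast_sub e1, Nat.cast_sub e2] at h0
      obtain ⟨k, hk⟩ : ∃ k, p = 9 * k + 4 ∨ p = 9 * k + 7 := ⟨p / 9, by omega⟩
      rcases hk with hk | hk <;>
      · rw [hk] at h0
        push_cast at h0
        generalize (k : ZMod 81) = t at h0
        revert t
        decide
    · obtain ⟨x, hx, h1, h2⟩ := exists_pow_eq_one (Dvd.dvd.trans (dvd_mul_right _ _) hd)
      have h4 := not_sc_of_coprime h1 h2 (mem_sl_iff.1 hx)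
        (by simpa using (Nat.coprime_primes Fact.out Nat.prime_three).2 hr3)
      obtain ⟨g, -, hg⟩ := H x hx ⟨1, by simp [h1]⟩ (not_sc_iff.1 h4)
      refine .inl ((h.prime_cases hR hRna hg ?_ (mt sc_conj_iff.1 h4)).resolve_right hr3)
      rw [show (g⁻¹ * x * g) ^ r = g⁻¹ * x ^ r * g by simpa using conj_pow (a := g⁻¹) (b := x),
        h1]
      simpa using sc_one
  · rintro (rfl | ⟨rfl, h9⟩) x hx ⟨z, hz⟩ hx'
    · have h2 := hne 2 Nat.prime_two (by omega)
      obtain ⟨y, hy, e⟩ := h.two (by exact_mod_cast h2) (mem_sl_iff.1 hx) ⟨z, hz⟩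
        (not_sc_iff.2 hx')
      obtain ⟨g, hg, e'⟩ := exists_sl_conj h2 ⟨z, hz⟩ e
      exact ⟨g, hg, e' ▸ hy⟩
    · have hz3 : z ^ 3 = 1 := by
        have := congrArg det hz
        rw [Units.val_pow_eq_pow_val, det_pow, mem_sl_iff.1 hx, det_smul] at this
        simpa using this.symm
      obtain ⟨k, hk⟩ : 9 ∣ p - 1 := by omega
      obtain ⟨c, -, hc⟩ := Lib.Unitary.exists_pow_eq_of_pow_eq_one (F := F) (a := 3) (b := 3 * k)
        (by rw [hcard, hk]; ring) hz3
      obtain ⟨y, hy, e⟩ := h.three h3 (x := x) (c := c ^ k) (by rw [hz, ← hc, ← pow_mul, mul_comm])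
      obtain ⟨g, hg, e'⟩ := exists_sl_conj (hne 3 Nat.prime_three (by omega)) ⟨z, hz⟩ e
      exact ⟨g, hg, e' ▸ hy⟩

end Cfsg.Agent.S5998
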