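import Cfsg.Statements.S5999
import Cfsg.Agent.Lib.C6.Three2

set_option autoImplicit false
open scoped MatrixGroups
open Cfsg

namespace Cfsg.Agent.S5999

open Matrix Cfsg.Lib.C6 Cfsg.Lib.GLC Cfsg.Lib.Unitary

theorem card_su {F : Type*} [Field F] [Fintype F] {q n : ℕ} (hF : Fintype.card F = q ^ 2)
    (hn : 1 ≤ n) :
    (q + 1) * Nat.card (GU n F q ⊓ Geo.specialLinear (Fin n) F : Subgroup _) = guOrder q n := by
  obtain ⟨σ, hσ⟩ := exists_isBar hF
  have he : ∀ g, glEquiv _ F g ∈ SUG (stdForm σ (Fin n)) ↔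
      g ∈ GU n F q ⊓ Geo.specialLinear (Fin n) F := fun g => by
    rw [mem_SUG, hσ.glEquiv_mem_UG, det_glEquiv]; rfl
  rw [Nat.card_congr (subgroupEquivOf _ he).toEquiv, hσ.isHerm.card_SUG hσ (by simpa)]
  simp

/-- Elements of prime order of PSU_3(p), p ≡ 2 (mod 3), and the normalizer of an extraspecial subgroup of order 27. Here `T = PSU_3(p)` for a prime `p ≥ 5` with `p ≡ 2 (mod 3)`, realised through `SU_3(p)`, the matrices of determinant 1 over the field `F` with `p²` elements preserving the hermitian form `Σ uᵢvᵢ^p`; `R` is a non-abelian subgroup of order 27 and exponent 3 of the full unitary group of that form (an extraspecial group 3^{1+2}, acting absolutely irreducibly), and `H` is the subgroup of `SU_3(p)` normalizing `R` — a subgroup of type 3^{1+2}.Sp₂(3) (maximality is not assumed). Ω is the set of cosets of `H`, so an element of `T` of prime order `r` (`x ∈ SU_3(p)` with `x^r` scalar, `x` not scalar) fixes a point of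 Ω exactly when some `SU_3(p)`-conjugate of `x` normalizes `R`. Let `r` be a prime dividing the index of `H`. Then every element of `T` of order `r` fixes a point of Ω if and only if `r = 2`, or `r = 3` and `p ≡ 8 (mod 9)`. -/
theorem result {F : Type*} [Field F] [Fintype F] {p : ℕ} [Fact p.Prime] [CharP F p] (hF : Fintype.card F = p ^ 2) (hp : 5 ≤ p) (hp3 : p % 3 = 2)
    (R : Subgroup (GL (Fin 3) F)) (hRU : R ≤ Cfsg.GU 3 F p) (hR : Nat.card R = 27) (hRe : Monoid.exponent R = 3) (hRna : ¬ IsMulCommutative R)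
    (r : ℕ) [Fact r.Prime]
    (hΩ : r ∣ (Cfsg.Geo.subgroupNormalizer R).relIndex (Cfsg.GU 3 F p ⊓ Cfsg.Geo.specialLinear (Fin 3) F)) :
    (∀ x ∈ Cfsg.GU 3 F p ⊓ Cfsg.Geo.specialLinear (Fin 3) F, (∃ z : F, ((x ^ r : GL (Fin 3) F) : Matrix (Fin 3) (Fin 3) F) = z • (1 : Matrix (Fin 3) (Fin 3) F)) →
      (∀ z : F, (x : Matrix (Fin 3) (Fin 3) F) ≠ z • (1 : Matrix (Fin 3) (Fin 3) F)) →
      ∃ g ∈ Cfsg.GU 3 F p ⊓ Cfsg.Geo.specialLinear (Fin 3) F, g⁻¹ * x * g ∈ Cfsg.Geo.subgroupNormalizer R) ↔ (r = 2 ∨ (r = 3 ∧ p % 9 = 8)) := by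
  have hp' : p.Prime := Fact.out
  obtain ⟨σ, hσ⟩ := exists_isBar hF
  have hcard : Nat.card F = p ^ 2 := hσ.card
  have hq : Nat.card F - 1 = (p - 1) * (p + 1) := hσ.card_sub_one
  have h3 : 3 ∣ Nat.card F - 1 := hq ▸ Dvd.dvd.mul_left (by omega) _
  have h := n27 h3 hR hRe hRna
  have hne : ∀ k : ℕ, k.Prime → k ≠ p → (k : F) ≠ 0 := fun k hk hkp e =>
    hkp ((Nat.prime_dvd_prime_iff_eq hp' hk).1 ((CharP.cast_eq_zero_iff F p k).1 e)).symm
  have hco : Nat.Coprime 3 (p - 1) := (Nat.Prime.coprime_iff_not_dvd Nat.prime_three).2 (by omega)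
  constructor
  · intro H
    have hd := mul_card_dvd hΩ Subgroup.le_normalizer
      (fun s hs => ⟨hRU hs, mem_sl_iff.2 (h.det_eq s hs)⟩ :
        R ≤ GU 3 F p ⊓ Geo.specialLinear (Fin 3) F)
    by_cases hr3 : r = 3
    · refine .inr ⟨hr3, ?_⟩
      subst hr3
      have e0 := card_su hF (n := 3) (by norm_num)
      have e1 : guOrder p 3 = (p + 1) * (p ^ 3 * ((p ^ 2 - 1) * (p ^ 3 + 1))) := by
        simp [guOrder, uf, Finset.prod_range_succ, show ¬ Even 1 by decide]; ring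
      rw [hR, Nat.eq_of_mul_eq_mul_left (Nat.succ_pos p) (e0.trans e1)] at hd
      by_contra h9
      have h0 := (ZMod.natCast_eq_zero_iff _ 81).2 hd
      have e1 : 1 ≤ p ^ 2 := Nat.one_le_pow _ _ hp'.pos
      push_cast [Nat.cast_sub e1] at h0
      obtain ⟨k, hk⟩ : ∃ k, p = 9 * k + 2 ∨ p = 9 * k + 5 := ⟨p / 9, by omega⟩
      rcases hk with hk | hk <;>
      · rw [hk] at h0
        push_cast at h0
        generalize (k : ZMod 81) = t at h0
        revert t
        decide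
    · obtain ⟨x, hx, h1, h2⟩ := exists_pow_eq_one (Dvd.dvd.trans (dvd_mul_right _ _) hd)
      have h4 := not_sc_of_coprime h1 h2 (mem_sl_iff.1 hx.2)
        (by simpa using (Nat.coprime_primes Fact.out Nat.prime_three).2 hr3)
      obtain ⟨g, -, hg⟩ := H x hx ⟨1, by simp [h1]⟩ (not_sc_iff.1 h4)
      refine .inl ((h.prime_cases hR hRna hg ?_ (mt sc_conj_iff.1 h4)).resolve_right hr3)
      rw [show (g⁻¹ * x * g) ^ r = g⁻¹ * x ^ r * g by simpa using conj_pow (a := g⁻¹) (b := x),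
        h1]
      simpa using sc_one
  · rintro (rfl | ⟨rfl, h9⟩) x hx ⟨z, hz⟩ hx'
    · have h2 := hne 2 Nat.prime_two (by omega)
      obtain ⟨y, hy, e⟩ := h.two (by exact_mod_cast h2) (mem_sl_iff.1 hx.2) ⟨z, hz⟩
        (not_sc_iff.2 hx')
      obtain ⟨g, hg, e'⟩ := exists_su_conj hσ h2 ⟨z, hz⟩ hx.1 (mem_GU_of_norm hσ h.schur hRU hy
        ((det_eq_of_sim e).trans (mem_sl_iff.1 hx.2)) hco) e
      exact ⟨g, hg, e' ▸ hy⟩
    · have hz3 : z ^ 3 = 1 := by
        have := congrArg det hz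
        rw [Units.val_pow_eq_pow_val, det_pow, mem_sl_iff.1 hx.2, det_smul] at this
        simpa using this.symm
      obtain ⟨k, hk⟩ : 9 ∣ Nat.card F - 1 := hq ▸ Dvd.dvd.mul_left (by omega) _
      obtain ⟨c, -, hc⟩ := exists_pow_eq_of_pow_eq_one (F := F) (a := 3) (b := 3 * k)
        (by rw [hk]; ring) hz3
      obtain ⟨y, hy, e⟩ := h.three h3 (x := x) (c := c ^ k) (by rw [hz, ← hc, ← pow_mul, mul_comm])
      obtain ⟨g, hg, e'⟩ := exists_su_conj hσ (hne 3 Nat.prime_three (by omega)) ⟨z, hz⟩ hx.1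
        (mem_GU_of_norm hσ h.schur hRU hy ((det_eq_of_sim e).trans (mem_sl_iff.1 hx.2)) hco) e
      exact ⟨g, hg, e' ▸ hy⟩

end Cfsg.Agent.S5999
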