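import Cfsg.Statements.S6000
import Cfsg.Agent.Lib.C6.Two4

set_option autoImplicit false
open scoped MatrixGroups
open Cfsg

namespace Cfsg.Agent.S6000

open Matrix Cfsg.Lib.C6 Cfsg.Lib.GLC Cfsg.Lib.Unitary

/-- Elements of prime order of PSL_4(p), p ≡ 1 (mod 4), and the normalizer of a 2-group of symplectic type of order 2⁶. Here `T = PSL_4(F)` for the field `F` with `p` elements, `p` a prime with `p ≡ 1 (mod 4)`; `R` is an absolutely irreducible subgroup of GL_4(F) of order 2⁶ that is a 2-group of symplectic type of exponent 4 with centre of order 4 (the central product of the scalars of order 4 with an extraspecial group 2^{1+4}), and `H` is the subgroup of matrices of determinant 1 normalizing `R` — a subgroup of type 2⁴.Sp₄(2) (maximality is not assumed). Ω is the set of cosets of `H` in `T`, so an element of `T` of prime order `r` (a matrix `x` of determinant 1 with `x^r` scalar, `x` not scalar) fixes a point of Ω exactly when some conjugate of `x` by a matrix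 of determinant 1 normalizes `R`. Let `r` be a prime dividing the index of `H`. Then every element of `T` of order `r` fixes a point of Ω if and only if `r = 2`, or `r = 3` and `p ≡ 2 (mod 3)`, or `r = 5` and `p ≡ ±2 (mod 5)` (`p` has multiplicative order 4 modulo 5). -/
theorem result {F : Type*} [Field F] [Fintype F] {p : ℕ} [Fact p.Prime] [CharP F p] (hF : Fintype.card F = p) (hp4 : p % 4 = 1)
    (R : Subgroup (GL (Fin 4) F)) (hR : Cfsg.Geo.IsLinearSymplecticTypeData 2 R) (hR6 : Nat.card R = 2 ^ 6)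
    (r : ℕ) [Fact r.Prime]
    (hΩ : r ∣ (Cfsg.Geo.subgroupNormalizer R).relIndex (Cfsg.Geo.specialLinear (Fin 4) F)) :
    (∀ x ∈ Cfsg.Geo.specialLinear (Fin 4) F, (∃ z : F, ((x ^ r : GL (Fin 4) F) : Matrix (Fin 4) (Fin 4) F) = z • (1 : Matrix (Fin 4) (Fin 4) F)) →
      (∀ z : F, (x : Matrix (Fin 4) (Fin 4) F) ≠ z • (1 : Matrix (Fin 4) (Fin 4) F)) →
      ∃ g ∈ Cfsg.Geo.specialLinear (Fin 4) F, g⁻¹ * x * g ∈ Cfsg.Geo.subgroupNormalizer R) ↔ (r = 2 ∨ (r = 3 ∧ p % 3 = 2) ∨ (r = 5 ∧ orderOf (p : ZMod 5) = 4)) := by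
  have hp : p.Prime := Fact.out
  have hcard : Nat.card F = p := by rw [Nat.card_eq_fintype_card, hF]
  have hne : ∀ k : ℕ, k.Prime → k ≠ p → (k : F) ≠ 0 := fun k hk hkp =>
    natCast_ne_zero_of_ne hk hkp
  have h2 := hne 2 Nat.prime_two (by omega)
  have h3 := hne 3 Nat.prime_three (by omega)
  have h := St.of (by exact_mod_cast h2) (by simp) hR.symplecticType hR.absIrred
  have hZ : Nat.card (Subgroup.center R) = 4 := by
    obtain ⟨_, _, -, -, h1 | h1 | h1⟩ := hR.field
    · exact absurd h1.1 (by decide)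
    · exact h1.2.2.1
    · simpa using h1.2.2.1
  obtain ⟨j, hj, i, e, hi⟩ := h.exists_i (by omega)
  obtain ⟨a, b, c, d, H⟩ := h.exists_q4_of_i (by omega) hj e hi
  constructor
  · intro H1
    have hd := mul_card_dvd hΩ bot_le bot_le
    rcases h.prime_cases (.inr rfl) hZ hR6 (fun x hx => mem_sl_iff.1 hx)
      ((dvd_mul_right _ _).trans hd) H1 with rfl | rfl | rfl
    · exact .inl rfl
    · refine .inr (.inl ⟨rfl, ?_⟩)
      by_contra h4
      have h5 : p % 3 ≠ 0 := fun e => h3 (by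
        rw [(Nat.prime_dvd_prime_iff_eq Nat.prime_three hp).1 (Nat.dvd_of_mod_eq_zero e)]; simp)
      obtain ⟨ω, hω⟩ := exists_prime_orderOf_dvd_card' (G := Fˣ) 3 (by
        rw [Nat.card_units, hcard]; omega)
      have h6 : (ω : F) ^ 3 = 1 := by
        rw [← Units.val_pow_eq_pow_val, ← hω, pow_orderOf_eq_one, Units.val_one]
      have h7 : (ω : F) ≠ 1 := fun e => by
        rw [Units.val_eq_one.1 e, orderOf_one] at hω; omega
      have h8 : (ω : F) ^ 2 + ω + 1 = 0 :=
        mul_left_cancel₀ (sub_ne_zero.2 h7) (by linear_combination h6)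
      exact h.el_refl hZ hR6 H1 (by exact_mod_cast h3) h8 (mem_sl_iff.2 (refl3_det _ _))
    · refine .inr (.inr ⟨rfl, ?_⟩)
      by_contra h4
      obtain ⟨k, hk⟩ := exists_golden (by omega) h4
      have h5 := (CharP.intCast_eq_zero_iff F p _).2 hk
      push_cast at h5
      exact quad5_not_sc _ (h.el_quad H1 (mem_sl_iff.2 (quad5_det _)) h5 (quad5_sq _))
  · have key : ∀ {r : ℕ} [Fact r.Prime], r = 3 ∨ r = 5 → (r : F) ≠ 0 →
        orderOf (p : ZMod r) = r - 1 → El (Geo.specialLinear (Fin 4) F) r R := by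
      intro r hr h35 h0 ho x hx ⟨z, hz⟩ hx'
      obtain ⟨t, t4, t1⟩ := exists_scale (by simp) (mem_sl_iff.1 hx) h35 hz
      have t0 : t ≠ 0 := by rintro rfl; simp at t4
      have hR : ∀ A : Matrix (Fin 4) (Fin 4) F, A ^ r = 1 → Lib.C6.Rat r A := fun A =>
        rat_of_order hr.out h0 (by rwa [hcard])
      obtain ⟨y, y1, y2⟩ : ∃ y, Good R y ∧ Sim (toLin' y.1) (toLin' (t • x.1)) := by
        rcases h35 with rfl | rfl
        · exact h.three_sim H hj e hi h0 (fun y _ => hR _) (hR _ t1) (smul_ne_one t0 hx')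
        · exact h.five_sim H h0 (fun y _ => hR _) (hR _ t1) (smul_ne_one t0 hx')
      obtain ⟨g, hg, e'⟩ := exists_sl_conj h0 ⟨z, hz⟩ (sim_unscale t0 y2)
      exact ⟨g, hg, e' ▸ mem_normalizer_of_smul y1.1 rfl⟩
    rintro (rfl | ⟨rfl, h4⟩ | ⟨rfl, h4⟩)
    · intro x hx ⟨z, hz⟩ hx'
      obtain ⟨t, t0, y, y1, y2, -⟩ := h.exists_two H hj e hi (mem_sl_iff.1 hx) hz (not_sc_iff.2 hx')
      obtain ⟨g, hg, e'⟩ := exists_sl_conj (h := smulGL t t0 y) h2 ⟨z, hz⟩ y2
      exact ⟨g, hg, e' ▸ mem_normalizer_of_smul y1.1 rfl⟩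
    · refine key (.inl rfl) h3 ?_
      rw [← ZMod.natCast_mod, h4, orderOf_eq_iff (by norm_num)]
      decide +revert
    · refine key (.inr rfl) (hne 5 Nat.prime_five ?_) h4
      rintro rfl
      rw [orderOf_eq_iff (by norm_num)] at h4
      revert h4
      decide +revert

end Cfsg.Agent.S6000
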