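import Cfsg.Statements.S6001
import Cfsg.Agent.Lib.C6.Two4

set_option autoImplicit false
open scoped MatrixGroups
open Cfsg

namespace Cfsg.Agent.S6001

open Matrix Cfsg.Lib.C6 Cfsg.Lib.GLC Cfsg.Lib.Unitary

theorem mem_GU_iff {F : Type*} [Field F] {q n : ℕ} {σ : F →+* F} (hσ : IsBar q σ)
    {g : GL (Fin n) F} : g ∈ GU n F q ↔ ct σ g.1 * g.1 = 1 :=
  hσ.mem_GU_ct.trans ⟨fun h => by rw [← ctGL_coe, h, Units.inv_mul],
    fun h => eq_inv_of_mul_eq_one_left (Units.ext h)⟩

theorem smul_mem_GU {F : Type*} [Field F] {q n : ℕ} {σ : F →+* F} (hσ : IsBar q σ)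
    {g : GL (Fin n) F} (hg : g ∈ GU n F q) {t : F} (h0 : t ≠ 0) (ht : t * σ t = 1) :
    smulGL t h0 g ∈ GU n F q := by
  rw [mem_GU_iff hσ] at hg ⊢
  rw [smulGL_coe, ct_smul, smul_mul_smul_comm, hg, mul_comm, ht, one_smul]

/-- Elements of prime order of PSU_4(p), p ≡ 3 (mod 4), and the normalizer of a 2-group of symplectic type of order 2⁶. Here `T = PSU_4(p)` for a prime `p ≡ 3 (mod 4)`, realised through `SU_4(p)`, the matrices of determinant 1 over the field `F` with `p²` elements preserving the hermitian form `f = Σ uᵢvᵢ^p`; `R` is an absolutely irreducible subgroup of the full unitary group of `f` of order 2⁶ that is a 2-group of symplectic type of exponent 4 with centre of order 4, and `H` is the subgroup of `SU_4(p)` normalizing `R` — a subgroup of type 2⁴.Sp₄(2) (maximality is not assumed). Ω is the set of cosets of `H`, so an element of `T` of prime order `r` (`x ∈ SU_4(p)` with `x^r` scalar, `x` not scalar) fixes a point of Ω exactly when some `SU_4(p)`-conjugate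 of `x` normalizes `R`. Let `r` be a prime dividing the index of `H`. Then every element of `T` of order `r` fixes a point of Ω if and only if `r = 2`, or `r = 3` and `p ≡ 1 (mod 3)`, or `r = 5` and `p ≡ ±2 (mod 5)` (`p` has multiplicative order 4 modulo 5). -/
theorem result {F : Type*} [Field F] [Fintype F] {p : ℕ} [Fact p.Prime] [CharP F p] (hF : Fintype.card F = p ^ 2) (hp4 : p % 4 = 3)
    (R : Subgroup (GL (Fin 4) F)) (hRs : Cfsg.Geo.IsSymplecticTypeGroup 2 R) (hRi : Cfsg.Geo.ActsAbsolutelyIrreducibly (Cfsg.Geo.matrixSet R))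
    (hRU : R ≤ Cfsg.GU 4 F p) (hR6 : Nat.card R = 2 ^ 6) (hRZ : Nat.card (Subgroup.center R) = 4)
    (r : ℕ) [Fact r.Prime]
    (hΩ : r ∣ (Cfsg.Geo.subgroupNormalizer R).relIndex (Cfsg.GU 4 F p ⊓ Cfsg.Geo.specialLinear (Fin 4) F)) :
    (∀ x ∈ Cfsg.GU 4 F p ⊓ Cfsg.Geo.specialLinear (Fin 4) F, (∃ z : F, ((x ^ r : GL (Fin 4) F) : Matrix (Fin 4) (Fin 4) F) = z • (1 : Matrix (Fin 4) (Fin 4) F)) →
      (∀ z : F, (x : Matrix (Fin 4) (Fin 4) F) ≠ z • (1 : Matrix (Fin 4) (Fin 4) F)) →
      ∃ g ∈ Cfsg.GU 4 F p ⊓ Cfsg.Geo.specialLinear (Fin 4) F, g⁻¹ * x * g ∈ Cfsg.Geo.subgroupNormalizer R) ↔ (r = 2 ∨ (r = 3 ∧ p % 3 = 1) ∨ (r = 5 ∧ orderOf (p : ZMod 5) = 4)) := by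
  have hp : p.Prime := Fact.out
  obtain ⟨σ, hσ⟩ := exists_isBar hF
  have hne : ∀ k : ℕ, k.Prime → k ≠ p → (k : F) ≠ 0 := fun k hk hkp =>
    natCast_ne_zero_of_ne hk hkp
  have h2 := hne 2 Nat.prime_two (by omega)
  have h := St.of (by exact_mod_cast h2) (by simp) hRs hRi
  obtain ⟨j, hj, i, e, hi⟩ := h.exists_i (by omega)
  obtain ⟨a, b, c, d, H⟩ := h.exists_q4_of_i (by omega) hj e hi
  have hG : ∀ y, Good R y → y ∈ GU 4 F p := fun y hy =>
    (mem_GU_iff hσ).2 (hy.2 _ ⟨ct_mul, fun s hs => (mem_GU_iff hσ).1 (hRU hs)⟩)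
  have h4n : ∀ t : F, t ^ 4 = 1 → t * σ t = 1 := fun t ht => by
    obtain ⟨k, hk⟩ : 4 ∣ p + 1 := by omega
    rw [hσ.norm_eq, hk, pow_mul, ht, one_pow]
  constructor
  · intro H1
    have hd := mul_card_dvd hΩ bot_le bot_le
    rcases h.prime_cases (.inr rfl) hRZ hR6 (fun x hx => mem_sl_iff.1 (Subgroup.mem_inf.1 hx).2)
      ((dvd_mul_right _ _).trans hd) H1 with rfl | rfl | rfl
    · exact .inl rfl
    · refine .inr (.inl ⟨rfl, ?_⟩)
      by_contra h4
      by_cases h5 : p = 3
      · subst h5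
        have h3 : (3 : F) = 0 := by exact_mod_cast CharP.cast_eq_zero F 3
        have hσi : σ i = -i := by rw [hσ.eq]; linear_combination i * hi
        have hN : vecMulVec ![1, 1, 1, 0] ![i, i, i, 0] * vecMulVec ![1, 1, 1, 0] ![i, i, i, 0] =
            (0 : Matrix (Fin 4) (Fin 4) F) := by
          rw [vecMulVec_mul_vecMulVec, show ![i, i, i, 0] ⬝ᵥ ![1, 1, 1, 0] = 0 by
            simp; linear_combination i * h3]
          simp
        let x : GL (Fin 4) F := ⟨1 + vecMulVec ![1, 1, 1, 0] ![i, i, i, 0],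
          1 - vecMulVec ![1, 1, 1, 0] ![i, i, i, 0], 
          by rw [add_mul, mul_sub, mul_sub, hN, mul_one, one_mul, mul_one]; abel,
          by rw [mul_add, sub_mul, sub_mul, hN, mul_one, one_mul, mul_one]; abel⟩
        refine (h.el_tv H1 (x := x) ⟨(mem_GU_iff hσ).2 ?_, mem_sl_iff.2 ?_⟩ h3 rfl
          (by simp; linear_combination i * h3)).elim fun z hz => ?_
        rotate_left 2
        · have := congrFun (congrFun hz 0) 1
          simp [x, vecMulVec_apply] at this
          simp [this] at hi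
        · rw [← x.inv_mul]
          congr 1
          ext k l
          fin_cases k <;> fin_cases l <;> simp [x, ct_apply, vecMulVec_apply, hσi, sub_eq_add_neg]
        · change det (1 + vecMulVec _ _) = 1
          rw [vecMulVec_eq Unit, det_one_add_replicateCol_mul_replicateRow]
          simp; linear_combination i * h3
      · have h3 := hne 3 Nat.prime_three (Ne.symm h5)
        have h6 : p % 3 ≠ 0 := fun e =>
          h5 ((Nat.prime_dvd_prime_iff_eq Nat.prime_three hp).1 (Nat.dvd_of_mod_eq_zero e)).symm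
        obtain ⟨ω, hω⟩ := exists_prime_orderOf_dvd_card' (G := Fˣ) 3 (by
          rw [Nat.card_units, hσ.card_sub_one]; exact Dvd.dvd.mul_left (by omega) _)
        have h6 : (ω : F) ^ 3 = 1 := by
          rw [← Units.val_pow_eq_pow_val, ← hω, pow_orderOf_eq_one, Units.val_one]
        have h7 : (ω : F) ≠ 1 := fun e => by
          rw [Units.val_eq_one.1 e, orderOf_one] at hω; omega
        have h8 : (ω : F) ^ 2 + ω + 1 = 0 :=
          mul_left_cancel₀ (sub_ne_zero.2 h7) (by linear_combination h6)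
        refine h.el_refl hRZ hR6 H1 (by exact_mod_cast h3) h8
          ⟨(mem_GU_iff hσ).2 ?_, mem_sl_iff.2 (refl3_det _ _)⟩
        have h9 : σ ω = ω ^ 2 := by
          rw [hσ.eq, show p = 3 * (p / 3) + 2 by omega, pow_add, pow_mul, h6, one_pow, one_mul]
        ext k l
        fin_cases k <;> fin_cases l <;> simp [refl3, ct_apply, h9] <;> grind
    · refine .inr (.inr ⟨rfl, ?_⟩)
      by_contra h4
      obtain ⟨k, hk⟩ := exists_golden (by omega) h4
      have h5 := (CharP.intCast_eq_zero_iff F p _).2 hk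
      push_cast at h5
      obtain ⟨x, hx⟩ := (hσ.exists_gu_iff (a := quad5 (k : F))).2 (isConj_iff.2 ⟨quad5 0, by
        rw [mul_inv_eq_iff_eq_mul]
        apply Units.ext
        change _ = ct σ !![(k : F), 1, 0, 0; -1, 0, 0, 0; 0, 0, (k : F), 1; 0, 0, -1, 0] * _
        ext s t
        fin_cases s <;> fin_cases t <;> simp [quad5, ct_apply, mul_apply, Fin.sum_univ_four]⟩)
      obtain ⟨g, hg⟩ := isConj_iff.1 hx.symm
      refine quad5_not_sc (k : F) ?_
      rw [← hg, ← inv_inv g, inv_inv g⁻¹, sc_conj_iff]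
      have hx' : x.1 = g⁻¹ * quad5 (k : F) * g := by rw [← hg]; group
      refine h.el_quad H1 ⟨x.2, mem_sl_iff.2 ?_⟩ h5 ?_
      · rw [hx', Units.val_mul, Units.val_mul, det_units_conj', quad5_det]
      · have : ∀ M, (quad5 (k : F)).1 * ((quad5 (k : F)).1 * M) = (k : F) • ((quad5 (k : F)).1 * M) - M :=
          fun M => by rw [← mul_assoc, quad5_sq, sub_mul, smul_mul_assoc, one_mul]
        simp only [hx', Units.val_mul, mul_assoc, Units.mul_inv_cancel_left, this, mul_sub,
          mul_smul_comm, Units.inv_mul]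
  · have key : ∀ {r : ℕ} [Fact r.Prime] {i b c : ℕ}, r = 3 ∨ r = 5 → UP σ p r i b c →
        i % 4 ≠ 2 → 2 * b = r - 1 → El (GU 4 F p ⊓ Geo.specialLinear (Fin 4) F) r R := by
      intro r hr i b c h35 u hi' hb x hx ⟨z, hz⟩ hx'
      obtain ⟨t, t4, t1⟩ := exists_scale (by simp) (mem_sl_iff.1 hx.2) h35 hz
      have t0 : t ≠ 0 := by rintro rfl; simp at t4
      have hR := rat_of_unitary u hi' hb (smul_mem_GU hσ hx.1 t0 (h4n t t4)) t1
      obtain ⟨y, y1, y2⟩ : ∃ y, Good R y ∧ Sim (toLin' y.1) (toLin' (t • x.1)) := by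
        rcases h35 with rfl | rfl
        · exact h.three_sim H hj e hi u.ne (fun y hy => rat_of_unitary u hi' hb (hG y hy)) hR
            (smul_ne_one t0 hx')
        · exact h.five_sim H u.ne (fun y hy => rat_of_unitary u hi' hb (hG y hy)) hR
            (smul_ne_one t0 hx')
      obtain ⟨g, hg, e'⟩ := exists_su_conj hσ u.ne ⟨z, hz⟩ hx.1 (smul_mem_GU hσ (hG y y1) _
        (h4n _ (by rw [inv_pow, t4, inv_one]))) (sim_unscale t0 y2)
      exact ⟨g, hg, e' ▸ mem_normalizer_of_smul y1.1 rfl⟩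
    rintro (rfl | ⟨rfl, h4⟩ | ⟨rfl, h4⟩)
    · intro x hx ⟨z, hz⟩ hx'
      obtain ⟨t, t0, y, y1, y2, y3, y4⟩ := h.exists_two H hj e hi (mem_sl_iff.1 hx.2) hz
        (not_sc_iff.2 hx')
      have ht : t * σ t = 1 := by
        refine y4.elim (h4n t) fun y4 => ?_
        have e1 : ct σ x.1 = z⁻¹ • x.1 := by
          rw [← ctGL_coe, hσ.mem_GU_ct.1 hx.1]
          refine Units.inv_eq_of_mul_eq_one_right ?_
          rw [mul_smul_comm, ← pow_two, ← Units.val_pow_eq_pow_val, hz, smul_smul,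
            inv_mul_cancel₀ (ne_zero_of_eq_smul hz), one_smul]
        have e2 := congrArg trace e1
        rw [ct_apply, trace_transpose, ← AddMonoidHom.map_trace, trace_smul, y4, ← y3, map_mul,
          map_ofNat, smul_eq_mul] at e2
        have := h.two
        field_simp at e2
        exact e2 ▸ mul_comm _ _
      obtain ⟨g, hg, e'⟩ := exists_su_conj hσ h2 ⟨z, hz⟩ hx.1 (smul_mem_GU hσ (hG y y1) t0 ht) y2
      exact ⟨g, hg, e' ▸ mem_normalizer_of_smul y1.1 rfl⟩
    · refine key (i := 1) (b := 1) (c := 2) (.inl rfl) ⟨hσ, Nat.prime_three, by norm_num,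
        hne 3 Nat.prime_three (by omega), ?_, by simp, by simp⟩ (by norm_num) rfl
      rw [← ZMod.natCast_mod, h4, Nat.cast_one, orderOf_one]
    · exact key (i := 4) (b := 2) (c := 4) (.inr rfl) ⟨hσ, Nat.prime_five, by norm_num,
        hne 5 Nat.prime_five (by omega), h4.symm, by decide, by simp⟩ (by norm_num) rfl

end Cfsg.Agent.S6001
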