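import Cfsg.Statements.S6002
import Cfsg.Agent.Lib.C6.Two4

set_option autoImplicit false
open scoped MatrixGroups
open Cfsg

namespace Cfsg.Agent.S6002

open Matrix Cfsg.Lib.C6 Cfsg.Lib.GLC Cfsg.Lib.Unitary Cfsg.Lib.Symp Polynomial

section
variable {F : Type*} [Field F] {d : ℕ} {x h : GL (Fin d ⊕ Fin d) F}

theorem mem_spE : x ∈ spGL d F ↔ SpE (bil (Fin d) F) (toLin' x.1) :=
  ⟨fun h => ⟨bil_isAlt _ F, bil_nondegenerate _ F, fun u v => by
    simp only [← sympForm_eq_bil]; exact h u v⟩,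
    fun h u v => by simp only [sympForm_eq_bil]; exact h.inv u v⟩

theorem mem_sp : x ∈ spGL d F ↔ x.1ᵀ * J (Fin d) F * x.1 = J (Fin d) F := by
  have : ∀ u v, sympForm d F (x.1 *ᵥ u) (x.1 *ᵥ v) = u ⬝ᵥ ((x.1ᵀ * J (Fin d) F * x.1) *ᵥ v) :=
    fun u v => by
      rw [sympForm, ← mulVec_mulVec, ← mulVec_mulVec, dotProduct_mulVec u, vecMul_transpose]
  refine ⟨fun h => ?_, fun h u v => (this u v).trans (by rw [h]; rfl)⟩
  ext i j
  have e := (this (Pi.single i 1) (Pi.single j 1)).symm.trans (h _ _)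
  simpa [sympForm] using e

theorem det_sp (hx : x ∈ spGL d F) : x.1.det = 1 :=
  SymplecticGroup.det_eq_one (SymplecticGroup.mem_iff'.2 (mem_sp.1 hx))

/-- The symplectic adjoint. -/
def adj : Matrix (Fin d ⊕ Fin d) (Fin d ⊕ Fin d) F →+ Matrix (Fin d ⊕ Fin d) (Fin d ⊕ Fin d) F where
  toFun M := -(J (Fin d) F * Mᵀ * J (Fin d) F)
  map_zero' := by simp
  map_add' M N := by simp [mul_add, add_mul, add_comm]

theorem adj_mul (M N : Matrix (Fin d ⊕ Fin d) (Fin d ⊕ Fin d) F) : adj (M * N) = adj N * adj M := by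
  change -(J _ F * (M * N)ᵀ * J _ F) = -(J _ F * Nᵀ * J _ F) * -(J _ F * Mᵀ * J _ F)
  rw [neg_mul_neg, transpose_mul]
  simp only [mul_assoc]
  rw [← mul_assoc (J _ F) (J _ F), J_squared]
  simp

theorem mem_sp_adj : x ∈ spGL d F ↔ adj x.1 * x.1 = 1 := by
  rw [mem_sp]
  change _ ↔ -(J _ F * x.1ᵀ * J _ F) * x.1 = 1
  refine ⟨fun h => by rw [neg_mul, mul_assoc, mul_assoc, ← mul_assoc x.1ᵀ, h, J_squared, neg_neg],
    fun h => ?_⟩
  have := congrArg (J (Fin d) F * ·) h
  simpa only [neg_mul, mul_neg, ← mul_assoc, J_squared, neg_neg, one_mul, mul_one] using this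

theorem exists_sp_conj [Finite F] {r : ℕ} (hr : (r : F) ≠ 0) {z : F} (h0 : z ≠ 0)
    (hz : (x ^ r).1 = z • 1) (hx : x ∈ spGL d F) (hh : h ∈ spGL d F)
    (hs : Sim (toLin' h.1) (toLin' x.1)) : ∃ g ∈ spGL d F, g⁻¹ * x * g = h := by
  obtain ⟨e, h2, h3⟩ := (isim_of_sim (mem_spE.1 hx) (mem_spE.1 hh) hs.symm
    (isSemisimple_of_pow_eq hr h0 (by
      rw [← toLin'_pow', toLin'_eq_smul_one_iff, ← hz, Units.val_pow_eq_pow_val]))).symm
  obtain ⟨g, rfl⟩ := (glEquiv _ F).surjective e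
  refine ⟨g, mem_spE.2 ⟨bil_isAlt _ F, bil_nondegenerate _ F, h2⟩, ?_⟩
  rw [mul_assoc, inv_mul_eq_iff_eq_mul]
  exact Units.ext (toLin'.injective (LinearMap.ext fun v => by
    simpa [glEquiv_apply] using (h3 v).symm))

theorem sq_of_smul [NeZero d] (hx : x ∈ spGL d F) {z : F} (hz : x.1 = z • 1) : z * z = 1 :=
  SpE.mul_self (B := bil (Fin d) F) (by
    have := mem_spE.1 hx
    rwa [toLin'_eq_smul_one_iff.2 hz] at this)

/-- An element of `Sp₄` from a matrix preserving `J`. -/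
noncomputable def mkSp (M : Matrix (Fin d ⊕ Fin d) (Fin d ⊕ Fin d) F)
    (h : Mᵀ * J (Fin d) F * M = J (Fin d) F) : GL (Fin d ⊕ Fin d) F :=
  GeneralLinearGroup.mkOfDetNeZero M (by
    rw [SymplecticGroup.det_eq_one (SymplecticGroup.mem_iff'.2 h)]; exact one_ne_zero)

end

/-- Elements of prime order of PSp_4(p), p odd, and the normalizer of an extraspecial 2-group of order 2⁵ of minus type. Here `T = PSp_4(F)` for the field `F` with `p` elements, `p` an odd prime, realised through the matrices preserving the standard alternating form `f`; `R` is an absolutely irreducible subgroup of `T` (it preserves `f`) that is a 2-group of symplectic type of exponent 4, order 2⁵ and centre of order 2, of minus type (no elementary abelian subgroup of order 2³), and `H` is the subgroup of `T` normalizing `R` — a subgroup of type 2^{1+4}.O₄⁻(2) (maximality is not assumed). Ω is the set of cosets of `H` in `T`, so an element of `T` of prime order `r` (`x ∈ T`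 with `x^r` scalar, `x` not scalar) fixes a point of Ω exactly when some `T`-conjugate of `x` normalizes `R`. Let `r` be a prime dividing the index of `H`. Then every element of `T` of order `r` fixes a point of Ω if and only if `r = 2`, or `r = 5` and `p` has multiplicative order 4 modulo 5. -/
theorem result {F : Type*} [Field F] [Fintype F] {p : ℕ} [Fact p.Prime] [CharP F p] (hF : Fintype.card F = p) (hodd : Odd p)
    (R : Subgroup (GL (Fin 2 ⊕ Fin 2) F)) (hRs : Cfsg.Geo.IsSymplecticTypeGroup 2 R) (hRi : Cfsg.Geo.ActsAbsolutelyIrreducibly (Cfsg.Geo.matrixSet R))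
    (hRf : R ≤ Cfsg.spGL 2 F) (hR5 : Nat.card R = 2 ^ 5) (hRZ : Nat.card (Subgroup.center R) = 2) (hRm : Cfsg.Geo.IsOfMinusType 2 R)
    (r : ℕ) [Fact r.Prime]
    (hΩ : r ∣ (Cfsg.Geo.subgroupNormalizer R).relIndex (Cfsg.spGL 2 F)) :
    (∀ x ∈ Cfsg.spGL 2 F, (∃ z : F, ((x ^ r : GL (Fin 2 ⊕ Fin 2) F) : Matrix (Fin 2 ⊕ Fin 2) (Fin 2 ⊕ Fin 2) F) = z • (1 : Matrix (Fin 2 ⊕ Fin 2) (Fin 2 ⊕ Fin 2) F)) →
      (∀ z : F, (x : Matrix (Fin 2 ⊕ Fin 2) (Fin 2 ⊕ Fin 2) F) ≠ z • (1 : Matrix (Fin 2 ⊕ Fin 2) (Fin 2 ⊕ Fin 2) F)) →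
      ∃ g ∈ Cfsg.spGL 2 F, g⁻¹ * x * g ∈ Cfsg.Geo.subgroupNormalizer R) ↔ (r = 2 ∨ (r = 5 ∧ orderOf (p : ZMod 5) = 4)) := by
  have hp : p.Prime := Fact.out
  have hcard : Nat.card F = p := by rw [Nat.card_eq_fintype_card, hF]
  have hne : ∀ k : ℕ, k.Prime → k ≠ p → (k : F) ≠ 0 := fun k hk hkp =>
    natCast_ne_zero_of_ne hk hkp
  have hp2 : p ≠ 2 := by rintro rfl; exact absurd hodd (by decide)
  have h2 := hne 2 Nat.prime_two hp2.symm
  have h := St.of (by exact_mod_cast h2) (by simp) hRs hRi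
  obtain ⟨a, b, c, d, H⟩ := h.exists_b4 (by omega)
  have hm := minus_of h hRs.pGroup hRm (h.neg_one_mem H)
  obtain ⟨a, b, c, d, H⟩ := h.exists_q4_of_minus (by omega) hm
  have hG : ∀ y, Good R y → y ∈ spGL 2 F := fun y hy =>
    mem_sp_adj.2 (hy.2 _ ⟨adj_mul, fun s hs => mem_sp_adj.1 (hRf hs)⟩)
  constructor
  · intro H1
    have hd := mul_card_dvd hΩ bot_le bot_le
    rcases h.prime_cases (.inl rfl) hRZ hR5 (fun x hx => det_sp hx)
      ((dvd_mul_right _ _).trans hd) H1 with rfl | rfl | rfl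
    · exact .inl rfl
    · exfalso
      by_cases h5 : p = 3
      · subst h5
        have h3 : (3 : F) = 0 := by exact_mod_cast CharP.cast_eq_zero F 3
        have e : (1 + vecMulVec (Pi.single (.inl 0) 1) (Pi.single (.inr 0) 1) :
            Matrix (Fin 2 ⊕ Fin 2) (Fin 2 ⊕ Fin 2) F)ᵀ * J (Fin 2) F *
            (1 + vecMulVec (Pi.single (.inl 0) 1) (Pi.single (.inr 0) 1)) = J (Fin 2) F := by
          ext (s | s) (t | t) <;> fin_cases s <;> fin_cases t <;>
            simp [J, mul_apply, vecMulVec_apply, one_apply, Pi.single_apply]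
        obtain ⟨z, hz⟩ := h.el_tv H1 (x := mkSp _ e) (mem_sp.2 e) h3 rfl (by simp)
        simpa [mkSp, vecMulVec_apply] using congrFun (congrFun hz (.inl 0)) (.inr 0)
      · have h3 : (3 : F) ≠ 0 := by exact_mod_cast hne 3 Nat.prime_three (Ne.symm h5)
        let M : Matrix (Fin 2 ⊕ Fin 2) (Fin 2 ⊕ Fin 2) F :=
          fromBlocks !![0, 0; 0, 1] !![-1, 0; 0, 0] !![1, 0; 0, 0] !![-1, 0; 0, 1]
        have e : Mᵀ * J (Fin 2) F * M = J (Fin 2) F := by
          ext (s | s) (t | t) <;> fin_cases s <;> fin_cases t <;> simp [M, J, mul_apply, one_apply]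
        have e2 : M * M = fromBlocks !![-1, 0; 0, 1] !![1, 0; 0, 0] !![-1, 0; 0, 0] !![0, 0; 0, 1] := by
          ext (s | s) (t | t) <;> fin_cases s <;> fin_cases t <;> simp [M, mul_apply]
        have e3 : M * (M * M) = 1 := by
          rw [e2]
          ext (s | s) (t | t) <;> fin_cases s <;> fin_cases t <;> simp [M, mul_apply]
        obtain ⟨g, g1, g2, g3⟩ := El.exists H1 (x := mkSp _ e) (mem_sp.2 e) (Units.ext (by
          rw [pow_three]; exact e3)) fun ⟨z, hz⟩ => by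
            simpa [mkSp, M] using congrFun (congrFun hz (.inl 0)) (.inr 0)
        rcases h.trace_cases (.inl rfl) hRZ hR5 g1 g2 g3 with e' | ⟨-, e'⟩
        · rw [show (g⁻¹ * mkSp M e * g)⁻¹ = g⁻¹ * (mkSp M e)⁻¹ * g by group] at e'
          simp only [Units.val_mul, trace_units_conj'] at e'
          rw [Units.inv_eq_of_mul_eq_one_right (u := mkSp M e) e3, e2] at e'
          change M.trace * _ = _ at e'
          simp [M, trace] at e'
          exact h3 (by linear_combination -e')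
        · exact h.not_fpf H hm (fun s hs ⟨z, hz⟩ => Units.ext (by
            rw [Units.val_mul, hz, smul_mul_smul_comm, sq_of_smul (hRf hs) hz]; simp)) g1 g2 e'
    · refine .inr ⟨rfl, ?_⟩
      by_contra h4
      obtain ⟨k, hk⟩ := exists_golden hp2 h4
      have h5 := (CharP.intCast_eq_zero_iff F p _).2 hk
      push_cast at h5
      let M : Matrix (Fin 2 ⊕ Fin 2) (Fin 2 ⊕ Fin 2) F := fromBlocks 0 (-1) 1 ((k : F) • 1)
      have e : Mᵀ * J (Fin 2) F * M = J (Fin 2) F := by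
        simp [M, J, fromBlocks_transpose, fromBlocks_multiply]
      obtain ⟨z, hz⟩ := h.el_quad H1 (x := mkSp _ e) (mem_sp.2 e) h5 (by
        change M * M = (k : F) • M - 1
        ext (s | s) (t | t) <;> fin_cases s <;> fin_cases t <;> simp [M, mul_apply, one_apply] <;>
          ring)
      simpa [mkSp, M] using congrFun (congrFun hz (.inr 0)) (.inl 0)
  · rintro (rfl | ⟨rfl, h4⟩) x hx ⟨z, hz⟩ hx'
    · have h0 := ne_zero_of_eq_smul hz
      have hz' : x.1 * x.1 = z • 1 := by rw [← hz, pow_two, Units.val_mul]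
      obtain ⟨y, y1, y2⟩ : ∃ y ∈ R, Sim (toLin' y.1) (toLin' x.1) := by
        rcases mul_self_eq_one_iff.1 (sq_of_smul (pow_mem hx 2) hz) with rfl | rfl
        · exact ⟨a, H.ma, sim_of_invol h.two (by simp) H.aa (by simpa using hz')
            (not_sc_iff.1 (h.not_sc_of_anti H.ba)) hx' (det_sp (hRf H.ma)) (det_sp hx)⟩
        refine ⟨c, H.mc, ?_⟩
        by_cases h1 : IsSquare (-1 : F)
        · obtain ⟨i, hi⟩ := h1
          have i0 : i ≠ 0 := by rintro rfl; simp at hi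
          have key : ∀ y ∈ spGL 2 F, y.1 * y.1 = -1 → (∀ z : F, y.1 ≠ z • 1) →
              (i • y.1) * (i • y.1) = 1 ∧ (∀ z : F, i • y.1 ≠ z • 1) ∧ (i • y.1).det = 1 := by
            refine fun y hy e e' => ⟨by rw [smul_mul_smul_comm, e, ← hi]; simp, fun z hz =>
              e' (i⁻¹ * z) (by rw [mul_smul, ← hz, smul_smul, inv_mul_cancel₀ i0, one_smul]), ?_⟩
            rw [det_smul, det_sp hy]; simp; linear_combination (1 - i * i) * hi
          obtain ⟨c1, c2, c3⟩ := key c (hRf H.mc) H.cc (not_sc_iff.1 (h.not_sc_of_anti H.dc))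
          obtain ⟨x1, x2, x3⟩ := key x hx (by simpa using hz') hx'
          have := sim_smul (sim_of_invol h.two (by simp) c1 x1 c2 x2 c3 x3) i⁻¹
          simpa only [smul_smul, inv_mul_cancel₀ i0, one_smul] using this
        · have key : ∀ A : Matrix (Fin 2 ⊕ Fin 2) (Fin 2 ⊕ Fin 2) F, A * A = -1 →
              aeval (toLin' A) (X ^ 2 - C (-1 : F)) = 0 := fun A hA => by
            rw [aeval_toLin', map_sub, map_pow, aeval_X, pow_two, hA]; simp
          exact sim_of_irreducible (monic_X_pow_sub_C _ two_ne_zero) (irreducible_X_sq_add_one h1)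
            (key _ H.cc) (key _ (by simpa using hz')) rfl
      obtain ⟨g, hg, e'⟩ := exists_sp_conj h2 h0 hz hx (hRf y1) y2
      exact ⟨g, hg, e' ▸ Subgroup.le_normalizer y1⟩
    · have h0 := ne_zero_of_eq_smul hz
      have h5 : ((5 : ℕ) : F) ≠ 0 := hne 5 Nat.prime_five (by
        rintro rfl
        rw [orderOf_eq_iff (by norm_num)] at h4
        revert h4
        decide +revert)
      have z2 := sq_of_smul (pow_mem hx 5) hz
      have hR : ∀ A : Matrix (Fin 2 ⊕ Fin 2) (Fin 2 ⊕ Fin 2) F, A ^ 5 = 1 → Lib.C6.Rat 5 A :=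
        fun A => rat_of_order Nat.prime_five h5 (by rwa [hcard])
      obtain ⟨y, y1, y2⟩ := h.five_sim H h5 (fun y _ => hR _) (hR (z • x.1) (by
        rw [_root_.smul_pow, ← Units.val_pow_eq_pow_val, hz, smul_smul,
          show z ^ 5 * z = (z * z) ^ 3 by ring, z2, one_pow, one_smul])) (smul_ne_one h0 hx')
      obtain ⟨g, hg, e'⟩ := exists_sp_conj h5 h0 hz hx (mem_sp.2 (by
        rw [smulGL_coe, transpose_smul, smul_mul_assoc, smul_mul_smul_comm, mem_sp.1 (hG y y1),
          ← mul_inv, z2, inv_one, one_smul])) (sim_unscale h0 y2)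
      exact ⟨g, hg, e' ▸ mem_normalizer_of_smul y1.1 rfl⟩

end Cfsg.Agent.S6002
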